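import Cfsg.Statements.S5395
import Cfsg.Agent.H29.XS3

set_option autoImplicit false
open Cfsg

namespace Cfsg.Agent.S5395

/-- For a finite extraspecial 2-group E, an automorphism of E that induces the identity on E modulo its centre is inner (so these automorphisms form exactly the inner automorphism group, an elementary abelian 2-group of order |E|/2). -/
theorem result {E : Type*} [Group E] [Finite E] (hE : Cfsg.IsExtraspecial 2 E) (φ : E ≃* E) (hφ : ∀ x : E, φ x * x⁻¹ ∈ Subgroup.center E) : ∃ g : E, ∀ x : E, φ x = g * x * g⁻¹ := by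
  obtain ⟨z, h⟩ := H29.xs_top hE
  have hzc : ∀ x : E, x * z = z * x := fun x => h.z_comm x (Subgroup.mem_top x)
  have hcen : ∀ x ∈ Subgroup.center E, x = 1 ∨ x = z := by
    intro x hx
    exact h.cent x (Subgroup.mem_top x) (fun y _ => (Subgroup.mem_center_iff.1 hx y).symm)
  have hφ2 : ∀ x, φ x = x ∨ φ x = z * x := by
    intro x
    rcases hcen _ (hφ x) with h1 | h1
    · left; exact mul_inv_eq_one.1 h1
    · right; exact mul_inv_eq_iff_eq_mul.1 h1
  let K : Subgroup E :=
    { carrier := {x | φ x = x}
      one_mem' := map_one φ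
      mul_mem' := by
        intro a b ha hb
        show φ (a * b) = a * b
        rw [map_mul, show φ a = a from ha, show φ b = b from hb]
      inv_mem' := by
        intro a ha
        show φ a⁻¹ = a⁻¹
        rw [map_inv, show φ a = a from ha] }
  have hK : ∀ x, x ∈ K ↔ φ x = x := fun x => Iff.rfl
  by_cases hKt : K = ⊤
  · refine ⟨1, fun x => ?_⟩
    have : x ∈ K := by rw [hKt]; exact Subgroup.mem_top x
    rw [(hK x).1 this]; simp
  obtain ⟨y₀, hy₀⟩ : ∃ y, y ∉ K := by
    by_contra hne
    push Not at hne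
    exact hKt (eq_top_iff.2 fun x _ => hne x)
  have hmul : ∀ x y, x ∉ K → y ∉ K → x * y⁻¹ ∈ K := by
    intro x y hx hy
    have h1 := (hφ2 x).resolve_left hx
    have h2 := (hφ2 y).resolve_left hy
    rw [hK, map_mul, map_inv, h1, h2, mul_inv_rev, ← hzc x]
    have hzi : z⁻¹ = z := inv_eq_of_mul_eq_one_left h.z_sq
    rw [hzi]
    calc x * z * (y⁻¹ * z) = x * (z * (y⁻¹ * z)) := by group
      _ = x * (z * (z * y⁻¹)) := by rw [hzc]
      _ = x * (z * z) * y⁻¹ := by group
      _ = x * y⁻¹ := by rw [h.z_sq, mul_one]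
  have hzK : z ∈ K := by
    rw [hK]
    have h1 : φ z ∈ Subgroup.center E := by
      rw [Subgroup.mem_center_iff]
      intro g
      obtain ⟨g', rfl⟩ := φ.surjective g
      rw [← map_mul, ← map_mul, hzc]
    rcases hcen _ h1 with h2 | h2
    · exfalso
      apply h.z_ne
      apply φ.injective
      rw [h2, map_one]
    · exact h2
  have hcardK : 2 * Nat.card K = Nat.card E := by
    have h1 : K.index = 2 := by
      rw [Subgroup.index_eq_two_iff]
      refine ⟨y₀⁻¹, fun b => ?_⟩
      by_cases hb : b ∈ K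
      · right
        refine ⟨hb, fun h2 => hy₀ ?_⟩
        have := mul_mem (inv_mem hb) h2
        rw [inv_mul_cancel_left] at this
        exact (inv_mem_iff).1 this
      · left
        exact ⟨hmul _ _ hb hy₀, hb⟩
    have := K.card_mul_index
    rw [h1] at this
    omega
  have h1 := h.card_cent_mul hzK le_top
  rw [Subgroup.card_top, ← hcardK] at h1
  have hKpos : 0 < Nat.card K := Nat.card_pos
  have h2 : Nat.card (H29.XS.centIn (⊤ : Subgroup E) K) = 4 := by
    apply Nat.eq_of_mul_eq_mul_right hKpos
    rw [h1]; ring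
  have h3 : ∃ g ∈ H29.XS.centIn (⊤ : Subgroup E) K, g ≠ 1 ∧ g ≠ z := by
    by_contra hne
    push Not at hne
    have h4 : H29.XS.centIn (⊤ : Subgroup E) K ≤ Subgroup.zpowers z := by
      intro g hg
      rw [H29.mem_zpowers_of_sq h.z_sq]
      by_cases hg1 : g = 1
      · left; exact hg1
      · right; exact hne g hg hg1
    have h5 := Subgroup.card_le_of_le h4
    rw [h2, h.card_zpowers] at h5
    omega
  obtain ⟨g, hg, hg1, hgz⟩ := h3
  rw [H29.XS.mem_centIn] at hg
  have hnc : ∃ y, g * y ≠ y * g := by
    by_contra hne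
    push Not at hne
    rcases h.cent g (Subgroup.mem_top g) (fun y _ => hne y) with h4 | h4
    · exact hg1 h4
    · exact hgz h4
  obtain ⟨y, hy⟩ := hnc
  have hyK : y ∉ K := fun h4 => hy (hg.2 y h4)
  refine ⟨g, fun x => ?_⟩
  by_cases hx : x ∈ K
  · rw [(hK x).1 hx, hg.2 x hx]; group
  · rw [(hφ2 x).resolve_left hx]
    have h4 : g * x ≠ x * g := by
      intro h5
      apply hy
      have h6 := hmul y x hyK hx
      have h7 := hg.2 _ h6
      calc g * y = (g * (y * x⁻¹)) * x := by group
        _ = (y * x⁻¹ * g) * x := by rw [h7]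
        _ = y * x⁻¹ * (g * x) := by group
        _ = y * x⁻¹ * (x * g) := by rw [h5]
        _ = y * g := by group
    have h5 := (h.comm g (Subgroup.mem_top g) x (Subgroup.mem_top x)).resolve_left h4
    rw [h5]; group

end Cfsg.Agent.S5395
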