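import Cfsg.Statements.S0130
import Mathlib
import Cfsg.Agent.H22.PStep
import Cfsg.Agent.H22.OddPG1
import Cfsg.Agent.H2.Frat

set_option autoImplicit false
set_option linter.all false
open Cfsg

namespace Cfsg.Agent.S0130

open scoped commutatorElement

theorem commute_of_pow {p n : ℕ} (hp : p.Prime) (hn : p ^ n ≠ 2) (hn0 : n ≠ 0) : p ∣ p ^ n * (p ^ n - 1) / 2 := by
  obtain ⟨m, rfl⟩ := Nat.exists_eq_succ_of_ne_zero hn0
  rcases hp.eq_two_or_odd' with h2 | hodd
  · subst h2
    have hm : m ≠ 0 := by rintro rfl; exact hn rfl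
    obtain ⟨j, rfl⟩ := Nat.exists_eq_succ_of_ne_zero hm
    have h1 : 2 ^ (j.succ.succ) * (2 ^ (j.succ.succ) - 1) / 2 = 2 * (2 ^ j * (2 ^ (j.succ.succ) - 1)) := by
      have : 2 ^ (j.succ.succ) * (2 ^ (j.succ.succ) - 1) = (2 * (2 ^ j * (2 ^ (j.succ.succ) - 1))) * 2 := by
        simp only [Nat.succ_eq_add_one]
        rw [show (2:ℕ) ^ (j+1+1) = 2 ^ j * 4 by rw [pow_succ, pow_succ]; ring]; ring
      rw [this, Nat.mul_div_cancel _ (by norm_num)]
    rw [h1]
    exact Dvd.intro _ rfl
  · have h1 : Odd (p ^ m.succ) := hodd.pow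
    obtain ⟨k, hk⟩ := h1
    have h2 : p ^ m.succ - 1 = 2 * k := by omega
    rw [h2]
    have h3 : p ^ m.succ * (2 * k) / 2 = p * (p ^ m * k) := by
      have : p ^ m.succ * (2 * k) = (p * (p ^ m * k)) * 2 := by
        rw [Nat.succ_eq_add_one, pow_succ]; ring
      rw [this, Nat.mul_div_cancel _ (by norm_num)]
    rw [h3]
    exact Dvd.intro _ rfl

/-- If A is maximal among the normal abelian subgroups of exponent dividing p^n of a p-group (p^n ≠ 2), then A contains every element of order dividing p^n in its centralizer. -/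
theorem result {G : Type*} [Group G] [Finite G] {p : ℕ} [Fact p.Prime] (hG : IsPGroup p G) (n : ℕ) (hn : p ^ n ≠ 2) (A : Subgroup G) [A.Normal] (hA : IsMulCommutative A) (hAe : ∀ a ∈ A, a ^ p ^ n = 1) (hmax : ∀ B : Subgroup G, B.Normal → IsMulCommutative B → (∀ b ∈ B, b ^ p ^ n = 1) → A ≤ B → B = A) (x : G) (hx : x ∈ Subgroup.centralizer (A : Set G)) (hxn : x ^ p ^ n = 1) : x ∈ A := by
  classical
  by_contra hxA
  -- minimal B
  obtain ⟨B, hB, hmin⟩ := Set.Finite.exists_minimal
    (s := {B : Subgroup G | B.Normal ∧ A ≤ B ∧ B ≤ Subgroup.centralizer (A : Set G) ∧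
      ∃ x ∈ B, x ∉ A ∧ x ^ p ^ n = 1}) (Set.toFinite _)
    ⟨Subgroup.centralizer (A : Set G), inferInstance,
      (fun a ha => by
        rw [Subgroup.mem_centralizer_iff]
        intro b hb
        exact congrArg Subtype.val (hA.is_comm.comm ⟨b, hb⟩ ⟨a, ha⟩)), le_rfl, x, hx, hxA, hxn⟩
  obtain ⟨hBn, hAB, hBC, y, hyB, hyA, hyn⟩ := hB
  have hpp : p.Prime := Fact.out
  have hn0 : n ≠ 0 := by
    rintro rfl
    rw [pow_zero, pow_one] at hyn
    exact hyA (hyn ▸ one_mem A)
  have hlt : A < B := lt_of_le_of_ne hAB (fun h => hyA (h ▸ hyB))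
  obtain ⟨L, hLn, hAL, hLB, hcom, hpow⟩ := Cfsg.Agent.H22.exists_step hG hlt
  -- elements of L of order dividing p^n are in A
  have hL : ∀ z ∈ L, z ^ p ^ n = 1 → z ∈ A := by
    intro z hz hzn
    by_contra hzA
    have := hmin ⟨hLn, hAL, hLB.le.trans hBC, z, hz, hzA, hzn⟩ hLB.le
    exact absurd hLB (not_lt_of_ge this)
  have hcen : ∀ a ∈ A, ∀ b ∈ B, a * b = b * a := fun a ha b hb =>
    Subgroup.mem_centralizer_iff.1 (hBC hb) a ha
  have hcj : ∀ g, g * y * g⁻¹ ∈ B := fun g => hBn.conj_mem y hyB g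
  have hcjn : ∀ g, (g * y * g⁻¹) ^ p ^ n = 1 := fun g => by
    rw [← MulAut.conj_apply, ← map_pow, hyn, map_one]
  have hyp : y ^ p ∈ A := by
    apply hL _ (hpow y hyB)
    rw [← pow_mul, mul_comm, pow_mul, hyn, one_pow]
  -- all conjugates commute
  have key : ∀ (N : ℕ) (g : G), Nat.card (Subgroup.closure ({y, g * y * g⁻¹} : Set G)) ≤ N →
      y * (g * y * g⁻¹) = (g * y * g⁻¹) * y := by
    intro N
    induction N with
    | zero =>
      intro g hN
      have : 0 < Nat.card (Subgroup.closure ({y, g * y * g⁻¹} : Set G)) := Nat.card_pos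
      omega
    | succ N ih =>
      intro g hN
      set y' := g * y * g⁻¹ with hy'
      set D := Subgroup.closure ({y, y'} : Set G) with hD
      have hyD : y ∈ D := Subgroup.subset_closure (by simp)
      have hy'D : y' ∈ D := Subgroup.subset_closure (by simp)
      by_cases htop : Subgroup.zpowers (⟨y, hyD⟩ : D) = ⊤
      · have h1 : (⟨y', hy'D⟩ : D) ∈ Subgroup.zpowers (⟨y, hyD⟩ : D) := by
          rw [htop]; exact Subgroup.mem_top _
        obtain ⟨k, hk⟩ := h1
        have h2 : y ^ k = y' := congrArg Subtype.val hk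
        rw [← h2]
        exact (Commute.refl y).zpow_right k
      obtain ⟨M, hM, hyM⟩ := (eq_top_or_exists_le_coatom (Subgroup.zpowers (⟨y, hyD⟩ : D))).resolve_left htop
      obtain ⟨hMi, hMn⟩ := Cfsg.Agent.H2.index_eq_of_isCoatom (hG.to_subgroup D) hM
      -- conjugates of y by elements of D commute with y
      have hcomm : ∀ d ∈ D, y * (d * y * d⁻¹) = (d * y * d⁻¹) * y := by
        intro d hd
        apply ih
        have h1 : Subgroup.closure ({y, d * y * d⁻¹} : Set G) ≤ M.map D.subtype := by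
          rw [Subgroup.closure_le]
          intro z hz
          rcases hz with rfl | hz
          · exact ⟨⟨_, hyD⟩, hyM (Subgroup.mem_zpowers _), rfl⟩
          · rw [Set.mem_singleton_iff] at hz
            subst hz
            exact ⟨⟨d, hd⟩ * ⟨y, hyD⟩ * ⟨d, hd⟩⁻¹, hMn.conj_mem _ (hyM (Subgroup.mem_zpowers _)) _, rfl⟩
        have h2 : Nat.card (M.map D.subtype) < Nat.card D := by
          rw [Subgroup.card_map_of_injective D.subtype_injective]
          have h3 := Subgroup.card_mul_index M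
          rw [hMi] at h3
          have h4 : 0 < Nat.card M := Nat.card_pos
          have h5 := hpp.one_lt
          nlinarith
        have h3 := Subgroup.card_le_of_le h1
        omega
      -- the commutator
      set c := ⁅y, y'⁆ with hc
      have hcn : c ^ p ^ n = 1 := by
        have h1 : c = y * (y' * y * y'⁻¹)⁻¹ := by rw [hc, commutatorElement_def]; group
        have h2 : Commute y (y' * y * y'⁻¹)⁻¹ := (show Commute y (y' * y * y'⁻¹) from hcomm y' hy'D).inv_right
        rw [h1, h2.mul_pow, hyn, one_mul, inv_pow, hcjn, inv_one]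
      have hcA : c ∈ A := hL c (hcom y hyB y') hcn
      have hcy : ∀ b ∈ B, Commute c b := fun b hb => hcen c hcA b hb
      have hcp : c ^ p = 1 := by
        have h1 : ∀ k : ℕ, y ^ k * y' * (y ^ k)⁻¹ = c ^ k * y' := by
          intro k
          induction k with
          | zero => simp
          | succ k ihk =>
            have h2 : y ^ (k+1) * y' * (y ^ (k+1))⁻¹ = y * (y ^ k * y' * (y ^ k)⁻¹) * y⁻¹ := by
              rw [pow_succ']; group
            have h3 : y * (c ^ k * y') * y⁻¹ = c ^ k * (y * y' * y⁻¹) := by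
              rw [← mul_assoc, ← ((hcy y hyB).pow_left k).eq]; group
            have h4 : y * y' * y⁻¹ = c * y' := by rw [hc, commutatorElement_def]; group
            rw [h2, ihk, h3, h4, pow_succ, mul_assoc]
        have h2 := h1 p
        have h3 : y ^ p * y' * (y ^ p)⁻¹ = y' := by
          rw [hcen _ hyp y' (hcj g)]; group
        rw [h3] at h2
        exact (mul_eq_right.1 h2.symm)
      set z := y⁻¹ * y' with hz
      have hzL : z ∈ L := by
        have h1 := hcom y⁻¹ (inv_mem hyB) g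
        have h2 : ⁅y⁻¹, g⁆ = z := by rw [hz, hy', commutatorElement_def]; group
        rwa [h2] at h1
      have hzn : z ^ p ^ n = 1 := by
        have h1 : y' * y⁻¹ = c * (y⁻¹ * y') := by
          have h2 : c * y' * y = y * y' := by rw [hc, commutatorElement_def]; group
          have h3 := (hcy y hyB).eq
          calc y' * y⁻¹ = y⁻¹ * (y * y') * y⁻¹ := by group
            _ = y⁻¹ * (c * y' * y) * y⁻¹ := by rw [h2]
            _ = y⁻¹ * c * y' := by group
            _ = c * (y⁻¹ * y') := by rw [← ((hcy y hyB).inv_right).eq, mul_assoc]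
        rw [hz, Cfsg.Agent.H22.mul_pow_class_two h1 (hcy y hyB).inv_right (hcy y' (hcj g)), inv_pow, hyn,
          hcjn g, inv_one, mul_one, mul_one]
        obtain ⟨e, he⟩ := commute_of_pow hpp hn hn0
        rw [he, pow_mul, hcp, one_pow]
      have hzA := hL z hzL hzn
      have h1 : y' = y * z := by rw [hz]; group
      have h2 := hcen z hzA y hyB
      rw [h1]
      calc y * (y * z) = y * (z * y) := by rw [h2]
        _ = y * z * y := (mul_assoc y z y).symm
  have hcomm2 : ∀ g h : G, (g * y * g⁻¹) * (h * y * h⁻¹) = (h * y * h⁻¹) * (g * y * g⁻¹) := by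
    intro g h
    have h1 := key _ (g⁻¹ * h) le_rfl
    have h2 : g * (y * (g⁻¹ * h * y * (g⁻¹ * h)⁻¹)) * g⁻¹ =
        g * (g⁻¹ * h * y * (g⁻¹ * h)⁻¹ * y) * g⁻¹ := by rw [h1]
    calc (g * y * g⁻¹) * (h * y * h⁻¹) = g * (y * (g⁻¹ * h * y * (g⁻¹ * h)⁻¹)) * g⁻¹ := by group
      _ = g * (g⁻¹ * h * y * (g⁻¹ * h)⁻¹ * y) * g⁻¹ := h2
      _ = _ := by group
  -- the final group
  set W := Subgroup.normalClosure ({y} : Set G) with hW
  have hyW : y ∈ W := Subgroup.subset_normalClosure rfl
  have hWB : W ≤ B := Subgroup.normalClosure_le_normal (by simpa using hyB)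
  have hWcl : W = Subgroup.closure {z : G | ∃ g, z = g * y * g⁻¹} := by
    rw [hW, Subgroup.normalClosure]
    congr 1
    ext z
    simp only [Group.mem_conjugatesOfSet_iff, Set.mem_singleton_iff, exists_eq_left, Set.mem_setOf_eq,
      isConj_iff]
    exact ⟨fun ⟨g, hg⟩ => ⟨g, hg.symm⟩, fun ⟨g, hg⟩ => ⟨g, hg.symm⟩⟩
  have hWc : ∀ a ∈ W, ∀ b ∈ W, a * b = b * a := by
    have h1 : W ≤ Subgroup.centralizer (W : Set G) := by
      rw [hWcl, Subgroup.closure_le]
      rintro _ ⟨g, rfl⟩
      rw [SetLike.mem_coe, Subgroup.centralizer_closure, Subgroup.mem_centralizer_iff]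
      rintro _ ⟨h, rfl⟩
      exact hcomm2 h g
    intro a ha b hb
    exact (Subgroup.mem_centralizer_iff.1 (h1 ha) b hb).symm
  have hWn : ∀ w ∈ W, w ^ p ^ n = 1 := by
    intro w hw
    have hw' : w ∈ Subgroup.closure {z : G | ∃ g, z = g * y * g⁻¹} := by rw [← hWcl]; exact hw
    induction hw' using Subgroup.closure_induction with
    | mem b hb => obtain ⟨h, rfl⟩ := hb; exact hcjn h
    | one => simp
    | mul a b ha hb iha ihb =>
      rw [← hWcl] at ha hb
      rw [(show Commute a b from hWc a ha b hb).mul_pow, iha ha, ihb hb, one_mul]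
    | inv a ha iha =>
      rw [← hWcl] at ha
      rw [inv_pow, iha ha, inv_one]
  have hmem : ∀ k ∈ A ⊔ W, ∃ a ∈ A, ∃ w ∈ W, a * w = k := by
    intro k hk
    rw [← SetLike.mem_coe, Subgroup.normal_mul] at hk
    obtain ⟨a, ha, w, hw, rfl⟩ := hk
    exact ⟨a, ha, w, hw, rfl⟩
  have hfin := hmax (A ⊔ W) inferInstance ?_ ?_ le_sup_left
  · apply hyA
    rw [← hfin]
    exact (le_sup_right : W ≤ A ⊔ W) hyW
  · refine ⟨⟨?_⟩⟩
    rintro ⟨k, hk⟩ ⟨l, hl⟩
    obtain ⟨a, ha, w, hw, rfl⟩ := hmem k hk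
    obtain ⟨b, hb, v, hv, rfl⟩ := hmem l hl
    apply Subtype.ext
    show a * w * (b * v) = b * v * (a * w)
    have h1 := hcen a ha v (hWB hv)
    have h2 := hcen b hb w (hWB hw)
    have h3 := hWc w hw v hv
    have h4 := hcen a ha b (hAB hb)
    calc a * w * (b * v) = a * (w * b) * v := by group
      _ = a * (b * w) * v := by rw [h2]
      _ = (a * b) * (w * v) := by group
      _ = (b * a) * (v * w) := by rw [h4, h3]
      _ = b * (a * v) * w := by group
      _ = b * (v * a) * w := by rw [h1]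
      _ = _ := by group
  · intro k hk
    obtain ⟨a, ha, w, hw, rfl⟩ := hmem k hk
    rw [(show Commute a w from hcen a ha w (hWB hw)).mul_pow, hAe a ha, hWn w hw, one_mul]

end Cfsg.Agent.S0130
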