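import Cfsg.Statements.S0547
import Cfsg.Agent.H1.PrimSolv

set_option autoImplicit false
open Cfsg

namespace Cfsg.Agent.S0547

/-- Let a finite solvable group G act faithfully and primitively on a set, and let M be a minimal normal subgroup of G. Then M is transitive with trivial point stabilizers, and the number of points equals the order of M, which is a prime power p ^ d with d ≥ 1. -/
theorem result {G : Type*} [Group G] [Finite G] [Group.IsSolvable G] {Ω : Type*} [Nonempty Ω] [MulAction G Ω] [FaithfulSMul G Ω] (hprim : MulAction.IsPreprimitive G Ω) (M : Subgroup G) [M.Normal] (hM : M ≠ ⊥) (hmin : ∀ K : Subgroup G, K.Normal → K ≤ M → K = ⊥ ∨ K = M) : MulAction.IsPretransitive M Ω ∧ (∀ ω : Ω, MulAction.stabilizer M ω = ⊥) ∧ ∃ p d : ℕ, p.Prime ∧ 0 < d ∧ Nat.card Ω = p ^ d ∧ Nat.card M = p ^ d := by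
  have key := fun ω : Ω => Cfsg.Agent.H1.prim_solvable (G := G) (Ω := Ω) inferInstance hprim (M := M) inferInstance hM hmin ω
  haveI := hprim
  have htr : MulAction.IsPretransitive M Ω := by
    constructor
    intro x y
    obtain ⟨g, hg⟩ := MulAction.exists_smul_eq G x y
    obtain ⟨-, -, h3, -, -, -⟩ := key x
    have : g ∈ M ⊔ MulAction.stabilizer G x := by rw [h3]; exact Subgroup.mem_top g
    obtain ⟨m, hm, k, hk, rfl⟩ := Subgroup.mem_sup_of_normal_left.mp this
    refine ⟨⟨m, hm⟩, ?_⟩
    rw [mul_smul, MulAction.mem_stabilizer_iff.mp hk] at hg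
    exact hg
  have hst : ∀ ω : Ω, MulAction.stabilizer M ω = ⊥ := by
    intro ω
    rw [eq_bot_iff]
    intro m hm
    obtain ⟨-, -, -, h4, -, -⟩ := key ω
    have : (m : G) ∈ M ⊓ MulAction.stabilizer G ω := Subgroup.mem_inf.mpr ⟨m.2, hm⟩
    rw [h4, Subgroup.mem_bot] at this
    rw [Subgroup.mem_bot]
    exact Subtype.ext this
  refine ⟨htr, hst, ?_⟩
  obtain ⟨-, p, hp, hMp, -⟩ := Cfsg.Agent.H1.minimal_normal_solvable (N := M) inferInstance hM hmin inferInstance
  haveI : Fact p.Prime := ⟨hp⟩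
  obtain ⟨d, hd⟩ := IsPGroup.iff_card.mp hMp
  have hd0 : 0 < d := by
    rcases Nat.eq_zero_or_pos d with h | h
    · rw [h, pow_zero] at hd
      exact absurd (Subgroup.card_eq_one.mp hd) hM
    · exact h
  obtain ⟨ω⟩ : Nonempty Ω := inferInstance
  have hc : Nat.card Ω = Nat.card M := by
    have e := MulAction.orbitEquivQuotientStabilizer M ω
    have h1 : Nat.card (MulAction.orbit M ω) = Nat.card Ω := by
      rw [MulAction.orbit_eq_univ]
      exact Nat.card_congr (Equiv.Set.univ Ω)
    rw [← h1, Nat.card_congr e, hst ω, ← Subgroup.index_eq_card, Subgroup.index_bot]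
  exact ⟨p, d, hp, hd0, hc.trans hd, hd⟩

end Cfsg.Agent.S0547
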