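import Cfsg.Statements.S0548
import Cfsg.Agent.H1.PrimSolv

set_option autoImplicit false
open Cfsg

namespace Cfsg.Agent.S0548

/-- Let a finite solvable group G act faithfully and primitively on a set, let M be a minimal normal subgroup and H the stabilizer of a point. Then H is a complement to M, no non-identity element of H centralizes M, and the only subgroups of M normalized by H are the trivial subgroup and M. -/
theorem result {G : Type*} [Group G] [Finite G] [Group.IsSolvable G] {Ω : Type*} [MulAction G Ω] [FaithfulSMul G Ω] (hprim : MulAction.IsPreprimitive G Ω) (M : Subgroup G) [M.Normal] (hM : M ≠ ⊥) (hmin : ∀ K : Subgroup G, K.Normal → K ≤ M → K = ⊥ ∨ K = M) (ω : Ω) : Subgroup.IsComplement' M (MulAction.stabilizer G ω) ∧ MulAction.stabilizer G ω ⊓ Subgroup.centralizer (M : Set G) = ⊥ ∧ ∀ K : Subgroup G, K ≤ M → MulAction.stabilizer G ω ≤ Subgroup.normalizer (K : Set G) → K = ⊥ ∨ K = M := by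
  obtain ⟨h1, h2, h3, h4, h5, h6⟩ := Cfsg.Agent.H1.prim_solvable (G := G) (Ω := Ω) inferInstance hprim (M := M) inferInstance hM hmin ω
  refine ⟨Cfsg.Agent.H1.isComplement'_of_inf_sup h4 h3, by rw [h6, inf_comm]; exact h4, ?_⟩
  intro K hKM hK
  apply hmin K _ hKM
  rw [← Subgroup.normalizer_eq_top_iff, eq_top_iff, ← h3]
  refine sup_le ?_ hK
  have : M ≤ Subgroup.centralizer (K : Set G) := by
    rw [Subgroup.le_centralizer_iff]
    exact hKM.trans (Subgroup.le_centralizer_iff_isMulCommutative.mpr h5)
  exact this.trans (Subgroup.centralizer_le_normalizer _)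

end Cfsg.Agent.S0548
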