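import Cfsg.Statements.S0698
import Cfsg.Agent.H10.Perm9

set_option autoImplicit false
open Cfsg

namespace Cfsg.Agent.S0698

/-- Jordan's Theorem on normal subgroups of multiply transitive groups: if `G` is `k`-transitive (`k > 1`) of degree greater than `k`, a non-trivial normal subgroup is `(k-1)`-transitive, except possibly for `k = 3` when it may be an elementary abelian 2-group. -/
theorem result {α : Type*} [Fintype α] [DecidableEq α] (G : Subgroup (Equiv.Perm α)) {k : ℕ} (hk : 1 < k) (hdeg : k < Fintype.card α) (hG : MulAction.IsMultiplyPretransitive G α k) (N : Subgroup G) [N.Normal] (hN : N ≠ ⊥) : MulAction.IsMultiplyPretransitive N α (k - 1) ∨ (k = 3 ∧ IsMulCommutative N ∧ ∀ n ∈ N, n ^ 2 = 1) := by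
  classical
  obtain ⟨m, rfl⟩ : ∃ m, k = m + 1 := ⟨k-1, by omega⟩
  simp only [Nat.add_sub_cancel]
  rw [← Nat.card_eq_fintype_card] at hdeg
  have hprim : MulAction.IsMultiplyPreprimitive G α m :=
    MulAction.isMultiplyPreprimitive_of_isMultiplyPretransitive_succ G α (by
      rw [ENat.card_eq_coe_natCard]; exact_mod_cast hdeg.le)
  have hle : (m : ℕ∞) ≤ ENat.card α := by
    rw [ENat.card_eq_coe_natCard]; exact_mod_cast (by omega)
  by_cases hnr : ∃ a : α, ∃ h ∈ N, h ≠ 1 ∧ h • a = a
  · left
    rw [← Cfsg.Agent.H10.kt_iff]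
    exact Cfsg.Agent.H10.kt_of_prim m (by omega) (by omega) hprim N hnr
  push Not at hnr
  have hreg : ∀ x : α, MulAction.stabilizer N x = ⊥ := by
    intro x
    rw [eq_bot_iff]
    rintro ⟨n, hn⟩ hnx
    rw [Subgroup.mem_bot]
    by_contra hne
    exact hnr x n hn (fun h => hne (Subtype.ext h)) hnx
  have h1 : MulAction.IsPreprimitive G α := by
    rw [← MulAction.is_one_preprimitive_iff]
    exact MulAction.isMultiplyPreprimitive_of_le G α hprim (by omega) hle
  have ht := Cfsg.Agent.H22.isPretransitive_of_normal_of_primitive h1 N inferInstance hN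
  by_cases hm : m = 1
  · subst hm; left; rw [MulAction.is_one_pretransitive_iff]; exact ht
  right
  have h2p := MulAction.isMultiplyPreprimitive_of_le G α hprim (m := 2) (by omega) hle
  rcases Cfsg.Agent.H10.two_prim_reg h2p (by omega) ht hreg with h3 | ⟨hc, hsq, _⟩
  · omega
  · refine ⟨?_, ⟨⟨fun a b => Subtype.ext (hc a a.2 b b.2)⟩⟩, hsq⟩
    by_contra hk3
    have h3p := MulAction.isMultiplyPreprimitive_of_le G α hprim (m := 3) (by omega) hle
    have := Cfsg.Agent.H10.three_prim_reg h3p (by omega) ht hreg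
    omega

end Cfsg.Agent.S0698
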