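import Cfsg.Statements.S3779
import Cfsg.Agent.H23.Kreknin2
import Cfsg.Agent.H23.GrLie
import Cfsg.Agent.S4206
import Cfsg.Agent.H20.Fpf

set_option autoImplicit false
set_option linter.all false
open Cfsg

namespace Cfsg.Agent.S3779

open Subgroup
open scoped commutatorElement

open Cfsg.Agent.H23.Kreknin Cfsg.Agent.H23.GrLie

/-- the lower central series as a strongly central series -/
def lcsNS (G : Type*) [Group G] [Finite G] : NS G where
  S := fun i => (⊤ : Subgroup G).lowerCentralSeries (i - 1)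
  nor := fun i => inferInstance
  anti := fun i => Subgroup.lowerCentralSeries_antitone _ (show i - 1 ≤ i + 1 - 1 by omega)
  comm := by
    intro i j
    rcases Nat.eq_zero_or_pos i with rfl | hi
    · refine (Subgroup.commutator_le_right _ _).trans ?_
      show (⊤ : Subgroup G).lowerCentralSeries (j - 1) ≤ (⊤ : Subgroup G).lowerCentralSeries (0 + j - 1)
      exact Subgroup.lowerCentralSeries_antitone _ (by omega)
    rcases Nat.eq_zero_or_pos j with rfl | hj
    · refine (Subgroup.commutator_le_left _ _).trans ?_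
      show (⊤ : Subgroup G).lowerCentralSeries (i - 1) ≤ (⊤ : Subgroup G).lowerCentralSeries (i + 0 - 1)
      exact Subgroup.lowerCentralSeries_antitone _ (by omega)
    have h := Cfsg.Agent.S4206.result (G := G) (fun n => (⊤ : Subgroup G).lowerCentralSeries n)
      (fun n => inferInstance) (fun n => Subgroup.lowerCentralSeries_antitone _ (Nat.le_succ n)) ⊤
      (fun n => le_rfl) (i - 1) (j - 1)
    rwa [show i - 1 + (j - 1) + 1 = i + j - 1 by omega] at h
  top0 := rfl
  top1 := rfl

theorem coprime_card {G : Type*} [Group G] [Finite G] {p : ℕ} [Fact p.Prime] (α : MulAut G)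
    (hα : orderOf α = p) (hfpf : ∀ g : G, α g = g → g = 1) : (Nat.card G).Coprime p := by
  classical
  haveI := Fintype.ofFinite G
  have hα' : α ^ p = 1 := hα ▸ pow_orderOf_eq_one α
  have h1 : Nat.card G ≡ Nat.card (MulAction.fixedPoints (Subgroup.zpowers α) G) [MOD p] := by
    apply IsPGroup.card_modEq_card_fixedPoints
    have : Nat.card (Subgroup.zpowers α) = p ^ 1 := by rw [Nat.card_zpowers, hα, pow_one]
    exact IsPGroup.of_card this
  have h2 : MulAction.fixedPoints (Subgroup.zpowers α) G = {1} := by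
    ext g
    rw [MulAction.mem_fixedPoints, Set.mem_singleton_iff]
    constructor
    · intro h
      exact hfpf g (h ⟨α, Subgroup.mem_zpowers α⟩)
    · rintro rfl ⟨m, hm⟩
      exact map_one m
  rw [h2] at h1
  have h3 : Nat.card ({1} : Set G) = 1 := by simp
  rw [h3] at h1
  have hp := (Fact.out : p.Prime)
  rw [Nat.coprime_comm, hp.coprime_iff_not_dvd]
  intro hd
  have h4 := (Nat.modEq_zero_iff_dvd.2 hd).symm.trans h1
  have h5 := (Nat.modEq_zero_iff_dvd.1 h4.symm)
  exact hp.one_lt.ne' (Nat.dvd_one.1 h5)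

theorem aux {G : Type*} [Group G] [Finite G] {p : ℕ} [Fact p.Prime] (α : MulAut G)
    (hα : orderOf α = p) (hfpf : ∀ g : G, α g = g → g = 1) :
    (p = 3 → (⊤ : Subgroup G).lowerCentralSeries 2 = ⊥) ∧
    (⊤ : Subgroup G).lowerCentralSeries (Finset.sum (Finset.range (2 ^ (p - 1) - 1)) (fun i => (p - 1) ^ i)) = ⊥ := by
  have hp := (Fact.out : p.Prime)
  have hcop := coprime_card α hα hfpf
  have hα' : α ^ p = 1 := hα ▸ pow_orderOf_eq_one α
  have hiter : ∀ (m : ℕ) (g : G), (α.toMonoidHom)^[m] g = (α ^ m) g := by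
    intro m
    induction m with
    | zero => intro g; rfl
    | succ m ih => intro g; rw [Function.iterate_succ_apply', ih, pow_succ']; rfl
  have hit : ∀ g : G, (α.toMonoidHom)^[p] g = g := by
    intro g; rw [hiter, hα']; rfl
  have hit' : ∀ g : G, (α^[p]) g = g := hit
  have hnil : Group.IsNilpotent G :=
    Cfsg.Agent.H20.Fpf.isNilpotent_of_fpf hp (Nat.card G) G le_rfl α hit' hfpf
  let Γ := lcsNS G
  have hS : ∀ i, Γ.S i = (⊤ : Subgroup G).lowerCentralSeries (i - 1) := fun _ => rfl
  have hpres : ∀ i, ∀ g ∈ Γ.S i, α.toMonoidHom g ∈ Γ.S i := by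
    intro i g hg
    have hch : ((⊤ : Subgroup G).lowerCentralSeries (i - 1)).Characteristic := inferInstance
    have := hch.fixed α
    have h2 : g ∈ ((⊤ : Subgroup G).lowerCentralSeries (i - 1)).comap α.toMonoidHom := by
      rw [this]; exact hg
    exact h2
  have hsurj : ∀ (N : Subgroup G), (∀ g ∈ N, α g ∈ N) → ∀ g ∈ N, ∃ n ∈ N, n⁻¹ * α n = g := by
    intro N hN g hg
    let f : N → N := fun n => ⟨(n : G)⁻¹ * α n, N.mul_mem (N.inv_mem n.2) (hN _ n.2)⟩
    have hinj : Function.Injective f := by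
      intro a b hab
      have h1 : (a : G)⁻¹ * α a = (b : G)⁻¹ * α b := congrArg Subtype.val hab
      have h2 : α ((b : G) * (a : G)⁻¹) = (b : G) * (a : G)⁻¹ := by
        rw [map_mul, map_inv]
        have : α (a : G) = a * ((b : G)⁻¹ * α b) := by rw [← h1]; group
        rw [this]; group
      have h3 := hfpf _ h2
      exact Subtype.ext (mul_inv_eq_one.1 h3).symm
    obtain ⟨n, hn⟩ := (Finite.injective_iff_surjective.1 hinj) ⟨g, hg⟩
    exact ⟨n, n.2, congrArg Subtype.val hn⟩
  have hf : ∀ i g, g ∈ Γ.S i → g⁻¹ * α.toMonoidHom g ∈ Γ.S (i + 1) → g ∈ Γ.S (i + 1) := by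
    intro i g hg h
    obtain ⟨n, hn, hng⟩ := hsurj (Γ.S (i + 1)) (hpres (i + 1)) _ h
    have h2 : α (g * n⁻¹) = g * n⁻¹ := by
      rw [map_mul, map_inv]
      have h3 : α g = g * (n⁻¹ * α n) := by
        rw [hng]
        change α g = g * (g⁻¹ * α g)
        group
      rw [h3]; group
    have h3 := hfpf _ h2
    rw [mul_inv_eq_one.1 h3]
    exact hn
  have hdiv : ∀ x : Γ.LG, ∃ y : Γ.LG, x = (p : ℕ) • y := by
    intro x
    induction x using Γ.ind with
    | h0 => exact ⟨0, by rw [smul_zero]⟩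
    | hadd x y h1 h2 =>
        obtain ⟨a, ha⟩ := h1
        obtain ⟨b, hb⟩ := h2
        exact ⟨a + b, by rw [smul_add, ← ha, ← hb]⟩
    | hE i g hi hg =>
        have hnsmul : ∀ (m : ℕ) (g : G), g ∈ Γ.S i → Γ.E i (g ^ m) = m • Γ.E i g := by
          intro m g hg
          induction m with
          | zero => rw [pow_zero, Γ.E_one, zero_smul]
          | succ m ih => rw [pow_succ, Γ.E_add (Subgroup.pow_mem _ hg m) hg, ih, succ_nsmul]
        have hc : (Nat.card G).Coprime p := hcop
        refine ⟨Γ.E i ((powCoprime hc).symm g), ?_⟩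
        have h1 : ((powCoprime hc).symm g) ^ p = g := (powCoprime hc).apply_symm_apply g
        have h2 : (powCoprime hc).symm g ∈ Γ.S i := by
          have h3 : (powCoprime hc).symm g = g ^ ((Nat.card G).gcdB p) := rfl
          rw [h3]
          exact Subgroup.zpow_mem _ hg _
        rw [← hnsmul p _ h2, h1]
  have main := lie_main p (Γ.aL α.toMonoidHom hpres) (Γ.aL_lie α.toMonoidHom hpres)
    (Γ.aL_iter α.toMonoidHom hpres hit) (Γ.aL_fix α.toMonoidHom hpres hf) hdiv
  have hgen : ∀ (m : ℕ) (g : G), g ∈ (⊤ : Subgroup G).lowerCentralSeries m → Γ.E (m + 1) g ∈ lcs Γ.LG m := by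
    intro m
    induction m with
    | zero => intro g _; exact AddSubgroup.mem_top _
    | succ m ih =>
        intro g hg
        rw [Subgroup.mem_lowerCentralSeries_succ_iff] at hg
        have hsub : closure {x | ∃ p ∈ (⊤ : Subgroup G).lowerCentralSeries m, ∃ q ∈ (⊤ : Subgroup G), ⁅p, q⁆ = x} ≤
            Γ.S (m + 1 + 1) := le_rfl
        refine Subgroup.closure_induction (p := fun g _ => Γ.E (m + 1 + 1) g ∈ lcs Γ.LG (m + 1)) ?_ ?_ ?_ ?_ hg
        · rintro x ⟨a, ha, b, hb, rfl⟩
          have ha' : a ∈ Γ.S (m + 1) := ha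
          have hb' : b ∈ Γ.S 1 := by rw [Γ.top1]; trivial
          rw [← Γ.E_lie ha' hb']
          exact brk_mem_lcs (ih a ha)
        · rw [Γ.E_one]; exact AddSubgroup.zero_mem _
        · intro a b ha hb h1 h2
          rw [Γ.E_add (hsub ha) (hsub hb)]; exact AddSubgroup.add_mem _ h1 h2
        · intro a ha h1
          rw [Γ.E_inv (hsub ha)]; exact AddSubgroup.neg_mem _ h1
  have fin : ∀ c, lcs Γ.LG c = ⊥ → (⊤ : Subgroup G).lowerCentralSeries c = ⊥ := by
    intro c hc
    have h1 : (⊤ : Subgroup G).lowerCentralSeries c ≤ (⊤ : Subgroup G).lowerCentralSeries (c + 1) := by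
      intro g hg
      have h2 := hgen c g hg
      rw [hc, AddSubgroup.mem_bot] at h2
      have hg' : g ∈ Γ.S (c + 1) := hg
      exact (Γ.E_eq_zero hg').1 h2
    have h2 : ∀ m, (⊤ : Subgroup G).lowerCentralSeries c ≤ (⊤ : Subgroup G).lowerCentralSeries (c + m) := by
      intro m
      induction m with
      | zero => exact le_rfl
      | succ m ih =>
          refine h1.trans ?_
          rw [Subgroup.lowerCentralSeries_succ, ← Nat.add_assoc, Subgroup.lowerCentralSeries_succ]
          exact Subgroup.commutator_mono ih le_rfl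
    obtain ⟨k, hk⟩ := Subgroup.nilpotent_iff_lowerCentralSeries.1 hnil
    rw [eq_bot_iff]
    refine (h2 k).trans ?_
    refine (Subgroup.lowerCentralSeries_antitone _ (Nat.le_add_left k c)).trans hk.le
  exact ⟨fun h3 => fin _ (main.2 h3), fin _ main.1⟩

/-- Let G be a finite group with an automorphism of prime order p fixing only the identity. Then G is nilpotent; if p = 2 then G is abelian, if p = 3 then G has class at most 2, and in general the class of G is at most ξ = 1 + (p−1) + (p−1)² + ⋯ + (p−1)^(n−1) with n = 2^(p−1) − 1 (the Higman–Kreknin–Kostrikin bound). -/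
theorem result {G : Type*} [Group G] [Finite G] {p : ℕ} (hp : p.Prime) (α : MulAut G) (hα : orderOf α = p) (hfpf : ∀ g : G, α g = g → g = 1) : (p = 2 → (⊤ : Subgroup G).lowerCentralSeries 1 = ⊥) ∧ (p = 3 → (⊤ : Subgroup G).lowerCentralSeries 2 = ⊥) ∧ (⊤ : Subgroup G).lowerCentralSeries (Finset.sum (Finset.range (2 ^ (p - 1) - 1)) (fun i => (p - 1) ^ i)) = ⊥ := by
  haveI := Fact.mk hp
  obtain ⟨h3, hgen⟩ := aux α hα hfpf
  refine ⟨?_, h3, hgen⟩
  intro h2
  subst h2
  have : (Finset.sum (Finset.range (2 ^ (2 - 1) - 1)) (fun i => (2 - 1) ^ i)) = 1 := by decide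
  rw [this] at hgen
  exact hgen

end Cfsg.Agent.S3779
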