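import Cfsg.Statements.S0304
import Mathlib
import Cfsg.Agent.H5.OrthSp

set_option autoImplicit false
open Cfsg

namespace Cfsg.Agent.S0304

/-- In characteristic 2, O_{2m+1}(q) is isomorphic to Sp_{2m}(q). -/
theorem result {F : Type*} [Field F] [Fintype F] [CharP F 2] (m : ℕ) : Nonempty (Cfsg.isometryGroup F (Cfsg.quadFormOdd m F) ≃* Matrix.symplecticGroup (Fin m) F) := by
  have h2 : (2 : F) = 0 := by exact_mod_cast CharP.cast_eq_zero F 2
  rw [← Cfsg.Agent.H5.qOdd_coe]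
  exact ⟨(Cfsg.Agent.H5.ogEquiv _).trans (MulEquiv.ofBijective (Cfsg.Agent.H5.toSp h2)
    ⟨Cfsg.Agent.H5.toSp_injective h2, Cfsg.Agent.H5.toSp_surjective h2⟩)⟩

end Cfsg.Agent.S0304
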