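import Cfsg.Statements.S2395
-- import your own Cfsg.Agent.* helpers here

set_option autoImplicit false
open Cfsg

namespace Cfsg.Agent.S2395

open Cfsg.Lie Cfsg.Lie.ChevalleyDatum

variable {K : Type*} [Field K]

/-- product formula in the abelianization -/
lemma rel_prod (D : ChevalleyDatum) (r s : ℕ) (hr : r < D.nroots) (hs : s < D.nroots) (h1 : s ≠ r)
    (h2 : s ≠ D.neg r) (t u : K) :
    ((D.commTerms r s).map fun c => (Abelianization.of (D.scGen K c.1 ((c.2.1 : K) * (-t) ^ c.2.2.1 * u ^ c.2.2.2)) :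
      Abelianization (D.SteinbergCover K))).prod = 1 := by
  have hrel : PresentedGroup.mk (D.steinbergRelsAB K)
      ((D.stX s u)⁻¹ * (D.stX r t)⁻¹ * D.stX s u * D.stX r t * (D.stWord (D.commWord K r s t u))⁻¹) = 1 := by
    apply PresentedGroup.one_of_mem
    right
    exact ⟨r, s, t, u, hr, hs, h1, h2, rfl⟩
  have h3 := congrArg (Abelianization.of (G := D.SteinbergCover K)) hrel
  simp only [map_mul, map_inv, map_one] at h3
  have h4 : (Abelianization.of (PresentedGroup.mk (D.steinbergRelsAB K) (D.stWord (D.commWord K r s t u))) :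
      Abelianization (D.SteinbergCover K)) = 1 := by
    rw [mul_comm (Abelianization.of (PresentedGroup.mk (D.steinbergRelsAB K) (D.stX s u)))⁻¹, inv_mul_cancel_right,
      inv_mul_cancel, one_mul, inv_eq_one] at h3
    exact h3
  rw [stWord, commWord, List.map_map, map_list_prod, map_list_prod, List.map_map, List.map_map] at h4
  exact h4

lemma scGen_add (D : ChevalleyDatum) (r : ℕ) (hr : r < D.nroots) (t u : K) :
    D.scGen K r (t + u) = D.scGen K r t * D.scGen K r u := by
  have hrel : PresentedGroup.mk (D.steinbergRelsAB K) (D.stX r t * D.stX r u * (D.stX r (t + u))⁻¹) = 1 := by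
    apply PresentedGroup.one_of_mem
    left
    exact ⟨r, t, u, hr, rfl⟩
  rw [map_mul, map_mul, map_inv, mul_inv_eq_one] at hrel
  exact hrel.symm

def Triv (K : Type*) [Field K] (D : ChevalleyDatum) (k : ℕ) : Prop :=
  ∀ v : K, (Abelianization.of (D.scGen K k v) : Abelianization (D.SteinbergCover K)) = 1

lemma triv_single (D : ChevalleyDatum) (r s k : ℕ) (c : ℤ) (hr : r < D.nroots) (hs : s < D.nroots) (h1 : s ≠ r)
    (h2 : s ≠ D.neg r) (hc : c = 1 ∨ c = -1) (h : D.commTerms r s = [(k, c, 1, 1)]) : Triv K D k := by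
  intro v
  have := rel_prod (K := K) D r s hr hs h1 h2 (-(c : K)) v
  rw [h] at this
  simp only [List.map_cons, List.map_nil, List.prod_cons, List.prod_nil, mul_one, pow_one, neg_neg] at this
  have hcc : (c : K) * c = 1 := by rcases hc with rfl | rfl <;> simp
  rw [hcc, one_mul] at this
  exact this

lemma triv_double (D : ChevalleyDatum) (r s k₁ k₂ : ℕ) (c₁ c₂ : ℤ) (l : List (ℕ × ℤ × ℕ × ℕ))
    (hr : r < D.nroots) (hs : s < D.nroots) (hk₁ : k₁ < D.nroots) (hk₂ : k₂ < D.nroots) (h1 : s ≠ r)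
    (h2 : s ≠ D.neg r) (hc₁ : c₁ = 1 ∨ c₁ = -1) (hc₂ : c₂ = 1 ∨ c₂ = -1) (h : D.commTerms r s = (k₁, c₁, 1, 1) :: (k₂, c₂, 2, 1) :: l)
    (hl : ∀ e ∈ l, Triv K D e.1) (hK : ∃ x : K, x ≠ 0 ∧ x ≠ 1) : Triv K D k₁ ∧ Triv K D k₂ := by
  have hc1 : (c₁ : K) * c₁ = 1 := by rcases hc₁ with rfl | rfl <;> simp
  have hc2 : (c₂ : K) * c₂ = 1 := by rcases hc₂ with rfl | rfl <;> simp
  have key : ∀ t u : K, (Abelianization.of (D.scGen K k₁ ((c₁ : K) * (-t) * u)) : Abelianization (D.SteinbergCover K)) *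
      Abelianization.of (D.scGen K k₂ ((c₂ : K) * (-t) ^ 2 * u)) = 1 := by
    intro t u
    have := rel_prod (K := K) D r s hr hs h1 h2 t u
    rw [h] at this
    simp only [List.map_cons, List.prod_cons, pow_one] at this
    have hone : ((l.map fun c => (Abelianization.of (D.scGen K c.1 ((c.2.1 : K) * (-t) ^ c.2.2.1 * u ^ c.2.2.2)) :
      Abelianization (D.SteinbergCover K))).prod) = 1 := by
      apply List.prod_eq_one
      intro x hx
      rw [List.mem_map] at hx
      obtain ⟨e, he, rfl⟩ := hx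
      exact hl e he _
    rw [hone, mul_one] at this
    exact this
  obtain ⟨x, hx0, hx1⟩ := hK
  have hT2 : Triv K D k₂ := by
    intro v
    have hx1' : x - 1 ≠ 0 := sub_ne_zero.2 hx1
    -- u with c₂ (x-1) u = v, t = -1
    set u : K := (c₂ : K) * v * (x - 1)⁻¹ with hu
    have e1 := key (-1) u
    have e2 := key (-x) (u * x⁻¹)
    have a1 : (c₁ : K) * (-(-x)) * (u * x⁻¹) = (c₁ : K) * (-(-1)) * u := by field_simp
    have a2 : (c₂ : K) * (-(-x)) ^ 2 * (u * x⁻¹) = (c₂ : K) * (-(-1)) ^ 2 * u + v := by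
      have : (c₂ : K) * (-(-x)) ^ 2 * (u * x⁻¹) = (c₂ : K) * x * u := by field_simp
      rw [this]
      have e3 : (c₂ : K) * x * u = (c₂ : K) * u + (c₂ : K) * (x - 1) * u := by ring
      have e4 : (c₂ : K) * (x - 1) * u = v := by
        rw [hu]
        calc (c₂ : K) * (x - 1) * ((c₂ : K) * v * (x - 1)⁻¹) = ((c₂ : K) * c₂) * v * ((x - 1) * (x - 1)⁻¹) := by ring
          _ = v := by rw [hc2, mul_inv_cancel₀ hx1']; ring
      rw [e3, e4]; ring
    rw [a1, a2, scGen_add D k₂ hk₂, map_mul, ← mul_assoc, e1, one_mul] at e2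
    exact e2
  refine ⟨?_, hT2⟩
  intro v
  have := key (-1) ((c₁ : K) * v)
  rw [hT2, mul_one] at this
  have e : (c₁ : K) * (-(-1)) * ((c₁ : K) * v) = v := by
    calc _ = ((c₁ : K) * c₁) * v := by ring
      _ = v := by rw [hc1, one_mul]
  rwa [e] at this

lemma top_of_triv (D : ChevalleyDatum) (h : ∀ k < D.nroots, Triv K D k) : commutator (D.SteinbergCover K) = ⊤ := by
  have h1 : (Abelianization.of (G := D.SteinbergCover K)) = 1 := by
    apply PresentedGroup.ext
    rintro ⟨⟨k, hk⟩, v⟩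
    have := h k hk v
    have e : D.scGen K k v = PresentedGroup.of (⟨k, hk⟩, v) := by
      rw [scGen, stX, dif_pos hk]; rfl
    rw [e] at this
    rw [this]; rfl
  have h2 : (Abelianization.of (G := D.SteinbergCover K)).ker = commutator (D.SteinbergCover K) := Abelianization.ker_of _
  rw [← h2, h1]; exact MonoidHom.ker_one

/-- check of a single witness -/
def okS (D : ChevalleyDatum) (k : ℕ) (w : ℕ × ℕ) : Bool :=
  decide (w.1 < D.nroots) && decide (w.2 < D.nroots) && decide (w.2 ≠ w.1) && decide (w.2 ≠ D.neg w.1) &&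
    (D.commTerms w.1 w.2 == [(k, 1, 1, 1)] || D.commTerms w.1 w.2 == [(k, -1, 1, 1)])

lemma triv_of_okS (D : ChevalleyDatum) (k : ℕ) (w : ℕ × ℕ) (h : okS D k w = true) : Triv K D k := by
  rw [okS, Bool.and_eq_true, Bool.and_eq_true, Bool.and_eq_true, Bool.and_eq_true, Bool.or_eq_true,
    decide_eq_true_eq, decide_eq_true_eq, decide_eq_true_eq, decide_eq_true_eq, beq_iff_eq, beq_iff_eq] at h
  obtain ⟨⟨⟨⟨h1, h2⟩, h3⟩, h4⟩, h5 | h5⟩ := h
  · exact triv_single D w.1 w.2 k 1 h1 h2 h3 h4 (Or.inl rfl) h5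
  · exact triv_single D w.1 w.2 k (-1) h1 h2 h3 h4 (Or.inr rfl) h5

def okAll (D : ChevalleyDatum) (l : List (ℕ × ℕ)) : Bool :=
  decide (D.nroots = l.length) && (l.zipIdx.all fun p => okS D p.2 p.1)

lemma top_of_okAll (D : ChevalleyDatum) (l : List (ℕ × ℕ)) (h : okAll D l = true) :
    commutator (D.SteinbergCover K) = ⊤ := by
  apply top_of_triv
  intro k hk
  rw [okAll, Bool.and_eq_true, decide_eq_true_eq, List.all_eq_true] at h
  have hk' : k < l.length := h.1 ▸ hk
  exact triv_of_okS D k l[k] (h.2 (l[k], k) (by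
    rw [List.mem_iff_getElem]
    exact ⟨k, by simpa using hk', by simp⟩))

/-- check of a double witness: the pair `(r, s)`, where all roots in the list `L` are known to be trivial -/
def okD (D : ChevalleyDatum) (L : List ℕ) (k : ℕ) (w : ℕ × ℕ) : Bool :=
  decide (w.1 < D.nroots) && decide (w.2 < D.nroots) && decide (w.2 ≠ w.1) && decide (w.2 ≠ D.neg w.1) &&
    (match D.commTerms w.1 w.2 with
      | (k₁, c₁, 1, 1) :: (k₂, c₂, 2, 1) :: l => decide (k₁ < D.nroots) && decide (k₂ < D.nroots) &&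
          decide (c₁ = 1 ∨ c₁ = -1) && decide (c₂ = 1 ∨ c₂ = -1) && (l.all fun e => decide (e.1 ∈ L)) &&
          decide (k = k₁ ∨ k = k₂)
      | _ => false)

lemma triv_of_okD (D : ChevalleyDatum) (L : List ℕ) (k : ℕ) (w : ℕ × ℕ) (hL : ∀ e ∈ L, Triv K D e)
    (hK : ∃ x : K, x ≠ 0 ∧ x ≠ 1) (h : okD D L k w = true) : Triv K D k := by
  rw [okD, Bool.and_eq_true, Bool.and_eq_true, Bool.and_eq_true, Bool.and_eq_true,
    decide_eq_true_eq, decide_eq_true_eq, decide_eq_true_eq, decide_eq_true_eq] at h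
  obtain ⟨⟨⟨⟨h1, h2⟩, h3⟩, h4⟩, h5⟩ := h
  split at h5
  · rename_i k₁ c₁ k₂ c₂ l heq
    simp only [Bool.and_eq_true, decide_eq_true_eq, List.all_eq_true] at h5
    obtain ⟨⟨⟨⟨⟨h6, h7⟩, h8⟩, h9⟩, h10⟩, h11⟩ := h5
    have := triv_double (K := K) D w.1 w.2 k₁ k₂ c₁ c₂ l h1 h2 h6 h7 h3 h4 h8 h9 heq
      (fun e he => hL _ (h10 e he)) hK
    rcases h11 with rfl | rfl
    · exact this.1
    · exact this.2
  · exact absurd h5 (by simp)

def wit_chevD4 : List (ℕ × ℕ) := [(1, 9), (0, 14), (0, 15), (0, 16), (0, 17), (1, 17), (0, 19), (0, 20), (0, 21), (0, 22), (1, 20), (1, 21), (2, 22), (3, 22), (1, 23), (2, 23), (3, 23), (4, 23), (6, 22), (6, 23), (7, 23), (8, 23), (9, 23), (14, 22)]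

lemma ok_chevD4 : okAll chevD4 wit_chevD4 = true := by decide +kernel

def wit_chevF4 : List (ℕ × ℕ) := [(1, 23), (0, 24), (0, 26), (7, 14), (0, 31), (0, 32), (1, 32), (3, 33), (3, 34), (3, 35), (3, 36), (3, 37), (3, 38), (3, 39), (3, 40), (0, 42), (0, 43), (1, 43), (7, 37), (7, 38), (7, 39), (0, 45), (1, 45), (0, 46), (1, 47), (2, 46), (2, 47), (8, 40), (9, 40), (10, 40), (4, 46), (4, 47), (5, 47), (7, 44), (8, 44), (9, 44), (10, 44), (11, 44), (12, 44), (13, 44), (14, 44), (15, 46), (15, 47), (16, 47), (33, 40), (21, 47), (23, 47), (24, 46)]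

lemma ok_chevF4 : okAll chevF4 wit_chevF4 = true := by decide +kernel

def wit_chevE6 : List (ℕ × ℕ) := [(1, 25), (0, 46), (0, 47), (0, 48), (0, 49), (0, 50), (0, 51), (0, 52), (0, 53), (0, 54), (0, 55), (1, 53), (1, 54), (1, 55), (2, 55), (5, 55), (0, 61), (0, 62), (0, 63), (0, 64), (0, 65), (0, 66), (0, 67), (0, 68), (0, 69), (0, 70), (1, 64), (1, 65), (1, 66), (2, 66), (1, 67), (1, 68), (1, 69), (2, 67), (2, 68), (3, 67), (4, 68), (3, 69), (4, 69), (2, 70), (3, 70), (4, 70), (5, 69), (5, 70), (6, 70), (7, 70), (1, 71), (2, 71), (3, 71), (4, 71), (5, 71), (6, 71), (7, 71), (8, 71), (9, 71), (10, 71), (16, 66), (16, 69), (16, 70), (17, 70), (18, 70), (16, 71), (17, 71), (18, 71), (19, 71), (20, 71), (21, 71), (22, 71), (23, 71), (24, 71), (25, 71), (46, 70)]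

lemma ok_chevE6 : okAll chevE6 wit_chevE6 = true := by decide +kernel

def wit_chevE7 : List (ℕ × ℕ) := [(1, 32), (0, 93), (0, 94), (0, 95), (0, 96), (0, 97), (0, 98), (0, 99), (0, 100), (0, 101), (0, 102), (0, 103), (0, 104), (0, 105), (0, 106), (0, 107), (0, 108), (0, 109), (0, 110), (0, 111), (0, 112), (0, 113), (0, 114), (0, 115), (0, 116), (0, 117), (0, 118), (0, 119), (0, 120), (0, 121), (0, 122), (0, 123), (0, 124), (1, 109), (1, 110), (1, 111), (1, 112), (1, 113), (1, 114), (1, 115), (1, 116), (1, 117), (1, 118), (2, 115), (2, 116), (2, 117), (2, 118), (3, 118), (1, 119), (1, 120), (1, 121), (1, 122), (1, 123), (2, 119), (2, 120), (2, 121), (2, 122), (3, 119), (3, 120), (3, 121), (4, 119), (4, 120), (5, 119), (6, 120), (5, 121), (6, 121), (4, 122), (5, 122), (6, 122), (3, 123), (4, 123), (5, 123), (6, 123), (2, 124), (3, 124), (4, 124), (5, 124), (6, 124), (7, 122), (7, 123), (8, 123), (9, 123), (10, 123), (7, 124), (8, 124), (9, 124), (10, 124), (11,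 124), (12, 124), (13, 124), (14, 124), (15, 124), (16, 124), (1, 125), (2, 125), (3, 125), (4, 125), (5, 125), (6, 125), (7, 125), (8, 125), (9, 125), (10, 125), (11, 125), (12, 125), (13, 125), (14, 125), (15, 125), (16, 125), (17, 125), (18, 125), (19, 125), (20, 125), (21, 125), (22, 125), (23, 125), (24, 125), (25, 125), (26, 125), (27, 125), (28, 125), (29, 125), (30, 125), (31, 125), (32, 125), (93, 124)]

lemma ok_chevE7 : okAll chevE7 wit_chevE7 = true := by decide +kernel

def wit_chevE8 : List (ℕ × ℕ) := [(1, 119), (0, 120), (0, 122), (0, 125), (0, 129), (0, 134), (0, 140), (0, 146), (0, 151), (0, 155), (0, 158), (0, 160), (0, 161), (1, 161), (0, 168), (0, 173), (0, 177), (0, 180), (0, 182), (0, 183), (1, 183), (0, 187), (0, 190), (0, 192), (0, 193), (1, 193), (0, 196), (0, 198), (0, 199), (1, 199), (0, 201), (0, 202), (1, 202), (0, 203), (1, 203), (2, 203), (0, 206), (0, 208), (0, 209), (1, 209), (0, 211), (0, 212), (1, 212), (0, 213), (1, 213), (2,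 213), (0, 215), (0, 216), (1, 216), (0, 217), (1, 217), (2, 217), (0, 218), (1, 218), (2, 218), (3, 218), (0, 220), (0, 221), (1, 221), (0, 222), (1, 222), (2, 222), (0, 223), (1, 223), (2, 223), (3, 223), (0, 224), (1, 224), (2, 224), (3, 224), (4, 224), (0, 225), (1, 225), (2, 225), (3, 225), (4, 225), (5, 225), (6, 225), (0, 227), (0, 228), (1, 228), (0, 229), (1, 229), (2, 229), (0, 230), (1, 230), (2, 230), (3, 230), (0, 231), (1, 231), (2, 231), (3, 231), (4, 231), (0, 232), (1, 232), (2, 232), (3, 232), (4, 232), (5, 232), (0, 233), (1, 233), (2, 233), (3, 233), (4, 233), (5, 233), (0, 234), (1, 234), (2, 234), (3, 234), (4, 234), (0, 235), (1, 235), (2, 235), (3, 235), (0, 236), (1, 236), (2, 236), (0, 237), (1, 237), (0, 238), (1, 239), (2, 238), (2, 239), (3, 237), (3, 238), (3, 239), (4, 236), (4, 237), (4, 238), (4, 239), (5, 235), (5, 236), (5, 237), (5, 238), (5, 239), (6, 234), (6, 235), (6, 236), (6, 237), (6, 238), (6, 239), (7, 234), (7, 235),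 (7, 236), (7, 237), (7, 238), (7, 239), (8, 235), (8, 236), (8, 237), (8, 238), (8, 239), (9, 236), (9, 237), (9, 238), (9, 239), (10, 237), (10, 238), (10, 239), (11, 238), (11, 239), (12, 239), (14, 233), (14, 234), (14, 235), (14, 236), (14, 237), (14, 238), (14, 239), (15, 235), (15, 236), (15, 237), (15, 238), (15, 239), (16, 236), (16, 237), (16, 238), (16, 239), (17, 237), (17, 238), (17, 239), (18, 238), (18, 239), (19, 239), (21, 236), (21, 237), (21, 238), (21, 239), (22, 237), (22, 238), (22, 239), (23, 238), (23, 239), (24, 239), (26, 237), (26, 238), (26, 239), (27, 238), (27, 239), (28, 239), (30, 238), (30, 239), (31, 239), (33, 239), (36, 237), (36, 238), (36, 239), (37, 238), (37, 239), (38, 239), (40, 238), (40, 239), (41, 239), (43, 239), (46, 238), (46, 239), (47, 239), (49, 239), (52, 239), (56, 238), (56, 239), (57, 239), (59, 239), (62, 239), (66, 239), (71, 239), (78, 238), (78, 239), (79, 239), (81, 239), (84, 239), (88, 239), (93, 239),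 (99, 239), (105, 239), (110, 239), (114, 239), (117, 239), (119, 239), (120, 238)]

lemma ok_chevE8 : okAll chevE8 wit_chevE8 = true := by decide +kernel


lemma topG2 (hK : ∃ x : K, x ≠ 0 ∧ x ≠ 1) : commutator (chevG2.SteinbergCover K) = ⊤ := by
  have hL : ∀ e ∈ [0, 1, 5, 6, 10, 11], Triv K chevG2 e := by
    have w : ∀ e ∈ [(0, (1, 5)), (1, (0, 6)), (5, (0, 10)), (6, (1, 11)), (10, (5, 11)), (11, (6, 10))],
      okS chevG2 e.1 e.2 = true := by decide +kernel
    intro e he
    simp only [List.mem_cons, List.not_mem_nil, or_false] at he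
    rcases he with rfl | rfl | rfl | rfl | rfl | rfl
    · exact triv_of_okS _ _ _ (w (0, (1, 5)) (by decide))
    · exact triv_of_okS _ _ _ (w (1, (0, 6)) (by decide))
    · exact triv_of_okS _ _ _ (w (5, (0, 10)) (by decide))
    · exact triv_of_okS _ _ _ (w (6, (1, 11)) (by decide))
    · exact triv_of_okS _ _ _ (w (10, (5, 11)) (by decide))
    · exact triv_of_okS _ _ _ (w (11, (6, 10)) (by decide))
  have w : ∀ k < 12, k ∈ [0, 1, 5, 6, 10, 11] ∨ ∃ r < 12, ∃ s < 12, okD chevG2 [0, 1, 5, 6, 10, 11] k (r, s) = true := by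
    decide +kernel
  apply top_of_triv
  intro k hk
  rcases w k hk with h | ⟨r, _, s, _, h⟩
  · exact hL k h
  · exact triv_of_okD chevG2 _ k (r, s) hL hK h

lemma topB2 (hK : ∃ x : K, x ≠ 0 ∧ x ≠ 1) : commutator (chevB2.SteinbergCover K) = ⊤ := by
  have w : ∀ k < 8, ∃ r < 8, ∃ s < 8, okD chevB2 [] k (r, s) = true := by
    decide +kernel
  apply top_of_triv
  intro k hk
  obtain ⟨r, _, s, _, h⟩ := w k hk
  exact triv_of_okD chevB2 [] k (r, s) (by simp) hK h

/-- The group presented by Steinberg's generators x̄_r(t) subject only to (R1) (additivity) and (R2) (the commutator formula) is perfect, for each of the types G₂, B₂, D₄, F₄, E₆, E₇, E₈ over any field (for types B₂ and G₂ the field must have more than two elements — the cases where the Chevalley group is not simple are set aside). -/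
theorem result {K : Type*} [Field K] (D : Cfsg.Lie.ChevalleyDatum) (hD : D ∈ [Cfsg.Lie.chevG2, Cfsg.Lie.chevB2, Cfsg.Lie.chevD4, Cfsg.Lie.chevF4, Cfsg.Lie.chevE6, Cfsg.Lie.chevE7, Cfsg.Lie.chevE8]) (hK : D ∈ [Cfsg.Lie.chevB2, Cfsg.Lie.chevG2] → ∃ x : K, x ≠ 0 ∧ x ≠ 1) :
    commutator (D.SteinbergCover K) = ⊤ := by
  simp only [List.mem_cons, List.not_mem_nil, or_false] at hD
  rcases hD with rfl | rfl | rfl | rfl | rfl | rfl | rfl
  · exact topG2 (hK (by simp))
  · exact topB2 (hK (by simp))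
  · exact top_of_okAll _ _ ok_chevD4
  · exact top_of_okAll _ _ ok_chevF4
  · exact top_of_okAll _ _ ok_chevE6
  · exact top_of_okAll _ _ ok_chevE7
  · exact top_of_okAll _ _ ok_chevE8

end Cfsg.Agent.S2395
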