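import Cfsg.Statements.S5422
import Cfsg.Agent.H29.XS4
import Cfsg.Agent.H4.QZ

set_option autoImplicit false
set_option linter.all false
open Cfsg

namespace Cfsg.Agent.S5422

open Cfsg.Agent.H29 Cfsg.Agent.H14
open scoped commutatorElement

theorem nxs_cj {G : Type*} [Group G] {Q : Subgroup G} {z : G} (h : NXS Q z) (g : G) :
    NXS (cj g Q) (g * z * g⁻¹) := by
  have e : ∀ x y : G, g * x * g⁻¹ * (g * y * g⁻¹) = g * (x * y) * g⁻¹ := by intro x y; group
  have einj : ∀ x y : G, g * x * g⁻¹ = g * y * g⁻¹ → x = y := by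
    intro x y hxy
    have := congrArg (fun w => g⁻¹ * w * g) hxy
    simpa [mul_assoc] using this
  have hm : ∀ x ∈ cj g Q, ∃ u ∈ Q, x = g * u * g⁻¹ := by
    rintro _ ⟨u, hu, rfl⟩
    exact ⟨u, hu, rfl⟩
  have hall : ∀ x : G, ∃ u, x = g * u * g⁻¹ := fun x => ⟨g⁻¹ * x * g, by group⟩
  have hX : XS (cj g Q) (g * z * g⁻¹) := by
    apply XS.mk'
    · exact isPGroup_cj.2 h.hp
    · intro h1
      apply h.z_ne
      apply einj
      rw [h1]; group
    · rw [e, h.z_sq]; group
    · exact conj_mem_cj.2 h.z_mem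
    · intro x hx
      obtain ⟨u, hu, rfl⟩ := hm x hx
      rw [e, e, h.z_comm u hu]
    · intro x hx h1
      obtain ⟨u, hu, rfl⟩ := hm x hx
      rcases h.cent u hu (fun y hy => by
        have := h1 (g * y * g⁻¹) (conj_mem_cj.2 hy)
        rw [e, e] at this
        exact einj _ _ this) with h2 | h2
      · left; rw [h2]; group
      · right; rw [h2]
    · intro x hx y hy
      obtain ⟨u, hu, rfl⟩ := hm x hx
      obtain ⟨v, hv, rfl⟩ := hm y hy
      rcases h.comm u hu v hv with h2 | h2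
      · left; rw [e, e, h2]
      · right; rw [e, e, e, h2]
    · intro x hx
      obtain ⟨u, hu, rfl⟩ := hm x hx
      rcases h.sq u hu with h2 | h2
      · left; rw [e, h2]; group
      · right; rw [e, h2]
    · obtain ⟨x, hx, y, hy, hxy⟩ := h.nonab
      refine ⟨_, conj_mem_cj.2 hx, _, conj_mem_cj.2 hy, ?_⟩
      rw [e, e]
      exact fun h1 => hxy (einj _ _ h1)
  refine ⟨hX, ?_, ?_⟩
  · intro x h1
    obtain ⟨u, rfl⟩ := hall x
    rcases h.cent_G u (fun y hy => by
        have := h1 (g * y * g⁻¹) (conj_mem_cj.2 hy)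
        rw [e, e] at this
        exact einj _ _ this) with h2 | h2
    · left; rw [h2]; group
    · right; rw [h2]
  · intro x
    obtain ⟨u, rfl⟩ := hall x
    rw [normalizer_cj, conj_mem_cj, e, e, h.norm]
    exact ⟨fun h1 => by rw [h1], fun h1 => einj _ _ h1⟩

theorem cj_eq_of_conj {G : Type*} [Group G] {Q : Subgroup G} {z : G} (h : NXS Q z) {g r : G}
    (hr : r * z * r⁻¹ = g * z * g⁻¹) : cj r Q = cj g Q := by
  have h1 : g⁻¹ * r ∈ Subgroup.normalizer (Q : Set G) := by
    rw [h.norm]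
    calc g⁻¹ * r * z = g⁻¹ * (r * z * r⁻¹) * r := by group
      _ = g⁻¹ * (g * z * g⁻¹) * r := by rw [hr]
      _ = z * (g⁻¹ * r) := by group
  rw [mem_normalizer_cj] at h1
  have := congrArg (cj g) h1
  rwa [cj_cj, mul_inv_cancel_left] at this

theorem comm_ratio {G : Type*} [Group G] {Q : Subgroup G} {z : G} (h : XS Q z) {x x' q : G}
    (hx : x ∈ Q) (hx' : x' ∈ Q) (hq : q ∈ Q) (hiff : q * x = x * q ↔ q * x' = x' * q) :
    q * (x' * x⁻¹) = (x' * x⁻¹) * q := by
  have hinv : q * x⁻¹ = x⁻¹ * q ↔ q * x = x * q := by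
    constructor
    · intro h1
      calc q * x = x * (x⁻¹ * q) * x := by group
        _ = x * (q * x⁻¹) * x := by rw [h1]
        _ = x * q := by group
    · intro h1
      calc q * x⁻¹ = x⁻¹ * (x * q) * x⁻¹ := by group
        _ = x⁻¹ * (q * x) * x⁻¹ := by rw [h1]
        _ = x⁻¹ * q := by group
  by_cases h1 : q * x = x * q
  · have h2 := hiff.1 h1
    have h3 := hinv.2 h1
    calc q * (x' * x⁻¹) = (q * x') * x⁻¹ := by group
      _ = (x' * q) * x⁻¹ := by rw [h2]
      _ = x' * (q * x⁻¹) := by group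
      _ = x' * (x⁻¹ * q) := by rw [h3]
      _ = _ := by group
  · exact h.comm_mul hq hx' (inv_mem hx) (fun h2 => h1 (hiff.2 h2)) (fun h2 => h1 (hinv.1 h2))

theorem z_mem_cj {G : Type*} [Group G] [Finite G] {Q : Subgroup G} {z : G} (h : NXS Q z) {g t : G}
    (hgt : g * z * g⁻¹ = t) (htQ : t ∈ Q) (htz : t ≠ z) (hcard : 8 < Nat.card Q) : z ∈ cj g Q := by
  by_contra hz
  have hT : NXS (cj g Q) t := hgt ▸ nxs_cj h g
  have ht1 : t ≠ 1 := hT.z_ne
  have htt : t * t = 1 := hT.z_sq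
  have hti : t⁻¹ = t := inv_eq_of_mul_eq_one_left htt
  have hzz : z * z = 1 := h.z_sq
  have hzi : z⁻¹ = z := inv_eq_of_mul_eq_one_left hzz
  have hcm : t * z = z * t := h.z_comm t htQ
  -- Case A exclusion
  have hA : ∀ q ∈ cj g Q, q * z * q⁻¹ ≠ z * t := by
    intro q hq hqz
    have h1 : NXS (cj q Q) (z * t) := hqz ▸ nxs_cj h q
    have h2 : t ∈ cj q Q := by
      rw [mem_cj]
      have h3 := hT.z_comm q hq
      have h4 : q⁻¹ * t * q = t := by
        rw [mul_assoc, ← h3]; group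
      rw [h4]; exact htQ
    have h4 : ∃ r ∈ cj q Q, t * r ≠ r * t := by
      by_contra hne
      push Not at hne
      rcases h1.cent t h2 hne with h5 | h5
      · exact ht1 h5
      · apply h.z_ne
        have : z = (z * t) * t⁻¹ := by group
        rw [this, ← h5]; group
    obtain ⟨r, hr, hrt⟩ := h4
    have h5 : t * r = (z * t) * (r * t) := (h1.comm t h2 r hr).resolve_left hrt
    have h6 : r * (z * t) = (z * t) * r := h1.z_comm r hr
    have h8 : z * r = r * t := by
      calc z * r = (z * (t * t)) * r := by rw [htt, mul_one]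
        _ = (z * t) * (t * r) := by group
        _ = (z * t) * ((z * t) * (r * t)) := by rw [h5]
        _ = (z * (t * z) * t) * (r * t) := by group
        _ = (z * (z * t) * t) * (r * t) := by rw [hcm]
        _ = (z * z) * (t * t) * (r * t) := by group
        _ = r * t := by rw [hzz, htt]; group
    have h9 : r * z = t * r := by
      calc r * z = r * (z * (t * t)) := by rw [htt, mul_one]
        _ = (r * (z * t)) * t := by group
        _ = ((z * t) * r) * t := by rw [h6]
        _ = (z * t) * (r * t) := by group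
        _ = t * r := h5.symm
    have h7 : cj r Q = cj g Q := cj_eq_of_conj h (by rw [hgt, h9]; group)
    apply hz
    rw [← h7, mem_cj]
    have : r⁻¹ * z * r = t := by rw [mul_assoc, h8]; group
    rw [this]; exact htQ
  have hB : ∀ q ∈ cj g Q, (z * q * z⁻¹ = q ∨ z * q * z⁻¹ = t * q) → z * q * z⁻¹ = q := by
    intro q hq h1
    rcases h1 with h1 | h1
    · exact h1
    · exfalso
      apply hA q hq
      have h2 : z * q = t * q * z := by
        calc z * q = (z * q * z⁻¹) * z := by group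
          _ = _ := by rw [h1]
      calc q * z * q⁻¹ = (t * t) * q * z * q⁻¹ := by rw [htt, one_mul]
        _ = t * (t * q * z) * q⁻¹ := by group
        _ = t * (z * q) * q⁻¹ := by rw [h2]
        _ = t * z := by group
        _ = z * t := hcm
  have hzn : z ∈ Subgroup.normalizer ((cj g Q : Subgroup G) : Set G) := (hT.norm z).2 hcm.symm
  have hcz : ∀ q ∈ cj g Q, z * q * z⁻¹ ∈ cj g Q := fun q hq => conj_mem_of_normalizer hzn hq
  -- Y
  obtain ⟨Y, hY⟩ : ∃ Y : Subgroup G, Y = cj g Q ⊓ Subgroup.centralizer {z} := ⟨_, rfl⟩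
  have hYm : ∀ y, y ∈ Y ↔ y ∈ cj g Q ∧ z * y * z⁻¹ = y := by
    intro y
    rw [hY, Subgroup.mem_inf, Subgroup.mem_centralizer_singleton_iff, mul_inv_eq_iff_eq_mul]
    exact and_congr_right fun _ => eq_comm
  have htY : t ∈ Y := by
    rw [hYm]
    refine ⟨hT.z_mem, ?_⟩
    rw [← hcm]; group
  -- (i)
  have hi : ∀ q ∈ cj g Q, z * q * z⁻¹ * q⁻¹ ∈ Y := by
    intro q hq
    rw [hYm]
    have hc : z * q * z⁻¹ * q⁻¹ ∈ cj g Q := mul_mem (hcz q hq) (inv_mem hq)
    refine ⟨hc, ?_⟩
    have h1 : z * (z * q * z⁻¹ * q⁻¹) * z⁻¹ = (z * q * z⁻¹ * q⁻¹)⁻¹ := by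
      calc z * (z * q * z⁻¹ * q⁻¹) * z⁻¹ = (z * z) * q * z⁻¹ * q⁻¹ * z⁻¹ := by group
        _ = q * z⁻¹ * q⁻¹ * z⁻¹ := by rw [hzz, one_mul]
        _ = q * z * q⁻¹ * z⁻¹ := by rw [hzi]
        _ = _ := by group
    apply hB _ hc
    rw [h1]
    generalize z * q * z⁻¹ * q⁻¹ = c at hc
    rcases hT.sq c hc with h2 | h2
    · left; exact inv_eq_of_mul_eq_one_left h2
    · right
      have h3 := hT.z_comm c hc
      rw [inv_eq_iff_mul_eq_one]
      calc c * (t * c) = (c * t) * c := by group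
        _ = t * (c * c) := by rw [h3]; group
        _ = 1 := by rw [h2, htt]
  -- W
  obtain ⟨W, hW⟩ : ∃ W : Subgroup G, W = Subgroup.closure ({t} ∪ {c | ∃ q ∈ cj g Q, c = z * q * z⁻¹ * q⁻¹}) := ⟨_, rfl⟩
  have hWY : W ≤ Y := by
    rw [hW, Subgroup.closure_le]
    rintro c (hc | ⟨q, hq, rfl⟩)
    · rw [Set.mem_singleton_iff] at hc; rw [hc]; exact htY
    · exact hi q hq
  have hYT : Y ≤ cj g Q := by rw [hY]; exact inf_le_left
  have htW : t ∈ W := by rw [hW]; exact Subgroup.subset_closure (Or.inl rfl)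
  have hcW : ∀ q ∈ cj g Q, z * q * z⁻¹ * q⁻¹ ∈ W := by
    intro q hq
    rw [hW]; exact Subgroup.subset_closure (Or.inr ⟨q, hq, rfl⟩)
  -- (ii)
  have hii : XS.centIn (cj g Q) W ≤ Y := by
    intro x hx
    obtain ⟨hxT, hxW⟩ := XS.mem_centIn.1 hx
    rw [hYm]
    refine ⟨hxT, ?_⟩
    apply hB x hxT
    have hx'T := hcz x hxT
    have h1 : ∀ q ∈ cj g Q, (z * x * z⁻¹ * x⁻¹) * q = q * (z * x * z⁻¹ * x⁻¹) := by
      intro q hq
      symm
      apply comm_ratio hT.toXS hxT hx'T hq
      -- x commutes with c(q)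
      have h2 := hxW _ (hcW q hq)
      have h3 : q * x = x * q ↔ (z * q * z⁻¹) * x = x * (z * q * z⁻¹) := by
        constructor
        · intro h4
          calc (z * q * z⁻¹) * x = (z * q * z⁻¹ * q⁻¹) * (q * x) := by group
            _ = (z * q * z⁻¹ * q⁻¹) * (x * q) := by rw [h4]
            _ = ((z * q * z⁻¹ * q⁻¹) * x) * q := by group
            _ = (x * (z * q * z⁻¹ * q⁻¹)) * q := by rw [h2]
            _ = _ := by group
        · intro h4
          calc q * x = (z * q * z⁻¹ * q⁻¹)⁻¹ * ((z * q * z⁻¹) * x) := by group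
            _ = (z * q * z⁻¹ * q⁻¹)⁻¹ * (x * (z * q * z⁻¹)) := by rw [h4]
            _ = (z * q * z⁻¹ * q⁻¹)⁻¹ * (x * (z * q * z⁻¹ * q⁻¹)) * q := by group
            _ = (z * q * z⁻¹ * q⁻¹)⁻¹ * ((z * q * z⁻¹ * q⁻¹) * x) * q := by rw [h2]
            _ = _ := by group
      rw [h3]
      have e1 : z * (z * q * z⁻¹) * z⁻¹ = q := by
        calc z * (z * q * z⁻¹) * z⁻¹ = (z * z) * q * (z * z)⁻¹ := by group
          _ = q := by rw [hzz]; group
      constructor
      · intro h4
        calc q * (z * x * z⁻¹) = (z * (z * q * z⁻¹) * z⁻¹) * (z * x * z⁻¹) := by rw [e1]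
          _ = z * ((z * q * z⁻¹) * x) * z⁻¹ := by group
          _ = z * (x * (z * q * z⁻¹)) * z⁻¹ := by rw [h4]
          _ = (z * x * z⁻¹) * (z * (z * q * z⁻¹) * z⁻¹) := by group
          _ = _ := by rw [e1]
      · intro h4
        calc (z * q * z⁻¹) * x = z⁻¹ * ((z * (z * q * z⁻¹) * z⁻¹) * (z * x * z⁻¹)) * z := by group
          _ = z⁻¹ * (q * (z * x * z⁻¹)) * z := by rw [e1]
          _ = z⁻¹ * ((z * x * z⁻¹) * q) * z := by rw [h4]
          _ = z⁻¹ * ((z * x * z⁻¹) * (z * (z * q * z⁻¹) * z⁻¹)) * z := by rw [e1]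
          _ = _ := by group
    rcases hT.cent _ (mul_mem hx'T (inv_mem hxT)) h1 with h2 | h2
    · left
      rwa [mul_inv_eq_one] at h2
    · right
      rwa [mul_inv_eq_iff_eq_mul] at h2
  -- (iii)
  have hiii : XS.centIn (cj g Q) Y ≤ Y := by
    have h1 : XS.centIn (cj g Q) Y ≤ XS.centIn (cj g Q) (XS.centIn (cj g Q) W) := by
      intro x hx
      obtain ⟨h2, h3⟩ := XS.mem_centIn.1 hx
      exact XS.mem_centIn.2 ⟨h2, fun y hy => h3 y (hii hy)⟩
    rw [hT.cent_cent htW (hWY.trans hYT)] at h1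
    exact h1.trans hWY
  -- V
  obtain ⟨V, hVm⟩ : ∃ V : Subgroup G, ∀ v, v ∈ V ↔ v = 1 ∨ v = z ∨ v = t ∨ v = z * t :=
    ⟨Cfsg.Agent.H4.kleinSub hzz htt hcm.symm, fun v => Cfsg.Agent.H4.mem_kleinSub _ _ _⟩
  have hzV : z ∈ V := (hVm z).2 (Or.inr (Or.inl rfl))
  have hVQ : V ≤ Q := by
    intro v hv
    rcases (hVm v).1 hv with rfl | rfl | rfl | rfl
    · exact one_mem _
    · exact h.z_mem
    · exact htQ
    · exact mul_mem h.z_mem htQ
  obtain ⟨X, hX⟩ : ∃ X : Subgroup G, X = XS.centIn Q V := ⟨_, rfl⟩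
  have hXm : ∀ x ∈ X, x ∈ Q ∧ x * t = t * x := by
    intro x hx
    rw [hX, XS.mem_centIn] at hx
    exact ⟨hx.1, hx.2 t ((hVm t).2 (by simp))⟩
  have hXX : XS.centIn Q X = V := by rw [hX]; exact h.cent_cent hzV hVQ
  have hXn : ∀ x ∈ X, ∀ q ∈ cj g Q, x * q * x⁻¹ ∈ cj g Q := fun x hx q hq =>
    conj_mem_of_normalizer ((hT.norm x).2 (hXm x hx).2) hq
  -- intersection
  have hint : ∀ u ∈ Q, u ∈ cj g Q → u = 1 ∨ u = t := by
    intro u huQ huT
    have h1 : u ∈ XS.centIn Q X := by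
      rw [XS.mem_centIn]
      refine ⟨huQ, fun x hx => ?_⟩
      rcases h.comm u huQ x (hXm x hx).1 with h2 | h2
      · exact h2
      · exfalso
        apply hz
        have h3 : z = u * (x * u⁻¹ * x⁻¹) := by
          calc z = (z * (x * u)) * (x * u)⁻¹ := by group
            _ = (u * x) * (x * u)⁻¹ := by rw [h2]
            _ = _ := by group
        rw [h3]
        exact mul_mem huT (hXn x hx _ (inv_mem huT))
    rw [hXX, hVm] at h1
    rcases h1 with h1 | h1 | h1 | h1
    · exact Or.inl h1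
    · exact absurd (h1 ▸ huT) hz
    · exact Or.inr h1
    · exfalso
      apply hz
      have : z = u * t⁻¹ := by rw [h1]; group
      rw [this]
      exact mul_mem huT (inv_mem hT.z_mem)
  -- (iv)
  have hiv : ∀ x ∈ X, ∀ y ∈ Y, x * y * x⁻¹ = y ∨ x * y * x⁻¹ = t * y := by
    intro x hx y hy
    have h1 : x * y * x⁻¹ * y⁻¹ ∈ cj g Q := mul_mem (hXn x hx y (hYT hy)) (inv_mem (hYT hy))
    have h2 : x * y * x⁻¹ * y⁻¹ ∈ Q := by
      have h3 : y ∈ Subgroup.normalizer (Q : Set G) := by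
        rw [h.norm]
        have := ((hYm y).1 hy).2
        rw [mul_inv_eq_iff_eq_mul] at this
        exact this.symm
      have e : x * y * x⁻¹ * y⁻¹ = x * (y * x⁻¹ * y⁻¹) := by group
      rw [e]
      exact mul_mem (hXm x hx).1 (conj_mem_of_normalizer h3 (inv_mem (hXm x hx).1))
    rcases hint _ h2 h1 with h3 | h3
    · left; rwa [mul_inv_eq_one] at h3
    · right; rwa [mul_inv_eq_iff_eq_mul] at h3
  -- (v)
  have hv : ∀ x ∈ X, ∀ q ∈ cj g Q, x * q * x⁻¹ * q⁻¹ ∈ XS.centIn (cj g Q) Y := by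
    intro x hx q hq
    have hq' := hXn x hx q hq
    rw [XS.mem_centIn]
    refine ⟨mul_mem hq' (inv_mem hq), fun y hy => ?_⟩
    symm
    apply comm_ratio hT.toXS hq hq' (hYT hy)
    have e1 : y * q = q * y ↔ (x * y * x⁻¹) * (x * q * x⁻¹) = (x * q * x⁻¹) * (x * y * x⁻¹) := by
      constructor
      · intro h1
        calc (x * y * x⁻¹) * (x * q * x⁻¹) = x * (y * q) * x⁻¹ := by group
          _ = x * (q * y) * x⁻¹ := by rw [h1]
          _ = _ := by group
      · intro h1
        calc y * q = x⁻¹ * ((x * y * x⁻¹) * (x * q * x⁻¹)) * x := by group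
          _ = x⁻¹ * ((x * q * x⁻¹) * (x * y * x⁻¹)) * x := by rw [h1]
          _ = _ := by group
    rw [e1]
    rcases hiv x hx y hy with h1 | h1
    · rw [h1]
    · rw [h1]
      have h2 := hT.z_comm _ hq'
      constructor
      · intro h3
        have h4 : t * (y * (x * q * x⁻¹)) = t * ((x * q * x⁻¹) * y) := by
          calc t * (y * (x * q * x⁻¹)) = t * y * (x * q * x⁻¹) := by group
            _ = (x * q * x⁻¹) * (t * y) := h3
            _ = ((x * q * x⁻¹) * t) * y := by group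
            _ = (t * (x * q * x⁻¹)) * y := by rw [h2]
            _ = _ := by group
        exact mul_left_cancel h4
      · intro h3
        calc t * y * (x * q * x⁻¹) = t * (y * (x * q * x⁻¹)) := by group
          _ = t * ((x * q * x⁻¹) * y) := by rw [h3]
          _ = (t * (x * q * x⁻¹)) * y := by group
          _ = ((x * q * x⁻¹) * t) * y := by rw [h2]
          _ = _ := by group
  -- (vi)
  have hnab : ∃ a ∈ X, ∃ b ∈ X, a * b ≠ b * a := by
    by_contra hne
    push Not at hne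
    have h1 : X ≤ V := by
      intro x hx
      rw [← hXX, XS.mem_centIn]
      exact ⟨(hXm x hx).1, fun y hy => hne x hx y hy⟩
    have h2 : Nat.card V ≤ 4 := by
      have h3 : (V : Set G) ⊆ {1, z, t, z * t} := by
        intro v hv
        simpa using (hVm v).1 hv
      have h4 : Set.ncard (V : Set G) ≤ Set.ncard ({1, z, t, z * t} : Set G) :=
        Set.ncard_le_ncard h3 (Set.toFinite _)
      have h5 : Set.ncard ({1, z, t, z * t} : Set G) ≤ 4 := by
        calc Set.ncard ({1, z, t, z * t} : Set G) ≤ Set.ncard ({z, t, z * t} : Set G) + 1 := Set.ncard_insert_le _ _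
          _ ≤ (Set.ncard ({t, z * t} : Set G) + 1) + 1 := by gcongr; exact Set.ncard_insert_le _ _
          _ ≤ ((Set.ncard ({z * t} : Set G) + 1) + 1) + 1 := by gcongr; exact Set.ncard_insert_le _ _
          _ = 4 := by rw [Set.ncard_singleton]
      exact h4.trans h5
    have h6 := h.card_cent_mul hzV hVQ
    rw [← hX] at h6
    have h7 : Nat.card X ≤ 4 := (Subgroup.card_le_of_le h1).trans h2
    have h8 : Nat.card X * Nat.card V ≤ 4 * 4 := Nat.mul_le_mul h7 h2
    omega
  obtain ⟨a, ha, b, hb, hab⟩ := hnab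
  have habz : a * b = z * (b * a) := (h.comm a (hXm a ha).1 b (hXm b hb).1).resolve_left hab
  have hba : b * a ∈ X := mul_mem hb ha
  have hfin : ∀ q ∈ cj g Q, z * ((b * a) * q * (b * a)⁻¹) * z⁻¹ = (b * a) * q * (b * a)⁻¹ := by
    intro q hq
    have hp := hXn _ hba q hq
    apply hB _ hp
    have h1 := hv a ha q hq
    have h2 := hv b hb q hq
    have h1Y := hiii h1
    have h2Y := hiii h2
    have h12 : (a * q * a⁻¹ * q⁻¹) * (b * q * b⁻¹ * q⁻¹) = (b * q * b⁻¹ * q⁻¹) * (a * q * a⁻¹ * q⁻¹) :=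
      (XS.mem_centIn.1 h1).2 _ h2Y
    have e0 : z * ((b * a) * q * (b * a)⁻¹) * z⁻¹ = (a * b) * q * (a * b)⁻¹ := by
      rw [habz]; group
    have e1 : (a * b) * q * (a * b)⁻¹ = (a * (b * q * b⁻¹ * q⁻¹) * a⁻¹) * (a * q * a⁻¹ * q⁻¹) * q := by group
    have e2 : (b * a) * q * (b * a)⁻¹ = (b * (a * q * a⁻¹ * q⁻¹) * b⁻¹) * (b * q * b⁻¹ * q⁻¹) * q := by group
    rw [e0, e1, e2]
    have h3 := hiv a ha _ h2Y
    have h4 := hiv b hb _ h1Y
    generalize a * q * a⁻¹ * q⁻¹ = y1 at *
    generalize b * q * b⁻¹ * q⁻¹ = y2 at *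
    rcases h3 with h3 | h3 <;> rcases h4 with h4 | h4 <;> rw [h3, h4]
    · left; rw [h12]
    · right
      calc y2 * y1 * q = (t * t) * (y2 * y1) * q := by rw [htt, one_mul]
        _ = (t * t) * (y1 * y2) * q := by rw [h12]
        _ = _ := by group
    · right
      calc t * y2 * y1 * q = t * (y2 * y1) * q := by group
        _ = t * (y1 * y2) * q := by rw [h12]
        _ = _ := by group
    · left
      calc t * y2 * y1 * q = t * (y2 * y1) * q := by group
        _ = t * (y1 * y2) * q := by rw [h12]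
        _ = _ := by group
  have hzall : ∀ q ∈ cj g Q, z * q = q * z := by
    intro p hp
    have h1 := hXn _ (inv_mem hba) p hp
    have h2 := hfin _ h1
    have e : (b * a) * ((b * a)⁻¹ * p * (b * a)⁻¹⁻¹) * (b * a)⁻¹ = p := by group
    rw [e, mul_inv_eq_iff_eq_mul] at h2
    exact h2
  rcases hT.cent_G z hzall with h1 | h1
  · exact h.z_ne h1
  · exact htz h1.symm


/-- Let Q be an extraspecial 2-subgroup of the finite group G whose centralizer in G is its centre Z and which is normal in the centralizer of Z; suppose Q has width at least 2 (order 2^(2w+1) with w ≥ 2) and g is an element of G not normalizing Z with g Z g⁻¹ inside Q. Then Z lies inside g Q g⁻¹; writing V for the subgroup generated by Z and g Z g⁻¹ (a four-group), the normalizer of V induces on V its full automorphism group, that is, the centralizer of V has index 6 in the normalizer of V; and Q is a large extraspecial 2-subgroup of G. -/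
theorem result {G : Type*} [Group G] [Finite G] (Q : Subgroup G) (hL1 : Cfsg.IsExtraspecial 2 ↥Q) (hL2 : Subgroup.centralizer (Q : Set G) = ((Subgroup.center ↥Q).map Q.subtype)) (hL3 : Subgroup.centralizer (((Subgroup.center ↥Q).map Q.subtype) : Set G) ≤ Subgroup.normalizer (Q : Set G)) (w : ℕ) (hw : 2 ≤ w) (hcard : Nat.card ↥Q = 2 ^ (2 * w + 1)) (g : G) (hg : g ∉ Subgroup.normalizer (((Subgroup.center ↥Q).map Q.subtype) : Set G)) (hZg : (((Subgroup.center ↥Q).map Q.subtype)).map (MulAut.conj g).toMonoidHom ≤ Q) : ((Subgroup.center ↥Q).map Q.subtype) ≤ (Q).map (MulAut.conj g).toMonoidHom ∧ (Subgroup.centralizer ((((Subgroup.center ↥Q).map Q.subtype) ⊔ (((Subgroup.center ↥Q).map Q.subtype)).map (MulAut.conj g).toMonoidHom : Subgroup G) : Set G)).relIndex (Subgroup.normalizer ((((Subgroup.center ↥Q).map Q.subtype) ⊔ (((Subgroup.center ↥Q).map Q.subtype)).map (MulAut.conj g).toMonoidHom : Subgroup G) : Set G)) = 6 ∧ Cfsg.IsLargeExtraspecial Q := by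
  obtain ⟨z, h⟩ := nxs_of_isExtraspecial Q hL1 hL2 hL3
  rw [h.center_eq] at hL2 hL3 hg hZg ⊢
  have hmap : (Subgroup.zpowers z).map (MulAut.conj g).toMonoidHom = Subgroup.zpowers (g * z * g⁻¹) := by
    rw [MonoidHom.map_zpowers]; rfl
  rw [hmap] at hZg ⊢
  obtain ⟨t, ht⟩ : ∃ t, t = g * z * g⁻¹ := ⟨_, rfl⟩
  rw [← ht] at hmap hZg ⊢
  have htQ : t ∈ Q := hZg (Subgroup.mem_zpowers t)
  have htz : t ≠ z := by
    intro h1
    apply hg
    rw [mem_normalizer_cj]
    show (Subgroup.zpowers z).map (MulAut.conj g).toMonoidHom = Subgroup.zpowers z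
    rw [hmap, h1]
  have hc8 : 8 < Nat.card Q := by
    rw [hcard]
    calc 8 < 2 ^ 5 := by norm_num
      _ ≤ 2 ^ (2 * w + 1) := Nat.pow_le_pow_right (by norm_num) (by omega)
  have hzc : z ∈ cj g Q := z_mem_cj h ht.symm htQ htz hc8
  have hT : NXS (cj g Q) t := ht ▸ nxs_cj h g
  have htt := hT.z_sq
  have hzz := h.z_sq
  have hcm : t * z = z * t := h.z_comm t htQ
  refine ⟨by rw [Subgroup.zpowers_le]; exact hzc, ?_, hL1, ?_, ?_, ?_⟩
  · have hV : Subgroup.zpowers z ⊔ Subgroup.zpowers t = Cfsg.Agent.H4.kleinSub hzz htt hcm.symm := by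
      apply le_antisymm
      · apply sup_le
        · rw [Subgroup.zpowers_le, Cfsg.Agent.H4.mem_kleinSub]; simp
        · rw [Subgroup.zpowers_le, Cfsg.Agent.H4.mem_kleinSub]; simp
      · intro v hv
        have h1 : z ∈ Subgroup.zpowers z ⊔ Subgroup.zpowers t := Subgroup.mem_sup_left (Subgroup.mem_zpowers z)
        have h2 : t ∈ Subgroup.zpowers z ⊔ Subgroup.zpowers t := Subgroup.mem_sup_right (Subgroup.mem_zpowers t)
        rcases (Cfsg.Agent.H4.mem_kleinSub _ _ _).1 hv with rfl | rfl | rfl | rfl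
        · exact one_mem _
        · exact h1
        · exact h2
        · exact mul_mem h1 h2
    rw [hV]
    have hk := Cfsg.Agent.H4.kleinSub_isKleinFour hzz htt hcm.symm h.z_ne hT.z_ne htz.symm
    have hP := Cfsg.Agent.H4.klein_perm3 hk (a := z) (b := t) (by rw [Cfsg.Agent.H4.mem_kleinSub]; simp)
      (by rw [Cfsg.Agent.H4.mem_kleinSub]; simp) h.z_ne hT.z_ne htz.symm
    -- r1 in Q moving t
    obtain ⟨r1, hr1, hr1t⟩ : ∃ r ∈ Q, t * r ≠ r * t := by
      by_contra hne
      push Not at hne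
      rcases h.cent t htQ hne with h5 | h5
      · exact hT.z_ne h5
      · exact htz h5
    obtain ⟨r2, hr2, hr2z⟩ : ∃ r ∈ cj g Q, z * r ≠ r * z := by
      by_contra hne
      push Not at hne
      rcases hT.cent z hzc hne with h5 | h5
      · exact h.z_ne h5
      · exact htz h5.symm
    have e1 : t * r1 = z * (r1 * t) := (h.comm t htQ r1 hr1).resolve_left hr1t
    have e2 : z * r2 = t * (r2 * z) := (hT.comm z hzc r2 hr2).resolve_left hr2z
    have e1' := h.z_comm r1 hr1
    have e2' := hT.z_comm r2 hr2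
    -- conj formulas
    have f1 : r1 * z * r1⁻¹ = z := by rw [e1']; group
    have f2 : r1 * t * r1⁻¹ = z * t := by
      have : r1 * t = z * (t * r1) := by rw [e1, ← mul_assoc z z, hzz, one_mul]
      rw [this]; group
    have f3 : r2 * t * r2⁻¹ = t := by rw [e2']; group
    have f4 : r2 * z * r2⁻¹ = z * t := by
      have : r2 * z = t * (z * r2) := by rw [e2, ← mul_assoc t t, htt, one_mul]
      rw [this, ← hcm]; group
    have hnorm : ∀ r : G, (r * z * r⁻¹ = z ∨ r * z * r⁻¹ = z * t) → (r * t * r⁻¹ = t ∨ r * t * r⁻¹ = z * t) →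
        (r * z * r⁻¹ = z ∨ r * t * r⁻¹ = t) →
        r ∈ Subgroup.normalizer ((Cfsg.Agent.H4.kleinSub hzz htt hcm.symm : Subgroup G) : Set G) := by
      intro r hrz hrt hor
      have hle : cj r (Cfsg.Agent.H4.kleinSub hzz htt hcm.symm) ≤ Cfsg.Agent.H4.kleinSub hzz htt hcm.symm := by
        rw [← hV, cj_sup]
        apply sup_le
        · rw [Cfsg.Agent.H4.cj_zpowers, Subgroup.zpowers_le, hV, Cfsg.Agent.H4.mem_kleinSub]
          rcases hrz with h1 | h1 <;> rw [h1] <;> simp
        · rw [Cfsg.Agent.H4.cj_zpowers, Subgroup.zpowers_le, hV, Cfsg.Agent.H4.mem_kleinSub]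
          rcases hrt with h1 | h1 <;> rw [h1] <;> simp
      rw [mem_normalizer_cj]
      exact Subgroup.eq_of_le_of_card_ge hle (by rw [card_cj])
    have n1 := hnorm r1 (Or.inl f1) (Or.inr f2) (Or.inl f1)
    have n2 := hnorm r2 (Or.inr f4) (Or.inl f3) (Or.inr f3)
    obtain ⟨k, hk1⟩ := h.hp ⟨r1, hr1⟩
    refine hP.six_of_fix n1 n2 ?_ ?_ (i := 0) (j := 1) (by decide) ?_ ?_ (k := k) (congrArg Subtype.val hk1)
    · intro h1
      exact hr1t (Subgroup.mem_centralizer_iff.1 h1 t (by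
        show t ∈ Cfsg.Agent.H4.kleinSub hzz htt hcm.symm
        rw [Cfsg.Agent.H4.mem_kleinSub]; simp))
    · intro h1
      exact hr2z (Subgroup.mem_centralizer_iff.1 h1 z (by
        show z ∈ Cfsg.Agent.H4.kleinSub hzz htt hcm.symm
        rw [Cfsg.Agent.H4.mem_kleinSub]; simp))
    · show cj r1 (Subgroup.zpowers z) = Subgroup.zpowers z
      rw [Cfsg.Agent.H4.cj_zpowers, f1]
    · show cj r2 (Subgroup.zpowers t) = Subgroup.zpowers t
      rw [Cfsg.Agent.H4.cj_zpowers, f3]
  · rw [h.center_eq]; exact hL2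
  · rw [h.center_eq]; exact hL3
  · apply NXS.odd_of_invol h htQ hT.z_ne htz htt (P := cj g Q) hT.hp hzc
    intro x hx y hy
    exact conj_mem_of_normalizer ((hT.norm x).2 hx) hy

end Cfsg.Agent.S5422
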