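import Cfsg.Statements.S0094
import Cfsg.Agent.H2.Frat
import Cfsg.Agent.H23.Coprime3

set_option autoImplicit false
set_option linter.style.haveILetI false
set_option linter.unusedVariables false
set_option linter.unusedSectionVars false
open Cfsg

namespace Cfsg.Agent.S0094

open scoped commutatorElement in
theorem comm_pow {P : Type*} [Group P] (x y : P) (n : ℕ) (hc : ∀ z : P, Commute ⁅x, y⁆ z) :
    ⁅x ^ n, y⁆ = ⁅x, y⁆ ^ n := by
  induction n with
  | zero => simp
  | succ n ih =>
    have e1 : ⁅x ^ (n + 1), y⁆ = x * ⁅x ^ n, y⁆ * x⁻¹ * ⁅x, y⁆ := by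
      simp only [commutatorElement_def]; rw [pow_succ']; group
    rw [e1, ih]
    have h2 : Commute (⁅x, y⁆ ^ n) x := (hc x).pow_left n
    rw [← h2.eq, mul_inv_cancel_right, pow_succ]

/-- In a special p-group every central element has order dividing p. -/
theorem result {P : Type*} [Group P] [Finite P] {p : ℕ} [Fact p.Prime] (h : Cfsg.IsSpecial p P) (z : P) (hz : z ∈ Subgroup.center P) : z ^ p = 1 := by
  obtain ⟨h1, h2, h3⟩ := h
  have hexp : ∀ w ∈ commutator P, w ^ p = 1 := by
    intro w hw
    rw [commutator_eq_closure] at hw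
    have hcen : ∀ w ∈ Subgroup.closure (commutatorSet P), w ∈ Subgroup.center P := by
      intro w hw
      rw [← commutator_eq_closure, h3] at hw
      exact hw
    induction hw using Subgroup.closure_induction with
    | mem w hw =>
      obtain ⟨x, y, rfl⟩ := hw
      have hc : ∀ z : P, Commute (x * y * x⁻¹ * y⁻¹) z := by
        intro z
        have h4 := hcen _ (Subgroup.subset_closure ⟨x, y, rfl⟩)
        exact ((Subgroup.mem_center_iff.1 h4) z).symm
      have h5 := comm_pow x y p hc
      have h6 : x ^ p ∈ Subgroup.center P := by rw [← h2]; exact H2.pow_mem_frattini h1 x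
      rw [← h5, commutatorElement_eq_one_iff_commute]
      exact ((Subgroup.mem_center_iff.1 h6) y).symm
    | one => exact one_pow p
    | mul a b ha hb iha ihb =>
      have : Commute a b := ((Subgroup.mem_center_iff.1 (hcen a ha)) b).symm
      rw [this.mul_pow, iha, ihb, one_mul]
    | inv a ha iha => rw [inv_pow, iha, inv_one]
  rw [← h3] at hz
  exact hexp z hz

end Cfsg.Agent.S0094
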