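import Cfsg.Statements.S0096
import Cfsg.Agent.S0094

set_option autoImplicit false
set_option linter.style.haveILetI false
set_option linter.unusedVariables false
set_option linter.unusedSectionVars false
open Cfsg

namespace Cfsg.Agent.S0096

/-- For odd p, in a p-group of class at most two the elements of order dividing p generate a subgroup of exponent dividing p. -/
theorem result {P : Type*} [Group P] [Finite P] {p : ℕ} [Fact p.Prime] (hp : p ≠ 2) (hP : IsPGroup p P) (h2 : ⁅commutator P, (⊤ : Subgroup P)⁆ = ⊥) (g : P) (hg : g ∈ Subgroup.closure {x : P | x ^ p = 1}) : g ^ p = 1 := by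
  have hcen : ∀ x y z : P, Commute (x * y * x⁻¹ * y⁻¹) z := by
    intro x y z
    have h3 : x * y * x⁻¹ * y⁻¹ ∈ commutator P := by
      rw [commutator_eq_closure]; exact Subgroup.subset_closure ⟨x, y, rfl⟩
    have h4 := Subgroup.commutator_mem_commutator h3 (Subgroup.mem_top z)
    rw [h2, Subgroup.mem_bot, commutatorElement_eq_one_iff_commute] at h4
    exact h4
  have hpp : p.Prime := Fact.out
  obtain ⟨m, hm⟩ : ∃ m, p * (p - 1) / 2 = p * m := by
    obtain ⟨k, hk⟩ := hpp.odd_of_ne_two hp
    refine ⟨k, ?_⟩
    have : p * (p - 1) = 2 * (p * k) := by rw [hk]; simp; ring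
    rw [this, Nat.mul_div_cancel_left _ (by norm_num)]
  induction hg using Subgroup.closure_induction with
  | mem w hw => exact hw
  | one => exact one_pow p
  | mul a b ha hb iha ihb =>
    have h3 := H23.mul_pow_of_class_two a b (hcen b a) p
    rw [h3, iha, ihb, one_mul, one_mul, hm, pow_mul]
    have h5 := S0094.comm_pow b a p (hcen b a)
    rw [← h5, ihb, commutatorElement_one_left, one_pow]
  | inv a ha iha => rw [inv_pow, iha, inv_one]

end Cfsg.Agent.S0096
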