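import Cfsg.Statements.S1465
import Cfsg.Agent.H2.OddSolv

set_option autoImplicit false
set_option linter.style.haveILetI false
set_option linter.unusedVariables false
set_option linter.unusedSectionVars false
open Cfsg

namespace Cfsg.Agent.S1465

open scoped commutatorElement in
theorem quad_of_abelian_normal {G : Type*} [Group G] {A V : Subgroup G} (hV : V ≤ Subgroup.normalizer (A : Set G))
    (hAc : IsMulCommutative A) {z : G} (hz : z ∈ A) :
    ⁅⁅V, Subgroup.zpowers z⁆, Subgroup.zpowers z⁆ = ⊥ := by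
  rw [eq_bot_iff]
  have hza : Subgroup.zpowers z ≤ A := by rwa [Subgroup.zpowers_le]
  have h3 : ⁅V, A⁆ ≤ A := by
    rw [← Subgroup.le_normalizer_iff_commutator_le_right]
    exact hV
  have h4 : ⁅⁅V, Subgroup.zpowers z⁆, Subgroup.zpowers z⁆ ≤ ⁅A, A⁆ :=
    Subgroup.commutator_mono ((Subgroup.commutator_mono le_rfl hza).trans h3) hza
  refine h4.trans ?_
  rw [Subgroup.commutator_le]
  intro x hx y hy
  rw [commutatorElement_eq_one_iff_mul_comm.2 (H20.isMulCommutative_iff.1 hAc x hx y hy)]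
  exact one_mem _

/-- Let p be an odd prime, G a solvable group of odd order, P a normal p-subgroup of G, and X the subgroup generated by a family of abelian p-subgroups of G each normalized by P. Then the image of X in G/C_G(P) lies in O_p(G/C_G(P)); and if O_{p'}(G) = 1 and O_p(G) ∩ C_G(P) ≤ P then X ≤ O_p(G). -/
theorem result {G : Type*} [Group G] [Finite G] [Group.IsSolvable G] (hodd : Odd (Nat.card G)) (p : ℕ) [Fact p.Prime] (hp : p ≠ 2) (P : Subgroup G) [P.Normal] (hP : IsPGroup p P)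
    (S : Set (Subgroup G)) (hS : ∀ B ∈ S, IsMulCommutative B ∧ IsPGroup p B ∧ P ≤ Subgroup.normalizer (B : Set G)) :
    (sSup S).map (QuotientGroup.mk' (Subgroup.centralizer (P : Set G))) ≤ Cfsg.pCore p (G ⧸ Subgroup.centralizer (P : Set G)) ∧
      (Cfsg.pPrimeCore p G = ⊥ → Cfsg.pCore p G ⊓ Subgroup.centralizer (P : Set G) ≤ P → sSup S ≤ Cfsg.pCore p G) := by
  have h1 : sSup S ≤ (Cfsg.pCore p (G ⧸ Subgroup.centralizer (P : Set G))).comap
      (QuotientGroup.mk' (Subgroup.centralizer (P : Set G))) := by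
    apply sSup_le
    intro B hB z hz
    obtain ⟨hB1, hB2, hB3⟩ := hS B hB
    exact H2.isPStableOn_of_not_SLConcl hp (H2.not_SLConcl_of_odd hodd) P hP z
      (quad_of_abelian_normal hB3 hB1 hz)
  refine ⟨Subgroup.map_le_iff_le_comap.2 h1, fun hO hC => h1.trans ?_⟩
  -- C_G(P) is a `p`-group
  obtain ⟨C, hCdef⟩ : ∃ C, C = Subgroup.centralizer (P : Set G) := ⟨_, rfl⟩
  haveI hCn : C.Normal := by rw [hCdef]; infer_instance
  have hCp : IsPGroup p C := by
    rw [← hCdef] at hC
    have h3 : Cfsg.pPrimeCore p C = ⊥ := by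
      have h4 : ((Cfsg.pPrimeCore p C).map C.subtype).Normal := inferInstance
      have h5 : (Cfsg.pPrimeCore p C).map C.subtype ≤ Cfsg.pPrimeCore p G := by
        apply le_sSup
        refine ⟨h4, ?_⟩
        rw [Nat.card_congr ((Cfsg.pPrimeCore p C).equivMapOfInjective _ C.subtype_injective).symm.toEquiv]
        exact H1.pPrimeCore_coprime p C
      rw [hO] at h5
      exact (Subgroup.map_eq_bot_iff_of_injective _ C.subtype_injective).1 (le_bot_iff.1 h5)
    have h4 : Subgroup.centralizer (Cfsg.pCore p C : Set C) ≤ Cfsg.pCore p C :=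
      H23.centralizer_pCore_le (H23.isPSolvable_of_isSolvable inferInstance) h3
    have h5 : ∀ x : C, x ∈ Cfsg.pCore p C := by
      intro x
      apply h4
      rw [Subgroup.mem_centralizer_iff]
      intro y hy
      have h6 : (Cfsg.pCore p C).map C.subtype ≤ Cfsg.pCore p G := by
        apply H18.le_pCore inferInstance
        exact (H18.isPGroup_pCore p C).map _
      have h7 : (y : G) ∈ P := hC (Subgroup.mem_inf.2 ⟨h6 ⟨y, hy, rfl⟩, y.2⟩)
      have h8 : (x : G) ∈ Subgroup.centralizer (P : Set G) := by rw [← hCdef]; exact x.2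
      exact Subtype.ext (Subgroup.mem_centralizer_iff.1 h8 _ h7)
    intro x
    obtain ⟨k, hk⟩ := H18.isPGroup_of_mem (H18.isPGroup_pCore p C) (h5 x)
    exact ⟨k, hk⟩
  apply H18.le_pCore inferInstance
  rw [H18.isPGroup_iff_mem]
  intro x hx
  obtain ⟨D, hD, hxD, hd⟩ := H2.mk_mem_pCore_iff.1 (show (QuotientGroup.mk x : G ⧸ Subgroup.centralizer (P : Set G)) ∈ _ from hx)
  obtain ⟨m, hm⟩ := hd x hxD
  rw [← hCdef] at hm
  obtain ⟨k, hk⟩ := H18.isPGroup_of_mem hCp hm
  exact ⟨m + k, by rw [pow_add, pow_mul]; exact hk⟩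

end Cfsg.Agent.S1465
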