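import Cfsg.Statements.S0110
import Cfsg.Agent.H10.AB2

set_option autoImplicit false
open Cfsg

namespace Cfsg.Agent.S0110

/-- In a p-group G, an extraspecial subgroup E with [G, E] ≤ Z(E) satisfies G = E C_G(E). -/
theorem result {G : Type*} [Group G] [Finite G] {p : ℕ} [Fact p.Prime] (hG : IsPGroup p G) (E : Subgroup G) (hE : Cfsg.IsExtraspecial p E) (h : ⁅(⊤ : Subgroup G), E⁆ ≤ E ⊓ Subgroup.centralizer (E : Set G)) : E ⊔ Subgroup.centralizer (E : Set G) = ⊤ := by
  have hp : p.Prime := Fact.out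
  obtain ⟨Z, hZ⟩ : ∃ Z : Subgroup G, Z = E ⊓ Subgroup.centralizer (E : Set G) := ⟨_, rfl⟩
  rw [← hZ] at h
  have hZE : Z ≤ E := by rw [hZ]; exact inf_le_left
  have hc : ∀ g : G, ∀ x ∈ E, g * x * g⁻¹ * x⁻¹ ∈ Z := by
    intro g x hx
    exact h (Subgroup.commutator_mem_commutator (Subgroup.mem_top g) hx)
  have hZc : Nat.card Z = p := by
    have h1 : (Subgroup.center E).map E.subtype = Z := by
      rw [hZ]
      ext x
      constructor
      · intro hx
        obtain ⟨y, hy, rfl⟩ := Subgroup.mem_map.1 hx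
        refine Subgroup.mem_inf.2 ⟨y.2, ?_⟩
        rw [Subgroup.mem_centralizer_iff]
        intro z hz
        have := Subgroup.mem_center_iff.1 hy ⟨z, hz⟩
        exact congrArg Subtype.val this
      · intro hx
        obtain ⟨h1, h2⟩ := Subgroup.mem_inf.1 hx
        refine Subgroup.mem_map.2 ⟨⟨x, h1⟩, ?_, rfl⟩
        rw [Subgroup.mem_center_iff]
        intro z
        apply Subtype.ext
        exact Subgroup.mem_centralizer_iff.1 h2 z.1 z.2
    rw [← h1, Subgroup.card_map_of_injective E.subtype_injective]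
    exact hE.2
  have hZn : Z.Normal := H10.AB.normal_between hc le_rfl hZE
  have hZ1 : Z ≠ ⊥ := by
    rintro rfl
    rw [Subgroup.card_bot] at hZc
    exact hp.one_lt.ne hZc
  have hZz : Z ≤ Subgroup.center G := by
    have h1 := H2.inf_center_ne_bot_of_normal hG Z hZ1
    have h2 : Nat.card (Z ⊓ Subgroup.center G : Subgroup G) ∣ p := by
      rw [← hZc]; exact Subgroup.card_dvd_of_le inf_le_left
    rcases (Nat.dvd_prime hp).1 h2 with h3 | h3
    · exact absurd (Subgroup.card_eq_one.1 h3) h1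
    · have h4 : Z ⊓ Subgroup.center G = Z := Subgroup.eq_of_le_of_card_ge inf_le_left (by rw [h3, hZc])
      rw [← h4]; exact inf_le_right
  obtain ⟨n, hn⟩ := (IsPGroup.iff_card).1 (hG.to_subgroup E)
  have hn1 : ∃ k, n = k + 1 := by
    rcases n with _ | k
    · exfalso
      have := Subgroup.card_dvd_of_le hZE
      rw [hZc, hn, pow_zero] at this
      exact hp.one_lt.ne' (Nat.dvd_one.1 this)
    · exact ⟨k, rfl⟩
  obtain ⟨k, rfl⟩ := hn1
  have h1 := H10.AB.extra hG Z E hZc hc hZE k Z le_rfl hZE (by rw [hZc, hn, pow_succ]; ring)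
  have h2 : Subgroup.centralizer (Z : Set G) = ⊤ := by
    rw [eq_top_iff]
    intro x _
    rw [Subgroup.mem_centralizer_iff]
    intro z hz
    exact (Subgroup.mem_center_iff.1 (hZz hz) x).symm
  rw [h2, Subgroup.card_top] at h1
  have hEn : E.Normal := H10.AB.normal_between hc hZE le_rfl
  have h3 := H1.card_sup_mul_card_inf_of_le_normalizer (H := E) (K := Subgroup.centralizer (E : Set G))
    (by rw [Subgroup.normalizer_eq_top]; exact le_top)
  rw [← hZ, hZc, hn] at h3
  apply Subgroup.eq_top_of_card_eq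
  apply le_antisymm (Subgroup.card_le_card_group _)
  refine h1.trans ?_
  apply Nat.le_of_mul_le_mul_right _ hp.pos
  rw [h3, pow_succ]
  apply le_of_eq
  ring

end Cfsg.Agent.S0110
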