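import Cfsg.Statements.S0778
import Mathlib
import Cfsg.Agent.H5.GLStab2

set_option autoImplicit false
open Cfsg

namespace Cfsg.Agent.S0778

/-- The elements of Sp_2m(F) stabilising both W = ⟨e_1..e_m⟩ and U = ⟨f_1..f_m⟩ form a subgroup isomorphic to GL_m(F) (block-diagonal matrices diag(X, X^(−ᵀ)) up to the sign convention of J), for m ≥ 1 or m = 0 alike. -/
theorem result {F : Type*} [Field F] (m : ℕ) : Nonempty (↥(Cfsg.stabilizing (Cfsg.spToMat m F) {v : Fin m ⊕ Fin m → F | ∀ i : Fin m, v (Sum.inr i) = 0} ⊓ Cfsg.stabilizing (Cfsg.spToMat m F) {v : Fin m ⊕ Fin m → F | ∀ i : Fin m, v (Sum.inl i) = 0}) ≃* Matrix.GeneralLinearGroup (Fin m) F) := by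
  classical
  let φ : Matrix.GeneralLinearGroup (Fin m) F →* Matrix.symplecticGroup (Fin m) F :=
    { toFun := fun A => ⟨Matrix.fromBlocks (A : Matrix (Fin m) (Fin m) F) 0 0
        (((A⁻¹ : GL (Fin m) F) : Matrix (Fin m) (Fin m) F).transpose), by
        rw [SymplecticGroup.mem_iff, Matrix.J, Matrix.fromBlocks_transpose, Matrix.fromBlocks_multiply,
          Matrix.fromBlocks_multiply]
        have h1 : (A : Matrix (Fin m) (Fin m) F) * ((A⁻¹ : GL (Fin m) F) : Matrix (Fin m) (Fin m) F) = 1 := by
          rw [← Units.val_mul, mul_inv_cancel, Units.val_one]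
        have h2 : (((A⁻¹ : GL (Fin m) F) : Matrix (Fin m) (Fin m) F).transpose) *
            (A : Matrix (Fin m) (Fin m) F).transpose = 1 := by
          rw [← Matrix.transpose_mul, h1, Matrix.transpose_one]
        simp only [Matrix.transpose_zero, Matrix.transpose_transpose, mul_zero, zero_mul, add_zero, zero_add, mul_neg, mul_one,
          neg_mul, h1, h2, neg_zero]⟩
      map_one' := by
        apply Subtype.ext
        show Matrix.fromBlocks ((1 : GL (Fin m) F) : Matrix (Fin m) (Fin m) F) 0 0 ((((1 : GL (Fin m) F)⁻¹ : GL (Fin m) F) : Matrix (Fin m) (Fin m) F).transpose) = 1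
        rw [inv_one, Units.val_one, Matrix.transpose_one, Matrix.fromBlocks_one]
      map_mul' := fun A B => by
        apply Subtype.ext
        show Matrix.fromBlocks ((A * B : GL (Fin m) F) : Matrix (Fin m) (Fin m) F) 0 0 ((((A * B)⁻¹ : GL (Fin m) F) : Matrix (Fin m) (Fin m) F).transpose) =
          Matrix.fromBlocks (A : Matrix (Fin m) (Fin m) F) 0 0 (((A⁻¹ : GL (Fin m) F) : Matrix (Fin m) (Fin m) F).transpose) *
          Matrix.fromBlocks (B : Matrix (Fin m) (Fin m) F) 0 0 (((B⁻¹ : GL (Fin m) F) : Matrix (Fin m) (Fin m) F).transpose)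
        rw [Matrix.fromBlocks_multiply, _root_.mul_inv_rev, Units.val_mul, Units.val_mul, Matrix.transpose_mul]
        simp }
  have hφ : Function.Injective φ := by
    intro A B h
    have h1 := congrArg Subtype.val h
    have h2 := (Matrix.fromBlocks_inj.mp h1).1
    exact Units.ext h2
  have hr : φ.range = Cfsg.stabilizing (Cfsg.spToMat m F) {v : Fin m ⊕ Fin m → F | ∀ i : Fin m, v (Sum.inr i) = 0} ⊓
      Cfsg.stabilizing (Cfsg.spToMat m F) {v : Fin m ⊕ Fin m → F | ∀ i : Fin m, v (Sum.inl i) = 0} := by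
    ext g
    constructor
    · rintro ⟨A, rfl⟩
      have hA1 : ∀ x : Fin m → F, (A : Matrix (Fin m) (Fin m) F).mulVec x = 0 → x = 0 := fun x hx =>
        (H5.glE A).injective (by rw [H5.glE_apply, hx, map_zero])
      have hA2 : ∀ x : Fin m → F, (((A⁻¹ : GL (Fin m) F) : Matrix (Fin m) (Fin m) F).transpose).mulVec x = 0 → x = 0 := by
        intro x hx
        have h1 : (A : Matrix (Fin m) (Fin m) F).transpose.mulVec
            ((((A⁻¹ : GL (Fin m) F) : Matrix (Fin m) (Fin m) F).transpose).mulVec x) = x := by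
          rw [Matrix.mulVec_mulVec, ← Matrix.transpose_mul, ← Units.val_mul, inv_mul_cancel, Units.val_one,
            Matrix.transpose_one, Matrix.one_mulVec]
        rw [← h1, hx, Matrix.mulVec_zero]
      have hdec : ∀ v : Fin m ⊕ Fin m → F, v = Sum.elim (fun i => v (Sum.inl i)) (fun i => v (Sum.inr i)) := by
        intro v; funext i; rcases i with i | i <;> rfl
      have hact : ∀ v : Fin m ⊕ Fin m → F, (Matrix.fromBlocks (A : Matrix (Fin m) (Fin m) F) 0 0
          (((A⁻¹ : GL (Fin m) F) : Matrix (Fin m) (Fin m) F).transpose)).mulVec v =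
          Sum.elim ((A : Matrix (Fin m) (Fin m) F).mulVec (fun i => v (Sum.inl i)))
            ((((A⁻¹ : GL (Fin m) F) : Matrix (Fin m) (Fin m) F).transpose).mulVec (fun i => v (Sum.inr i))) := by
        intro v
        rw [Matrix.fromBlocks_mulVec, Matrix.zero_mulVec, Matrix.zero_mulVec, add_zero, zero_add]
        rfl
      refine ⟨fun v => ?_, fun v => ?_⟩
      · show (∀ i, v (Sum.inr i) = 0) ↔ (∀ i, ((Matrix.fromBlocks (A : Matrix (Fin m) (Fin m) F) 0 0
          (((A⁻¹ : GL (Fin m) F) : Matrix (Fin m) (Fin m) F).transpose)).mulVec v) (Sum.inr i) = 0)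
        rw [hact]
        constructor
        · intro h i
          have : (fun i => v (Sum.inr i)) = 0 := funext h
          rw [Sum.elim_inr, this, Matrix.mulVec_zero]
          rfl
        · intro h i
          exact congrFun (hA2 (fun i => v (Sum.inr i)) (funext h)) i
      · show (∀ i, v (Sum.inl i) = 0) ↔ (∀ i, ((Matrix.fromBlocks (A : Matrix (Fin m) (Fin m) F) 0 0
          (((A⁻¹ : GL (Fin m) F) : Matrix (Fin m) (Fin m) F).transpose)).mulVec v) (Sum.inl i) = 0)
        rw [hact]
        constructor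
        · intro h i
          have : (fun i => v (Sum.inl i)) = 0 := funext h
          rw [Sum.elim_inl, this, Matrix.mulVec_zero]
          rfl
        · intro h i
          exact congrFun (hA1 (fun i => v (Sum.inl i)) (funext h)) i
    · rintro ⟨h1, h2⟩
      obtain ⟨M, hM⟩ := g
      have h1' : ∀ v : Fin m ⊕ Fin m → F, (∀ i, v (Sum.inr i) = 0) ↔ (∀ i, (M.mulVec v) (Sum.inr i) = 0) := h1
      have h2' : ∀ v : Fin m ⊕ Fin m → F, (∀ i, v (Sum.inl i) = 0) ↔ (∀ i, (M.mulVec v) (Sum.inl i) = 0) := h2
      have hC : M.toBlocks₂₁ = 0 := by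
        ext i j
        have := (h1' (Pi.single (Sum.inl j) 1)).mp (fun i => by rw [Pi.single_eq_of_ne (by simp)]) i
        rw [Matrix.mulVec_single_one] at this
        exact this
      have hB : M.toBlocks₁₂ = 0 := by
        ext i j
        have := (h2' (Pi.single (Sum.inr j) 1)).mp (fun i => by rw [Pi.single_eq_of_ne (by simp)]) i
        rw [Matrix.mulVec_single_one] at this
        exact this
      have hMb : M = Matrix.fromBlocks M.toBlocks₁₁ 0 0 M.toBlocks₂₂ := by
        conv_lhs => rw [← Matrix.fromBlocks_toBlocks M, hC, hB]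
      have hM' := SymplecticGroup.mem_iff.mp hM
      rw [hMb, Matrix.J, Matrix.fromBlocks_transpose, Matrix.fromBlocks_multiply, Matrix.fromBlocks_multiply] at hM'
      simp only [Matrix.transpose_zero, mul_zero, zero_mul, add_zero, zero_add, mul_neg, mul_one, neg_mul] at hM'
      have hAD : M.toBlocks₁₁ * M.toBlocks₂₂.transpose = 1 := by
        have := (Matrix.fromBlocks_inj.mp hM').2.1
        exact neg_injective this
      have hDA : M.toBlocks₂₂.transpose * M.toBlocks₁₁ = 1 := mul_eq_one_comm.mp hAD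
      refine ⟨⟨M.toBlocks₁₁, M.toBlocks₂₂.transpose, hAD, hDA⟩, ?_⟩
      apply Subtype.ext
      show Matrix.fromBlocks M.toBlocks₁₁ 0 0 M.toBlocks₂₂.transpose.transpose = M
      rw [Matrix.transpose_transpose, ← hMb]
  exact ⟨(MulEquiv.subgroupCongr hr.symm).trans (MonoidHom.ofInjective hφ).symm⟩

end Cfsg.Agent.S0778
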