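import Cfsg.Statements.S5607
import Cfsg.Agent.H29.M24Leaf

set_option autoImplicit false
open scoped Pointwise
open Cfsg

namespace Cfsg.Agent.S5607

open Cfsg.Agent.H7 Cfsg.Agent.H29

/-- transversal of the centraliser of the representative -/
def cqs : List ℕ := [0x554d21dcf3446912e65a2241832d7,
  0xa9808d0a690d1323acd85d2ba9de2,
  0x152ceba8738156668184944e87a6a1,
  0x1ae497a02db09c4b9e11655409d0c5,
  0x2054978da5a222201e6e35597b424b,
  0x299246cc2a38814722b77ae51832c3,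
  0x32132b2d447ceed732a03c03111474,
  0x3a20eb92abb254da0253644662844f,
  0x44d2e05166792ca85eac3c4722882d,
  0x4a200891ebb1ccd9ba5465c4a09475,
  0x506f690cc58d1e2ac0077316923513,
  0x5caf53b1168b6909bc067246a28824,
  0x61047ab6481c26ba242a2bc06bba36,
  0x69a0facd6ab10b40a64361c02bc5c8,
  0x70d52b06e2a00856b26b342a849df1,
  0x7c28825aac526f272cc09b4b118447,
  0x81e211d5890594fa15d3b88865b512,
  0x8d9f3a4af0a81ac598e84a82410cae,
  0x919693ceca431d403c916d45709470,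
  0x9a5c46bcc7bd2156223202c762844a,
  0xa250129e6f2281588db758a4e85986,
  0xac493301f741e4e651706a87628829,
  0xb5ea85c64e7c0c0991343b4aa1882c,
  0xbdab49ca307b9ac5a928398a418820]

def S0m : ℕ := 8536065

theorem cqs_ok : (cqs.all fun c => okPerm c && Nat.beq (pm c r2B) (pm r2B c) &&
    fixSx c S0m S0m) = true := by decide +kernel

theorem cqs_img : ∀ q < 24, papp (cqs.getD q 0) 23 = q := by decide +kernel

theorem S0_sextet : sext (toSet S0m) ∈ Cfsg.sextets :=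
  mem_sextets_iff.2 ⟨_, by rw [card_toSet]; decide +kernel, rfl⟩

theorem comm_of_pm {c g : ℕ} (hc : isPermCode c = true) (hg : isPermCode g = true)
    (h : Nat.beq (pm c g) (pm g c) = true) : mkPerm c * mkPerm g = mkPerm g * mkPerm c := by
  have h := Nat.eq_of_beq_eq_true h
  rw [pm_eq, pm_eq] at h
  rw [← mkPerm_pmul hc hg (isPermCode_pmul hc hg), h,
    mkPerm_pmul hg hc (isPermCode_pmul hg hc)]

theorem trans_r {q : ℕ} (hq : q < 24) : ∃ c ∈ Cfsg.M24, c * mkPerm r2B = mkPerm r2B * c ∧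
    c • sext (toSet S0m) = sext (toSet S0m) ∧ c (gpt 23) = gpt q := by
  have hmem : cqs.getD q 0 ∈ cqs := by
    rw [List.getD_eq_getElem _ _ (show q < cqs.length from hq)]
    exact List.getElem_mem _
  have h := cqs_ok
  rw [List.all_eq_true] at h
  have h1 := h _ hmem
  rw [Bool.and_eq_true, Bool.and_eq_true] at h1
  obtain ⟨⟨h1, h2⟩, h3⟩ := h1
  have hp := okPerm_isPerm h1
  refine ⟨mkPerm (cqs.getD q 0), mkPerm_mem_M24 h1,
    comm_of_pm hp (okPerm_isPerm reps_ok.2.1) h2,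
    (fixSx_iff h1 (by rw [card_toSet]; decide +kernel) (by decide +kernel)).1 h3, ?_⟩
  rw [mkPerm_gpt hp (by norm_num), cqs_img q hq]

theorem stab_card : {σ | σ ∈ Cfsg.M24 ∧ (σ * mkPerm r2B = mkPerm r2B * σ ∧ ap σ 23 = 23)}.ncard
    = 320 :=
  conj_count_first D2B_ok reps_ok.2.1 (by decide +kernel)

theorem stab_fix : ∀ σ ∈ Cfsg.M24, (σ * mkPerm D2B.g = mkPerm r2B * σ ∧ ap σ 23 = 23) →
    σ • sext (toSet S0m) = sext (toSet S0m) :=
  conj_all_first D2B_ok reps_ok.2.1 (lf := lfSxt [0, 14, 17, 23] S0m)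
    (lfSxt_iff (m := S0m) (by decide +kernel) (by decide +kernel) (by decide +kernel)).imp
    (by decide +kernel)

theorem ap23 {σ : Equiv.Perm Cfsg.GolayPt} : ap σ 23 = 23 ↔ σ (gpt 23) = gpt 23 := by
  unfold ap
  constructor
  · intro h; rw [← gpt_gidx (σ (gpt 23)), h]
  · intro h; rw [h]; rfl

theorem cent_fix {σ : Equiv.Perm Cfsg.GolayPt} (hσ : σ ∈ Cfsg.M24)
    (hc : σ * mkPerm r2B = mkPerm r2B * σ) : σ • sext (toSet S0m) = sext (toSet S0m) := by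
  obtain ⟨c, hcM, hcc, hcS, hcp⟩ := trans_r (q := ap σ 23) (ap_lt _ _)
  have h1 : (c⁻¹ * σ) • sext (toSet S0m) = sext (toSet S0m) := by
    refine stab_fix _ (Cfsg.M24.mul_mem (Cfsg.M24.inv_mem hcM) hσ) ⟨?_, ?_⟩
    · have e : c⁻¹ * mkPerm r2B = mkPerm r2B * c⁻¹ := by
        rw [inv_mul_eq_iff_eq_mul, ← mul_assoc, hcc]; group
      show c⁻¹ * σ * mkPerm r2B = mkPerm r2B * (c⁻¹ * σ)
      rw [mul_assoc, hc, ← mul_assoc, e, mul_assoc]
    · rw [ap23, Equiv.Perm.mul_apply, Equiv.Perm.inv_eq_iff_eq, hcp, gpt_ap]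
  have h2 : σ = c * (c⁻¹ * σ) := by group
  rw [h2, mul_smul, h1, hcS]

theorem cent_trans (p q : Cfsg.GolayPt) : ∃ c ∈ Cfsg.M24, c * mkPerm r2B = mkPerm r2B * c ∧
    c p = q := by
  obtain ⟨a, haM, hac, _, hap⟩ := trans_r (gidx_lt p)
  obtain ⟨b, hbM, hbc, _, hbp⟩ := trans_r (gidx_lt q)
  rw [gpt_gidx] at hap hbp
  refine ⟨b * a⁻¹, Cfsg.M24.mul_mem hbM (Cfsg.M24.inv_mem haM), ?_, ?_⟩
  · have e : a⁻¹ * mkPerm r2B = mkPerm r2B * a⁻¹ := by
      rw [inv_mul_eq_iff_eq_mul, ← mul_assoc, hac]; group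
    rw [mul_assoc, e, ← mul_assoc, hbc, mul_assoc]
  · rw [Equiv.Perm.mul_apply]
    have : a⁻¹ p = gpt 23 := by rw [Equiv.Perm.inv_eq_iff_eq, hap]
    rw [this, hbp]

theorem cent_card : {c : Equiv.Perm Cfsg.GolayPt | c ∈ Cfsg.M24 ∧
    c * mkPerm r2B = mkPerm r2B * c}.ncard = 7680 := by
  have h := card_step' (Cfsg.M24 ⊓ Subgroup.centralizer {mkPerm r2B}) (gpt 23) Set.univ
    (fun _ _ => Set.mem_univ _) (fun q _ => by
      obtain ⟨c, hc, hcc, hcq⟩ := cent_trans (gpt 23) q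
      exact ⟨c, ⟨hc, Subgroup.mem_centralizer_singleton_iff.2 hcc⟩, hcq⟩)
  have e1 : Nat.card (Cfsg.M24 ⊓ Subgroup.centralizer {mkPerm r2B} :
      Subgroup (Equiv.Perm Cfsg.GolayPt)) = {c : Equiv.Perm Cfsg.GolayPt | c ∈ Cfsg.M24 ∧
    c * mkPerm r2B = mkPerm r2B * c}.ncard := by
    rw [← Nat.card_coe_set_eq]
    refine Nat.card_congr (Equiv.subtypeEquivRight fun c => ?_)
    rw [Subgroup.mem_inf, Subgroup.mem_centralizer_singleton_iff]
    exact Iff.rfl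
  have e2 : Nat.card ((Cfsg.M24 ⊓ Subgroup.centralizer {mkPerm r2B}) ⊓
      MulAction.stabilizer (Equiv.Perm Cfsg.GolayPt) (gpt 23) :
      Subgroup (Equiv.Perm Cfsg.GolayPt)) = 320 := by
    rw [← stab_card, ← Nat.card_coe_set_eq]
    refine Nat.card_congr (Equiv.subtypeEquivRight fun c => ?_)
    rw [Subgroup.mem_inf, Subgroup.mem_inf, Subgroup.mem_centralizer_singleton_iff]
    show _ ↔ (c ∈ Cfsg.M24 ∧ (c * mkPerm r2B = mkPerm r2B * c ∧ ap c 23 = 23))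
    rw [ap23]
    constructor
    · rintro ⟨⟨h1, h2⟩, h3⟩; exact ⟨h1, h2, h3⟩
    · rintro ⟨h1, h2, h3⟩; exact ⟨⟨h1, h2⟩, h3⟩
  rw [e1, e2, Set.ncard_univ] at h
  rw [h, Nat.card_eq_fintype_card]
  rfl

/-- For a fixed-point-free involution t of the group of the length-24 code: its centraliser in that group has order 7680, is transitive on the 24 points, and is contained, together with t, in the stabiliser of some sextet. -/
theorem result (t : Equiv.Perm Cfsg.GolayPt) (ht : t ∈ Cfsg.M24) (h₂ : orderOf t = 2) (h₀ : ∀ p, t p ≠ p) : Nat.card {c : Equiv.Perm Cfsg.GolayPt // c ∈ Cfsg.M24 ∧ c * t = t * c} = 7680 ∧ (∀ p q : Cfsg.GolayPt, ∃ c ∈ Cfsg.M24, c * t = t * c ∧ c p = q) ∧ ∃ S ∈ Cfsg.sextets, t • S = S ∧ ∀ c ∈ Cfsg.M24, c * t = t * c → c • S = S := by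
  obtain ⟨τ, hτ, hr⟩ := invol_B ht h₂ (by rw [fixed_card_zero.2 h₀]; norm_num)
  have hτ' := Cfsg.M24.inv_mem hτ
  have e0 : t = τ⁻¹ * mkPerm r2B * τ := by rw [← hr]; group
  have key : ∀ c : Equiv.Perm Cfsg.GolayPt, c * t = t * c ↔
      (τ * c * τ⁻¹) * mkPerm r2B = mkPerm r2B * (τ * c * τ⁻¹) := by
    intro c
    rw [← hr]
    constructor
    · intro h
      calc τ * c * τ⁻¹ * (τ * t * τ⁻¹) = τ * (c * t) * τ⁻¹ := by group
        _ = τ * (t * c) * τ⁻¹ := by rw [h]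
        _ = _ := by group
    · intro h
      calc c * t = τ⁻¹ * (τ * c * τ⁻¹ * (τ * t * τ⁻¹)) * τ := by group
        _ = τ⁻¹ * (τ * t * τ⁻¹ * (τ * c * τ⁻¹)) * τ := by rw [h]
        _ = _ := by group
  have hmem : ∀ c : Equiv.Perm Cfsg.GolayPt, c ∈ Cfsg.M24 ↔ τ * c * τ⁻¹ ∈ Cfsg.M24 := by
    intro c
    constructor
    · intro h; exact Cfsg.M24.mul_mem (Cfsg.M24.mul_mem hτ h) hτ'
    · intro h
      have : c = τ⁻¹ * (τ * c * τ⁻¹) * τ := by group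
      rw [this]; exact Cfsg.M24.mul_mem (Cfsg.M24.mul_mem hτ' h) hτ
  refine ⟨?_, ?_, τ⁻¹ • sext (toSet S0m), smul_sextet hτ' S0_sextet, ?_, ?_⟩
  · rw [← cent_card, ← Nat.card_coe_set_eq]
    refine Nat.card_congr ((MulAut.conj τ).toEquiv.subtypeEquiv fun c => ?_)
    show (c ∈ Cfsg.M24 ∧ c * t = t * c) ↔ (τ * c * τ⁻¹ ∈ Cfsg.M24 ∧
      (τ * c * τ⁻¹) * mkPerm r2B = mkPerm r2B * (τ * c * τ⁻¹))
    rw [← hmem, ← key]
  · intro p q
    obtain ⟨c, hcM, hcc, hcp⟩ := cent_trans (τ p) (τ q)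
    have e1 : τ * (τ⁻¹ * c * τ) * τ⁻¹ = c := by group
    refine ⟨τ⁻¹ * c * τ, (hmem _).2 (by rw [e1]; exact hcM), (key _).2 (by rw [e1]; exact hcc), ?_⟩
    rw [Equiv.Perm.mul_apply, Equiv.Perm.mul_apply, hcp]
    exact τ.symm_apply_apply q
  · have h1 := cent_fix (mkPerm_mem_M24 reps_ok.2.1) rfl
    have h2 : t • τ⁻¹ • sext (toSet S0m) = τ⁻¹ • mkPerm r2B • sext (toSet S0m) := by
      rw [← mul_smul, ← mul_smul, e0]; congr 1; group
    rw [h2, h1]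
  · intro c hc hcc
    have h1 := cent_fix ((hmem c).1 hc) ((key c).1 hcc)
    have h2 : c • τ⁻¹ • sext (toSet S0m) = τ⁻¹ • (τ * c * τ⁻¹) • sext (toSet S0m) := by
      rw [← mul_smul, ← mul_smul]; congr 1; group
    rw [h2, h1]

end Cfsg.Agent.S5607
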