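import Cfsg.Statements.S0292
import Mathlib
import Cfsg.Agent.H5.OmegaQuot
import Cfsg.Agent.S0286

set_option autoImplicit false
open Cfsg

namespace Cfsg.Agent.S0292

/-- 2 |PΩ_{2m+1}(q)| = q^(m^2) prod_{i=1}^{m} (q^(2i) - 1), for q odd and m at least 3 (type B_m). -/
theorem result {F : Type*} [Field F] [Fintype F] {q : ℕ} (hF : Fintype.card F = q) (hodd : Odd q) (m : ℕ) (hm : 3 ≤ m) : 2 * Nat.card (Cfsg.POmega F (Cfsg.quadFormOdd m F)) = q ^ (m ^ 2) * ∏ i ∈ Finset.range m, (q ^ (2 * (i + 1)) - 1) := by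
  have h2 : (2 : F) ≠ 0 := by
    intro h2
    have h3 := FiniteField.even_card_of_char_two (Cfsg.Agent.H5.ringChar_eq_two h2)
    rw [hF] at h3
    rw [Nat.odd_iff] at hodd
    omega
  have hcard := Cfsg.Agent.S0286.result hF hodd m
  rw [← Cfsg.Agent.H5.qOdd_coe, Nat.card_congr (Cfsg.Agent.H5.ogEquiv (Cfsg.Agent.H5.qOdd m F)).toEquiv] at hcard
  have hι : Fintype.card (Unit ⊕ (Fin m ⊕ Fin m)) = 2 * m + 1 := by simp; ring
  have hnd := Cfsg.Agent.H5.nd_odd (m := m) h2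
  have hneg : Cfsg.Agent.H5.ogNeg (Cfsg.Agent.H5.qOdd m F) ∉ commutator (Cfsg.Agent.H5.OG (Cfsg.Agent.H5.qOdd m F)) := by
    intro h
    obtain ⟨v, hv⟩ := Cfsg.Agent.H5.exists_ne_q hnd (by
      rw [Module.finrank_fintype_fun_eq_card, hι]; omega)
    have h1 := Cfsg.Agent.H5.comm_le_of_index_two (Cfsg.Agent.H5.dg_index hnd
      (Cfsg.Agent.H5.rg_top hnd (fun _ => by rw [Module.finrank_fintype_fun_eq_card, hι]; omega)) hv) h
    have h3 := Cfsg.Agent.H5.odet_dg h1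
    have h4 : Cfsg.Agent.H5.odet (Cfsg.Agent.H5.qOdd m F) (Cfsg.Agent.H5.ogNeg (Cfsg.Agent.H5.qOdd m F)) = -1 := by
      have h5 : ((Cfsg.Agent.H5.ogNeg (Cfsg.Agent.H5.qOdd m F)).1 : (Unit ⊕ (Fin m ⊕ Fin m) → F) →ₗ[F] (Unit ⊕ (Fin m ⊕ Fin m) → F)) =
          (-1 : F) • LinearMap.id := by
        apply LinearMap.ext
        intro x
        show -x = (-1 : F) • x
        module
      show LinearMap.det _ = _
      rw [h5, LinearMap.det_smul, LinearMap.det_id, Module.finrank_fintype_fun_eq_card, hι, mul_one]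
      exact Odd.neg_one_pow ⟨m, rfl⟩
    rw [h4] at h3
    apply h2
    linear_combination -h3
  have h := Cfsg.Agent.H5.card_POmega_odd1 hnd (by rw [hι]; omega) h2 hneg
  rw [hcard] at h
  rw [Cfsg.Agent.H5.qOdd_coe] at h
  apply Nat.eq_of_mul_eq_mul_left (show 0 < 2 by norm_num)
  rw [← mul_assoc, show 2 * 2 = 4 by norm_num, h]
  ring

end Cfsg.Agent.S0292
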