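import Cfsg.Statements.S1691

set_option autoImplicit false
open scoped Pointwise
open Cfsg

namespace Cfsg.Agent.S1691

open Cfsg.Spor

abbrev rels : Set (FreeGroup Fi24.Gen) := coxRelators Fi24.edges ∪ {r | r ∈ Fi24.extra}

/-- parity map on the free group -/
def sgnF : FreeGroup Fi24.Gen →* ℤˣ := FreeGroup.lift (fun _ => (-1 : ℤˣ))

theorem sgnF_rel : ∀ r ∈ rels, sgnF r = 1 := by
  intro r hr
  rcases hr with hr | hr
  · obtain ⟨x, _, y, _, rfl⟩ := hr
    simp [sgnF]
  · simp only [Set.mem_setOf_eq, Fi24.extra, List.mem_cons, List.mem_nil_iff, or_false] at hr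
    rcases hr with rfl | rfl
    · simp only [sgnF, map_mul, map_inv, map_pow, Fi24.a, Fi24.b, Fi24.c, Fi24.d, Fi24.e, Fi24.f, Fi24.h,
        Fi24.l, FreeGroup.lift_apply_of]
      decide
    · simp only [sgnF, map_mul, map_inv, map_pow, Fi24.a, Fi24.b, Fi24.c, Fi24.d, Fi24.e, Fi24.f, Fi24.h,
        Fi24.l, Fi24.k, Fi24.g, Fi24.i, Fi24.j, FreeGroup.lift_apply_of]
      decide

def sgn : Fi24 →* ℤˣ := PresentedGroup.toGroup (rels := rels) (f := fun _ => (-1 : ℤˣ)) sgnF_rel

theorem sgn_of (x : Fi24.Gen) : sgn (PresentedGroup.of x) = -1 :=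
  PresentedGroup.toGroup.of (rels := rels) (f := fun _ => (-1 : ℤˣ)) sgnF_rel

theorem coxrel {x y : Fi24.Gen} (hx : x ∈ coxNodes Fi24.edges) (hy : y ∈ coxNodes Fi24.edges) :
    ((PresentedGroup.of x : Fi24) * PresentedGroup.of y) ^ coxLabel Fi24.edges x y = 1 := by
  have : (PresentedGroup.mk rels) ((FreeGroup.of x * FreeGroup.of y) ^ coxLabel Fi24.edges x y) = 1 := by
    apply PresentedGroup.one_of_mem
    left
    exact ⟨x, hx, y, hy, rfl⟩
  rw [map_pow, map_mul] at this
  exact this

theorem nodes : ∀ x : Fi24.Gen, x ∈ coxNodes Fi24.edges := by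
  intro x; cases x <;> decide

theorem ab_sq (x : Fi24.Gen) :
    (Abelianization.of (PresentedGroup.of x : Fi24)) ^ 2 = 1 := by
  have h := coxrel (nodes x) (nodes x)
  have h2 : coxLabel Fi24.edges x x = 1 := by simp [coxLabel]
  rw [h2, pow_one] at h
  rw [pow_two, ← map_mul, h, map_one]

theorem ab_edge (x y : Fi24.Gen) (h3 : coxLabel Fi24.edges x y = 3) :
    (Abelianization.of (PresentedGroup.of x : Fi24)) = Abelianization.of (PresentedGroup.of y : Fi24) := by
  have h := coxrel (nodes x) (nodes y)
  rw [h3] at h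
  have hx := ab_sq x
  have hy := ab_sq y
  have h' := congrArg Abelianization.of h
  rw [map_pow, map_mul, map_one, mul_pow] at h'
  set X := Abelianization.of (PresentedGroup.of x : Fi24)
  set Y := Abelianization.of (PresentedGroup.of y : Fi24)
  have h1 : X * Y = 1 := by
    calc X * Y = (X^2 * Y^2) * (X * Y) := by rw [hx, hy]; simp
      _ = X ^ 3 * Y ^ 3 := by
        rw [pow_succ X 2, pow_succ Y 2]
        simp only [mul_assoc, mul_left_comm, mul_comm]
      _ = 1 := h'
  calc X = X * (Y * Y) := by rw [← pow_two, hy, mul_one]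
    _ = Y := by rw [← mul_assoc, h1, one_mul]

theorem ab_all (x : Fi24.Gen) :
    (Abelianization.of (PresentedGroup.of x : Fi24)) = Abelianization.of (PresentedGroup.of Fi24.Gen.d : Fi24) := by
  have e1 := ab_edge .l .k (by decide)
  have e2 := ab_edge .k .a (by decide)
  have e3 := ab_edge .a .b (by decide)
  have e4 := ab_edge .b .c (by decide)
  have e5 := ab_edge .c .d (by decide)
  have e6 := ab_edge .e .d (by decide)
  have e7 := ab_edge .h .d (by decide)
  have e8 := ab_edge .f .e (by decide)
  have e9 := ab_edge .g .f (by decide)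
  have e10 := ab_edge .j .g (by decide)
  have e11 := ab_edge .i .h (by decide)
  cases x
  · rw [e1, e2, e3, e4, e5]
  · rw [e2, e3, e4, e5]
  · rw [e3, e4, e5]
  · rw [e4, e5]
  · rw [e5]
  · rfl
  · rw [e6]
  · rw [e8, e6]
  · rw [e9, e8, e6]
  · rw [e10, e9, e8, e6]
  · rw [e7]
  · rw [e11, e7]

theorem gen_abel : ∀ z : Abelianization Fi24,
    z = 1 ∨ z = Abelianization.of (PresentedGroup.of Fi24.Gen.d : Fi24) := by
  set D := Abelianization.of (PresentedGroup.of Fi24.Gen.d : Fi24) with hD
  have hsq : D * D = 1 := by rw [← pow_two]; exact ab_sq _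
  have key : ∀ w : FreeGroup Fi24.Gen, Abelianization.of (PresentedGroup.mk rels w : Fi24) = 1 ∨
      Abelianization.of (PresentedGroup.mk rels w : Fi24) = D := by
    intro w
    induction w using FreeGroup.induction_on with
    | C1 => left; simp
    | of x => right; exact ab_all x
    | inv_of x ih =>
      right
      rw [map_inv, map_inv]
      have : Abelianization.of ((PresentedGroup.mk rels) (FreeGroup.of x) : Fi24) = D := ab_all x
      change (Abelianization.of ((PresentedGroup.mk rels) (FreeGroup.of x) : Fi24))⁻¹ = D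
      rw [this]
      exact inv_eq_of_mul_eq_one_left hsq
    | mul u v hu hv =>
      rw [map_mul, map_mul]
      rcases hu with hu | hu <;> rcases hv with hv | hv <;> rw [hu, hv] <;> simp [hsq]
  intro z
  obtain ⟨g, rfl⟩ := QuotientGroup.mk_surjective z
  obtain ⟨w, rfl⟩ := PresentedGroup.mk_surjective (rels := rels) g
  exact key w

/-- The commutator subgroup of the presented group Fi₂₄ has index 2 (the presented group is Fi₂₄′:2 with Fi₂₄′ its derived subgroup). -/
theorem result : (commutator Cfsg.Spor.Fi24).index = 2 := by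
  have h1 : (commutator Cfsg.Spor.Fi24).index = Nat.card (Abelianization Fi24) := rfl
  rw [h1]
  have hne : Abelianization.of (PresentedGroup.of Fi24.Gen.d : Fi24) ≠ 1 := by
    intro h
    have := congrArg (Abelianization.lift sgn) h
    simp only [Abelianization.lift_apply_of, map_one] at this
    rw [sgn_of] at this
    exact absurd this (by decide)
  have : (Set.univ : Set (Abelianization Fi24)) = {1, Abelianization.of (PresentedGroup.of Fi24.Gen.d : Fi24)} := by
    ext z
    simp only [Set.mem_univ, Set.mem_insert_iff, Set.mem_singleton_iff, true_iff]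
    exact gen_abel z
  rw [← Set.ncard_univ, this, Set.ncard_pair hne.symm]

end Cfsg.Agent.S1691
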