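import Cfsg.Statements.S0998
import Cfsg.Agent.H9.BTG
import Cfsg.Agent.S0494
import Cfsg.Agent.H5.PSLSimple
import Cfsg.Agent.H5.Small

set_option autoImplicit false
open Cfsg

namespace Cfsg.Agent.S0998


theorem mod3 (k : ℕ) : 2 ^ k % 3 = 1 ∨ 2 ^ k % 3 = 2 := by
  induction k with
  | zero => left; rfl
  | succ k ih =>
    rw [pow_succ]
    omega

theorem ar {r q b k x : ℕ} (hr : r.Prime) (hq : q.Prime) (hqr : q ≠ r) (hx : Odd x) (hk : 2 ≤ k)
    (h : r * q ^ b = 2 ^ k * x) : q = 2 ∧ r = x := by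
  have hr2 : r ≠ 2 := by
    rintro rfl
    obtain ⟨j, rfl⟩ := Nat.exists_eq_add_of_le hk
    have h1 : q ^ b = 2 * (2 ^ j * x) := by
      have : 2 * q ^ b = 2 * (2 * (2 ^ j * x)) := by rw [h, pow_add]; ring
      exact Nat.eq_of_mul_eq_mul_left (by norm_num) this
    have h2 : 2 ∣ q ^ b := Dvd.intro _ h1.symm
    have h3 := (Nat.prime_dvd_prime_iff_eq Nat.prime_two hq).mp (Nat.prime_two.dvd_of_dvd_pow h2)
    exact hqr h3.symm
  have hq2 : q = 2 := by
    have h1 : 2 ∣ r * q ^ b := by
      rw [h]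
      exact Dvd.dvd.mul_right (dvd_pow_self 2 (by omega)) _
    rcases (Nat.Prime.dvd_mul Nat.prime_two).mp h1 with h2 | h2
    · exact absurd ((Nat.prime_dvd_prime_iff_eq Nat.prime_two hr).mp h2).symm hr2
    · exact ((Nat.prime_dvd_prime_iff_eq Nat.prime_two hq).mp (Nat.prime_two.dvd_of_dvd_pow h2)).symm
  refine ⟨hq2, ?_⟩
  rw [hq2] at h
  apply Nat.dvd_antisymm
  · have h1 : Nat.Coprime r (2 ^ k) := Nat.Coprime.pow_right _ ((Nat.coprime_primes hr Nat.prime_two).mpr hr2)
    exact h1.dvd_of_dvd_mul_left (Dvd.intro _ h)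
  · have h1 : Nat.Coprime x (2 ^ b) := Nat.Coprime.pow_right _ (Nat.coprime_two_right.mpr hx)
    exact h1.dvd_of_dvd_mul_right (Dvd.intro_left _ h.symm)

theorem even_pow_pred {k : ℕ} (hk : 1 ≤ k) : Odd (2 ^ k - 1) ∧ Odd (2 ^ k + 1) := by
  obtain ⟨j, rfl⟩ := Nat.exists_eq_add_of_le hk
  have : 0 < 2 ^ j := by positivity
  rw [pow_add, pow_one]
  exact ⟨⟨2 ^ j - 1, by omega⟩, ⟨2 ^ j, by omega⟩⟩

theorem psl25 {G : Type*} [Group G] [Finite G] [IsSimpleGroup G] (h : Nat.card G = 60) :
    ∃ (F : Type) (_ : Field F) (_ : Fintype F), Fintype.card F = 5 ∧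
      Nonempty (G ≃* Matrix.ProjectiveSpecialLinearGroup (Fin 2) F) := by
  haveI : Fact (Nat.Prime 5) := ⟨by norm_num⟩
  have hF : Fintype.card (ZMod 5) = 5 := ZMod.card 5
  haveI : IsSimpleGroup (Matrix.ProjectiveSpecialLinearGroup (Fin 2) (ZMod 5)) :=
    Cfsg.Agent.H5.PSL2_isSimple (by rw [Nat.card_zmod]; norm_num)
  have h1 := Cfsg.Agent.H5.card_PSL2 hF
  have h2 : Nat.card (Matrix.ProjectiveSpecialLinearGroup (Fin 2) (ZMod 5)) = 60 := by
    have : Nat.gcd 2 (5 - 1) = 2 := by norm_num
    rw [this] at h1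
    omega
  obtain ⟨f⟩ := Cfsg.Agent.S0494.result h
  obtain ⟨g⟩ := Cfsg.Agent.S0494.result h2
  exact ⟨ZMod 5, inferInstance, inferInstance, hF, ⟨f.trans g.symm⟩⟩

theorem aux {G : Type*} [Group G] [Finite G] [IsSimpleGroup G] (hG : ¬ IsMulCommutative G) {p q r b : ℕ}
    (hp : p.Prime) (hq : q.Prime) (hr : r.Prime) (hpq : p ≠ q) (hqr : q ≠ r) (hrp : r < p)
    (hG' : Nat.card G = p * r * q ^ b) :
    (∃ (F : Type) (_ : Field F) (_ : Fintype F), Fintype.card F = 5 ∧ Nonempty (G ≃* Matrix.ProjectiveSpecialLinearGroup (Fin 2) F)) ∨ (∃ (F : Type) (_ : Field F) (_ : Fintype F), Fintype.card F = 7 ∧ Nonempty (G ≃* Matrix.ProjectiveSpecialLinearGroup (Fin 2) F)) := by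
  have hr1 : r < p - 1 := by
    by_contra hcon
    have h1 : p = r + 1 := by omega
    have hr2 : r = 2 := by
      rcases hr.eq_two_or_odd' with h | ⟨j, hj⟩
      · exact h
      · exfalso
        have h2 : 2 ∣ p := ⟨j + 1, by omega⟩
        have h3 := (Nat.prime_dvd_prime_iff_eq Nat.prime_two hp).mp h2
        have := hr.two_le
        omega
    have hp3 : p = 3 := by omega
    haveI : Fact (Nat.Prime 2) := ⟨Nat.prime_two⟩
    let S : Sylow 2 G := default
    have hS : Nat.card S = 2 := by
      have h2 : Nat.card S = 2 ^ (Nat.card G).factorization 2 := S.card_eq_multiplicity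
      have h3 : (Nat.card G).factorization 2 = 1 := by
        have h4 : ¬ 2 ∣ 3 * q ^ b := by
          intro h
          rcases (Nat.Prime.dvd_mul Nat.prime_two).mp h with h5 | h5
          · omega
          · have h6 := (Nat.prime_dvd_prime_iff_eq Nat.prime_two hq).mp (Nat.prime_two.dvd_of_dvd_pow h5)
            exact hqr (by rw [hr2, h6])
        have h5 : Nat.card G = 2 * (3 * q ^ b) := by rw [hG', hp3, hr2]; ring
        rw [h5, Nat.factorization_mul (by norm_num) (by
          have := pow_pos hq.pos b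
          positivity), Finsupp.add_apply, Nat.prime_two.factorization_self,
          Nat.factorization_eq_zero_of_not_dvd h4]
      rw [h2, h3, pow_one]
    have := Cfsg.Agent.H9.BR.two_lt (Cfsg.Agent.H9.BT.perfect_of_simple hG) S hS
    omega
  have hcard : Nat.card G = p * q ^ b * r := by rw [hG']; ring
  have hr2 := hr.two_le
  have hodd : Odd p := by
    rcases hp.eq_two_or_odd' with h | h
    · omega
    · exact h
  rcases Cfsg.Agent.H9.BT.tuan hG hp hq hpq hcard hr1 with ⟨m, F, i1, i2, h1, h2, h3, ⟨f⟩⟩ | ⟨m, F, i1, i2, h1, h2, h3, ⟨f⟩⟩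
  · have h4 := Cfsg.Agent.H5.card_PSL2 h1
    have hgcd : Nat.gcd 2 (p - 1) = 2 := by
      apply Nat.gcd_eq_left
      obtain ⟨k, hk⟩ := hodd
      exact ⟨k, by omega⟩
    rw [hgcd, ← Nat.card_congr f.toEquiv, hcard] at h4
    have h5 : 2 * (r * q ^ b) = p ^ 2 - 1 := by
      have : p * (2 * (r * q ^ b)) = p * (p ^ 2 - 1) := by rw [← h4]; ring
      exact Nat.eq_of_mul_eq_mul_left hp.pos this
    rcases h2 with h2 | h2
    · -- `p = 2 ^ m + 1`
      left
      obtain ⟨k, rfl⟩ : ∃ k, m = k + 1 := by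
        rcases Nat.eq_zero_or_pos m with h | h
        · rw [h, pow_zero] at h2; omega
        · exact ⟨m - 1, by omega⟩
      have hk : 1 ≤ k := by
        rcases Nat.eq_zero_or_pos k with h | h
        · rw [h] at h2; norm_num at h2; omega
        · exact h
      have h6 : r * q ^ b = 2 ^ (k + 1) * (2 ^ k + 1) := by
        have h7 : p ^ 2 - 1 = 2 * (2 ^ (k + 1) * (2 ^ k + 1)) := by
          rw [h2, pow_succ 2 k]
          have : (2 ^ k * 2 + 1) ^ 2 = 2 * (2 ^ k * 2 * (2 ^ k + 1)) + 1 := by ring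
          omega
        omega
      obtain ⟨h7, h8⟩ := ar hr hq hqr (even_pow_pred hk).2 (by omega) h6
      have h9 := mod3 k
      rw [pow_succ] at h2
      have hr3 : r = 3 := by
        rcases h9 with h9 | h9
        · exfalso
          have h10 : 3 ∣ p := by omega
          have h11 := (Nat.prime_dvd_prime_iff_eq Nat.prime_three hp).mp h10
          omega
        · have h10 : 3 ∣ r := by omega
          exact ((Nat.prime_dvd_prime_iff_eq Nat.prime_three hr).mp h10).symm
      have hp5 : p = 5 := by omega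
      exact ⟨F, i1, i2, by rw [h1, hp5], ⟨f⟩⟩
    · right
      obtain ⟨k, rfl⟩ : ∃ k, m = k + 1 := by
        rcases Nat.eq_zero_or_pos m with h | h
        · rw [h, pow_zero] at h2; omega
        · exact ⟨m - 1, by omega⟩
      have hk : 2 ≤ k := by
        by_contra hcon
        have : k = 0 ∨ k = 1 := by omega
        rcases this with h | h
        · rw [h] at h2; norm_num at h2; omega
        · rw [h] at h2; norm_num at h2; omega
      have hk4 : 4 ≤ 2 ^ k := by
        have := Nat.pow_le_pow_right (n := 2) (by norm_num) hk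
        omega
      have h6 : r * q ^ b = 2 ^ (k + 1) * (2 ^ k - 1) := by
        obtain ⟨z, hz⟩ : ∃ z, 2 ^ k = z + 1 := ⟨2 ^ k - 1, by omega⟩
        rw [pow_succ, hz] at h2
        rw [pow_succ, hz]
        have h8 : p = 2 * z + 1 := by omega
        have h9 : p ^ 2 = 2 * ((z + 1) * 2 * z) + 1 := by rw [h8]; ring
        have h10 : z + 1 - 1 = z := by omega
        rw [h10]
        omega
      obtain ⟨h7, h8⟩ := ar hr hq hqr (even_pow_pred (by omega)).1 (by omega) h6
      have h9 := mod3 k
      rw [pow_succ] at h2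
      have hr3 : r = 3 := by
        rcases h9 with h9 | h9
        · have h10 : 3 ∣ r := by omega
          exact ((Nat.prime_dvd_prime_iff_eq Nat.prime_three hr).mp h10).symm
        · exfalso
          have h10 : 3 ∣ p := by omega
          have h11 := (Nat.prime_dvd_prime_iff_eq Nat.prime_three hp).mp h10
          omega
      have hp5 : p = 7 := by omega
      exact ⟨F, i1, i2, by rw [h1, hp5], ⟨f⟩⟩
  · left
    have hm2 : 2 ≤ m := by
      by_contra hcon
      have : m = 0 ∨ m = 1 := by omega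
      rcases this with h | h
      · rw [h] at h2; norm_num at h2; omega
      · rw [h] at h2; norm_num at h2; omega
    have hm4 : 4 ≤ 2 ^ m := by
      have := Nat.pow_le_pow_right (n := 2) (by norm_num) hm2
      omega
    have h4 := Cfsg.Agent.H5.card_PSL2 h1
    have hgcd : Nat.gcd 2 (2 ^ m - 1) = 1 := Nat.coprime_two_left.mpr (even_pow_pred (by omega)).1
    rw [hgcd, one_mul, ← Nat.card_congr f.toEquiv, hcard] at h4
    have h6 : r * q ^ b = 2 ^ m * (2 ^ m - 1) := by
      have h7 : p * (r * q ^ b) = p * (2 ^ m * (2 ^ m - 1)) := by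
        have e1 : p * (r * q ^ b) = p * q ^ b * r := by ring
        rw [e1, h4]
        obtain ⟨z, hz⟩ : ∃ z, 2 ^ m = z + 1 := ⟨2 ^ m - 1, by omega⟩
        rw [hz] at h2
        rw [hz, h2]
        have h9 : (z + 1) ^ 2 = z * (z + 2) + 1 := by ring
        have h10 : (z + 1) ^ 2 - 1 = z * (z + 2) := by omega
        rw [h10]
        have h11 : z + 1 - 1 = z := by omega
        rw [h11]; ring
      exact Nat.eq_of_mul_eq_mul_left hp.pos h7
    obtain ⟨h7, h8⟩ := ar hr hq hqr (even_pow_pred (by omega)).1 hm2 h6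
    have h9 := mod3 m
    have hr3 : r = 3 := by
      rcases h9 with h9 | h9
      · have h10 : 3 ∣ r := by omega
        exact ((Nat.prime_dvd_prime_iff_eq Nat.prime_three hr).mp h10).symm
      · exfalso
        have h10 : 3 ∣ p := by omega
        have h11 := (Nat.prime_dvd_prime_iff_eq Nat.prime_three hp).mp h10
        omega
    have h12 : 2 ^ m = 4 := by omega
    have h13 : Nat.card G = 60 := by
      rw [hG', mul_assoc, h6, h2, h12]
      norm_num
    exact psl25 h13

/-- A non-cyclic finite simple group whose order has the form p * r * q^b for distinct primes p, q, r is isomorphic to the projective special linear group of dimension 2 over the field with 5 or with 7 elements. -/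
theorem result {G : Type*} [Group G] [Finite G] [IsSimpleGroup G] (hG : ¬ IsCyclic G) (p q r b : ℕ) (hp : p.Prime) (hq : q.Prime) (hr : r.Prime) (hpq : p ≠ q) (hpr : p ≠ r) (hqr : q ≠ r) (hG' : Nat.card G = p * r * q ^ b) : (∃ (F : Type) (_ : Field F) (_ : Fintype F), Fintype.card F = 5 ∧ Nonempty (G ≃* Matrix.ProjectiveSpecialLinearGroup (Fin 2) F)) ∨ (∃ (F : Type) (_ : Field F) (_ : Fintype F), Fintype.card F = 7 ∧ Nonempty (G ≃* Matrix.ProjectiveSpecialLinearGroup (Fin 2) F)) := by
  have hnc : ¬ IsMulCommutative G := by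
    intro h
    apply hG
    haveI := h
    letI : CommGroup G := { (inferInstance : Group G) with mul_comm := fun a b => (isMulCommutative_iff.mp h) a b }
    exact IsSimpleGroup.isCyclic
  rcases lt_or_gt_of_ne hpr with h | h
  · exact aux (b := b) hnc hr hq hp (fun h' => hqr h'.symm) (fun h' => hpq h'.symm) h (by rw [hG']; ring)
  · exact aux hnc hp hq hr hpq hqr h hG'

end Cfsg.Agent.S0998
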