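import Cfsg.Statements.S4500
import Cfsg.Agent.H24.Kazarin
import Cfsg.Agent.S4499
import Cfsg.Agent.S0914
import Cfsg.Agent.H3.Perm

set_option autoImplicit false
open Cfsg

namespace Cfsg.Agent.S4500

open Cfsg.Agent.H11 Subgroup
open scoped ComplexConjugate

theorem nonperfect {G : Type*} [Group G] [Finite G] (h : commutator G ≠ ⊤) :
    ∃ χ : IrrCharacter G, (χ : G → ℂ) ≠ (fun _ => 1) ∧ charDegree (χ : G → ℂ) = 1 := by
  haveI := Fintype.ofFinite G
  have h1 := H3.card_linear_irr (G := G)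
  have h2 : (commutator G).index ≠ 1 := by rwa [Ne, Subgroup.index_eq_one]
  have h3 : (commutator G).index ≠ 0 := Subgroup.index_ne_zero_of_finite
  rw [← h1] at h2 h3
  have h4 : 1 < Nat.card {χ : IrrCharacter G // (χ : G → ℂ) 1 = 1} := by omega
  haveI : Finite {χ : IrrCharacter G // (χ : G → ℂ) 1 = 1} := Nat.finite_of_card_ne_zero h3
  haveI : Nontrivial {χ : IrrCharacter G // (χ : G → ℂ) 1 = 1} :=
    Finite.one_lt_card_iff_nontrivial.mp h4
  obtain ⟨χ, hχ⟩ := exists_ne (⟨H27.oneIrr G, by simp⟩ : {χ : IrrCharacter G // (χ : G → ℂ) 1 = 1})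
  refine ⟨χ.1, ?_, ?_⟩
  · intro h5
    apply hχ
    apply Subtype.ext
    apply Subtype.ext
    rw [h5]; rfl
  · have := H27.charDegree_cast (H27.isIrr_isCharacter χ.1.2)
    rw [χ.2] at this
    exact_mod_cast this

theorem main {G : Type*} [Group G] [Finite G] [Nontrivial G] (hperf : commutator G = ⊤)
    {p s t a b c : ℕ} (hp : p.Prime) (hs : s.Prime) (ht : t.Prime) (hps : p ≠ s) (hpt : p ≠ t)
    (hst : s ≠ t) (ha : a ≤ 2) (hG : Nat.card G = p ^ a * s ^ b * t ^ c) :
    ∃ χ : IrrCharacter G, (χ : G → ℂ) ≠ (fun _ => 1) ∧ ∃ k : ℕ, charDegree (χ : G → ℂ) = s ^ k := by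
  classical
  haveI := Fintype.ofFinite G
  haveI := Fintype.ofFinite (IrrCharacter G)
  haveI : Fact p.Prime := ⟨hp⟩
  have hpG : p ∣ Nat.card G := by
    by_contra hcon
    have hsol : Group.IsSolvable G := by
      refine H3.burnside_paqb s t hs ht (Nat.card G) G rfl ?_
      intro r hr hrd
      by_cases hrp : r = p
      · exact absurd (hrp ▸ hrd) hcon
      rw [hG] at hrd
      rcases hr.dvd_mul.mp hrd with h | h
      · rcases hr.dvd_mul.mp h with h | h
        · exact absurd ((Nat.prime_dvd_prime_iff_eq hr hp).mp (hr.dvd_of_dvd_pow h)) hrp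
        · exact Or.inl ((Nat.prime_dvd_prime_iff_eq hr hs).mp (hr.dvd_of_dvd_pow h))
      · exact Or.inr ((Nat.prime_dvd_prime_iff_eq hr ht).mp (hr.dvd_of_dvd_pow h))
    exact (Group.IsSolvable.commutator_lt_top_of_nontrivial G).ne hperf
  have hfac : (Nat.card G).factorization p = a := by
    have h1 : ¬ p ∣ s ^ b * t ^ c := by
      intro h
      rcases hp.dvd_mul.mp h with h | h
      · exact hps ((Nat.prime_dvd_prime_iff_eq hp hs).mp (hp.dvd_of_dvd_pow h))
      · exact hpt ((Nat.prime_dvd_prime_iff_eq hp ht).mp (hp.dvd_of_dvd_pow h))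
    have h2 : s ^ b * t ^ c ≠ 0 := (Nat.mul_pos (pow_pos hs.pos _) (pow_pos ht.pos _)).ne'
    rw [hG, mul_assoc, Nat.factorization_mul (pow_pos hp.pos _).ne' h2, Finsupp.add_apply,
      Nat.factorization_eq_zero_of_not_dvd h1, hp.factorization_pow]
    simp
  have ha1 : 1 ≤ a := by
    rw [← hfac]
    exact (hp.dvd_iff_one_le_factorization Nat.card_pos.ne').mp hpG
  obtain ⟨M, hM⟩ := H27.exists_isPModular hp
  have hpr := hM.2.1.isPrime
  -- degrees in the principal block are prime to `p`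
  have hdeg1 : charDegree ((H27.oneIrr G : IrrCharacter G) : G → ℂ) = 1 := by
    have := H27.charDegree_cast (H27.isIrr_isCharacter (H27.oneIrr G).2)
    rw [H27.oneIrr_apply] at this
    exact_mod_cast this
  have hcop : ∀ χ ∈ principalBlock M G, ¬ p ∣ charDegree (χ : G → ℂ) := by
    intro χ hχ hdvd
    rcases Nat.lt_or_ge 1 a with h1 | h1
    · have ha2 : a = 2 := by omega
      have h2 := S4499.result p M hM hpG (principalBlock M G) H27.isPBlock_principal χ hχ
        (by rw [hfac, ha2]; simpa using hdvd) (H27.oneIrr G) H27.oneIrr_mem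
      rw [hfac, ha2, hdeg1] at h2
      exact hp.one_lt.ne' (Nat.dvd_one.mp (by simpa using h2))
    · have ha2 : a = 1 := by omega
      have h2 : blockOf M (χ : G → ℂ) = {χ} := by
        apply H27.blockOf_eq_singleton hM
        rw [hfac, ha2]
        exact (hp.dvd_iff_one_le_factorization (H27.charDegree_pos χ.2).ne').mp hdvd
      have h3 : H27.oneIrr G ∈ blockOf M (χ : G → ℂ) := sameBlock_symm hχ
      rw [h2, Set.mem_singleton_iff] at h3
      rw [← h3, hdeg1] at hdvd
      exact hp.one_lt.ne' (Nat.dvd_one.mp hdvd)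
  -- an element of order `p`
  obtain ⟨y, hy⟩ := exists_prime_orderOf_dvd_card' p hpG
  have horth := weak_block_orthogonality hM (H27.isPBlock_principal (M := M) (G := G)) 1 y
    (by rw [orderOf_one]; exact hp.one_lt.ne' ∘ Nat.dvd_one.1) (by rw [hy])
  have hmem := H27.oneIrr_mem (M := M) (G := G)
  rw [finsum_mem_eq_finite_toFinset_sum _ (Set.toFinite _)] at horth
  rw [← Finset.add_sum_erase _ _ ((Set.Finite.mem_toFinset _).2 hmem)] at horth
  have h1 : ((H27.oneIrr G : IrrCharacter G) : G → ℂ) 1 *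
      conj (((H27.oneIrr G : IrrCharacter G) : G → ℂ) y) = 1 := by simp
  rw [h1] at horth
  have hex : ∃ χ ∈ principalBlock M G, χ ≠ H27.oneIrr G ∧ ¬ t ∣ charDegree (χ : G → ℂ) := by
    by_contra key
    push Not at key
    have hdiv : ∃ z : ℂ, IsIntegral ℤ z ∧
        ∑ χ ∈ ((Set.toFinite (principalBlock M G)).toFinset).erase (H27.oneIrr G),
          ((χ : G → ℂ) 1 * conj ((χ : G → ℂ) y)) = t * z := by
      refine ⟨∑ χ ∈ ((Set.toFinite (principalBlock M G)).toFinset).erase (H27.oneIrr G),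
        (((charDegree (χ : G → ℂ) / t : ℕ) : ℂ) * conj ((χ : G → ℂ) y)), ?_, ?_⟩
      · refine IsIntegral.sum _ fun χ _ => ?_
        refine IsIntegral.mul ?_ ?_
        · generalize charDegree (χ : G → ℂ) / t = c
          have h0 := isIntegral_algebraMap (R := ℤ) (A := ℂ) (x := (c : ℤ))
          simpa using h0
        · have := H27.isCharacter_isIntegral (H27.isIrr_isCharacter χ.2) y
          exact this.map (Complex.conjAe.toAlgHom.restrictScalars ℤ)
      · rw [Finset.mul_sum]
        refine Finset.sum_congr rfl fun χ hχ => ?_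
        rw [Finset.mem_erase, Set.Finite.mem_toFinset] at hχ
        obtain ⟨m, hm⟩ := key χ hχ.2 hχ.1
        rw [← H27.charDegree_cast (H27.isIrr_isCharacter χ.2), hm, Nat.mul_div_cancel_left _ ht.pos]
        push_cast; ring
    obtain ⟨z, hz, hzs⟩ := hdiv
    rw [hzs] at horth
    have hpz : z = ((-1 / t : ℚ) : ℂ) := by
      have hp0 : (t : ℂ) ≠ 0 := by exact_mod_cast ht.ne_zero
      push_cast
      field_simp
      linear_combination horth
    have hq : IsIntegral ℤ ((-1 / t : ℚ)) := by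
      rw [hpz] at hz
      exact (isIntegral_algebraMap_iff (algebraMap ℚ ℂ).injective).1 hz
    obtain ⟨m, hm⟩ := IsIntegrallyClosed.isIntegral_iff.1 hq
    have hp0 : (t : ℚ) ≠ 0 := by exact_mod_cast ht.ne_zero
    have hm2 : (m : ℚ) * t = -1 := by
      have : (m : ℚ) = -1 / t := by simpa using hm
      rw [this]; field_simp
    have hm3 : m * (t : ℤ) = -1 := by exact_mod_cast hm2
    have : (t : ℤ) ∣ 1 := ⟨-m, by linarith⟩
    have h2 : t ∣ 1 := by exact_mod_cast this
    exact ht.one_lt.ne' (Nat.dvd_one.1 h2)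
  obtain ⟨χ, hχB, hχ1, hχt⟩ := hex
  refine ⟨χ, ?_, ?_⟩
  · intro h
    apply hχ1
    apply Subtype.ext
    rw [h]; rfl
  · have h2 : charDegree (χ : G → ℂ) ∣ p ^ a * s ^ b * t ^ c := hG ▸ H27.charDegree_dvd_card χ.2
    have h3 : Nat.Coprime (charDegree (χ : G → ℂ)) (t ^ c) :=
      Nat.Coprime.pow_right _ ((ht.coprime_iff_not_dvd.mpr hχt).symm)
    have h4 := h3.dvd_of_dvd_mul_right h2
    have h5 : Nat.Coprime (charDegree (χ : G → ℂ)) (p ^ a) :=
      Nat.Coprime.pow_right _ ((hp.coprime_iff_not_dvd.mpr (hcop χ hχB)).symm)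
    have h6 := h5.dvd_of_dvd_mul_left h4
    obtain ⟨k, -, hk⟩ := (Nat.dvd_prime_pow hs).mp h6
    exact ⟨k, hk⟩

/-- Let G be a non-trivial finite group of order p^a · q^b · r^c with p, q, r distinct primes and a ≤ 2. Then G has a non-principal irreducible character whose degree is a power of q, and a non-principal irreducible character whose degree is a power of r; the power may be the zeroth, so a non-principal linear character serves for both. -/
theorem result {G : Type*} [Group G] [Finite G] [Nontrivial G] (p q r a b c : ℕ) (hp : p.Prime) (hq : q.Prime) (hr : r.Prime) (hpq : p ≠ q) (hpr : p ≠ r) (hqr : q ≠ r) (ha : a ≤ 2) (hG : Nat.card G = p ^ a * q ^ b * r ^ c) : (∃ χ : Cfsg.IrrCharacter G, (χ : G → ℂ) ≠ (fun _ => 1) ∧ ∃ k : ℕ, Cfsg.charDegree (χ : G → ℂ) = q ^ k) ∧ ∃ χ : Cfsg.IrrCharacter G, (χ : G → ℂ) ≠ (fun _ => 1) ∧ ∃ k : ℕ, Cfsg.charDegree (χ : G → ℂ) = r ^ k := by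
  by_cases hperf : commutator G = ⊤
  · exact ⟨main (b := b) (c := c) hperf hp hq hr hpq hpr hqr ha hG,
      main (b := c) (c := b) hperf hp hr hq hpr hpq hqr.symm ha (by rw [hG]; ring)⟩
  · obtain ⟨χ, h1, h2⟩ := nonperfect hperf
    exact ⟨⟨χ, h1, 0, by simpa using h2⟩, ⟨χ, h1, 0, by simpa using h2⟩⟩

end Cfsg.Agent.S4500
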