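import Cfsg.Statements.S1012
import Cfsg.Agent.H9.Syl

set_option autoImplicit false
open Cfsg

namespace Cfsg.Agent.S1012

/-- A group of order 24 containing no element of order 6 is isomorphic to the symmetric group of degree 4. -/
theorem result {G : Type*} [Group G] [Finite G] (h : Nat.card G = 24) (h6 : ∀ g : G, orderOf g ≠ 6) : Nonempty (G ≃* Equiv.Perm (Fin 4)) := by
  have := Fact.mk Nat.prime_three
  have := Fact.mk Nat.prime_two
  obtain ⟨P⟩ : Nonempty (Sylow 3 G) := inferInstance
  have hPc : ∀ Q : Sylow 3 G, Nat.card (Q : Subgroup G) = 3 := fun Q => by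
    rw [Cfsg.Agent.H9.Syl.card_sylow_of_card Q (k := 1) (m := 8) (by rw [h]; norm_num) (by norm_num), pow_one]
  have hn : Nat.card (Sylow 3 G) ∣ 8 :=
    Cfsg.Agent.H9.Syl.card_sylow_dvd_of_card P (k := 1) (m := 8) (by rw [h]; norm_num) (by norm_num)
  have hn1 : Nat.card (Sylow 3 G) ≡ 1 [MOD 3] := card_sylow_modEq_one 3 G
  have hpow : ∀ n : ℕ, n ∣ 8 → n ≡ 1 [MOD 3] → n = 1 ∨ n = 4 := by
    intro n h1 h2
    have : n ≤ 8 := Nat.le_of_dvd (by norm_num) h1
    interval_cases n <;> revert h1 h2 <;> decide
  -- a commuting pair gives an element of order 6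
  have hcom : ∀ x t : G, orderOf x = 3 → orderOf t = 2 → x * t ≠ t * x := by
    intro x t hx ht hxt
    apply h6 (x * t)
    rw [(show Commute x t from hxt).orderOf_mul_eq_mul_orderOf_of_coprime (by rw [hx, ht]; norm_num), hx, ht]
  rcases hpow _ hn hn1 with h1 | h1
  · exfalso
    have hNP : (P : Subgroup G).Normal := Cfsg.Agent.H9.Syl.normal_of_card_sylow_eq_one h1 P
    have h2 := Cfsg.Agent.H9.Simple.relIndex_dvd_of_card_eq (hPc P)
    have h3 : Subgroup.normalizer ((P : Subgroup G) : Set G) = ⊤ := Subgroup.normalizer_eq_top_iff.mpr hNP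
    rw [h3, Subgroup.relIndex_top_right] at h2
    have h4 : 2 ∣ Nat.card (Subgroup.centralizer ((P : Subgroup G) : Set G)) := by
      have h5 := (Subgroup.centralizer ((P : Subgroup G) : Set G)).card_mul_index
      rw [h] at h5
      rcases (Nat.dvd_prime Nat.prime_two).mp h2 with h6 | h6 <;> rw [h6] at h5 <;> omega
    obtain ⟨t, ht⟩ := exists_prime_orderOf_dvd_card' 2 h4
    obtain ⟨x, hxP, hx, -⟩ := Cfsg.Agent.H9.Simple.exists_generator (hPc P)
    exact hcom x t.1 hx ((Subgroup.orderOf_coe t).trans ht) (Subgroup.mem_centralizer_iff.mp t.2 x hxP)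
  · -- action on four Sylow subgroups
    set f := MulAction.toPermHom G (Sylow 3 G) with hf
    have hK : f.ker = ⊥ := by
      by_contra hne
      have hact : ∀ g ∈ f.ker, ∀ Q : Sylow 3 G, g • Q = Q := by
        intro g hg Q
        rw [MonoidHom.mem_ker] at hg
        exact congrArg (fun σ : Equiv.Perm (Sylow 3 G) => σ Q) hg
      have h3 : ¬ 3 ∣ Nat.card f.ker := by
        intro h3
        obtain ⟨x, hx⟩ := exists_prime_orderOf_dvd_card' 3 h3
        have hx' : orderOf x.1 = 3 := (Subgroup.orderOf_coe x).trans hx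
        have hx1 : x.1 ≠ 1 := by
          intro h4
          rw [h4, orderOf_one] at hx'
          omega
        have hxp : IsPGroup 3 (Subgroup.zpowers x.1) :=
          Cfsg.Agent.H9.Simple.isPGroup_zpowers (k := 1) (by rw [hx', pow_one])
        have hall : ∀ Q : Sylow 3 G, x.1 ∈ (Q : Subgroup G) := fun Q =>
          Cfsg.Agent.H9.Simple.mem_of_smul_eq hxp (hact x.1 x.2 Q)
        have hsub : Subsingleton (Sylow 3 G) := by
          constructor
          intro Q R
          apply Sylow.ext
          rw [← Cfsg.Agent.H9.Simple.zpowers_eq_of_card (hPc Q) (hall Q) hx1,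
            ← Cfsg.Agent.H9.Simple.zpowers_eq_of_card (hPc R) (hall R) hx1]
        have := Nat.card_of_subsingleton P
        omega
      have hKN : f.ker ≤ Subgroup.normalizer ((P : Subgroup G) : Set G) := by
        intro g hg
        exact Sylow.smul_eq_iff_mem_normalizer.mp (hact g hg P)
      have hNc : Nat.card (Subgroup.normalizer ((P : Subgroup G) : Set G)) = 6 := by
        have := Cfsg.Agent.H9.Syl.card_normalizer_mul P
        rw [h1, h] at this
        omega
      have h4 : Nat.card f.ker ∣ 6 := by rw [← hNc]; exact Subgroup.card_dvd_of_le hKN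
      have h5 : Nat.card f.ker ≠ 1 := fun h5 => hne (Subgroup.card_eq_one.mp h5)
      have h6' : Nat.card f.ker = 2 := by
        have : Nat.card f.ker ≤ 6 := Nat.le_of_dvd (by norm_num) h4
        generalize Nat.card f.ker = n at *
        interval_cases n <;> revert h3 h4 h5 <;> decide
      obtain ⟨t, ht⟩ := exists_prime_orderOf_dvd_card' 2 (G := f.ker) (by rw [h6'])
      have ht' : orderOf t.1 = 2 := (Subgroup.orderOf_coe t).trans ht
      obtain ⟨x, hxP, hx, -⟩ := Cfsg.Agent.H9.Simple.exists_generator (hPc P)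
      apply hcom x t.1 hx ht'
      have h7 : x * t.1 * x⁻¹ ∈ f.ker := (inferInstance : f.ker.Normal).conj_mem _ t.2 _
      have h8 : x * t.1 * x⁻¹ ≠ 1 := by
        intro h9
        have : t.1 = 1 := by
          calc t.1 = x⁻¹ * (x * t.1 * x⁻¹) * x := by group
            _ = 1 := by rw [h9]; group
        rw [this, orderOf_one] at ht'
        omega
      have ht1 : t.1 ≠ 1 := by
        intro h9; rw [h9, orderOf_one] at ht'; omega
      have h9 : Subgroup.zpowers (x * t.1 * x⁻¹) = Subgroup.zpowers t.1 := by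
        rw [Cfsg.Agent.H9.Simple.zpowers_eq_of_card h6' h7 h8,
          Cfsg.Agent.H9.Simple.zpowers_eq_of_card h6' t.2 ht1]
      have h10 : x * t.1 * x⁻¹ ∈ Subgroup.zpowers t.1 := by rw [← h9]; exact Subgroup.mem_zpowers _
      obtain ⟨k, hk⟩ := Subgroup.mem_zpowers_iff.mp h10
      have h11 : x * t.1 * x⁻¹ = t.1 := by
        rcases Int.even_or_odd' k with ⟨m, hm | hm⟩
        · exfalso; apply h8
          rw [← hk, hm, zpow_mul]
          have : t.1 ^ (2 : ℤ) = 1 := by
            have := pow_orderOf_eq_one t.1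
            rw [ht'] at this
            exact_mod_cast this
          rw [this, one_zpow]
        · rw [← hk, hm, zpow_add, zpow_mul]
          have : t.1 ^ (2 : ℤ) = 1 := by
            have := pow_orderOf_eq_one t.1
            rw [ht'] at this
            exact_mod_cast this
          rw [this, one_zpow, one_mul, zpow_one]
      calc x * t.1 = (x * t.1 * x⁻¹) * x := by group
        _ = t.1 * x := by rw [h11]
    have hinj : Function.Injective f := (MonoidHom.ker_eq_bot_iff f).mp hK
    have hfin : Finite (Equiv.Perm (Sylow 3 G)) := inferInstance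
    have hcard : Nat.card G = Nat.card (Equiv.Perm (Sylow 3 G)) := by
      rw [h, Nat.card_perm, h1]; rfl
    have hbij : Function.Bijective f := (Nat.bijective_iff_injective_and_card f).mpr ⟨hinj, hcard⟩
    let e : Sylow 3 G ≃ Fin 4 := Finite.equivFinOfCardEq h1
    exact ⟨(MulEquiv.ofBijective f hbij).trans (Equiv.permCongrHom e)⟩

end Cfsg.Agent.S1012
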