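import Cfsg.Statements.S1160
import Cfsg.Agent.H9.HalfTrans2

set_option autoImplicit false
open Cfsg

namespace Cfsg.Agent.S1160

/-- Let `p ≠ 2` be prime and `P` a finite `p`-group acting faithfully by additive automorphisms on a finite elementary abelian `q`-group `E` (`q` prime), such that `|P_a|` is the same for all `a ≠ 0`. Then `P` is cyclic and every non-identity element of `P` fixes only `0`. -/
theorem result {P E : Type*} [Group P] [Finite P]
    [AddCommGroup E] [Finite E] [DistribMulAction P E] [FaithfulSMul P E]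
    {p q : ℕ} [Fact p.Prime] (hp2 : p ≠ 2) (hP : IsPGroup p P) (hq : q.Prime) (hE : ∀ e : E, q • e = 0)
    (hconst : ∀ a b : E, a ≠ 0 → b ≠ 0 →
      Nat.card (MulAction.stabilizer P a) = Nat.card (MulAction.stabilizer P b)) :
    IsCyclic P ∧ ∀ g : P, g ≠ 1 → ∀ a : E, g • a = a → a = 0 := by
  have hpp : p.Prime := Fact.out
  by_cases hE0 : ∀ e : E, e = 0
  · have hP1 : Subsingleton P := ⟨fun x y => FaithfulSMul.eq_of_smul_eq_smul (α := E) (fun e => by
      rw [hE0 (x • e), hE0 (y • e)])⟩
    exact ⟨isCyclic_of_subsingleton, fun g hg => absurd (Subsingleton.elim g 1) hg⟩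
  push Not at hE0
  obtain ⟨e₀, he₀⟩ := hE0
  haveI : Fact q.Prime := ⟨hq⟩
  by_cases hpq : p = q
  · subst hpq
    have hdvd : p ∣ Nat.card E := by
      have h1 : addOrderOf e₀ = p := addOrderOf_eq_prime (hE e₀) he₀
      rw [← h1]; exact addOrderOf_dvd_natCard e₀
    have h0 : (0 : E) ∈ MulAction.fixedPoints P E := fun g => smul_zero g
    obtain ⟨b, hb1, hb2⟩ := hP.exists_fixed_point_of_prime_dvd_card_of_fixed_point E hdvd h0
    have hstab : MulAction.stabilizer P b = ⊤ := by
      rw [eq_top_iff]
      intro g _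
      exact hb1 g
    have htriv : ∀ g : P, ∀ e : E, g • e = e := by
      intro g e
      by_cases he : e = 0
      · rw [he, smul_zero]
      · have h1 := hconst e b he (Ne.symm hb2)
        rw [hstab, Subgroup.card_top] at h1
        have h2 : MulAction.stabilizer P e = ⊤ := Subgroup.eq_top_of_card_eq _ h1
        have h3 : g ∈ MulAction.stabilizer P e := by rw [h2]; exact Subgroup.mem_top g
        exact h3
    have hP1 : Subsingleton P := ⟨fun x y => FaithfulSMul.eq_of_smul_eq_smul (α := E) (fun e => by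
      rw [htriv x e, htriv y e])⟩
    exact ⟨isCyclic_of_subsingleton, fun g hg => absurd (Subsingleton.elim g 1) hg⟩
  · have hreg : ∀ e : E, p • e = 0 → e = 0 := by
      intro e he
      have h1 : addOrderOf e ∣ Nat.gcd p q :=
        Nat.dvd_gcd (addOrderOf_dvd_of_nsmul_eq_zero he) (addOrderOf_dvd_of_nsmul_eq_zero (hE e))
      rw [(Nat.coprime_primes hpp hq).mpr hpq, Nat.dvd_one, AddMonoid.addOrderOf_eq_one_iff] at h1
      exact h1
    have hc := Cfsg.Agent.H9.HalfTrans.isCyclic_of_half hconst hreg hP hp2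
    exact ⟨hc, fun g hg a ha => Cfsg.Agent.H9.HalfTrans.free_of_cyclic hconst hc hg ha⟩

end Cfsg.Agent.S1160
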