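import Cfsg.Statements.S1161
import Cfsg.Agent.FT
import Cfsg.Agent.S1160
import Cfsg.Agent.H1.Chief
import Cfsg.Agent.H1.Cyc

set_option autoImplicit false
open Cfsg

namespace Cfsg.Agent.S1161

theorem card_stab_normal {D E : Type*} [Group D] [Finite D] [AddCommGroup E] [DistribMulAction D E]
    (htrans : ∀ a b : E, a ≠ 0 → b ≠ 0 → ∃ d : D, d • a = b) (N : Subgroup D) (hN : N.Normal)
    (a b : E) (ha : a ≠ 0) (hb : b ≠ 0) :
    Nat.card (MulAction.stabilizer N a) = Nat.card (MulAction.stabilizer N b) := by
  obtain ⟨d, hd⟩ := htrans a b ha hb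
  apply Nat.card_congr
  refine
    { toFun := fun n => ⟨⟨d * (n : N) * d⁻¹, hN.conj_mem _ (n : N).2 d⟩, ?_⟩
      invFun := fun n => ⟨⟨d⁻¹ * (n : N) * d, ?_⟩, ?_⟩
      left_inv := ?_
      right_inv := ?_ }
  · have h : ((n : N) : D) • a = a := n.2
    change (d * ((n : N) : D) * d⁻¹) • b = b
    rw [← hd, mul_smul, inv_smul_smul, mul_smul, h]
  · have := hN.conj_mem _ (n : N).2 d⁻¹
    rwa [inv_inv] at this
  · have h : ((n : N) : D) • b = b := n.2
    change (d⁻¹ * ((n : N) : D) * d) • a = a
    rw [mul_smul, hd, mul_smul, h, ← hd, inv_smul_smul]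
  · intro n
    apply Subtype.ext
    apply Subtype.ext
    change d⁻¹ * (d * ((n : N) : D) * d⁻¹) * d = n
    group
  · intro n
    apply Subtype.ext
    apply Subtype.ext
    change d * (d⁻¹ * ((n : N) : D) * d) * d⁻¹ = n
    group

/-- Let `D` be a finite group of odd order acting faithfully by additive automorphisms on a finite elementary abelian `q`-group `E ≠ 0` (`q` prime), transitively on `E ∖ {0}`. Then the Fitting subgroup `F(D)` is cyclic, its non-identity elements fix only `0`, and `D/F(D)` is abelian (the derived subgroup lies in `F(D)`). -/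
theorem result {D E : Type*} [Group D] [Finite D]
    [AddCommGroup E] [Finite E] [Nontrivial E] [DistribMulAction D E] [FaithfulSMul D E]
    (hodd : Odd (Nat.card D)) {q : ℕ} (hq : q.Prime) (hE : ∀ e : E, q • e = 0)
    (htrans : ∀ a b : E, a ≠ 0 → b ≠ 0 → ∃ d : D, d • a = b) :
    IsCyclic ↥(Cfsg.fittingSubgroup D) ∧
      (∀ g ∈ Cfsg.fittingSubgroup D, g ≠ 1 → ∀ a : E, g • a = a → a = 0) ∧
      commutator D ≤ Cfsg.fittingSubgroup D := by
  classical
  have hsol : Group.IsSolvable D := FT.odd_order hodd
  set F := Cfsg.fittingSubgroup D with hF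
  haveI hFn : F.Normal := inferInstance
  haveI hFnil : Group.IsNilpotent F := H1.fitting_isNilpotent D
  haveI hZ : IsZGroup F := by
    constructor
    intro p hp P
    haveI := Fact.mk hp
    by_cases hp2 : p = 2
    · subst hp2
      have h1 : (P : Subgroup F) = ⊥ := by
        apply Subgroup.eq_bot_of_card_eq
        obtain ⟨n, hn⟩ := IsPGroup.iff_card.mp P.isPGroup'
        have h2 : Odd (Nat.card (P : Subgroup F)) :=
          (hodd.of_dvd_nat (Subgroup.card_subgroup_dvd_card F)).of_dvd_nat (Subgroup.card_subgroup_dvd_card _)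
        rcases n with _ | n
        · rw [hn, pow_zero]
        · rw [hn] at h2
          exact absurd h2 (by rw [Nat.not_odd_iff_even, pow_succ]; exact even_two.mul_left _)
      change IsCyclic ↥(P : Subgroup F)
      rw [h1]
      infer_instance
    · haveI hPn : (P : Subgroup F).Normal := (H1.isNilpotent_iff_sylow_normal.mp hFnil) p ⟨hp⟩ P
      haveI : (P : Subgroup F).Characteristic := Sylow.characteristic_of_normal P hPn
      have hMn : ((P : Subgroup F).map F.subtype).Normal := inferInstance
      have h1 := S1160.result (P := ↥((P : Subgroup F).map F.subtype)) (E := E) hp2 (P.isPGroup'.map F.subtype) hq hE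
        (card_stab_normal htrans _ hMn)
      haveI := h1.1
      exact isCyclic_of_surjective _ ((P : Subgroup F).equivMapOfInjective F.subtype F.subtype_injective).symm.surjective
  have hFc : IsCyclic F := inferInstance
  refine ⟨hFc, ?_, ?_⟩
  · intro g hg hg1 a hga
    exact H9.HalfTrans.free_of_cyclic (P := F) (card_stab_normal htrans F hFn) hFc (g := ⟨g, hg⟩)
      (fun h => hg1 (congrArg Subtype.val h)) hga
  · exact (H1.commutator_le_centralizer_of_cyclic hFn hFc).trans (H1.centralizer_fitting_le hsol)

end Cfsg.Agent.S1161
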