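import Cfsg.Statements.S2154
import Cfsg.Agent.H15.ChevBT3
import Cfsg.Agent.H6.ChevExtTab

set_option autoImplicit false
open Cfsg

namespace Cfsg.Agent.S2154



/-- The Borel–Tits property of the finite Chevalley groups of types G₂, B₂, D₄, F₄, E₆, E₇, E₈ over a finite field of characteristic p: for every non-trivial p-subgroup U of the group G there are an element g of G and a proper set J of fundamental roots such that the normaliser of U in G lies in the conjugate by g of the standard parabolic subgroup P_J and U lies in the conjugate by g of its unipotent radical U_J. -/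
theorem result {F : Type*} [Field F] [Fintype F] (p : ℕ) [Fact p.Prime] [CharP F p] (D : Cfsg.Lie.ChevalleyDatum) (hD : D ∈ [Cfsg.Lie.chevG2, Cfsg.Lie.chevB2, Cfsg.Lie.chevD4, Cfsg.Lie.chevF4, Cfsg.Lie.chevE6, Cfsg.Lie.chevE7, Cfsg.Lie.chevE8]) (U : Subgroup (GL D.Idx F)) (hUG : U ≤ D.group F) (hU : IsPGroup p ↥U) (hne : U ≠ ⊥) : ∃ g ∈ D.group F, ∃ J : Set ℕ, (∃ i, i < D.rank ∧ i ∉ J) ∧ Subgroup.normalizer (U : Set (GL D.Idx F)) ⊓ D.group F ≤ (D.parabolicSubgroup F J).map (MulAut.conj g).toMonoidHom ∧ U ≤ (D.unipotentRadical F J).map (MulAut.conj g).toMonoidHom := by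
  obtain ⟨N, η, rc, hG, hE⟩ := Cfsg.Agent.H6.exists_ext hD
  have h0 : ∃ g ∈ D.group F, ∀ v ∈ U, g⁻¹ * v * g ∈ D.posUnipotent F := by
    obtain ⟨P, hP⟩ := Cfsg.Agent.H15.Chev.exists_sylow (F := F) hG hE p
    have hU' : IsPGroup p (U.subgroupOf (D.group F)) := by
      have e := Subgroup.subgroupOfEquivOfLe hUG
      exact hU.of_equiv e.symm
    obtain ⟨Q, hQ⟩ := hU'.exists_le_sylow
    haveI : Finite (Matrix D.Idx D.Idx F) := inferInstanceAs (Finite (D.Idx → D.Idx → F))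
    haveI : Finite (GL D.Idx F) := Finite.of_injective (fun g : GL D.Idx F => (g : Matrix D.Idx D.Idx F)) fun a b h => Units.ext h
    obtain ⟨x, hx⟩ := MulAction.exists_smul_eq (↥(D.group F)) Q P
    refine ⟨(x⁻¹ : ↥(D.group F)), (x⁻¹).2, fun v hv => ?_⟩
    have h1 : (⟨v, hUG hv⟩ : ↥(D.group F)) ∈ (Q : Subgroup _) := hQ (by rw [Subgroup.mem_subgroupOf]; exact hv)
    have h2 : x * ⟨v, hUG hv⟩ * x⁻¹ ∈ (P : Subgroup ↥(D.group F)) := by
      rw [← hx]
      exact ⟨_, h1, rfl⟩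
    rw [hP, Subgroup.mem_subgroupOf] at h2
    have e : ((x⁻¹ : ↥(D.group F)) : GL D.Idx F)⁻¹ * v * ((x⁻¹ : ↥(D.group F)) : GL D.Idx F) =
        ((x * ⟨v, hUG hv⟩ * x⁻¹ : ↥(D.group F)) : GL D.Idx F) := by
      rw [Subgroup.coe_inv, inv_inv]
      rfl
    rw [e]
    exact h2
  obtain ⟨g, hg, J, hJ, h1, h2⟩ := Cfsg.Agent.H15.Chev.borel_tits hG hE hne h0
  refine ⟨g, hg, J, hJ, ?_, ?_⟩
  · rintro x ⟨hx, hxG⟩
    refine ⟨g⁻¹ * x * g, h1 x hxG fun v hv => ?_, by simp [MulAut.conj_apply, mul_assoc]⟩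
    have h3 := Subgroup.mem_normalizer_iff.1 (inv_mem hx) v
    have h4 := h3.1 hv
    rwa [inv_inv] at h4
  · intro v hv
    exact ⟨g⁻¹ * v * g, h2 v hv, by simp [MulAut.conj_apply, mul_assoc]⟩

end Cfsg.Agent.S2154
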