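import Cfsg.Statements.S2326
import Cfsg.Agent.H16.ChB3

set_option autoImplicit false
open Cfsg

namespace Cfsg.Agent.S2326

open Cfsg.Agent.H6 Cfsg.Agent.H16.BNS in
lemma card_pow {G : Type*} [Group G] [Finite G] {P : Cfsg.BNPair G} {p : ℕ} [hp : Fact p.Prime] (S : Split P p) (hF : Full S) :
    Nat.card (S.V ∅) = p ^ (Nat.card G).factorization p := by
  obtain ⟨k, hk⟩ := S.V_p ∅
  unfold Full at hF
  have h1 : Nat.card (S.V ∅) ∣ Nat.card G := card_U_dvd S
  obtain ⟨m, hm⟩ := h1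
  have hV : 0 < Nat.card (S.V ∅) := Nat.card_pos
  rw [hm, Nat.mul_div_cancel_left _ hV] at hF
  have hm0 : m ≠ 0 := by
    rintro rfl
    exact hF (dvd_zero _)
  rw [hm, Nat.factorization_mul hV.ne' hm0, hk]
  congr 1
  rw [Finsupp.add_apply, Nat.factorization_eq_zero_of_not_dvd hF, add_zero, hp.out.factorization_pow, Finsupp.single_eq_same]

/-- In a Chevalley group of type G₂, B₂, D₄, F₄, E₆, E₇ or E₈ over a finite field of characteristic p, the subgroup U generated by the positive root elements is a Sylow p-subgroup. -/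
theorem result {F : Type*} [Field F] [Fintype F] (p : ℕ) [Fact p.Prime] [CharP F p] (D : Cfsg.Lie.ChevalleyDatum) (hD : D ∈ [Cfsg.Lie.chevG2, Cfsg.Lie.chevB2, Cfsg.Lie.chevD4, Cfsg.Lie.chevF4, Cfsg.Lie.chevE6, Cfsg.Lie.chevE7, Cfsg.Lie.chevE8]) :
    ∃ P : Sylow p ↥(D.group F), (P : Subgroup ↥(D.group F)) = (D.posUnipotent F).subgroupOf (D.group F) := by
  obtain ⟨N, η, rc, hG, hE⟩ := Cfsg.Agent.H6.exists_ext hD
  have hF := Cfsg.Agent.H16.BNS.chFull (F := F) hG hE p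
  have h1 := card_pow _ hF
  rw [Cfsg.Agent.H16.BNS.chV_empty] at h1
  exact ⟨Sylow.ofCard _ h1, Sylow.coe_ofCard _ _⟩

end Cfsg.Agent.S2326
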