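import Cfsg.Statements.S2318
import Cfsg.Agent.H16.ChR
import Cfsg.Agent.H27.PMod
import Cfsg.Agent.S2326

set_option autoImplicit false
open Cfsg

namespace Cfsg.Agent.S2318

open Cfsg.Agent.H6 Cfsg.Agent.H16.BNS in
lemma card_pow {G : Type*} [Group G] [Finite G] {P : Cfsg.BNPair G} {p : ℕ} [hp : Fact p.Prime] (S : Split P p) (hF : Full S) :
    Nat.card (S.V ∅) = p ^ (Nat.card G).factorization p := Cfsg.Agent.S2326.card_pow S hF

open Cfsg.Agent.H6 Cfsg.Agent.H16.BNS in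
lemma tr_of_vanish {G : Type*} [Group G] [Fintype G] {k : ℕ} (ρ : Representation ℂ G (Fin k → ℂ)) (H : Subgroup G)
    (h : ∀ u ∈ H, u ≠ 1 → ρ.character u = 0) : LinearMap.trace ℂ (Fin k → ℂ) (avg ρ H) = ρ.character 1 / (Nat.card H : ℂ) := by
  classical
  have h1 := tr_mul_avg ρ H 1
  rw [map_one, one_mul] at h1
  rw [h1, Finset.sum_eq_single (1 : G)]
  · rw [mul_one, div_eq_mul_inv, mul_comm]
  · intro u hu hne
    rw [one_mul]
    exact h u (Finset.mem_filter.1 hu).2 hne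
  · intro h2
    exact absurd (Finset.mem_filter.2 ⟨Finset.mem_univ _, one_mem H⟩) h2

/-- In a Chevalley group of type G₂, B₂, D₄, F₄, E₆, E₇ or E₈ over a finite field of characteristic p (for types G₂ and B₂ the field is assumed to have at least 3 elements, so that the group is perfect), the Steinberg character is the only irreducible complex character whose degree is divisible by the full power of p dividing the group order (the only irreducible character of p-defect zero). -/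
theorem result {F : Type*} [Field F] [Fintype F] (p : ℕ) [Fact p.Prime] [CharP F p] (D : Cfsg.Lie.ChevalleyDatum) (hD : D ∈ [Cfsg.Lie.chevG2, Cfsg.Lie.chevB2, Cfsg.Lie.chevD4, Cfsg.Lie.chevF4, Cfsg.Lie.chevE6, Cfsg.Lie.chevE7, Cfsg.Lie.chevE8]) (hq : (D = Cfsg.Lie.chevG2 ∨ D = Cfsg.Lie.chevB2) → 3 ≤ Fintype.card F)
    (χ : ↥(D.group F) → ℂ) (hχ : Cfsg.IsIrrCharacter ↥(D.group F) χ)
    (hdeg : ∃ d : ℕ, χ 1 = (d : ℂ) ∧ p ^ (Nat.card ↥(D.group F)).factorization p ∣ d) :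
    χ = D.steinbergCharacter F := by
  classical
  obtain ⟨N, η, rc, hG, hE⟩ := Cfsg.Agent.H6.exists_ext hD
  have hfin : Fintype ↥(D.group F) := Fintype.ofFinite _
  have hF := Cfsg.Agent.H16.BNS.chFull (F := F) hG hE p
  rw [Cfsg.Agent.H16.BNS.stein_eq' hG hE]
  have hψ := Cfsg.Agent.H16.BNS.StC_irr (Cfsg.Agent.H16.BNS.chSplit hG hE F p)
  obtain ⟨M, hM⟩ := Cfsg.Agent.H27.exists_isPModular (Fact.out : p.Prime)
  haveI := Cfsg.Agent.H11.pmod_isPrime hM
  have hcp := card_pow _ hF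
  have hψ2 := hψ
  have hχ2 := hχ
  obtain ⟨k', ρ', hρ', e'⟩ := hψ
  obtain ⟨k, ρ, hρ, e⟩ := hχ
  rw [← e, ← e']
  obtain ⟨d, hd, hdvd⟩ := hdeg
  apply Cfsg.Agent.H16.BNS.defect_unique (Cfsg.Agent.H16.BNS.chRank hG hE F p) ρ ρ' hM hF (by rw [e]; exact hχ2) (by rw [e']; exact hψ2)
  · apply tr_of_vanish
    intro u hu h1
    rw [e]
    have hpel := Cfsg.Agent.H16.BNS.U_pel _ hu
    exact Cfsg.Agent.H3.char_eq_zero_of_defect_zero hχ2 (Fact.out : p.Prime)
      (Nat.pow_succ_factorization_not_dvd Nat.card_pos.ne' (Fact.out : p.Prime)) hd hdvd u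
      (Cfsg.Agent.H16.BNS.pel_dvd hpel h1)
  · apply tr_of_vanish
    intro u hu h1
    rw [e']
    show ((Cfsg.Agent.H16.BNS.StZ _ u : ℤ) : ℂ) = 0
    rw [Cfsg.Agent.H16.BNS.StZ_V _ hu h1, Int.cast_zero]

end Cfsg.Agent.S2318
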