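import Cfsg.Statements.S0007
import Mathlib

set_option autoImplicit false
open Cfsg

namespace Cfsg.Agent.S0007

/-- Subgroups of coprime index: the intersection has index equal to the product of the indices, and every element is a product of an element of the first subgroup and an element of the second. -/
theorem result {G : Type*} [Group G] [Finite G] (H K : Subgroup G)
    (h : H.index.Coprime K.index) :
    (H ⊓ K).index = H.index * K.index ∧ ∀ g : G, ∃ x ∈ H, ∃ y ∈ K, g = x * y := by
  have hHpos : 0 < H.index := Nat.pos_of_ne_zero Subgroup.index_ne_zero_of_finite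
  have hKpos : 0 < K.index := Nat.pos_of_ne_zero Subgroup.index_ne_zero_of_finite
  have h1 : H.index ∣ (H ⊓ K).index := Subgroup.index_dvd_of_le inf_le_left
  have h2 : K.index ∣ (H ⊓ K).index := Subgroup.index_dvd_of_le inf_le_right
  have h3 : H.index * K.index ∣ (H ⊓ K).index := Nat.Coprime.mul_dvd_of_dvd_of_dvd h h1 h2
  have h4 : (H ⊓ K).index ≤ H.index * K.index := Subgroup.index_inf_le
  have hpos : 0 < (H ⊓ K).index := Nat.pos_of_ne_zero Subgroup.index_ne_zero_of_finite
  have h5 : (H ⊓ K).index = H.index * K.index := le_antisymm h4 (Nat.le_of_dvd hpos h3)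
  refine ⟨h5, ?_⟩
  -- K acts transitively on G ⧸ H
  have h6 : H.relIndex K = H.index := by
    have h7 : (H ⊓ K).relIndex K * K.index = (H ⊓ K).index := Subgroup.relIndex_mul_index inf_le_right
    rw [Subgroup.inf_relIndex_right, h5] at h7
    exact Nat.eq_of_mul_eq_mul_right hKpos h7
  have hbij : Function.Bijective (fun q : K ⧸ H.subgroupOf K => (Quotient.map' (fun k : K => (k : G))
      (fun a b hab => by
        rw [QuotientGroup.leftRel_apply] at hab ⊢
        exact Subgroup.mem_subgroupOf.mp hab) q : G ⧸ H)) := by
    have hinj : Function.Injective (fun q : K ⧸ H.subgroupOf K => (Quotient.map' (fun k : K => (k : G))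
      (fun a b hab => by
        rw [QuotientGroup.leftRel_apply] at hab ⊢
        exact Subgroup.mem_subgroupOf.mp hab) q : G ⧸ H)) := by
      intro a b hab
      induction a using Quotient.inductionOn' with
      | _ a =>
        induction b using Quotient.inductionOn' with
        | _ b =>
          simp only [Quotient.map'_mk''] at hab
          have h8 := Quotient.exact' hab
          rw [QuotientGroup.leftRel_apply] at h8
          apply Quotient.sound'
          rw [QuotientGroup.leftRel_apply]
          exact Subgroup.mem_subgroupOf.mpr h8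
    rw [Nat.bijective_iff_injective_and_card]
    exact ⟨hinj, h6⟩
  intro g
  obtain ⟨q, hq⟩ := hbij.2 ((g⁻¹ : G) : G ⧸ H)
  induction q using Quotient.inductionOn' with
  | _ k =>
    simp only [Quotient.map'_mk''] at hq
    have h9 : (k : G)⁻¹ * g⁻¹ ∈ H := QuotientGroup.eq.mp hq
    refine ⟨g * k, ?_, (k : G)⁻¹, K.inv_mem k.2, by group⟩
    have := H.inv_mem h9
    simpa using this

end Cfsg.Agent.S0007
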