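import Cfsg.Statements.S0012
import Cfsg.Agent.H1.Chief

set_option autoImplicit false
open Cfsg

namespace Cfsg.Agent.S0012

/-- In a finite p-group every commutator and every p-th power lies in the Frattini subgroup, so the Frattini quotient is elementary abelian. -/
theorem result {G : Type*} [Group G] [Finite G] (p : ℕ) [Fact p.Prime]
    (hG : IsPGroup p G) : commutator G ≤ frattini G ∧ ∀ x : G, x ^ p ∈ frattini G := by
  haveI := hG.isNilpotent
  have key : ∀ M : Subgroup G, IsCoatom M → commutator G ≤ M ∧ ∀ x : G, x ^ p ∈ M := by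
    intro M hM
    haveI hMn : M.Normal := Cfsg.Agent.H1.isNilpotent_iff_coatom_normal.mp inferInstance M hM
    -- G ⧸ M is simple of order p
    haveI : IsSimpleGroup (G ⧸ M) := by
      haveI : Nontrivial (G ⧸ M) := by
        rw [QuotientGroup.nontrivial_iff]; exact hM.1
      constructor
      intro K hK
      have h1 : M ≤ K.comap (QuotientGroup.mk' M) := Cfsg.Agent.H1.le_comap_mk' M K
      have h2 : (K.comap (QuotientGroup.mk' M)).map (QuotientGroup.mk' M) = K :=
        Subgroup.map_comap_eq_self_of_surjective (QuotientGroup.mk'_surjective M) K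
      rcases h1.lt_or_eq with h3 | h3
      · right
        rw [← h2, hM.2 _ h3]
        exact Subgroup.map_top_of_surjective _ (QuotientGroup.mk'_surjective M)
      · left
        rw [← h2, ← h3]
        exact Cfsg.Agent.H1.map_mk'_eq_bot_iff.mpr le_rfl
    have hQ : IsPGroup p (G ⧸ M) := hG.to_quotient M
    haveI : Group.IsNilpotent (G ⧸ M) := hQ.isNilpotent
    have hab : ∀ a b : G ⧸ M, a * b = b * a :=
      (IsSimpleGroup.comm_iff_isSolvable (G := G ⧸ M)).mpr inferInstance
    constructor
    · rw [← Subgroup.Normal.quotient_commutative_iff_commutator_le]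
      exact ⟨⟨hab⟩⟩
    · intro x
      haveI : IsCyclic (G ⧸ M) := inferInstance
      letI : CommGroup (G ⧸ M) := { (inferInstance : Group (G ⧸ M)) with mul_comm := hab }
      have hprime : (Nat.card (G ⧸ M)).Prime := IsSimpleGroup.prime_card
      obtain ⟨n, hn⟩ := (IsPGroup.iff_card).mp hQ
      have h2 : Nat.card (G ⧸ M) = p := by
        rw [hn] at hprime ⊢
        have hn1 : n = 1 := Nat.Prime.eq_one_of_pow hprime
        rw [hn1, pow_one]
      have h3 : ((x : G) : G ⧸ M) ^ p = 1 := by
        rw [← h2]; exact pow_card_eq_one'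
      exact (QuotientGroup.eq_one_iff (x ^ p)).mp h3
  have hfr : frattini G = ⨅ M ∈ {M : Subgroup G | IsCoatom M}, M := rfl
  constructor
  · rw [hfr]
    exact le_iInf₂ fun M hM => (key M hM).1
  · intro x
    rw [hfr, Subgroup.mem_iInf]
    intro M
    rw [Subgroup.mem_iInf]
    intro hM
    exact (key M hM).2 x

end Cfsg.Agent.S0012
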