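import Cfsg.Statements.S0013
import Cfsg.Agent.H1.Chief

set_option autoImplicit false
open Cfsg

namespace Cfsg.Agent.S0013

/-- In a finite p-group the Frattini subgroup is the smallest normal subgroup with elementary abelian quotient: it lies below any normal subgroup containing all commutators and all p-th powers. -/
theorem result {G : Type*} [Group G] [Finite G] (p : ℕ) [Fact p.Prime]
    (hG : IsPGroup p G) (N : Subgroup G) [N.Normal] (hcomm : commutator G ≤ N) (hpow : ∀ x : G, x ^ p ∈ N) :
    frattini G ≤ N := by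
  intro x hx
  by_contra hxN
  -- a subgroup containing N, maximal subject to not containing x
  obtain ⟨M, hM⟩ := (Set.toFinite {M : Subgroup G | N ≤ M ∧ x ∉ M}).exists_maximal ⟨N, le_rfl, hxN⟩
  obtain ⟨hNM, hxM⟩ := hM.prop
  haveI hMn : M.Normal := Subgroup.Normal.of_commutator_le G (hcomm.trans hNM)
  have hcoatom : IsCoatom M := by
    refine ⟨fun h => hxM (h ▸ Subgroup.mem_top x), ?_⟩
    -- every subgroup properly above M contains x
    have hab : ∀ K : Subgroup G, M < K → x ∈ K := by
      intro K hK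
      by_contra hxK
      exact hK.ne (le_antisymm hK.le (hM.le_of_ge ⟨hNM.trans hK.le, hxK⟩ hK.le))
    intro K hK
    have hxK := hab K hK
    rw [eq_top_iff]
    intro y _
    by_cases hyM : y ∈ M
    · exact hK.le hyM
    have h1 : M < M ⊔ Subgroup.zpowers y :=
      lt_of_le_of_ne le_sup_left (fun h => hyM (h ▸ Subgroup.mem_sup_right (Subgroup.mem_zpowers y)))
    have h2 := hab _ h1
    obtain ⟨m, hm, z, hz, hmz⟩ := Subgroup.mem_sup_of_normal_left.mp h2
    obtain ⟨i, rfl⟩ := Subgroup.mem_zpowers_iff.mp hz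
    -- x = m * y ^ i; p does not divide i
    have hpi : ¬ (p : ℤ) ∣ i := by
      rintro ⟨j, rfl⟩
      apply hxM
      rw [← hmz]
      refine M.mul_mem hm ?_
      rw [zpow_mul]
      refine M.zpow_mem ?_ j
      rw [zpow_natCast]
      exact hNM (hpow y)
    have hcop : IsCoprime i (p : ℤ) := by
      have hpp : Prime (p : ℤ) := Nat.prime_iff_prime_int.mp Fact.out
      exact (hpp.coprime_iff_not_dvd.mpr hpi).symm
    obtain ⟨a, b, hab'⟩ := hcop
    have h3 : y ^ i ∈ K := by
      have : y ^ i = m⁻¹ * x := by rw [← hmz]; group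
      rw [this]; exact K.mul_mem (K.inv_mem (hK.le hm)) hxK
    have h4 : y ^ (p : ℤ) ∈ K := by
      rw [zpow_natCast]; exact hK.le (hNM (hpow y))
    have h5 : y = (y ^ i) ^ a * (y ^ (p : ℤ)) ^ b := by
      rw [← zpow_mul, ← zpow_mul, ← zpow_add, mul_comm i a, mul_comm (p : ℤ) b, hab', zpow_one]
    rw [h5]
    exact K.mul_mem (K.zpow_mem h3 a) (K.zpow_mem h4 b)
  exact hxM (frattini_le_coatom hcoatom hx)

end Cfsg.Agent.S0013
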