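import Cfsg.Statements.S0015
import Cfsg.Agent.H1.Chief

set_option autoImplicit false
open Cfsg
open scoped Pointwise commutatorElement

namespace Cfsg.Agent.S0015

/-- In a finite nilpotent group, an abelian normal subgroup that is maximal among abelian normal subgroups equals its own centralizer. -/
theorem result {G : Type*} [Group G] [Finite G] [Group.IsNilpotent G]
    (N : Subgroup G) [N.Normal] [IsMulCommutative N]
    (hmax : ∀ M : Subgroup G, M.Normal → IsMulCommutative M → N ≤ M → M = N) :
    Subgroup.centralizer (N : Set G) = N := by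
  apply le_antisymm
  · by_contra hne
    set C := Subgroup.centralizer (N : Set G) with hC
    have hNC : N ≤ C := Subgroup.le_centralizer N
    have hlt : N < C := lt_of_le_of_ne hNC (fun h => hne h.ge)
    haveI : C.Normal := inferInstance
    obtain ⟨A, hA, hNA, hAC, hch⟩ := Cfsg.Agent.H1.exists_chief_above ‹C.Normal› hlt
    haveI := hA
    -- ⁅A, ⊤⁆ ≤ N
    have h1 : ⁅A, (⊤ : Subgroup G)⁆ ≤ N := by
      have h2 : N < N ⊔ ⁅A, (⊤ : Subgroup G)⁆ ∨ N = N ⊔ ⁅A, (⊤ : Subgroup G)⁆ := le_sup_left.lt_or_eq
      rcases h2 with h2 | h2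
      · exfalso
        have h3 := hch (N ⊔ ⁅A, (⊤ : Subgroup G)⁆) inferInstance h2
          (sup_le hNA.le (Subgroup.commutator_le_left A ⊤))
        -- in G/N, [A/N, G/N] = A/N
        let f := QuotientGroup.mk' N
        have h4 : A.map f = ⁅A.map f, (⊤ : Subgroup (G ⧸ N))⁆ := by
          have h5 := congrArg (Subgroup.map f) h3
          rw [Subgroup.map_sup, Subgroup.map_commutator,
            Cfsg.Agent.H1.map_mk'_eq_bot_iff.mpr le_rfl, bot_sup_eq,
            Subgroup.map_top_of_surjective f (QuotientGroup.mk'_surjective N)] at h5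
          exact h5.symm
        have h6 : A.map f = ⊥ := Cfsg.Agent.H1.eq_bot_of_commutator_eq_self
          (X := (⊤ : Subgroup (G ⧸ N))) inferInstance le_top h4.le
        exact not_le_of_gt hNA (Cfsg.Agent.H1.map_mk'_eq_bot_iff.mp h6)
      · rw [h2]; exact le_sup_right
    -- take x ∈ A \ N, M = N ⟨x⟩
    obtain ⟨x, hxA, hxN⟩ := SetLike.exists_of_lt hNA
    have hM : (N ⊔ Subgroup.zpowers x).Normal := by
      constructor
      intro y hy g
      have h2 : g * y * g⁻¹ * y⁻¹ ∈ N := by
        have hyA : y ∈ A := (sup_le hNA.le ((Subgroup.zpowers_le).mpr hxA)) hy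
        have h3 : ⁅y, g⁆ ∈ N := h1 (Subgroup.commutator_mem_commutator hyA (Subgroup.mem_top g))
        have h4 : g * y * g⁻¹ * y⁻¹ = ⁅y, g⁆⁻¹ := by rw [commutatorElement_def]; group
        rw [h4]; exact N.inv_mem h3
      have h3 : g * y * g⁻¹ = (g * y * g⁻¹ * y⁻¹) * y := by group
      rw [h3]
      exact (N ⊔ Subgroup.zpowers x).mul_mem (Subgroup.mem_sup_left h2) hy
    have hxC : x ∈ C := hAC hxA
    have hMc : IsMulCommutative (N ⊔ Subgroup.zpowers x : Subgroup G) := by
      rw [← Subgroup.le_centralizer_iff_isMulCommutative]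
      have e1 : N ≤ Subgroup.centralizer ((N ⊔ Subgroup.zpowers x : Subgroup G) : Set G) := by
        rw [Subgroup.le_centralizer_iff]
        exact sup_le hNC (Subgroup.zpowers_le.mpr hxC)
      have e2 : Subgroup.zpowers x ≤ Subgroup.centralizer ((N ⊔ Subgroup.zpowers x : Subgroup G) : Set G) := by
        rw [Subgroup.le_centralizer_iff]
        refine sup_le ?_ ?_
        · rw [Subgroup.le_centralizer_iff]; exact Subgroup.zpowers_le.mpr hxC
        · exact Subgroup.le_centralizer _
      exact sup_le e1 e2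
    have h5 := hmax _ hM hMc le_sup_left
    apply hxN
    rw [← h5]
    exact Subgroup.mem_sup_right (Subgroup.mem_zpowers x)
  · exact Subgroup.le_centralizer N

end Cfsg.Agent.S0015
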