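import Cfsg.Statements.S0018
import Cfsg.Agent.H1.Chief

set_option autoImplicit false
open Cfsg

namespace Cfsg.Agent.S0018

/-- A finite solvable group whose Sylow p-subgroups are abelian has p-length one: a Sylow p-subgroup together with the largest normal subgroup of order prime to p generates a normal subgroup. -/
theorem result {G : Type*} [Group G] [Finite G] [Group.IsSolvable G]
    (p : ℕ) [Fact p.Prime] (P : Sylow p G) (hP : IsMulCommutative P) :
    ((P : Subgroup G) ⊔ Cfsg.pPrimeCore p G).Normal := by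
  set N := Cfsg.pPrimeCore p G with hN
  let f := QuotientGroup.mk' N
  have hf : Function.Surjective f := QuotientGroup.mk'_surjective N
  let Q : Sylow p (G ⧸ N) := P.mapSurjective hf
  have hQ : (Q : Subgroup (G ⧸ N)) = (P : Subgroup G).map f := Sylow.coe_mapSurjective hf P
  have h1 : Cfsg.pCore p (G ⧸ N) ≤ (Q : Subgroup (G ⧸ N)) := Cfsg.Agent.H1.pCore_le_sylow Q
  have hQc : IsMulCommutative (Q : Subgroup (G ⧸ N)) := by
    rw [hQ]
    constructor
    constructor
    rintro ⟨_, x, hx, rfl⟩ ⟨_, y, hy, rfl⟩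
    apply Subtype.ext
    have h2 := hP.is_comm.comm ⟨x, hx⟩ ⟨y, hy⟩
    have h3 : x * y = y * x := congrArg Subtype.val h2
    change f x * f y = f y * f x
    rw [← map_mul, ← map_mul, h3]
  have h2 : (Q : Subgroup (G ⧸ N)) ≤ Subgroup.centralizer (Cfsg.pCore p (G ⧸ N) : Set (G ⧸ N)) :=
    (Subgroup.le_centralizer_iff_isMulCommutative.mpr hQc).trans (Subgroup.centralizer_le h1)
  have h3 := Cfsg.Agent.H1.centralizer_pCore_le (G := G ⧸ N) inferInstance p
    (Cfsg.Agent.H1.pPrimeCore_quotient_eq_bot p)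
  have h4 : (Q : Subgroup (G ⧸ N)) = Cfsg.pCore p (G ⧸ N) := le_antisymm (h2.trans h3) h1
  have h5 : ((P : Subgroup G).map f).Normal := by
    rw [← hQ, h4]; infer_instance
  have h6 := h5.comap f
  rw [Subgroup.comap_map_eq, QuotientGroup.ker_mk'] at h6
  exact h6

end Cfsg.Agent.S0018
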