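import Cfsg.Statements.S0029
import Cfsg.Agent.H1.Coprime2

set_option autoImplicit false
open Cfsg

namespace Cfsg.Agent.S0029

/-- An action that is trivial on the Frattini quotient and coprime on the Frattini subgroup is trivial: if A normalises K, the orders of A and of the Frattini subgroup of K are coprime, and every commutator of an element of A with an element of K lies in the Frattini subgroup of K, then A centralises K. -/
theorem result {G : Type*} [Group G] [Finite G] (A K : Subgroup G)
    (hAK : A ≤ Subgroup.normalizer (K : Set G))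
    (hcop : (Nat.card A).Coprime (Nat.card (frattini K)))
    (htriv : ∀ a ∈ A, ∀ k ∈ K, a * k * a⁻¹ * k⁻¹ ∈ (frattini K).map K.subtype) :
    A ≤ Subgroup.centralizer (K : Set G) := by
  -- D = image of the Frattini subgroup of K
  set D : Subgroup G := (frattini K).map K.subtype with hD
  have hDK : D ≤ K := Subgroup.map_subtype_le _
  have hDcard : Nat.card D = Nat.card (frattini K) := Cfsg.Agent.H1.card_map_subtype _
  have hKD : K ≤ Subgroup.normalizer (D : Set G) := by
    rw [← Subgroup.normal_subgroupOf_iff_le_normalizer hDK]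
    have : D.subgroupOf K = frattini K := by
      rw [hD, Subgroup.subgroupOf, Subgroup.comap_map_eq_self_of_injective K.subtype_injective]
    rw [this]
    infer_instance
  have hDA : A ≤ Subgroup.normalizer (D : Set G) := by
    intro a ha
    rw [Subgroup.mem_normalizer_iff]
    have key : ∀ b ∈ A, ∀ x ∈ D, b * x * b⁻¹ ∈ D := by
      intro b hb x hx
      have h1 := htriv b hb x (hDK hx)
      have h2 : b * x * b⁻¹ = (b * x * b⁻¹ * x⁻¹) * x := by group
      rw [h2]
      exact D.mul_mem h1 hx
    intro x
    refine ⟨key a ha x, fun hx => ?_⟩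
    have := key a⁻¹ (A.inv_mem ha) _ hx
    simpa [mul_assoc] using this
  have hsolvD : Group.IsSolvable D := by
    have h1 : Group.IsNilpotent (frattini K) := frattini_nilpotent
    exact Cfsg.Agent.H1.isSolvable_map _ inferInstance
  -- K = D C_K(A)
  have hsup : (Subgroup.centralizer (A : Set G)).subgroupOf K ⊔ frattini K = ⊤ := by
    rw [eq_top_iff]
    rintro ⟨k, hk⟩ -
    obtain ⟨c, hc, hcD⟩ := Cfsg.Agent.H1.exists_fixed_in_coset A D hDA (by rw [hDcard]; exact hcop)
      (Or.inr hsolvD) k (by
        intro a ha
        have h1 := htriv a ha k hk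
        have h2 : k⁻¹ * (a * k * a⁻¹) = k⁻¹ * (a * k * a⁻¹ * k⁻¹) * (k⁻¹)⁻¹ := by group
        rw [h2]
        exact (Subgroup.mem_normalizer_iff.mp (hKD (K.inv_mem hk)) _).mp h1)
    have hcK : c ∈ K := by
      have : c = k * (k⁻¹ * c) := by group
      rw [this]; exact K.mul_mem hk (hDK hcD)
    obtain ⟨d, hd, hdc⟩ := hcD
    have hdc' : (d : G) = k⁻¹ * c := hdc
    have : (⟨k, hk⟩ : K) = ⟨c, hcK⟩ * d⁻¹ := by
      apply Subtype.ext
      simp only [Subgroup.coe_mul, Subgroup.coe_inv, hdc']
      group
    rw [this]
    exact Subgroup.mul_mem_sup (Subgroup.mem_subgroupOf.mpr hc) (Subgroup.inv_mem _ hd)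
  have htop := frattini_nongenerating hsup
  rw [Subgroup.le_centralizer_iff]
  exact Subgroup.subgroupOf_eq_top.mp htop

end Cfsg.Agent.S0029
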