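import Cfsg.Statements.S0030
import Cfsg.Agent.H1.Coprime2

set_option autoImplicit false
open Cfsg

namespace Cfsg.Agent.S0030

/-- Under coprime action fixed points of a product of two invariant subgroups factor: if K = X Y with X and Y normalised by A then every A-fixed element of K is a product of an A-fixed element of X and an A-fixed element of Y. -/
theorem result {G : Type*} [Group G] [Finite G] (A K : Subgroup G) (hAK : A ≤ Subgroup.normalizer (K : Set G))
    (hcop : (Nat.card A).Coprime (Nat.card K)) (hsolv : Group.IsSolvable A ∨ Group.IsSolvable K)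
    (X Y : Subgroup G) (hX : X ≤ K) (hY : Y ≤ K) (hXA : A ≤ Subgroup.normalizer (X : Set G)) (hYA : A ≤ Subgroup.normalizer (Y : Set G))
    (hXY : ∀ k ∈ K, ∃ x ∈ X, ∃ y ∈ Y, k = x * y) (k : G) (hk : k ∈ K ⊓ Subgroup.centralizer (A : Set G)) :
    ∃ x ∈ X ⊓ Subgroup.centralizer (A : Set G), ∃ y ∈ Y ⊓ Subgroup.centralizer (A : Set G), k = x * y := by
  obtain ⟨x, hx, y, hy, rfl⟩ := hXY k hk.1
  have hC : ∀ a ∈ A, a * (x * y) = x * y * a := fun a ha => Subgroup.mem_centralizer_iff.mp hk.2 a ha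
  have hDA : A ≤ Subgroup.normalizer ((X ⊓ Y : Subgroup G) : Set G) :=
    (le_inf hXA hYA).trans Subgroup.inf_normalizer_le_normalizer_inf
  obtain ⟨c, hc, hcD⟩ := Cfsg.Agent.H1.exists_fixed_in_coset' A K (X ⊓ Y) (inf_le_left.trans hX) hDA
    hcop hsolv x (hX hx) (by
      intro a ha
      have h1 : x⁻¹ * (a * x * a⁻¹) ∈ X := X.mul_mem (X.inv_mem hx)
        ((Subgroup.mem_normalizer_iff.mp (hXA ha) x).mp hx)
      refine ⟨h1, ?_⟩
      have h2 : x⁻¹ * (a * x * a⁻¹) = y * (a * y * a⁻¹)⁻¹ := by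
        have h3 := hC a ha
        have h4 : a * x * a⁻¹ * (a * y * a⁻¹) = x * y := by
          calc a * x * a⁻¹ * (a * y * a⁻¹) = a * (x * y) * a⁻¹ := by group
            _ = x * y * a * a⁻¹ := by rw [h3]
            _ = x * y := by group
        have h5 : a * x * a⁻¹ = x * y * (a * y * a⁻¹)⁻¹ := eq_mul_inv_of_mul_eq h4
        rw [h5]; group
      rw [h2]
      exact Y.mul_mem hy (Y.inv_mem ((Subgroup.mem_normalizer_iff.mp (hYA ha) y).mp hy)))
  have hcX : c ∈ X := by
    have : c = x * (x⁻¹ * c) := by group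
    rw [this]; exact X.mul_mem hx hcD.1
  refine ⟨c, ⟨hcX, hc.2⟩, c⁻¹ * (x * y), ⟨?_, ?_⟩, by group⟩
  · have : c⁻¹ * (x * y) = (x⁻¹ * c)⁻¹ * y := by group
    rw [this]
    exact Y.mul_mem (Y.inv_mem hcD.2) hy
  · exact Subgroup.mul_mem _ (Subgroup.inv_mem _ hc.2) hk.2

end Cfsg.Agent.S0030
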