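import Cfsg.Statements.S0031
import Cfsg.Agent.H1.Chief

set_option autoImplicit false
open Cfsg
open scoped Pointwise

namespace Cfsg.Agent.S0031

/-- A fixed-point-free automorphism of a finite group maps some Sylow p-subgroup to itself. -/
theorem result {G : Type*} [Group G] [Finite G] (φ : G ≃* G)
    (hφ : MonoidHom.FixedPointFree (φ : G →* G)) (p : ℕ) [Fact p.Prime] :
    ∃ P : Sylow p G, (P : Subgroup G).map (φ : G →* G) = P := by
  obtain ⟨P⟩ : Nonempty (Sylow p G) := inferInstance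
  -- φ(P) as a Sylow subgroup
  have hcard : Nat.card ((P : Subgroup G).map (φ : G →* G)) = p ^ (Nat.card G).factorization p := by
    rw [← P.card_eq_multiplicity]
    exact (Nat.card_congr ((P : Subgroup G).equivMapOfInjective (φ : G →* G) φ.injective).toEquiv).symm
  let Q : Sylow p G := Sylow.ofCard _ hcard
  obtain ⟨g, hg⟩ := MulAction.exists_smul_eq G P Q
  have hg' : MulAut.conj g • (P : Subgroup G) = (P : Subgroup G).map (φ : G →* G) :=
    congrArg (fun S : Sylow p G => (S : Subgroup G)) hg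
  obtain ⟨y, hy⟩ := hφ.commutatorMap_surjective g⁻¹
  -- y / φ y = g⁻¹, x = y⁻¹
  refine ⟨y⁻¹ • P, ?_⟩
  change (MulAut.conj y⁻¹ • (P : Subgroup G)).map (φ : G →* G) = MulAut.conj y⁻¹ • (P : Subgroup G)
  rw [Cfsg.Agent.H1.map_conj_smul, ← hg', Cfsg.Agent.H1.conj_smul_smul]
  congr 2
  rw [MonoidHom.commutatorMap_apply, div_eq_mul_inv] at hy
  have h1 : g = φ y * y⁻¹ := by
    rw [← inv_inj, ← hy]; simp
  rw [h1]
  simp

end Cfsg.Agent.S0031
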