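import Cfsg.Statements.S0036
import Cfsg.Agent.H1.FrobComp

set_option autoImplicit false
open Cfsg

namespace Cfsg.Agent.S0036

/-- When a Frobenius complement contains an involution, an elementary argument shows the Frobenius kernel is closed under multiplication (hence a subgroup). -/
theorem result {G : Type*} [Group G] [Finite G] (H : Subgroup G) (hH : Cfsg.IsFrobeniusComplement H)
    (t : G) (ht : t ∈ H) (ht1 : t ≠ 1) (ht2 : t * t = 1) :
    ∀ x ∈ Cfsg.frobeniusKernel H, ∀ y ∈ Cfsg.frobeniusKernel H, x * y ∈ Cfsg.frobeniusKernel H := by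
  classical
  have hker : ∀ x : G, x ∈ Cfsg.frobeniusKernel H ↔ (x = 1 ∨ ∀ g : G, g⁻¹ * x * g ∉ H) := by
    intro x
    unfold Cfsg.frobeniusKernel
    rw [Set.mem_ofPred_eq]
    refine or_congr Iff.rfl (forall_congr' fun g => ?_)
    rw [Cfsg.Agent.H1.mem_conj_smul]
  -- one conjugate of t for each coset of H
  let j : G ⧸ H → G := fun q => q.out * t * q.out⁻¹
  have hj2 : ∀ q, j q * j q = 1 := by
    intro q
    calc q.out * t * q.out⁻¹ * (q.out * t * q.out⁻¹) = q.out * (t * t) * q.out⁻¹ := by group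
      _ = 1 := by rw [ht2]; group
  have hjH : ∀ q g, g⁻¹ * j q * g ∈ H → q = ((g : G) : G ⧸ H) := by
    intro q g hg
    have h1 : (g⁻¹ * q.out) * t * (g⁻¹ * q.out)⁻¹ ∈ H := by
      have : (g⁻¹ * q.out) * t * (g⁻¹ * q.out)⁻¹ = g⁻¹ * (q.out * t * q.out⁻¹) * g := by group
      rw [this]; exact hg
    have h2 := Cfsg.Agent.H1.frob_mem_of_conj hH ht ht1 h1
    have h3 : ((g : G) : G ⧸ H) = ((q.out : G) : G ⧸ H) := QuotientGroup.eq.mpr h2
    rw [h3, QuotientGroup.out_eq']
  have hjinj : Function.Injective j := by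
    intro q q' h
    have h1 : q'.out⁻¹ * j q * q'.out ∈ H := by
      rw [h]
      have : q'.out⁻¹ * (q'.out * t * q'.out⁻¹) * q'.out = t := by group
      change q'.out⁻¹ * (q'.out * t * q'.out⁻¹) * q'.out ∈ H
      rw [this]; exact ht
    rw [hjH q q'.out h1, QuotientGroup.out_eq']
  have hprod : ∀ q q' : G ⧸ H, j q * j q' ∈ Cfsg.frobeniusKernel H := by
    intro q q'
    by_cases h1 : j q * j q' = 1
    · rw [h1, hker]; exact Or.inl rfl
    rw [hker]
    right
    intro g hg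
    set a := g⁻¹ * (j q * j q') * g with ha
    have ha1 : a ≠ 1 := by
      intro h
      apply h1
      have : j q * j q' = g * a * g⁻¹ := by rw [ha]; group
      rw [this, h]; group
    have hs2 := hj2 q
    have hjinv : (j q')⁻¹ = j q' := inv_eq_of_mul_eq_one_right (hj2 q')
    have hs' : g⁻¹ * j q * g ∈ H := by
      refine Cfsg.Agent.H1.frob_mem_of_conj hH hg ha1 ?_
      have : g⁻¹ * j q * g * a * (g⁻¹ * j q * g)⁻¹ = a⁻¹ := by
        rw [ha]
        calc g⁻¹ * j q * g * (g⁻¹ * (j q * j q') * g) * (g⁻¹ * j q * g)⁻¹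
            = g⁻¹ * ((j q * j q) * j q' * (j q)⁻¹) * g := by group
          _ = g⁻¹ * (j q' * (j q)⁻¹) * g := by rw [hs2, one_mul]
          _ = g⁻¹ * ((j q')⁻¹ * (j q)⁻¹) * g := by rw [hjinv]
          _ = (g⁻¹ * (j q * j q') * g)⁻¹ := by group
      rw [this]; exact H.inv_mem hg
    have hj' : g⁻¹ * j q' * g ∈ H := by
      have : g⁻¹ * j q' * g = (g⁻¹ * j q * g)⁻¹ * a := by rw [ha]; group
      rw [this]; exact H.mul_mem (H.inv_mem hs') hg
    have e1 := hjH q g hs'
    have e2 := hjH q' g hj'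
    apply h1
    rw [e1, ← e2]
    exact hj2 q'
  -- surjectivity
  have hcard : Nat.card (G ⧸ H) = Nat.card (Cfsg.frobeniusKernel H) :=
    (Cfsg.Agent.H1.frob_card_kernel hH).symm
  have hsurj : ∀ q : G ⧸ H, ∀ x ∈ Cfsg.frobeniusKernel H, ∃ q', j q * j q' = x := by
    intro q
    let f : G ⧸ H → Cfsg.frobeniusKernel H := fun q' => ⟨j q * j q', hprod q q'⟩
    have hf : Function.Injective f := by
      intro a b hab
      have : j q * j a = j q * j b := congrArg Subtype.val hab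
      exact hjinj (mul_left_cancel this)
    have hb := (Nat.bijective_iff_injective_and_card f).mpr ⟨hf, hcard⟩
    intro x hx
    obtain ⟨q', hq'⟩ := hb.2 ⟨x, hx⟩
    exact ⟨q', congrArg Subtype.val hq'⟩
  intro x hx y hy
  have hxinv : x⁻¹ ∈ Cfsg.frobeniusKernel H := by
    rw [hker] at hx ⊢
    rcases hx with h | h
    · left; rw [h, inv_one]
    · right
      intro g hg
      apply h g
      have : g⁻¹ * x * g = (g⁻¹ * x⁻¹ * g)⁻¹ := by group
      rw [this]; exact H.inv_mem hg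
  obtain ⟨q₁, h₁⟩ := hsurj ((1 : G) : G ⧸ H) _ hxinv
  obtain ⟨q₂, h₂⟩ := hsurj ((1 : G) : G ⧸ H) _ hy
  have : x * y = j q₁ * j q₂ := by
    have e : x = (j q₁)⁻¹ * (j ((1 : G) : G ⧸ H))⁻¹ := by rw [← mul_inv_rev, h₁, inv_inv]
    have hinv : ∀ q, (j q)⁻¹ = j q := fun q => inv_eq_of_mul_eq_one_right (hj2 q)
    rw [e, hinv, hinv, ← h₂]
    calc j q₁ * j ((1 : G) : G ⧸ H) * (j ((1 : G) : G ⧸ H) * j q₂)
        = j q₁ * (j ((1 : G) : G ⧸ H) * j ((1 : G) : G ⧸ H)) * j q₂ := by group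
      _ = j q₁ * j q₂ := by rw [hj2, mul_one]
  rw [this]
  exact hprod q₁ q₂

end Cfsg.Agent.S0036
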