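import Cfsg.Statements.S0038
import Cfsg.Agent.H1.FrobConj

set_option autoImplicit false
open Pointwise
open Cfsg

namespace Cfsg.Agent.S0038

/-- All Frobenius complements of a finite group are conjugate to one another. -/
theorem result {G : Type*} [Group G] [Finite G] (H H₀ : Subgroup G)
    (hH : Cfsg.IsFrobeniusComplement H) (hH₀ : Cfsg.IsFrobeniusComplement H₀) :
    ∃ g : G, MulAut.conj g • H₀ = H := by
    rcases le_total (Nat.card H₀) (Nat.card H) with h | h
    · exact Cfsg.Agent.H1.frob_compl_conj hH hH₀ h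
    · obtain ⟨g, hg⟩ := Cfsg.Agent.H1.frob_compl_conj hH₀ hH h
      refine ⟨g⁻¹, ?_⟩
      rw [← hg, Cfsg.Agent.H1.conj_smul_smul, inv_mul_cancel, Cfsg.Agent.H1.conj_one_smul]

end Cfsg.Agent.S0038
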