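import Cfsg.Statements.S0041
import Cfsg.Agent.H1.FrobCent

set_option autoImplicit false
open Cfsg

namespace Cfsg.Agent.S0041

/-- A group acting on a nontrivial abelian group so that no nonidentity element has a nonidentity fixed point is cyclic, provided it is abelian or its order is a product of two (possibly equal) primes. -/
theorem result {G : Type*} [Group G] [Finite G] (A V : Subgroup G) [IsMulCommutative V]
    (hV : V ≠ ⊥) (hAV : A ≤ Subgroup.normalizer (V : Set G)) (hfpf : ∀ a ∈ A, a ≠ 1 → V ⊓ Subgroup.centralizer {a} = ⊥)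
    (hA : IsMulCommutative A ∨ ∃ p q : ℕ, p.Prime ∧ q.Prime ∧ Nat.card A = p * q) : IsCyclic A := by
    have hf : ∀ a ∈ A, a ≠ 1 → ∀ v ∈ V, a * v = v * a → v = 1 := by
      intro a ha ha1 v hv hc
      have h1 : v ∈ V ⊓ Subgroup.centralizer {a} := ⟨hv, Subgroup.mem_centralizer_singleton_iff.2 hc.symm⟩
      rwa [hfpf a ha ha1, Subgroup.mem_bot] at h1
    rcases hA with hA | ⟨p, q, hp, hq, hA⟩
    · exact Cfsg.Agent.H20.isCyclic_of_fpf_comm hV hAV hf (Cfsg.Agent.H1.fpf_coprime hAV hf)
        fun a ha b hb => congrArg Subtype.val (hA.is_comm.comm ⟨a, ha⟩ ⟨b, hb⟩)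
    · rcases le_total p q with h | h
      · exact Cfsg.Agent.H1.fpf_cyclic_of_card ‹_› hV hAV hf hp hq h hA
      · exact Cfsg.Agent.H1.fpf_cyclic_of_card ‹_› hV hAV hf hq hp h (by rw [hA, mul_comm])

end Cfsg.Agent.S0041
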