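import Cfsg.Statements.S0042
import Cfsg.Agent.H20.Fpf2

set_option autoImplicit false
open Cfsg


namespace Cfsg.Agent.S0042

/-- In a finite Frobenius group, the Frobenius kernel is (the carrier of) a normal subgroup which is nilpotent. -/
theorem result {G : Type*} [Group G] [Finite G] (H : Subgroup G) (hH : Cfsg.IsFrobeniusComplement H) :
    ∃ N : Subgroup G, (N : Set G) = Cfsg.frobeniusKernel H ∧ N.Normal ∧ Group.IsNilpotent N := by
  exact Cfsg.Agent.H20.Fpf.frobenius_nilpotent hH


end Cfsg.Agent.S0042
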