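import Cfsg.Statements.S0049
import Cfsg.Agent.H1.Sylow

set_option autoImplicit false
open Cfsg

namespace Cfsg.Agent.S0049

/-- A prime divisor of the order of a finite group also divides the index of the Frattini subgroup. -/
theorem result {G : Type*} [Group G] [Finite G] (p : ℕ) (hp : p.Prime) (hdvd : p ∣ Nat.card G) :
    p ∣ (frattini G).index := by
  by_contra hnd
  haveI : Fact p.Prime := ⟨hp⟩
  haveI : Group.IsNilpotent (frattini G) := frattini_nilpotent
  obtain ⟨S⟩ : Nonempty (Sylow p (frattini G)) := inferInstance
  haveI : (S : Subgroup (frattini G)).Normal := inferInstance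
  haveI : (S : Subgroup (frattini G)).Characteristic := S.characteristic_of_normal this
  set P : Subgroup G := (S : Subgroup (frattini G)).map (frattini G).subtype with hP
  haveI hPn : P.Normal := inferInstance
  have hPc : Nat.card P = Nat.card S := Cfsg.Agent.H1.card_map_subtype _
  -- index of P prime to p
  have hidx : ¬ p ∣ P.index := by
    have h1 : P.index = (S : Subgroup (frattini G)).index * (frattini G).index :=
      Subgroup.index_map_subtype _
    rw [h1]
    intro hd
    rcases (hp.dvd_mul).mp hd with h | h
    · exact S.not_dvd_index h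
    · exact hnd h
  have hcop : (Nat.card P).Coprime P.index := by
    obtain ⟨n, hn⟩ := (IsPGroup.iff_card).mp S.isPGroup'
    rw [hPc, hn]
    exact Nat.Coprime.pow_left _ ((Nat.Prime.coprime_iff_not_dvd hp).mpr hidx)
  obtain ⟨H, hH⟩ := Subgroup.exists_right_complement'_of_coprime hcop
  have hPF : P ≤ frattini G := Subgroup.map_subtype_le _
  have h1 : H ⊔ frattini G = ⊤ := by
    rw [eq_top_iff, ← hH.sup_eq_top]
    exact sup_le (hPF.trans le_sup_right) le_sup_left
  have h2 := frattini_nongenerating h1
  rw [h2, Subgroup.isComplement'_top_right] at hH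
  rw [hH, Subgroup.index_bot] at hidx
  exact hidx hdvd

end Cfsg.Agent.S0049
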