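import Cfsg.Statements.S0050
import Cfsg.Agent.H1.Hall

set_option autoImplicit false
open Cfsg
open scoped Pointwise

namespace Cfsg.Agent.S0050

/-- Frattini argument for Hall subgroups: if L is a solvable normal subgroup and H a subgroup of L of order coprime to its index in L, then L together with the normaliser of H generates the whole group. -/
theorem result {G : Type*} [Group G] [Finite G] (L : Subgroup G) [L.Normal] (hL : Group.IsSolvable L)
    (H : Subgroup G) (hHL : H ≤ L) (hHall : (Nat.card H).Coprime (H.relIndex L)) :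
    L ⊔ Subgroup.normalizer (H : Set G) = ⊤ := by
  classical
  rw [eq_top_iff]
  intro g _
  -- conj g • H and H are Hall subgroups of L of the same order
  have hgL : MulAut.conj g • H ≤ L := by
    have : MulAut.conj g • H ≤ MulAut.conj g • L := Cfsg.Agent.H1.conj_smul_le_conj_smul_iff.mpr hHL
    rwa [Cfsg.Agent.H1.conj_smul_normal (N := L)] at this
  have hcard : Nat.card L = Nat.card H * H.relIndex L := (Cfsg.Agent.H1.card_mul_relIndex_aux hHL).symm
  obtain ⟨l, hl⟩ := Cfsg.Agent.H1.hall_conj hL hcard hHall ((MulAut.conj g • H).subgroupOf L)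
    (H.subgroupOf L) (by rw [Cfsg.Agent.H1.card_subgroupOf hgL, Cfsg.Agent.H1.card_conj_smul])
    (by rw [Cfsg.Agent.H1.card_subgroupOf hHL])
  have h1 := Cfsg.Agent.H1.conj_smul_of_subgroupOf hgL hHL l hl
  rw [Cfsg.Agent.H1.conj_smul_smul, ← Cfsg.Agent.H1.mem_normalizer_iff_conj_smul] at h1
  have h2 : g = (l : G)⁻¹ * ((l : G) * g) := by group
  rw [h2]
  exact Subgroup.mul_mem_sup (L.inv_mem l.2) h1

end Cfsg.Agent.S0050
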