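import Cfsg.Statements.S0053
import Cfsg.Agent.H1.Sylow

set_option autoImplicit false
open Cfsg

namespace Cfsg.Agent.S0053

/-- An abelian minimal normal subgroup N of a finite group is complemented exactly when N is not inside the Frattini subgroup. -/
theorem result {G : Type*} [Group G] [Finite G]
    (N : Subgroup G) [N.Normal] [IsMulCommutative N] (hN : N ≠ ⊥)
    (hmin : ∀ M : Subgroup G, M.Normal → M ≤ N → M = ⊥ ∨ M = N) :
    (∃ H : Subgroup G, Subgroup.IsComplement' N H) ↔ ¬ N ≤ frattini G := by
  constructor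
  · rintro ⟨H, hH⟩ hle
    have h1 : H ⊔ frattini G = ⊤ := by
      rw [eq_top_iff, ← hH.sup_eq_top]
      exact sup_le (hle.trans le_sup_right) le_sup_left
    have h2 := frattini_nongenerating h1
    rw [h2, Subgroup.isComplement'_top_right] at hH
    exact hN hH
  · intro h
    obtain ⟨M, hM, hNM⟩ := Cfsg.Agent.H1.exists_coatom_not_ge h
    have hsup : N ⊔ M = ⊤ := by
      refine hM.2 _ (lt_of_le_of_ne le_sup_right fun h => hNM (h ▸ le_sup_left))
    have hn := Cfsg.Agent.H1.normal_inf_of_abelian_sup_eq_top ‹N.Normal› ‹_› hsup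
    have hbot : N ⊓ M = ⊥ := by
      rcases hmin _ hn inf_le_left with h1 | h1
      · exact h1
      · exact absurd (inf_eq_left.mp h1) hNM
    refine ⟨M, ?_⟩
    apply Subgroup.isComplement'_of_card_mul_and_disjoint
    · have h2 := Cfsg.Agent.H1.card_sup_mul_card_inf_of_le_normalizer
        (H := N) (K := M) Subgroup.le_normalizer_of_normal
      rw [hsup, hbot, Subgroup.card_top, Subgroup.card_bot, mul_one] at h2
      exact h2.symm
    · exact disjoint_iff.mpr hbot

end Cfsg.Agent.S0053
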