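import Cfsg.Statements.S0054
import Cfsg.Agent.H1.Sylow

set_option autoImplicit false
open Cfsg

namespace Cfsg.Agent.S0054

/-- A regular normal subgroup of a finite 2-transitive group is elementary abelian: it is commutative and all its elements have order dividing one prime. -/
theorem result {G : Type*} [Group G] [Finite G]
    {X : Type*} [Nonempty X] [MulAction G X] (h2 : MulAction.IsMultiplyPretransitive G X 2)
    (N : Subgroup G) [N.Normal] (htrans : MulAction.IsPretransitive N X) (hreg : ∀ x : X, MulAction.stabilizer N x = ⊥) :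
    IsMulCommutative N ∧ ∃ p : ℕ, p.Prime ∧ ∀ n ∈ N, n ^ p = 1 := by
  obtain ⟨x₀⟩ := ‹Nonempty X›
  -- elements of N are determined by the image of x₀
  have hreg' : ∀ n m : G, n ∈ N → m ∈ N → n • x₀ = m • x₀ → n = m := by
    intro n m hn hm h
    have h1 : (⟨m⁻¹ * n, N.mul_mem (N.inv_mem hm) hn⟩ : N) ∈ MulAction.stabilizer N x₀ := by
      rw [MulAction.mem_stabilizer_iff]
      change (m⁻¹ * n) • x₀ = x₀
      rw [mul_smul, h, inv_smul_smul]
    rw [hreg x₀, Subgroup.mem_bot] at h1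
    have h2 : m⁻¹ * n = 1 := congrArg Subtype.val h1
    exact (inv_mul_eq_one.mp h2).symm
  -- all nonidentity elements of N are conjugate
  have hconj : ∀ n m : G, n ∈ N → m ∈ N → n ≠ 1 → m ≠ 1 → ∃ g : G, g * n * g⁻¹ = m := by
    intro n m hn hm hn1 hm1
    have hne : ∀ k ∈ N, k ≠ 1 → x₀ ≠ k • x₀ := by
      intro k hk hk1 h
      apply hk1
      exact (hreg' 1 k N.one_mem hk (by rw [one_smul]; exact h)).symm
    obtain ⟨g, hg1, hg2⟩ := MulAction.is_two_pretransitive_iff.mp h2 (hne n hn hn1) (hne m hm hm1)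
    refine ⟨g, hreg' _ _ (‹N.Normal›.conj_mem n hn g) hm ?_⟩
    have hg1' : g⁻¹ • x₀ = x₀ := by rw [inv_smul_eq_iff, hg1]
    rw [mul_smul, mul_smul, hg1', hg2]
  by_cases hN1 : N = ⊥
  · subst hN1
    refine ⟨⟨⟨fun a b => Subsingleton.elim _ _⟩⟩, 2, Nat.prime_two, ?_⟩
    intro n hn
    rw [Subgroup.mem_bot] at hn
    rw [hn, one_pow]
  -- a prime dividing |N|
  have hc : Nat.card N ≠ 1 := by rwa [ne_eq, Subgroup.card_eq_one]
  obtain ⟨p, hp, hpd⟩ := Nat.exists_prime_and_dvd hc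
  haveI : Fact p.Prime := ⟨hp⟩
  obtain ⟨a, ha⟩ := exists_prime_orderOf_dvd_card' (G := N) p hpd
  have ha1 : (a : G) ≠ 1 := by
    intro h
    have : a = 1 := Subtype.ext h
    rw [this, orderOf_one] at ha
    exact hp.one_lt.ne ha
  have hpow : ∀ n ∈ N, n ^ p = 1 := by
    intro n hn
    by_cases hn1 : n = 1
    · rw [hn1, one_pow]
    obtain ⟨g, hg⟩ := hconj a n a.2 hn ha1 hn1
    have h1 : (a : G) ^ p = 1 := by
      have : a ^ p = 1 := by rw [← ha]; exact pow_orderOf_eq_one a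
      exact congrArg Subtype.val this
    rw [← hg, conj_pow, h1]; simp
  have hNp : IsPGroup p N := by
    intro x
    refine ⟨1, ?_⟩
    rw [pow_one]
    exact Subtype.ext (hpow x x.2)
  refine ⟨?_, p, hp, hpow⟩
  -- center of N
  haveI : Nontrivial N := (Subgroup.nontrivial_iff_ne_bot N).mpr hN1
  haveI := hNp.isNilpotent
  have hZ := Group.IsNilpotent.center_ne_bot (G := N)
  obtain ⟨⟨z, hz⟩, hz1'⟩ := (Subgroup.ne_bot_iff_exists_ne_one (H := Subgroup.center N)).mp hZ
  have hz1 : (z : N) ≠ 1 := fun h => hz1' (Subtype.ext h)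
  constructor
  constructor
  intro x y
  by_cases hx1 : x = 1
  · rw [hx1]; simp
  obtain ⟨g, hg⟩ := hconj (z : N) x (z : N).2 x.2 (fun h => hz1 (Subtype.ext h))
    (fun h => hx1 (Subtype.ext h))
  apply Subtype.ext
  change (x : G) * y = y * x
  have hy' : g⁻¹ * (y : G) * g ∈ N := by
    have := ‹N.Normal›.conj_mem y y.2 g⁻¹
    simpa using this
  have h3 := Subgroup.mem_center_iff.mp hz ⟨_, hy'⟩
  have h4 : (g⁻¹ * (y : G) * g) * ((z : N) : G) = ((z : N) : G) * (g⁻¹ * (y : G) * g) :=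
    congrArg Subtype.val h3
  rw [← hg]
  calc g * ((z : N) : G) * g⁻¹ * y = g * (((z : N) : G) * (g⁻¹ * (y : G) * g)) * g⁻¹ := by group
    _ = g * ((g⁻¹ * (y : G) * g) * ((z : N) : G)) * g⁻¹ := by rw [h4]
    _ = y * (g * ((z : N) : G) * g⁻¹) := by group

end Cfsg.Agent.S0054
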