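import Cfsg.Statements.S0059
import Cfsg.Agent.H1.Coprime

set_option autoImplicit false
open Cfsg

namespace Cfsg.Agent.S0059

/-- Let a finite group act on a set on which a normal subgroup K of coprime order and index is transitive, with K or the quotient solvable. Then any complement H of K has a fixed point, and any two H-fixed points are interchanged by an element of K centralising H. -/
theorem result {G : Type*} [Group G] [Finite G] {X : Type*} [Nonempty X] [MulAction G X]
    (K H : Subgroup G) [K.Normal] (hc : Subgroup.IsComplement' K H) (hcop : (Nat.card K).Coprime K.index)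
    (hsolv : Group.IsSolvable K ∨ Group.IsSolvable (G ⧸ K)) (htrans : MulAction.IsPretransitive K X) :
    (∃ x : X, ∀ h ∈ H, h • x = x) ∧
    ∀ x y : X, (∀ h ∈ H, h • x = x) → (∀ h ∈ H, h • y = y) → ∃ k ∈ K ⊓ Subgroup.centralizer (H : Set G), k • x = y := by
  have hcard : K.index = Nat.card H := hc.symm.index_eq_card
  have hcop' : (Nat.card H).Coprime (Nat.card K) := by rw [← hcard]; exact hcop.symm
  have hsolv' : Group.IsSolvable H ∨ Group.IsSolvable K := by
    rcases hsolv with h | h
    · exact Or.inr h
    · left
      have e := hc.symm.QuotientMulEquiv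
      exact Cfsg.Agent.H1.isSolvable_of_equiv e h
  constructor
  · obtain ⟨x, -, hx⟩ := Cfsg.Agent.H1.glauberman_exists H K Subgroup.le_normalizer_of_normal hcop' hsolv'
      (Set.univ : Set X) Set.univ_nonempty (fun _ _ _ _ => Set.mem_univ _)
      (fun _ _ _ _ => Set.mem_univ _) (by
        intro x _ y _
        obtain ⟨k, hk⟩ := htrans.exists_smul_eq x y
        exact ⟨k, k.2, hk⟩)
    exact ⟨x, hx⟩
  · intro x y hx hy
    obtain ⟨c, hc, hcy⟩ := Cfsg.Agent.H1.glauberman_conj H K Subgroup.le_normalizer_of_normal hcop' hsolv' x y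
      (by
        obtain ⟨k, hk⟩ := htrans.exists_smul_eq x y
        exact ⟨k, k.2, hk⟩) hx hy
    exact ⟨c, hc, hcy⟩

end Cfsg.Agent.S0059
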