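import Cfsg.Statements.S0060
import Cfsg.Agent.H1.Sylow

set_option autoImplicit false
open Pointwise
open Cfsg

namespace Cfsg.Agent.S0060

/-- Brodkey's Theorem: in a finite group with abelian Sylow p-subgroups and no nontrivial normal p-subgroup, some conjugate of a Sylow p-subgroup meets it trivially. -/
theorem result {G : Type*} [Group G] [Finite G] (p : ℕ) [Fact p.Prime]
    (S : Sylow p G) (hS : IsMulCommutative S) (hOp : Cfsg.pCore p G = ⊥) :
    ∃ g : G, (S : Subgroup G) ⊓ MulAut.conj g • (S : Subgroup G) = ⊥ := by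
  -- all Sylow subgroups are abelian
  have habel : ∀ Q : Sylow p G, IsMulCommutative (Q : Subgroup G) := by
    intro Q
    obtain ⟨g, rfl⟩ := MulAction.exists_smul_eq G S Q
    have e := Subgroup.equivSMul (MulAut.conj g) (S : Subgroup G)
    constructor
    constructor
    intro a b
    have e' : (S : Subgroup G) ≃* ((g • S : Sylow p G) : Subgroup G) := e
    obtain ⟨a, rfl⟩ := e'.surjective a
    obtain ⟨b, rfl⟩ := e'.surjective b
    rw [← map_mul, ← map_mul, hS.is_comm.comm a b]
  -- minimize the order of an intersection of two Sylow subgroups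
  obtain ⟨X, -, hmin⟩ := (Set.toFinite (Set.univ : Set (Sylow p G × Sylow p G))).exists_minimalFor
    (fun X : Sylow p G × Sylow p G => Nat.card ((X.1 : Subgroup G) ⊓ (X.2 : Subgroup G) : Subgroup G)) Set.univ
    ⟨(S, S), Set.mem_univ _⟩
  obtain ⟨S₁, T⟩ := X
  have hmin' : ∀ A B : Sylow p G, Nat.card ((S₁ : Subgroup G) ⊓ (T : Subgroup G) : Subgroup G) ≤
      Nat.card ((A : Subgroup G) ⊓ (B : Subgroup G) : Subgroup G) := by
    intro A B
    by_contra h
    push Not at h
    exact absurd (hmin (Set.mem_univ (A, B)) h.le) (not_le_of_gt h)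
  set D : Subgroup G := (S₁ : Subgroup G) ⊓ (T : Subgroup G) with hD
  set N := Subgroup.normalizer (D : Set G) with hN
  have hle : ∀ Q : Sylow p G, D ≤ Q → (Q : Subgroup G) ≤ N := by
    intro Q hDQ
    have h1 : (Q : Subgroup G) ≤ Subgroup.centralizer (D : Set G) :=
      (Subgroup.le_centralizer_iff_isMulCommutative.mpr (habel Q)).trans (Subgroup.centralizer_le hDQ)
    exact h1.trans (Subgroup.centralizer_le_normalizer _)
  have hS₁N := hle S₁ inf_le_left
  have hTN := hle T inf_le_right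
  have hDall : ∀ Q : Sylow p G, D ≤ Q := by
    intro Q
    have hidx : ¬ p ∣ ((S₁ : Subgroup G).subgroupOf N).index := by
      intro hd
      have h1 : ((S₁ : Subgroup G).subgroupOf N).index ∣ (S₁ : Subgroup G).index :=
        Subgroup.relIndex_dvd_index_of_le hS₁N
      exact S₁.not_dvd_index (hd.trans h1)
    have hQp : IsPGroup p ((Q : Subgroup G).subgroupOf N) := Q.isPGroup'.comap_subtype
    obtain ⟨n, hn⟩ := Cfsg.Agent.H1.exists_conj_le_of_not_dvd_index hQp hidx
    have hsub : (T : Subgroup G) ⊓ ((n : G) • Q : Sylow p G) ≤ D := by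
      rintro x ⟨hxT, hxQ⟩
      refine ⟨?_, hxT⟩
      have hxN : x ∈ N := hTN hxT
      have hxQ' : x ∈ MulAut.conj (n : G) • (Q : Subgroup G) := hxQ
      rw [Cfsg.Agent.H1.mem_conj_smul] at hxQ'
      have h2 : (⟨x, hxN⟩ : N) ∈ MulAut.conj n • (Q : Subgroup G).subgroupOf N := by
        rw [Cfsg.Agent.H1.mem_conj_smul, Subgroup.mem_subgroupOf]
        exact hxQ'
      exact Subgroup.mem_subgroupOf.mp (hn h2)
    have heq : (T : Subgroup G) ⊓ ((n : G) • Q : Sylow p G) = D :=
      Subgroup.eq_of_le_of_card_ge hsub (hmin' T _)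
    have h3 : D ≤ MulAut.conj (n : G) • (Q : Subgroup G) := heq ▸ inf_le_right
    rw [← Cfsg.Agent.H1.mem_normalizer_iff_conj_smul.mp n.2,
      Cfsg.Agent.H1.conj_smul_le_conj_smul_iff] at h3
    exact h3
  have hDbot : D = ⊥ := by
    rw [eq_bot_iff, ← hOp, Cfsg.Agent.H1.pCore_eq_iInf_sylow]
    exact le_iInf hDall
  obtain ⟨g, hg⟩ := MulAction.exists_smul_eq G S S₁
  obtain ⟨k, hk⟩ := MulAction.exists_smul_eq G S T
  have hg' : MulAut.conj g • (S : Subgroup G) = S₁ := congrArg (fun S : Sylow p G => (S : Subgroup G)) hg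
  have hk' : MulAut.conj k • (S : Subgroup G) = T := congrArg (fun S : Sylow p G => (S : Subgroup G)) hk
  refine ⟨g⁻¹ * k, ?_⟩
  have h4 : MulAut.conj g • ((S : Subgroup G) ⊓ MulAut.conj (g⁻¹ * k) • (S : Subgroup G)) = D := by
    rw [Cfsg.Agent.H1.conj_smul_inf, Cfsg.Agent.H1.conj_smul_smul, mul_inv_cancel_left, hg', hk']
  rw [hDbot] at h4
  rw [← Subgroup.card_eq_one, ← Cfsg.Agent.H1.card_conj_smul g, h4, Subgroup.card_bot]

end Cfsg.Agent.S0060
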