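import Cfsg.Statements.S0063
import Cfsg.Agent.H1.Sylow

set_option autoImplicit false
open Cfsg

namespace Cfsg.Agent.S0063

/-- A finite group of prime-power order p ^ m with m > 1 is nilpotent of class at most m - 1. -/
theorem result {G : Type*} [Group G] [Finite G] (p m : ℕ) [Fact p.Prime]
    (hG : Nat.card G = p ^ m) (hm : 1 < m) : Group.nilpotencyClass G ≤ m - 1 := by
  have key : ∀ m : ℕ, 1 < m → ∀ (H : Type u_1) [Group H] [Finite H], Nat.card H = p ^ m →
      Group.nilpotencyClass H ≤ m - 1 := by
    intro m
    induction m using Nat.strong_induction_on with
    | _ m ih =>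
      intro hm H _ _ hH
      have hp : p.Prime := Fact.out
      have hHp : IsPGroup p H := IsPGroup.of_card hH
      haveI := hHp.isNilpotent
      haveI : Nontrivial H := by
        rw [← Finite.one_lt_card_iff_nontrivial, hH]
        exact Nat.one_lt_pow (by omega) hp.one_lt
      rw [Group.nilpotencyClass_eq_quotient_center_plus_one]
      have hQ : IsPGroup p (H ⧸ Subgroup.center H) := hHp.to_quotient _
      obtain ⟨k, hk⟩ := (IsPGroup.iff_card).mp hQ
      have hZ : Subgroup.center H ≠ ⊥ := Group.IsNilpotent.center_ne_bot H
      have hkm : k < m := by
        have h1 : Nat.card (Subgroup.center H) * Nat.card (H ⧸ Subgroup.center H) = Nat.card H :=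
          (Subgroup.center H).card_mul_index
        have h2 : 1 < Nat.card (Subgroup.center H) := (Subgroup.one_lt_card_iff_ne_bot _).mpr hZ
        have h3 : p ^ k < p ^ m := by
          rw [← hk, ← hH, ← h1]
          exact lt_mul_of_one_lt_left Nat.card_pos h2
        exact (Nat.pow_lt_pow_iff_right hp.one_lt).mp h3
      rcases Nat.lt_or_ge k 2 with hk2 | hk2
      · -- k ≤ 1 : class of quotient is at most ... k = 0
        have hcyc : IsCyclic (H ⧸ Subgroup.center H) := by
          interval_cases k
          · rw [pow_zero] at hk
            haveI : Subsingleton (H ⧸ Subgroup.center H) := (Nat.card_eq_one_iff_unique.mp hk).1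
            infer_instance
          · rw [pow_one] at hk
            exact isCyclic_of_prime_card hk
        have hcomm : ∀ a b : H, a * b = b * a :=
          fun a b => commutative_of_cyclic_center_quotient (QuotientGroup.mk' (Subgroup.center H))
            (by rw [QuotientGroup.ker_mk']) a b
        have htop : Subgroup.center H = ⊤ := by
          rw [eq_top_iff]
          intro x _
          rw [Subgroup.mem_center_iff]
          intro g; exact hcomm g x
        haveI : Subsingleton (H ⧸ Subgroup.center H) := by
          rw [htop]; exact QuotientGroup.subsingleton_quotient_top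
        have h0 : Group.nilpotencyClass (H ⧸ Subgroup.center H) = 0 :=
          Group.nilpotencyClass_zero_iff_subsingleton.mpr inferInstance
        rw [h0]; omega
      · have := ih k hkm (by omega) (H ⧸ Subgroup.center H) hk
        omega
  exact key m hm G hG

end Cfsg.Agent.S0063
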