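import Cfsg.Statements.S0064
import Cfsg.Agent.H1.Sylow

set_option autoImplicit false
open Cfsg

namespace Cfsg.Agent.S0064

/-- A finite group is nilpotent exactly when each of its subgroups is subnormal. -/
theorem result {G : Type*} [Group G] [Finite G] :
    Group.IsNilpotent G ↔ ∀ H : Subgroup G, H.IsSubnormal := by
  constructor
  · intro hG
    -- induction on the index
    have key : ∀ n : ℕ, ∀ H : Subgroup G, H.index = n → H.IsSubnormal := by
      intro n
      induction n using Nat.strong_induction_on with
      | _ n ih =>
        intro H hn
        by_cases htop : H = ⊤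
        · rw [htop]; exact Subgroup.IsSubnormal.top
        have hlt := normalizerCondition_of_isNilpotent (G := G) H (lt_top_iff_ne_top.mpr htop)
        refine Subgroup.IsSubnormal.step H (Subgroup.normalizer (H : Set G)) Subgroup.le_normalizer ?_
          Subgroup.normal_in_normalizer
        exact ih _ (by rw [← hn]; exact Subgroup.index_strictAnti hlt) _ rfl
    exact fun H => key _ H rfl
  · intro h
    rw [Cfsg.Agent.H1.isNilpotent_iff_coatom_normal]
    intro M hM
    rcases Subgroup.IsSubnormal.iff_eq_top_or_exists.mp (h M) with h1 | ⟨K, hK, -, hn⟩
    · exact absurd h1 hM.1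
    · have hKtop := hM.2 K hK
      subst hKtop
      rw [Subgroup.normal_subgroupOf_iff_le_normalizer le_top, top_le_iff,
        Subgroup.normalizer_eq_top_iff] at hn
      exact hn

end Cfsg.Agent.S0064
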