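import Cfsg.Statements.S0065
import Cfsg.Agent.H1.Chief

set_option autoImplicit false
open Cfsg

namespace Cfsg.Agent.S0065

/-- A nontrivial normal subgroup of a nilpotent group intersects the centre nontrivially. -/
theorem result {G : Type*} [Group G] [Finite G] [Group.IsNilpotent G]
    (N : Subgroup G) [N.Normal] (hN : N ≠ ⊥) : N ⊓ Subgroup.center G ≠ ⊥ := by
  obtain ⟨M, hM, hM1, hMN, hmin⟩ := Cfsg.Agent.H1.exists_minimal_normal_le ‹N.Normal› hN
  haveI := hM
  have h1 : ⁅M, (⊤ : Subgroup G)⁆ < M := Cfsg.Agent.H1.commutator_lt_of_nilpotent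
    (X := (⊤ : Subgroup G)) inferInstance le_top (Subgroup.commutator_le_left _ _) hM1
  have h2 : ⁅M, (⊤ : Subgroup G)⁆ = ⊥ := (hmin _ inferInstance h1.le).resolve_right h1.ne
  have h3 : M ≤ Subgroup.center G := by
    rw [← Subgroup.commutator_top_right_eq_bot_iff_le_center]; exact h2
  intro h4
  exact hM1 (le_bot_iff.mp (h4 ▸ le_inf hMN h3))

end Cfsg.Agent.S0065
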