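import Cfsg.Statements.S0068
import Cfsg.Agent.H1.FrobComp

set_option autoImplicit false
open Cfsg

namespace Cfsg.Agent.S0068

/-- Frobenius complements of even order: if H complements a nontrivial normal subgroup K, each nonidentity element of H has trivial centraliser in K, and H has even order, then H contains a unique involution s, K is abelian, and s inverts every element of K. -/
theorem result {G : Type*} [Group G] [Finite G] (K H : Subgroup G) [K.Normal]
    (hc : Subgroup.IsComplement' K H) (hK : K ≠ ⊥) (hfpf : ∀ h ∈ H, h ≠ 1 → K ⊓ Subgroup.centralizer {h} = ⊥)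
    (heven : 2 ∣ Nat.card H) :
    (∃ s ∈ H, orderOf s = 2 ∧ (∀ t ∈ H, orderOf t = 2 → t = s) ∧ ∀ k ∈ K, s * k * s⁻¹ = k⁻¹) ∧ IsMulCommutative K := by
  have hdisj : ∀ x, x ∈ K → x ∈ H → x = 1 := fun x hx hx' => by
    have := hc.disjoint.le_bot ⟨hx, hx'⟩
    exact Subgroup.mem_bot.mp this
  -- involutions of H invert K
  have hinv : ∀ s ∈ H, orderOf s = 2 → (∀ k ∈ K, s * k * s⁻¹ = k⁻¹) ∧
      ∀ a ∈ K, ∀ b ∈ K, a * b = b * a := by
    intro s hs hs2
    have hs1 : s ≠ 1 := by
      intro h; rw [h, orderOf_one] at hs2; omega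
    have hss : s * s = 1 := by rw [← pow_two, ← hs2]; exact pow_orderOf_eq_one s
    let φ : K →* K := (MulAut.conjNormal s : MulAut K).toMonoidHom
    have hφ : ∀ k : K, ((φ k : K) : G) = s * k * s⁻¹ := fun k => MulAut.conjNormal_apply s k
    have hfp : MonoidHom.FixedPointFree φ := by
      intro k hk
      have h1 : s * (k : G) * s⁻¹ = k := by rw [← hφ, hk]
      have h2 : (k : G) ∈ K ⊓ Subgroup.centralizer {s} := by
        refine Subgroup.mem_inf.mpr ⟨k.2, ?_⟩
        rw [Subgroup.mem_centralizer_singleton_iff]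
        exact (mul_inv_eq_iff_eq_mul.mp h1).symm
      rw [hfpf s hs hs1, Subgroup.mem_bot] at h2
      exact Subtype.ext h2
    have hinvo : Function.Involutive φ := by
      intro k
      apply Subtype.ext
      rw [hφ, hφ]
      have hsinv : s⁻¹ = s := inv_eq_of_mul_eq_one_right hss
      calc s * (s * (k : G) * s⁻¹) * s⁻¹ = (s * s) * k * (s * s)⁻¹ := by group
        _ = k := by rw [hss]; group
    constructor
    · intro k hk
      have h1 := congrFun (hfp.coe_eq_inv_of_involutive hinvo) ⟨k, hk⟩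
      have h2 := congrArg (fun x : K => (x : G)) h1
      simp only [hφ] at h2
      exact h2
    · intro a ha b hb
      have h1 := hfp.commute_all_of_involutive hinvo ⟨a, ha⟩ ⟨b, hb⟩
      exact congrArg Subtype.val h1
  -- existence
  haveI : Fact (Nat.Prime 2) := ⟨Nat.prime_two⟩
  obtain ⟨s, hs⟩ := exists_prime_orderOf_dvd_card' (G := H) 2 heven
  have hs2 : orderOf (s : G) = 2 := by rw [Subgroup.orderOf_coe]; exact hs
  obtain ⟨h1, h2⟩ := hinv s s.2 hs2
  refine ⟨⟨s, s.2, hs2, ?_, h1⟩, ⟨⟨fun a b => Subtype.ext (h2 a a.2 b b.2)⟩⟩⟩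
  intro t ht ht2
  obtain ⟨h3, -⟩ := hinv t ht ht2
  -- t⁻¹ s centralizes K
  by_contra hne
  have hne1 : t⁻¹ * (s : G) ≠ 1 := fun h => hne (inv_mul_eq_one.mp h)
  have hmem : t⁻¹ * (s : G) ∈ H := H.mul_mem (H.inv_mem ht) s.2
  have h4 := hfpf _ hmem hne1
  apply hK
  rw [eq_bot_iff, ← h4]
  intro k hk
  refine Subgroup.mem_inf.mpr ⟨hk, ?_⟩
  rw [Subgroup.mem_centralizer_singleton_iff]
  have e1 := h1 k hk
  have e3 := h3 k hk
  have e4 : (s : G) * k * (s : G)⁻¹ = t * k * t⁻¹ := by rw [e1, e3]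
  calc k * (t⁻¹ * (s : G)) = t⁻¹ * (t * k * t⁻¹) * s := by group
    _ = t⁻¹ * ((s : G) * k * (s : G)⁻¹) * s := by rw [e4]
    _ = t⁻¹ * (s : G) * k := by group

end Cfsg.Agent.S0068
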