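import Cfsg.Statements.S0070
import Cfsg.Agent.H1.Chief

set_option autoImplicit false
open Cfsg

namespace Cfsg.Agent.S0070

/-- The Fitting subgroup commutes with passing to the Frattini quotient: the Fitting subgroup of G modulo its Frattini subgroup is the image of the Fitting subgroup of G. -/
theorem result {G : Type*} [Group G] [Finite G] :
    Cfsg.fittingSubgroup (G ⧸ frattini G) = (Cfsg.fittingSubgroup G).map (QuotientGroup.mk' (frattini G)) := by
  let f := QuotientGroup.mk' (frattini G)
  have hf : Function.Surjective f := QuotientGroup.mk'_surjective _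
  apply le_antisymm
  · have hFn : (Cfsg.fittingSubgroup (G ⧸ frattini G)).Normal := inferInstance
    set F := Cfsg.fittingSubgroup (G ⧸ frattini G) with hF
    haveI h1 : (F.comap f).Normal := hFn.comap f
    have h2 : Group.IsNilpotent (F.comap f) := by
      refine Cfsg.Agent.H1.nilpotent_of_quotient_le_frattini (F.comap f) (frattini G)
        (Cfsg.Agent.H1.le_comap_mk' _ _) le_rfl ?_
      have h3 : (F.comap f).map f = F := Subgroup.map_comap_eq_self_of_surjective hf F
      change Group.IsNilpotent ((F.comap f).map f)
      rw [h3]
      exact Cfsg.Agent.H1.fitting_isNilpotent _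
    have h4 := Cfsg.Agent.H1.le_fitting h1 h2
    have h5 := Subgroup.map_mono (f := f) h4
    rwa [Subgroup.map_comap_eq_self_of_surjective hf F] at h5
  · have hFn : (Cfsg.fittingSubgroup G).Normal := inferInstance
    exact Cfsg.Agent.H1.le_fitting (hFn.map f hf)
      (Cfsg.Agent.H1.isNilpotent_map f (Cfsg.Agent.H1.fitting_isNilpotent G))

end Cfsg.Agent.S0070
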