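import Cfsg.Statements.S0073
import Cfsg.Agent.H2.Conj
import Cfsg.Agent.H2.AutElem

set_option autoImplicit false
set_option linter.style.haveILetI false
set_option linter.unusedVariables false
set_option linter.unusedSectionVars false
open Cfsg

namespace Cfsg.Agent.S0073

/-- For a finite non-abelian simple group, either the cube of the least prime divisor of the order divides the order, or 12 does. -/
theorem result {G : Type*} [Group G] [Finite G] [IsSimpleGroup G] (hG : ∃ x y : G, x * y ≠ y * x) : (Nat.card G).minFac ^ 3 ∣ Nat.card G ∨ 12 ∣ Nat.card G := by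
  obtain ⟨x, y, hxy⟩ := hG
  have hG1 : Nat.card G ≠ 1 := by
    intro h1
    haveI := (Nat.card_eq_one_iff_unique.1 h1).1
    exact hxy (Subsingleton.elim _ _)
  set p := (Nat.card G).minFac with hp
  have hpp : p.Prime := Nat.minFac_prime hG1
  haveI : Fact p.Prime := ⟨hpp⟩
  obtain ⟨P⟩ := (inferInstance : Nonempty (Sylow p G))
  have hpG : p ∣ Nat.card G := Nat.minFac_dvd _
  -- a normal complement is impossible
  have hno : ¬ Cfsg.HasNormalPComplement p G := by
    intro h
    obtain ⟨N, hN, hc⟩ := (H2.hasNormalPComplement_iff_sylow P).1 h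
    rcases hN.eq_bot_or_eq_top with h1 | h1
    · rw [h1, Subgroup.isComplement'_bot_left] at hc
      have hGp : IsPGroup p G := by
        have := P.2
        rw [hc] at this
        exact this.of_equiv Subgroup.topEquiv
      haveI : Nontrivial G := IsSimpleGroup.toNontrivial
      have h2 := hGp.bot_lt_center
      rcases (inferInstance : (Subgroup.center G).Normal).eq_bot_or_eq_top with h3 | h3
      · exact h2.ne h3.symm
      · apply hxy
        have : x ∈ Subgroup.center G := by rw [h3]; trivial
        exact ((Subgroup.mem_center_iff.1 this) y).symm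
    · rw [h1, Subgroup.isComplement'_top_left] at hc
      exact P.ne_bot_of_dvd_card hpG hc
  obtain ⟨n, hn⟩ := IsPGroup.iff_card.1 P.2
  rcases Nat.lt_or_ge n 3 with hn3 | hn3
  swap
  · left
    refine (pow_dvd_pow p hn3).trans ?_
    rw [← hn]; exact Subgroup.card_subgroup_dvd_card _
  right
  have hncyc : ¬ IsCyclic P := by
    intro hcyc
    have := IsCyclic.isComplement' (P := P) hp.symm hcyc
    exact hno ⟨P, _, inferInstance, this⟩
  have hn2 : n = 2 := by
    interval_cases n
    · exfalso; apply hncyc
      rw [pow_zero] at hn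
      haveI := (Nat.card_eq_one_iff_unique.1 hn).1
      infer_instance
    · exfalso; apply hncyc
      rw [pow_one] at hn
      exact isCyclic_of_prime_card hn
    · rfl
  rw [hn2] at hn
  have hcomm : ∀ a b : (P : Subgroup G), a * b = b * a :=
    (IsPGroup.isMulCommutative_of_card_eq_prime_sq hn).1.1
  have hexp : ∀ a : (P : Subgroup G), a ^ p = 1 := by
    intro a
    have h1 : orderOf a ∣ p ^ 2 := by rw [← hn]; exact orderOf_dvd_natCard a
    obtain ⟨j, hj, hj2⟩ := (Nat.dvd_prime_pow hpp).1 h1
    interval_cases j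
    · rw [pow_zero] at hj2
      rw [orderOf_eq_one_iff.1 hj2, one_pow]
    · rw [pow_one] at hj2
      exact orderOf_dvd_iff_pow_eq_one.1 (by rw [hj2])
    · exfalso; apply hncyc
      exact isCyclic_of_orderOf_eq_card a (by rw [hj2, ← hn])
  have hcard := H2.card_mulAut_elementary hcomm hexp hn
  have hcard' : Nat.card (MulAut (P : Subgroup G)) = (p ^ 2 - 1) * (p ^ 2 - p) := by
    rw [hcard]; simp [Fin.prod_univ_two]
  have hq : ∃ q : ℕ, q.Prime ∧ q ≠ p ∧ q ∣ Nat.card G ∧ q ∣ Nat.card (MulAut (P : Subgroup G)) := by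
    by_contra hcon
    push Not at hcon
    have := H2.sylow_normalizer_le_centralizer P ⟨⟨hcomm⟩⟩ hcon
    exact hno ⟨P, _, inferInstance, MonoidHom.ker_transferSylow_isComplement' P this⟩
  obtain ⟨q, hq, hqp, hqG, hqA⟩ := hq
  have hlt : p < q := lt_of_le_of_ne (Nat.minFac_le_of_dvd hq.two_le hqG) (Ne.symm hqp)
  have hp2 := hpp.two_le
  have hfac : (p ^ 2 - 1) * (p ^ 2 - p) = ((p + 1) * (p - 1)) * (p * (p - 1)) := by
    have e1 : p ^ 2 - 1 = (p + 1) * (p - 1) := by
      have := Nat.sq_sub_sq p 1
      simpa using this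
    have e2 : p ^ 2 - p = p * (p - 1) := by
      rw [sq, Nat.mul_sub, mul_one]
    rw [e1, e2]
  rw [hcard', hfac] at hqA
  have hqle : ∀ m, 0 < m → m < q → ¬ q ∣ m := fun m hm hmq hd =>
    absurd (Nat.le_of_dvd hm hd) (not_le_of_gt hmq)
  have hq3 : q ∣ p + 1 := by
    rcases (Nat.Prime.dvd_mul hq).1 hqA with h | h
    · rcases (Nat.Prime.dvd_mul hq).1 h with h | h
      · exact h
      · exact absurd h (hqle _ (by omega) (by omega))
    · rcases (Nat.Prime.dvd_mul hq).1 h with h | h
      · exact absurd h (hqle _ (by omega) (by omega))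
      · exact absurd h (hqle _ (by omega) (by omega))
  have hqe : q = p + 1 := by
    have := Nat.le_of_dvd (by omega) hq3
    omega
  have hp2' : p = 2 := by
    rcases hpp.eq_two_or_odd' with h | h
    · exact h
    · exfalso
      have h1 : Even q := by rw [hqe]; exact h.add_one
      have := (Nat.Prime.even_iff hq).1 h1
      omega
  have h12 : (12 : ℕ) = 2 ^ 2 * 3 := rfl
  rw [h12]
  apply Nat.Coprime.mul_dvd_of_dvd_of_dvd (by decide)
  · have h13 : p ^ 2 ∣ Nat.card G := by rw [← hn]; exact Subgroup.card_subgroup_dvd_card _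
    rwa [hp2'] at h13
  · have : q = 3 := by omega
    rw [← this]; exact hqG

end Cfsg.Agent.S0073
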