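import Cfsg.Statements.S0075
import Cfsg.Agent.H2.Conj

set_option autoImplicit false
set_option linter.style.haveILetI false
set_option linter.unusedVariables false
set_option linter.unusedSectionVars false
open Cfsg

namespace Cfsg.Agent.S0075

/-- For an abelian Sylow p-subgroup T, its intersection with the subgroup generated by the elements of order prime to p is the commutator of T with its normalizer. -/
theorem result {G : Type*} [Group G] [Finite G] {p : ℕ} [Fact p.Prime] (T : Sylow p G) (hT : IsMulCommutative T) : (T : Subgroup G) ⊓ Cfsg.pResidual p G = ⁅(T : Subgroup G), Subgroup.normalizer (T : Set G)⁆ := by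
  haveI := H2.pResidual_normal (G := G) (p := p)
  apply le_antisymm
  · rw [← H2.commutator_inf_sylow_eq_of_abelian T hT]
    exact le_inf (H2.sylow_inf_pResidual_le_commutator' T) inf_le_left
  · have h0 : ⁅(T : Subgroup G), Subgroup.normalizer (T : Set G)⁆ ≤ T := by
      rw [← H2.commutator_inf_sylow_eq_of_abelian T hT]; exact inf_le_right
    refine le_inf h0 ?_
    -- the subgroup of the normalizer centralizing `T` modulo `O^p(G)`
    set A := Cfsg.pResidual p G with hA
    set N := Subgroup.normalizer (T : Set G) with hN
    let C : Subgroup G := (Subgroup.centralizer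
      (((T : Subgroup G).map (QuotientGroup.mk' A) : Subgroup (G ⧸ A)) : Set (G ⧸ A))).comap
        (QuotientGroup.mk' A)
    have hTN : (T : Subgroup G) ≤ N := Subgroup.le_normalizer
    have hCT : (T : Subgroup G) ≤ C := by
      intro x hx
      show QuotientGroup.mk' A x ∈ Subgroup.centralizer _
      rw [Subgroup.mem_centralizer_iff]
      rintro _ ⟨y, hy, rfl⟩
      rw [← map_mul, ← map_mul]
      congr 1
      exact congrArg Subtype.val (hT.1.1 ⟨y, hy⟩ ⟨x, hx⟩)
    have hCA : A ≤ C := by
      intro x hx
      show QuotientGroup.mk' A x ∈ Subgroup.centralizer _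
      rw [QuotientGroup.mk'_apply, (QuotientGroup.eq_one_iff x).2 hx]
      exact one_mem _
    have hCN : N ≤ C := by
      have h1 : C.relIndex N = 1 := by
        have hp : p.Prime := Fact.out
        have h2 : C.relIndex N ∣ (T : Subgroup G).relIndex N := Subgroup.relIndex_dvd_of_le_left _ hCT
        have h3 : ¬ p ∣ C.relIndex N := fun hd => T.not_dvd_index
          ((hd.trans h2).trans (Subgroup.relIndex_dvd_index_of_le hTN))
        obtain ⟨k, hk⟩ := H2.index_pResidual (G := G) (p := p)
        have h4 : C.relIndex N ∣ p ^ k := by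
          rw [← hk]
          exact (Subgroup.relIndex_dvd_of_le_left _ hCA).trans
            (Subgroup.relIndex_dvd_index_of_normal A N)
        obtain ⟨j, _, hj⟩ := (Nat.dvd_prime_pow hp).1 h4
        rcases Nat.eq_zero_or_pos j with h5 | h5
        · rw [hj, h5, pow_zero]
        · exact absurd (hj ▸ dvd_pow_self p h5.ne') h3
      exact Subgroup.relIndex_eq_one.1 h1
    rw [Subgroup.commutator_le]
    intro t ht n hn
    have h5 := hCN hn
    have h6 : QuotientGroup.mk' A n ∈ Subgroup.centralizer
      (((T : Subgroup G).map (QuotientGroup.mk' A) : Subgroup (G ⧸ A)) : Set (G ⧸ A)) := h5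
    rw [Subgroup.mem_centralizer_iff] at h6
    have h7 := h6 _ ⟨t, ht, rfl⟩
    rw [← QuotientGroup.eq_one_iff]
    have h9 : QuotientGroup.mk' A (t * n * t⁻¹ * n⁻¹) = 1 := by
      simp only [map_mul, map_inv]
      rw [h7]; group
    exact h9

end Cfsg.Agent.S0075
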