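import Cfsg.Statements.S0076
import Cfsg.Agent.H2.Conj

set_option autoImplicit false
set_option linter.style.haveILetI false
set_option linter.unusedVariables false
set_option linter.unusedSectionVars false
open Cfsg

namespace Cfsg.Agent.S0076

/-- Two P-invariant subsets of a Sylow p-subgroup P that are conjugate in G are conjugate under the normalizer of P. -/
theorem result {G : Type*} [Group G] [Finite G] {p : ℕ} [Fact p.Prime] (P : Sylow p G) (X Y : Set G) (hXP : X ⊆ P) (hYP : Y ⊆ P) (hX : ∀ x ∈ P, (fun y => x * y * x⁻¹) '' X = X) (hY : ∀ x ∈ P, (fun y => x * y * x⁻¹) '' Y = Y) (g : G) (hg : (fun y => g * y * g⁻¹) '' X = Y) : ∃ n ∈ Subgroup.normalizer (P : Set G), (fun y => n * y * n⁻¹) '' X = Y := by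
  have conv : ∀ (S : Set G), (∀ x ∈ P, (fun y => x * y * x⁻¹) '' S = S) →
      (P : Subgroup G) ≤ Subgroup.normalizer S := by
    intro S hS x hx
    rw [Subgroup.mem_normalizer_iff_conj_image_eq]
    exact hS x hx
  obtain ⟨n, hn, c, hc, h1, h2⟩ :=
    H2.exists_normalizer_conj_of_normalizer_set P X Y (conv X hX) (conv Y hY) g hg
  exact ⟨n, hn, h2⟩

end Cfsg.Agent.S0076
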