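import Cfsg.Statements.S0077
import Cfsg.Agent.H2.Conj

set_option autoImplicit false
set_option linter.style.haveILetI false
set_option linter.unusedVariables false
set_option linter.unusedSectionVars false
open Cfsg

namespace Cfsg.Agent.S0077

/-- If a subgroup Z of the centre of a Sylow p-subgroup P is weakly closed in P, then P meets the derived subgroup of G exactly where it meets the derived subgroup of the normalizer of Z. -/
theorem result {G : Type*} [Group G] [Finite G] {p : ℕ} [Fact p.Prime] (P : Sylow p G) (Z : Subgroup G) (hZ : Z ≤ Subgroup.centralizer (P : Set G)) (hW : Cfsg.IsWeaklyClosed Z P) : commutator G ⊓ (P : Subgroup G) = ⁅Subgroup.normalizer (Z : Set G), Subgroup.normalizer (Z : Set G)⁆ ⊓ (P : Subgroup G) := by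
  apply H2.commutator_inf_sylow_eq_of_control P _ (H2.controlsFusion_of_weaklyClosed P hZ hW)
  intro x hx
  rw [Subgroup.mem_normalizer_iff]
  have key : ∀ w ∈ Z, x * w * x⁻¹ = w := by
    intro w hw
    rw [(Subgroup.mem_centralizer_iff.1 (hZ hw)) x hx, mul_inv_cancel_right]
  intro z
  constructor
  · intro hz; rw [key z hz]; exact hz
  · intro hz
    have h1 := key _ hz
    have h2 : x * z * x⁻¹ = z := by
      have h3 : x * (x * z * x⁻¹) * x⁻¹ = x * z * x⁻¹ := h1
      have h4 : x * z * x⁻¹ = z := by
        have := congrArg (fun t => x⁻¹ * t * x) h3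
        simpa [mul_assoc] using this
      exact h4
    rwa [h2] at hz

end Cfsg.Agent.S0077
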