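import Cfsg.Statements.S0078
import Cfsg.Agent.H2.Conj

set_option autoImplicit false
set_option linter.style.haveILetI false
set_option linter.unusedVariables false
set_option linter.unusedSectionVars false
open Cfsg

namespace Cfsg.Agent.S0078

/-- In a p-normal group, a Sylow p-subgroup P meets O^p(G) exactly where it meets O^p(V), for any subgroup V containing the normalizer of the centre of P. -/
theorem result {G : Type*} [Group G] [Finite G] {p : ℕ} [Fact p.Prime] (P : Sylow p G) (hn : ∀ Q : Sylow p G, (P : Subgroup G) ⊓ Subgroup.centralizer (P : Set G) ≤ (Q : Subgroup G) → (Q : Subgroup G) ⊓ Subgroup.centralizer (Q : Set G) = (P : Subgroup G) ⊓ Subgroup.centralizer (P : Set G)) (V : Subgroup G) (hV : Subgroup.normalizer (((P : Subgroup G) ⊓ Subgroup.centralizer (P : Set G) : Subgroup G) : Set G) ≤ V) : (P : Subgroup G) ⊓ Cfsg.pResidual p G = (P : Subgroup G) ⊓ (Cfsg.pResidual p V).map V.subtype := by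
  set Z : Subgroup G := (P : Subgroup G) ⊓ Subgroup.centralizer (P : Set G) with hZdef
  have hZ : Z ≤ Subgroup.centralizer (P : Set G) := inf_le_right
  have hmapZ : ∀ g : G, Z.map (MulAut.conj g).toMonoidHom =
      ((g • P : Sylow p G) : Subgroup G) ⊓ Subgroup.centralizer ((g • P : Sylow p G) : Set G) := by
    intro g
    ext x
    rw [H2.mem_map_conj, hZdef, Subgroup.mem_inf, Subgroup.mem_inf, H2.coe_smul_sylow,
      H2.mem_map_conj, Subgroup.mem_centralizer_iff, Subgroup.mem_centralizer_iff]
    refine and_congr_right fun hx => ⟨fun h y hy => ?_, fun h y hy => ?_⟩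
    · have hy' : g⁻¹ * y * g ∈ (P : Subgroup G) := by
        have : y ∈ (P : Subgroup G).map (MulAut.conj g).toMonoidHom := hy
        rwa [H2.mem_map_conj] at this
      have h1 := h _ hy'
      have h2 := congrArg (fun t => g * t * g⁻¹) h1
      beta_reduce at h2
      calc y * x = g * (g⁻¹ * y * g * (g⁻¹ * x * g)) * g⁻¹ := by group
        _ = _ := h2
        _ = x * y := by group
    · have hy' : g * y * g⁻¹ ∈ ((g • P : Sylow p G) : Set G) := by
        show g * y * g⁻¹ ∈ (P : Subgroup G).map (MulAut.conj g).toMonoidHom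
        rw [H2.mem_map_conj]
        have : g⁻¹ * (g * y * g⁻¹) * g = y := by group
        rw [this]; exact hy
      have h1 := h _ hy'
      have h2 := congrArg (fun t => g⁻¹ * t * g) h1
      beta_reduce at h2
      calc y * (g⁻¹ * x * g) = g⁻¹ * (g * y * g⁻¹ * x) * g := by group
        _ = _ := h2
        _ = g⁻¹ * x * g * y := by group
  have hW : Cfsg.IsWeaklyClosed Z P := by
    refine ⟨inf_le_left, fun g hg => ?_⟩
    have h1 : Z ≤ ((g⁻¹ • P : Sylow p G) : Subgroup G) := by
      rw [H2.coe_smul_sylow]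
      exact (H2.map_conj_le_iff g).1 hg
    have h2 := hn (g⁻¹ • P) h1
    rw [← hmapZ] at h2
    rw [H2.map_conj_eq_iff_inv, h2]
  have hPN : (P : Subgroup G) ≤ Subgroup.normalizer (Z : Set G) := by
    intro x hx
    rw [← H2.map_conj_eq_self_iff]
    ext z
    rw [H2.mem_map_conj]
    have key : ∀ y ∈ (P : Subgroup G), ∀ w ∈ Z, y⁻¹ * w * y = w := by
      intro y hy w hw
      have h1 := (Subgroup.mem_centralizer_iff.1 (hZ hw)) y hy
      rw [mul_assoc, ← h1, inv_mul_cancel_left]
    constructor
    · intro hz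
      have h1 := key _ (inv_mem hx) _ hz
      have h2 : z = x⁻¹ * z * x := by
        calc z = x⁻¹⁻¹ * (x⁻¹ * z * x) * x⁻¹ := by group
          _ = _ := h1
      rw [h2]; exact hz
    · intro hz; rw [key x hx z hz]; exact hz
  have hmain := H2.inf_pResidual_eq_of_control P hPN (H2.controlsFusion_of_weaklyClosed P hZ hW)
  apply le_antisymm
  · intro x hx
    refine Subgroup.mem_inf.2 ⟨hx.1, ?_⟩
    have h1 : x ∈ Subgroup.normalizer (Z : Set G) ⊓ Cfsg.pResidual p G :=
      Subgroup.mem_inf.2 ⟨hPN hx.1, hx.2⟩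
    rw [hmain] at h1
    obtain ⟨y, hy, hyx⟩ := h1
    have h2 := H2.map_pResidual_le (Subgroup.inclusion hV) ⟨y, hy, rfl⟩
    exact ⟨_, h2, hyx⟩
  · refine le_inf inf_le_left (inf_le_right.trans (H2.map_subtype_pResidual_le V))

end Cfsg.Agent.S0078
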