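import Cfsg.Statements.S0082
import Cfsg.Agent.H2.Hall
import Cfsg.Agent.H2.Cyc
import Cfsg.Agent.S0075

set_option autoImplicit false
set_option linter.style.haveILetI false
set_option linter.unusedVariables false
set_option linter.unusedSectionVars false
open Cfsg

namespace Cfsg.Agent.S0082

/-- With a cyclic Sylow p-subgroup, either there is a normal p-complement or the elements of order prime to p generate the whole group. -/
theorem result {G : Type*} [Group G] [Finite G] {p : ℕ} [Fact p.Prime] (P : Sylow p G) (hP : IsCyclic P) : Cfsg.HasNormalPComplement p G ∨ Cfsg.pResidual p G = ⊤ := by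
  haveI := hP
  have hPc : IsMulCommutative P := inferInstance
  obtain ⟨h1, h2⟩ := H2.sylow_abelian_decomp P hPc
  have hinf := S0075.result P hPc
  set C := (P : Subgroup G) ⊓ Subgroup.centralizer
    ((Subgroup.normalizer (P : Set G) : Subgroup G) : Set G) with hC
  set D := ⁅(P : Subgroup G), Subgroup.normalizer (P : Set G)⁆ with hD
  have hp : p.Prime := Fact.out
  have hDP : D ≤ P := by rw [← hinf]; exact inf_le_left
  have hCP : C ≤ P := inf_le_left
  -- in a cyclic `p`-group two subgroups with trivial intersection: one is trivial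
  have hone : D = ⊥ ∨ C = ⊥ := by
    by_contra hcon
    push Not at hcon
    obtain ⟨hD1, hC1⟩ := hcon
    have hdv : ∀ E : Subgroup G, E ≤ P → E ≠ ⊥ → ∃ x ∈ E, orderOf x = p := by
      intro E hE hE1
      apply H2.exists_mem_orderOf_eq_prime
      rcases (P.2.to_le hE).card_eq_or_dvd with h | h
      · exact absurd (Subgroup.card_eq_one.1 h) hE1
      · exact h
    obtain ⟨x, hx, hxo⟩ := hdv D hDP hD1
    obtain ⟨y, hy, hyo⟩ := hdv C hCP hC1
    have hz : Subgroup.zpowers (⟨x, hDP hx⟩ : P) = Subgroup.zpowers (⟨y, hCP hy⟩ : P) := by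
      apply H2.zpowers_eq_of_orderOf_eq
      rw [Subgroup.orderOf_mk, Subgroup.orderOf_mk, hxo, hyo]
    have hx2 : (⟨x, hDP hx⟩ : P) ∈ Subgroup.zpowers (⟨y, hCP hy⟩ : P) := by
      rw [← hz]; exact Subgroup.mem_zpowers _
    obtain ⟨k, hk⟩ := hx2
    have hk' : y ^ k = x := congrArg Subtype.val hk
    have : x ∈ D ⊓ C := Subgroup.mem_inf.2 ⟨hx, by rw [← hk']; exact zpow_mem hy k⟩
    rw [h2, Subgroup.mem_bot] at this
    rw [this, orderOf_one] at hxo
    exact hp.one_lt.ne hxo
  rcases hone with h | h
  · left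
    rw [H2.hasNormalPComplement_iff_inf_pResidual P, hinf, h]
  · right
    rw [h, sup_bot_eq] at h1
    rw [eq_top_iff]
    intro g _
    apply H2.le_of_relIndex_of_residual (p := p) (N := ⊤) (C := Cfsg.pResidual p G)
      (R := (P : Subgroup G)) _ _ _ (Subgroup.mem_top g)
    · rw [← h1, ← hinf]; exact inf_le_right
    · rw [Subgroup.relIndex_top_right]; exact P.not_dvd_index
    · intro g _ hg
      exact H2.mem_pResidual_of_coprime hg

end Cfsg.Agent.S0082
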