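import Cfsg.Statements.S0083
import Cfsg.Agent.H2.Conj

set_option autoImplicit false
set_option linter.style.haveILetI false
set_option linter.unusedVariables false
set_option linter.unusedSectionVars false
open Cfsg

namespace Cfsg.Agent.S0083

/-- For an abelian Sylow p-subgroup P, a normal p-complement exists exactly when the normalizer of P is an internal direct product of P with some subgroup. -/
theorem result {G : Type*} [Group G] [Finite G] {p : ℕ} [Fact p.Prime] (P : Sylow p G) (hP : IsMulCommutative P) : Cfsg.HasNormalPComplement p G ↔ ∃ Q : Subgroup G, Q ≤ Subgroup.centralizer (P : Set G) ∧ Q ⊓ (P : Subgroup G) = ⊥ ∧ Q ⊔ (P : Subgroup G) = Subgroup.normalizer (P : Set G) := by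
  constructor
  · intro h
    have hPN : (P : Subgroup G) ≤ Subgroup.normalizer (P : Set G) := Subgroup.le_normalizer
    have h1 : Cfsg.HasNormalPComplement p (Subgroup.normalizer (P : Set G)) :=
      H2.HasNormalPComplement.subgroup h _
    obtain ⟨Q, hQ⟩ := H2.exists_sylow_of_le P _ hPN
    obtain ⟨N, hN, hc⟩ := (H2.hasNormalPComplement_iff_sylow Q).1 h1
    haveI := hN
    haveI hQn : (Q : Subgroup (Subgroup.normalizer (P : Set G))).Normal := by
      rw [hQ]; exact Subgroup.normal_in_normalizer
    refine ⟨N.map (Subgroup.normalizer (P : Set G)).subtype, ?_, ?_, ?_⟩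
    · rintro _ ⟨n, hn, rfl⟩
      rw [Subgroup.mem_centralizer_iff]
      intro x hx
      have hx' : (⟨x, hPN hx⟩ : Subgroup.normalizer (P : Set G)) ∈ (Q : Subgroup (Subgroup.normalizer (P : Set G))) := by
        rw [hQ, Subgroup.mem_subgroupOf]; exact hx
      have := Subgroup.commute_of_normal_of_disjoint _ _ hQn hN hc.disjoint.symm _ _ hx' hn
      exact congrArg Subtype.val this
    · rw [eq_bot_iff]
      rintro _ ⟨⟨n, hn, rfl⟩, hx⟩
      have h2 : n ∈ N ⊓ (Q : Subgroup (Subgroup.normalizer (P : Set G))) := by
        refine Subgroup.mem_inf.2 ⟨hn, ?_⟩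
        rw [hQ, Subgroup.mem_subgroupOf]; exact hx
      rw [hc.disjoint.eq_bot, Subgroup.mem_bot] at h2
      rw [h2]; simp
    · have h3 : (Q : Subgroup (Subgroup.normalizer (P : Set G))).map (Subgroup.normalizer (P : Set G)).subtype = P := by
        rw [hQ, Subgroup.subgroupOf_map_subtype, inf_eq_left]; exact hPN
      calc N.map (Subgroup.normalizer (P : Set G)).subtype ⊔ (P : Subgroup G)
          = N.map (Subgroup.normalizer (P : Set G)).subtype ⊔
            (Q : Subgroup (Subgroup.normalizer (P : Set G))).map (Subgroup.normalizer (P : Set G)).subtype := by rw [h3]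
        _ = (N ⊔ (Q : Subgroup (Subgroup.normalizer (P : Set G)))).map (Subgroup.normalizer (P : Set G)).subtype :=
            (Subgroup.map_sup _ _ _).symm
        _ = _ := by rw [hc.sup_eq_top, ← MonoidHom.range_eq_map, Subgroup.range_subtype]
  · rintro ⟨Q, h1, h2, h3⟩
    have hP' : (P : Subgroup G) ≤ Subgroup.centralizer (P : Set G) := by
      intro x hx
      rw [Subgroup.mem_centralizer_iff]
      intro y hy
      exact congrArg Subtype.val (hP.1.1 ⟨y, hy⟩ ⟨x, hx⟩)
    have h4 : Subgroup.normalizer (P : Set G) ≤ Subgroup.centralizer (P : Set G) := by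
      rw [← h3]; exact sup_le h1 hP'
    exact ⟨P, _, inferInstance, MonoidHom.ker_transferSylow_isComplement' P h4⟩

end Cfsg.Agent.S0083
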