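import Cfsg.Statements.S0084
import Cfsg.Agent.H2.Conj
import Cfsg.Agent.H2.AutElem

set_option autoImplicit false
set_option linter.style.haveILetI false
set_option linter.unusedVariables false
set_option linter.unusedSectionVars false
open Cfsg

namespace Cfsg.Agent.S0084

/-- A group whose Sylow 2-subgroups are Klein four-groups and whose order is prime to 3 has a normal 2-complement. -/
theorem result {G : Type*} [Group G] [Finite G] (T : Sylow 2 G) (hT : IsKleinFour T) (h3 : ¬ 3 ∣ Nat.card G) : Cfsg.HasNormalPComplement 2 G := by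
  have h4 : Nat.card (T : Subgroup G) = 2 ^ 2 := by rw [hT.card_four]; rfl
  have hsq : ∀ a : (T : Subgroup G), a ^ 2 = 1 := fun a => by rw [sq]; exact IsKleinFour.mul_self a
  have hc : ∀ a b : (T : Subgroup G), a * b = b * a := by
    haveI := IsPGroup.isMulCommutative_of_card_eq_prime_sq (p := 2) h4
    intro a b
    exact mul_comm' a b
  have hcard := H2.card_mulAut_elementary hc hsq h4
  have h6 : Nat.card (MulAut (T : Subgroup G)) = 6 := by
    rw [hcard]; decide
  have h7 := H2.sylow_normalizer_le_centralizer T ⟨⟨hc⟩⟩ (by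
    intro q hq hq2 hqG hd
    rw [h6] at hd
    have h8 : q ∣ 3 := by
      have : (6 : ℕ) = 2 * 3 := rfl
      rw [this] at hd
      rcases (Nat.Prime.dvd_mul hq).1 hd with h9 | h9
      · exact absurd ((Nat.prime_dvd_prime_iff_eq hq Nat.prime_two).1 h9) hq2
      · exact h9
    rw [(Nat.prime_dvd_prime_iff_eq hq Nat.prime_three).1 h8] at hqG
    exact h3 hqG)
  exact ⟨T, _, inferInstance, MonoidHom.ker_transferSylow_isComplement' T h7⟩

end Cfsg.Agent.S0084
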