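import Cfsg.Statements.S0085
import Cfsg.Agent.H2.Conj
import Cfsg.Agent.H2.AutElem

set_option autoImplicit false
set_option linter.style.haveILetI false
set_option linter.unusedVariables false
set_option linter.unusedSectionVars false
open Cfsg

namespace Cfsg.Agent.S0085

/-- A group whose Sylow 2-subgroups are elementary abelian of order 8 and whose order is prime to 3 and to 7 has a normal 2-complement. -/
theorem result {G : Type*} [Group G] [Finite G] (T : Sylow 2 G) (h8 : Nat.card T = 8) (he : ∀ x : T, x * x = 1) (h3 : ¬ 3 ∣ Nat.card G) (h7 : ¬ 7 ∣ Nat.card G) : Cfsg.HasNormalPComplement 2 G := by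
  have h8' : Nat.card (T : Subgroup G) = 2 ^ 3 := by rw [h8]; rfl
  have hsq : ∀ a : (T : Subgroup G), a ^ 2 = 1 := fun a => by rw [sq]; exact he a
  have hc : ∀ a b : (T : Subgroup G), a * b = b * a := by
    intro a b
    have h1 := he (a * b)
    have ha : a⁻¹ = a := inv_eq_of_mul_eq_one_left (he a)
    have hb : b⁻¹ = b := inv_eq_of_mul_eq_one_left (he b)
    have h2 : a * b = (a * b)⁻¹ := (inv_eq_of_mul_eq_one_left h1).symm
    rw [h2, mul_inv_rev, ha, hb]
  have hcard := H2.card_mulAut_elementary hc hsq h8'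
  have h6 : Nat.card (MulAut (T : Subgroup G)) = 168 := by
    rw [hcard]; decide
  have h9 := H2.sylow_normalizer_le_centralizer T ⟨⟨hc⟩⟩ (by
    intro q hq hq2 hqG hd
    rw [h6] at hd
    have e : (168 : ℕ) = 2 ^ 3 * (3 * 7) := rfl
    rw [e] at hd
    rcases (Nat.Prime.dvd_mul hq).1 hd with h9 | h9
    · exact absurd ((Nat.prime_dvd_prime_iff_eq hq Nat.prime_two).1 (hq.dvd_of_dvd_pow h9)) hq2
    · rcases (Nat.Prime.dvd_mul hq).1 h9 with h9 | h9
      · rw [(Nat.prime_dvd_prime_iff_eq hq Nat.prime_three).1 h9] at hqG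
        exact h3 hqG
      · rw [(Nat.prime_dvd_prime_iff_eq hq (by norm_num)).1 h9] at hqG
        exact h7 hqG)
  exact ⟨T, _, inferInstance, MonoidHom.ker_transferSylow_isComplement' T h9⟩

end Cfsg.Agent.S0085
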