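import Cfsg.Statements.S0087
import Cfsg.Agent.H2.Hall
import Cfsg.Agent.H2.AbHall

set_option autoImplicit false
set_option linter.style.haveILetI false
set_option linter.unusedVariables false
set_option linter.unusedSectionVars false
open Cfsg

namespace Cfsg.Agent.S0087

/-- A Hall subgroup that is central in its normalizer has a normal complement. -/
theorem result {G : Type*} [Group G] [Finite G] (H : Subgroup G) (hHall : Nat.Coprime (Nat.card H) H.index) (h : Subgroup.normalizer (H : Set G) ≤ Subgroup.centralizer (H : Set G)) : ∃ N : Subgroup G, N.Normal ∧ N.IsComplement' H := by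
  have hab : ∀ x ∈ H, ∀ y ∈ H, x * y = y * x := by
    intro x hx y hy
    have := (Subgroup.mem_centralizer_iff.1 (h (Subgroup.le_normalizer hy))) x hx
    exact this
  apply H2.exists_normal_complement_of_hall H hHall
  intro p hp hpH
  haveI : Fact p.Prime := ⟨hp⟩
  obtain ⟨Q⟩ := (inferInstance : Nonempty (Sylow p H))
  have hQi : ¬ p ∣ ((Q : Subgroup H).map H.subtype).index := by
    rw [Subgroup.index_map_subtype]
    intro hd
    rcases (Nat.Prime.dvd_mul hp).1 hd with h1 | h1
    · exact Q.not_dvd_index h1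
    · exact hp.one_lt.ne' (Nat.dvd_one.1 (hHall.gcd_eq_one ▸ Nat.dvd_gcd hpH h1))
  obtain ⟨P, hP⟩ := H2.exists_sylow_eq_of_isPGroup_of_not_dvd_index (Q.2.map H.subtype) hQi
  have hPH : (P : Subgroup G) ≤ H := by
    rw [hP]; rintro _ ⟨y, _, rfl⟩; exact y.2
  have hHC : H ≤ Subgroup.centralizer (P : Set G) := by
    intro x hx
    rw [Subgroup.mem_centralizer_iff]
    intro y hy
    exact hab y (hPH hy) x hx
  have hNC : Subgroup.normalizer (P : Set G) ≤ Subgroup.centralizer (P : Set G) := by
    intro n hn
    have h1 : H.map (MulAut.conj n).toMonoidHom ≤ Subgroup.centralizer (P : Set G) := by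
      rintro _ ⟨x, hx, rfl⟩
      rw [Subgroup.mem_centralizer_iff]
      intro y hy
      have h2 : n⁻¹ * y * n ∈ (P : Subgroup G) := by
        have := ((Subgroup.mem_set_normalizer_iff.1 (inv_mem hn)) y).1 hy
        rw [inv_inv] at this
        exact this
      have h3 := (Subgroup.mem_centralizer_iff.1 (hHC hx)) _ h2
      show y * (n * x * n⁻¹) = n * x * n⁻¹ * y
      calc y * (n * x * n⁻¹) = n * ((n⁻¹ * y * n) * x) * n⁻¹ := by group
        _ = n * (x * (n⁻¹ * y * n)) * n⁻¹ := by rw [h3]
        _ = _ := by group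
    obtain ⟨c, hc, hc2⟩ := H2.exists_conj_of_abelian_hall _ (Subgroup.centralizer (P : Set G)) H
      (H.map (MulAut.conj n).toMonoidHom) rfl hHC h1 hab (by
        rintro _ ⟨u, hu, rfl⟩ _ ⟨v, hv, rfl⟩
        rw [← map_mul, ← map_mul, hab u hu v hv]) (H2.card_map_conj H n).symm
      (Nat.Coprime.coprime_dvd_right (Subgroup.relIndex_dvd_index_of_le hHC) hHall)
    rw [← H2.map_conj_mul, H2.map_conj_eq_self_iff] at hc2
    have h4 : c * n ∈ Subgroup.centralizer (P : Set G) := Subgroup.centralizer_le
      (by exact hPH) (h hc2)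
    have := mul_mem (inv_mem hc) h4
    rwa [inv_mul_cancel_left] at this
  exact ⟨P, _, inferInstance, MonoidHom.ker_transferSylow_isComplement' P hNC⟩

end Cfsg.Agent.S0087
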