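import Cfsg.Statements.S0090
import Cfsg.Agent.S0088
import Cfsg.Agent.H2.CoprimeAb

set_option autoImplicit false
set_option linter.style.haveILetI false
set_option linter.unusedVariables false
set_option linter.unusedSectionVars false
open Cfsg

namespace Cfsg.Agent.S0090

/-- An abelian normal Hall subgroup A splits as the internal direct product of G' ∩ A and Z(G) ∩ A, and [A, G] = G' ∩ A. -/
theorem result {G : Type*} [Group G] [Finite G] (A : Subgroup G) [A.Normal] (hc : IsMulCommutative A) (hHall : Nat.Coprime (Nat.card A) A.index) : ⁅A, (⊤ : Subgroup G)⁆ = commutator G ⊓ A ∧ (commutator G ⊓ A) ⊓ (Subgroup.center G ⊓ A) = ⊥ ∧ (commutator G ⊓ A) ⊔ (Subgroup.center G ⊓ A) = A := by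
  obtain ⟨h1, h2⟩ := H2.normal_abelian_hall_decomp A hc hHall
  have h3 : (commutator G ⊓ A) ⊓ (Subgroup.center G ⊓ A) = ⊥ := by
    rw [eq_bot_iff, ← S0088.result A hc hHall]
    rintro x ⟨⟨ha, hb⟩, hc, hd⟩
    exact ⟨⟨hb, ha⟩, hc⟩
  have h4 : ⁅A, (⊤ : Subgroup G)⁆ ≤ commutator G ⊓ A :=
    le_inf (Subgroup.commutator_mono le_top le_top) (le_sup_left.trans h1.le)
  have h5 : ⁅A, (⊤ : Subgroup G)⁆ = commutator G ⊓ A := by
    apply le_antisymm h4
    intro x hx
    have hxA : x ∈ ⁅A, (⊤ : Subgroup G)⁆ ⊔ (A ⊓ Subgroup.center G) := by rw [h1]; exact hx.2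
    haveI : (⁅A, (⊤ : Subgroup G)⁆).Normal := inferInstance
    rw [← SetLike.mem_coe, Subgroup.normal_mul] at hxA
    obtain ⟨a, ha, c, hc', rfl⟩ := hxA
    have ha' : a ∈ commutator G ⊓ A := h4 ha
    have hcc : c ∈ (commutator G ⊓ A) ⊓ (Subgroup.center G ⊓ A) := by
      have h6 : c ∈ commutator G ⊓ A := by
        have := mul_mem (inv_mem ha') hx
        rwa [inv_mul_cancel_left] at this
      exact Subgroup.mem_inf.2 ⟨h6, Subgroup.mem_inf.2 ⟨hc'.2, hc'.1⟩⟩
    rw [h3, Subgroup.mem_bot] at hcc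
    show a * c ∈ _
    rw [hcc, mul_one]; exact ha
  refine ⟨h5, h3, ?_⟩
  rw [← h5, inf_comm (Subgroup.center G) A]
  exact h1

end Cfsg.Agent.S0090
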