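import Cfsg.Statements.S0091
import Cfsg.Agent.H2.Conj

set_option autoImplicit false
set_option linter.style.haveILetI false
set_option linter.unusedVariables false
set_option linter.unusedSectionVars false
open Cfsg

namespace Cfsg.Agent.S0091

/-- If a nontrivial Sylow p-subgroup controls its own fusion then it is not contained in the derived subgroup. -/
theorem result {G : Type*} [Group G] [Finite G] {p : ℕ} [Fact p.Prime] (P : Sylow p G) (hp : p ∣ Nat.card G) (h : ∀ x ∈ P, ∀ y ∈ P, (∃ g : G, g * x * g⁻¹ = y) → ∃ z ∈ P, z * x * z⁻¹ = y) : ¬ (P : Subgroup G) ≤ commutator G := by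
  intro hle
  have hc : H2.ControlsFusion (P : Subgroup G) (P : Subgroup G) := by
    intro x hx u hu
    obtain ⟨z, hz, hz2⟩ := h x hx _ hu ⟨u, rfl⟩
    exact ⟨z, hz, hz2⟩
  have h1 := H2.focalSubgroup_le_of_control hc
  rw [← Subgroup.commutator_inf_eq_focalSubgroup, inf_eq_right.2 hle] at h1
  exact P.ne_bot_of_dvd_card hp (H2.eq_bot_of_le_commutator_of_isPGroup P.2 le_rfl h1)

end Cfsg.Agent.S0091
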