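import Cfsg.Statements.S0092
import Mathlib
import Cfsg.Agent.H2.Hall
import Cfsg.Agent.H2.Fusion
import Cfsg.Agent.H1.Hall
import Cfsg.Agent.H1.Coprime

set_option autoImplicit false
set_option linter.all false
open Cfsg

namespace Cfsg.Agent.S0092

open scoped Pointwise commutatorElement

/-- If the Sylow p-subgroups of O^p(G) are abelian then G splits over O^p(G). -/
theorem result {G : Type*} [Group G] [Finite G] {p : ℕ} [Fact p.Prime] (h : ∀ Q : Sylow p (Cfsg.pResidual p G), IsMulCommutative Q) : ∃ K : Subgroup G, K.IsComplement' (Cfsg.pResidual p G) := by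
  classical
  haveI hKn : (Cfsg.pResidual p G).Normal := Cfsg.Agent.H2.pResidual_normal
  obtain ⟨k, hk⟩ := Cfsg.Agent.H2.index_pResidual (G := G) (p := p)
  have hfact : ∀ Q : Sylow p (Cfsg.pResidual p G), (Q : Subgroup (Cfsg.pResidual p G)) ⊓
      Subgroup.centralizer ((Subgroup.normalizer ((Q : Subgroup (Cfsg.pResidual p G)) : Set (Cfsg.pResidual p G)) :
        Subgroup (Cfsg.pResidual p G)) : Set (Cfsg.pResidual p G)) = ⊥ := by
    intro Q
    have h1 := Cfsg.Agent.H2.sylow_abelian_decomp Q (h Q)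
    have h2 := Cfsg.Agent.H2.commutator_inf_sylow_eq_of_abelian Q (h Q)
    have h3 := Cfsg.Agent.H2.sylow_le_commutator_of_pResidual_eq_top
      (Cfsg.Agent.H2.pResidual_pResidual (G := G) (p := p)) Q
    rw [inf_eq_right.2 h3] at h2
    rw [← h2] at h1
    rw [eq_bot_iff]
    intro x hx
    rw [← h1.2]
    exact Subgroup.mem_inf.2 ⟨(Subgroup.mem_inf.1 hx).1, hx⟩
  obtain ⟨Q⟩ : Nonempty (Sylow p (Cfsg.pResidual p G)) := inferInstance
  have hQc := h Q
  have hQ := hfact Q
  have hsup := Q.normalizer_sup_eq_top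
  clear h hfact
  generalize hK : Cfsg.pResidual p G = K at *
  set Q' : Subgroup G := (Q : Subgroup K).map K.subtype with hQ'
  set N := Subgroup.normalizer (Q' : Set G) with hN
  have hQ'K : Q' ≤ K := Subgroup.map_subtype_le _
  have hQ'c : ∀ a ∈ Q', ∀ b ∈ Q', a * b = b * a := by
    rintro _ ⟨a, ha, rfl⟩ _ ⟨b, hb, rfl⟩
    have := congrArg Subtype.val (hQc.is_comm.comm ⟨a, ha⟩ ⟨b, hb⟩)
    exact congrArg Subtype.val this
  have hQ'p : IsPGroup p Q' := Q.isPGroup'.map _
  have hnorm : (Subgroup.normalizer ((Q : Subgroup K) : Set K)).map K.subtype ≤ N :=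
    Subgroup.le_normalizer_map _
  have hQcent : ∀ q ∈ Q', (∀ n ∈ N ⊓ K, q * n = n * q) → q = 1 := by
    rintro _ ⟨a, ha, rfl⟩ hq
    have : a ∈ (Q : Subgroup K) ⊓
      Subgroup.centralizer ((Subgroup.normalizer ((Q : Subgroup K) : Set K) : Subgroup K) : Set K) := by
      refine Subgroup.mem_inf.2 ⟨ha, ?_⟩
      rw [Subgroup.mem_centralizer_iff]
      intro n hn
      exact (Subtype.ext (hq (n : G) (Subgroup.mem_inf.2 ⟨hnorm ⟨n, hn, rfl⟩, n.2⟩))).symm
    rw [hQ, Subgroup.mem_bot] at this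
    rw [this]; rfl
  have hpQ : ∀ R : Subgroup G, IsPGroup p R → R ≤ N ⊓ K → R ≤ Q' := by
    intro R hR hRN r hr
    have h1 : R.subgroupOf K ≤ Subgroup.normalizer ((Q : Subgroup K) : Set K) := by
      intro y hy
      have h2 : (y : G) ∈ N := (Subgroup.mem_inf.1 (hRN hy)).1
      have h3 : ∀ z : K, z ∈ (Q : Subgroup K) ↔ (z : G) ∈ Q' := by
        intro z
        constructor
        · intro hz; exact ⟨z, hz, rfl⟩
        · rintro ⟨w, hw, hwz⟩
          rwa [← (Subtype.ext hwz : w = z)]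
      rw [Subgroup.mem_normalizer_iff]
      intro z
      rw [h3, h3]
      exact Subgroup.mem_normalizer_iff.1 h2 z
    have h4 : (R.subgroupOf K) ≤ (Q : Subgroup K) := by
      have h5 := IsPGroup.inf_normalizer_sylow (P := R.subgroupOf K)
        (hR.comap_of_injective K.subtype K.subtype_injective) Q
      have h6 : R.subgroupOf K ⊓ Subgroup.normalizer ((Q : Subgroup K) : Set K) =
        R.subgroupOf K ⊓ (Q : Subgroup K) := h5
      rw [inf_eq_left.2 h1] at h6
      rw [h6]; exact inf_le_right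
    exact ⟨⟨r, (Subgroup.mem_inf.1 (hRN hr)).2⟩, h4 hr, rfl⟩
  obtain ⟨H, hHQ, hHsup, hHcop⟩ : ∃ H : Subgroup G, H ⊓ Q' = ⊥ ∧ Q' ⊔ H = N ⊓ K ∧ (Nat.card Q').Coprime (Nat.card H) := by
    have hQN : Q' ≤ N ⊓ K := le_inf Subgroup.le_normalizer hQ'K
    haveI h1 : (Q'.subgroupOf (N ⊓ K)).Normal := by
      rw [← Subgroup.normalizer_eq_top_iff, eq_top_iff]
      intro y _
      rw [Subgroup.mem_normalizer_iff]
      intro z
      exact Subgroup.mem_normalizer_iff.1 (Subgroup.mem_inf.1 y.2).1 z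
    have h2 : (Nat.card (Q'.subgroupOf (N ⊓ K))).Coprime (Q'.subgroupOf (N ⊓ K)).index := by
      rw [Nat.card_congr (Subgroup.subgroupOfEquivOfLe hQN).toEquiv]
      obtain ⟨j, hj⟩ := IsPGroup.iff_card.1 hQ'p
      rw [hj]
      apply Nat.Coprime.pow_left
      rw [Nat.Prime.coprime_iff_not_dvd Fact.out]
      intro h3
      apply Q.not_dvd_index
      refine h3.trans ?_
      have h4 : (Q'.subgroupOf (N ⊓ K)).index ∣ (Q'.subgroupOf K).index :=
        Dvd.intro _ (Subgroup.relIndex_mul_relIndex Q' (N ⊓ K) K hQN inf_le_right)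
      have h5 : Q'.subgroupOf K = (Q : Subgroup K) := by
        rw [hQ', Subgroup.subgroupOf, Subgroup.comap_map_eq_self_of_injective K.subtype_injective]
      rwa [h5] at h4
    obtain ⟨H, hH⟩ := Subgroup.exists_right_complement'_of_coprime h2
    refine ⟨H.map (N ⊓ K).subtype, ?_, ?_, ?_⟩
    · have h3 := hH.disjoint.eq_bot
      have h4 := congrArg (Subgroup.map (N ⊓ K).subtype) h3
      rw [Subgroup.map_inf_eq _ _ _ (N ⊓ K).subtype_injective, Subgroup.subgroupOf_map_subtype,
        Subgroup.map_bot, inf_eq_left.2 hQN] at h4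
      rw [inf_comm]; exact h4
    · have h3 := hH.sup_eq_top
      have h4 := congrArg (Subgroup.map (N ⊓ K).subtype) h3
      rw [Subgroup.map_sup, Subgroup.subgroupOf_map_subtype, inf_eq_left.2 hQN,
        ← MonoidHom.range_eq_map, Subgroup.range_subtype] at h4
      exact h4
    · rw [Subgroup.card_map_of_injective (N ⊓ K).subtype_injective]
      rw [Nat.card_congr (Subgroup.subgroupOfEquivOfLe hQN).toEquiv, hH.symm.index_eq_card] at h2
      exact h2
  have hHNK : H ≤ N ⊓ K := hHsup ▸ le_sup_right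
  have hHN : H ≤ N := hHNK.trans inf_le_left
  set M := N ⊓ Subgroup.normalizer (H : Set G) with hM
  have hQM : Q' ⊓ M = ⊥ := by
    rw [eq_bot_iff]
    intro q hq
    obtain ⟨hqQ, hqM⟩ := Subgroup.mem_inf.1 hq
    rw [Subgroup.mem_bot]
    apply hQcent q hqQ
    intro n hn
    rw [← hHsup] at hn
    have hqH : ∀ x ∈ H, q * x = x * q := by
      intro x hx
      have h1 : ⁅q, x⁆ ∈ H ⊓ Q' := by
        refine Subgroup.mem_inf.2 ⟨?_, ?_⟩
        · rw [commutatorElement_def]
          exact mul_mem ((Subgroup.mem_normalizer_iff.1 (Subgroup.mem_inf.1 hqM).2 x).1 hx) (inv_mem hx)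
        · rw [commutatorElement_def, mul_assoc, mul_assoc, ← mul_assoc x]
          exact mul_mem hqQ ((Subgroup.mem_normalizer_iff.1 (hHN hx) q⁻¹).1 (inv_mem hqQ))
      rw [hHQ, Subgroup.mem_bot, commutatorElement_eq_one_iff_mul_comm] at h1
      exact h1
    have h2 : Q' ⊔ H ≤ Subgroup.centralizer {q} := by
      rw [sup_le_iff]
      constructor
      · intro a ha
        rw [Subgroup.mem_centralizer_singleton_iff]
        exact hQ'c a ha q hqQ
      · intro a ha
        rw [Subgroup.mem_centralizer_singleton_iff]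
        exact (hqH a ha).symm
    exact ((Subgroup.mem_centralizer_singleton_iff.1 (h2 hn))).symm
  have hNle : N ≤ Q' ⊔ M := by
    intro n hn
    have h1 : ∃ q ∈ Q', MulAut.conj q • (MulAut.conj n • H) = H := by
      apply Cfsg.Agent.H1.sz_conj_rel Q' (MulAut.conj n • H) H hHN hHcop
      · left
        letI : CommGroup Q' := { (inferInstance : Group Q') with mul_comm := fun a b => Subtype.ext (hQ'c a a.2 b b.2) }
        infer_instance
      · exact (Cfsg.Agent.H1.conj_smul_card_eq n H)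
      · rw [hHsup]
        have h2 : MulAut.conj n • (N ⊓ K) ≤ N ⊓ K := by
          rintro _ ⟨x, hx, rfl⟩
          exact Subgroup.mem_inf.2 ⟨mul_mem (mul_mem hn (Subgroup.mem_inf.1 hx).1) (inv_mem hn),
            hKn.conj_mem x (Subgroup.mem_inf.1 hx).2 n⟩
        exact (Subgroup.pointwise_smul_le_pointwise_smul_iff.2 hHNK).trans h2
    obtain ⟨q, hq, h2⟩ := h1
    rw [smul_smul, ← map_mul] at h2
    have h3 : q * n ∈ M := by
      refine Subgroup.mem_inf.2 ⟨mul_mem (Subgroup.le_normalizer hq) hn, ?_⟩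
      exact Cfsg.Agent.H1.mem_normalizer_iff_conj_smul.2 h2
    have h4 : n = q⁻¹ * (q * n) := by group
    rw [h4]
    exact mul_mem ((le_sup_left : Q' ≤ Q' ⊔ M) (inv_mem hq)) ((le_sup_right : M ≤ Q' ⊔ M) h3)
  have hKM : K ⊔ M = ⊤ := by
    rw [eq_top_iff, ← hsup]
    exact sup_le (hNle.trans (sup_le (hQ'K.trans le_sup_left) le_sup_right)) le_sup_left
  obtain ⟨R⟩ : Nonempty (Sylow p M) := inferInstance
  set R' := (R : Subgroup M).map M.subtype with hR'
  have hR'M : R' ≤ M := Subgroup.map_subtype_le _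
  have hinf : K ⊓ R' = ⊥ := by
    rw [eq_bot_iff, ← hQM]
    refine le_inf ?_ (inf_le_right.trans hR'M)
    apply hpQ
    · exact (R.isPGroup'.map _).to_le inf_le_right
    · exact le_inf (inf_le_right.trans (hR'M.trans inf_le_left)) inf_le_left
  have htop : R' ⊔ K = ⊤ := by
    have hf : Function.Surjective ((QuotientGroup.mk' K).comp M.subtype) := by
      rw [← MonoidHom.range_eq_top, MonoidHom.range_eq_map, ← Subgroup.map_map,
        ← MonoidHom.range_eq_map, Subgroup.range_subtype]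
      have h1 := congrArg (Subgroup.map (QuotientGroup.mk' K)) hKM
      rw [Subgroup.map_sup, (Subgroup.map_eq_bot_iff _).2 (by rw [QuotientGroup.ker_mk']), bot_sup_eq,
        Subgroup.map_top_of_surjective _ (QuotientGroup.mk'_surjective K)] at h1
      exact h1
    let S := R.mapSurjective hf
    have hpg : IsPGroup p (⊤ : Subgroup (G ⧸ K)) := by
      apply IsPGroup.of_card (n := k)
      rw [Subgroup.card_top]; exact hk
    have h1 : (⊤ : Subgroup (G ⧸ K)) = S := S.is_maximal' hpg le_top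
    have h2 : (S : Subgroup (G ⧸ K)) = R'.map (QuotientGroup.mk' K) := by
      rw [hR', Subgroup.map_map]; exact Sylow.coe_mapSurjective hf R
    rw [h2] at h1
    have h3 := congrArg (Subgroup.comap (QuotientGroup.mk' K)) h1
    rw [Subgroup.comap_top, Subgroup.comap_map_eq, QuotientGroup.ker_mk'] at h3
    exact h3.symm
  refine ⟨R', Subgroup.isComplement'_of_disjoint_and_mul_eq_univ ?_ ?_⟩
  · rw [disjoint_iff, inf_comm]; exact hinf
  · rw [← Subgroup.mul_normal, htop]; rfl

end Cfsg.Agent.S0092
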