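import Cfsg.Statements.S0093
import Cfsg.Agent.H23.Coprime2
import Cfsg.Agent.S0013

set_option autoImplicit false
set_option linter.style.haveILetI false
set_option linter.unusedVariables false
set_option linter.unusedSectionVars false
open Cfsg

namespace Cfsg.Agent.S0093

open scoped commutatorElement in
theorem frattini_le_aux {P : Type*} [Group P] [Finite P] {p : ℕ} [Fact p.Prime] (hP : IsPGroup p P)
    (C : Subgroup P) (h2 : ⁅(⊤ : Subgroup P), C⁆ ≤ C ⊓ Subgroup.centralizer (C : Set P))
    (h4 : ∀ x ∈ C, x ^ p ∈ Subgroup.centralizer (C : Set P)) :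
    frattini C ≤ (Subgroup.centralizer (C : Set P)).subgroupOf C := by
  haveI : ((Subgroup.centralizer (C : Set P)).subgroupOf C).Normal := by
    constructor
    intro x hx g
    rw [Subgroup.mem_subgroupOf, Subgroup.mem_centralizer_iff] at hx ⊢
    have : g * x * g⁻¹ = x := by
      apply Subtype.ext
      have := hx g g.2
      push_cast
      rw [this]; group
    rw [this]; exact hx
  apply S0013.result p (hP.to_subgroup C)
  · rw [commutator_def, Subgroup.commutator_le]
    intro a _ b _
    rw [Subgroup.mem_subgroupOf]
    have h6 : ((⁅a, b⁆ : C) : P) ∈ C ⊓ Subgroup.centralizer (C : Set P) :=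
      h2 (Subgroup.commutator_mem_commutator (Subgroup.mem_top (a : P)) b.2)
    exact h6.2
  · intro x
    rw [Subgroup.mem_subgroupOf]
    exact h4 x x.2

/-- Every finite p-group has a critical subgroup: a characteristic subgroup H whose Frattini subgroup and whose commutator with the whole group lie in the centre of H, and whose centralizer is contained in H. -/
theorem result {P : Type*} [Group P] [Finite P] {p : ℕ} [Fact p.Prime] (hP : IsPGroup p P) : ∃ H : Subgroup P, H.Characteristic ∧ (frattini H).map H.subtype ≤ Subgroup.centralizer (H : Set P) ∧ ⁅H, (⊤ : Subgroup P)⁆ ≤ H ⊓ Subgroup.centralizer (H : Set P) ∧ Subgroup.centralizer (H : Set P) ≤ H := by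
  obtain ⟨C, h1, h2, h3, h4⟩ := H23.exists_critical hP
  refine ⟨C, h1, ?_, by rw [Subgroup.commutator_comm]; exact h2, h3⟩
  have h5 := frattini_le_aux hP C h2 h4
  rintro _ ⟨x, hx, rfl⟩
  exact h5 hx

end Cfsg.Agent.S0093
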