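import Cfsg.Statements.S0097
import Cfsg.Agent.S0094

set_option autoImplicit false
set_option linter.style.haveILetI false
set_option linter.unusedVariables false
set_option linter.unusedSectionVars false
open Cfsg

namespace Cfsg.Agent.S0097

/-- For odd p and E extraspecial, the subgroup generated by the elements of order dividing p has exponent dividing p and index at most p. -/
theorem result {E : Type*} [Group E] [Finite E] {p : ℕ} [Fact p.Prime] (hp : p ≠ 2) (h : Cfsg.IsExtraspecial p E) : (Subgroup.closure {x : E | x ^ p = 1}).index ≤ p ∧ ∀ g ∈ Subgroup.closure {x : E | x ^ p = 1}, g ^ p = 1 := by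
  obtain ⟨⟨h1, h2, h3⟩, h4⟩ := h
  have hpp : p.Prime := Fact.out
  have hcomm : ∀ x y : E, x * y * x⁻¹ * y⁻¹ ∈ Subgroup.center E := by
    intro x y
    rw [← h3, commutator_eq_closure]; exact Subgroup.subset_closure ⟨x, y, rfl⟩
  have hcen : ∀ x y z : E, Commute (x * y * x⁻¹ * y⁻¹) z := fun x y z =>
    ((Subgroup.mem_center_iff.1 (hcomm x y)) z).symm
  obtain ⟨m, hm⟩ : ∃ m, p * (p - 1) / 2 = p * m := by
    obtain ⟨k, hk⟩ := hpp.odd_of_ne_two hp
    refine ⟨k, ?_⟩
    have : p * (p - 1) = 2 * (p * k) := by rw [hk]; simp; ring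
    rw [this, Nat.mul_div_cancel_left _ (by norm_num)]
  have hzp : ∀ z ∈ Subgroup.center E, z ^ p = 1 := by
    intro z hz
    have : orderOf z ∣ p := by rw [← h4]; exact H2.orderOf_dvd_card_of_mem hz
    exact orderOf_dvd_iff_pow_eq_one.1 this
  have hmul : ∀ x y : E, (x * y) ^ p = x ^ p * y ^ p := by
    intro x y
    have h5 := H23.mul_pow_of_class_two x y (hcen y x) p
    have h6 := hzp _ (hcomm y x)
    rw [h5, hm, pow_mul]
    have h7 : (y * x * y⁻¹ * x⁻¹) ^ p = 1 := h6
    rw [commutatorElement_def, h7, one_pow, mul_one]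
  let f : E →* Subgroup.center E :=
    { toFun := fun x => ⟨x ^ p, by rw [← h2]; exact H2.pow_mem_frattini h1 x⟩
      map_one' := Subtype.ext (one_pow p)
      map_mul' := fun x y => Subtype.ext (hmul x y) }
  have hker : Subgroup.closure {x : E | x ^ p = 1} = f.ker := by
    apply le_antisymm
    · rw [Subgroup.closure_le]
      intro x hx
      exact Subtype.ext hx
    · intro x hx
      exact Subgroup.subset_closure (congrArg Subtype.val hx)
  rw [hker]
  constructor
  · rw [Subgroup.index_ker, ← h4]
    exact Nat.le_of_dvd Nat.card_pos (Subgroup.card_subgroup_dvd_card _)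
  · intro g hg
    exact congrArg Subtype.val hg

end Cfsg.Agent.S0097
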