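import Cfsg.Statements.S0098
import Cfsg.Agent.H2.Xodd

set_option autoImplicit false
set_option linter.style.haveILetI false
set_option linter.unusedVariables false
set_option linter.unusedSectionVars false
open Cfsg

namespace Cfsg.Agent.S0098

open Cfsg.Agent.H18
open Cfsg.Agent.H2.Xodd

universe u v

/-- the graph subgroup -/
theorem glue {p : ℕ} [hp : Fact p.Prime] {E : Type u} [Group E] [Finite E] {z : E}
    {E' : Type v} [Group E'] [Finite E'] {z' : E'} (h : Xo p E z) (h' : Xo p E' z')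
    {x y : E} (hxy : x * y * x⁻¹ = z ^ (1 : ℤ) * y) {x' y' : E'}
    (hxy' : x' * y' * x'⁻¹ = z' ^ (1 : ℤ) * y')
    (φ : cen x y ≃* cen x' y') (hzm : z ∈ cen x y) (hφ : (φ ⟨z, hzm⟩ : E') = z') :
    ∃ e : E ≃* E', e z = z' := by
  have hφk : ∀ k : ℤ, ∃ hk : z ^ k ∈ cen x y, (φ ⟨z ^ k, hk⟩ : E') = z' ^ k := by
    intro k
    refine ⟨Subgroup.zpow_mem _ hzm k, ?_⟩
    have : (⟨z ^ k, Subgroup.zpow_mem _ hzm k⟩ : cen x y) = (⟨z, hzm⟩ : cen x y) ^ k := rfl
    rw [this, map_zpow]
    show (φ ⟨z, hzm⟩ : E') ^ k = _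
    rw [hφ]
  let K : Subgroup (E × E') :=
    { carrier := {g | ∃ (i j : ℤ) (c : cen x y), g.1 = x ^ i * y ^ j * c ∧
        g.2 = x' ^ i * y' ^ j * (φ c : E')}
      one_mem' := ⟨0, 0, 1, by simp, by simp⟩
      mul_mem' := by
        rintro ⟨a, a'⟩ ⟨b, b'⟩ ⟨i, j, c, h1, h2⟩ ⟨k, l, d, h3, h4⟩
        obtain ⟨hk, hk'⟩ := hφk (-(j * k))
        refine ⟨i + k, j + l, ⟨_, hk⟩ * c * d, ?_, ?_⟩
        · show a * b = _
          simp only at h1 h3
          rw [h1, h3, rep_mul h hxy c.2]; rfl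
        · show a' * b' = _
          simp only at h2 h4
          rw [h2, h4, rep_mul h' hxy' (φ c).2, map_mul, map_mul]
          show _ = x' ^ (i + k) * y' ^ (j + l) * ((φ ⟨z ^ (-(j * k)), hk⟩ : E') * (φ c : E') * (φ d : E'))
          rw [hk']
      inv_mem' := by
        rintro ⟨a, a'⟩ ⟨i, j, c, h1, h2⟩
        simp only at h1 h2
        obtain ⟨hk, hk'⟩ := hφk (-(j * i))
        -- (x^i y^j c)⁻¹ = x^(-i) y^(-j) (z^{-(j i)} c⁻¹)
        refine ⟨-i, -j, ⟨_, hk⟩ * c⁻¹, ?_, ?_⟩
        · show a⁻¹ = _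
          rw [inv_eq_iff_mul_eq_one, h1]
          show (x ^ i * y ^ j * (c : E)) * (x ^ (-i) * y ^ (-j) * (z ^ (-(j * i)) * (c : E)⁻¹)) = 1
          rw [rep_mul h hxy c.2]
          have e1 : i + -i = 0 := by ring
          have e2 : j + -j = 0 := by ring
          have e3 := (zk_comm h (-(j * i)) (c : E)).eq
          rw [e1, e2, zpow_zero, zpow_zero, one_mul, one_mul]
          calc z ^ (-(j * -i)) * (c : E) * (z ^ (-(j * i)) * (c : E)⁻¹)
              = z ^ (-(j * -i)) * ((c : E) * z ^ (-(j * i))) * (c : E)⁻¹ := by group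
            _ = z ^ (-(j * -i)) * (z ^ (-(j * i)) * (c : E)) * (c : E)⁻¹ := by rw [e3]
            _ = 1 := by group
        · show a'⁻¹ = _
          rw [inv_eq_iff_mul_eq_one, h2, map_mul, map_inv]
          show (x' ^ i * y' ^ j * (φ c : E')) *
            (x' ^ (-i) * y' ^ (-j) * ((φ ⟨z ^ (-(j * i)), hk⟩ : E') * (φ c : E')⁻¹)) = 1
          rw [hk', rep_mul h' hxy' (φ c).2]
          have e1 : i + -i = 0 := by ring
          have e2 : j + -j = 0 := by ring
          have e3 := (zk_comm h' (-(j * i)) (φ c : E')).eq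
          rw [e1, e2, zpow_zero, zpow_zero, one_mul, one_mul]
          calc z' ^ (-(j * -i)) * (φ c : E') * (z' ^ (-(j * i)) * (φ c : E')⁻¹)
              = z' ^ (-(j * -i)) * ((φ c : E') * z' ^ (-(j * i))) * (φ c : E')⁻¹ := by group
            _ = z' ^ (-(j * -i)) * (z' ^ (-(j * i)) * (φ c : E')) * (φ c : E')⁻¹ := by rw [e3]
            _ = 1 := by group }
  have inj1 : ∀ g : E × E', g ∈ K → g.1 = 1 → g = 1 := by
    rintro ⟨a, a'⟩ ⟨i, j, c, h1, h2⟩ ha
    simp only at h1 h2 ha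
    rw [ha] at h1
    obtain ⟨d1, d2, hc⟩ := rep_unique h hxy c.2 h1.symm
    have hc1 : c = 1 := Subtype.ext hc
    rw [hc1, map_one, pow_z h' x' i d1, pow_z h' y' j d2] at h2
    simp only [mul_one, OneMemClass.coe_one] at h2
    rw [ha, h2]; rfl
  have inj2 : ∀ g : E × E', g ∈ K → g.2 = 1 → g = 1 := by
    rintro ⟨a, a'⟩ ⟨i, j, c, h1, h2⟩ ha
    simp only at h1 h2 ha
    rw [ha] at h2
    obtain ⟨d1, d2, hc⟩ := rep_unique h' hxy' (φ c).2 h2.symm
    have hc1 : φ c = 1 := Subtype.ext hc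
    have hc2 : c = 1 := by simpa using hc1
    rw [hc2, pow_z h x i d1, pow_z h y j d2] at h1
    simp only [mul_one, OneMemClass.coe_one] at h1
    rw [ha, h1]; rfl
  obtain ⟨e, he⟩ := exists_equiv_of_graph K (fun g => by
      obtain ⟨i, j, c, hc, rfl⟩ := exists_rep h hxy g
      exact ⟨_, i, j, ⟨c, hc⟩, rfl, rfl⟩) (fun g' => by
      obtain ⟨i, j, c, hc, rfl⟩ := exists_rep h' hxy' g'
      refine ⟨_, i, j, φ.symm ⟨c, hc⟩, rfl, ?_⟩
      rw [MulEquiv.apply_symm_apply]) (by
      refine Nat.card_le_card_of_injective (fun g : K => (g : E × E').1) ?_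
      intro a b hab
      have h1 := inj1 _ (K.mul_mem a.2 (K.inv_mem b.2)) (by
        show (a : E × E').1 * ((b : E × E').1)⁻¹ = 1
        have : (a : E × E').1 = (b : E × E').1 := hab
        rw [this, mul_inv_cancel])
      exact Subtype.ext (mul_inv_eq_one.1 h1)) (by
      refine Nat.card_le_card_of_injective (fun g : K => (g : E × E').2) ?_
      intro a b hab
      have h1 := inj2 _ (K.mul_mem a.2 (K.inv_mem b.2)) (by
        show (a : E × E').2 * ((b : E × E').2)⁻¹ = 1
        have : (a : E × E').2 = (b : E × E').2 := hab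
        rw [this, mul_inv_cancel])
      exact Subtype.ext (mul_inv_eq_one.1 h1))
  refine ⟨e, he z z' ⟨0, 0, ⟨z, hzm⟩, by simp, by simp [hφ]⟩⟩

theorem exists_pair {p : ℕ} [hp : Fact p.Prime] {E : Type u} [Group E] {z : E}
    (h : Xo p E z) (hn : ¬ ∀ g : E, ∃ k : ℤ, g = z ^ k) :
    ∃ x y : E, x * y * x⁻¹ = z ^ (1 : ℤ) * y := by
  push Not at hn
  obtain ⟨g, hg⟩ := hn
  have h1 : ¬ ∀ y, Commute g y := fun hc => by
    obtain ⟨k, hk⟩ := h.cent g hc
    exact hg k hk
  push Not at h1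
  obtain ⟨y, hy⟩ := h1
  obtain ⟨k, hk⟩ := h.comm g y
  have hpk : ¬ (p : ℤ) ∣ k := by
    intro hd
    rw [(zpow_eq_one h).2 hd, one_mul] at hk
    exact hy (commute_iff.2 hk)
  have hcop : IsCoprime (k : ℤ) (p : ℤ) := by
    rw [Int.isCoprime_iff_gcd_eq_one, Int.gcd_comm]
    have := (Nat.Prime.coprime_iff_not_dvd hp.out (n := k.natAbs)).2 (by
      intro hd; exact hpk (Int.natCast_dvd.2 hd))
    simpa [Int.gcd] using this
  obtain ⟨a, b, hab⟩ := hcop
  refine ⟨g, y ^ a, ?_⟩
  rw [conj_zpow' h hk a]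
  have e : k * a = 1 + p * (-b) := by linarith
  rw [e, zpow_add, (zpow_eq_one h).2 (dvd_mul_right _ _), mul_one]

theorem classify {p : ℕ} [hp : Fact p.Prime] : ∀ (n : ℕ) (E : Type u) [Group E] [Finite E] (z : E)
    (E' : Type v) [Group E'] [Finite E'] (z' : E'), Xo p E z → Xo p E' z' → Nat.card E ≤ n →
    Nat.card E = Nat.card E' → ∃ e : E ≃* E', e z = z' := by
  intro n
  induction n with
  | zero =>
    intro E _ _ z E' _ _ z' h h' hn
    have := Nat.card_pos (α := E)
    omega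
  | succ n ih =>
    intro E _ _ z E' _ _ z' h h' hn hcard
    have base : ∀ {F : Type _} [Group F] [Finite F] (w : F), Xo p F w →
        (∀ g : F, ∃ k : ℤ, g = w ^ k) → Nat.card F = p := by
      intro F _ _ w hw hF
      have : Subgroup.zpowers w = ⊤ := by
        rw [Subgroup.eq_top_iff']
        intro g
        obtain ⟨k, hk⟩ := hF g
        exact ⟨k, hk.symm⟩
      have h2 := Nat.card_zpowers w
      rw [this, Subgroup.card_top, order_z hw] at h2
      exact h2
    have base' : ∀ {F : Type _} [Group F] [Finite F] (w : F), Xo p F w →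
        (∀ g : F, ∃ k : ℤ, g = w ^ k) → Nat.card F = p := by
      intro F _ _ w hw hF
      have : Subgroup.zpowers w = ⊤ := by
        rw [Subgroup.eq_top_iff']
        intro g
        obtain ⟨k, hk⟩ := hF g
        exact ⟨k, hk.symm⟩
      have h2 := Nat.card_zpowers w
      rw [this, Subgroup.card_top, order_z hw] at h2
      exact h2
    by_cases hE : ∀ g : E, ∃ k : ℤ, g = z ^ k
    · have c1 := base z h hE
      have hE' : ∀ g : E', ∃ k : ℤ, g = z' ^ k := by
        have h2 := Nat.card_zpowers z'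
        rw [order_z h', ← c1, hcard] at h2
        have h3 := Subgroup.eq_top_of_card_eq _ h2
        intro g
        obtain ⟨k, hk⟩ : g ∈ Subgroup.zpowers z' := by rw [h3]; trivial
        exact ⟨k, hk.symm⟩
      have hord : orderOf ((z, z') : E × E') = p := by
        rw [Prod.orderOf_mk, order_z h, order_z h', Nat.lcm_self]
      obtain ⟨e, he⟩ := exists_equiv_of_graph (Subgroup.zpowers ((z, z') : E × E'))
        (fun g => by
          obtain ⟨k, hk⟩ := hE g
          exact ⟨z' ^ k, k, by rw [hk]; rfl⟩) (fun g' => by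
          obtain ⟨k, hk⟩ := hE' g'
          exact ⟨z ^ k, k, by rw [hk]; rfl⟩) (by
          rw [Nat.card_zpowers, hord, c1]) (by
          rw [Nat.card_zpowers, hord, ← c1, hcard])
      exact ⟨e, he z z' (Subgroup.mem_zpowers _)⟩
    · have hE' : ¬ ∀ g : E', ∃ k : ℤ, g = z' ^ k := by
        intro hE'
        have c1 := base' z' h' hE'
        apply hE
        have h2 := Nat.card_zpowers z
        rw [order_z h, ← c1, ← hcard] at h2
        have h3 := Subgroup.eq_top_of_card_eq _ h2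
        intro g
        obtain ⟨k, hk⟩ : g ∈ Subgroup.zpowers z := by rw [h3]; trivial
        exact ⟨k, hk.symm⟩
      obtain ⟨x, y, hxy⟩ := exists_pair h hE
      obtain ⟨x', y', hxy'⟩ := exists_pair h' hE'
      have c1 := card_cen h hxy
      have c2 := card_cen h' hxy'
      have hp1 := hp.out.one_lt
      obtain ⟨hz, hc⟩ := cen_xo h hxy
      obtain ⟨hz', hc'⟩ := cen_xo h' hxy'
      have hceq : Nat.card (cen x y) = Nat.card (cen x' y') := by
        have h3 : p * (p * Nat.card (cen x y)) = p * (p * Nat.card (cen x' y')) := by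
          rw [← c1, ← c2, hcard]
        exact Nat.eq_of_mul_eq_mul_left hp.out.pos (Nat.eq_of_mul_eq_mul_left hp.out.pos h3)
      have hlt : Nat.card (cen x y) ≤ n := by
        have hpos := Nat.card_pos (α := cen x y)
        have h4 : Nat.card (cen x y) < p * Nat.card (cen x y) := by
          nlinarith
        have h5 : p * Nat.card (cen x y) ≤ p * (p * Nat.card (cen x y)) := by
          nlinarith
        omega
      obtain ⟨φ, hφ⟩ := ih (cen x y) _ (cen x' y') _ hc hc' hlt hceq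
      exact glue h h' hxy hxy' φ hz (by rw [hφ])

theorem xo_of {p : ℕ} [hp : Fact p.Prime] {E : Type u} [Group E] [Finite E]
    (hE : Cfsg.IsExtraspecial p E) (he : Monoid.exponent E = p) : ∃ z : E, Xo p E z := by
  obtain ⟨⟨hP, hf, hc⟩, hcard⟩ := hE
  haveI : Fact (Nat.card (Subgroup.center E)).Prime := ⟨by rw [hcard]; exact hp.out⟩
  have hne : ∃ w : Subgroup.center E, w ≠ 1 := by
    have : Nontrivial (Subgroup.center E) := by
      rw [← Finite.one_lt_card_iff_nontrivial, hcard]; exact hp.out.one_lt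
    exact exists_ne 1
  obtain ⟨w, hw⟩ := hne
  have hz : Subgroup.zpowers w = ⊤ := zpowers_eq_top_of_prime_card rfl hw
  have hcen : ∀ g : E, g ∈ Subgroup.center E → ∃ k : ℤ, g = (w : E) ^ k := by
    intro g hg
    obtain ⟨k, hk⟩ : (⟨g, hg⟩ : Subgroup.center E) ∈ Subgroup.zpowers w := by rw [hz]; trivial
    exact ⟨k, by
      have := congrArg Subtype.val hk
      simpa using this.symm⟩
  refine ⟨(w : E), ⟨fun h1 => hw (Subtype.ext h1), fun x => ?_, fun x => ?_, fun x hx => ?_,
    fun x y => ?_⟩⟩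
  · conv_lhs => rw [← he]
    exact Monoid.pow_exponent_eq_one x
  · exact ((Subgroup.mem_center_iff.1 w.2 x).symm : (w : E) * x = x * w)
  · refine hcen x (Subgroup.mem_center_iff.2 fun y => ((hx y).eq).symm)
  · have h1 : x * y * x⁻¹ * y⁻¹ ∈ Subgroup.center E := by
      rw [← hc]; exact Subgroup.commutator_mem_commutator (Subgroup.mem_top x) (Subgroup.mem_top y)
    obtain ⟨k, hk⟩ := hcen _ h1
    refine ⟨k, ?_⟩
    rw [← hk]; group

/-- For odd p, extraspecial p-groups of exponent p are determined up to isomorphism by their order. -/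
theorem result {E₁ : Type*} {E₂ : Type*} [Group E₁] [Group E₂] [Finite E₁] [Finite E₂] {p : ℕ} [Fact p.Prime] (hp : p ≠ 2) (h₁ : Cfsg.IsExtraspecial p E₁) (h₂ : Cfsg.IsExtraspecial p E₂) (he₁ : Monoid.exponent E₁ = p) (he₂ : Monoid.exponent E₂ = p) (hc : Nat.card E₁ = Nat.card E₂) : Nonempty (E₁ ≃* E₂) := by
  obtain ⟨z, h⟩ := xo_of h₁ he₁
  obtain ⟨z', h'⟩ := xo_of h₂ he₂
  obtain ⟨e, -⟩ := classify _ E₁ z E₂ z' h h' le_rfl hc
  exact ⟨e⟩

end Cfsg.Agent.S0098
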