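import Cfsg.Statements.S0099
import Cfsg.Agent.H18.Xt2

set_option autoImplicit false
set_option linter.style.haveILetI false
set_option linter.unusedVariables false
set_option linter.unusedSectionVars false
open Cfsg

namespace Cfsg.Agent.S0099

open Cfsg.Agent.H18

theorem cnt {E : Type*} [Group E] [Finite E] (hE : Cfsg.IsExtraspecial 2 E) :
    ∃ z : E, Xt E z ∧ ∃ m : ℕ, Nat.card E = 2 ^ (2 * m + 1) ∧
      (Xt.inv2 E = 2 ^ (2 * m) + 2 ^ m ∨ Xt.inv2 E = 2 ^ (2 * m) - 2 ^ m) := by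
  obtain ⟨z, hxs⟩ := H29.xs_top hE
  have h := Xt.of_xs hxs
  obtain ⟨m, hm1, hm2⟩ := Xt.card_inv2 _ E z h le_rfl
  refine ⟨z, h, m, hm1, ?_⟩
  rcases hm2 with h1 | ⟨_, h1⟩
  · exact Or.inl h1
  · exact Or.inr h1

/-- Among three extraspecial 2-groups of equal order, some two are isomorphic. -/
theorem result {E₁ : Type*} {E₂ : Type*} {E₃ : Type*} [Group E₁] [Group E₂] [Group E₃] [Finite E₁] [Finite E₂] [Finite E₃] (h₁ : Cfsg.IsExtraspecial 2 E₁) (h₂ : Cfsg.IsExtraspecial 2 E₂) (h₃ : Cfsg.IsExtraspecial 2 E₃) (h12 : Nat.card E₁ = Nat.card E₂) (h23 : Nat.card E₂ = Nat.card E₃) : Nonempty (E₁ ≃* E₂) ∨ Nonempty (E₂ ≃* E₃) ∨ Nonempty (E₁ ≃* E₃) := by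
  obtain ⟨z1, x1, m1, c1, i1⟩ := cnt h₁
  obtain ⟨z2, x2, m2, c2, i2⟩ := cnt h₂
  obtain ⟨z3, x3, m3, c3, i3⟩ := cnt h₃
  have e12 : m1 = m2 := by
    have := c1.symm.trans (h12.trans c2)
    have := Nat.pow_right_injective (le_refl 2) this
    simp at this; exact this
  have e23 : m2 = m3 := by
    have := c2.symm.trans (h23.trans c3)
    have := Nat.pow_right_injective (le_refl 2) this
    simp at this; exact this
  subst e12; subst e23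
  have key : Xt.inv2 E₁ = Xt.inv2 E₂ ∨ Xt.inv2 E₂ = Xt.inv2 E₃ ∨ Xt.inv2 E₁ = Xt.inv2 E₃ := by
    rcases i1 with i1 | i1 <;> rcases i2 with i2 | i2 <;> rcases i3 with i3 | i3 <;>
      simp [i1, i2, i3]
  rcases key with k | k | k
  · obtain ⟨e, -⟩ := Xt.classify _ E₁ z1 E₂ z2 x1 x2 le_rfl h12 k
    exact Or.inl ⟨e⟩
  · obtain ⟨e, -⟩ := Xt.classify _ E₂ z2 E₃ z3 x2 x3 le_rfl h23 k
    exact Or.inr (Or.inl ⟨e⟩)
  · obtain ⟨e, -⟩ := Xt.classify _ E₁ z1 E₃ z3 x1 x3 le_rfl (h12.trans h23) k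
    exact Or.inr (Or.inr ⟨e⟩)

end Cfsg.Agent.S0099
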