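import Cfsg.Statements.S0101
import Cfsg.Agent.H2.Hall

set_option autoImplicit false
set_option linter.style.haveILetI false
set_option linter.unusedVariables false
set_option linter.unusedSectionVars false
open Cfsg

namespace Cfsg.Agent.S0101

theorem aux {H : Type*} [Group H] [Finite H] {p : ℕ} [Fact p.Prime] (hH : commutator H = ⊤)
    (P : Sylow p H) (M : Subgroup P) (hMn : M.Normal) (hM : M.index = p) {z : H}
    (hz : z ∈ (P : Subgroup H)) (hzc : z ∈ Subgroup.center H) : (⟨z, hz⟩ : P) ∈ M := by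
  haveI := hMn
  haveI : IsCyclic (P ⧸ M) := isCyclic_of_prime_card (p := p) hM
  letI : CommGroup (P ⧸ M) := IsCyclic.commGroup
  let V : H →* P ⧸ M := MonoidHom.transfer (QuotientGroup.mk' M)
  have key : ∀ (k : ℕ) (g₀ : H), g₀⁻¹ * z ^ k * g₀ ∈ (P : Subgroup H) →
      g₀⁻¹ * z ^ k * g₀ = z ^ k := by
    intro k g₀ _
    rw [mul_assoc, ← (Subgroup.mem_center_iff.1 (pow_mem hzc k)) g₀, inv_mul_cancel_left]
  have h1 : V z = 1 := by
    have h2 : z ∈ commutator H := by rw [hH]; trivial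
    have := Abelianization.commutator_subset_ker V h2
    exact this
  have h2 : V z = (QuotientGroup.mk' M) ⟨z ^ (P : Subgroup H).index, _⟩ :=
    MonoidHom.transfer_eq_pow (QuotientGroup.mk' M) z key
  rw [h1] at h2
  have h3 : (⟨z, hz⟩ : P) ^ (P : Subgroup H).index ∈ M := by
    rw [← QuotientGroup.eq_one_iff]
    exact h2.symm
  have h4 : (⟨z, hz⟩ : P) ^ p ∈ M := H2.pow_mem_of_index hM _
  have hcop : Nat.Coprime (P : Subgroup H).index p :=
    ((Nat.Prime.coprime_iff_not_dvd (Fact.out : p.Prime)).2 P.not_dvd_index).symm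
  have h5 := Nat.gcd_eq_gcd_ab (P : Subgroup H).index p
  rw [hcop.gcd_eq_one] at h5
  have h6 : (⟨z, hz⟩ : P) = ((⟨z, hz⟩ : P) ^ (P : Subgroup H).index) ^
      ((P : Subgroup H).index.gcdA p) * ((⟨z, hz⟩ : P) ^ p) ^ ((P : Subgroup H).index.gcdB p) := by
    rw [← zpow_natCast, ← zpow_natCast, ← zpow_mul, ← zpow_mul, ← zpow_add, ← h5]
    simp
  rw [h6]
  exact mul_mem (zpow_mem h3 _) (zpow_mem h4 _)

/-- In a perfect central extension, the kernel meets each Sylow p-subgroup P inside the Frattini subgroup of P. -/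
theorem result {H : Type*} {G : Type*} [Group H] [Group G] [Finite H] (σ : H →* G) (hσ : Function.Surjective σ) (hc : σ.ker ≤ Subgroup.center H) (hH : commutator H = ⊤) {p : ℕ} [Fact p.Prime] (P : Sylow p H) : σ.ker ⊓ (P : Subgroup H) ≤ (frattini P).map (P : Subgroup H).subtype := by
  rintro z ⟨hz1, hz2⟩
  refine ⟨⟨z, hz2⟩, ?_, rfl⟩
  have hfr : frattini P = ⨅ M : {M : Subgroup P // IsCoatom M}, (M : Subgroup P) := by
    rw [frattini, Order.radical, iInf_subtype]
    rfl
  rw [hfr]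
  show (⟨z, hz2⟩ : P) ∈ (⨅ M : {M : Subgroup P // IsCoatom M}, (M : Subgroup P))
  rw [Subgroup.mem_iInf]
  rintro ⟨M, hM⟩
  obtain ⟨h1, h2⟩ := H2.index_eq_of_isCoatom P.2 hM
  exact aux hH P M h2 h1 hz2 (hc hz1)

end Cfsg.Agent.S0101
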