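import Cfsg.Statements.S0102
import Cfsg.Agent.H2.Hall
import Cfsg.Agent.H2.Cyc
import Cfsg.Agent.S0088
import Cfsg.Agent.S0101

set_option autoImplicit false
set_option linter.style.haveILetI false
set_option linter.unusedVariables false
set_option linter.unusedSectionVars false
open Cfsg

namespace Cfsg.Agent.S0102

/-- A finite perfect group with cyclic Sylow p-subgroups has no perfect central extension whose kernel has order divisible by p. -/
theorem result {G : Type*} {H : Type*} [Group G] [Group H] [Finite G] [Finite H] (hG : commutator G = ⊤) {p : ℕ} [Fact p.Prime] (hcyc : ∀ P : Sylow p G, IsCyclic P) (σ : H →* G) (hσ : Function.Surjective σ) (hz : σ.ker ≤ Subgroup.center H) (hH : commutator H = ⊤) : ¬ p ∣ Nat.card σ.ker := by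
  intro hd
  obtain ⟨P⟩ := (inferInstance : Nonempty (Sylow p H))
  have h1 := S0101.result σ hσ hz hH P
  -- the image of `P` is cyclic
  have hcyc' : IsCyclic ((P : Subgroup H).map σ) := by
    have := hcyc (P.mapSurjective hσ)
    rwa [Sylow.coe_mapSurjective] at this
  let f : P →* (P : Subgroup H).map σ := σ.subgroupMap (P : Subgroup H)
  have hf : Function.Surjective f := σ.subgroupMap_surjective _
  have hker : f.ker ≤ frattini P := by
    intro x hx
    have h2 : σ x = 1 := congrArg Subtype.val hx
    obtain ⟨y, hy, hyx⟩ := h1 (Subgroup.mem_inf.2 ⟨h2, x.2⟩ : (x : H) ∈ σ.ker ⊓ (P : Subgroup H))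
    have : y = x := Subtype.ext hyx
    rwa [← this]
  haveI hPc : IsCyclic P := H2.isCyclic_of_quotient_of_le_frattini f hf hker
  have hPab : IsMulCommutative P := inferInstance
  have h3 := S0088.result (P : Subgroup H) hPab P.card_coprime_index
  obtain ⟨x, hx, hxo⟩ := H2.exists_mem_orderOf_eq_prime hd
  -- `x` lies in `P` since it is central
  have hp : p.Prime := Fact.out
  have hxp : IsPGroup p (Subgroup.zpowers x) := by
    apply IsPGroup.of_card (n := 1)
    rw [Nat.card_zpowers, hxo, pow_one]
  obtain ⟨R, hR⟩ := hxp.exists_le_sylow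
  obtain ⟨g, hg⟩ := H2.exists_map_conj_eq R P
  have hxP : x ∈ (P : Subgroup H) := by
    rw [← hg, H2.mem_map_conj]
    have : g⁻¹ * x * g = x := by
      rw [mul_assoc, ← (Subgroup.mem_center_iff.1 (hz hx)) g, inv_mul_cancel_left]
    rw [this]; exact hR (Subgroup.mem_zpowers x)
  have h4 : x ∈ (P : Subgroup H) ⊓ commutator H ⊓ Subgroup.center H :=
    Subgroup.mem_inf.2 ⟨Subgroup.mem_inf.2 ⟨hxP, by rw [hH]; trivial⟩, hz hx⟩
  rw [h3, Subgroup.mem_bot] at h4
  rw [h4, orderOf_one] at hxo
  exact hp.one_lt.ne hxo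

end Cfsg.Agent.S0102
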