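import Cfsg.Statements.S0104
import Cfsg.Agent.H2.Hall

set_option autoImplicit false
set_option linter.style.haveILetI false
set_option linter.unusedVariables false
set_option linter.unusedSectionVars false
open Cfsg

namespace Cfsg.Agent.S0104

/-- A subgroup Z of a Sylow p-subgroup P that is normalized by N_G(P) is weakly closed in P exactly when it is normal in every Sylow p-subgroup containing it. -/
theorem result {G : Type*} [Group G] [Finite G] {p : ℕ} [Fact p.Prime] (P : Sylow p G) (Z : Subgroup G) (hZP : Z ≤ (P : Subgroup G)) (hZN : Subgroup.normalizer (P : Set G) ≤ Subgroup.normalizer (Z : Set G)) : Cfsg.IsWeaklyClosed Z P ↔ ∀ R : Sylow p G, Z ≤ (R : Subgroup G) → (R : Subgroup G) ≤ Subgroup.normalizer (Z : Set G) := by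
  have hPN : (P : Subgroup G) ≤ Subgroup.normalizer (Z : Set G) :=
    le_trans (Subgroup.le_normalizer (H := (P : Subgroup G))) hZN
  constructor
  · rintro ⟨_, hW⟩ R hZR
    obtain ⟨g, hg⟩ := H2.exists_map_conj_eq R P
    have h1 : Z.map (MulAut.conj g).toMonoidHom = Z := hW g (by
      rw [← hg]; exact H2.map_conj_mono hZR g)
    rw [H2.map_conj_eq_self_iff] at h1
    have h2 : (R : Subgroup G) = (P : Subgroup G).map (MulAut.conj g⁻¹).toMonoidHom := by
      rw [← hg, ← H2.map_conj_mul, inv_mul_cancel, H2.map_conj_one]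
    rw [h2]
    rintro _ ⟨x, hx, rfl⟩
    exact mul_mem (mul_mem (inv_mem h1) (hPN hx)) (inv_mem (inv_mem h1))
  · intro h
    refine ⟨hZP, fun g hg => ?_⟩
    have h1 : Z ≤ ((g⁻¹ • P : Sylow p G) : Subgroup G) := by
      rw [H2.coe_smul_sylow]; exact (H2.map_conj_le_iff g).1 hg
    obtain ⟨n, hn, hn2⟩ := H2.exists_conj_eq_of_sylow_le (g⁻¹ • P) P (h _ h1) hPN
    rw [← mul_smul, Sylow.smul_eq_iff_mem_normalizer] at hn2
    rw [H2.map_conj_eq_self_iff]
    have h3 := mul_mem (inv_mem hn) (hZN hn2)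
    rw [inv_mul_cancel_left] at h3
    exact inv_mem_iff.1 h3

end Cfsg.Agent.S0104
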