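import Cfsg.Statements.S0105
import Cfsg.Agent.H2.Hall

set_option autoImplicit false
set_option linter.style.haveILetI false
set_option linter.unusedVariables false
set_option linter.unusedSectionVars false
open Cfsg

namespace Cfsg.Agent.S0105

/-- With an abelian Sylow p-subgroup P, some quotient of G is isomorphic to the part of P central in N_G(P). -/
theorem result {G : Type*} [Group G] [Finite G] {p : ℕ} [Fact p.Prime] (P : Sylow p G) (hP : IsMulCommutative P) : ∃ (N : Subgroup G) (hN : N.Normal), Nonempty (G ⧸ N ≃* ((P : Subgroup G) ⊓ Subgroup.centralizer (Subgroup.normalizer (P : Set G) : Set G) : Subgroup G)) := by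
  obtain ⟨h1, h2⟩ := H2.sylow_abelian_decomp P hP
  have hfoc := H2.commutator_inf_sylow_eq_of_abelian P hP
  rw [Subgroup.commutator_inf_eq_focalSubgroup] at hfoc
  set C := (P : Subgroup G) ⊓ Subgroup.centralizer
    ((Subgroup.normalizer (P : Set G) : Subgroup G) : Set G) with hC
  set D := ⁅(P : Subgroup G), Subgroup.normalizer (P : Set G)⁆ with hD
  -- `C` maps isomorphically onto `P / Foc(P)`
  let f : C →* (P : Subgroup G) ⧸ (P : Subgroup G).focalSubgroupOf :=
    (QuotientGroup.mk' (P : Subgroup G).focalSubgroupOf).comp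
      (Subgroup.inclusion (inf_le_left : C ≤ (P : Subgroup G)))
  have hf : Function.Bijective f := by
    constructor
    · rw [injective_iff_map_eq_one]
      intro c hc
      have h3 : (Subgroup.inclusion (inf_le_left : C ≤ (P : Subgroup G)) c) ∈
          (P : Subgroup G).focalSubgroupOf := (QuotientGroup.eq_one_iff _).1 hc
      have h4 : (c : G) ∈ (P : Subgroup G).focalSubgroup := h3
      rw [hfoc] at h4
      have h5 : (c : G) ∈ D ⊓ C := Subgroup.mem_inf.2 ⟨h4, c.2⟩
      rw [h2, Subgroup.mem_bot] at h5
      exact Subtype.ext h5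
    · intro y
      obtain ⟨x, rfl⟩ := QuotientGroup.mk_surjective y
      have hx : (x : G) ∈ D ⊔ C := by rw [h1]; exact x.2
      have hDC : D ≤ Subgroup.normalizer (C : Set G) := by
        intro d hd
        have hdP : d ∈ (P : Subgroup G) := by
          have : D ≤ P := by rw [← hfoc]; exact Subgroup.focalSubgroup_le _
          exact this hd
        rw [Subgroup.mem_normalizer_iff]
        intro c
        have key : ∀ d ∈ (P : Subgroup G), ∀ c ∈ (P : Subgroup G), d * c * d⁻¹ = c := by
          intro d hd c hc
          have := congrArg Subtype.val (hP.1.1 ⟨d, hd⟩ ⟨c, hc⟩)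
          have h6 : d * c = c * d := this
          rw [h6, mul_inv_cancel_right]
        constructor
        · intro hc; rw [key d hdP c hc.1]; exact hc
        · intro hc
          have h7 := key _ (inv_mem hdP) _ hc.1
          have h8 : d⁻¹ * (d * c * d⁻¹) * d⁻¹⁻¹ = c := by group
          rw [h8] at h7
          rw [h7]; exact hc
      rw [← SetLike.mem_coe, Subgroup.coe_mul_of_left_le_normalizer_right _ _ hDC] at hx
      obtain ⟨d, hd, c, hc, hdc⟩ := hx
      refine ⟨⟨c, hc⟩, ?_⟩
      show ((⟨c, _⟩ : (P : Subgroup G)) : (P : Subgroup G) ⧸ (P : Subgroup G).focalSubgroupOf) = x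
      rw [eq_comm, QuotientGroup.eq_iff_div_mem]
      have h9 : ((x / ⟨c, hc.1⟩ : (P : Subgroup G)) : G) = d := by
        push_cast
        rw [← hdc]
        show d * c / c = d
        rw [mul_div_cancel_right]
      show ((x / ⟨c, hc.1⟩ : (P : Subgroup G)) : G) ∈ (P : Subgroup G).focalSubgroup
      rw [h9, hfoc]; exact hd
  refine ⟨P.transferFocal.ker, inferInstance, ⟨?_⟩⟩
  exact (Subgroup.transferFocal.quotientKerMulEquivQuotientFocalSubroupOf P).trans
    (MulEquiv.ofBijective f hf).symm

end Cfsg.Agent.S0105
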