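import Cfsg.Statements.S0106
import Cfsg.Agent.H2.Frobenius
import Cfsg.Agent.H2.Q8SL23
import Cfsg.Agent.H2.Six2
import Cfsg.Agent.H20.AutTwo
import Cfsg.Agent.H4.QuatEquiv
import Cfsg.Agent.H18.StrongEmb2

set_option autoImplicit false
set_option linter.style.haveILetI false
set_option linter.unusedVariables false
set_option linter.unusedSectionVars false
open Cfsg

namespace Cfsg.Agent.S0106

open Cfsg.Agent.H2
open Subgroup

/-- A finite group with generalized quaternion Sylow 2-subgroups either has a normal 2-complement or has a section isomorphic to SL(2,3). -/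
theorem result {G : Type*} [Group G] [Finite G] (T : Sylow 2 G) (n : ℕ) (hn : 1 ≤ n) (hT : Nonempty ((T : Subgroup G) ≃* QuaternionGroup (2 ^ n))) : Cfsg.HasNormalPComplement 2 G ∨ ∃ (H K : Subgroup G) (hK : (K.subgroupOf H).Normal), Nonempty ((H ⧸ K.subgroupOf H) ≃* Matrix.SpecialLinearGroup (Fin 2) (ZMod 3)) := by
  classical
  haveI : Fact (Nat.Prime 2) := ⟨Nat.prime_two⟩
  by_cases hc : Cfsg.HasNormalPComplement 2 G
  · exact Or.inl hc
  right
  have h3 : ¬ ∀ X : Subgroup G, IsPGroup 2 X → ∀ g ∈ normalizer (X : Set G),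
      Nat.Coprime (orderOf g) 2 → g ∈ centralizer (X : Set G) :=
    fun h => hc (hasNormalPComplement_of_centralizer h)
  push Not at h3
  obtain ⟨X, hX, g, hgN, hgo, hgC⟩ := h3
  obtain ⟨e⟩ := hT
  haveI : NeZero (2 ^ n) := ⟨by positivity⟩
  obtain ⟨T', hXT⟩ := hX.exists_le_sylow
  let e' : (T' : Subgroup G) ≃* QuaternionGroup (2 ^ n) := (Sylow.equiv T' T).trans e
  have hXu : ∀ x ∈ X, ∀ y ∈ X, orderOf x = 2 → orderOf y = 2 → x = y := by
    intro x hx y hy hox hoy
    have h1 : e' ⟨x, hXT hx⟩ = e' ⟨y, hXT hy⟩ := by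
      apply Cfsg.Agent.H18.quaternion_unique_involution
      · rw [MulEquiv.orderOf_eq, Subgroup.orderOf_mk, hox]
      · rw [MulEquiv.orderOf_eq, Subgroup.orderOf_mk, hoy]
    exact congrArg Subtype.val (e'.injective h1)
  set Y : Subgroup G := X ⊔ zpowers g with hY
  have hYN : Y ≤ normalizer (X : Set G) := sup_le le_normalizer (by rw [zpowers_le]; exact hgN)
  have hXY : X ≤ Y := le_sup_left
  have hgY : g ∈ Y := (le_sup_right : zpowers g ≤ _) (mem_zpowers g)
  set X' : Subgroup Y := X.subgroupOf Y with hX'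
  haveI hXn : X'.Normal := (normal_subgroupOf_iff_le_normalizer hXY).2 hYN
  let eX : X' ≃* X := subgroupOfEquivOfLe hXY
  set g' : Y := ⟨g, hgY⟩ with hg'
  have hg'o : Odd (orderOf g') := by
    rw [hg', Subgroup.orderOf_mk]; exact Nat.coprime_two_right.1 hgo
  have hg'C : g' ∉ centralizer (X' : Set Y) := by
    intro h
    apply hgC
    rw [mem_centralizer_iff] at h ⊢
    intro x hx
    have := h ⟨x, hXY hx⟩ (by rw [SetLike.mem_coe, hX', mem_subgroupOf]; exact hx)
    exact congrArg Subtype.val this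
  have hna : ¬ IsPGroup 2 (MulAut X') := by
    intro h
    apply hg'C
    obtain ⟨k, hk⟩ := h (MulAut.conjNormal g')
    have h1 : orderOf (MulAut.conjNormal (H := X') g') ∣ 2 ^ k := orderOf_dvd_of_pow_eq_one hk
    have h2 : orderOf (MulAut.conjNormal (H := X') g') ∣ orderOf g' := orderOf_map_dvd MulAut.conjNormal g'
    have h4 : Nat.Coprime (orderOf g') (2 ^ k) := Nat.Coprime.pow_right _ (Nat.coprime_two_right.2 hg'o)
    have h5 := orderOf_eq_one_iff.1 (Nat.eq_one_of_dvd_coprimes h4 h2 h1)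
    rw [mem_centralizer_iff]
    intro x hx
    have h6 : MulAut.conjNormal (H := X') g' ⟨x, hx⟩ = ⟨x, hx⟩ := by rw [h5]; rfl
    have h7 := congrArg Subtype.val h6
    rw [MulAut.conjNormal_apply] at h7
    have h8 : g' * x * g'⁻¹ = x := h7
    calc x * g' = (g' * x * g'⁻¹) * g' := by rw [h8]
      _ = g' * x := by group
  have htop : X' ⊔ zpowers g' = ⊤ := by
    rw [eq_top_iff]
    have h1 : Subgroup.map Y.subtype (X' ⊔ zpowers g') = Y := by
      rw [Subgroup.map_sup, hX', subgroupOf_map_subtype, inf_eq_left.2 hXY, MonoidHom.map_zpowers]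
      rfl
    intro y _
    have h2 : (y : G) ∈ Subgroup.map Y.subtype (X' ⊔ zpowers g') := by rw [h1]; exact y.2
    obtain ⟨z, hz, hzy⟩ := mem_map.1 h2
    have : z = y := Subtype.ext hzy
    rw [← this]; exact hz
  rcases Cfsg.Agent.H4.cyclic_or_quaternion hX hXu with hcyc | ⟨m, hm, ⟨eX2⟩⟩
  · exfalso
    apply hna
    have h1 : IsPGroup 2 (MulAut X) := Cfsg.Agent.H20.isPGroup_mulAut_of_isCyclic hX hcyc
    exact h1.of_equiv (MulAut.congr eX).symm
  · have hm1 : m = 1 := by
      by_contra hne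
      apply hna
      exact (Cfsg.Agent.H2.Six.quat_aut2 m (by omega)).of_equiv (MulAut.congr (eX.trans eX2)).symm
    subst hm1
    obtain ⟨K, hK, ⟨E⟩⟩ := Cfsg.Agent.H2.Q8SL.exists_quotient X' (eX.trans eX2) g' hg'o hg'C htop
    have hKe : (K.map Y.subtype).subgroupOf Y = K := by
      rw [subgroupOf]
      exact comap_map_eq_self_of_injective Y.subtype_injective K
    refine ⟨Y, K.map Y.subtype, ?_, ?_⟩
    · rw [hKe]; exact hK
    · haveI : ((K.map Y.subtype).subgroupOf Y).Normal := by rw [hKe]; exact hK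
      exact ⟨(QuotientGroup.quotientMulEquivOfEq hKe).trans E⟩

end Cfsg.Agent.S0106
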