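import Cfsg.Statements.S0109
import Cfsg.Agent.H2.ThompFact

set_option autoImplicit false
set_option linter.style.haveILetI false
set_option linter.unusedVariables false
set_option linter.unusedSectionVars false
open Cfsg

namespace Cfsg.Agent.S0109

/-- The Thompson factorization Theorem for solvable groups states that, with p odd (and abelian Sylow 2-subgroups when p = 3) and no nontrivial normal subgroup of order prime to p, every element of G is a product of an element normalizing J(P) and an element centralizing the elements of order dividing p in the centre of P. -/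
theorem result {G : Type*} [Group G] [Finite G] {p : ℕ} [Fact p.Prime] (hp : p ≠ 2) (hs : Group.IsSolvable G) (h3 : p = 3 → ∀ T : Sylow 2 G, IsMulCommutative T) (hF : ∀ N : Subgroup G, N.Normal → Nat.Coprime (Nat.card N) p → N = ⊥) (P : Sylow p G) (g : G) : ∃ a ∈ Subgroup.normalizer (Cfsg.thompsonSubgroupOf p (P : Subgroup G) : Set G), ∃ c ∈ Subgroup.centralizer {x : G | x ∈ (P : Subgroup G) ∧ (∀ y ∈ (P : Subgroup G), x * y = y * x) ∧ x ^ p = 1}, g = a * c := by
  have hsol : Cfsg.IsPSolvable p G := H23.isPSolvable_of_isSolvable hs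
  have hO : Cfsg.pPrimeCore p G = ⊥ := hF _ inferInstance (H1.pPrimeCore_coprime p G)
  have hc := H23.centralizer_pCore_le hsol hO
  have hno : ¬ H2.SLConcl p G := by
    by_cases hp3 : p = 3
    · exact H2.not_SLConcl_of_ab (h3 hp3)
    · have h2 : 2 ≤ p := (Fact.out : p.Prime).two_le
      intro h
      exact hp3 (h.2.2 hsol)
  obtain ⟨W, hW⟩ : ∃ W : Subgroup G, ∀ x, x ∈ W ↔ x ∈ (P : Subgroup G) ∧
      (∀ y ∈ (P : Subgroup G), x * y = y * x) ∧ x ^ p = 1 := by
    have hZc : IsMulCommutative ↥(H2.ZOf (P : Subgroup G)) := by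
      rw [H20.isMulCommutative_iff]
      intro x hx y hy
      exact Subgroup.mem_centralizer_iff.1 hy.2 x hx.1
    refine ⟨H1.omegaP (H2.ZOf (P : Subgroup G)) hZc p, fun x => ?_⟩
    constructor
    · rintro ⟨hx, hxp⟩
      exact ⟨hx.1, fun y hy => (Subgroup.mem_centralizer_iff.1 hx.2 y hy).symm, hxp⟩
    · rintro ⟨h1, h2, h3⟩
      exact ⟨Subgroup.mem_inf.2 ⟨h1, Subgroup.mem_centralizer_iff.2 fun y hy => (h2 y hy).symm⟩, h3⟩
  obtain ⟨V, hV⟩ : ∃ V, V = Subgroup.normalClosure (W : Set G) := ⟨_, rfl⟩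
  haveI hVn : V.Normal := by rw [hV]; infer_instance
  have h7 := H2.J_le_centralizer hp P hc (fun Q _ hQ => H2.isPStableOn_of_not_SLConcl hp hno Q hQ)
    (W := W) (fun x hx => ((hW x).1 hx).1) (fun y hy w hw => ((hW w).1 hw).2.1 y hy) hV
  obtain ⟨n, hn, c, hc', hg⟩ := H2.exists_factor_of_J_le P h7 g
  refine ⟨n, hn, c, ?_, hg⟩
  rw [Subgroup.mem_centralizer_iff]
  intro x hx
  have hxW : x ∈ W := (hW x).2 hx
  have hxV : x ∈ V := by rw [hV]; exact Subgroup.subset_normalClosure hxW
  exact Subgroup.mem_centralizer_iff.1 hc' x hxV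

end Cfsg.Agent.S0109
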