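import Cfsg.Statements.S0114
import Cfsg.Agent.H23.MaxClass4

set_option autoImplicit false
set_option linter.all false
open Cfsg

namespace Cfsg.Agent.S0114

section aux
open Subgroup
theorem aux {X : Type*} [Group X] [Finite X] (n : ℕ) (hn : 3 ≤ n) (hX : Nat.card X = 2 ^ n) (hc : Group.nilpotencyClass X = n - 1) : Nonempty (X ⧸ Subgroup.center X ≃* DihedralGroup (2 ^ (n - 2))) := by
  haveI : Fact (Nat.Prime 2) := ⟨Nat.prime_two⟩
  have hG : IsPGroup 2 X := IsPGroup.of_card hX
  have hD := H23.dqs_of_class hn hX hc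
  obtain ⟨m, rfl⟩ : ∃ m, n = m + 2 := ⟨n - 2, by omega⟩
  have h2 : m + 2 - 2 = m := rfl
  rw [h2] at hD ⊢
  obtain ⟨hm, u, x, hu, hi, hx, h⟩ := hD
  haveI hUn : (zpowers u).Normal := normal_of_index_eq_two hi
  -- the centre
  have hZ : center X = zpowers (u ^ 2 ^ m) := by
    have hact : ∀ (w : X), x * u * x⁻¹ = w → ∀ y, y ∉ zpowers u → y * u * y⁻¹ = w := by
      intro w hw y hy
      have h1 : x⁻¹ * y ∈ zpowers u := by
        have h2 := mul_mem_iff_of_index_two hi (a := x⁻¹) (b := y)
        rw [h2, inv_mem_iff]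
        exact iff_of_false hx hy
      obtain ⟨k, hk⟩ := mem_zpowers_iff.mp h1
      have h2 : y = x * u ^ k := by rw [hk]; group
      rw [h2, ← hw]; group
    rcases h with h | h | h
    · exact H23.DQS.center_eq (c := -1) hm hG hu hi hx (hact _ (by rw [h.1]; norm_num))
    · exact H23.DQS.center_eq (c := -1) hm hG hu hi hx (hact _ (by rw [h.1]; norm_num))
    · obtain ⟨t, rfl⟩ : ∃ t, m = t + 2 := ⟨m - 2, by omega⟩
      refine H23.DQS.center_eq (c := 2 ^ t - 1) hm hG hu hi hx (hact _ ?_)
      rw [h.2.1, ← zpow_natCast]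
      congr 1
      rw [Nat.cast_sub Nat.one_le_two_pow]
      push_cast
      rw [pow_add]; ring
  have hker : ∀ g : X, QuotientGroup.mk' (center X) g = 1 ↔ g ∈ zpowers (u ^ 2 ^ m) := by
    intro g
    rw [← hZ]
    exact QuotientGroup.eq_one_iff g
  set π := QuotientGroup.mk' (center X) with hπ
  have hπs : Function.Surjective π := QuotientGroup.mk'_surjective _
  have hz : π (u ^ 2 ^ m) = 1 := (hker _).mpr (mem_zpowers _)
  refine H22.nonempty_mulEquiv_dihedralGroup (2 ^ m) (π u) (π x) ?_ ?_ ?_ ?_ ?_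
  · rw [← map_mul]
    rcases h with h | h | h
    · rw [h.2, map_one]
    · rw [h.2]; exact hz
    · rw [h.2.2, map_one]
  · have hxx : π x * π x = 1 := by
      rw [← map_mul]
      rcases h with h | h | h
      · rw [h.2, map_one]
      · rw [h.2]; exact hz
      · rw [h.2.2, map_one]
    have hxi : (π x)⁻¹ = π x := inv_eq_of_mul_eq_one_left hxx
    have h1 : π x * π u * (π x)⁻¹ = (π u)⁻¹ := by
      rw [← map_mul, ← map_inv, ← map_mul, ← map_inv]
      rcases h with h | h | h
      · rw [h.1]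
      · rw [h.1]
      · rw [h.2.1]
        have h3 : u ^ (2 ^ m - 1) = u ^ 2 ^ m * u⁻¹ := by
          rw [eq_mul_inv_iff_mul_eq, ← pow_succ]
          congr 1
          have : 1 ≤ 2 ^ m := Nat.one_le_two_pow
          omega
        rw [h3, map_mul, hz, one_mul]
    rwa [hxi] at h1
  · obtain ⟨t, rfl⟩ : ∃ t, m = t + 1 := ⟨m - 1, by omega⟩
    apply orderOf_eq_prime_pow
    · rw [← map_pow, hker]
      intro h'
      have h3 : orderOf (u ^ 2 ^ t) ∣ 2 := by
        have := Subgroup.orderOf_dvd_natCard _ h'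
        rwa [Nat.card_zpowers, H23.orderOf_top_pow Nat.prime_two hu] at this
      rw [orderOf_pow_of_dvd (pow_pos (by norm_num) t).ne' (by rw [hu]; exact pow_dvd_pow 2 (by omega)), hu,
        Nat.pow_div (by omega) (by norm_num)] at h3
      have h4 : t + 1 + 1 - t = 2 := by omega
      rw [h4] at h3
      exact absurd (Nat.le_of_dvd (by norm_num) h3) (by norm_num)
    · rw [← map_pow]; exact hz
  · intro h'
    obtain ⟨k, hk⟩ := mem_zpowers_iff.mp h'
    rw [← map_zpow] at hk
    have h3 : π ((u ^ k)⁻¹ * x) = 1 := by rw [map_mul, map_inv, hk, inv_mul_cancel]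
    rw [hker] at h3
    have h4 : zpowers (u ^ 2 ^ m) ≤ zpowers u := zpowers_le.mpr (pow_mem (mem_zpowers u) _)
    exact hx ((mul_mem_cancel_left (inv_mem (zpow_mem (mem_zpowers u) k))).mp (h4 h3))
  · have h3 := H23.closure_pair_eq_top hi hx
    have h4 := congrArg (Subgroup.map π) h3
    rw [MonoidHom.map_closure, Set.image_pair, ← MonoidHom.range_eq_map, MonoidHom.range_eq_top.mpr hπs] at h4
    exact h4
end aux

/-- The central quotient of a 2-group of maximal class is dihedral. -/
theorem result {X : Type*} [Group X] [Finite X] (n : ℕ) (hn : 3 ≤ n) (hX : Nat.card X = 2 ^ n) (hc : Group.nilpotencyClass X = n - 1) : Nonempty (X ⧸ Subgroup.center X ≃* DihedralGroup (2 ^ (n - 2))) := by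
  exact aux n hn hX hc

end Cfsg.Agent.S0114
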