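import Cfsg.Statements.S0115
import Cfsg.Agent.H23.MaxClass4

set_option autoImplicit false
set_option linter.all false
open Cfsg

namespace Cfsg.Agent.S0115

section aux
open Subgroup
theorem aux {X : Type*} [Group X] [Finite X] (n : ℕ) (hn : 3 ≤ n) (hX : Nat.card X = 2 ^ n) : Group.nilpotencyClass X = n - 1 ↔ IsKleinFour (X ⧸ commutator X) := by
  haveI : Fact (Nat.Prime 2) := ⟨Nat.prime_two⟩
  have hG : IsPGroup 2 X := IsPGroup.of_card hX
  haveI := hG.isNilpotent
  constructor
  · intro hc
    have hna := H23.not_comm_of_class hn hc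
    obtain ⟨m, rfl⟩ : ∃ m, n = m + 2 := ⟨n - 2, by omega⟩
    have h1 := H23.index_commutator_of_lcs (p := 2) hX hna (by
      intro h
      rw [Subgroup.lowerCentralSeries_eq_bot_iff_nilpotencyClass_le] at h
      omega)
    have h2 : Nat.card (X ⧸ commutator X) = 2 ^ 2 := h1
    refine ⟨by rw [h2]; norm_num, ?_⟩
    rw [← _root_.not_isCyclic_iff_exponent_eq_prime Nat.prime_two h2]
    intro hcyc
    apply hna
    have : IsCyclic X := H2.isCyclic_of_quotient_of_le_frattini (QuotientGroup.mk' (commutator X)) (QuotientGroup.mk'_surjective _)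
      (by rw [QuotientGroup.ker_mk']; exact H2.commutator_le_frattini hG)
    exact IsCyclic.commutative
  · intro hK
    have h8 : 8 ≤ Nat.card X := by
      rw [hX]
      calc 8 = 2 ^ 3 := by norm_num
        _ ≤ 2 ^ n := Nat.pow_le_pow_right (by norm_num) hn
    obtain ⟨k, hk⟩ := H23.taussky _ X rfl hG h8 hK.card_four
    have h1 := hk.card
    rw [hX] at h1
    have h2 : n = k + 2 := Nat.pow_right_injective le_rfl h1
    rw [hk.nilpotencyClass, h2]; rfl
end aux

/-- A 2-group of order 2^n, n ≥ 3, is of maximal class exactly when its commutator quotient is a Klein four-group. -/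
theorem result {X : Type*} [Group X] [Finite X] (n : ℕ) (hn : 3 ≤ n) (hX : Nat.card X = 2 ^ n) : Group.nilpotencyClass X = n - 1 ↔ IsKleinFour (X ⧸ commutator X) := by
  exact aux n hn hX

end Cfsg.Agent.S0115
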