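import Cfsg.Statements.S0118
import Cfsg.Agent.H2.NPCFun3
import Cfsg.Agent.L.SecFC

set_option autoImplicit false
set_option linter.style.haveILetI false
set_option linter.unusedVariables false
set_option linter.unusedSectionVars false
open Cfsg

namespace Cfsg.Agent.S0118

universe u

theorem isCharPFunctor_ZJe {p : ℕ} [Fact p.Prime] (hp : p ≠ 2) :
    Cfsg.IsCharPFunctor.{u} p (fun (S : Type u) [Group S] => H2.ZJe p S) :=
  ⟨fun Q _ _ hQ hn => (H2.npcFun_ZJe hp).ne_bot Q hQ hn,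
    fun Q R _ _ _ _ φ => (H2.npcFun_ZJe hp).equiv φ⟩

/-- Glauberman's ZJ-Theorem, in the case of groups with no section isomorphic to SL(2,p), p odd: conjugation of subsets of a Sylow p-subgroup P inside P is always induced from the normalizer of Z(J(P)). -/
theorem result {G : Type*} [Group G] [Finite G] {p : ℕ} [Fact p.Prime] (hp : p ≠ 2) (hfree : ¬ ∃ (H K : Subgroup G) (hK : (K.subgroupOf H).Normal), Nonempty ((H ⧸ K.subgroupOf H) ≃* Matrix.SpecialLinearGroup (Fin 2) (ZMod p))) (P : Sylow p G) (A : Set G) (hA : A ⊆ (P : Set G)) (g : G) (hAg : (fun a => g⁻¹ * a * g) '' A ⊆ (P : Set G)) : ∃ n ∈ Subgroup.normalizer (Cfsg.centerThompsonOf p (P : Subgroup G) : Set G), ∀ a ∈ A, n⁻¹ * a * n = g⁻¹ * a * g := by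
  have hW := isCharPFunctor_ZJe (p := p) hp
  have hsec : ¬ H2.HasSec G (Matrix.SpecialLinearGroup (Fin 2) (ZMod p)) := by
    rintro ⟨K, L, hL, h⟩
    exact hfree ⟨K, L, hL, h⟩
  have hFC := L.fc_of_sections (p := p) (𝓦 := {fun (S : Type _) [Group S] => H2.ZJe p S}) (by
    intro W' hW'; rw [Set.mem_singleton_iff] at hW'; subst hW'; exact hW) (G := G) (by
    intro K R hR hc
    apply L.fc_of_normal hW
    intro T
    have h1 : ¬ H2.SLConcl p (K ⧸ R.subgroupOf K) := fun h => hsec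
      ((h.hasSec.of_surjective (QuotientGroup.mk'_surjective (R.subgroupOf K))).of_subgroup)
    have h2 := H2.je_normal hp T hc (fun Q _ hQ => H2.isPStableOn_of_not_SLConcl hp h1 Q hQ)
    rw [← H2.WA_ZJe] at h2
    exact h2) G (L.inv_refl G)
  have h1 := (L.csf_iff (L.induced_isConjugacyFunctor hW G) (L.sylIn_top P)).1 (L.csf_in_of_fc hW hFC)
  obtain ⟨x, hx, hxa⟩ := h1 A g⁻¹ (Subgroup.mem_top _) hA (by
    rintro _ ⟨a, ha, rfl⟩
    have := hAg ⟨a, ha, rfl⟩
    rw [inv_inv]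
    exact this)
  refine ⟨x⁻¹, ?_, fun a ha => ?_⟩
  · rw [← H2.WA_ZJe]
    exact inv_mem hx.2
  · have := hxa a ha
    rw [inv_inv] at this ⊢
    exact this

end Cfsg.Agent.S0118
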