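import Cfsg.Statements.S0119
import Cfsg.Agent.H2.Semi
import Cfsg.Agent.H2.Regular
import Cfsg.Agent.S0013

set_option autoImplicit false
set_option linter.style.haveILetI false
set_option linter.unusedVariables false
set_option linter.unusedSectionVars false
open Cfsg

namespace Cfsg.Agent.S0119

open scoped commutatorElement

section
variable {G : Type*} [Group G] [Finite G] {p : ℕ} [Fact p.Prime]

theorem char_le_center (A : Subgroup (MulAut G))
    (hGA : ⁅H2.gr A, H2.ar A⁆ = H2.gr A)
    {D : Subgroup G} (hD : D.Characteristic) (hfix : ∀ a ∈ A, ∀ h ∈ D, a h = h) :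
    D ≤ Subgroup.center G := by
  set K := D.map (H2.il A) with hK
  have hKA : ⁅K, H2.ar A⁆ = ⊥ := by
    rw [Subgroup.commutator_eq_bot_iff_le_centralizer]
    rintro _ ⟨x, hx, rfl⟩
    exact (H2.il_mem_centralizer_ar A).2 fun a ha => hfix a ha x hx
  have hKG : ⁅K, H2.gr A⁆ ≤ K := by
    rw [hK, H2.gr_eq, H2.commutator_map_il]
    apply Subgroup.map_mono
    exact Subgroup.commutator_le_left _ _
  have h4 : ⁅⁅H2.gr A, H2.ar A⁆, K⁆ = ⊥ := by
    apply Subgroup.commutator_commutator_eq_bot_of_rotate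
    · rw [Subgroup.commutator_comm (H2.ar A) K, hKA, Subgroup.commutator_bot_left]
    · rw [eq_bot_iff]
      exact (Subgroup.commutator_mono hKG le_rfl).trans hKA.le
  rw [hGA] at h4
  intro x hx
  rw [Subgroup.mem_center_iff]
  intro g
  have h7 := Subgroup.mem_centralizer_iff.1
      (Subgroup.commutator_eq_bot_iff_le_centralizer.1 h4 (H2.mem_gr A g)) (H2.il A x) ⟨x, hx, rfl⟩
  apply H2.il_injective A
  rw [map_mul, map_mul]; exact h7.symm

theorem center_isComm : IsMulCommutative (Subgroup.center G) := by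
  rw [H20.isMulCommutative_iff]
  intro x _ y hy
  exact Subgroup.mem_center_iff.1 hy x

theorem comm_central_of_class_two (h : commutator G ≤ Subgroup.center G) (x y z : G) :
    z * ⁅x, y⁆ = ⁅x, y⁆ * z := by
  have h1 : ⁅x, y⁆ ∈ commutator G := Subgroup.commutator_mem_commutator (Subgroup.mem_top _) (Subgroup.mem_top _)
  exact Subgroup.mem_center_iff.1 (h h1) z

theorem comm_pow_pow (h : commutator G ≤ Subgroup.center G) (x y : G) (m n : ℕ) :
    ⁅x ^ m, y ^ n⁆ = ⁅x, y⁆ ^ (m * n) := by
  have h1 := H2.comm_pow_right' (v := x ^ m) (a := y) (comm_central_of_class_two h _ _ _) n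
  have h2 := H2.comm_pow_right' (v := y) (a := x) (comm_central_of_class_two h _ _ _) m
  rw [h1]
  have h3 : ⁅x ^ m, y⁆ = ⁅x, y⁆ ^ m := by
    rw [← commutatorElement_inv, h2, ← inv_pow, commutatorElement_inv]
  rw [h3, pow_mul]

theorem main (hG : IsPGroup p G) (A : Subgroup (MulAut G)) (hA : Nat.Coprime (Nat.card A) p)
    (hGA : ⁅H2.gr A, H2.ar A⁆ = H2.gr A)
    (hchar : ∀ H : Subgroup G, H.Characteristic → IsMulCommutative H →
      ∀ a ∈ A, ∀ h ∈ H, a h = h) :
    Cfsg.IsSpecial p G ∧ (∀ g : G, (g ∈ Subgroup.center G ↔ ∀ a ∈ A, a g = g)) := by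
  have hcen : ∀ D : Subgroup G, D.Characteristic → IsMulCommutative D → D ≤ Subgroup.center G :=
    fun D h1 h2 => char_le_center A hGA h1 (hchar D h1 h2)
  -- class two
  have hclass : commutator G ≤ Subgroup.center G := by
    obtain ⟨C, hC1, hC2, hC3, hC4⟩ := H23.exists_critical hG
    have hZC : C ⊓ Subgroup.centralizer (C : Set G) ≤ Subgroup.center G := by
      apply hcen
      · haveI := hC1
        infer_instance
      · rw [H20.isMulCommutative_iff]
        exact H2.comm_of_inf_centralizer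
    have h1 : ⁅⁅C, (⊤ : Subgroup G)⁆, (⊤ : Subgroup G)⁆ = ⊥ := by
      rw [Subgroup.commutator_eq_bot_iff_le_centralizer, Subgroup.commutator_comm C]
      intro x hx
      rw [Subgroup.mem_centralizer_iff]
      intro y _
      exact Subgroup.mem_center_iff.1 (hZC (hC2 hx)) y
    have h2 : ⁅⁅(⊤ : Subgroup G), (⊤ : Subgroup G)⁆, C⁆ = ⊥ := by
      apply Subgroup.commutator_commutator_eq_bot_of_rotate
      · rw [Subgroup.commutator_comm (⊤ : Subgroup G) C]; exact h1
      · exact h1
    have h3 : commutator G ≤ Subgroup.centralizer (C : Set G) := by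
      rw [commutator_def]
      exact Subgroup.commutator_eq_bot_iff_le_centralizer.1 h2
    exact (le_inf (h3.trans hC3) h3).trans hZC
  -- fixed points of A
  have hZA : ∀ g ∈ Subgroup.center G, ∀ a ∈ A, a g = g := by
    intro g hg a ha
    exact hchar (Subgroup.center G) inferInstance center_isComm a ha g hg
  have hAG' : ∀ g : G, (∀ a ∈ A, a g = g) → g ∈ commutator G := by
    intro g hg
    have h1 := H23.commutator_inf_centralizer_le_derived (H2.ar_le_normalizer A)
      (H23.card_coprime_of_isPGroup (H2.isPGroup_gr A hG) (H2.card_ar_coprime A hA))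
    have h2 : H2.il A g ∈ ⁅H2.gr A, H2.gr A⁆ := by
      apply h1
      rw [hGA]
      exact ⟨H2.mem_gr A g, (H2.il_mem_centralizer_ar A).2 hg⟩
    rw [H2.gr_eq, H2.commutator_map_il] at h2
    obtain ⟨y, hy, hyg⟩ := h2
    rw [commutator_def, ← H2.il_injective A hyg]
    exact hy
  have hZeq : commutator G = Subgroup.center G :=
    le_antisymm hclass fun g hg => hAG' g (hZA g hg)
  -- G' has exponent p
  have hexp : ∀ n : ℕ, 1 ≤ n → (∀ x y : G, ⁅x, y⁆ ^ p ^ (n + 1) = 1) →
      ∀ x y : G, ⁅x, y⁆ ^ p ^ n = 1 := by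
    intro n hn hxy
    have hD1 : (powerClosure p n (⊤ : Subgroup G)).Characteristic := by
      rw [Subgroup.characteristic_iff_map_le]
      intro φ
      rw [H2.powerClosure_map]
      exact H2.powerClosure_mono le_top
    have hD2 : IsMulCommutative ↥(powerClosure p n (⊤ : Subgroup G)) := by
      apply Subgroup.isMulCommutative_closure
      rintro _ ⟨x, _, rfl⟩ _ ⟨y, _, rfl⟩
      rw [← commutatorElement_eq_one_iff_mul_comm, comm_pow_pow hclass, ← pow_add]
      have h2 : p ^ (n + n) = p ^ (n + 1) * p ^ (n - 1) := by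
        rw [← pow_add]; congr 1; omega
      rw [h2, pow_mul, hxy, one_pow]
    have hD3 := hcen _ hD1 hD2
    intro x y
    have h3 : x ^ p ^ n ∈ Subgroup.center G :=
      hD3 (Subgroup.subset_closure ⟨x, Subgroup.mem_top x, rfl⟩)
    have h4 : ⁅x ^ p ^ n, y ^ 1⁆ = 1 := by
      rw [commutatorElement_eq_one_iff_mul_comm]
      exact (Subgroup.mem_center_iff.1 h3 _).symm
    rwa [comm_pow_pow hclass, mul_one] at h4
  have hexp1 : ∀ x y : G, ⁅x, y⁆ ^ p = 1 := by
    obtain ⟨k, hk⟩ := IsPGroup.iff_card.1 hG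
    have h1 : ∀ m : ℕ, (∀ x y : G, ⁅x, y⁆ ^ p ^ (m + 1) = 1) → ∀ x y : G, ⁅x, y⁆ ^ p ^ 1 = 1 := by
      intro m
      induction m with
      | zero => intro h; simpa using h
      | succ m ih => intro h; exact ih (hexp (m + 1) (by omega) h)
    have h2 := h1 k (fun x y => by
      rw [pow_succ, pow_mul, ← hk, pow_card_eq_one', one_pow])
    simpa using h2
  refine ⟨⟨hG, ?_, hZeq⟩, fun g => ⟨fun hg => hZA g hg, fun hg => hclass (hAG' g hg)⟩⟩
  apply le_antisymm
  · apply S0013.result p hG
    · exact hclass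
    · intro x
      rw [Subgroup.mem_center_iff]
      intro y
      have h1 := comm_pow_pow hclass y x 1 p
      rw [one_mul, hexp1, pow_one, commutatorElement_eq_one_iff_mul_comm] at h1
      exact h1
  · rw [← hZeq]
    exact H2.commutator_le_frattini hG
end

/-- If a p'-group A of automorphisms of a p-group G satisfies G = [G, A] and acts trivially on every characteristic abelian subgroup, then G is special with centre equal to the fixed points of A. -/
theorem result {G : Type*} [Group G] [Finite G] {p : ℕ} [Fact p.Prime] (hG : IsPGroup p G) (A : Subgroup (MulAut G)) (hA : Nat.Coprime (Nat.card A) p) (hGA : Subgroup.closure {x : G | ∃ g : G, ∃ a ∈ A, x = g⁻¹ * a g} = ⊤) (hchar : ∀ H : Subgroup G, H.Characteristic → IsMulCommutative H → ∀ a ∈ A, ∀ h ∈ H, a h = h) : Cfsg.IsSpecial p G ∧ (∀ g : G, (g ∈ Subgroup.center G ↔ ∀ a ∈ A, a g = g)) := by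
  exact main hG A hA (H2.commutator_gr_ar_of_closure A hGA) hchar

end Cfsg.Agent.S0119
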