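import Cfsg.Statements.S0125
import Cfsg.Agent.H2.Hall

set_option autoImplicit false
set_option linter.style.haveILetI false
set_option linter.unusedVariables false
set_option linter.unusedSectionVars false
open Cfsg

namespace Cfsg.Agent.S0125

/-- The centralizer of a self-centralizing normal subgroup A of a Sylow p-subgroup is the direct product of A with a normal p'-subgroup. -/
theorem result {G : Type*} [Group G] [Finite G] {p : ℕ} [Fact p.Prime] (R : Sylow p G) (A : Subgroup G) (hAR : A ≤ (R : Subgroup G)) (hAn : (R : Subgroup G) ≤ Subgroup.normalizer (A : Set G)) (hC : (R : Subgroup G) ⊓ Subgroup.centralizer (A : Set G) = A) : ∃ H : Subgroup G, H ≤ Subgroup.centralizer (A : Set G) ∧ Nat.Coprime (Nat.card H) p ∧ Subgroup.centralizer (A : Set G) ≤ Subgroup.normalizer (H : Set G) ∧ H ⊓ A = ⊥ ∧ H ⊔ A = Subgroup.centralizer (A : Set G) := by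
  have hp : p.Prime := Fact.out
  set C := Subgroup.centralizer (A : Set G) with hCdef
  have hAC : A ≤ C := by
    have : A ≤ (R : Subgroup G) ⊓ C := hC.ge
    exact this.trans inf_le_right
  have hAcomm : ∀ x ∈ A, ∀ y ∈ A, x * y = y * x := fun x hx y hy =>
    (Subgroup.mem_centralizer_iff.1 (hAC hy)) x hx
  -- `A` has index prime to `p` in `C`
  have hidx : ¬ p ∣ A.relIndex C := by
    -- work in `X = R C`
    have hRN : (R : Subgroup G) ≤ Subgroup.normalizer (C : Set G) := by
      refine hAn.trans ?_
      intro x hx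
      rw [Subgroup.mem_normalizer_iff]
      have key : ∀ y ∈ Subgroup.normalizer (A : Set G), ∀ w ∈ C, y * w * y⁻¹ ∈ C := by
        intro y hy w hw
        rw [hCdef, Subgroup.mem_centralizer_iff]
        intro d hd
        have h4 : y⁻¹ * d * y ∈ A := by
          have := (Subgroup.mem_normalizer_iff.1 (inv_mem hy) d).1 hd
          simpa using this
        have h5 := (Subgroup.mem_centralizer_iff.1 hw) _ h4
        calc d * (y * w * y⁻¹) = y * ((y⁻¹ * d * y) * w) * y⁻¹ := by group
          _ = y * (w * (y⁻¹ * d * y)) * y⁻¹ := by rw [h5]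
          _ = _ := by group
      intro a
      constructor
      · intro ha; exact key x hx a ha
      · intro ha
        have := key _ (inv_mem hx) _ ha
        have h6 : x⁻¹ * (x * a * x⁻¹) * x⁻¹⁻¹ = a := by group
        rwa [h6] at this
    set X : Subgroup G := (R : Subgroup G) ⊔ C with hX
    obtain ⟨S, hS⟩ := H2.exists_sylow_of_le R X le_sup_left
    haveI hCn : (C.subgroupOf X).Normal := by
      rw [Subgroup.normal_subgroupOf_iff_le_normalizer le_sup_right]
      exact sup_le hRN Subgroup.le_normalizer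
    have h1 := H2.not_dvd_relIndex_of_normal S (C.subgroupOf X)
    rw [hS] at h1
    have h2 : ((R : Subgroup G).subgroupOf X).relIndex (C.subgroupOf X) =
        (R : Subgroup G).relIndex C := by
      rw [← Subgroup.relIndex_map_map_of_injective _ _ X.subtype_injective,
        Subgroup.subgroupOf_map_subtype, Subgroup.subgroupOf_map_subtype,
        inf_eq_left.2 (le_sup_left : (R : Subgroup G) ≤ X), inf_eq_left.2 (le_sup_right : C ≤ X)]
    rw [h2, ← Subgroup.inf_relIndex_right, hC] at h1
    exact h1
  obtain ⟨S, hS⟩ := H2.exists_sylow_subgroupOf (R.2.to_le hAR) hidx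
  have hScen : Subgroup.normalizer (S : Set C) ≤ Subgroup.centralizer (S : Set C) := by
    intro x _
    rw [Subgroup.mem_centralizer_iff]
    intro y hy
    have hyA : (y : G) ∈ A := by
      have : y ∈ (S : Subgroup C) := hy
      rw [hS, Subgroup.mem_subgroupOf] at this
      exact this
    exact Subtype.ext ((Subgroup.mem_centralizer_iff.1 x.2) _ hyA)
  obtain ⟨N, hNn, hc, hNp⟩ : ∃ N : Subgroup C, N.Normal ∧ N.IsComplement' (S : Subgroup C) ∧
      ¬ p ∣ Nat.card N :=
    ⟨(MonoidHom.transferSylow S hScen).ker, inferInstance,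
      MonoidHom.ker_transferSylow_isComplement' S hScen,
      MonoidHom.not_dvd_card_ker_transferSylow S hScen⟩
  have hAmap : (S : Subgroup C).map C.subtype = A := by
    rw [hS, Subgroup.subgroupOf_map_subtype, inf_eq_left]; exact hAC
  refine ⟨N.map C.subtype, ?_, ?_, ?_, ?_, ?_⟩
  · rintro _ ⟨y, _, rfl⟩; exact y.2
  · rw [Subgroup.card_map_of_injective C.subtype_injective]
    exact ((Nat.Prime.coprime_iff_not_dvd hp).2 hNp).symm
  · rw [Subgroup.le_normalizer_iff]
    rintro x hx _ ⟨y, hy, rfl⟩
    exact ⟨⟨x, hx⟩ * y * (⟨x, hx⟩)⁻¹, hNn.conj_mem y hy ⟨x, hx⟩, rfl⟩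
  · rw [← hAmap, ← Subgroup.map_inf _ _ _ C.subtype_injective, hc.disjoint.eq_bot,
      Subgroup.map_bot]
  · calc N.map C.subtype ⊔ A = N.map C.subtype ⊔ (S : Subgroup C).map C.subtype := by rw [hAmap]
      _ = (N ⊔ (S : Subgroup C)).map C.subtype := (Subgroup.map_sup _ _ _).symm
      _ = C := by rw [hc.sup_eq_top, ← MonoidHom.range_eq_map, Subgroup.range_subtype]

end Cfsg.Agent.S0125
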