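import Cfsg.Statements.S0126
import Cfsg.Agent.H23.RankOne2
import Cfsg.Agent.H20.ElemAb

set_option autoImplicit false
set_option linter.all false
open Cfsg

namespace Cfsg.Agent.S0126

/-- For odd p, every non-cyclic p-group contains a normal elementary abelian subgroup of order p^2. -/
theorem result {R : Type*} [Group R] [Finite R] {p : ℕ} [Fact p.Prime] (hp : p ≠ 2) (hR : IsPGroup p R) (hnc : ¬ IsCyclic R) : ∃ A : Subgroup R, A.Normal ∧ Cfsg.IsElementaryAbelian p A ∧ Nat.card A = p ^ 2 := by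
  obtain ⟨E, h1, h2, h3⟩ := H23.exists_normal_sq_of_odd hR hp hnc
  exact ⟨E, h1, H20.isElementaryAbelian_iff.mpr ⟨H23.comm_of_card_sq h2, h3⟩, h2⟩

end Cfsg.Agent.S0126
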