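import Cfsg.Statements.S3771
import Cfsg.Agent.H23.PGroup
import Cfsg.Agent.H2.AutElem

set_option autoImplicit false
set_option linter.all false
open Cfsg

namespace Cfsg.Agent.S3771

section aux
open Subgroup
open scoped Pointwise commutatorElement

theorem aux {R : Type*} [Group R] [Finite R] {p : ℕ} [Fact p.Prime] (hR : IsPGroup p R) (hrank : Cfsg.PRankLE p 2 R) (hexp : ∀ x : R, x ^ p = 1) : Nat.card R ≤ p ^ 3 := by
  obtain ⟨A, -, hAn, hA, hAC⟩ := H23.exists_selfcentralizing hR ⊥ inferInstance inferInstance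
  have hcard := hrank A hA (fun a _ => hexp a)
  obtain ⟨n, hn⟩ := IsPGroup.iff_card.mp (hR.to_subgroup A)
  have hp := (Fact.out : p.Prime)
  have hn2 : n ≤ 2 := by
    rw [hn] at hcard
    exact (Nat.pow_le_pow_iff_right hp.one_lt).mp hcard
  have hdvd := H2.relIndex_centralizer_dvd_card_mulAut A
  haveI := hAn
  rw [Subgroup.normalizer_eq_top, hAC, relIndex_top_right] at hdvd
  have hmul := A.card_mul_index
  obtain ⟨j, hj⟩ : ∃ j, A.index = p ^ j := hR.index A
  rw [H2.card_mulAut_elementary (E := A) (p := p) (n := n) (fun a b => hA.is_comm.comm a b)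
    (fun a => Subtype.ext (hexp a)) hn, hj] at hdvd
  rw [hn, hj, ← pow_add] at hmul
  rw [← hmul]
  apply Nat.pow_le_pow_right hp.pos
  interval_cases n
  · rw [Fin.prod_univ_zero] at hdvd
    have h1 := Nat.dvd_one.mp hdvd
    have : j = 0 := by
      by_contra h
      have := Nat.one_lt_pow h hp.one_lt
      omega
    omega
  · simp at hdvd
    have : j = 0 := by
      by_contra h
      have h1 : p ∣ p - 1 := (dvd_pow_self p h).trans hdvd
      have h2 := Nat.le_of_dvd (Nat.sub_pos_of_lt hp.one_lt) h1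
      have := hp.one_lt
      omega
    omega
  · rw [Fin.prod_univ_two] at hdvd
    simp only [Fin.val_zero, Fin.val_one, pow_zero, pow_one] at hdvd
    have h0 : j ≤ 1 := by
      by_contra h
      push Not at h
      have h1 : p ^ 2 ∣ (p ^ 2 - 1) * (p ^ 2 - p) := (pow_dvd_pow p h).trans hdvd
      have h2 : p ^ 2 - p = p * (p - 1) := by
        rw [Nat.mul_sub, mul_one, pow_two]
      rw [h2] at h1
      have h3 : (p ^ 2 - 1) * (p * (p - 1)) = p * ((p ^ 2 - 1) * (p - 1)) := by ring
      rw [h3, pow_two] at h1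
      have h4 : p ∣ (p ^ 2 - 1) * (p - 1) := Nat.dvd_of_mul_dvd_mul_left hp.pos (by rwa [pow_two])
      rcases hp.dvd_mul.mp h4 with h5 | h5
      · have h6 : p ∣ p ^ 2 := dvd_pow_self p two_ne_zero
        have h7 : p ∣ p ^ 2 - (p ^ 2 - 1) := Nat.dvd_sub h6 h5
        have h8 : p ^ 2 - (p ^ 2 - 1) = 1 := by
          have : 1 ≤ p ^ 2 := Nat.one_le_pow _ _ hp.pos
          omega
        rw [h8] at h7
        exact hp.one_lt.ne' (Nat.dvd_one.mp h7)
      · have h2 := Nat.le_of_dvd (Nat.sub_pos_of_lt hp.one_lt) h5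
        have := hp.one_lt
        omega
    omega

end aux

/-- Let p be a prime and R a finite p-group of p-rank at most 2 (no elementary abelian subgroup of order p³) in which every element has order dividing p. Then R has order at most p³. -/
theorem result {R : Type*} [Group R] [Finite R] {p : ℕ} [Fact p.Prime] (hR : IsPGroup p R) (hrank : Cfsg.PRankLE p 2 R) (hexp : ∀ x : R, x ^ p = 1) : Nat.card R ≤ p ^ 3 := by
  exact aux hR hrank hexp

end Cfsg.Agent.S3771
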