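import Cfsg.Statements.S0128
import Cfsg.Agent.S3771
import Cfsg.Agent.H2.Om4

set_option autoImplicit false
set_option linter.style.haveILetI false
set_option linter.unusedVariables false
set_option linter.unusedSectionVars false
open Cfsg

namespace Cfsg.Agent.S0128

open Subgroup
open scoped commutatorElement

universe u
variable {p : ℕ} [hp : Fact p.Prime]

theorem rk_sub {R : Type u} [Group R]
    (hrk : ∀ E : Subgroup R, Cfsg.IsElementaryAbelian p E → Nat.card E ≤ p ^ 2) (H : Subgroup R) :
    ∀ E : Subgroup H, Cfsg.IsElementaryAbelian p E → Nat.card E ≤ p ^ 2 := by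
  intro E hE
  have h1 := hrk (E.map H.subtype) ⟨?_, ?_⟩
  · rwa [Subgroup.card_map_of_injective H.subtype_injective] at h1
  · haveI := hE.1
    infer_instance
  · rintro _ ⟨x, hx, rfl⟩
    rw [← map_pow, hE.2 x hx, map_one]

theorem main (h3 : 3 < p) (n : ℕ) : ∀ {R : Type u} [Group R] [Finite R], IsPGroup p R → Nat.card R = n →
    (∀ E : Subgroup R, Cfsg.IsElementaryAbelian p E → Nat.card E ≤ p ^ 2) →
    ∀ x y : R, x ^ p = 1 → y ^ p = 1 → (x * y) ^ p = 1 := by
  induction n using Nat.strong_induction_on with
  | _ n ih =>
  intro R _ _ hR hn hrk x y hx hy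
  have hsub : ∀ H : Subgroup R, H ≠ ⊤ → ∀ a ∈ H, ∀ b ∈ H, a ^ p = 1 → b ^ p = 1 → (a * b) ^ p = 1 := by
    intro H hH a ha b hb ha1 hb1
    have hlt : Nat.card H < n := by
      rw [← hn]
      refine lt_of_le_of_ne (Subgroup.card_le_card_group H) ?_
      intro h
      exact hH (Subgroup.eq_top_of_card_eq H h)
    have h1 := ih _ hlt (hR.to_subgroup H) rfl (rk_sub hrk H) ⟨a, ha⟩ ⟨b, hb⟩ (Subtype.ext ha1) (Subtype.ext hb1)
    exact congrArg Subtype.val h1
  by_cases hH : closure ({x, y} : Set R) = ⊤
  · by_cases hx1 : zpowers x = ⊤
    · have hy1 : y ∈ zpowers x := by rw [hx1]; exact mem_top y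
      obtain ⟨k, rfl⟩ := mem_zpowers_iff.1 hy1
      have hc : Commute x (x ^ k) := (Commute.refl x).zpow_right k
      rw [hc.mul_pow, hx, hy, one_mul]
    · obtain ⟨M, hM, hxM⟩ := (eq_top_or_exists_le_coatom (zpowers x)).resolve_left hx1
      haveI : Group.IsNilpotent R := hR.isNilpotent
      haveI hMn : M.Normal := NormalizerCondition.normal_of_coatom M Group.normalizerCondition_of_isNilpotent hM
      have hNM : normalClosure ({x} : Set R) ≤ M := by
        apply normalClosure_le_normal
        rw [Set.singleton_subset_iff]
        exact hxM (mem_zpowers x)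
      have hNt : normalClosure ({x} : Set R) ≠ ⊤ := by
        intro h
        rw [h, top_le_iff] at hNM
        exact hM.1 hNM
      have hexp : ∀ z ∈ normalClosure ({x} : Set R), z ^ p = 1 := by
        intro z hz
        have h4 : z ∈ normalClosure ({x} : Set R) ∧ z ^ p = 1 := by
          unfold Subgroup.normalClosure at hz
          induction hz using Subgroup.closure_induction with
          | mem z hz =>
            refine ⟨Subgroup.subset_closure hz, ?_⟩
            rw [Group.mem_conjugatesOfSet_iff] at hz
            obtain ⟨a, ha, hc⟩ := hz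
            rw [Set.mem_singleton_iff] at ha
            subst ha
            obtain ⟨c, hc⟩ := isConj_iff.1 hc
            rw [← hc, conj_pow, hx, mul_one, mul_inv_cancel]
          | one => exact ⟨one_mem _, one_pow _⟩
          | mul a b _ _ h5 h6 =>
            exact ⟨mul_mem h5.1 h6.1, hsub _ hNt a h5.1 b h6.1 h5.2 h6.2⟩
          | inv a _ h5 =>
            exact ⟨inv_mem h5.1, by rw [inv_pow, h5.2, inv_one]⟩
        exact h4.2
      have hN3 : Nat.card (normalClosure ({x} : Set R)) ≤ p ^ 3 := by
        refine S3771.result (hR.to_subgroup _) ?_ (fun z => Subtype.ext (hexp z z.2))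
        intro A hA hA1
        exact rk_sub hrk _ A ⟨hA, hA1⟩
      have hq : Nat.card (R ⧸ normalClosure ({x} : Set R)) ≤ p := by
        have h5 : zpowers (QuotientGroup.mk' (normalClosure ({x} : Set R)) y) = ⊤ := by
          rw [eq_top_iff]
          intro z _
          obtain ⟨w, rfl⟩ := QuotientGroup.mk'_surjective _ z
          have hw : w ∈ closure ({x, y} : Set R) := by rw [hH]; exact mem_top w
          have hle : closure ({x, y} : Set R) ≤ comap (QuotientGroup.mk' (normalClosure ({x} : Set R)))
              (zpowers (QuotientGroup.mk' (normalClosure ({x} : Set R)) y)) := by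
            rw [closure_le]
            rintro w' (rfl | rfl)
            · show _ ∈ comap _ _
              rw [mem_comap]
              have : QuotientGroup.mk' (normalClosure ({w'} : Set R)) w' = 1 := by
                rw [QuotientGroup.mk'_apply, QuotientGroup.eq_one_iff]
                exact Subgroup.subset_normalClosure rfl
              rw [this]
              exact one_mem _
            · show _ ∈ comap _ _
              rw [mem_comap]
              exact mem_zpowers _
          exact hle hw
        rw [← Subgroup.card_top, ← h5, Nat.card_zpowers]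
        refine orderOf_le_of_pow_eq_one hp.out.pos ?_
        rw [← map_pow, hy, map_one]
      obtain ⟨m, hm⟩ := IsPGroup.iff_card.mp hR
      have hm4 : m ≤ 4 := by
        rw [← Nat.pow_le_pow_iff_right hp.out.one_lt, ← hm, Subgroup.card_eq_card_quotient_mul_card_subgroup (normalClosure ({x} : Set R))]
        calc _ ≤ p * p ^ 3 := Nat.mul_le_mul hq hN3
          _ = p ^ 4 := by ring
      exact H2.Om4.mul_pow h3 hm hm4 hx hy
  · exact hsub _ hH x (Subgroup.subset_closure (by simp)) y (Subgroup.subset_closure (by simp)) hx hy

/-- For p > 3, in a p-group of p-rank at most 2 the elements of order dividing p generate a subgroup of exponent dividing p. -/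
theorem result {R : Type*} [Group R] [Finite R] {p : ℕ} [Fact p.Prime] (hp : 3 < p) (hR : IsPGroup p R) (hrk : ∀ E : Subgroup R, Cfsg.IsElementaryAbelian p E → Nat.card E ≤ p ^ 2) (g : R) (hg : g ∈ Subgroup.closure {x : R | x ^ p = 1}) : g ^ p = 1 := by
  induction hg using Subgroup.closure_induction with
  | mem z hz => exact hz
  | one => exact one_pow _
  | mul a b _ _ h5 h6 => exact main hp _ hR rfl hrk a b h5 h6
  | inv a _ h5 => rw [inv_pow, h5, inv_one]

end Cfsg.Agent.S0128
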