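import Cfsg.Statements.S0129
import Cfsg.Agent.H10.AB1

set_option autoImplicit false
open Cfsg

namespace Cfsg.Agent.S0129

/-- The order of a p-group is bounded by p^(a(a+1)/2) when it has a maximal normal abelian subgroup of order p^a. -/
theorem result {G : Type*} [Group G] [Finite G] {p : ℕ} [Fact p.Prime] (hG : IsPGroup p G) (A : Subgroup G) [A.Normal] (hA : IsMulCommutative A) (hmax : ∀ B : Subgroup G, B.Normal → IsMulCommutative B → A ≤ B → B = A) (a : ℕ) (ha : Nat.card A = p ^ a) : Nat.card G ≤ p ^ (a * (a + 1) / 2) := by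
  have hp : p.Prime := Fact.out
  obtain ⟨A', hAA', hA'n, hA'c, hA'⟩ := H23.exists_selfcentralizing hG A inferInstance hA
  have : A' = A := hmax A' hA'n hA'c hAA'
  subst this
  have h := H10.AB.main hG A' a ha a 0 ⊥ (by omega) inferInstance bot_le (by simp)
  rw [hA', ha] at h
  simp only [Finset.range_zero, Finset.sum_empty, pow_zero, mul_one] at h
  have h1 : Nat.card (Subgroup.centralizer ((⊥ : Subgroup G) : Set G)) = Nat.card G := by
    rw [show Subgroup.centralizer ((⊥ : Subgroup G) : Set G) = ⊤ from ?_]
    · exact Subgroup.card_top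
    · rw [eq_top_iff]
      intro x _
      rw [Subgroup.mem_centralizer_iff]
      intro y hy
      rw [SetLike.mem_coe, Subgroup.mem_bot] at hy
      rw [hy]; simp
  rw [h1] at h
  refine h.trans (le_of_eq ?_)
  rw [← pow_add]
  congr 1
  have h2 := Finset.sum_range_id (a + 1)
  rw [Finset.sum_range_succ] at h2
  simp only [id, Nat.add_sub_cancel] at h2
  rw [add_comm, h2, mul_comm]

end Cfsg.Agent.S0129
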