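import Cfsg.Statements.S0131
import Cfsg.Agent.H2.Conj

set_option autoImplicit false
set_option linter.style.haveILetI false
set_option linter.unusedVariables false
set_option linter.unusedSectionVars false
open Cfsg

namespace Cfsg.Agent.S0131

/-- P/P' has a normal complement in G exactly when the focal subgroup G' ∩ P is as small as possible, namely P'. -/
theorem result {G : Type*} [Group G] [Finite G] {p : ℕ} [Fact p.Prime] (P : Sylow p G) : (∃ N : Subgroup G, N.Normal ∧ N ⊓ (P : Subgroup G) = ⁅(P : Subgroup G), (P : Subgroup G)⁆ ∧ N ⊔ (P : Subgroup G) = ⊤) ↔ commutator G ⊓ (P : Subgroup G) = ⁅(P : Subgroup G), (P : Subgroup G)⁆ := by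
  constructor
  · rintro ⟨N, hN, h1, h2⟩
    apply le_antisymm
    · -- `G / N` is isomorphic to `P / P'`, hence abelian
      have hcomm : commutator G ≤ N := by
        have h3 : ⁅(P : Subgroup G), (P : Subgroup G)⁆ ≤ N := by rw [← h1]; exact inf_le_left
        haveI := hN
        rw [← QuotientGroup.ker_mk' N, ← Subgroup.map_eq_bot_iff, commutator_def,
          Subgroup.map_commutator]
        have h4 : (⊤ : Subgroup G).map (QuotientGroup.mk' N) =
            (P : Subgroup G).map (QuotientGroup.mk' N) := by
          rw [← h2, Subgroup.map_sup]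
          have : N.map (QuotientGroup.mk' N) = ⊥ := by
            rw [Subgroup.map_eq_bot_iff, QuotientGroup.ker_mk']
          rw [this, bot_sup_eq]
        rw [h4, ← Subgroup.map_commutator, Subgroup.map_eq_bot_iff, QuotientGroup.ker_mk']
        exact h3
      rw [← h1]
      exact inf_le_inf_right _ hcomm
    · exact le_inf (Subgroup.commutator_mono le_top le_top) (Subgroup.commutator_le_self _)
  · intro h
    refine ⟨P.transferFocal.ker, inferInstance, ?_, ?_⟩
    · rw [Subgroup.ker_transferFocal_inf_eq_focalSubgroup,
        ← Subgroup.commutator_inf_eq_focalSubgroup, h]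
    · rw [← Subgroup.index_eq_one]
      have hker : P.transferFocal.ker.index = Nat.card (P ⧸ P.focalSubgroupOf) := by
        rw [Subgroup.index_ker, MonoidHom.range_eq_top.2 (Subgroup.transferFocal_surjective P),
          Subgroup.card_top]
      have hpg : IsPGroup p (P ⧸ P.focalSubgroupOf) := P.2.to_quotient _
      obtain ⟨k, hk⟩ := IsPGroup.iff_card.1 hpg
      have h1 : (P.transferFocal.ker ⊔ (P : Subgroup G)).index ∣ p ^ k := by
        rw [← hk, ← hker]; exact Subgroup.index_dvd_of_le le_sup_left
      have h2 : (P.transferFocal.ker ⊔ (P : Subgroup G)).index ∣ (P : Subgroup G).index :=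
        Subgroup.index_dvd_of_le le_sup_right
      have hp : p.Prime := Fact.out
      obtain ⟨j, _, hj⟩ := (Nat.dvd_prime_pow hp).1 h1
      rcases Nat.eq_zero_or_pos j with h0 | h0
      · rw [hj, h0, pow_zero]
      · exfalso
        apply P.not_dvd_index
        refine (dvd_pow_self p h0.ne').trans ?_
        rw [← hj]; exact h2

end Cfsg.Agent.S0131
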