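import Cfsg.Statements.S0132
import Cfsg.Agent.H2.Frobenius
import Cfsg.Agent.H2.Hall
import Cfsg.Agent.H1.Cores

set_option autoImplicit false
set_option linter.style.haveILetI false
set_option linter.unusedVariables false
set_option linter.unusedSectionVars false
open Cfsg

namespace Cfsg.Agent.S0132

open Cfsg.Agent.H2
open Subgroup

theorem aux {G : Type*} [Group G] [Finite G] {p : ℕ} [Fact p.Prime]
    (h1 : ¬ Cfsg.HasNormalPComplement p G)
    (h2 : ∀ H : Subgroup G, H ≠ ⊤ → Cfsg.HasNormalPComplement p H) :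
    ∃ (X : Subgroup G) (g : G), IsPGroup p X ∧ X.Normal ∧ Nat.Coprime (orderOf g) p ∧
      g ∉ centralizer (X : Set G) ∧ X ⊔ zpowers g = ⊤ := by
  have h3 : ¬ ∀ X : Subgroup G, IsPGroup p X → ∀ g ∈ normalizer (X : Set G),
      Nat.Coprime (orderOf g) p → g ∈ centralizer (X : Set G) :=
    fun h => h1 (hasNormalPComplement_of_centralizer h)
  push Not at h3
  obtain ⟨X, hX, g, hgN, hgo, hgC⟩ := h3
  have hXN : X ⊔ zpowers g ≤ normalizer (X : Set G) :=
    sup_le le_normalizer (by rw [zpowers_le]; exact hgN)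
  have htop : X ⊔ zpowers g = ⊤ := by
    by_contra hne
    have h4 := h2 _ hne
    apply hgC
    have hgH : g ∈ X ⊔ zpowers g := (le_sup_right : zpowers g ≤ _) (mem_zpowers g)
    have h5 := mem_centralizer_of_hasNormalPComplement h4 (X := X.subgroupOf (X ⊔ zpowers g))
      (hX.comap_of_injective _ (Subgroup.subtype_injective _)) (g := ⟨g, hgH⟩) (by
        rw [← Subgroup.subgroupOf_normalizer_eq le_sup_left, mem_subgroupOf]
        exact hgN) (by rwa [Subgroup.orderOf_mk])
    rw [mem_centralizer_iff] at h5 ⊢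
    intro x hx
    have h6 := h5 ⟨x, (le_sup_left : X ≤ X ⊔ zpowers g) hx⟩ (by
      rw [SetLike.mem_coe, mem_subgroupOf]; exact hx)
    exact congrArg Subtype.val h6
  refine ⟨X, g, hX, ?_, hgo, hgC, htop⟩
  rw [← normalizer_eq_top_iff, ← top_le_iff, ← htop]
  exact hXN

/-- A minimal non-p-nilpotent finite group is a minimal non-nilpotent group with a normal Sylow p-subgroup. -/
theorem result {G : Type*} [Group G] [Finite G] {p : ℕ} [Fact p.Prime] (h1 : ¬ Cfsg.HasNormalPComplement p G) (h2 : ∀ H : Subgroup G, H ≠ ⊤ → Cfsg.HasNormalPComplement p H) : (∀ H : Subgroup G, H ≠ ⊤ → Group.IsNilpotent H) ∧ ¬ Group.IsNilpotent G ∧ ∀ P : Sylow p G, (P : Subgroup G).Normal := by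
  classical
  have hp : p.Prime := Fact.out
  obtain ⟨X, g, hX, hXn, hgo, hgC, htop⟩ := aux h1 h2
  -- every element outside: quotient is cyclic generated by g, of order prime to p
  have hmem : ∀ y : G, ∃ k : ℤ, (QuotientGroup.mk' X y) = (QuotientGroup.mk' X g) ^ k := by
    intro y
    have hy : y ∈ X ⊔ zpowers g := by rw [htop]; exact mem_top y
    obtain ⟨a, ha, b, hb, rfl⟩ := (mem_sup_of_normal_left).1 hy
    obtain ⟨k, rfl⟩ := mem_zpowers_iff.1 hb
    refine ⟨k, ?_⟩
    rw [map_mul, map_zpow]
    have : QuotientGroup.mk' X a = 1 := by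
      rw [QuotientGroup.mk'_apply, QuotientGroup.eq_one_iff]; exact ha
    rw [this, one_mul]
  have hidx : ¬ p ∣ X.index := by
    rw [index_eq_card]
    intro hd
    obtain ⟨y, hy⟩ := exists_prime_orderOf_dvd_card' (G := G ⧸ X) p hd
    obtain ⟨y, rfl⟩ := QuotientGroup.mk'_surjective X y
    obtain ⟨k, hk⟩ := hmem y
    have h3 : orderOf (QuotientGroup.mk' X y) ∣ orderOf (QuotientGroup.mk' X g) := by
      rw [hk]; exact orderOf_dvd_of_mem_zpowers ⟨k, rfl⟩
    have h4 := h3.trans (orderOf_map_dvd (QuotientGroup.mk' X) g)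
    rw [hy] at h4
    have h5 : p ∣ Nat.gcd (orderOf g) p := Nat.dvd_gcd h4 dvd_rfl
    rw [hgo] at h5
    exact hp.one_lt.ne' (Nat.dvd_one.mp h5)
  have hsyl : ∀ P : Sylow p G, (P : Subgroup G) = X := by
    intro P
    have hXs : ((hX.toSylow hidx : Sylow p G) : Subgroup G) = X := rfl
    haveI : Unique (Sylow p G) := Sylow.unique_of_normal (hX.toSylow hidx) (by rw [hXs]; exact hXn)
    rw [Subsingleton.elim P (hX.toSylow hidx)]
    rfl
  refine ⟨?_, ?_, ?_⟩
  · intro H hH
    obtain ⟨N, hN, hNp, k, hk⟩ := (hasNormalPComplement_iff).1 (h2 H hH)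
    haveI := hN
    set PH : Subgroup H := X.subgroupOf H with hPH
    haveI hPHn : PH.Normal := Subgroup.normal_subgroupOf
    have hPHp : IsPGroup p PH := hX.comap_of_injective _ (Subgroup.subtype_injective _)
    have hNnil : Group.IsNilpotent N := by
      have hinj : Function.Injective ((QuotientGroup.mk' X).comp (H.subtype.comp N.subtype)) := by
        rw [← MonoidHom.ker_eq_bot_iff, eq_bot_iff]
        intro x hx
        rw [MonoidHom.mem_ker] at hx
        have hx' : ((x : H) : G) ∈ X := by
          rw [← QuotientGroup.eq_one_iff]; exact hx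
        obtain ⟨j, hj⟩ := hX ⟨_, hx'⟩
        have hj' : ((x : H) : G) ^ p ^ j = 1 := congrArg Subtype.val hj
        have hj2 : x ^ p ^ j = 1 := by
          apply Subtype.ext; apply Subtype.ext; simpa using hj'
        have h5 : orderOf x ∣ p ^ j := orderOf_dvd_of_pow_eq_one hj2
        have h6 : orderOf x ∣ Nat.card N := orderOf_dvd_natCard x
        have h7 : Nat.Coprime (Nat.card N) (p ^ j) :=
          Nat.Coprime.pow_right _ ((Nat.Prime.coprime_iff_not_dvd hp).2 hNp).symm
        have h8 := Nat.eq_one_of_dvd_coprimes h7 h6 h5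
        rw [mem_bot]; exact orderOf_eq_one_iff.1 h8
      have hcomm : ∀ x y : N, x * y = y * x := by
        intro x y
        apply hinj
        rw [map_mul, map_mul]
        obtain ⟨k1, hk1⟩ := hmem ((x : H) : G)
        obtain ⟨k2, hk2⟩ := hmem ((y : H) : G)
        have e1 : ((QuotientGroup.mk' X).comp (H.subtype.comp N.subtype)) x = (QuotientGroup.mk' X g) ^ k1 := hk1
        have e2 : ((QuotientGroup.mk' X).comp (H.subtype.comp N.subtype)) y = (QuotientGroup.mk' X g) ^ k2 := hk2
        rw [e1, e2, ← zpow_add, ← zpow_add, add_comm]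
      letI : CommGroup N := { (inferInstance : Group N) with mul_comm := hcomm }
      exact CommGroup.isNilpotent
    have hPnil : Group.IsNilpotent PH := hPHp.isNilpotent
    have hsup : N ⊔ PH = ⊤ := by
      rw [← index_eq_one]
      have d1 : (N ⊔ PH).index ∣ p ^ k := hk ▸ index_dvd_of_le le_sup_left
      have d2 : (N ⊔ PH).index ∣ PH.index := index_dvd_of_le le_sup_right
      have d3 : PH.index ∣ X.index := by
        have : PH.index = X.relIndex H := rfl
        rw [this]
        exact relIndex_dvd_index_of_normal X H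
      have d4 : Nat.Coprime (p ^ k) X.index := Nat.Coprime.pow_left _ ((Nat.Prime.coprime_iff_not_dvd hp).2 hidx)
      exact Nat.eq_one_of_dvd_coprimes d4 d1 (d2.trans d3)
    have h3 := Cfsg.Agent.H1.isNilpotent_sup_of_normal hN hPHn hNnil hPnil
    rw [hsup] at h3
    haveI := h3
    exact Group.nilpotent_of_mulEquiv (Subgroup.topEquiv (G := H))
  · intro hn
    exact h1 (HasNormalPComplement.of_isNilpotent hn)
  · intro P
    rw [hsyl P]; exact hXn

end Cfsg.Agent.S0132
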