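import Cfsg.Statements.S0155
import Cfsg.Agent.H3.Perm

set_option autoImplicit false
open Cfsg

namespace Cfsg.Agent.S0155

/-- The character of the left regular representation of a finite group takes the value |G| at the identity and 0 at every other element. -/
theorem result {G : Type*} [Group G] [Fintype G] [DecidableEq G] (g : G) : (Representation.leftRegular ℂ G).character g = if g = 1 then (Nat.card G : ℂ) else 0 := by
  rw [Cfsg.Agent.H3.ofMulAction_character, Cfsg.Agent.H3.permChar]
  split_ifs with h
  · subst h
    rw [MulAction.fixedBy_one_eq_univ]
    simp
  · have : MulAction.fixedBy G g = ∅ := by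
      ext x
      simp [MulAction.mem_fixedBy, h]
    rw [this]
    simp

end Cfsg.Agent.S0155
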