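import Cfsg.Statements.S0158
import Cfsg.Agent.H3.FrobSchur

set_option autoImplicit false
open Cfsg

namespace Cfsg.Agent.S0158

/-- The Frobenius–Schur indicator of an irreducible complex representation of a finite group — the average over s of the character at s * s — is 0, 1 or −1, and it vanishes exactly when some character value is not real. -/
theorem result {G : Type*} [Group G] [Fintype G] {V : Type*} [AddCommGroup V] [Module ℂ V] [FiniteDimensional ℂ V] (ρ : Representation ℂ G V) [ρ.IsIrreducible] : ((Nat.card G : ℂ)⁻¹ * ∑ s : G, ρ.character (s * s) = 0 ∨ (Nat.card G : ℂ)⁻¹ * ∑ s : G, ρ.character (s * s) = 1 ∨ (Nat.card G : ℂ)⁻¹ * ∑ s : G, ρ.character (s * s) = -1) ∧ ((Nat.card G : ℂ)⁻¹ * ∑ s : G, ρ.character (s * s) = 0 ↔ ∃ s : G, (ρ.character s).im ≠ 0) := by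
  have hirr := H3.isIrrCharacter_of_rep ρ
  obtain ⟨h1, h2⟩ := H3.frobenius_schur hirr
  unfold H3.fsInd at h1 h2
  by_cases hr : ρ.character = fun g => starRingEnd ℂ (ρ.character g)
  · have h3 := h2 hr
    refine ⟨?_, ?_⟩
    · rcases h3 with h3 | h3
      · exact Or.inr (Or.inl h3)
      · exact Or.inr (Or.inr h3)
    · constructor
      · intro h0
        rcases h3 with h3 | h3
        · rw [h0] at h3; exact absurd h3 (by norm_num)
        · rw [h0] at h3; exact absurd h3 (by norm_num)
      · rintro ⟨s, hs⟩
        exfalso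
        apply hs
        exact Complex.conj_eq_iff_im.mp (congrFun hr s).symm
  · have h3 := h1 hr
    refine ⟨Or.inl h3, fun _ => ?_, fun _ => h3⟩
    by_contra hcon
    push Not at hcon
    apply hr
    funext g
    exact (Complex.conj_eq_iff_im.mpr (hcon g)).symm

end Cfsg.Agent.S0158
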