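import Cfsg.Statements.S0160
import Cfsg.Agent.H3.Counting

set_option autoImplicit false
open Cfsg

namespace Cfsg.Agent.S0160

/-- A finite group has as many real-valued irreducible complex characters as conjugacy classes closed under taking inverses. -/
theorem result {G : Type*} [Group G] [Finite G] : Nat.card {χ : Cfsg.IrrCharacter G // ∀ g : G, ((χ : G → ℂ) g).im = 0} = Nat.card {C : ConjClasses G // ∀ g : G, ConjClasses.mk g = C → IsConj g g⁻¹} := by
  have h1 := Cfsg.Agent.H3.card_real_irr (G := G)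
  have e1 : Nat.card {χ : Cfsg.IrrCharacter G // ∀ g : G, ((χ : G → ℂ) g).im = 0} =
      Nat.card {χ : Cfsg.IrrCharacter G // Cfsg.Agent.H3.irrConj χ = χ} :=
    Nat.card_congr (Equiv.subtypeEquivRight fun χ => (Cfsg.Agent.H3.irrConj_eq_iff χ).symm)
  have e2 : Nat.card {C : ConjClasses G // ∀ g : G, ConjClasses.mk g = C → IsConj g g⁻¹} =
      Nat.card {C : ConjClasses G // Cfsg.Agent.H3.classInv G C = C} := by
    refine Nat.card_congr (Equiv.subtypeEquivRight fun C => ?_)
    obtain ⟨h, rfl⟩ := ConjClasses.mk_surjective C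
    rw [Cfsg.Agent.H3.classInv_mk]
    constructor
    · intro hh
      exact (ConjClasses.mk_eq_mk_iff_isConj.mpr (hh h rfl)).symm
    · intro hh g hg
      have h2 : IsConj g h := ConjClasses.mk_eq_mk_iff_isConj.mp hg
      have h3 : IsConj h⁻¹ h := ConjClasses.mk_eq_mk_iff_isConj.mp hh
      have h4 : IsConj h⁻¹ g⁻¹ := by
        obtain ⟨c, hc⟩ := isConj_iff.mp h2.symm
        exact isConj_iff.mpr ⟨c, by rw [← hc]; group⟩
      exact (h2.trans h3.symm).trans h4
  rw [e1, e2, h1]

end Cfsg.Agent.S0160
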