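import Cfsg.Statements.S0166
import Cfsg.Agent.H10.Rz3
import Cfsg.Agent.H3.Monomial

set_option autoImplicit false
open Cfsg

namespace Cfsg.Agent.S0166

open Cfsg.Agent.H10.Rz Cfsg.Agent.H3

theorem lin_real {G : Type*} [Group G] [Fintype G] {K : Type} [Field K] [Algebra K ℂ] [CharZero K]
    (hK : ∀ z : ℂ, z ^ (Monoid.exponent G) = 1 → ∃ a : K, algebraMap K ℂ a = z)
    {P : Subgroup G → Prop} {f : G → ℂ} (hf : f ∈ linSpan G P) :
    ∃ a b : G → ℂ, RealK K a ∧ RealK K b ∧ f = a - b := by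
  unfold linSpan at hf
  induction hf using AddSubgroup.closure_induction with
  | mem f hf =>
    obtain ⟨H, μ, -, rfl⟩ := hf
    refine ⟨_, 0, real_ind H μ (fun h => hK _ ?_), real_zero, by rw [sub_zero]⟩
    rw [← Units.val_pow_eq_pow_val, ← map_pow]
    have : h ^ (Monoid.exponent G) = 1 := Subtype.ext (by
      rw [Subgroup.coe_pow, Monoid.pow_exponent_eq_one, Subgroup.coe_one])
    rw [this, map_one, Units.val_one]
  | zero => exact ⟨0, 0, real_zero, real_zero, by rw [sub_zero]⟩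
  | add x y _ _ hx hy =>
    obtain ⟨a, b, ha, hb, rfl⟩ := hx
    obtain ⟨c, d, hc, hd, rfl⟩ := hy
    exact ⟨a + c, b + d, real_add ha hc, real_add hb hd, by abel⟩
  | neg x _ hx =>
    obtain ⟨a, b, ha, hb, rfl⟩ := hx
    exact ⟨b, a, hb, ha, by abel⟩

/-- Brauer's splitting field Theorem: a complex representation of a finite group of exponent m is equivalent to a representation by matrices with entries in ℚ adjoined exp(2πi/m). -/
theorem result {G : Type*} [Group G] [Finite G] (n : ℕ) (ρ : Representation ℂ G (Fin n → ℂ)) : ∃ σ : Representation ℂ G (Fin n → ℂ), Nonempty (ρ.Equiv σ) ∧ ∀ g : G, ∀ i j : Fin n, LinearMap.toMatrix' (σ g) i j ∈ Algebra.adjoin ℚ ({Complex.exp (2 * Real.pi * Complex.I / (Monoid.exponent G : ℂ))} : Set ℂ) := by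
  classical
  haveI := Fintype.ofFinite G
  set m := Monoid.exponent G with hm
  have hm0 : m ≠ 0 := Monoid.exponent_ne_zero_of_finite
  set ζ : ℂ := Complex.exp (2 * Real.pi * Complex.I / (m : ℂ)) with hζdef
  have hζ : IsPrimitiveRoot ζ m := Complex.isPrimitiveRoot_exp m hm0
  haveI : NeZero m := ⟨hm0⟩
  let K : IntermediateField ℚ ℂ := IntermediateField.adjoin ℚ ({ζ} : Set ℂ)
  have hζK : ζ ∈ K := IntermediateField.subset_adjoin ℚ _ (Set.mem_singleton ζ)
  have hK : ∀ z : ℂ, z ^ m = 1 → ∃ a : K, algebraMap K ℂ a = z := by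
    intro z hz
    obtain ⟨i, -, hi⟩ := hζ.eq_pow_of_pow_eq_one hz
    exact ⟨(⟨ζ, hζK⟩ : K) ^ i, by rw [map_pow]; exact hi⟩
  have hχ : IsCharacter G ρ.character := ⟨n, ρ, rfl⟩
  obtain ⟨a, b, ha, hb, hab⟩ := lin_real (K := K) hK (brauer_induction hχ)
  have hR : RealK K ρ.character := real_sub hχ ha hb (by rw [hab, sub_add_cancel])
  obtain ⟨n', σ, hσ⟩ := hR
  have hn : n = n' := by
    have h1 := hσ 1
    rw [Representation.char_one, Representation.char_one, Module.finrank_fin_fun, Module.finrank_fin_fun,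
      map_natCast] at h1
    exact_mod_cast h1
  subst hn
  refine ⟨cx σ, equiv_of_char_eq _ _ (by funext g; rw [cx_char, hσ]), ?_⟩
  intro g i j
  rw [cx_mat, Matrix.map_apply]
  have halg : IsIntegral ℚ ζ := by
    refine ⟨Polynomial.X ^ m - 1, Polynomial.monic_X_pow_sub_C 1 hm0, ?_⟩
    simp [hζ.pow_eq_one]
  have hsub : (IntermediateField.adjoin ℚ ({ζ} : Set ℂ)).toSubalgebra = Algebra.adjoin ℚ ({ζ} : Set ℂ) :=
    IntermediateField.adjoin_simple_toSubalgebra_of_isAlgebraic halg.isAlgebraic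
  rw [← hsub]
  exact (LinearMap.toMatrix' (σ g) i j).2

end Cfsg.Agent.S0166
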