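import Cfsg.Statements.S0167
import Cfsg.Agent.H3.Counting

set_option autoImplicit false
open Cfsg

namespace Cfsg.Agent.S0167

/-- An element g of a finite group is a commutator if and only if the sum over the irreducible characters χ of χ g / χ 1 is nonzero. -/
theorem result {G : Type*} [Group G] [Finite G] (g : G) : (∃ a b : G, g = a * b * a⁻¹ * b⁻¹) ↔ ∑ᶠ χ : Cfsg.IrrCharacter G, (χ : G → ℂ) g / (χ : G → ℂ) 1 ≠ 0 := by
  classical
  haveI := Fintype.ofFinite G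
  haveI := Fintype.ofFinite (Cfsg.IrrCharacter G)
  rw [finsum_eq_sum_of_fintype]
  -- the counting function
  let N : G → ℂ := fun x => ((Finset.univ.filter (fun p : G × G =>
    p.1 * p.2 * p.1⁻¹ * p.2⁻¹ = x)).card : ℂ)
  have hN : Cfsg.IsClassFunction G N := by
    intro x y
    simp only [N]
    norm_cast
    refine Finset.card_bij' (fun p _ => (y⁻¹ * p.1 * y, y⁻¹ * p.2 * y))
      (fun p _ => (y * p.1 * y⁻¹, y * p.2 * y⁻¹)) ?_ ?_ ?_ ?_
    · intro p hp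
      have := (Finset.mem_filter.mp hp).2
      refine Finset.mem_filter.mpr ⟨Finset.mem_univ _, ?_⟩
      calc y⁻¹ * p.1 * y * (y⁻¹ * p.2 * y) * (y⁻¹ * p.1 * y)⁻¹ * (y⁻¹ * p.2 * y)⁻¹
          = y⁻¹ * (p.1 * p.2 * p.1⁻¹ * p.2⁻¹) * y := by group
        _ = x := by rw [this]; group
    · intro p hp
      have := (Finset.mem_filter.mp hp).2
      refine Finset.mem_filter.mpr ⟨Finset.mem_univ _, ?_⟩
      calc y * p.1 * y⁻¹ * (y * p.2 * y⁻¹) * (y * p.1 * y⁻¹)⁻¹ * (y * p.2 * y⁻¹)⁻¹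
          = y * (p.1 * p.2 * p.1⁻¹ * p.2⁻¹) * y⁻¹ := by group
        _ = y * x * y⁻¹ := by rw [this]
    · intro p _; ext <;> simp <;> group
    · intro p _; ext <;> simp <;> group
  have hin : ∀ χ : Cfsg.IrrCharacter G, Cfsg.classInner N χ = (Nat.card G : ℂ) / (χ : G → ℂ) 1 := by
    intro χ
    have h1 : ∑ x : G, N x * (starRingEnd ℂ) ((χ : G → ℂ) x) =
        ∑ a : G, ∑ b : G, (starRingEnd ℂ) ((χ : G → ℂ) (a * b * a⁻¹ * b⁻¹)) := by
      rw [← Finset.sum_product', ← Finset.sum_fiberwise (s := Finset.univ ×ˢ Finset.univ)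
        (g := fun p : G × G => p.1 * p.2 * p.1⁻¹ * p.2⁻¹)]
      refine Finset.sum_congr rfl fun x _ => ?_
      rw [Finset.sum_congr rfl (g := fun _ => (starRingEnd ℂ) ((χ : G → ℂ) x)) (fun p hp => by
        rw [(Finset.mem_filter.mp hp).2])]
      rw [Finset.sum_const, nsmul_eq_mul]
      simp only [N]
      congr 2
    have h2 := Cfsg.Agent.H3.sum_irr_commutator χ.2
    obtain ⟨n, hn⟩ := Cfsg.Agent.H3.char_one_eq_nat (Cfsg.Agent.H3.irr_isChar χ.2)
    have h3 : ∑ a : G, ∑ b : G, (starRingEnd ℂ) ((χ : G → ℂ) (a * b * a⁻¹ * b⁻¹)) =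
        (Nat.card G : ℂ) ^ 2 / (χ : G → ℂ) 1 := by
      have h4 := congrArg (starRingEnd ℂ) h2
      rw [map_sum] at h4
      simp only [map_sum] at h4
      rw [h4, hn]
      simp
    rw [Cfsg.classInner, h1, h3]
    have hG : (Nat.card G : ℂ) ≠ 0 := Cfsg.Agent.H3.card_ne_zeroC
    field_simp
  have hexp := Cfsg.Agent.H3.classFun_expand_apply hN g
  simp only [hin] at hexp
  have hG : (Nat.card G : ℂ) ≠ 0 := Cfsg.Agent.H3.card_ne_zeroC
  have hsum : N g = (Nat.card G : ℂ) * ∑ χ : Cfsg.IrrCharacter G, (χ : G → ℂ) g / (χ : G → ℂ) 1 := by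
    rw [hexp, Finset.mul_sum]
    refine Finset.sum_congr rfl fun χ _ => by ring
  have hiff : (∃ a b : G, g = a * b * a⁻¹ * b⁻¹) ↔ N g ≠ 0 := by
    simp only [N]
    rw [Nat.cast_ne_zero, Finset.card_ne_zero]
    constructor
    · rintro ⟨a, b, rfl⟩
      exact ⟨(a, b), Finset.mem_filter.mpr ⟨Finset.mem_univ _, rfl⟩⟩
    · rintro ⟨p, hp⟩
      exact ⟨p.1, p.2, (Finset.mem_filter.mp hp).2.symm⟩
  rw [hiff, hsum]
  simp [hG]

end Cfsg.Agent.S0167
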