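import Cfsg.Statements.S0168
import Cfsg.Agent.H3.Basic2

set_option autoImplicit false
open Cfsg

namespace Cfsg.Agent.S0168

/-- The Burnside–Brauer Theorem. Let χ be the character of a faithful complex representation of a finite group, taking m distinct values. Then every irreducible character has nonzero inner product with χ ^ i for some i < m. -/
theorem result {G : Type*} [Group G] [Fintype G] {V : Type*} [AddCommGroup V] [Module ℂ V] [FiniteDimensional ℂ V] (ρ : Representation ℂ G V) (hfaithful : Function.Injective ρ) (ψ : G → ℂ) (hψ : Cfsg.IsIrrCharacter G ψ) : ∃ i : ℕ, i < Nat.card (Set.range ρ.character) ∧ Cfsg.classInner (fun g => ρ.character g ^ i) ψ ≠ 0 := by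
  classical
  by_contra hcon
  push Not at hcon
  set S := Set.range ρ.character with hS
  have hfin : Finite S := Set.finite_range _
  have := Fintype.ofFinite S
  -- interpolation polynomial
  let s : Finset ℂ := Finset.univ.image ρ.character
  have hcard : Nat.card S = s.card := by
    rw [Nat.card_eq_fintype_card]
    rw [← Set.toFinset_card]
    congr 1
    ext z; simp [s, hS]
  let v : ℂ → ℂ := id
  let P : Polynomial ℂ := Lagrange.basis s v (ρ.character 1)
  have h1s : ρ.character 1 ∈ s := Finset.mem_image_of_mem _ (Finset.mem_univ _)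
  have hinj : Set.InjOn v s := Function.injective_id.injOn
  have hP1 : P.eval (ρ.character 1) = 1 := Lagrange.eval_basis_self hinj h1s
  have hP0 : ∀ g : G, ρ.character g ≠ ρ.character 1 → P.eval (ρ.character g) = 0 := by
    intro g hg
    exact Lagrange.eval_basis_of_ne (v := v) (Ne.symm hg) (Finset.mem_image_of_mem _ (Finset.mem_univ _))
  have hdeg : P.natDegree < Nat.card S := by
    have h2 : P.degree = ((s.card - 1 : ℕ) : WithBot ℕ) := Lagrange.degree_basis hinj h1s
    have h3 : P.natDegree = s.card - 1 := Polynomial.natDegree_eq_of_degree_eq_some h2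
    have h4 : 0 < s.card := Finset.card_pos.mpr ⟨_, h1s⟩
    rw [h3, hcard]; omega
  -- the combination of powers
  have hsum : Cfsg.classInner (fun g => P.eval (ρ.character g)) ψ = 0 := by
    have h2 : (fun g => P.eval (ρ.character g)) =
        ∑ i ∈ Finset.range (P.natDegree + 1), P.coeff i • (fun g => ρ.character g ^ i) := by
      ext g
      rw [Polynomial.eval_eq_sum_range]
      simp
    rw [h2, Cfsg.Agent.H3.classInner_sum_left]
    apply Finset.sum_eq_zero
    intro i hi
    rw [Cfsg.Agent.H3.classInner_smul_left, hcon i (by
      have := Finset.mem_range.mp hi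
      omega), mul_zero]
  have hval : ∀ g : G, P.eval (ρ.character g) = if g = 1 then 1 else 0 := by
    intro g
    by_cases hg : g = 1
    · subst hg; rw [if_pos rfl, hP1]
    · rw [if_neg hg]
      apply hP0
      intro h
      rw [Representation.char_one, Cfsg.Agent.H3.rep_char_eq_degree_iff] at h
      apply hg
      apply hfaithful
      rw [h, map_one]; rfl
  have h5 : Cfsg.classInner (fun g => P.eval (ρ.character g)) ψ =
      (Nat.card G : ℂ)⁻¹ * (starRingEnd ℂ) (ψ 1) := by
    simp only [Cfsg.classInner, hval, ite_mul, one_mul, zero_mul]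
    rw [Finset.sum_ite_eq' Finset.univ (1 : G)]
    simp
  rw [h5] at hsum
  rcases mul_eq_zero.mp hsum with h6 | h6
  · exact inv_ne_zero Cfsg.Agent.H3.card_ne_zeroC h6
  · exact Cfsg.Agent.H3.irr_one_ne_zero hψ ((map_eq_zero _).mp h6)

end Cfsg.Agent.S0168
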