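import Cfsg.Statements.S0169
import Cfsg.Agent.H3.Clifford

set_option autoImplicit false
open Cfsg

namespace Cfsg.Agent.S0169

/-- Itô's Theorem on character degrees: the degree of an irreducible complex representation of a finite group divides the index of any abelian normal subgroup. -/
theorem result {G : Type*} [Group G] [Finite G] {V : Type*} [AddCommGroup V] [Module ℂ V] [FiniteDimensional ℂ V] (ρ : Representation ℂ G V) [ρ.IsIrreducible] (H : Subgroup G) [H.Normal] (hH : ∀ a ∈ H, ∀ b ∈ H, a * b = b * a) : Module.finrank ℂ V ∣ H.index := by
  exact Cfsg.Agent.H3.ito_degree_dvd (Cfsg.Agent.H3.isIrrCharacter_of_rep ρ) H inferInstance hH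
    (Representation.char_one ρ)

end Cfsg.Agent.S0169
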