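import Cfsg.Statements.S0172
import Cfsg.Agent.H3.Frob

set_option autoImplicit false
open Cfsg

namespace Cfsg.Agent.S0172

/-- Class number of a Frobenius group: if G = K H with K normal, K ⊓ H trivial and no non-identity element of H commuting with a non-identity element of K, then |H| * k(G) + 1 = |H| * k(H) + k(K), where k denotes the number of conjugacy classes. -/
theorem result {G : Type*} [Group G] [Finite G] (K H : Subgroup G) [K.Normal] (hKH : K ⊓ H = ⊥) (hKH' : K ⊔ H = ⊤) (hfpf : ∀ h ∈ H, h ≠ 1 → ∀ k ∈ K, h * k = k * h → k = 1) : Nat.card H * Nat.card (ConjClasses G) + 1 = Nat.card H * Nat.card (ConjClasses H) + Nat.card (ConjClasses K) := by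
  classical
  have := Fintype.ofFinite G
  have := Fintype.ofFinite K
  have := Fintype.ofFinite H
  have := Fintype.ofFinite (ConjClasses G)
  have := Fintype.ofFinite (ConjClasses K)
  have := Fintype.ofFinite (ConjClasses H)
  have hK : K.Normal := inferInstance
  have hout := Cfsg.Agent.H3.fpf_of_complement hK H hKH' hfpf
  -- counting commuting pairs
  have hcount : ∀ (X : Type _) [Group X] [Fintype X] [Fintype (ConjClasses X)],
      ∑ g : X, Nat.card (Subgroup.centralizer ({g} : Set X)) =
        Nat.card X * Nat.card (ConjClasses X) := by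
    intro X _ _ _
    have h := Cfsg.Agent.H3.sum_conjClasses_eq (G := X) (fun _ => (1 : ℂ))
    simp only [mul_one, Finset.sum_const, Finset.card_univ, nsmul_eq_mul] at h
    rw [← Nat.card_eq_fintype_card] at h
    exact_mod_cast h
  have hG := hcount G
  have hKc := hcount K
  have hHc := hcount H
  -- orders
  have hcardG : Nat.card G = Nat.card K * Nat.card H := by
    have hcompl : Subgroup.IsComplement' K H := Subgroup.isComplement'_of_disjoint_and_mul_eq_univ
      (disjoint_iff.mpr hKH) (by
        rw [Set.eq_univ_iff_forall]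
        intro x
        have hmem : x ∈ K ⊔ H := by rw [hKH']; trivial
        obtain ⟨k, hk, a, ha, rfl⟩ := Subgroup.mem_sup_of_normal_left.mp hmem
        exact Set.mul_mem_mul hk ha)
    exact (Subgroup.IsComplement'.card_mul hcompl).symm
  -- centralizers of elements of `K`
  have hcentK : ∀ k : K, k ≠ 1 → Nat.card (Subgroup.centralizer ({(k : G)} : Set G)) =
      Nat.card (Subgroup.centralizer ({k} : Set K)) := by
    intro k hk
    refine Nat.card_congr ⟨fun x => ⟨⟨x.1, ?_⟩, ?_⟩, fun x => ⟨x.1, ?_⟩, fun x => rfl, fun x => rfl⟩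
    · by_contra hx
      have h1 := Subgroup.mem_centralizer_singleton_iff.mp x.2
      exact hk (Subtype.ext ((hout x.1 hx).2 k k.2 h1))
    · rw [Subgroup.mem_centralizer_singleton_iff]
      exact Subtype.ext (Subgroup.mem_centralizer_singleton_iff.mp x.2)
    · rw [Subgroup.mem_centralizer_singleton_iff]
      exact congrArg Subtype.val (Subgroup.mem_centralizer_singleton_iff.mp x.2)
  -- centralizers of elements of `H`
  have hcentH : ∀ h : H, h ≠ 1 → Nat.card (Subgroup.centralizer ({(h : G)} : Set G)) =
      Nat.card (Subgroup.centralizer ({h} : Set H)) := by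
    intro h hh
    have hh' : (h : G) ≠ 1 := fun e => hh (Subtype.ext e)
    have hle : ∀ x ∈ Subgroup.centralizer ({(h : G)} : Set G), x ∈ H := by
      intro x hx
      have hmem : x ∈ K ⊔ H := by rw [hKH']; trivial
      obtain ⟨k, hk, a, ha, rfl⟩ := Subgroup.mem_sup_of_normal_left.mp hmem
      have h1 := Subgroup.mem_centralizer_singleton_iff.mp hx
      -- `k a h = h k a`
      have h2 : (h : G)⁻¹ * k⁻¹ * h * k = a * h * a⁻¹ * (h : G)⁻¹ := by
        have h3 : a * h * a⁻¹ = k⁻¹ * h * k := by
          calc a * h * a⁻¹ = k⁻¹ * (k * a * h) * a⁻¹ := by group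
            _ = k⁻¹ * (h * (k * a)) * a⁻¹ := by rw [h1]
            _ = _ := by group
        rw [h3]
        have h4 : (k⁻¹ * h * k) * (h : G)⁻¹ ∈ K ⊓ H := by
          constructor
          · have : (k⁻¹ * h * k) * (h : G)⁻¹ = k⁻¹ * ((h : G) * k * (h : G)⁻¹) := by group
            rw [this]
            exact K.mul_mem (K.inv_mem hk) (hK.conj_mem k hk h)
          · rw [← h3]
            exact H.mul_mem (H.mul_mem (H.mul_mem ha h.2) (H.inv_mem ha)) (H.inv_mem h.2)
        rw [hKH, Subgroup.mem_bot] at h4
        rw [h4]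
        have h5 : k⁻¹ * h * k = h := mul_inv_eq_one.mp h4
        calc (h : G)⁻¹ * k⁻¹ * h * k = (h : G)⁻¹ * (k⁻¹ * h * k) := by group
          _ = 1 := by rw [h5]; group
      have h6 : a * h * a⁻¹ * (h : G)⁻¹ ∈ K ⊓ H := by
        constructor
        · rw [← h2]
          have : (h : G)⁻¹ * k⁻¹ * h * k = ((h : G)⁻¹ * k⁻¹ * ((h : G)⁻¹)⁻¹) * k := by group
          rw [this]
          exact K.mul_mem (hK.conj_mem _ (K.inv_mem hk) _) hk
        · exact H.mul_mem (H.mul_mem (H.mul_mem ha h.2) (H.inv_mem ha)) (H.inv_mem h.2)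
      rw [hKH, Subgroup.mem_bot] at h6
      rw [h6] at h2
      have h7 : (h : G) * k = k * h := by
        calc (h : G) * k = k * h * ((h : G)⁻¹ * k⁻¹ * h * k) := by group
          _ = k * h := by rw [h2, mul_one]
      have h8 := hfpf h h.2 hh' k hk h7
      rw [h8, one_mul]
      exact ha
    refine Nat.card_congr ⟨fun x => ⟨⟨x.1, hle x.1 x.2⟩, ?_⟩, fun x => ⟨x.1, ?_⟩,
      fun x => rfl, fun x => rfl⟩
    · rw [Subgroup.mem_centralizer_singleton_iff]
      exact Subtype.ext (Subgroup.mem_centralizer_singleton_iff.mp x.2)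
    · rw [Subgroup.mem_centralizer_singleton_iff]
      exact congrArg Subtype.val (Subgroup.mem_centralizer_singleton_iff.mp x.2)
  -- the sum over `K`
  have hsumK : ∑ g : G with g ∈ K, Nat.card (Subgroup.centralizer ({g} : Set G)) + Nat.card K =
      Nat.card G + Nat.card K * Nat.card (ConjClasses K) := by
    have h1 : ∑ g : G with g ∈ K, Nat.card (Subgroup.centralizer ({g} : Set G)) =
        ∑ k : K, Nat.card (Subgroup.centralizer ({(k : G)} : Set G)) :=
      Finset.sum_subtype (Finset.univ.filter (· ∈ K)) (p := (· ∈ K)) (by simp)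
        (fun g => Nat.card (Subgroup.centralizer ({g} : Set G)))
    rw [h1, ← hKc, ← Finset.add_sum_erase _ _ (Finset.mem_univ (1 : K)),
      ← Finset.add_sum_erase _ (fun g : K => Nat.card (Subgroup.centralizer ({g} : Set K)))
        (Finset.mem_univ (1 : K))]
    rw [Finset.sum_congr rfl fun k hk => hcentK k (Finset.ne_of_mem_erase hk)]
    have h2 : Nat.card (Subgroup.centralizer ({((1 : K) : G)} : Set G)) = Nat.card G := by
      have : Subgroup.centralizer ({((1 : K) : G)} : Set G) = ⊤ := by
        rw [eq_top_iff]; intro x _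
        rw [Subgroup.mem_centralizer_singleton_iff]; simp
      rw [this, Subgroup.card_top]
    have h3 : Nat.card (Subgroup.centralizer ({(1 : K)} : Set K)) = Nat.card K := by
      have : Subgroup.centralizer ({(1 : K)} : Set K) = ⊤ := by
        rw [eq_top_iff]; intro x _
        rw [Subgroup.mem_centralizer_singleton_iff]; simp
      rw [this, Subgroup.card_top]
    rw [h2, h3]; ring
  -- the sum outside `K`
  have hsumH : ∑ g : G with g ∉ K, Nat.card (Subgroup.centralizer ({g} : Set G)) +
      Nat.card K * Nat.card H = Nat.card K * (Nat.card H * Nat.card (ConjClasses H)) := by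
    have h1 : ∑ g : G with g ∉ K, Nat.card (Subgroup.centralizer ({g} : Set G)) =
        ∑ p ∈ (Finset.univ : Finset K) ×ˢ (Finset.univ.erase (1 : H)),
          Nat.card (Subgroup.centralizer ({(p.2 : G)} : Set G)) := by
      symm
      refine Finset.sum_bij (fun p _ => (p.1 : G)⁻¹ * p.2 * p.1) ?_ ?_ ?_ ?_
      · rintro ⟨y, h⟩ hp
        rw [Finset.mem_filter]
        refine ⟨Finset.mem_univ _, fun hmem => ?_⟩
        have h2 : (h : G) ∈ K := by
          have := hK.conj_mem _ hmem (y : G)
          convert this using 1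
          group
        have h3 : (h : G) ∈ K ⊓ H := ⟨h2, h.2⟩
        rw [hKH, Subgroup.mem_bot] at h3
        exact (Finset.ne_of_mem_erase (Finset.mem_product.mp hp).2) (Subtype.ext h3)
      · rintro ⟨y, h⟩ hp ⟨z, h'⟩ hp' heq
        simp only at heq
        have hne : (h : G) ≠ 1 := fun e =>
          (Finset.ne_of_mem_erase (Finset.mem_product.mp hp).2) (Subtype.ext e)
        -- `h' = (z y⁻¹) h (z y⁻¹)⁻¹`
        have h2 : (h' : G) = (z * (y : G)⁻¹) * h * (z * (y : G)⁻¹)⁻¹ := by
          calc (h' : G) = z * ((z : G)⁻¹ * h' * z) * (z : G)⁻¹ := by group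
            _ = z * ((y : G)⁻¹ * h * y) * (z : G)⁻¹ := by rw [heq]
            _ = _ := by group
        have hc : (z : G) * (y : G)⁻¹ ∈ K := K.mul_mem z.2 (K.inv_mem y.2)
        have h3 : (h' : G) * (h : G)⁻¹ ∈ K ⊓ H := by
          constructor
          · rw [h2]
            have : (z * (y : G)⁻¹) * h * (z * (y : G)⁻¹)⁻¹ * (h : G)⁻¹ =
              (z * (y : G)⁻¹) * (h * (z * (y : G)⁻¹)⁻¹ * (h : G)⁻¹) := by group
            rw [this]
            exact K.mul_mem hc (hK.conj_mem _ (K.inv_mem hc) _)
          · exact H.mul_mem h'.2 (H.inv_mem h.2)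
        rw [hKH, Subgroup.mem_bot] at h3
        have h4 : (h' : G) = h := mul_inv_eq_one.mp h3
        have h5 : (h : G) * (z * (y : G)⁻¹) = (z * (y : G)⁻¹) * h := by
          rw [h4] at h2
          nth_rewrite 1 [h2]
          group
        have h6 := hfpf h h.2 hne _ hc h5
        have h7 : (z : G) = y := mul_inv_eq_one.mp h6
        exact Prod.ext (Subtype.ext h7.symm) (Subtype.ext h4.symm)
      · intro g hg
        obtain ⟨⟨h, hh, hh1, y, hy, hgy⟩, _⟩ := hout g (Finset.mem_filter.mp hg).2
        exact ⟨(⟨y, hy⟩, ⟨h, hh⟩), Finset.mem_product.mpr ⟨Finset.mem_univ _,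
          Finset.mem_erase.mpr ⟨fun e => hh1 (congrArg Subtype.val e), Finset.mem_univ _⟩⟩, hgy.symm⟩
      · rintro ⟨y, h⟩ _
        simp only
        refine Nat.card_congr ⟨fun x => ⟨(y : G)⁻¹ * x.1 * y, ?_⟩, fun x => ⟨y * x.1 * (y : G)⁻¹, ?_⟩,
          fun x => ?_, fun x => ?_⟩
        · have h2 := Subgroup.mem_centralizer_singleton_iff.mp x.2
          rw [Subgroup.mem_centralizer_singleton_iff]
          calc (y : G)⁻¹ * x.1 * y * ((y : G)⁻¹ * h * y) = (y : G)⁻¹ * (x.1 * h) * y := by group
            _ = (y : G)⁻¹ * (h * x.1) * y := by rw [h2]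
            _ = _ := by group
        · have h2 := Subgroup.mem_centralizer_singleton_iff.mp x.2
          rw [Subgroup.mem_centralizer_singleton_iff]
          calc y * x.1 * (y : G)⁻¹ * h = y * (x.1 * ((y : G)⁻¹ * h * y)) * (y : G)⁻¹ := by group
            _ = y * (((y : G)⁻¹ * h * y) * x.1) * (y : G)⁻¹ := by rw [h2]
            _ = _ := by group
        · apply Subtype.ext; simp; group
        · apply Subtype.ext; simp; group
    rw [h1, Finset.sum_product]
    simp only
    rw [Finset.sum_const, Finset.card_univ, smul_eq_mul,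
      ← Nat.card_eq_fintype_card, ← hHc, ← Finset.add_sum_erase _
        (fun g : H => Nat.card (Subgroup.centralizer ({g} : Set H))) (Finset.mem_univ (1 : H)),
      Finset.sum_congr rfl fun h hh => hcentH h (Finset.ne_of_mem_erase hh)]
    have h3 : Nat.card (Subgroup.centralizer ({(1 : H)} : Set H)) = Nat.card H := by
      have : Subgroup.centralizer ({(1 : H)} : Set H) = ⊤ := by
        rw [eq_top_iff]; intro x _
        rw [Subgroup.mem_centralizer_singleton_iff]; simp
      rw [this, Subgroup.card_top]
    rw [h3]; ring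
  have hsplit := Finset.sum_filter_add_sum_filter_not (Finset.univ : Finset G) (fun g => g ∈ K)
    (fun g => Nat.card (Subgroup.centralizer ({g} : Set G)))
  rw [hG, hcardG] at hsplit
  rw [hcardG] at hsumK
  have hK0 : 0 < Nat.card K := Nat.card_pos
  apply Nat.eq_of_mul_eq_mul_left hK0
  nlinarith [hsplit, hsumK, hsumH]

end Cfsg.Agent.S0172
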