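import Cfsg.Statements.S0173
import Cfsg.Agent.H3.Counting

set_option autoImplicit false
open Cfsg

namespace Cfsg.Agent.S0173

/-- Brauer's permutation lemma for a single automorphism: the number of conjugacy classes mapped to themselves equals the number of irreducible complex characters χ with χ ∘ α = χ. -/
theorem result {G : Type*} [Group G] [Finite G] (α : G ≃* G) : Nat.card {C : ConjClasses G // ConjClasses.map α.toMonoidHom C = C} = Nat.card {χ : Cfsg.IrrCharacter G // (χ : G → ℂ) ∘ α = (χ : G → ℂ)} := by
  let τ : Equiv.Perm (ConjClasses G) := {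
    toFun := ConjClasses.map α.toMonoidHom
    invFun := ConjClasses.map α.symm.toMonoidHom
    left_inv := by
      intro C
      obtain ⟨g, rfl⟩ := ConjClasses.mk_surjective C
      change ConjClasses.mk (α.symm (α g)) = _
      simp
    right_inv := by
      intro C
      obtain ⟨g, rfl⟩ := ConjClasses.mk_surjective C
      change ConjClasses.mk (α (α.symm g)) = _
      simp }
  let σ : Cfsg.IrrCharacter G → Cfsg.IrrCharacter G := fun χ =>
    ⟨_, (Cfsg.Agent.H3.isIrr_comp_equiv_iff α.symm).mpr χ.2⟩
  have h := Cfsg.Agent.H3.brauer_perm_lemma (G := G) σ τ (by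
    intro χ g g' hgg
    have h1 : IsConj g' (α g) := ConjClasses.mk_eq_mk_iff_isConj.mp hgg
    rw [Cfsg.Agent.H3.classFun_isConj (Cfsg.Agent.H3.irr_classFun (σ χ).2) h1]
    change (χ : G → ℂ) (α.symm (α g)) = _
    simp)
  have e1 : Nat.card {χ : Cfsg.IrrCharacter G // (χ : G → ℂ) ∘ α = (χ : G → ℂ)} =
      Nat.card {χ : Cfsg.IrrCharacter G // σ χ = χ} := by
    refine Nat.card_congr (Equiv.subtypeEquivRight fun χ => ?_)
    rw [Subtype.ext_iff]
    constructor
    · intro hh
      ext g
      change (χ : G → ℂ) (α.symm g) = _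
      have := congrFun hh (α.symm g)
      simpa using this.symm
    · intro hh
      ext g
      have := congrFun hh (α g)
      change (χ : G → ℂ) (α.symm (α g)) = _ at this
      simpa using this.symm
  rw [e1, h]
  rfl

end Cfsg.Agent.S0173
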