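import Cfsg.Statements.S0174
import Cfsg.Agent.H3.Clifford

set_option autoImplicit false
open Cfsg

namespace Cfsg.Agent.S0174

/-- The Clifford Theorem for characters: if θ is an irreducible character of a finite group G, N is a normal subgroup and χ is an irreducible character of N occurring in the restriction of θ, then θ restricted to N equals e times the sum of the distinct G-conjugates of χ, where e is the inner product of the restriction with χ. -/
theorem result {G : Type*} [Group G] [Fintype G] (N : Subgroup G) [Fintype N] (hN : N.Normal) (θ : G → ℂ) (hθ : Cfsg.IsIrrCharacter G θ) (χ : N → ℂ) (hχ : Cfsg.IsIrrCharacter N χ) (hconst : Cfsg.classInner (fun n : N => θ n) χ ≠ 0) : (fun n : N => θ n) = Cfsg.classInner (fun n : N => θ n) χ • ∑ᶠ ψ ∈ {ψ : N → ℂ | ∃ g : G, ψ = fun n : N => χ ⟨g * n * g⁻¹, hN.conj_mem n n.2 g⟩}, ψ := by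
  classical
  have hconst' := hconst
  set e := Cfsg.classInner (fun n : N => θ n) χ with he
  set S : Set (N → ℂ) := {ψ : N → ℂ | ∃ g : G, ψ = fun n : N => χ ⟨g * n * g⁻¹, hN.conj_mem n n.2 g⟩}
    with hS
  have hSfin : S.Finite := by
    have : S = Set.range (fun g : G => Cfsg.Agent.H3.cj hN g χ) := by
      ext ψ
      exact ⟨fun ⟨g, hg⟩ => ⟨g, hg.symm⟩, fun ⟨g, hg⟩ => ⟨g, hg.symm⟩⟩
    rw [this]
    exact Set.finite_range _
  rw [finsum_mem_eq_finite_toFinset_sum _ hSfin]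
  have hSirr : ∀ ψ ∈ hSfin.toFinset, Cfsg.IsIrrCharacter N ψ := by
    intro ψ hψ
    obtain ⟨g, rfl⟩ := hSfin.mem_toFinset.mp hψ
    exact Cfsg.Agent.H3.isIrr_cj hN hχ g
  apply Cfsg.Agent.H3.classFun_ext_inner
    (Cfsg.Agent.H3.classFun_restrict N (Cfsg.Agent.H3.irr_classFun hθ))
    (Cfsg.Agent.H3.classFun_smul _ (Cfsg.Agent.H3.classFun_sum _ _ fun ψ hψ =>
      Cfsg.Agent.H3.irr_classFun (hSirr ψ hψ)))
  intro ξ
  rw [Cfsg.Agent.H3.classInner_smul_left, Cfsg.Agent.H3.classInner_sum_left]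
  rw [Finset.sum_congr rfl fun ψ hψ => Cfsg.Agent.H3.classInner_irr (hSirr ψ hψ) ξ.2]
  rw [Finset.sum_ite_eq' hSfin.toFinset (ξ : N → ℂ) (fun _ => (1 : ℂ))]
  split_ifs with h
  · obtain ⟨g, hg⟩ := hSfin.mem_toFinset.mp h
    rw [hg, mul_one]
    exact Cfsg.Agent.H3.classInner_restrict_cj hN (Cfsg.Agent.H3.irr_classFun hθ) χ g
  · rw [mul_zero]
    by_contra hne
    obtain ⟨g, hg⟩ := Cfsg.Agent.H3.clifford_inner hN hθ hχ hconst ξ.2 hne
    exact h (hSfin.mem_toFinset.mpr ⟨g, hg.symm⟩)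

end Cfsg.Agent.S0174
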