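import Cfsg.Statements.S0179
import Cfsg.Agent.H3.Integral

set_option autoImplicit false
open Cfsg

namespace Cfsg.Agent.S0179

/-- The degree of an irreducible complex representation of a finite group divides the index of the centre. -/
theorem result {G : Type*} [Group G] [Finite G] {V : Type*} [AddCommGroup V] [Module ℂ V] [FiniteDimensional ℂ V] (ρ : Representation ℂ G V) [ρ.IsIrreducible] : Module.finrank ℂ V ∣ (Subgroup.center G).index := by
  refine Cfsg.Agent.H3.finrank_dvd_index_of_scalar ρ _ fun z hz => ?_
  let T : Representation.IntertwiningMap ρ ρ :=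
    Representation.IntertwiningMap.centralMul ρ z (by
      rw [Submonoid.mem_center_iff]
      exact Subgroup.mem_center_iff.mp hz)
  obtain ⟨c, hc⟩ := (Representation.IsIrreducible.algebraMap_intertwiningMap_bijective_of_isAlgClosed
    (ρ := ρ)).2 T
  refine ⟨c, ?_⟩
  have := congrArg (fun x : Representation.IntertwiningMap ρ ρ => x.toLinearMap) hc
  rw [Representation.IntertwiningMap.algebraMap_apply] at this
  exact this.symm

end Cfsg.Agent.S0179
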