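import Cfsg.Statements.S0181
import Cfsg.Agent.H3.Clifford

set_option autoImplicit false
open Cfsg

namespace Cfsg.Agent.S0181

/-- Let H be a normal subgroup of a finite group G and ρ an irreducible complex representation whose kernel does not contain H. If g commutes with no non-identity element of H, then the character of ρ vanishes at g. -/
theorem result {G : Type*} [Group G] [Finite G] {V : Type*} [AddCommGroup V] [Module ℂ V] [FiniteDimensional ℂ V] (ρ : Representation ℂ G V) [ρ.IsIrreducible] (H : Subgroup G) [H.Normal] (hker : ∃ h ∈ H, ρ h ≠ LinearMap.id) (g : G) (hg : ∀ h ∈ H, h * g = g * h → h = 1) : ρ.character g = 0 := by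
  classical
  have := Fintype.ofFinite G
  have := Fintype.ofFinite H
  have hN : H.Normal := inferInstance
  have h0 := Cfsg.Agent.H3.sum_rep_normal_eq_zero ρ H hN hker
  -- the map `h ↦ h g h⁻¹ g⁻¹` is a bijection of `H`
  let f : H → H := fun h => ⟨h * (g * h⁻¹ * g⁻¹), H.mul_mem h.2 (by
    simpa using hN.conj_mem (h⁻¹ : H) (h⁻¹ : H).2 g)⟩
  have hf : Function.Injective f := by
    intro a b hab
    have h1 : (a : G) * (g * (a : G)⁻¹ * g⁻¹) = b * (g * (b : G)⁻¹ * g⁻¹) := congrArg Subtype.val hab
    have h2 : ((b : G)⁻¹ * a) * g = g * ((b : G)⁻¹ * a) := by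
      calc ((b : G)⁻¹ * a) * g = (b : G)⁻¹ * ((a : G) * (g * (a : G)⁻¹ * g⁻¹)) * g * a := by group
        _ = (b : G)⁻¹ * (b * (g * (b : G)⁻¹ * g⁻¹)) * g * a := by rw [h1]
        _ = _ := by group
    have h3 := hg _ (H.mul_mem (H.inv_mem b.2) a.2) h2
    ext
    exact (inv_mul_eq_one.mp h3).symm
  have hbij : Function.Bijective f := Finite.injective_iff_bijective.mp hf
  have h1 : ∀ h : H, ρ.character (h * g) = ρ.character g := by
    intro h
    obtain ⟨k, hk⟩ := hbij.2 h
    have h2 : (h : G) * g = k * g * (k : G)⁻¹ := by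
      rw [← hk]
      change (k : G) * (g * (k : G)⁻¹ * g⁻¹) * g = _
      group
    rw [h2, Representation.char_conj]
  have h2 : ∑ h : H, ρ.character (h * g) = 0 := by
    have h3 : ∀ h : H, ρ.character (h * g) = LinearMap.trace ℂ V (ρ (h : G) * ρ g) := by
      intro h; rw [← map_mul]; rfl
    rw [Finset.sum_congr rfl fun h _ => h3 h, ← map_sum, ← Finset.sum_mul, h0, zero_mul, map_zero]
  rw [Finset.sum_congr rfl fun h _ => h1 h, Finset.sum_const, Finset.card_univ, nsmul_eq_mul] at h2
  refine (mul_eq_zero.mp h2).resolve_left ?_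
  exact_mod_cast Fintype.card_ne_zero

end Cfsg.Agent.S0181
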