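import Cfsg.Statements.S0186
import Cfsg.Agent.H3.Basic2
import Cfsg.Agent.H3.BurnsidePQ

set_option autoImplicit false
open Cfsg

namespace Cfsg.Agent.S0186

/-- Let G be a finite simple group of order n and p a prime dividing n. If G has more than n / p^2 conjugacy classes, then every Sylow p-subgroup of G is abelian. -/
theorem result {G : Type*} [Group G] [Finite G] [IsSimpleGroup G] (p : ℕ) [Fact p.Prime] (hp : p ∣ Nat.card G) (hmany : Nat.card G < p ^ 2 * Nat.card (ConjClasses G)) (P : Sylow p G) (a b : G) (ha : a ∈ P) (hb : b ∈ P) : a * b = b * a := by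
  classical
  by_contra hcon
  have := Fintype.ofFinite G
  have := Fintype.ofFinite P
  have := Fintype.ofFinite (Cfsg.IrrCharacter G)
  have hpp : p.Prime := Fact.out
  -- every nontrivial irreducible character has degree at least `p`
  have hcomm : (⟨a, ha⟩ * ⟨b, hb⟩ * ⟨a, ha⟩⁻¹ * ⟨b, hb⟩⁻¹ : (P : Subgroup G)) ∈
      commutator (P : Subgroup G) := by
    have h2 := Subgroup.commutator_mem_commutator (Subgroup.mem_top (⟨a, ha⟩ : (P : Subgroup G)))
      (Subgroup.mem_top (⟨b, hb⟩ : (P : Subgroup G)))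
    rw [commutatorElement_def] at h2
    rw [commutator_def]
    exact h2
  have hne1 : a * b * a⁻¹ * b⁻¹ ≠ 1 := by
    intro h
    apply hcon
    have h5 : a * b = 1 * b * a := by rw [← h]; group
    simpa using h5
  have hdeg : ∀ (χ : Cfsg.IrrCharacter G) (n : ℕ), (χ : G → ℂ) ≠ (fun _ => 1) →
      (χ : G → ℂ) 1 = n → p ≤ n := by
    intro χ n hχ1 hn
    by_contra hlt
    push Not at hlt
    have hall : ∀ ψ : Cfsg.IrrCharacter (P : Subgroup G),
        Cfsg.classInner (fun x : (P : Subgroup G) => (χ : G → ℂ) x) ψ ≠ 0 →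
        (ψ : ↥(P : Subgroup G) → ℂ) 1 = 1 := by
      intro ψ hψ
      obtain ⟨m, hm0, hm⟩ := Cfsg.Agent.H3.irr_one_eq_nat ψ.2
      have h1 : m ≤ n := Cfsg.Agent.H3.char_degree_le_of_inner_ne_zero
        (Cfsg.Agent.H3.isChar_restrict _ (Cfsg.Agent.H3.irr_isChar χ.2)) ψ.2 hψ hn hm
      have h2 := Cfsg.Agent.H3.irr_degree_dvd_card ψ.2 hm
      obtain ⟨k, hk⟩ := IsPGroup.iff_card.mp P.isPGroup'
      rw [hk] at h2
      obtain ⟨j, _, hj⟩ := (Nat.dvd_prime_pow hpp).mp h2
      have hj0 : j = 0 := by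
        by_contra hj0
        have : p ≤ m := by
          rw [hj]
          exact Nat.le_self_pow hj0 p
        omega
      rw [hm, hj, hj0]; simp
    have h3 := Cfsg.Agent.H3.char_commutator_of_all_linear
      (Cfsg.Agent.H3.isChar_restrict (P : Subgroup G) (Cfsg.Agent.H3.irr_isChar χ.2)) hall hcomm
    have h4 : (χ : G → ℂ) (a * b * a⁻¹ * b⁻¹) = (χ : G → ℂ) 1 := h3
    obtain ⟨m, ρ, hρ, hρχ⟩ := χ.2
    rw [← hρχ, Representation.char_one, Cfsg.Agent.H3.rep_char_eq_degree_iff] at h4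
    have h5 := Cfsg.Agent.H3.simple_of_scalar χ.2 hχ1 ρ hρχ _ hne1 ⟨1, by rw [h4, one_smul]⟩
    exact hcon (h5 a b)
  -- `p ^ 2` divides the order
  have hp2 : p ^ 2 ∣ Nat.card G := by
    obtain ⟨k, hk⟩ := IsPGroup.iff_card.mp P.isPGroup'
    have hk2 : 2 ≤ k := by
      by_contra hk2
      push Not at hk2
      apply hcon
      have hcyc : IsCyclic (P : Subgroup G) := by
        interval_cases k
        · have : Nat.card (P : Subgroup G) = 1 := by simpa using hk
          have := (Nat.card_eq_one_iff_unique.mp this).1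
          infer_instance
        · exact isCyclic_of_prime_card (p := p) (by simpa using hk)
      have h6 : (⟨a, ha⟩ : (P : Subgroup G)) * ⟨b, hb⟩ = ⟨b, hb⟩ * ⟨a, ha⟩ :=
        (IsCyclic.commGroup (α := (P : Subgroup G))).mul_comm _ _
      exact congrArg Subtype.val h6
    have h7 : p ^ k ∣ Nat.card G := by
      rw [← hk]
      exact Subgroup.card_subgroup_dvd_card _
    exact (pow_dvd_pow p hk2).trans h7
  choose d hd using fun χ : Cfsg.IrrCharacter G =>
    Cfsg.Agent.H3.char_one_eq_nat (Cfsg.Agent.H3.irr_isChar χ.2)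
  have hsum : Nat.card G = ∑ χ : Cfsg.IrrCharacter G, d χ ^ 2 := by
    have := Cfsg.Agent.H3.sum_degree_sq (G := G)
    simp only [hd] at this
    exact_mod_cast this.symm
  let one : Cfsg.IrrCharacter G := ⟨fun _ => 1, Cfsg.Agent.H3.isIrr_one⟩
  have hd1 : d one = 1 := by
    have : ((d one : ℕ) : ℂ) = 1 := by rw [← hd]
    exact_mod_cast this
  rw [← Finset.add_sum_erase _ _ (Finset.mem_univ one), hd1] at hsum
  have hge : (Finset.univ.erase one).card * p ^ 2 ≤ ∑ χ ∈ Finset.univ.erase one, d χ ^ 2 := by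
    rw [← smul_eq_mul, ← Finset.sum_const]
    refine Finset.sum_le_sum fun χ hχ => ?_
    have h8 := hdeg χ (d χ) (fun h => (Finset.mem_erase.mp hχ).1 (Subtype.ext h)) (hd χ)
    exact Nat.pow_le_pow_left h8 2
  have hcardErase : (Finset.univ.erase one).card = Nat.card (ConjClasses G) - 1 := by
    rw [Finset.card_erase_of_mem (Finset.mem_univ _), Finset.card_univ,
      ← Nat.card_eq_fintype_card, Cfsg.Agent.H3.card_irr_eq]
  rw [hcardErase] at hge
  obtain ⟨c, hc⟩ := hp2
  rw [hc] at hmany hsum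
  have hp0 : 0 < p ^ 2 := pow_pos hpp.pos 2
  have h9 : c < Nat.card (ConjClasses G) := Nat.lt_of_mul_lt_mul_left hmany
  have h10 : p ^ 2 * c ≤ p ^ 2 * (Nat.card (ConjClasses G) - 1) :=
    Nat.mul_le_mul_left _ (by omega)
  have h11 : (Nat.card (ConjClasses G) - 1) * p ^ 2 = p ^ 2 * (Nat.card (ConjClasses G) - 1) :=
    mul_comm _ _
  simp only [one_pow] at hsum
  omega

end Cfsg.Agent.S0186
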