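import Cfsg.Statements.S0192
import Cfsg.Agent.H3.Basic2

set_option autoImplicit false
open Cfsg

namespace Cfsg.Agent.S0192

/-- Brauer's generation criterion. Let G be a finite simple group, H₁ and H₂ subgroups, and χ a non-principal irreducible character. If the multiplicity of the principal character in χ restricted to H₁ ⊓ H₂ is less than the sum of the corresponding multiplicities for H₁ and H₂, then H₁ and H₂ do not generate G. -/
theorem result {G : Type*} [Group G] [Fintype G] [IsSimpleGroup G] (H₁ H₂ : Subgroup G) [Fintype H₁] [Fintype H₂] [Fintype ↥(H₁ ⊓ H₂)] (χ : G → ℂ) (hχ : Cfsg.IsIrrCharacter G χ) (hχ1 : χ ≠ fun _ => 1) (hlt : (Cfsg.classInner (fun x : ↥(H₁ ⊓ H₂) => χ x) (fun _ => 1)).re < (Cfsg.classInner (fun x : H₁ => χ x) (fun _ => 1)).re + (Cfsg.classInner (fun x : H₂ => χ x) (fun _ => 1)).re) : H₁ ⊔ H₂ ≠ ⊤ := by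
  classical
  intro hgen
  obtain ⟨n, ρ, hρ, rfl⟩ := hχ
  -- fixed spaces
  have key : ∀ (H : Subgroup G) [Fintype H],
      Cfsg.classInner (fun x : H => ρ.character x) (fun _ => 1) =
      (Module.finrank ℂ (Representation.invariants (ρ.comp H.subtype)) : ℂ) := by
    intro H _
    letI := Cfsg.Agent.H3.invCard (G := H)
    rw [← Representation.card_inv_mul_sum_char_eq_finrank, Cfsg.classInner]
    simp only [map_one, mul_one]
    rfl
  rw [key, key, key] at hlt
  simp only [Complex.natCast_re] at hlt
  set W₁ := Representation.invariants (ρ.comp H₁.subtype)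
  set W₂ := Representation.invariants (ρ.comp H₂.subtype)
  set W := Representation.invariants (ρ.comp (H₁ ⊓ H₂).subtype)
  have h1 : W₁ ≤ W := fun v hv x => hv ⟨x.1, x.2.1⟩
  have h2 : W₂ ≤ W := fun v hv x => hv ⟨x.1, x.2.2⟩
  have h3 : W₁ ⊓ W₂ = ⊥ := by
    rw [eq_bot_iff]
    intro v hv
    have hv1 := hv.1
    have hv2 := hv.2
    -- `v` is fixed by everything
    let S : Subgroup G := {
      carrier := {g | ρ g v = v}
      one_mem' := by change ρ 1 v = v; rw [map_one]; rfl
      mul_mem' := by
        intro a b ha hb
        change ρ (a * b) v = v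
        rw [map_mul, Module.End.mul_apply]
        rw [show ρ b v = v from hb]; exact ha
      inv_mem' := by
        intro a ha
        change ρ a⁻¹ v = v
        have h4 : ρ a⁻¹ (ρ a v) = v := by
          rw [← Module.End.mul_apply, ← map_mul]; simp
        rw [show ρ a v = v from ha] at h4
        exact h4 }
    have hS : S = ⊤ := by
      rw [eq_top_iff, ← hgen]
      exact sup_le (fun x hx => hv1 ⟨x, hx⟩) (fun x hx => hv2 ⟨x, hx⟩)
    by_contra hv0
    rw [Submodule.mem_bot] at hv0
    apply hχ1
    -- the span of `v` is everything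
    let U : Subrepresentation ρ := {
      toSubmodule := Submodule.span ℂ {v}
      apply_mem_toSubmodule := by
        intro g w hw
        obtain ⟨c, rfl⟩ := Submodule.mem_span_singleton.mp hw
        have : g ∈ S := by rw [hS]; trivial
        rw [map_smul, show ρ g v = v from this]
        exact Submodule.mem_span_singleton.mpr ⟨c, rfl⟩ }
    have hU : U = ⊤ := by
      rcases eq_bot_or_eq_top U with h | h
      · exfalso
        apply hv0
        have h5 : v ∈ U.toSubmodule := Submodule.mem_span_singleton_self v
        rw [h] at h5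
        exact h5
      · exact h
    have hfix : ∀ g, ρ g = LinearMap.id := by
      intro g
      ext1 w
      ext1
      rename_i i
      have h6 : ∀ w : Fin n → ℂ, ρ g w = w := by
        intro w
        have hw : w ∈ U.toSubmodule := by rw [hU]; exact Submodule.mem_top
        obtain ⟨c, rfl⟩ := Submodule.mem_span_singleton.mp hw
        have : g ∈ S := by rw [hS]; trivial
        rw [map_smul, show ρ g v = v from this]
      simp [h6]
    have hconst : ∀ g, ρ.character g = ρ.character 1 := by
      intro g
      rw [Representation.character, Representation.character, hfix g, hfix 1]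
    have hone := Cfsg.Agent.H3.classInner_irr (Cfsg.Agent.H3.isIrrCharacter_of_rep ρ)
      (Cfsg.Agent.H3.isIrr_one (G := G))
    rw [if_neg hχ1, Cfsg.classInner] at hone
    simp only [hconst, map_one, mul_one, Finset.sum_const, Finset.card_univ, nsmul_eq_mul] at hone
    rw [← Nat.card_eq_fintype_card, ← mul_assoc, inv_mul_cancel₀ Cfsg.Agent.H3.card_ne_zeroC,
      one_mul] at hone
    exact absurd hone (Cfsg.Agent.H3.irr_one_ne_zero (Cfsg.Agent.H3.isIrrCharacter_of_rep ρ))
  have h4 := Submodule.finrank_sup_add_finrank_inf_eq W₁ W₂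
  rw [h3, finrank_bot, add_zero] at h4
  have h5 : Module.finrank ℂ (W₁ ⊔ W₂ : Submodule ℂ (Fin n → ℂ)) ≤ Module.finrank ℂ W :=
    Submodule.finrank_mono (sup_le h1 h2)
  have h6 : Module.finrank ℂ W < Module.finrank ℂ W₁ + Module.finrank ℂ W₂ := by
    exact_mod_cast hlt
  omega

end Cfsg.Agent.S0192
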