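import Cfsg.Statements.S0194
import Cfsg.Agent.H3.Clifford
import Cfsg.Agent.H3.Counting

set_option autoImplicit false
open scoped ComplexConjugate
open Cfsg

namespace Cfsg.Agent.S0194

/-- Let G have odd order, H be a normal subgroup and θ a non-principal irreducible character of H. Then the function induced from θ is orthogonal to its complex conjugate. -/
theorem result {G : Type*} [Group G] [Fintype G] (hodd : Odd (Nat.card G)) (H : Subgroup G) [H.Normal] (θ : H → ℂ) (hθ : Cfsg.IsIrrCharacter H θ) (hθ1 : θ ≠ fun _ => 1) : Cfsg.classInner (fun g => conj (Cfsg.indFun H θ g)) (Cfsg.indFun H θ) = 0 := by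
  have hN : H.Normal := inferInstance
  have := Fintype.ofFinite H
  rw [Cfsg.Agent.H3.indFun_conj]
  have hH0 : (Nat.card H : ℂ) ≠ 0 := by exact_mod_cast Nat.card_pos.ne'
  have h1 := Cfsg.Agent.H3.classInner_indFun_normal hN (fun k => (starRingEnd ℂ) (θ k)) θ
  have hoddH : Odd (Nat.card H) := by
    rw [Nat.odd_iff] at hodd ⊢
    have h2 := Subgroup.card_subgroup_dvd_card H
    by_contra hcon
    have h3 : 2 ∣ Nat.card H := by omega
    have := h3.trans h2
    omega
  have h2 : ∑ x : G, Cfsg.classInner (fun k => (starRingEnd ℂ) (θ k))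
      (Cfsg.Agent.H3.cj hN x θ) = 0 := by
    apply Finset.sum_eq_zero
    intro x _
    apply Cfsg.Agent.H3.classInner_of_irr_ne (Cfsg.Agent.H3.isIrr_conj hθ)
      (Cfsg.Agent.H3.isIrr_cj hN hθ x)
    intro heq
    -- `x²` fixes `θ`
    have h3 : Cfsg.Agent.H3.cj hN (x * x) θ = θ := by
      rw [Cfsg.Agent.H3.cj_mul, ← heq]
      ext k
      have := congrFun heq k
      change (starRingEnd ℂ) (Cfsg.Agent.H3.cj hN x θ k) = θ k
      rw [← this]
      simp
    have h4 : x * x ∈ Cfsg.Agent.H3.inertia hN θ := h3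
    have h5 : x ∈ Cfsg.Agent.H3.inertia hN θ := by
      have hox : Odd (orderOf x) := by
        rw [Nat.odd_iff] at hodd ⊢
        have h6 := orderOf_dvd_natCard x
        by_contra hcon
        have h7 : 2 ∣ orderOf x := by omega
        have := h7.trans h6
        omega
      obtain ⟨m, hm⟩ := hox
      have hxe : x = (x * x) ^ (m + 1) := by
        rw [← pow_two, ← pow_mul]
        have : 2 * (m + 1) = orderOf x + 1 := by omega
        rw [this, pow_succ, pow_orderOf_eq_one, one_mul]
      rw [hxe]
      exact Subgroup.pow_mem _ h4 _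
    have h6 : Cfsg.Agent.H3.cj hN x θ = θ := h5
    rw [h6] at heq
    apply hθ1
    have h7 := Cfsg.Agent.H3.irr_real_of_odd hoddH ⟨θ, hθ⟩ (by
      apply Subtype.ext
      exact heq)
    exact h7
  rw [h2] at h1
  exact (mul_eq_zero.mp h1).resolve_left hH0

end Cfsg.Agent.S0194
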