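import Cfsg.Statements.S0196
import Cfsg.Agent.H3.Frob

set_option autoImplicit false
open Cfsg

namespace Cfsg.Agent.S0196

/-- Let A be a subgroup of a finite group G that equals the centralizer of each of its non-identity elements, and let N be its normalizer. Then the index of A in N divides |A| − 1 (N/A permutes the non-identity elements of A in orbits of full length). -/
theorem result {G : Type*} [Group G] [Finite G] (A : Subgroup G) (hA : ∀ x ∈ A, x ≠ 1 → Subgroup.centralizer ({x} : Set G) = A) : (A.subgroupOf (Subgroup.normalizer (A : Set G))).index ∣ Nat.card A - 1 := by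
  have h1 : (A.subgroupOf (Subgroup.normalizer (A : Set G))).Normal :=
    Subgroup.normal_in_normalizer
  have hle : A ≤ Subgroup.normalizer (A : Set G) := Subgroup.le_normalizer
  have h2 : Nat.card (A.subgroupOf (Subgroup.normalizer (A : Set G))) = Nat.card A :=
    Nat.card_congr (Subgroup.subgroupOfEquivOfLe hle).toEquiv
  rw [← h2]
  apply Cfsg.Agent.H3.index_dvd_card_sub_one _ h1
  intro k hk hk1 x hx
  have hk' := Subgroup.mem_subgroupOf.mp hk
  have hk1' : (k : G) ≠ 1 := fun e => hk1 (Subtype.ext e)
  have h3 : (x : G) ∈ Subgroup.centralizer ({(k : G)} : Set G) := by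
    rw [Subgroup.mem_centralizer_singleton_iff]
    exact congrArg Subtype.val (Subgroup.mem_centralizer_singleton_iff.mp hx)
  rw [hA k hk' hk1'] at h3
  exact Subgroup.mem_subgroupOf.mpr h3

end Cfsg.Agent.S0196
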