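import Cfsg.Statements.S0197
import Cfsg.Agent.H21.GL7

set_option autoImplicit false
set_option linter.unusedVariables false
open Cfsg

namespace Cfsg.Agent.S0197

/-- If a finite simple group has an involution whose centralizer is isomorphic to the general linear group GL(2, 3), then the group has order 5616 or 7920. -/
theorem result {G : Type*} [Group G] [Finite G] [IsSimpleGroup G] (t : G) (ht : orderOf t = 2) (e : Subgroup.centralizer ({t} : Set G) ≃* Matrix.GeneralLinearGroup (Fin 2) (ZMod 3)) : Nat.card G = 5616 ∨ Nat.card G = 7920 := by
  haveI hG : IsSimpleGroup G := inferInstance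
  refine Cfsg.Agent.H21.GL.order ht e (fun M hM h2 => ?_)
  rcases hM.eq_bot_or_eq_top with h | h
  · rw [h, Subgroup.index_bot] at h2
    have h1 := Cfsg.Agent.H21.GL.card_C e
    have h3 := Subgroup.card_subgroup_dvd_card (Subgroup.centralizer ({t} : Set G))
    rw [h1, h2] at h3
    norm_num at h3
  · rw [h, Subgroup.index_top] at h2
    norm_num at h2

end Cfsg.Agent.S0197
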