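import Cfsg.Statements.S0203
import Cfsg.Agent.H4.KleinSylow

set_option autoImplicit false
open Cfsg

namespace Cfsg.Agent.S0203

/-- If a Sylow 2-subgroup P of a finite group G is a Klein four-group, then G has three classes of involutions if and only if P has a normal complement in G. -/
theorem result {G : Type*} [Group G] [Finite G] (P : Sylow 2 G) (hP : IsKleinFour (P : Subgroup G)) : Nat.card {C : ConjClasses G // ∃ t : G, orderOf t = 2 ∧ ConjClasses.mk t = C} = 3 ↔ ∃ N : Subgroup G, N.Normal ∧ Subgroup.IsComplement' N (P : Subgroup G) := by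
  haveI : Fact (Nat.Prime 2) := ⟨Nat.prime_two⟩
  constructor
  · intro h3
    rcases H4.klein_cases P hP with h | h
    · have hle : Subgroup.normalizer (P : Set G) ≤ Subgroup.centralizer (P : Set G) := by
        intro n hn
        rw [Subgroup.mem_centralizer_iff]
        intro x hx
        exact (h n hn x hx).eq.symm
      exact ⟨_, inferInstance, MonoidHom.ker_transferSylow_isComplement' P hle⟩
    · rw [H4.klein_card_classes_one P hP h] at h3
      omega
  · rintro ⟨N, hN, hcomp⟩
    apply H4.klein_card_classes_three P hP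
    intro x hx y hy hxy
    obtain ⟨g, hg⟩ := isConj_iff.1 hxy
    have hab := H4.klein_comm hP
    -- G/N is abelian since G = N P
    have hdec : ∀ g : G, ∃ n ∈ N, ∃ p ∈ (P : Subgroup G), n * p = g := by
      intro g
      have : g ∈ (⊤ : Subgroup G) := Subgroup.mem_top g
      rw [← hcomp.sup_eq_top, sup_comm] at this
      obtain ⟨p, hp, n, hn, h⟩ := H4.exists_mul_of_mem_sup_normal this
      refine ⟨p * n * p⁻¹, hN.conj_mem n hn p, p, hp, ?_⟩
      rw [← h]; group
    obtain ⟨n, hn, p, hp, hnp⟩ := hdec g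
    have h1 : g * x * g⁻¹ = n * x * n⁻¹ := by
      rw [← hnp]
      have : p * x * p⁻¹ = x := by rw [hab p hp x hx]; group
      calc n * p * x * (n * p)⁻¹ = n * (p * x * p⁻¹) * n⁻¹ := by group
        _ = n * x * n⁻¹ := by rw [this]
    have h2 : y * x⁻¹ ∈ N := by
      rw [← hg, h1]
      have := mul_mem hn (hN.conj_mem n⁻¹ (inv_mem hn) x)
      have e : n * (x * n⁻¹ * x⁻¹) = n * x * n⁻¹ * x⁻¹ := by group
      rwa [e] at this
    have h3 : y * x⁻¹ ∈ (P : Subgroup G) := mul_mem hy (inv_mem hx)
    have h4 : y * x⁻¹ ∈ N ⊓ (P : Subgroup G) := Subgroup.mem_inf.2 ⟨h2, h3⟩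
    rw [hcomp.disjoint.eq_bot, Subgroup.mem_bot] at h4
    exact (mul_inv_eq_one.1 h4).symm

end Cfsg.Agent.S0203
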