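import Cfsg.Statements.S0204
import Cfsg.Agent.FT
import Cfsg.Agent.H4.SimpleKlein

set_option autoImplicit false
open Cfsg

namespace Cfsg.Agent.S0204

/-- A non-cyclic finite simple group contains a subgroup which is a Klein four-group; this combines the Odd Order Theorem, Burnside's transfer argument for cyclic Sylow 2-subgroups and the Brauer–Suzuki Theorem. -/
theorem result {G : Type*} [Group G] [Finite G] [IsSimpleGroup G] (hG : ¬ IsCyclic G) : ∃ E : Subgroup G, IsKleinFour E := by
  exact H4.simple_has_klein (fun h => FT.odd_order h) hG

end Cfsg.Agent.S0204
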