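import Cfsg.Statements.S0208
import Cfsg.Agent.H4.Isolated

set_option autoImplicit false
open Cfsg

namespace Cfsg.Agent.S0208

/-- If x, y are involutions and xy has odd order, then some element of the subgroup generated by x and y conjugates x to y. -/
theorem result {G : Type*} [Group G] [Finite G] (x y : G) (hx : orderOf x = 2) (hy : orderOf y = 2) (hodd : Odd (orderOf (x * y))) : ∃ d ∈ Subgroup.closure ({x, y} : Set G), d * x * d⁻¹ = y := by
  have hxx := H4.mul_self_of_orderOf_two hx
  have hyy := H4.mul_self_of_orderOf_two hy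
  obtain ⟨k, hk⟩ := H4.conj_of_odd hxx hyy hodd
  refine ⟨(x * y) ^ k, ?_, hk⟩
  exact Subgroup.pow_mem _ (mul_mem (Subgroup.subset_closure (by simp)) (Subgroup.subset_closure (by simp))) k

end Cfsg.Agent.S0208
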