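import Cfsg.Statements.S0210
import Cfsg.Agent.H4.Isolated

set_option autoImplicit false
open Cfsg

namespace Cfsg.Agent.S0210

/-- If x, y are involutions whose product has even order, no element of the subgroup generated by x and y conjugates x to y. -/
theorem result {G : Type*} [Group G] [Finite G] (x y : G) (hx : orderOf x = 2) (hy : orderOf y = 2) (heven : Even (orderOf (x * y))) (d : G) (hd : d ∈ Subgroup.closure ({x, y} : Set G)) : d * x * d⁻¹ ≠ y := by
  have hxx := H4.mul_self_of_orderOf_two hx
  have hyy := H4.mul_self_of_orderOf_two hy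
  have hx' := H4.inv_eq_self_of_mul_self hxx
  have key : ∀ k : ℤ, (x * y) ^ k * x * ((x * y) ^ k)⁻¹ ≠ y := by
    intro k h
    have h1 : x * ((x * y) ^ k)⁻¹ = (x * y) ^ k * x := by
      have := H4.conj_zpow_inv (H4.inv_conj_mul hxx hyy) (-k)
      rw [zpow_neg, inv_inv] at this
      exact mul_inv_eq_iff_eq_mul.mp this
    rw [mul_assoc, h1, ← mul_assoc, ← zpow_add] at h
    have h2 : (x * y) ^ (k + k + 1) = 1 := by
      rw [zpow_add_one, ← mul_assoc, h, hyy]
    have h3 := orderOf_dvd_iff_zpow_eq_one.2 h2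
    obtain ⟨m, hm⟩ := heven
    obtain ⟨c, hc⟩ := h3
    rw [hm] at hc
    push_cast at hc
    have : k + k + 1 = 2 * (m * c) := by rw [hc]; ring
    omega
  obtain ⟨k, hk⟩ := (H4.mem_closure_pair hxx hyy d).1 hd
  rcases hk with rfl | rfl
  · exact key k
  · intro h
    apply key k
    refine Eq.trans ?_ h
    generalize (x * y) ^ k = a
    group

end Cfsg.Agent.S0210
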