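import Cfsg.Statements.S0211
import Cfsg.Agent.H4.Isolated

set_option autoImplicit false
open Cfsg

namespace Cfsg.Agent.S0211

/-- Let x, y be involutions with xy of even order n and z = (xy)^(n/2). Then xz is conjugate to x by an element of the subgroup generated by x, y if and only if 4 divides n. -/
theorem result {G : Type*} [Group G] [Finite G] (x y : G) (hx : orderOf x = 2) (hy : orderOf y = 2) (heven : Even (orderOf (x * y))) : (∃ d ∈ Subgroup.closure ({x, y} : Set G), d * x * d⁻¹ = x * (x * y) ^ (orderOf (x * y) / 2)) ↔ 4 ∣ orderOf (x * y) := by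
  have hxx := H4.mul_self_of_orderOf_two hx
  have hyy := H4.mul_self_of_orderOf_two hy
  have hx' := H4.inv_eq_self_of_mul_self hxx
  have h0 : 0 < orderOf (x * y) := (orderOf_pos _)
  have hc : ∀ k : ℤ, (x * y) ^ k * x * ((x * y) ^ k)⁻¹ = x * (x * y) ^ (-(k + k)) := by
    intro k
    have h1 : (x * y) ^ k * x = x * ((x * y) ^ k)⁻¹ := by
      have := H4.conj_zpow_inv (H4.inv_conj_mul hxx hyy) (-k)
      rw [zpow_neg, inv_inv] at this
      exact (mul_inv_eq_iff_eq_mul.mp this).symm
    rw [h1, mul_assoc, ← mul_inv_rev, ← zpow_add, zpow_neg]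
  obtain ⟨m, hm⟩ := heven
  have hm2 : orderOf (x * y) / 2 = m := by omega
  rw [hm2]
  constructor
  · rintro ⟨d, hd, hdx⟩
    have key : ∃ k : ℤ, (x * y) ^ k * x * ((x * y) ^ k)⁻¹ = x * (x * y) ^ m := by
      obtain ⟨k, hk⟩ := (H4.mem_closure_pair hxx hyy d).1 hd
      rcases hk with rfl | rfl
      · exact ⟨k, hdx⟩
      · refine ⟨k, ?_⟩
        rw [← hdx]; group
    obtain ⟨k, hk⟩ := key
    rw [hc] at hk
    have hk' := mul_left_cancel hk
    have h2 : (x * y) ^ ((m : ℤ) + (k + k)) = 1 := by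
      rw [zpow_add, zpow_natCast, ← hk', ← zpow_add]; simp
    have h3 := orderOf_dvd_iff_zpow_eq_one.2 h2
    obtain ⟨c, hc⟩ := h3
    rw [hm] at hc
    push_cast at hc
    have h4 : (m : ℤ) = 2 * (m * c - k) := by linear_combination hc
    have h5 : Even m := by
      have : Even (m : ℤ) := by rw [h4]; exact even_two_mul _
      exact_mod_cast this
    obtain ⟨r, hr⟩ := h5
    rw [hm]
    exact ⟨r, by omega⟩
  · rintro ⟨r, hr⟩
    have hm' : m = 2 * r := by omega
    refine ⟨(x * y) ^ (-(r : ℤ)), Subgroup.zpow_mem _ (mul_mem (Subgroup.subset_closure (by simp)) (Subgroup.subset_closure (by simp))) _, ?_⟩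
    rw [hc, hm', ← zpow_natCast]
    congr 2
    push_cast; ring

end Cfsg.Agent.S0211
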