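import Cfsg.Statements.S0236
import Cfsg.Agent.H4.Isolated
import Mathlib

set_option autoImplicit false
open Cfsg

namespace Cfsg.Agent.S0236

theorem pairs_equiv {G : Type*} [Group G] [Finite G] (x : G) (hx : orderOf x = 2) :
    Nat.card {p : G × G // orderOf p.1 = 2 ∧ orderOf p.2 = 2 ∧ p.1 * p.2 = x} =
      Nat.card {t : G // (orderOf t = 2 ∧ Commute t x) ∧ t ≠ x} := by
  have hxx := H4.mul_self_of_orderOf_two hx
  apply Nat.card_congr
  refine
    { toFun := fun p => ⟨p.1.1, ?_⟩
      invFun := fun t => ⟨(t.1, t.1 * x), t.2.1.1, ?_, ?_⟩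
      left_inv := ?_
      right_inv := ?_ }
  · obtain ⟨⟨u, v⟩, hu, hv, huv⟩ := p
    simp only at hu hv huv ⊢
    have huu := H4.mul_self_of_orderOf_two hu
    have hvv := H4.mul_self_of_orderOf_two hv
    refine ⟨⟨hu, ?_⟩, ?_⟩
    · have h := H4.inv_conj_mul huu hvv
      rw [huv, H4.inv_eq_self_of_mul_self hxx] at h
      exact mul_inv_eq_iff_eq_mul.mp h
    · rintro rfl
      have : v = 1 := by
        have : u * v = u * 1 := by rw [huv, mul_one]
        exact mul_left_cancel this
      exact H4.ne_one_of_orderOf_two hv this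
  · obtain ⟨t, ⟨ht, htx⟩, hne⟩ := t
    simp only
    have htt := H4.mul_self_of_orderOf_two ht
    apply H4.orderOf_two_of
    · calc t * x * (t * x) = t * (x * t) * x := by group
        _ = (t * t) * (x * x) := by rw [← htx.eq]; group
        _ = 1 := by rw [htt, hxx, one_mul]
    · intro h
      apply hne
      have := eq_inv_of_mul_eq_one_left h
      rw [this, H4.inv_eq_self_of_mul_self hxx]
  · obtain ⟨t, ⟨ht, htx⟩, hne⟩ := t
    simp only
    rw [← mul_assoc, H4.mul_self_of_orderOf_two ht, one_mul]
  · rintro ⟨⟨u, v⟩, hu, hv, huv⟩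
    simp only [Subtype.mk.injEq, Prod.mk.injEq, true_and]
    simp only at huv
    rw [← huv, ← mul_assoc, H4.mul_self_of_orderOf_two hu, one_mul]
  · rintro ⟨t, ht⟩
    rfl

/-- If x is an involution, the number of ordered pairs (u, v) of involutions with uv = x, plus one, equals the number of involutions in the centralizer of x. -/
theorem result {G : Type*} [Group G] [Finite G] (x : G) (hx : orderOf x = 2) : Nat.card {p : G × G // orderOf p.1 = 2 ∧ orderOf p.2 = 2 ∧ p.1 * p.2 = x} + 1 = Nat.card {t : G // orderOf t = 2 ∧ Commute t x} := by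
  classical
  haveI := Fintype.ofFinite G
  rw [pairs_equiv x hx]
  rw [Nat.card_eq_fintype_card, Nat.card_eq_fintype_card, Fintype.card_subtype, Fintype.card_subtype]
  have : (Finset.univ.filter (fun t : G => orderOf t = 2 ∧ Commute t x)) = insert x (Finset.univ.filter (fun t : G => (orderOf t = 2 ∧ Commute t x) ∧ t ≠ x)) := by
    ext t
    simp only [Finset.mem_filter, Finset.mem_univ, true_and, Finset.mem_insert]
    constructor
    · intro h
      by_cases h1 : t = x
      · exact Or.inl h1
      · exact Or.inr ⟨h, h1⟩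
    · rintro (rfl | h)
      · exact ⟨hx, Commute.refl _⟩
      · exact h.1
  rw [this, Finset.card_insert_of_notMem]
  simp

end Cfsg.Agent.S0236
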