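import Cfsg.Statements.S0238
import Cfsg.Agent.H4.Basic
import Cfsg.Agent.S0236

set_option autoImplicit false
open Cfsg

namespace Cfsg.Agent.S0238

/-- For every x in a finite group G, the number c of ordered pairs (u, v) of involutions with uv = x is at most |C_G(x)|; c = 0 when x is not conjugate to x⁻¹; and c + 2 ≤ |C_G(x)| when x is an involution. -/
theorem result {G : Type*} [Group G] [Finite G] (x : G) : Nat.card {p : G × G // orderOf p.1 = 2 ∧ orderOf p.2 = 2 ∧ p.1 * p.2 = x} ≤ Nat.card (Subgroup.centralizer ({x} : Set G)) ∧ (¬ IsConj x x⁻¹ → Nat.card {p : G × G // orderOf p.1 = 2 ∧ orderOf p.2 = 2 ∧ p.1 * p.2 = x} = 0) ∧ (orderOf x = 2 → Nat.card {p : G × G // orderOf p.1 = 2 ∧ orderOf p.2 = 2 ∧ p.1 * p.2 = x} + 2 ≤ Nat.card (Subgroup.centralizer ({x} : Set G))) := by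
  classical
  have hreal : ∀ p : G × G, orderOf p.1 = 2 ∧ orderOf p.2 = 2 ∧ p.1 * p.2 = x → p.1 * x * p.1⁻¹ = x⁻¹ := by
    rintro ⟨u, v⟩ ⟨hu, hv, huv⟩
    simp only at hu hv huv ⊢
    rw [← huv]
    exact H4.inv_conj_mul (H4.mul_self_of_orderOf_two hu) (H4.mul_self_of_orderOf_two hv)
  refine ⟨?_, ?_, ?_⟩
  · by_cases hne : Nonempty {p : G × G // orderOf p.1 = 2 ∧ orderOf p.2 = 2 ∧ p.1 * p.2 = x}
    · obtain ⟨⟨p0, hp0⟩⟩ := hne
      have h0 : p0.1 * x = x⁻¹ * p0.1 := mul_inv_eq_iff_eq_mul.mp (hreal p0 hp0)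
      apply Nat.card_le_card_of_injective (fun p : {p : G × G // orderOf p.1 = 2 ∧ orderOf p.2 = 2 ∧ p.1 * p.2 = x} => (⟨p0.1⁻¹ * p.1.1, by
        rw [Subgroup.mem_centralizer_singleton_iff]
        have h' : p.1.1 * x = x⁻¹ * p.1.1 := mul_inv_eq_iff_eq_mul.mp (hreal p.1 p.2)
        calc p0.1⁻¹ * p.1.1 * x = p0.1⁻¹ * (p.1.1 * x) := by group
          _ = p0.1⁻¹ * (x⁻¹ * p0.1) * (p0.1⁻¹ * p.1.1) := by rw [h']; group
          _ = x * (p0.1⁻¹ * p.1.1) := by rw [← h0]; group⟩ : Subgroup.centralizer ({x} : Set G)))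
      rintro ⟨⟨u, v⟩, hu, hv, huv⟩ ⟨⟨u', v'⟩, hu', hv', huv'⟩ h
      simp only [Subtype.mk.injEq, mul_right_inj] at h
      subst h
      simp only at huv huv'
      have : v = v' := by
        have : u * v = u * v' := by rw [huv, huv']
        exact mul_left_cancel this
      subst this
      rfl
    · rw [not_nonempty_iff] at hne
      rw [Nat.card_of_isEmpty]
      exact Nat.zero_le _
  · intro hnr
    rw [Nat.card_eq_zero]
    left
    constructor
    rintro ⟨p, hp⟩
    exact hnr (isConj_iff.2 ⟨_, hreal p hp⟩)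
  · intro hx
    have h1 := Cfsg.Agent.S0236.result x hx
    have h2 : Nat.card {t : G // orderOf t = 2 ∧ Commute t x} + 1 ≤ Nat.card (Subgroup.centralizer ({x} : Set G)) := by
      have h3 : Nat.card (Option {t : G // orderOf t = 2 ∧ Commute t x}) ≤ Nat.card (Subgroup.centralizer ({x} : Set G)) := by
        apply Nat.card_le_card_of_injective (fun o : Option {t : G // orderOf t = 2 ∧ Commute t x} =>
          match o with
          | none => (1 : Subgroup.centralizer ({x} : Set G))
          | some t => ⟨t.1, Subgroup.mem_centralizer_singleton_iff.2 t.2.2.eq⟩)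
        rintro (_ | ⟨t, ht⟩) (_ | ⟨s, hs⟩) h
        · rfl
        · exfalso
          have := congrArg Subtype.val h
          simp at this
          rw [← this] at hs
          simp at hs
        · exfalso
          have := congrArg Subtype.val h
          simp at this
          rw [this] at ht
          simp at ht
        · simp only [Subtype.mk.injEq] at h
          subst h; rfl
      have h4 : Nat.card (Option {t : G // orderOf t = 2 ∧ Commute t x}) = Nat.card {t : G // orderOf t = 2 ∧ Commute t x} + 1 := by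
        haveI := Fintype.ofFinite {t : G // orderOf t = 2 ∧ Commute t x}
        rw [Nat.card_eq_fintype_card, Nat.card_eq_fintype_card, Fintype.card_option]
      omega
    omega

end Cfsg.Agent.S0238
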