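import Cfsg.Statements.S0212
import Cfsg.Agent.H4.Basic2
import Cfsg.Agent.S0238

set_option autoImplicit false
open Cfsg

namespace Cfsg.Agent.S0212

theorem card_le_factorial_index {G : Type*} [Group G] [Finite G] [IsSimpleGroup G] (H : Subgroup G) (hH : H ≠ ⊤) :
    Nat.card G ≤ Nat.factorial H.index := by
  have hcore : H.normalCore = ⊥ := by
    rcases (inferInstance : H.normalCore.Normal).eq_bot_or_eq_top with h | h
    · exact h
    · exfalso; apply hH
      rw [eq_top_iff, ← h]; exact H.normalCore_le
  have hinj : Function.Injective (MulAction.toPermHom G (G ⧸ H)) := by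
    rw [← MonoidHom.ker_eq_bot_iff, ← Subgroup.normalCore_eq_ker, hcore]
  have h1 := Nat.card_le_card_of_injective _ hinj
  rwa [Nat.card_perm] at h1

theorem exists_small_index {G : Type*} [Group G] [Finite G] (t : G) (ht : orderOf t = 2) (hbig : 2 * Nat.card (Subgroup.centralizer ({t} : Set G)) < Nat.card G) :
    ∃ x : G, x ≠ 1 ∧ (Subgroup.centralizer ({x} : Set G)).index ≤ 2 * (Nat.card (Subgroup.centralizer ({t} : Set G))) ^ 2 := by
  classical
  haveI := Fintype.ofFinite G
  by_contra hcon
  push Not at hcon
  set n := Nat.card (Subgroup.centralizer ({t} : Set G)) with hn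
  set g := Nat.card G with hg
  have hnpos : 0 < n := Nat.card_pos
  -- pairs of conjugates of t
  set T : Finset G := Finset.univ.filter (fun v => IsConj t v) with hT
  have hTcard : T.card * n = g := by
    have := H4.card_conj_mul_card_centralizer t
    rw [Nat.card_eq_fintype_card, Fintype.card_subtype] at this
    exact this
  have hTord : ∀ v ∈ T, orderOf v = 2 := by
    intro v hv
    obtain ⟨c, hc⟩ := isConj_iff.1 (Finset.mem_filter.1 hv).2
    rw [← hc, H4.orderOf_conj, ht]
  have hfib : ∀ x : G, ((T ×ˢ T).filter (fun p => p.1 * p.2 = x)).card ≤ Nat.card (Subgroup.centralizer ({x} : Set G)) := by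
    intro x
    refine le_trans ?_ (Cfsg.Agent.S0238.result x).1
    rw [Nat.card_eq_fintype_card, Fintype.card_subtype]
    apply Finset.card_le_card
    intro p hp
    simp only [Finset.mem_filter, Finset.mem_product, Finset.mem_univ, true_and] at hp ⊢
    exact ⟨hTord _ hp.1.1, hTord _ hp.1.2, hp.2⟩
  have hfib1 : ((T ×ˢ T).filter (fun p => p.1 * p.2 = 1)).card ≤ T.card := by
    apply Finset.card_le_card_of_injOn (fun p => p.1)
    · intro p hp
      simp only [Finset.coe_filter, Finset.mem_product, Set.mem_setOf_eq] at hp
      exact hp.1.1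
    · intro p hp q hq h
      simp only [Finset.coe_filter, Finset.mem_product, Set.mem_setOf_eq] at hp hq h
      have h1 := eq_inv_of_mul_eq_one_right hp.2
      have h2 := eq_inv_of_mul_eq_one_right hq.2
      exact Prod.ext h (by rw [h1, h2, h])
  have hsum : T.card * T.card = ∑ x : G, ((T ×ˢ T).filter (fun p => p.1 * p.2 = x)).card := by
    rw [← Finset.card_product]
    exact Finset.card_eq_sum_card_fiberwise (fun p _ => Finset.mem_univ _)
  -- each nontrivial centralizer is small
  have hsmall : ∀ x : G, x ≠ 1 → Nat.card (Subgroup.centralizer ({x} : Set G)) * (2 * n ^ 2) ≤ g := by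
    intro x hx
    have h1 := hcon x hx
    have h2 := (Subgroup.centralizer ({x} : Set G)).index_mul_card
    rw [← hg] at h2
    rw [← h2, mul_comm]
    exact Nat.mul_le_mul_right _ h1.le
  have hle : (T.card * T.card) * (2 * n ^ 2) ≤ T.card * (2 * n ^ 2) + (g - 1) * g := by
    rw [hsum, ← Finset.add_sum_erase Finset.univ _ (Finset.mem_univ (1 : G)), add_mul]
    apply Nat.add_le_add
    · exact Nat.mul_le_mul_right _ hfib1
    · rw [Finset.sum_mul]
      have : (Finset.univ.erase (1 : G)).card = g - 1 := by
        rw [Finset.card_erase_of_mem (Finset.mem_univ _), Finset.card_univ, hg, Nat.card_eq_fintype_card]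
      rw [← this, ← smul_eq_mul (a := (Finset.univ.erase (1 : G)).card), ← Finset.sum_const]
      apply Finset.sum_le_sum
      intro x hx
      exact (Nat.mul_le_mul_right _ (hfib x)).trans (hsmall x (Finset.ne_of_mem_erase hx))
  have hgpos : 0 < g := Nat.card_pos
  have e1 : (T.card * T.card) * (2 * n ^ 2) = 2 * g * g := by rw [← hTcard]; ring
  have e2 : T.card * (2 * n ^ 2) = 2 * n * g := by rw [← hTcard]; ring
  rw [e1, e2] at hle
  have e3 : (g - 1) * g + g = g * g := by
    obtain ⟨k, hk⟩ : ∃ k, g = k + 1 := ⟨g - 1, by omega⟩
    rw [hk, Nat.add_sub_cancel]; ring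
  have e4 : (g - 1) * g ≤ g * g := by omega
  have : g * g ≤ 2 * n * g := by nlinarith
  have := Nat.le_of_mul_le_mul_right this hgpos
  omega

/-- The Brauer–Fowler bound: if G is a finite simple group and t an involution of G whose centralizer has order n, then |G| ≤ (2n^2)!. -/
theorem result {G : Type*} [Group G] [Finite G] [IsSimpleGroup G] (t : G) (ht : orderOf t = 2) : Nat.card G ≤ Nat.factorial (2 * (Nat.card (Subgroup.centralizer ({t} : Set G))) ^ 2) := by
  set n := Nat.card (Subgroup.centralizer ({t} : Set G)) with hn
  have hnpos : 0 < n := Nat.card_pos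
  by_cases hbig : 2 * n < Nat.card G
  · obtain ⟨x, hx, hidx⟩ := exists_small_index t ht hbig
    by_cases hcx : Subgroup.centralizer ({x} : Set G) = ⊤
    · -- x is central, so G is its own center, abelian: contradiction with the size
      have hc : x ∈ Subgroup.center G := by
        rw [Subgroup.mem_center_iff]
        intro g
        have : g ∈ Subgroup.centralizer ({x} : Set G) := by rw [hcx]; exact Subgroup.mem_top g
        exact Subgroup.mem_centralizer_singleton_iff.1 this
      have hZ : Subgroup.center G = ⊤ := by
        rcases (inferInstance : (Subgroup.center G).Normal).eq_bot_or_eq_top with h | h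
        · rw [h] at hc; exact absurd hc hx
        · exact h
      have : Subgroup.centralizer ({t} : Set G) = ⊤ := by
        rw [eq_top_iff]
        intro g _
        rw [Subgroup.mem_centralizer_singleton_iff]
        have : t ∈ Subgroup.center G := by rw [hZ]; exact Subgroup.mem_top t
        exact Subgroup.mem_center_iff.1 this g
      have h1 : n = Nat.card G := by rw [hn, this, Subgroup.card_top]
      omega
    · exact (card_le_factorial_index _ hcx).trans (Nat.factorial_le hidx)
  · push Not at hbig
    have h1 : Nat.card G ≤ 2 * n ^ 2 := by nlinarith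
    exact h1.trans (Nat.self_le_factorial _)

end Cfsg.Agent.S0212
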