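import Cfsg.Statements.S0213
import Cfsg.Agent.H4.Basic2

set_option autoImplicit false
open Cfsg

namespace Cfsg.Agent.S0213

theorem key {G : Type*} [Group G] [Finite G] (x₁ x₂ : G) (h₁ : orderOf x₁ = 2) (h₂ : orderOf x₂ = 2) (hnc : ¬ IsConj x₁ x₂) (hall : ∀ t : G, orderOf t = 2 → IsConj x₁ t ∨ IsConj x₂ t) :
    Nat.card {v : G // IsConj x₁ v} * Nat.card {v : G // IsConj x₂ v} =
      Nat.card {v : G // IsConj x₁ v} * Nat.card {p : G × G // IsConj x₁ p.1 ∧ IsConj x₂ p.2 ∧ x₁ ∈ Subgroup.zpowers (p.1 * p.2)} +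
      Nat.card {v : G // IsConj x₂ v} * Nat.card {p : G × G // IsConj x₁ p.1 ∧ IsConj x₂ p.2 ∧ x₂ ∈ Subgroup.zpowers (p.1 * p.2)} := by
  classical
  haveI := Fintype.ofFinite G
  have h11 := H4.mul_self_of_orderOf_two h₁
  have h22 := H4.mul_self_of_orderOf_two h₂
  have hcl : ∀ (x v : G), x * x = 1 → IsConj x v → v * v = 1 := by
    intro x v hx hv
    obtain ⟨c, hc⟩ := isConj_iff.1 hv
    rw [← hc]; exact H4.conj_mul_self hx
  set z : G × G → G := fun p => (p.1 * p.2) ^ (orderOf (p.1 * p.2) / 2) with hz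
  set T : Finset (G × G) := Finset.univ.filter (fun p => IsConj x₁ p.1 ∧ IsConj x₂ p.2) with hT
  have hTmem : ∀ p, p ∈ T ↔ IsConj x₁ p.1 ∧ IsConj x₂ p.2 := by intro p; simp [hT]
  have heven : ∀ p ∈ T, Even (orderOf (p.1 * p.2)) := by
    intro p hp
    obtain ⟨ha, hb⟩ := (hTmem p).1 hp
    by_contra hodd
    rw [Nat.not_even_iff_odd] at hodd
    obtain ⟨k, hk⟩ := H4.conj_of_odd (hcl _ _ h11 ha) (hcl _ _ h22 hb) hodd
    exact hnc (ha.trans ((isConj_iff.2 ⟨_, hk⟩ : IsConj p.1 p.2).trans hb.symm))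
  have hz2 : ∀ p ∈ T, orderOf (z p) = 2 := by
    intro p hp
    exact H4.even_pow_half (orderOf_pos _).ne' (heven p hp)
  have hzmem : ∀ p ∈ T, ∀ x : G, orderOf x = 2 → (x ∈ Subgroup.zpowers (p.1 * p.2) ↔ z p = x) := by
    intro p hp x hx
    constructor
    · intro hmem
      have := H4.eq_involution_of_cyclic (⟨x, hmem⟩ : Subgroup.zpowers (p.1 * p.2)) ⟨z p, Subgroup.npow_mem_zpowers _ _⟩
        (by rw [Subgroup.orderOf_mk, hx]) (by rw [Subgroup.orderOf_mk, hz2 p hp])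
      exact congrArg Subtype.val this
    · rintro rfl; exact Subgroup.npow_mem_zpowers _ _
  -- fibers
  have hfib : ∀ (x w : G), orderOf x = 2 → IsConj x w →
      (T.filter (fun p => z p = w)).card = Nat.card {p : G × G // IsConj x₁ p.1 ∧ IsConj x₂ p.2 ∧ x ∈ Subgroup.zpowers (p.1 * p.2)} := by
    intro x w hx hw
    obtain ⟨c, hc⟩ := isConj_iff.1 hw
    have h1 : Nat.card {p : G × G // IsConj x₁ p.1 ∧ IsConj x₂ p.2 ∧ x ∈ Subgroup.zpowers (p.1 * p.2)} = (T.filter (fun p => z p = x)).card := by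
      rw [Nat.card_eq_fintype_card, Fintype.card_subtype]
      congr 1
      ext p
      simp only [Finset.mem_filter, Finset.mem_univ, true_and]
      constructor
      · rintro ⟨ha, hb, hm⟩
        have hpT := (hTmem p).2 ⟨ha, hb⟩
        exact ⟨hpT, (hzmem p hpT x hx).1 hm⟩
      · rintro ⟨hpT, hm⟩
        exact ⟨((hTmem p).1 hpT).1, ((hTmem p).1 hpT).2, (hzmem p hpT x hx).2 hm⟩
    rw [h1]
    symm
    apply Finset.card_bij (fun p _ => (c * p.1 * c⁻¹, c * p.2 * c⁻¹))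
    · intro p hp
      rw [Finset.mem_filter] at hp ⊢
      obtain ⟨hpT, hzp⟩ := hp
      have hmul : c * p.1 * c⁻¹ * (c * p.2 * c⁻¹) = c * (p.1 * p.2) * c⁻¹ := by group
      refine ⟨(hTmem _).2 ⟨?_, ?_⟩, ?_⟩
      · exact ((hTmem p).1 hpT).1.trans (isConj_iff.2 ⟨c, rfl⟩)
      · exact ((hTmem p).1 hpT).2.trans (isConj_iff.2 ⟨c, rfl⟩)
      · simp only [hz]
        rw [hmul, H4.orderOf_conj, conj_pow, ← hc, ← hzp]
    · rintro ⟨a, b⟩ _ ⟨a', b'⟩ _ h
      simp only [Prod.mk.injEq] at h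
      obtain ⟨h1, h2⟩ := h
      rw [mul_left_cancel (mul_right_cancel h1), mul_left_cancel (mul_right_cancel h2)]
    · intro p hp
      rw [Finset.mem_filter] at hp
      obtain ⟨hpT, hzp⟩ := hp
      refine ⟨(c⁻¹ * p.1 * c, c⁻¹ * p.2 * c), ?_, ?_⟩
      · have hmul : c⁻¹ * p.1 * c * (c⁻¹ * p.2 * c) = c⁻¹ * (p.1 * p.2) * c := by group
        rw [Finset.mem_filter]
        refine ⟨(hTmem _).2 ⟨?_, ?_⟩, ?_⟩
        · exact ((hTmem p).1 hpT).1.trans (isConj_iff.2 ⟨c⁻¹, by rw [inv_inv]⟩)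
        · exact ((hTmem p).1 hpT).2.trans (isConj_iff.2 ⟨c⁻¹, by rw [inv_inv]⟩)
        · simp only [hz]
          have e : c⁻¹ * (p.1 * p.2) * c = c⁻¹ * (p.1 * p.2) * c⁻¹⁻¹ := by rw [inv_inv]
          rw [hmul, e, H4.orderOf_conj, conj_pow]
          have hzp' : (p.1 * p.2) ^ (orderOf (p.1 * p.2) / 2) = w := hzp
          rw [hzp', ← hc]; group
      · simp only
        ext <;> group
  have hTcard : T.card = Nat.card {v : G // IsConj x₁ v} * Nat.card {v : G // IsConj x₂ v} := by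
    rw [← Nat.card_prod, Nat.card_eq_fintype_card, ← Fintype.card_coe]
    apply Fintype.card_congr
    exact
      { toFun := fun p => (⟨p.1.1, ((hTmem p.1).1 p.2).1⟩, ⟨p.1.2, ((hTmem p.1).1 p.2).2⟩)
        invFun := fun q => ⟨(q.1.1, q.2.1), (hTmem _).2 ⟨q.1.2, q.2.2⟩⟩
        left_inv := fun _ => rfl
        right_inv := fun _ => rfl }
  rw [← hTcard]
  have hc1 : Nat.card {v : G // IsConj x₁ v} = (Finset.univ.filter (fun v : G => IsConj x₁ v)).card := by
    rw [Nat.card_eq_fintype_card, Fintype.card_subtype]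
  have hc2 : Nat.card {v : G // IsConj x₂ v} = (Finset.univ.filter (fun v : G => IsConj x₂ v)).card := by
    rw [Nat.card_eq_fintype_card, Fintype.card_subtype]
  have hmaps : ∀ p ∈ T, z p ∈ (Finset.univ.filter (fun v : G => IsConj x₁ v)) ∪ (Finset.univ.filter (fun v : G => IsConj x₂ v)) := by
    intro p hp
    rw [Finset.mem_union, Finset.mem_filter, Finset.mem_filter]
    rcases hall _ (hz2 p hp) with h | h
    · exact Or.inl ⟨Finset.mem_univ _, h⟩
    · exact Or.inr ⟨Finset.mem_univ _, h⟩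
  rw [Finset.card_eq_sum_card_fiberwise hmaps, Finset.sum_union]
  · congr 1
    · rw [hc1, ← smul_eq_mul, ← Finset.sum_const]
      apply Finset.sum_congr rfl
      intro w hw
      exact hfib x₁ w h₁ (Finset.mem_filter.1 hw).2
    · rw [hc2, ← smul_eq_mul, ← Finset.sum_const]
      apply Finset.sum_congr rfl
      intro w hw
      exact hfib x₂ w h₂ (Finset.mem_filter.1 hw).2
  · rw [Finset.disjoint_filter]
    intro v _ ha hb
    exact hnc (ha.trans hb.symm)

/-- Thompson Order Formula, two-class case: if every involution of the finite group G is conjugate to exactly one of the non-conjugate involutions x₁, x₂, and nᵢ is the number of pairs (u, v) with u conjugate to x₁, v conjugate to x₂ and xᵢ in the cyclic group generated by uv, then |G| = |C(x₂)| n₁ + |C(x₁)| n₂. -/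
theorem result {G : Type*} [Group G] [Finite G] (x₁ x₂ : G) (h₁ : orderOf x₁ = 2) (h₂ : orderOf x₂ = 2) (hnc : ¬ IsConj x₁ x₂) (hall : ∀ t : G, orderOf t = 2 → IsConj x₁ t ∨ IsConj x₂ t) : Nat.card G = Nat.card (Subgroup.centralizer ({x₂} : Set G)) * Nat.card {p : G × G // IsConj x₁ p.1 ∧ IsConj x₂ p.2 ∧ x₁ ∈ Subgroup.zpowers (p.1 * p.2)} + Nat.card (Subgroup.centralizer ({x₁} : Set G)) * Nat.card {p : G × G // IsConj x₁ p.1 ∧ IsConj x₂ p.2 ∧ x₂ ∈ Subgroup.zpowers (p.1 * p.2)} := by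
  have h := key x₁ x₂ h₁ h₂ hnc hall
  have e1 := H4.card_conj_mul_card_centralizer x₁
  have e2 := H4.card_conj_mul_card_centralizer x₂
  set N1 := Nat.card {v : G // IsConj x₁ v}
  set N2 := Nat.card {v : G // IsConj x₂ v}
  set c1 := Nat.card (Subgroup.centralizer ({x₁} : Set G))
  set c2 := Nat.card (Subgroup.centralizer ({x₂} : Set G))
  set n1 := Nat.card {p : G × G // IsConj x₁ p.1 ∧ IsConj x₂ p.2 ∧ x₁ ∈ Subgroup.zpowers (p.1 * p.2)}
  set n2 := Nat.card {p : G × G // IsConj x₁ p.1 ∧ IsConj x₂ p.2 ∧ x₂ ∈ Subgroup.zpowers (p.1 * p.2)}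
  have hg : 0 < Nat.card G := Nat.card_pos
  apply Nat.eq_of_mul_eq_mul_left hg
  calc Nat.card G * Nat.card G = (N1 * c1) * (N2 * c2) := by rw [e1, e2]
    _ = (N1 * N2) * (c1 * c2) := by ring
    _ = (N1 * n1 + N2 * n2) * (c1 * c2) := by rw [h]
    _ = (N1 * c1) * (c2 * n1) + (N2 * c2) * (c1 * n2) := by ring
    _ = Nat.card G * (c2 * n1 + c1 * n2) := by rw [e1, e2]; ring

end Cfsg.Agent.S0213
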