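import Cfsg.Statements.S0218
import Mathlib

set_option autoImplicit false
open Cfsg

namespace Cfsg.Agent.S0218

/-- The generalized quaternion group of order 2^(n+3) contains exactly one element of order 2. -/
theorem result (n : ℕ) : Nat.card {x : QuaternionGroup (2 ^ (n + 1)) // orderOf x = 2} = 1 := by
  rw [Nat.card_eq_one_iff_unique]
  have hpos : 0 < 2 ^ (n + 1) := by positivity
  haveI : NeZero (2 ^ (n + 1)) := ⟨hpos.ne'⟩
  have key : ∀ x : QuaternionGroup (2 ^ (n + 1)), orderOf x = 2 → x = QuaternionGroup.a ((2 ^ (n + 1) : ℕ) : ZMod (2 * 2 ^ (n + 1))) := by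
    rintro (i | i) hx
    · have h1 : (QuaternionGroup.a i : QuaternionGroup (2 ^ (n + 1))) ^ 2 = 1 := by
        have := pow_orderOf_eq_one (QuaternionGroup.a i : QuaternionGroup (2 ^ (n + 1)))
        rwa [hx] at this
      have h1' : (QuaternionGroup.a i : QuaternionGroup (2 ^ (n + 1))) ≠ 1 := by
        intro h; rw [h] at hx; simp at hx
      rw [pow_two, QuaternionGroup.a_mul_a] at h1
      rw [QuaternionGroup.one_def] at h1 h1'
      have h2 : i + i = 0 := by injection h1
      have h3 : i ≠ 0 := fun h => h1' (by rw [h])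
      have h4 : (i.val : ℕ) + i.val = 2 * 2 ^ (n + 1) := by
        have h5 : ((i.val + i.val : ℕ) : ZMod (2 * 2 ^ (n + 1))) = 0 := by
          push_cast; rw [ZMod.natCast_zmod_val, h2]
        have h6 := (ZMod.natCast_eq_zero_iff _ _).1 h5
        have h7 : i.val < 2 * 2 ^ (n + 1) := ZMod.val_lt i
        have h8 : 0 < i.val := Nat.pos_of_ne_zero (fun h => h3 ((ZMod.val_eq_zero i).1 h))
        obtain ⟨c, hc⟩ := h6
        have : c = 1 := by
          have hc1 : c < 2 := by
            by_contra hge
            push Not at hge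
            have := Nat.mul_le_mul_left (2 * 2 ^ (n + 1)) hge
            omega
          have hc2 : c ≠ 0 := by rintro rfl; omega
          omega
        rw [this] at hc; omega
      have h9 : i.val = 2 ^ (n + 1) := by omega
      have h10 := ZMod.natCast_zmod_val i
      rw [h9] at h10
      rw [h10]
    · rw [QuaternionGroup.orderOf_xa] at hx
      omega
  have hord : orderOf (QuaternionGroup.a ((2 ^ (n + 1) : ℕ) : ZMod (2 * 2 ^ (n + 1))) : QuaternionGroup (2 ^ (n + 1))) = 2 := by
    apply orderOf_eq_prime
    · rw [pow_two, QuaternionGroup.a_mul_a, QuaternionGroup.one_def]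
      congr 1
      rw [← Nat.cast_add, ← two_mul]
      exact ZMod.natCast_self _
    · rw [QuaternionGroup.one_def]
      intro h
      injection h with h
      rw [ZMod.natCast_eq_zero_iff] at h
      have := Nat.le_of_dvd hpos h
      omega
  refine ⟨⟨fun a b => Subtype.ext ((key _ a.2).trans (key _ b.2).symm)⟩, ⟨⟨_, hord⟩⟩⟩

end Cfsg.Agent.S0218
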