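import Cfsg.Statements.S0220
import Cfsg.Agent.H4.Basic2
import Cfsg.Agent.S0219

set_option autoImplicit false
open Cfsg

namespace Cfsg.Agent.S0220

theorem aux {G : Type*} [Group G] [Finite G] (x : G) (hx : orderOf x = 2) (C : Subgroup G)
    (hC : C = Subgroup.centralizer ({x} : Set G)) (S : Sylow 2 C) (hS : IsCyclic (S : Subgroup C)) :
    ∃ H : Subgroup G, H.index = 2 := by
  haveI : Fact (Nat.Prime 2) := ⟨Nat.prime_two⟩
  have hxx := H4.mul_self_of_orderOf_two hx
  have hxC : x ∈ C := by rw [hC]; exact Subgroup.mem_centralizer_singleton_iff.2 rfl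
  -- x lies in the image of S
  set Q : Subgroup G := (S : Subgroup C).map C.subtype with hQ
  have hQp : IsPGroup 2 Q := S.2.map _
  haveI : IsCyclic (S : Subgroup C) := hS
  have hQcyc : IsCyclic Q := isCyclic_of_surjective (Subgroup.equivMapOfInjective (S : Subgroup C) C.subtype C.subtype_injective).toMonoidHom (MulEquiv.surjective _)
  have hQC : Q ≤ C := by
    rintro _ ⟨y, _, rfl⟩; exact y.2
  -- maximality of Q among 2-subgroups of C
  have hmax : ∀ R : Subgroup G, IsPGroup 2 R → R ≤ C → Q ≤ R → R = Q := by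
    intro R hR hRC hQR
    have h1 : IsPGroup 2 (R.subgroupOf C) := hR.comap_subtype
    have h2 : (S : Subgroup C) ≤ R.subgroupOf C := by
      intro y hy
      rw [Subgroup.mem_subgroupOf]
      exact hQR ⟨y, hy, rfl⟩
    have h3 := S.3 h1 h2
    apply le_antisymm _ hQR
    intro y hy
    have : (⟨y, hRC hy⟩ : C) ∈ R.subgroupOf C := hy
    rw [h3] at this
    exact ⟨_, this, rfl⟩
  have hxQ : x ∈ Q := by
    have hz : IsPGroup 2 (Subgroup.zpowers x) := IsPGroup.of_card (n := 1) (by rw [Nat.card_zpowers, hx, pow_one])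
    have hle : Subgroup.zpowers x ≤ C := by
      rw [Subgroup.zpowers_le]; exact hxC
    have hsup : IsPGroup 2 (Q ⊔ Subgroup.zpowers x : Subgroup G) := by
      apply H4.isPGroup_sup hQp hz
      apply H4.le_normalizer_of_commute
      intro a ha b hb
      obtain ⟨k, rfl⟩ := hb
      have := hQC ha
      rw [hC] at this
      replace this := Subgroup.mem_centralizer_singleton_iff.1 this
      exact (show Commute a x from this).zpow_right k
    have := hmax _ hsup (sup_le hQC hle) le_sup_left
    rw [← this]
    exact (le_sup_right : Subgroup.zpowers x ≤ Q ⊔ Subgroup.zpowers x) (Subgroup.mem_zpowers x)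
  -- unique involution in cyclic Q
  have huniq : ∀ y ∈ Q, orderOf y = 2 → y = x := by
    intro y hy hy2
    have := H4.eq_involution_of_cyclic (⟨x, hxQ⟩ : Q) (⟨y, hy⟩ : Q) (by rw [Subgroup.orderOf_mk, hx]) (by rw [Subgroup.orderOf_mk, hy2])
    exact congrArg Subtype.val this
  obtain ⟨T, hT⟩ := hQp.exists_le_sylow
  have hTQ : (T : Subgroup G) = Q := by
    by_contra hne
    have hlt : Q < (T : Subgroup G) := lt_of_le_of_ne hT (fun h => hne h.symm)
    obtain ⟨g, hgT, hgQ, hgN⟩ := H4.normalizer_lt_of_lt_sylow T.2 hlt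
    -- g centralizes x
    have hgx : g * x * g⁻¹ = x := by
      apply huniq
      · exact (Subgroup.mem_normalizer_iff.1 hgN x).1 hxQ
      · rw [H4.orderOf_conj, hx]
    have hgC : g ∈ C := by rw [hC]; exact Subgroup.mem_centralizer_singleton_iff.2 (mul_inv_eq_iff_eq_mul.mp hgx)
    have h1 : IsPGroup 2 ((T : Subgroup G) ⊓ C : Subgroup G) := T.2.to_inf_left
    have := hmax _ h1 inf_le_right (le_inf hT hQC)
    apply hgQ
    rw [← this]
    exact Subgroup.mem_inf.2 ⟨hgT, hgC⟩
  have heven : Even (Nat.card G) := by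
    rw [← Nat.not_odd_iff_even]
    intro hodd
    have := orderOf_dvd_natCard x
    rw [hx] at this
    rw [Nat.odd_iff] at hodd
    omega
  have hTc : IsCyclic (T : Subgroup G) := by rw [hTQ]; exact hQcyc
  exact Cfsg.Agent.S0219.result heven T hTc

/-- If x is an involution of a finite group G and a Sylow 2-subgroup of the centralizer of x is cyclic, then G has a subgroup of index 2; in particular G is not simple unless it has order 2. -/
theorem result {G : Type*} [Group G] [Finite G] (x : G) (hx : orderOf x = 2) (S : Sylow 2 ↥(Subgroup.centralizer ({x} : Set G))) (hS : IsCyclic (S : Subgroup ↥(Subgroup.centralizer ({x} : Set G)))) : ∃ H : Subgroup G, H.index = 2 := by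
  exact aux x hx _ rfl S hS

end Cfsg.Agent.S0220
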