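import Cfsg.Statements.S0221
import Cfsg.Agent.H4.NormKlein
import Cfsg.Agent.H4.ZStarF
import Cfsg.Agent.H13.ElemAb
import Cfsg.Agent.S0111
import Cfsg.Agent.H19.Sylow
import Cfsg.Agent.H4.KleinSylow

set_option autoImplicit false
open Cfsg

namespace Cfsg.Agent.S0221

/-- adding a commuting involution to a four-group -/
theorem exists_eight {G : Type*} [Group G] [Finite G] {a b c : G} (ha : a * a = 1) (hb : b * b = 1) (hc : c * c = 1)
    (hab : a * b = b * a) (hac : a * c = c * a) (hbc : b * c = c * b) (ha1 : a ≠ 1) (hb1 : b ≠ 1) (hab' : a ≠ b)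
    (hcn : c ∉ H4.kleinSub ha hb hab) :
    ∃ E : Subgroup G, E ≤ Subgroup.centralizer ({a} : Set G) ∧ E ≤ Subgroup.centralizer ({b} : Set G) ∧
      E ≤ Subgroup.centralizer ({c} : Set G) ∧ Nat.card E = 8 ∧ ∀ e ∈ E, e ^ 2 = 1 := by
  haveI : Fact (Nat.Prime 2) := ⟨Nat.prime_two⟩
  have hV : IsElementaryAbelian 2 (H4.kleinSub ha hb hab) := by
    rw [H13.elab_iff]
    have hk := H4.kleinSub_isKleinFour ha hb hab ha1 hb1 hab'
    exact ⟨fun u hu v hv => H4.klein_comm' hk hu hv, fun u hu => by rw [pow_two]; exact H4.klein_sq hk hu⟩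
  have hcomm : ∀ u ∈ H4.kleinSub ha hb hab, u * c = c * u := by
    intro u hu
    rcases (H4.mem_kleinSub ha hb hab).1 hu with rfl | rfl | rfl | rfl
    · simp
    · exact hac
    · exact hbc
    · rw [mul_assoc, hbc, ← mul_assoc, hac, mul_assoc]
  have hE : IsElementaryAbelian 2 (H4.kleinSub ha hb hab ⊔ Subgroup.zpowers c : Subgroup G) := by
    apply H13.elab_sup hV (H13.elab_zpowers (by rw [pow_two]; exact hc))
    rintro u hu _ ⟨k, rfl⟩
    exact ((show Commute u c from hcomm u hu).zpow_right k).eq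
  have hc8 : Nat.card (H4.kleinSub ha hb hab ⊔ Subgroup.zpowers c : Subgroup G) = 8 := by
    rw [H13.card_sup_zpowers (by rw [pow_two]; exact hc) hcomm hcn, H4.kleinSub_card ha hb hab ha1 hb1 hab']
  have hmem : ∀ u ∈ (H4.kleinSub ha hb hab ⊔ Subgroup.zpowers c : Subgroup G),
      (H4.kleinSub ha hb hab ⊔ Subgroup.zpowers c : Subgroup G) ≤ Subgroup.centralizer ({u} : Set G) := by
    intro u hu v hv
    rw [Subgroup.mem_centralizer_singleton_iff]
    exact H13.elab_comm hE hv hu
  refine ⟨_, hmem a ?_, hmem b ?_, hmem c ?_, hc8, hE.2⟩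
  · exact Subgroup.mem_sup_left ((H4.mem_kleinSub ha hb hab).2 (Or.inr (Or.inl rfl)))
  · exact Subgroup.mem_sup_left ((H4.mem_kleinSub ha hb hab).2 (Or.inr (Or.inr (Or.inl rfl))))
  · exact Subgroup.mem_sup_right (Subgroup.mem_zpowers c)

theorem relIndex_cases {G : Type*} [Group G] {P : Subgroup G} {a z : G}
    (h : ∀ s ∈ P, s * a * s⁻¹ = a ∨ s * a * s⁻¹ = a * z) (hz : ∀ s ∈ P, s * z = z * s) (hzz : z * z = 1) :
    P ≤ Subgroup.centralizer {a} ∨ (Subgroup.centralizer {a}).relIndex P = 2 := by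
  by_cases h1 : P ≤ Subgroup.centralizer {a}
  · exact Or.inl h1
  right
  obtain ⟨s, hs, hs1⟩ := SetLike.not_le_iff_exists.1 h1
  have key : ∀ t ∈ P, t ∈ Subgroup.centralizer {a} ↔ t * a * t⁻¹ = a := by
    intro t _
    rw [Subgroup.mem_centralizer_singleton_iff, mul_inv_eq_iff_eq_mul]
  have hs2 : s * a * s⁻¹ = a * z := (h s hs).resolve_left fun h2 => hs1 ((key s hs).2 h2)
  have haz : a * z ≠ a := fun h3 => hs1 ((key s hs).2 (hs2.trans h3))
  rw [Subgroup.relIndex_eq_two_iff]
  refine ⟨s, hs, fun b hb => ?_⟩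
  have h4 : b * s * a * (b * s)⁻¹ = b * a * b⁻¹ * z := by
    have : b * s * a * (b * s)⁻¹ = b * (s * a * s⁻¹) * b⁻¹ := by group
    rw [this, hs2, mul_assoc b, mul_assoc a z, ← hz _ (inv_mem hb)]; group
  rcases h b hb with h5 | h5
  · right
    refine ⟨(key b hb).2 h5, ?_⟩
    rw [key _ (mul_mem hb hs), h4, h5]; exact haz
  · left
    refine ⟨?_, ?_⟩
    · rw [key _ (mul_mem hb hs), h4, h5, mul_assoc, hzz, mul_one]
    · rw [key b hb, h5]; exact haz

/-- Let G be a finite group with no subgroup of index 2 whose 2-rank is at least 3 (it contains an elementary abelian subgroup of order 8). Then the centralizer of every involution of G also contains an elementary abelian subgroup of order 8. -/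
theorem result {G : Type*} [Group G] [Finite G] (hno : ∀ H : Subgroup G, H.index ≠ 2) (hrank : ∃ E : Subgroup G, Nat.card E = 8 ∧ ∀ e ∈ E, e ^ 2 = 1) (x : G) (hx : orderOf x = 2) : ∃ E : Subgroup G, E ≤ Subgroup.centralizer ({x} : Set G) ∧ Nat.card E = 8 ∧ ∀ e ∈ E, e ^ 2 = 1 := by
  haveI : Fact (Nat.Prime 2) := ⟨Nat.prime_two⟩
  obtain ⟨E, hE, hE2⟩ := hrank
  have hEp : IsPGroup 2 E := IsPGroup.of_card (n := 3) hE
  obtain ⟨P, hP⟩ := hEp.exists_le_sylow
  have hE' : Nat.card (E.subgroupOf (P : Subgroup G)) = 8 := by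
    rw [Nat.card_congr (Subgroup.subgroupOfEquivOfLe hP).toEquiv, hE]
  obtain ⟨⟨z, hzP⟩, ⟨a, haP⟩, hzz, hz1, hzc, haa, ha1, haz, hconj⟩ := H4.exists_normal_klein P.2 hE' (by
    intro e he
    apply Subtype.ext
    have := hE2 _ (Subgroup.mem_subgroupOf.1 he)
    rw [pow_two] at this
    exact this)
  replace hzz : z * z = 1 := congrArg Subtype.val hzz
  replace haa : a * a = 1 := congrArg Subtype.val haa
  replace hz1 : z ≠ 1 := fun h => hz1 (Subtype.ext h)
  replace ha1 : a ≠ 1 := fun h => ha1 (Subtype.ext h)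
  replace haz : a ≠ z := fun h => haz (Subtype.ext h)
  have hzc' : ∀ s ∈ (P : Subgroup G), s * z = z * s := by
    intro s hs
    exact congrArg Subtype.val (Subgroup.mem_center_iff.1 hzc ⟨s, hs⟩)
  replace hconj : ∀ s ∈ (P : Subgroup G), s * a * s⁻¹ = a ∨ s * a * s⁻¹ = a * z := by
    intro s hs
    rcases hconj ⟨s, hs⟩ with h | h
    · exact Or.inl (congrArg Subtype.val h)
    · exact Or.inr (congrArg Subtype.val h)
  have hazc : a * z = z * a := hzc' a haP
  -- an element of E commuting with a outside V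
  have hV4 := H4.kleinSub_card haa hzz hazc ha1 hz1 haz
  have hEV : ∃ e ∈ E, e * a = a * e ∧ e ∉ H4.kleinSub haa hzz hazc := by
    by_contra hcon
    push Not at hcon
    have h1 : E ⊓ Subgroup.centralizer {a} ≤ H4.kleinSub haa hzz hazc := by
      intro e he
      exact hcon e he.1 (Subgroup.mem_centralizer_singleton_iff.1 he.2)
    have h2 : E ≤ Subgroup.centralizer {a} := by
      rcases relIndex_cases (fun s hs => hconj s (hP hs)) (fun s hs => hzc' s (hP hs)) hzz with h | h
      · exact h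
      · -- the intersection has order 4 so equals V and contains a
        have h3 : Nat.card (E ⊓ Subgroup.centralizer {a} : Subgroup G) = 4 := by
          have h4 := H19.card_relIndex (show E ⊓ Subgroup.centralizer {a} ≤ E from inf_le_left)
          rw [Subgroup.inf_relIndex_left, h, hE] at h4
          omega
        have h5 : E ⊓ Subgroup.centralizer {a} = H4.kleinSub haa hzz hazc :=
          Subgroup.eq_of_le_of_card_ge h1 (by rw [hV4, h3])
        have h6 : a ∈ E := by
          have : a ∈ E ⊓ Subgroup.centralizer {a} := by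
            rw [h5]; exact (H4.mem_kleinSub _ _ _).2 (Or.inr (Or.inl rfl))
          exact this.1
        intro e he
        rw [Subgroup.mem_centralizer_singleton_iff]
        have hEl : IsElementaryAbelian 2 E := by
          rw [H13.elab_iff]
          refine ⟨?_, hE2⟩
          intro u hu v hv
          have h7 : u * v * (u * v) = 1 := by rw [← pow_two]; exact hE2 _ (mul_mem hu hv)
          have h8 : u * u = 1 := by rw [← pow_two]; exact hE2 _ hu
          have h9 : v * v = 1 := by rw [← pow_two]; exact hE2 _ hv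
          have h10 : u * (u * v * (u * v)) * v = u * v := by rw [h7, mul_one]
          rw [← h10]
          have : u * (u * v * (u * v)) * v = (u * u) * (v * u) * (v * v) := by group
          rw [this, h8, h9, one_mul, mul_one]
        exact H13.elab_comm hEl he h6
    have h3 : Nat.card E ≤ Nat.card (H4.kleinSub haa hzz hazc) :=
      Subgroup.card_le_of_le (le_trans (le_inf le_rfl h2) h1)
    rw [hE, hV4] at h3
    omega
  -- involutions in C_P(a)
  have hmain : ∀ x : G, orderOf x = 2 → x ∈ (P : Subgroup G) ⊓ Subgroup.centralizer {a} →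
      ∃ E : Subgroup G, E ≤ Subgroup.centralizer ({x} : Set G) ∧ Nat.card E = 8 ∧ ∀ e ∈ E, e ^ 2 = 1 := by
    intro x hx hxM
    have hxa : x * a = a * x := Subgroup.mem_centralizer_singleton_iff.1 hxM.2
    have hxz : x * z = z * x := hzc' x hxM.1
    by_cases hxV : x ∈ H4.kleinSub haa hzz hazc
    · obtain ⟨e, he, hea, heV⟩ := hEV
      have hee : e * e = 1 := by rw [← pow_two]; exact hE2 e he
      obtain ⟨F, h1, h2, h3, h4, h5⟩ := exists_eight haa hzz hee hazc hea.symm (hzc' e (hP he)).symm ha1 hz1 haz heV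
      refine ⟨F, ?_, h4, h5⟩
      rcases (H4.mem_kleinSub _ _ _).1 hxV with rfl | rfl | rfl | rfl
      · rw [orderOf_one] at hx; omega
      · exact h1
      · exact h2
      · intro w hw
        have e1 := Subgroup.mem_centralizer_singleton_iff.1 (h1 hw)
        have e2 := Subgroup.mem_centralizer_singleton_iff.1 (h2 hw)
        rw [Subgroup.mem_centralizer_singleton_iff]
        rw [← mul_assoc, e1, mul_assoc, e2, mul_assoc]
    · obtain ⟨F, h1, h2, h3, h4, h5⟩ := exists_eight haa hzz (H4.mul_self_of_orderOf_two hx) hazc hxa.symm hxz.symm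
        ha1 hz1 haz hxV
      exact ⟨F, h3, h4, h5⟩
  -- conjugation invariance
  have htrans : ∀ (x g : G), (∃ E : Subgroup G, E ≤ Subgroup.centralizer ({g * x * g⁻¹} : Set G) ∧ Nat.card E = 8 ∧ ∀ e ∈ E, e ^ 2 = 1) →
      ∃ E : Subgroup G, E ≤ Subgroup.centralizer ({x} : Set G) ∧ Nat.card E = 8 ∧ ∀ e ∈ E, e ^ 2 = 1 := by
    rintro x g ⟨F, h1, h2, h3⟩
    refine ⟨F.map (MulAut.conj g⁻¹).toMonoidHom, ?_, ?_, ?_⟩
    · rintro _ ⟨f, hf, rfl⟩
      have := Subgroup.mem_centralizer_singleton_iff.1 (h1 hf)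
      rw [Subgroup.mem_centralizer_singleton_iff]
      show g⁻¹ * f * (g⁻¹)⁻¹ * x = x * (g⁻¹ * f * (g⁻¹)⁻¹)
      have e1 : g⁻¹ * f * (g⁻¹)⁻¹ * x = g⁻¹ * (f * (g * x * g⁻¹)) * g := by group
      rw [e1, this]; group
    · rw [← h2]
      exact Nat.card_congr (F.equivMapOfInjective _ (MulAut.conj g⁻¹).injective).symm.toEquiv
    · rintro _ ⟨f, hf, rfl⟩
      show (MulAut.conj g⁻¹ f) ^ 2 = 1
      rw [← map_pow, h3 f hf, map_one]
  obtain ⟨g, hg⟩ : ∃ g : G, g * x * g⁻¹ ∈ (P : Subgroup G) := by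
    obtain ⟨w, hw, hxw⟩ := H4.exists_conj_mem_sylow (t := x) P (k := 1) (by rw [pow_one, ← hx]; exact pow_orderOf_eq_one x)
    obtain ⟨g, hg⟩ := isConj_iff.1 hxw
    exact ⟨g, by rw [hg]; exact hw⟩
  apply htrans x g
  have hgx : orderOf (g * x * g⁻¹) = 2 := by rw [← hx]; exact orderOf_injective (MulAut.conj g).toMonoidHom (MulAut.conj g).injective x
  rcases relIndex_cases hconj hzc' hzz with h | h
  · exact hmain _ hgx ⟨hg, h hg⟩
  · by_cases hm : g * x * g⁻¹ ∈ (P : Subgroup G) ⊓ Subgroup.centralizer {a}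
    · exact hmain _ hgx hm
    · rcases S0111.result P ((P : Subgroup G) ⊓ Subgroup.centralizer {a}) inf_le_left (by rw [Subgroup.inf_relIndex_left, h])
        _ hgx hg hm with ⟨M, _, hM, _⟩ | ⟨g', hg'⟩
      · exact absurd hM (hno M)
      · apply htrans _ g'
        apply hmain _ _ hg'
        rw [← hgx]; exact orderOf_injective (MulAut.conj g').toMonoidHom (MulAut.conj g').injective _

end Cfsg.Agent.S0221
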