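import Cfsg.Statements.S0225
import Cfsg.Agent.H4.ZStarF

set_option autoImplicit false
open Cfsg

namespace Cfsg.Agent.S0225

/-- If a finite group G has even order but contains no Klein four-subgroup (2-rank 1), then some involution z of G is central modulo a normal subgroup of odd order: there is a normal subgroup N of odd order containing every commutator z g z⁻¹ g⁻¹. -/
theorem result {G : Type*} [Group G] [Finite G] (heven : Even (Nat.card G)) (hrank : ∀ E : Subgroup G, ¬ IsKleinFour E) : ∃ z : G, orderOf z = 2 ∧ ∃ N : Subgroup G, N.Normal ∧ Odd (Nat.card N) ∧ ∀ g : G, z * g * z⁻¹ * g⁻¹ ∈ N := by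
  haveI : Fact (Nat.Prime 2) := ⟨Nat.prime_two⟩
  obtain ⟨P⟩ : Nonempty (Sylow 2 G) := inferInstance
  have hPne : (P : Subgroup G) ≠ ⊥ := P.ne_bot_of_dvd_card heven.two_dvd
  haveI : Nontrivial (P : Subgroup G) := (Subgroup.nontrivial_iff_ne_bot _).2 hPne
  have hcn := P.2.center_nontrivial
  obtain ⟨k, hk⟩ := (IsPGroup.iff_card.1 (P.2.to_subgroup (Subgroup.center (P : Subgroup G))))
  have hk0 : 2 ∣ Nat.card (Subgroup.center (P : Subgroup G)) := by
    rw [hk]
    apply dvd_pow_self
    rintro rfl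
    rw [pow_zero] at hk
    have := Finite.one_lt_card (α := Subgroup.center (P : Subgroup G))
    omega
  obtain ⟨⟨⟨t, htP⟩, htc⟩, ht⟩ := exists_prime_orderOf_dvd_card' (G := Subgroup.center (P : Subgroup G)) 2 hk0
  rw [Subgroup.orderOf_mk, Subgroup.orderOf_mk] at ht
  have htc' : ∀ y ∈ (P : Subgroup G), y * t = t * y := by
    intro y hy
    exact congrArg Subtype.val (Subgroup.mem_center_iff.1 htc ⟨y, hy⟩)
  have huniq : ∀ y ∈ (P : Subgroup G), orderOf y = 2 → y = t := by
    intro y hy hy2
    by_contra hne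
    obtain ⟨E, hE, -⟩ := H4.exists_klein_of_commute ht hy2 (fun h => hne h.symm) (htc' y hy).symm
    exact hrank E hE
  have hiso := H4.isolated_of_unique P ht huniq
  exact ⟨t, ht, oddCore G, Cfsg.Agent.H1.pPrimeCore_normal 2 G, H4.oddCore_odd G, H4.zstar hiso⟩

end Cfsg.Agent.S0225
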