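import Cfsg.Statements.S0226
import Mathlib

set_option autoImplicit false
open Cfsg

namespace Cfsg.Agent.S0226

theorem even_sq_one {G : Type*} [Group G] [Finite G] (heven : Even (Nat.card G)) :
    Even (Nat.card {t : G // t * t = 1}) := by
  classical
  haveI := Fintype.ofFinite G
  haveI : Fact (Nat.Prime 2) := ⟨Nat.prime_two⟩
  let f : Function.End G := fun g => g⁻¹
  have hf : f ^ 2 ^ 1 = 1 := by
    rw [pow_one, pow_two]
    funext g
    show (g⁻¹)⁻¹ = g
    exact inv_inv g
  have h := Equiv.Perm.card_fixedPoints_modEq (f := f) (p := 2) (n := 1) hf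
  rw [← Nat.card_eq_fintype_card, ← Nat.card_eq_fintype_card] at h
  have h2 : Nat.card (Function.fixedPoints f) = Nat.card {t : G // t * t = 1} := by
    apply Nat.card_congr
    apply Equiv.subtypeEquivRight
    intro g
    show g⁻¹ = g ↔ g * g = 1
    constructor
    · intro h; nth_rewrite 1 [← h]; simp
    · intro h; exact inv_eq_of_mul_eq_one_right h
  rw [h2] at h
  rw [Nat.even_iff] at heven ⊢
  unfold Nat.ModEq at h
  omega

/-- A finite group of even order has an odd number of involutions. -/
theorem result {G : Type*} [Group G] [Finite G] (heven : Even (Nat.card G)) : Odd (Nat.card {t : G // orderOf t = 2}) := by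
  classical
  haveI := Fintype.ofFinite G
  have h := even_sq_one heven
  have h2 : Nat.card {t : G // t * t = 1} = Nat.card {t : G // orderOf t = 2} + 1 := by
    rw [Nat.card_eq_fintype_card, Nat.card_eq_fintype_card, Fintype.card_subtype, Fintype.card_subtype]
    have : (Finset.univ.filter (fun t : G => t * t = 1)) = insert 1 (Finset.univ.filter (fun t : G => orderOf t = 2)) := by
      ext t
      simp only [Finset.mem_filter, Finset.mem_univ, true_and, Finset.mem_insert]
      constructor
      · intro h
        by_cases h1 : t = 1
        · exact Or.inl h1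
        · exact Or.inr (orderOf_eq_prime (by rw [pow_two]; exact h) h1)
      · rintro (rfl | h)
        · simp
        · rw [← pow_two, ← h]; exact pow_orderOf_eq_one t
    rw [this, Finset.card_insert_of_notMem]
    simp
  rw [h2] at h
  rw [Nat.even_iff] at h
  rw [Nat.odd_iff]
  omega

end Cfsg.Agent.S0226
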