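import Cfsg.Statements.S0228
import Cfsg.Agent.H4.Basic2

set_option autoImplicit false
open Cfsg

namespace Cfsg.Agent.S0228

theorem alt_of_index_two (K : Subgroup (Equiv.Perm (Fin 4))) (hK : K.index = 2) :
    K = alternatingGroup (Fin 4) := by
  have hn : K.Normal := Subgroup.normal_of_index_eq_two hK
  have hle : alternatingGroup (Fin 4) ≤ K := by
    rw [← Equiv.Perm.closure_three_cycles_eq_alternating, Subgroup.closure_le]
    intro σ hσ
    have h3 : orderOf σ = 3 := Equiv.Perm.IsThreeCycle.orderOf hσ
    have h2 : σ ^ 2 ∈ K := by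
      have := Subgroup.pow_index_mem K σ
      rwa [hK] at this
    have : σ = (σ ^ 2)⁻¹ := by
      rw [eq_inv_iff_mul_eq_one, ← pow_succ']
      have h4 := pow_orderOf_eq_one σ
      rwa [h3] at h4
    rw [this]; exact inv_mem h2
  symm
  apply Subgroup.eq_of_le_of_card_ge hle
  have h1 := K.index_mul_card
  have h2 := (alternatingGroup (Fin 4)).index_mul_card
  rw [alternatingGroup.index_eq_two] at h2
  rw [hK] at h1
  omega

/-- A group of order 12 in which no involution is central is isomorphic to the alternating group on four letters. -/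
theorem result {G : Type*} [Group G] [Finite G] (hG : Nat.card G = 12) (hz : ∀ z : G, orderOf z = 2 → z ∉ Subgroup.center G) : Nonempty (G ≃* alternatingGroup (Fin 4)) := by
  haveI : Fact (Nat.Prime 2) := ⟨Nat.prime_two⟩
  haveI : Fact (Nat.Prime 3) := ⟨Nat.prime_three⟩
  -- Sylow 3-subgroup
  obtain ⟨P⟩ := (inferInstance : Nonempty (Sylow 3 G))
  have hPcard : Nat.card P = 3 := by
    have h := P.card_eq_multiplicity
    rw [h, hG]
    have : (12 : ℕ).factorization 3 = 1 := by
      rw [show (12 : ℕ) = 3 * 4 by norm_num, Nat.factorization_mul (by norm_num) (by norm_num)]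
      simp [Nat.Prime.factorization Nat.prime_three, Nat.factorization_eq_zero_of_not_dvd (show ¬ 3 ∣ 4 by norm_num)]
    rw [this]; norm_num
  have hPidx : (P : Subgroup G).index = 4 := by
    have := (P : Subgroup G).index_mul_card
    rw [hPcard, hG] at this
    omega
  obtain ⟨⟨c, hcP⟩, hc⟩ := exists_prime_orderOf_dvd_card' (G := (P : Subgroup G)) 3 (by rw [hPcard])
  rw [Subgroup.orderOf_mk] at hc
  have hPgen : (P : Subgroup G) = Subgroup.zpowers c := by
    symm
    apply Subgroup.eq_of_le_of_card_ge
    · rw [Subgroup.zpowers_le]; exact hcP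
    · rw [Nat.card_zpowers, hc, hPcard]
  classical
  -- not normal
  have hnn : ¬ (P : Subgroup G).Normal := by
    intro hn
    -- the centralizer of c has index dividing 2
    set C := Subgroup.centralizer ({c} : Set G) with hC
    have hcc3 : c ^ 3 = 1 := by
      have := pow_orderOf_eq_one c
      rwa [hc] at this
    have hc1 : c ≠ 1 := by
      intro h
      rw [h] at hc; simp at hc
    have hconj : ∀ g : G, g * c * g⁻¹ = c ∨ g * c * g⁻¹ = (c)⁻¹ := by
      intro g
      have h1 : g * c * g⁻¹ ∈ (P : Subgroup G) := hn.conj_mem _ hcP g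
      have h1' := h1
      rw [hPgen, mem_zpowers_iff_mem_range_orderOf, Finset.mem_image] at h1'
      obtain ⟨k, hk, hk'⟩ := h1'
      rw [hc, Finset.mem_range] at hk
      interval_cases k
      · exfalso
        rw [pow_zero] at hk'
        apply hc1
        have : c = g⁻¹ * (g * c * g⁻¹) * g := by group
        rw [this, ← hk']; group
      · left; rw [← hk', pow_one]
      · right; rw [← hk', eq_inv_iff_mul_eq_one, ← pow_succ, hcc3]
    have hsq : ∀ g : G, g ^ 2 ∈ C := by
      intro g
      rw [hC, Subgroup.mem_centralizer_singleton_iff]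
      rcases hconj g with h | h
      · have h1 : Commute g c := mul_inv_eq_iff_eq_mul.mp h
        exact (h1.pow_left 2).eq
      · exact (H4.sq_mul_comm_of_inverts h).eq
    have hidx : C.index = 1 ∨ C.index = 2 := by
      have h1 : Nat.card {v : G // IsConj c v} = C.index := H4.card_conj_eq_index c
      have h2 : Nat.card {v : G // IsConj c v} ≤ 2 := by
        have : Nat.card {v : G // IsConj c v} ≤ Nat.card (({c, (c)⁻¹} : Finset G)) := by
          apply Nat.card_le_card_of_injective (fun v : {v : G // IsConj c v} => (⟨v.1, by
            obtain ⟨g, hg⟩ := isConj_iff.1 v.2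
            rw [← hg]
            rcases hconj g with h | h <;> simp [h]⟩ : (({c, (c)⁻¹} : Finset G))))
          intro a b hab
          simp only [Subtype.mk.injEq] at hab
          exact Subtype.ext hab
        refine this.trans ?_
        rw [Nat.card_eq_fintype_card, Fintype.card_coe]
        exact Finset.card_le_two
      have h3 : C.index ≠ 0 := Subgroup.index_ne_zero_of_finite
      omega
    have hCcard : Nat.card C = 12 ∨ Nat.card C = 6 := by
      have h1 := C.index_mul_card
      rw [hG] at h1
      rcases hidx with h | h <;> rw [h] at h1 <;> omega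
    have hCeven : ¬ Odd (Nat.card C) := by
      rcases hCcard with h | h <;> rw [h] <;> decide
    obtain ⟨z, hzC, hz2⟩ := H4.exists_involution hCeven
    have hzc : Commute z c := (Subgroup.mem_centralizer_singleton_iff.1 hzC)
    -- T: a Sylow 2-subgroup containing z; order 4
    have hzz : IsPGroup 2 (Subgroup.zpowers z) := IsPGroup.of_card (n := 1) (by rw [Nat.card_zpowers, hz2, pow_one])
    obtain ⟨T, hT⟩ := hzz.exists_le_sylow
    have hTcard : Nat.card T = 4 := by
      have h := T.card_eq_multiplicity
      rw [h, hG]
      have : (12 : ℕ).factorization 2 = 2 := by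
        rw [show (12 : ℕ) = 2 ^ 2 * 3 by norm_num, Nat.factorization_mul (by norm_num) (by norm_num), Nat.factorization_pow]
        simp [Nat.Prime.factorization Nat.prime_two, Nat.factorization_eq_zero_of_not_dvd (show ¬ 2 ∣ 3 by norm_num)]
      rw [this]; norm_num
    have hTab : ∀ a ∈ (T : Subgroup G), ∀ b ∈ (T : Subgroup G), a * b = b * a := by
      intro a ha b hb
      have := IsPGroup.commutative_of_card_eq_prime_sq (p := 2) (G := (T : Subgroup G)) (by rw [hTcard]; norm_num)
      exact congrArg Subtype.val (this ⟨a, ha⟩ ⟨b, hb⟩)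
    -- C(z) contains T and P, so is everything
    have hzG : Subgroup.centralizer ({z} : Set G) = ⊤ := by
      rw [← Subgroup.index_eq_one]
      have hTle : (T : Subgroup G) ≤ Subgroup.centralizer ({z} : Set G) := by
        intro a ha
        rw [Subgroup.mem_centralizer_singleton_iff]
        exact hTab a ha z (hT (Subgroup.mem_zpowers z))
      have hPle : (P : Subgroup G) ≤ Subgroup.centralizer ({z} : Set G) := by
        rw [hPgen, Subgroup.zpowers_le, Subgroup.mem_centralizer_singleton_iff]
        exact hzc.eq.symm
      have h1 : 4 ∣ Nat.card (Subgroup.centralizer ({z} : Set G)) := by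
        have := Subgroup.card_dvd_of_le hTle
        rwa [hTcard] at this
      have h2 : 3 ∣ Nat.card (Subgroup.centralizer ({z} : Set G)) := by
        have := Subgroup.card_dvd_of_le hPle
        rwa [hPcard] at this
      have h3 : 12 ∣ Nat.card (Subgroup.centralizer ({z} : Set G)) := by
        have := Nat.Coprime.mul_dvd_of_dvd_of_dvd (show Nat.Coprime 4 3 by norm_num) h1 h2
        simpa using this
      have h4 := (Subgroup.centralizer ({z} : Set G)).index_mul_card
      obtain ⟨r, hr⟩ := h3
      rw [hr, hG] at h4
      have : (Subgroup.centralizer ({z} : Set G)).index * r = 1 := by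
        have : 12 * ((Subgroup.centralizer ({z} : Set G)).index * r) = 12 * 1 := by
          rw [mul_one]; linarith [h4]
        exact Nat.eq_of_mul_eq_mul_left (by norm_num) this
      exact Nat.eq_one_of_mul_eq_one_right this
    apply hz z hz2
    rw [Subgroup.mem_center_iff]
    intro g
    have : g ∈ Subgroup.centralizer ({z} : Set G) := by rw [hzG]; exact Subgroup.mem_top g
    exact Subgroup.mem_centralizer_singleton_iff.1 this
  -- action on the cosets of P
  let φ := MulAction.toPermHom G (G ⧸ (P : Subgroup G))
  have hker : φ.ker = ⊥ := by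
    have h1 : φ.ker = (P : Subgroup G).normalCore := by
      rw [Subgroup.normalCore_eq_ker]
    have h2 : φ.ker ≤ (P : Subgroup G) := by rw [h1]; exact Subgroup.normalCore_le _
    have h3 : Nat.card φ.ker ∣ 3 := by
      have := Subgroup.card_dvd_of_le h2
      rwa [hPcard] at this
    rcases (Nat.dvd_prime Nat.prime_three).1 h3 with h | h
    · exact Subgroup.card_eq_one.1 h
    · exfalso
      apply hnn
      have : φ.ker = (P : Subgroup G) := Subgroup.eq_of_le_of_card_ge h2 (by rw [h, hPcard])
      rw [← this]
      infer_instance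
  have hinj : Function.Injective φ := (MonoidHom.ker_eq_bot_iff φ).1 hker
  have hc4 : Nat.card (G ⧸ (P : Subgroup G)) = 4 := hPidx
  let e : (G ⧸ (P : Subgroup G)) ≃ Fin 4 := (Finite.equivFinOfCardEq hc4)
  let ψ : G →* Equiv.Perm (Fin 4) := (e.permCongrHom.toMonoidHom).comp φ
  have hψ : Function.Injective ψ := e.permCongrHom.injective.comp hinj
  have hidx : ψ.range.index = 2 := by
    have h1 := ψ.range.index_mul_card
    have h2 : Nat.card ψ.range = 12 := by
      rw [← hG]
      exact (Nat.card_congr (MonoidHom.ofInjective hψ).toEquiv).symm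
    rw [h2, Nat.card_perm, Nat.card_eq_fintype_card, Fintype.card_fin] at h1
    have : Nat.factorial 4 = 24 := by decide
    rw [this] at h1
    omega
  have hA := alt_of_index_two _ hidx
  exact ⟨(MonoidHom.ofInjective hψ).trans (MulEquiv.subgroupCongr hA)⟩

end Cfsg.Agent.S0228
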