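import Cfsg.Statements.S0229
import Cfsg.Agent.H4.Isolated
import Mathlib

set_option autoImplicit false
open Cfsg

namespace Cfsg.Agent.S0229

/-- Let t be an involution of a Sylow 2-subgroup S of a finite group G, conjugate in G to no other element of S, and let s be an involution of G not conjugate to t. Then the order of st is twice an odd number. -/
theorem result {G : Type*} [Group G] [Finite G] (S : Sylow 2 G) (t : G) (ht : orderOf t = 2) (htS : t ∈ S) (hiso : ∀ g : G, g * t * g⁻¹ ∈ S → g * t * g⁻¹ = t) (s : G) (hs : orderOf s = 2) (hns : ¬ IsConj s t) : orderOf (s * t) % 4 = 2 := by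
  have htt := H4.mul_self_of_orderOf_two ht
  have hss := H4.mul_self_of_orderOf_two hs
  have hI := H4.isolated_of_sylow S ht hiso
  have hcomm : orderOf (s * t) = orderOf (t * s) := by
    have := H4.orderOf_conj (t * s) s
    rw [← this]
    congr 1
    calc s * t = s * t * (s * s⁻¹) := by group
      _ = s * (t * s) * s⁻¹ := by group
  rw [hcomm]
  have h0 : orderOf (t * s) ≠ 0 := (orderOf_pos _).ne'
  rcases Nat.even_or_odd (orderOf (t * s)) with he | ho
  · by_contra hne
    have h4 : ∃ k, orderOf (t * s) / 2 = 2 * k := by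
      obtain ⟨m, hm⟩ := he
      refine ⟨m / 2, ?_⟩
      omega
    obtain ⟨k, hk⟩ := h4
    have hord := H4.even_pow_half h0 he
    have hcm := (H4.commute_pow_half htt hss h0 he).1
    have hconj := H4.isConj_refl_even htt hss (k : ℤ)
    have e : (t * s) ^ (2 * (k : ℤ)) = (t * s) ^ (orderOf (t * s) / 2) := by
      rw [hk]; exact_mod_cast rfl
    rw [e] at hconj
    obtain ⟨c, hc⟩ := isConj_iff.1 hconj
    have h3 := hI.2 c (by rw [hc]; exact (Commute.refl t).mul_right hcm.symm)
    rw [hc] at h3
    have h5 : (t * s) ^ (orderOf (t * s) / 2) = 1 := by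
      have : t * (t * s) ^ (orderOf (t * s) / 2) = t * 1 := by rw [h3, mul_one]
      exact mul_left_cancel this
    rw [h5] at hord
    simp at hord
  · exfalso
    obtain ⟨k, hk⟩ := H4.conj_of_odd htt hss ho
    exact hns (isConj_iff.2 ⟨_, hk⟩).symm

end Cfsg.Agent.S0229
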