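import Cfsg.Statements.S0230
import Cfsg.Agent.H4.Basic2

set_option autoImplicit false
open Cfsg

namespace Cfsg.Agent.S0230

/-- Let G be a finite group with two non-conjugate involutions, and let t be an involution whose centralizer has maximal order among centralizers of involutions. Then |G| < |C_G(t)|^3. -/
theorem result {G : Type*} [Group G] [Finite G] (s t : G) (hs : orderOf s = 2) (ht : orderOf t = 2) (hnc : ¬ IsConj s t) (hmax : ∀ u : G, orderOf u = 2 → Nat.card (Subgroup.centralizer ({u} : Set G)) ≤ Nat.card (Subgroup.centralizer ({t} : Set G))) : Nat.card G < Nat.card (Subgroup.centralizer ({t} : Set G)) ^ 3 := by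
  classical
  haveI := Fintype.ofFinite G
  have hss := H4.mul_self_of_orderOf_two hs
  have htt := H4.mul_self_of_orderOf_two ht
  set z : G → G := fun v => (s * v) ^ (orderOf (s * v) / 2) with hz
  have hcl : ∀ v : G, IsConj t v → v * v = 1 ∧ Even (orderOf (s * v)) := by
    intro v hv
    obtain ⟨c, hc⟩ := isConj_iff.1 hv
    have hvv : v * v = 1 := by rw [← hc]; exact H4.conj_mul_self htt
    refine ⟨hvv, ?_⟩
    by_contra hodd
    rw [Nat.not_even_iff_odd] at hodd
    obtain ⟨k, hk⟩ := H4.conj_of_odd hss hvv hodd
    exact hnc ((isConj_iff.2 ⟨_, hk⟩).trans hv.symm)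
  have hprop : ∀ v : G, IsConj t v → orderOf (z v) = 2 ∧ Commute (z v) s ∧ Commute (z v) v := by
    intro v hv
    obtain ⟨hvv, he⟩ := hcl v hv
    have h0 : orderOf (s * v) ≠ 0 := (orderOf_pos _).ne'
    exact ⟨H4.even_pow_half h0 he, H4.commute_pow_half hss hvv h0 he⟩
  set T : Finset G := Finset.univ.filter (fun v => IsConj t v) with hT
  set Cs : Finset G := Finset.univ.filter (fun w => Commute w s ∧ orderOf w = 2) with hCs
  have hmaps : ∀ v ∈ T, z v ∈ Cs := by
    intro v hv
    simp only [hT, Finset.mem_filter, Finset.mem_univ, true_and] at hv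
    simp only [hCs, Finset.mem_filter, Finset.mem_univ, true_and]
    exact ⟨(hprop v hv).2.1, (hprop v hv).1⟩
  have hfib : ∀ w ∈ Cs, (T.filter (fun v => z v = w)).card ≤ Nat.card (Subgroup.centralizer ({t} : Set G)) := by
    intro w hw
    simp only [hCs, Finset.mem_filter, Finset.mem_univ, true_and] at hw
    refine le_trans ?_ (hmax w hw.2)
    rw [Nat.card_eq_fintype_card, Fintype.card_subtype]
    apply Finset.card_le_card
    intro v hv
    simp only [hT, Finset.mem_filter, Finset.mem_univ, true_and] at hv ⊢
    rw [Subgroup.mem_centralizer_singleton_iff]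
    have := (hprop v hv.1).2.2
    rw [hv.2] at this
    exact this.eq.symm
  have h1 := Finset.card_le_mul_card_image_of_maps_to hmaps _ hfib
  have h2 : Cs.card + 1 ≤ Nat.card (Subgroup.centralizer ({s} : Set G)) := by
    rw [Nat.card_eq_fintype_card, Fintype.card_subtype]
    have h3 : insert 1 Cs ⊆ Finset.univ.filter (fun c => c ∈ Subgroup.centralizer ({s} : Set G)) := by
      intro c hc
      simp only [Finset.mem_insert] at hc
      simp only [Finset.mem_filter, Finset.mem_univ, true_and]
      rcases hc with rfl | hc
      · exact one_mem _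
      · simp only [hCs, Finset.mem_filter, Finset.mem_univ, true_and] at hc
        exact Subgroup.mem_centralizer_singleton_iff.2 hc.1.eq
    have h4 := Finset.card_le_card h3
    rw [Finset.card_insert_of_notMem] at h4
    · exact h4
    · simp [hCs]
  have h3 : T.card = Nat.card {v : G // IsConj t v} := by
    rw [Nat.card_eq_fintype_card, Fintype.card_subtype]
  have h4 := H4.card_conj_mul_card_centralizer t
  rw [← h3] at h4
  have hsmax := hmax s hs
  set ct := Nat.card (Subgroup.centralizer ({t} : Set G)) with hct
  have hctpos : 0 < ct := Nat.card_pos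
  calc Nat.card G = T.card * ct := h4.symm
    _ ≤ (ct * Cs.card) * ct := Nat.mul_le_mul_right _ h1
    _ < (ct * ct) * ct := by
        apply Nat.mul_lt_mul_of_pos_right _ hctpos
        apply Nat.mul_lt_mul_of_pos_left _ hctpos
        omega
    _ = ct ^ 3 := by ring

end Cfsg.Agent.S0230
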