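import Cfsg.Statements.S0231
import Cfsg.Agent.H4.Basic2

set_option autoImplicit false
open scoped Pointwise
open Cfsg

namespace Cfsg.Agent.S0231

/-- Let T be a Sylow 2-subgroup of the finite group G which is not normal and which intersects every other Sylow 2-subgroup trivially. Then G has a single conjugacy class of involutions. -/
theorem result {G : Type*} [Group G] [Finite G] (T : Sylow 2 G) (hnn : ¬ (T : Subgroup G).Normal) (hTI : ∀ g : G, MulAut.conj g • (T : Subgroup G) ≠ T → MulAut.conj g • (T : Subgroup G) ⊓ T = ⊥) (s t : G) (hs : orderOf s = 2) (ht : orderOf t = 2) : IsConj s t := by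
  haveI : Fact (Nat.Prime 2) := ⟨Nat.prime_two⟩
  -- general TI statement
  have hTI' : ∀ T1 T2 : Sylow 2 G, ∀ x : G, x ≠ 1 → x ∈ T1 → x ∈ T2 → T1 = T2 := by
    intro T1 T2 x hx h1 h2
    obtain ⟨g1, hg1⟩ := MulAction.exists_smul_eq G T T1
    obtain ⟨g2, hg2⟩ := MulAction.exists_smul_eq G T T2
    have hm1 : g1⁻¹ * x * g1 ∈ T := by
      rw [← hg1] at h1; exact (H4.mem_sylow_smul_iff T g1 x).1 h1
    have hm2 : g2⁻¹ * x * g2 ∈ T := by
      rw [← hg2] at h2; exact (H4.mem_sylow_smul_iff T g2 x).1 h2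
    by_contra hne
    have h3 : MulAut.conj (g1⁻¹ * g2) • (T : Subgroup G) ≠ T := by
      intro h
      apply hne
      rw [← hg1, ← hg2]
      have h4 : (g1⁻¹ * g2) • T = T := by
        apply Sylow.ext
        exact h
      rw [mul_smul, inv_smul_eq_iff] at h4
      exact h4.symm
    have h5 := hTI _ h3
    have h6 : g1⁻¹ * x * g1 ∈ (MulAut.conj (g1⁻¹ * g2) • (T : Subgroup G) ⊓ T : Subgroup G) := by
      refine Subgroup.mem_inf.2 ⟨?_, hm1⟩
      rw [Subgroup.mem_pointwise_smul_iff_inv_smul_mem]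
      have : (MulAut.conj (g1⁻¹ * g2))⁻¹ • (g1⁻¹ * x * g1) = g2⁻¹ * x * g2 := by
        simp [MulAut.smul_def, mul_assoc]
      rw [this]; exact hm2
    rw [h5, Subgroup.mem_bot] at h6
    apply hx
    have : x = g1 * (g1⁻¹ * x * g1) * g1⁻¹ := by group
    rw [this, h6]; group
  have key : ∀ T1 T2 : Sylow 2 G, T1 ≠ T2 → ∀ a b : G, orderOf a = 2 → orderOf b = 2 → a ∈ T1 → b ∈ T2 → IsConj a b := by
    intro T1 T2 hne a b ha hb haT hbT
    have haa := H4.mul_self_of_orderOf_two ha
    have hbb := H4.mul_self_of_orderOf_two hb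
    rcases Nat.even_or_odd (orderOf (a * b)) with he | ho
    · exfalso
      have h0 : orderOf (a * b) ≠ 0 := (orderOf_pos _).ne'
      have hz2 := H4.even_pow_half h0 he
      obtain ⟨hza, hzb⟩ := H4.commute_pow_half haa hbb h0 he
      set z := (a * b) ^ (orderOf (a * b) / 2) with hz
      have hzz := H4.mul_self_of_orderOf_two hz2
      have hz1 := H4.ne_one_of_orderOf_two hz2
      obtain ⟨R1, hR1⟩ := (H4.isPGroup_closure_pair_of_commute haa hzz hza.symm).exists_le_sylow
      obtain ⟨R2, hR2⟩ := (H4.isPGroup_closure_pair_of_commute hbb hzz hzb.symm).exists_le_sylow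
      have e1 := hTI' R1 T1 a (H4.ne_one_of_orderOf_two ha) (hR1 (Subgroup.subset_closure (by simp))) haT
      have e2 := hTI' R2 T2 b (H4.ne_one_of_orderOf_two hb) (hR2 (Subgroup.subset_closure (by simp))) hbT
      have e3 := hTI' R1 R2 z hz1 (hR1 (Subgroup.subset_closure (by simp))) (hR2 (Subgroup.subset_closure (by simp)))
      exact hne (by rw [← e1, ← e2, e3])
    · obtain ⟨k, hk⟩ := H4.conj_of_odd haa hbb ho
      exact isConj_iff.2 ⟨_, hk⟩
  have hz : ∀ a : G, orderOf a = 2 → ∃ R : Sylow 2 G, a ∈ R := by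
    intro a ha
    have hp : IsPGroup 2 (Subgroup.zpowers a) := IsPGroup.of_card (n := 1) (by rw [Nat.card_zpowers, ha, pow_one])
    obtain ⟨R, hR⟩ := hp.exists_le_sylow
    exact ⟨R, hR (Subgroup.mem_zpowers a)⟩
  obtain ⟨T1, hT1⟩ := hz s hs
  obtain ⟨T2, hT2⟩ := hz t ht
  by_cases hne : T1 = T2
  · subst hne
    -- find another Sylow
    have : ∃ R : Sylow 2 G, R ≠ T1 := by
      by_contra hall
      push Not at hall
      haveI : Subsingleton (Sylow 2 G) := ⟨fun a b => (hall a).trans (hall b).symm⟩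
      exact hnn (T.normal_of_subsingleton)
    obtain ⟨R, hR⟩ := this
    obtain ⟨g, hg⟩ := MulAction.exists_smul_eq G T1 R
    have hgs : g * s * g⁻¹ ∈ R := by
      rw [← hg]
      have : g * s * g⁻¹ ∈ (MulAut.conj g • (T1 : Subgroup G) : Subgroup G) := by
        rw [Subgroup.mem_pointwise_smul_iff_inv_smul_mem]
        have h2 : (MulAut.conj g)⁻¹ • (g * s * g⁻¹) = s := by simp [MulAut.smul_def, mul_assoc]
        rw [h2]; exact hT1
      exact this
    have h1 : IsConj s (g * s * g⁻¹) := isConj_iff.2 ⟨g, rfl⟩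
    exact h1.trans (key R T1 hR _ t (by rw [H4.orderOf_conj, hs]) ht hgs hT2)
  · exact key T1 T2 hne s t hs ht hT1 hT2

end Cfsg.Agent.S0231
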