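import Cfsg.Statements.S0233
import Cfsg.Agent.H4.Basic2
import Cfsg.Agent.S0238

set_option autoImplicit false
open Cfsg

namespace Cfsg.Agent.S0233

/-- the extended centralizer -/
def extCentralizer {G : Type*} [Group G] (x : G) : Subgroup G where
  carrier := {g | g * x * g⁻¹ = x ∨ g * x * g⁻¹ = x⁻¹}
  one_mem' := by left; simp
  mul_mem' := by
    rintro a b ha hb
    have e : a * b * x * (a * b)⁻¹ = a * (b * x * b⁻¹) * a⁻¹ := by group
    have inv : a * x⁻¹ * a⁻¹ = (a * x * a⁻¹)⁻¹ := by group
    rcases hb with hb | hb <;> rcases ha with ha | ha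
    · left; rw [e, hb, ha]
    · right; rw [e, hb, ha]
    · right; rw [e, hb, inv, ha]
    · left; rw [e, hb, inv, ha, inv_inv]
  inv_mem' := by
    rintro a (ha | ha)
    · left
      have : a * x = x * a := mul_inv_eq_iff_eq_mul.mp ha
      calc a⁻¹ * x * a⁻¹⁻¹ = a⁻¹ * (x * a) := by group
        _ = x := by rw [← this]; group
    · right
      have : a * x = x⁻¹ * a := mul_inv_eq_iff_eq_mul.mp ha
      have h2 : x⁻¹ = a * x * a⁻¹ := ha.symm
      have h3 : a * x⁻¹ = x * a := by
        have : (a * x * a⁻¹)⁻¹ = x := by rw [ha, inv_inv]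
        calc a * x⁻¹ = (a * x * a⁻¹)⁻¹ * a := by group
          _ = x * a := by rw [this]
      calc a⁻¹ * x * a⁻¹⁻¹ = a⁻¹ * (x * a) := by group
        _ = x⁻¹ := by rw [← h3]; group

theorem index_extCentralizer {G : Type*} [Group G] [Finite G] {x : G} (hx : x⁻¹ ≠ x) {g : G} (hg : g * x * g⁻¹ = x⁻¹) :
    (extCentralizer x).index * 2 = (Subgroup.centralizer ({x} : Set G)).index := by
  have hle : Subgroup.centralizer ({x} : Set G) ≤ extCentralizer x := by
    intro c hc
    left
    have := Subgroup.mem_centralizer_singleton_iff.1 hc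
    rw [this]; group
  rw [← Subgroup.relIndex_mul_index hle, mul_comm]
  congr 1
  symm
  rw [Subgroup.relIndex, Subgroup.index_eq_two_iff]
  refine ⟨⟨g, Or.inr hg⟩, ?_⟩
  rintro ⟨b, hb⟩
  simp only [Subgroup.mem_subgroupOf, Subgroup.mem_centralizer_singleton_iff, Subgroup.coe_mul]
  have hginv : g * x⁻¹ * g⁻¹ = x := by
    have : g * x⁻¹ * g⁻¹ = (g * x * g⁻¹)⁻¹ := by group
    rw [this, hg, inv_inv]
  rcases hb with hb | hb
  · right
    refine ⟨mul_inv_eq_iff_eq_mul.mp hb, fun h => hx ?_⟩
    have h1 : b * g * x * (b * g)⁻¹ = x := by rw [h]; group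
    have h2 : b * g * x * (b * g)⁻¹ = x⁻¹ := by
      calc b * g * x * (b * g)⁻¹ = b * (g * x * g⁻¹) * b⁻¹ := by group
        _ = (b * x * b⁻¹)⁻¹ := by rw [hg]; group
        _ = x⁻¹ := by rw [hb]
    rw [← h2, h1]
  · left
    refine ⟨?_, fun h => hx ?_⟩
    · have h2 : b * g * x * (b * g)⁻¹ = x := by
        calc b * g * x * (b * g)⁻¹ = b * (g * x * g⁻¹) * b⁻¹ := by group
          _ = (b * x * b⁻¹)⁻¹ := by rw [hg]; group
          _ = x := by rw [hb, inv_inv]
      exact mul_inv_eq_iff_eq_mul.mp h2
    · have h1 : b * x * b⁻¹ = x := by rw [h]; group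
      rw [← hb, h1]

theorem arith (g n : ℕ) (hn : 0 < n) (A B : ℕ) (h : n * n = n + A + B)
    (hA : A * (g + n) ≤ (g - 1 - n) * (n * n)) (hB : B * (g + n) + 2 * n * (g + n) ≤ n * (2 * (n * n))) (hgn : n + 1 ≤ g) : False := by
  obtain ⟨k, hk⟩ : ∃ k, g = n + 1 + k := ⟨g - n - 1, by omega⟩
  have h1 : g - 1 - n = k := by omega
  rw [h1] at hA
  have h2 : n * n * (g + n) = n * (g + n) + A * (g + n) + B * (g + n) := by
    rw [h]; ring
  subst hk
  nlinarith [Nat.mul_pos hn hn]

/-- Let G be a finite group of even order with exactly n involutions whose centre has odd order, and put a = |G|/n. Then G has a proper subgroup H with |G : H| = 2 or |G : H| < a(a+1)/2; over ℕ the latter reads 2·|G:H|·n² < |G|·(|G| + n). -/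
theorem result {G : Type*} [Group G] [Finite G] (heven : Even (Nat.card G)) (hZ : Odd (Nat.card (Subgroup.center G))) : ∃ H : Subgroup G, H ≠ ⊤ ∧ (H.index = 2 ∨ 2 * H.index * (Nat.card {t : G // orderOf t = 2}) ^ 2 < Nat.card G * (Nat.card G + Nat.card {t : G // orderOf t = 2})) := by
  classical
  haveI := Fintype.ofFinite G
  by_contra hcon
  push Not at hcon
  set n := Nat.card {t : G // orderOf t = 2} with hn
  set g := Nat.card G with hg
  -- β x
  set β : G → ℕ := fun x => Nat.card {p : G × G // orderOf p.1 = 2 ∧ orderOf p.2 = 2 ∧ p.1 * p.2 = x} with hβ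
  have hnfin : n = (Finset.univ.filter (fun t : G => orderOf t = 2)).card := by
    rw [hn, Nat.card_eq_fintype_card, Fintype.card_subtype]
  have hnpos : 0 < n := by
    haveI : Fact (Nat.Prime 2) := ⟨Nat.prime_two⟩
    obtain ⟨x, hx⟩ := exists_prime_orderOf_dvd_card' (G := G) 2 heven.two_dvd
    haveI : Nonempty {t : G // orderOf t = 2} := ⟨⟨x, hx⟩⟩
    exact Nat.card_pos
  have hβ1 : β 1 = n := by
    simp only [hβ, hn]
    apply Nat.card_congr
    refine
      { toFun := fun p => ⟨p.1.1, p.2.1⟩
        invFun := fun t => ⟨(t.1, t.1), t.2, t.2, H4.mul_self_of_orderOf_two t.2⟩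
        left_inv := ?_
        right_inv := fun _ => rfl }
    rintro ⟨⟨u, v⟩, hu, hv, huv⟩
    simp only at hu hv huv
    apply Subtype.ext
    show (u, u) = (u, v)
    rw [eq_inv_of_mul_eq_one_right huv, H4.inv_eq_self_of_mul_self (H4.mul_self_of_orderOf_two hu)]
  have hβsum : ∑ x : G, β x = n * n := by
    have hcard : ∀ x, β x = (((Finset.univ.filter (fun t : G => orderOf t = 2)) ×ˢ (Finset.univ.filter (fun t : G => orderOf t = 2))).filter (fun p => p.1 * p.2 = x)).card := by
      intro x
      simp only [hβ]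
      rw [Nat.card_eq_fintype_card, Fintype.card_subtype]
      congr 1
      ext p
      simp only [Finset.mem_filter, Finset.mem_univ, true_and, Finset.mem_product, and_assoc]
    rw [Finset.sum_congr rfl (fun x _ => hcard x)]
    have hfw := Finset.card_eq_sum_card_fiberwise (s := (Finset.univ.filter (fun t : G => orderOf t = 2)) ×ˢ (Finset.univ.filter (fun t : G => orderOf t = 2))) (t := (Finset.univ : Finset G)) (f := fun p : G × G => p.1 * p.2) (fun p _ => Finset.mem_univ _)
    rw [← hfw, Finset.card_product, ← hnfin]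
  have hgpos : 0 < g := Nat.card_pos
  -- centralizers of involutions
  have hCinv : ∀ x : G, orderOf x = 2 → Subgroup.centralizer ({x} : Set G) ≠ ⊤ := by
    intro x hx htop
    apply H4.not_odd_card_of_mem (K := Subgroup.center G) (x := x) _ hx hZ
    rw [Subgroup.mem_center_iff]
    intro y
    have : y ∈ Subgroup.centralizer ({x} : Set G) := by rw [htop]; exact Subgroup.mem_top y
    exact Subgroup.mem_centralizer_singleton_iff.1 this
  -- bound for involutions
  have hb2 : ∀ x : G, orderOf x = 2 → β x * (g + n) + 2 * (g + n) ≤ 2 * (n * n) := by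
    intro x hx
    have h1 := (hcon _ (hCinv x hx)).2
    have h2 := (Cfsg.Agent.S0238.result x).2.2 hx
    have h3 := (Subgroup.centralizer ({x} : Set G)).index_mul_card
    rw [← hg] at h3
    set s := (Subgroup.centralizer ({x} : Set G)).index
    set c := Nat.card (Subgroup.centralizer ({x} : Set G))
    have hspos : 0 < s := Nat.pos_of_ne_zero (Subgroup.index_ne_zero_of_finite)
    have h4 : (β x + 2) * (g + n) ≤ 2 * (n * n) := by
      have h5 : s * ((β x + 2) * (g + n)) ≤ s * (2 * (n * n)) := by
        calc s * ((β x + 2) * (g + n)) ≤ s * (c * (g + n)) := by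
              apply Nat.mul_le_mul_left; exact Nat.mul_le_mul_right _ h2
          _ = g * (g + n) := by rw [← h3]; ring
          _ ≤ 2 * s * n ^ 2 := h1
          _ = s * (2 * (n * n)) := by ring
      exact Nat.le_of_mul_le_mul_left h5 hspos
    linarith [h4]
  -- bound for other elements
  have hb1 : ∀ x : G, x ≠ 1 → orderOf x ≠ 2 → β x * (g + n) ≤ n * n := by
    intro x hx1 hx2
    by_cases h0 : β x = 0
    · rw [h0, zero_mul]; exact Nat.zero_le _
    · have hreal : IsConj x x⁻¹ := by
        by_contra hnr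
        exact h0 ((Cfsg.Agent.S0238.result x).2.1 hnr)
      obtain ⟨c0, hc0⟩ := isConj_iff.1 hreal
      have hne : x⁻¹ ≠ x := by
        intro h
        apply hx2
        apply H4.orderOf_two_of _ hx1
        nth_rewrite 1 [← h]; exact inv_mul_cancel x
      have hidx := index_extCentralizer hne hc0
      have hext : extCentralizer x ≠ ⊤ := by
        intro htop
        rw [htop, Subgroup.index_top, one_mul] at hidx
        have hCne : Subgroup.centralizer ({x} : Set G) ≠ ⊤ := by
          intro h; rw [h, Subgroup.index_top] at hidx; omega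
        exact (hcon _ hCne).1 hidx.symm
      have h1 := (hcon _ hext).2
      have h2 := (Cfsg.Agent.S0238.result x).1
      have h3 := (Subgroup.centralizer ({x} : Set G)).index_mul_card
      rw [← hg, ← hidx] at h3
      set s := (extCentralizer x).index
      set c := Nat.card (Subgroup.centralizer ({x} : Set G))
      have hspos : 0 < s := Nat.pos_of_ne_zero (Subgroup.index_ne_zero_of_finite)
      have h5 : (2 * s) * (β x * (g + n)) ≤ (2 * s) * (n * n) := by
        calc (2 * s) * (β x * (g + n)) ≤ (2 * s) * (c * (g + n)) := by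
              apply Nat.mul_le_mul_left; exact Nat.mul_le_mul_right _ h2
          _ = g * (g + n) := by rw [← h3]; ring
          _ ≤ 2 * s * n ^ 2 := h1
          _ = (2 * s) * (n * n) := by ring
      exact Nat.le_of_mul_le_mul_left h5 (by omega)
  -- split the sum
  set I := Finset.univ.filter (fun t : G => orderOf t = 2) with hI
  set R := (Finset.univ.filter (fun t : G => t ≠ 1 ∧ orderOf t ≠ 2)) with hR
  have hsplit : ∑ x : G, β x = β 1 + (∑ x ∈ R, β x) + ∑ x ∈ I, β x := by
    have hun : (Finset.univ : Finset G) = insert 1 (R ∪ I) := by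
      ext x
      simp only [hR, hI, Finset.mem_univ, Finset.mem_insert, Finset.mem_union, Finset.mem_filter, true_and, true_iff]
      tauto
    rw [hun, Finset.sum_insert, Finset.sum_union, add_assoc]
    · rw [Finset.disjoint_filter]; tauto
    · simp [hR, hI]
  have hcards : R.card + n + 1 = g := by
    have hun : (Finset.univ : Finset G) = insert 1 (R ∪ I) := by
      ext x
      simp only [hR, hI, Finset.mem_univ, Finset.mem_insert, Finset.mem_union, Finset.mem_filter, true_and, true_iff]
      tauto
    have h1 : g = (Finset.univ : Finset G).card := by rw [hg, Nat.card_eq_fintype_card, Finset.card_univ]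
    rw [h1, hun, Finset.card_insert_of_notMem, Finset.card_union_of_disjoint, hnfin]
    · rw [Finset.disjoint_filter]; tauto
    · simp [hR, hI]
  have hRsum : (∑ x ∈ R, β x) * (g + n) ≤ (g - 1 - n) * (n * n) := by
    have : g - 1 - n = R.card := by omega
    rw [this, Finset.sum_mul, ← smul_eq_mul (a := R.card), ← Finset.sum_const]
    apply Finset.sum_le_sum
    intro x hx
    have hx' := (Finset.mem_filter.1 hx).2
    exact hb1 x hx'.1 hx'.2
  have hIsum : (∑ x ∈ I, β x) * (g + n) + 2 * n * (g + n) ≤ n * (2 * (n * n)) := by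
    have e : 2 * n * (g + n) = ∑ x ∈ I, 2 * (g + n) := by
      rw [Finset.sum_const, ← hnfin, smul_eq_mul]; ring
    have e2 : n * (2 * (n * n)) = ∑ x ∈ I, 2 * (n * n) := by
      rw [Finset.sum_const, ← hnfin, smul_eq_mul]
    rw [e, e2, Finset.sum_mul, ← Finset.sum_add_distrib]
    apply Finset.sum_le_sum
    intro x hx
    exact hb2 x (Finset.mem_filter.1 hx).2
  apply arith g n hnpos (∑ x ∈ R, β x) (∑ x ∈ I, β x) _ hRsum hIsum (by omega)
  rw [← hβsum, hsplit, hβ1]

end Cfsg.Agent.S0233
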