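import Cfsg.Statements.S0232
import Cfsg.Agent.H4.Basic2
import Cfsg.Agent.S0233
import Cfsg.Agent.S0219

set_option autoImplicit false
open Cfsg

namespace Cfsg.Agent.S0232

theorem main.{u} : ∀ (N : ℕ) {G : Type u} [Group G] [Finite G], Nat.card G = N → Even (Nat.card G) → 2 < Nat.card G →
    ∃ H : Subgroup G, H ≠ ⊤ ∧ Nat.card G < (Nat.card H) ^ 3 := by
  intro N
  induction N using Nat.strong_induction_on with
  | _ N ih =>
  intro G _ _ hN heven hgt
  classical
  haveI := Fintype.ofFinite G
  set g := Nat.card G with hg
  by_cases hZ : Odd (Nat.card (Subgroup.center G))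
  · obtain ⟨H, hH, hcase⟩ := Cfsg.Agent.S0233.result heven hZ
    set n := Nat.card {t : G // orderOf t = 2} with hn
    have hnpos : 0 < n := by
      haveI : Fact (Nat.Prime 2) := ⟨Nat.prime_two⟩
      obtain ⟨x, hx⟩ := exists_prime_orderOf_dvd_card' (G := G) 2 heven.two_dvd
      haveI : Nonempty {t : G // orderOf t = 2} := ⟨⟨x, hx⟩⟩
      exact Nat.card_pos
    have hidx := H.index_mul_card
    rw [← hg] at hidx
    have hipos : 0 < H.index := Nat.pos_of_ne_zero (Subgroup.index_ne_zero_of_finite)
    have hhpos : 0 < Nat.card H := Nat.card_pos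
    rcases hcase with h2 | hlt
    · refine ⟨H, hH, ?_⟩
      rw [h2] at hidx
      have h4 : 2 ≤ Nat.card H := by omega
      rw [← hg] at *
      have : Nat.card H ^ 3 = Nat.card H * Nat.card H * Nat.card H := by ring
      rw [this]
      nlinarith
    · -- choose an involution
      haveI : Fact (Nat.Prime 2) := ⟨Nat.prime_two⟩
      obtain ⟨t, ht⟩ := exists_prime_orderOf_dvd_card' (G := G) 2 heven.two_dvd
      set c := Nat.card (Subgroup.centralizer ({t} : Set G)) with hc
      have hcpos : 0 < c := Nat.card_pos
      have hcn : g ≤ n * c := by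
        have h1 := H4.card_conj_mul_card_centralizer t
        rw [← hg, ← hc] at h1
        rw [← h1]
        apply Nat.mul_le_mul_right
        apply Nat.card_le_card_of_injective (fun v : {v : G // IsConj t v} => (⟨v.1, by
          obtain ⟨d, hd⟩ := isConj_iff.1 v.2
          rw [← hd, H4.orderOf_conj, ht]⟩ : {t : G // orderOf t = 2}))
        intro a b hab
        exact Subtype.ext (congrArg (fun z : {t : G // orderOf t = 2} => z.1) hab)
      by_cases hgc : g < c ^ 3
      · refine ⟨Subgroup.centralizer ({t} : Set G), ?_, hgc⟩
        intro htop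
        apply H4.not_odd_card_of_mem (K := Subgroup.center G) (x := t) _ ht hZ
        rw [Subgroup.mem_center_iff]
        intro y
        have : y ∈ Subgroup.centralizer ({t} : Set G) := by rw [htop]; exact Subgroup.mem_top y
        exact Subgroup.mem_centralizer_singleton_iff.1 this
      · push Not at hgc
        refine ⟨H, hH, ?_⟩
        have h1 : H.index < c ^ 2 := by
          have e1 : 2 * H.index * n ^ 2 < (c ^ 2 + c) * n ^ 2 := by
            refine lt_of_lt_of_le hlt ?_
            calc g * (g + n) ≤ (n * c) * (n * c + n) := by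
                  apply Nat.mul_le_mul hcn; omega
              _ = (c ^ 2 + c) * n ^ 2 := by ring
          have e2 : 2 * H.index < c ^ 2 + c := Nat.lt_of_mul_lt_mul_right e1
          have e3 : c ≤ c ^ 2 := by nlinarith
          omega
        have h2 : H.index ^ 3 < g ^ 2 := by
          calc H.index ^ 3 < (c ^ 2) ^ 3 := Nat.pow_lt_pow_left h1 (by norm_num)
            _ = (c ^ 3) ^ 2 := by ring
            _ ≤ g ^ 2 := Nat.pow_le_pow_left hgc 2
        have h3 : g ^ 3 = H.index ^ 3 * Nat.card H ^ 3 := by rw [← hidx]; ring
        have hgpos : 0 < g := Nat.card_pos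
        by_contra hcon
        push Not at hcon
        have h4 : g ^ 3 ≤ H.index ^ 3 * g := by
          rw [h3]; exact Nat.mul_le_mul_left _ hcon
        have h5 : H.index ^ 3 * g < g ^ 2 * g := Nat.mul_lt_mul_of_pos_right h2 hgpos
        have : g ^ 3 = g ^ 2 * g := by ring
        omega
  · rw [Nat.not_odd_iff_even] at hZ
    haveI : Fact (Nat.Prime 2) := ⟨Nat.prime_two⟩
    obtain ⟨z', hz'⟩ := exists_prime_orderOf_dvd_card' (G := Subgroup.center G) 2 hZ.two_dvd
    have hz : orderOf (z' : G) = 2 := by rw [Subgroup.orderOf_coe, hz']
    set z : G := (z' : G) with hzdef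
    have hzc : z ∈ Subgroup.center G := z'.2
    haveI hnorm : (Subgroup.zpowers z).Normal := by
      constructor
      intro n hn x
      have : n ∈ Subgroup.center G := (Subgroup.zpowers_le.2 hzc) hn
      rw [Subgroup.mem_center_iff] at this
      rw [this x, mul_assoc, mul_inv_cancel, mul_one]; exact hn
    have hcz : Nat.card (Subgroup.zpowers z) = 2 := by rw [Nat.card_zpowers, hz]
    have hm : Nat.card (G ⧸ Subgroup.zpowers z) * 2 = g := by
      rw [← hcz]; exact ((Subgroup.zpowers z).card_eq_card_quotient_mul_card_subgroup).symm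
    set m := Nat.card (G ⧸ Subgroup.zpowers z) with hmdef
    by_cases hmo : Odd m
    · -- Sylow 2-subgroup has order 2
      set T : Sylow 2 G := default
      have hT : Nat.card (T : Subgroup G) = 2 := by
        rw [T.card_eq_multiplicity, ← hg, ← hm]
        have : m.factorization 2 = 0 := Nat.factorization_eq_zero_of_not_dvd (by
          intro hd; exact (Nat.not_even_iff_odd.2 hmo) (even_iff_two_dvd.2 hd))
        rw [Nat.factorization_mul (by rintro h; rw [h] at hmo; simp at hmo) (by norm_num)]
        simp [this, Nat.Prime.factorization_self Nat.prime_two]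
      haveI : IsCyclic (T : Subgroup G) := isCyclic_of_prime_card hT
      obtain ⟨H, hH⟩ := Cfsg.Agent.S0219.result heven T this
      refine ⟨H, ?_, ?_⟩
      · intro h; rw [h, Subgroup.index_top] at hH; omega
      · have hidx := H.index_mul_card
        rw [← hg, hH] at hidx
        have h4 : 2 ≤ Nat.card H := by omega
        have : Nat.card H ^ 3 = Nat.card H * Nat.card H * Nat.card H := by ring
        rw [this]
        nlinarith
    · rw [Nat.not_odd_iff_even] at hmo
      by_cases hm2 : 2 < m
      · obtain ⟨H, hH, hlt⟩ := ih m (by omega) (G := G ⧸ Subgroup.zpowers z) rfl hmo hm2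
        refine ⟨H.comap (QuotientGroup.mk' _), ?_, ?_⟩
        · intro h
          apply hH
          rw [eq_top_iff]
          intro x _
          obtain ⟨y, rfl⟩ := QuotientGroup.mk'_surjective (Subgroup.zpowers z) x
          have : y ∈ H.comap (QuotientGroup.mk' (Subgroup.zpowers z)) := by rw [h]; exact Subgroup.mem_top y
          exact this
        · have h1 : (H.comap (QuotientGroup.mk' (Subgroup.zpowers z))).index = H.index :=
            Subgroup.index_comap_of_surjective _ (QuotientGroup.mk'_surjective _)
          have h2 := (H.comap (QuotientGroup.mk' (Subgroup.zpowers z))).index_mul_card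
          have h3 := H.index_mul_card
          rw [h1, ← hg] at h2
          have hpos : 0 < H.index := Nat.pos_of_ne_zero (Subgroup.index_ne_zero_of_finite)
          have h4 : Nat.card (H.comap (QuotientGroup.mk' (Subgroup.zpowers z))) = 2 * Nat.card H := by
            apply Nat.eq_of_mul_eq_mul_left hpos
            rw [h2, ← hm, hmdef, ← h3]; ring
          rw [h4]
          have : (2 * Nat.card H) ^ 3 = 8 * Nat.card H ^ 3 := by ring
          rw [this]
          rw [← hmdef] at hlt
          omega
      · have hm1 : m = 2 := by
          rcases hmo with ⟨k, hk⟩; omega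
        refine ⟨Subgroup.zpowers z, ?_, ?_⟩
        · intro h
          rw [h, Subgroup.card_top] at hcz
          omega
        · rw [hcz]; omega

/-- A finite group G of even order greater than 2 has a proper subgroup H with |G| < |H|^3. -/
theorem result {G : Type*} [Group G] [Finite G] (heven : Even (Nat.card G)) (hgt : 2 < Nat.card G) : ∃ H : Subgroup G, H ≠ ⊤ ∧ Nat.card G < (Nat.card H) ^ 3 := by
  exact main _ rfl heven hgt

end Cfsg.Agent.S0232
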