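import Cfsg.Statements.S0234
import Cfsg.Agent.H4.Basic2
import Cfsg.Agent.S0233
import Cfsg.Agent.S0219
import Mathlib.GroupTheory.Perm.ViaEmbedding
import Mathlib.GroupTheory.SpecificGroups.Alternating

set_option autoImplicit false
open Cfsg

namespace Cfsg.Agent.S0234

theorem count_inv : (Finset.univ.filter (fun σ : Equiv.Perm (Fin 5) => σ * σ = 1 ∧ σ ≠ 1 ∧ Equiv.Perm.sign σ = 1)).card = 15 := by
  decide +kernel

theorem not_index_two {G : Type*} [Group G] [Finite G] [IsSimpleGroup G] (hgt : 2 < Nat.card G) (H : Subgroup G) (hH : H.index = 2) : False := by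
  haveI : H.Normal := Subgroup.normal_of_index_eq_two hH
  rcases (inferInstance : H.Normal).eq_bot_or_eq_top with h | h
  · rw [h, Subgroup.index_bot] at hH; omega
  · rw [h, Subgroup.index_top] at hH; omega

theorem card_le_factorial_index {G : Type*} [Group G] [Finite G] [IsSimpleGroup G] (H : Subgroup G) (hH : H ≠ ⊤) :
    Nat.card G ≤ Nat.factorial H.index := by
  have hcore : H.normalCore = ⊥ := by
    rcases (inferInstance : H.normalCore.Normal).eq_bot_or_eq_top with h | h
    · exact h
    · exfalso; apply hH
      rw [eq_top_iff, ← h]; exact H.normalCore_le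
  have hinj : Function.Injective (MulAction.toPermHom G (G ⧸ H)) := by
    rw [← MonoidHom.ker_eq_bot_iff, ← Subgroup.normalCore_eq_ker, hcore]
  have h1 := Nat.card_le_card_of_injective _ hinj
  rwa [Nat.card_perm] at h1

theorem no_small {G : Type*} [Group G] [Finite G] [IsSimpleGroup G] (hgt : 2 < Nat.card G) (hd : Nat.card G ∣ 60) (heven : Even (Nat.card G)) (hle : Nat.card G ≤ 45)
    (hne : ∀ x : G, x ∈ Subgroup.center G → x = 1) : False := by
  haveI : Fact (Nat.Prime 2) := ⟨Nat.prime_two⟩
  haveI : Fact (Nat.Prime 5) := ⟨by norm_num⟩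
  have hcases : Nat.card G = 4 ∨ Nat.card G = 12 ∨ Nat.card G = 20 ∨ (∃ k, Odd k ∧ Nat.card G = k * 2) := by
    have h1 : Nat.card G ∈ Nat.divisors 60 := Nat.mem_divisors.2 ⟨hd, by norm_num⟩
    have h2 : Nat.divisors 60 = {1, 2, 3, 4, 5, 6, 10, 12, 15, 20, 30, 60} := by decide +kernel
    rw [h2] at h1
    simp only [Finset.mem_insert, Finset.mem_singleton] at h1
    rcases h1 with h | h | h | h | h | h | h | h | h | h | h | h
    · omega
    · omega
    · rw [h] at heven; exact absurd heven (by decide)
    · left; exact h
    · rw [h] at heven; exact absurd heven (by decide)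
    · right; right; right; exact ⟨3, by decide, by omega⟩
    · right; right; right; exact ⟨5, by decide, by omega⟩
    · right; left; exact h
    · rw [h] at heven; exact absurd heven (by decide)
    · right; right; left; exact h
    · right; right; right; exact ⟨15, by decide, by omega⟩
    · omega
  rcases hcases with h | h | h | ⟨k, hk, h⟩
  · have hp : IsPGroup 2 G := IsPGroup.of_card (n := 2) (by rw [h]; norm_num)
    haveI : Nontrivial G := Finite.one_lt_card_iff_nontrivial.1 (by omega)
    obtain ⟨⟨x, hx⟩, hx1⟩ := @exists_ne _ (hp.center_nontrivial) (1 : Subgroup.center G)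
    exact hx1 (Subtype.ext (hne x hx))
  · -- order 12
    set P : Sylow 2 G := default
    have hP : Nat.card (P : Subgroup G) = 4 := by
      rw [P.card_eq_multiplicity, h]
      have : (12 : ℕ).factorization 2 = 2 := by decide +kernel
      rw [this]; norm_num
    set N := Subgroup.normalizer ((P : Subgroup G) : Set G) with hN
    have hPN : (P : Subgroup G) ≤ N := Subgroup.le_normalizer
    have hd1 : Nat.card (P : Subgroup G) ∣ Nat.card N := Subgroup.card_dvd_of_le hPN
    rw [hP] at hd1
    obtain ⟨j, hj⟩ := hd1
    have hidx := N.index_mul_card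
    rw [h, hj] at hidx
    have hidx3 : N.index * j = 3 := by nlinarith
    have hdv : N.index ∣ 3 := ⟨j, hidx3.symm⟩
    rcases (Nat.dvd_prime Nat.prime_three).1 hdv with h1 | h3
    · have hNtop : N = ⊤ := Subgroup.index_eq_one.1 h1
      haveI : (P : Subgroup G).Normal := Subgroup.normalizer_eq_top_iff.1 hNtop
      rcases (inferInstance : (P : Subgroup G).Normal).eq_bot_or_eq_top with hb | ht
      · rw [hb, Subgroup.card_bot] at hP; omega
      · rw [ht, Subgroup.card_top] at hP; omega
    · have := card_le_factorial_index N (by intro htop; rw [htop, Subgroup.index_top] at h3; omega)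
      rw [h3, h] at this
      exact absurd this (by decide)
  · -- order 20
    set P : Sylow 5 G := default
    have hP : Nat.card (P : Subgroup G) = 5 := by
      rw [P.card_eq_multiplicity, h]
      have : (20 : ℕ).factorization 5 = 1 := by decide +kernel
      rw [this]; norm_num
    have h1 := card_sylow_modEq_one 5 G
    have h2 := P.card_dvd_index
    have hidx := (P : Subgroup G).index_mul_card
    rw [h, hP] at hidx
    have h4 : (P : Subgroup G).index = 4 := by omega
    rw [h4] at h2
    have h5 : Nat.card (Sylow 5 G) ≤ 4 := Nat.le_of_dvd (by norm_num) h2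
    have h6 : Nat.card (Sylow 5 G) = 1 := by
      have : Nat.card (Sylow 5 G) % 5 = 1 := h1
      omega
    haveI : Subsingleton (Sylow 5 G) := (Nat.card_eq_one_iff_unique.1 h6).1
    have hn : (P : Subgroup G).Normal := inferInstance
    rcases hn.eq_bot_or_eq_top with hb | ht
    · rw [hb, Subgroup.card_bot] at hP; omega
    · rw [ht, Subgroup.card_top] at hP; omega
  · set T : Sylow 2 G := default
    have hT : Nat.card (T : Subgroup G) = 2 := by
      rw [T.card_eq_multiplicity, h]
      have : k.factorization 2 = 0 := Nat.factorization_eq_zero_of_not_dvd (by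
        intro hd; exact (Nat.not_even_iff_odd.2 hk) (even_iff_two_dvd.2 hd))
      rw [Nat.factorization_mul (by rintro h; rw [h] at hk; simp at hk) (by norm_num)]
      simp [this, Nat.Prime.factorization_self Nat.prime_two]
    haveI : IsCyclic (T : Subgroup G) := isCyclic_of_prime_card hT
    obtain ⟨H, hH⟩ := Cfsg.Agent.S0219.result heven T this
    exact not_index_two hgt H hH

/-- In a finite simple group G of even order greater than 2, the number n of involutions satisfies 3n < |G|. -/
theorem result {G : Type*} [Group G] [Finite G] [IsSimpleGroup G] (heven : Even (Nat.card G)) (hgt : 2 < Nat.card G) : 3 * Nat.card {t : G // orderOf t = 2} < Nat.card G := by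
  classical
  haveI := Fintype.ofFinite G
  by_contra hcon
  push Not at hcon
  set n := Nat.card {t : G // orderOf t = 2} with hn
  set g := Nat.card G with hg
  have hnab : ∀ x : G, x ∈ Subgroup.center G → x = 1 := by
    intro x hx
    rcases (inferInstance : (Subgroup.center G).Normal).eq_bot_or_eq_top with h | h
    · rw [h] at hx; exact Subgroup.mem_bot.1 hx
    · exfalso
      -- G abelian simple: prime order
      haveI : Fact (Nat.Prime 2) := ⟨Nat.prime_two⟩
      obtain ⟨z, hz⟩ := exists_prime_orderOf_dvd_card' (G := G) 2 heven.two_dvd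
      have hzc : z ∈ Subgroup.center G := by rw [h]; exact Subgroup.mem_top z
      haveI hnorm : (Subgroup.zpowers z).Normal := by
        constructor
        intro n hn x
        have : n ∈ Subgroup.center G := (Subgroup.zpowers_le.2 hzc) hn
        rw [Subgroup.mem_center_iff] at this
        rw [this x, mul_assoc, mul_inv_cancel, mul_one]; exact hn
      have hcz : Nat.card (Subgroup.zpowers z) = 2 := by rw [Nat.card_zpowers, hz]
      rcases hnorm.eq_bot_or_eq_top with hb | ht
      · rw [hb, Subgroup.card_bot] at hcz; omega
      · rw [ht, Subgroup.card_top] at hcz; omega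
  have hZ : Odd (Nat.card (Subgroup.center G)) := by
    have : Subgroup.center G = ⊥ := by rw [eq_bot_iff]; intro x hx; exact Subgroup.mem_bot.2 (hnab x hx)
    rw [this, Subgroup.card_bot]; exact odd_one
  obtain ⟨H, hH, hcase⟩ := Cfsg.Agent.S0233.result heven hZ
  have hlt : 2 * H.index * n ^ 2 < g * (g + n) := by
    rcases hcase with h | h
    · exact absurd h (fun h => not_index_two hgt H h)
    · exact h
  have hidx : H.index ≤ 5 := by
    have e1 : 2 * H.index * n ^ 2 < 12 * n ^ 2 := by
      refine lt_of_lt_of_le hlt ?_
      calc g * (g + n) ≤ (3 * n) * (3 * n + n) := by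
            apply Nat.mul_le_mul hcon; omega
        _ = 12 * n ^ 2 := by ring
    have e2 : 2 * H.index < 12 := Nat.lt_of_mul_lt_mul_right e1
    omega
  have hcore : H.normalCore = ⊥ := by
    rcases (inferInstance : H.normalCore.Normal).eq_bot_or_eq_top with h | h
    · exact h
    · exfalso; apply hH
      rw [eq_top_iff, ← h]; exact H.normalCore_le
  have hinj : Function.Injective (MulAction.toPermHom G (G ⧸ H)) := by
    rw [← MonoidHom.ker_eq_bot_iff, ← Subgroup.normalCore_eq_ker, hcore]
  haveI : Fintype (G ⧸ H) := Fintype.ofFinite _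
  have hcardq : Fintype.card (G ⧸ H) ≤ Fintype.card (Fin 5) := by
    rw [Fintype.card_fin, ← Nat.card_eq_fintype_card]; exact hidx
  obtain ⟨ι⟩ := Function.Embedding.nonempty_of_card_le hcardq
  set f : G →* Equiv.Perm (Fin 5) := (Equiv.Perm.viaEmbeddingHom ι).comp (MulAction.toPermHom G (G ⧸ H)) with hf
  have hfinj : Function.Injective f := (Equiv.Perm.viaEmbeddingHom_injective ι).comp hinj
  have hsign : ∀ x, Equiv.Perm.sign (f x) = 1 := by
    rcases (inferInstance : (Equiv.Perm.sign.comp f).ker.Normal).eq_bot_or_eq_top with h | h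
    · exfalso
      have h1 := Nat.card_le_card_of_injective _ ((MonoidHom.ker_eq_bot_iff _).1 h)
      have h2 : Nat.card ℤˣ = 2 := by rw [Nat.card_eq_fintype_card]; rfl
      omega
    · intro x
      have : x ∈ (Equiv.Perm.sign.comp f).ker := by rw [h]; exact Subgroup.mem_top x
      exact this
  have hdvd : g ∣ 60 := by
    have h1 := Subgroup.card_dvd_of_injective (f.codRestrict (alternatingGroup (Fin 5)) (fun x => hsign x)) (by
      intro a b hab
      exact hfinj (congrArg Subtype.val hab))
    rw [nat_card_alternatingGroup, Nat.card_fin] at h1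
    exact h1
  have hn15 : n ≤ 15 := by
    rw [← count_inv, ← Fintype.card_subtype, ← Nat.card_eq_fintype_card]
    apply Nat.card_le_card_of_injective (fun v : {t : G // orderOf t = 2} => (⟨f v.1, by
        refine ⟨?_, ?_, hsign _⟩
        · rw [← map_mul, H4.mul_self_of_orderOf_two v.2, map_one]
        · intro h
          exact H4.ne_one_of_orderOf_two v.2 (hfinj (by rw [h, map_one]))⟩ : {σ : Equiv.Perm (Fin 5) // σ * σ = 1 ∧ σ ≠ 1 ∧ Equiv.Perm.sign σ = 1}))
    intro a b hab
    exact Subtype.ext (hfinj (congrArg Subtype.val hab))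
  exact no_small hgt hdvd heven (by omega) hnab

end Cfsg.Agent.S0234
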