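import Cfsg.Statements.S0237
import Cfsg.Agent.H4.Basic

set_option autoImplicit false
open Cfsg

namespace Cfsg.Agent.S0237

/-- If x is real (conjugate to x⁻¹) in a finite group G, the number of g with g x g⁻¹ = x⁻¹ equals |C_G(x)|. -/
theorem result {G : Type*} [Group G] [Finite G] (x : G) (hreal : IsConj x x⁻¹) : Nat.card {g : G // g * x * g⁻¹ = x⁻¹} = Nat.card (Subgroup.centralizer ({x} : Set G)) := by
  obtain ⟨g0, hg0⟩ := isConj_iff.1 hreal
  apply Nat.card_congr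
  refine
    { toFun := fun g => ⟨g0⁻¹ * g.1, ?_⟩
      invFun := fun c => ⟨g0 * c.1, ?_⟩
      left_inv := fun g => by simp
      right_inv := fun c => by simp }
  · obtain ⟨g, h⟩ := g
    rw [Subgroup.mem_centralizer_singleton_iff]
    have h' : g * x = x⁻¹ * g := mul_inv_eq_iff_eq_mul.mp h
    have h0' : g0 * x = x⁻¹ * g0 := mul_inv_eq_iff_eq_mul.mp hg0
    calc g0⁻¹ * g * x = g0⁻¹ * (g * x) := by group
      _ = g0⁻¹ * (x⁻¹ * g0) * (g0⁻¹ * g) := by rw [h']; group
      _ = x * (g0⁻¹ * g) := by rw [← h0']; group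
  · have h := Subgroup.mem_centralizer_singleton_iff.1 c.2
    calc g0 * c.1 * x * (g0 * c.1)⁻¹ = g0 * (c.1 * x) * c.1⁻¹ * g0⁻¹ := by group
      _ = g0 * x * g0⁻¹ := by rw [h]; group
      _ = x⁻¹ := hg0

end Cfsg.Agent.S0237
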