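import Cfsg.Statements.S0239
import Cfsg.Agent.H4.Basic

set_option autoImplicit false
open Cfsg

namespace Cfsg.Agent.S0239

/-- If some nontrivial element x of a finite group G is conjugate to x⁻¹, then |G| is even. -/
theorem result {G : Type*} [Group G] [Finite G] (x : G) (hx : x ≠ 1) (hreal : IsConj x x⁻¹) : Even (Nat.card G) := by
  by_contra hodd
  rw [Nat.not_even_iff_odd] at hodd
  obtain ⟨g, hg⟩ := isConj_iff.1 hreal
  have h2 := H4.sq_mul_comm_of_inverts hg
  have hoddx : ∀ y : G, Odd (orderOf y) := fun y => Odd.of_dvd_nat hodd (orderOf_dvd_natCard y)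
  have hgx : Commute g x := H4.commute_of_sq_commute_of_odd (hoddx g) h2
  rw [hgx.eq, mul_assoc, mul_inv_cancel, mul_one] at hg
  have h5 : x ^ 2 = 1 := by
    rw [pow_two]; nth_rewrite 2 [hg]; simp
  apply hx
  obtain ⟨m, hm⟩ := hoddx x
  calc x = x ^ (2 * m + 1) := by rw [pow_succ, pow_mul, h5, one_pow, one_mul]
    _ = 1 := by rw [← hm, pow_orderOf_eq_one]

end Cfsg.Agent.S0239
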