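import Cfsg.Statements.S0240
import Cfsg.Agent.H4.Basic

set_option autoImplicit false
open Cfsg

namespace Cfsg.Agent.S0240

/-- Let G be a finite group with n involutions and H a subgroup with |H|·(n+1) > |G|. Then some nontrivial h ∈ H is strongly real in G: an involution t of G satisfies t h t⁻¹ = h⁻¹. -/
theorem result {G : Type*} [Group G] [Finite G] (H : Subgroup G) (hH : Nat.card G < Nat.card H * (Nat.card {t : G // orderOf t = 2} + 1)) : ∃ h : G, h ∈ H ∧ h ≠ 1 ∧ ∃ t : G, orderOf t = 2 ∧ t * h * t⁻¹ = h⁻¹ := by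
  classical
  have h2 := H4.card_mul_self_one (G := G)
  rw [← h2, ← H.index_mul_card, mul_comm] at hH
  have hlt : H.index < Nat.card {t : G // t * t = 1} := Nat.lt_of_mul_lt_mul_left hH
  have hlt' : Nat.card (G ⧸ H) < Nat.card {t : G // t * t = 1} := hlt
  have hninj : ¬ Function.Injective (fun t : {t : G // t * t = 1} => (QuotientGroup.mk t.1 : G ⧸ H)) := by
    intro hinj
    exact absurd (Nat.card_le_card_of_injective _ hinj) (by omega)
  simp only [Function.Injective, not_forall] at hninj
  obtain ⟨⟨s, hs⟩, ⟨t, ht⟩, hst, hne⟩ := hninj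
  simp only [Subtype.mk.injEq] at hne
  have hst' := QuotientGroup.eq.1 hst
  have hs' := H4.inv_eq_self_of_mul_self hs
  have ht' := H4.inv_eq_self_of_mul_self ht
  rw [hs'] at hst'
  have hst1 : s * t ≠ 1 := by
    intro h
    apply hne
    rw [← hs', ← ht']
    have := eq_inv_of_mul_eq_one_left h
    rw [this, inv_inv, ht']
  refine ⟨s * t, hst', hst1, ?_⟩
  by_cases hs1 : s = 1
  · refine ⟨t, H4.orderOf_two_of ht ?_, ?_⟩
    · rintro rfl; exact hne hs1
    · rw [hs1, one_mul, mul_inv_cancel_right, ht']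
  · exact ⟨s, H4.orderOf_two_of hs hs1, H4.inv_conj_mul hs ht⟩

end Cfsg.Agent.S0240
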