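import Cfsg.Statements.S0241
import Cfsg.Agent.H4.Basic

set_option autoImplicit false
open Cfsg

namespace Cfsg.Agent.S0241

/-- If x ≠ 1 is conjugate to x⁻¹ in a finite group G and |C_G(x)| is odd, then some involution t satisfies t x t⁻¹ = x⁻¹. -/
theorem result {G : Type*} [Group G] [Finite G] (x : G) (hx : x ≠ 1) (hreal : IsConj x x⁻¹) (hodd : Odd (Nat.card (Subgroup.centralizer ({x} : Set G)))) : ∃ t : G, orderOf t = 2 ∧ t * x * t⁻¹ = x⁻¹ := by
  obtain ⟨g, hg⟩ := isConj_iff.1 hreal
  have h2 := H4.sq_mul_comm_of_inverts hg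
  have hmem : g ^ 2 ∈ Subgroup.centralizer ({x} : Set G) := Subgroup.mem_centralizer_singleton_iff.2 h2.eq
  have hk := H4.pow_card_of_mem hmem
  obtain ⟨m, hm⟩ := hodd
  have hx2 : x⁻¹ ≠ x := by
    intro h
    -- x is an involution in its odd centralizer
    have hxm : x ∈ Subgroup.centralizer ({x} : Set G) := Subgroup.mem_centralizer_singleton_iff.2 rfl
    have hxk := H4.pow_card_of_mem hxm
    have h5 : x ^ 2 = 1 := by
      rw [pow_two]; nth_rewrite 2 [← h]; simp
    rw [hm, pow_succ, pow_mul, h5, one_pow, one_mul] at hxk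
    exact hx hxk
  have hinv := H4.odd_pow_inverts hg
  refine ⟨g ^ (2 * m + 1), ?_, hinv m⟩
  apply H4.orderOf_two_of
  · rw [← pow_two, ← pow_mul, mul_comm (2 * m + 1) 2, pow_mul, ← hm, hk]
  · intro h
    have := hinv m
    rw [h] at this
    simp at this
    exact hx2 this.symm

end Cfsg.Agent.S0241
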