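import Cfsg.Statements.S0247
import Mathlib
import Cfsg.Agent.H5.PermMod
import Cfsg.Agent.S0245

set_option autoImplicit false
open Cfsg

namespace Cfsg.Agent.S0247

/-- Sp_4(2) is isomorphic to the symmetric group S_6. -/
theorem result {F : Type*} [Field F] [Fintype F] (hF : Fintype.card F = 2) : Nonempty (Matrix.symplecticGroup (Fin 2) F ≃* Equiv.Perm (Fin 6)) := by
  classical
  have hx : ∀ x : F, x * x = x := by
    intro x
    have := FiniteField.pow_card x
    rw [hF, pow_two] at this
    exact this
  have h2 : (2 : F) = 0 := by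
    have h1 : ((Fintype.card F : ℕ) : F) = 0 := by simp
    rw [hF] at h1
    exact_mod_cast h1
  obtain ⟨f, hf⟩ := Cfsg.Agent.H5.exists_perm_sp F hx h2 2 (le_refl 2)
  have hcard : Nat.card (Matrix.symplecticGroup (Fin 2) F) = 720 := by
    rw [Cfsg.Agent.S0245.result hF]
    simp [Finset.prod_range_succ, Fin.prod_univ_two]
  have hbij : Function.Bijective f := by
    rw [Nat.bijective_iff_injective_and_card]
    refine ⟨hf, ?_⟩
    rw [hcard, Nat.card_perm, Nat.card_fin]
    rfl
  exact ⟨(MulEquiv.ofBijective f hbij).symm⟩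

end Cfsg.Agent.S0247
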