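import Cfsg.Statements.S0250
import Mathlib
import Cfsg.Agent.H5.Small

set_option autoImplicit false
open Cfsg

namespace Cfsg.Agent.S0250

/-- SL_2(2) is isomorphic to S_3. -/
theorem result {F : Type*} [Field F] [Fintype F] (hF : Fintype.card F = 2) : Nonempty (Matrix.SpecialLinearGroup (Fin 2) F ≃* Equiv.Perm (Fin 3)) := by
  have hc : Subgroup.center (Matrix.SpecialLinearGroup (Fin 2) F) = ⊥ := by
    rw [← Subgroup.card_eq_one, Cfsg.Agent.H5.card_center_SL 2 (by norm_num),
      Nat.card_eq_fintype_card, hF]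
    norm_num
  have e1 : Matrix.ProjectiveSpecialLinearGroup (Fin 2) F ≃* Matrix.SpecialLinearGroup (Fin 2) F :=
    (QuotientGroup.quotientMulEquivOfEq hc).trans QuotientGroup.quotientBot
  obtain ⟨e2⟩ := Cfsg.Agent.H5.equiv_perm_of_injective
    (Projectivization.PSLAction.toPermHom (ι := Fin 2) (K := F))
    Matrix.ProjectiveSpecialLinearGroup.toPermHom_injective 3
    (by rw [Cfsg.Agent.H5.card_projLine, Nat.card_eq_fintype_card, hF])
    (by
      have := Cfsg.Agent.H5.card_PSL2 hF
      norm_num at this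
      rw [this]; rfl)
  exact ⟨e1.symm.trans e2⟩

end Cfsg.Agent.S0250
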