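import Cfsg.Statements.S0251
import Mathlib
import Cfsg.Agent.H5.Small

set_option autoImplicit false
open Cfsg

namespace Cfsg.Agent.S0251

/-- PSL_2(3) is isomorphic to A_4. -/
theorem result {F : Type*} [Field F] [Fintype F] (hF : Fintype.card F = 3) : Nonempty (Matrix.ProjectiveSpecialLinearGroup (Fin 2) F ≃* alternatingGroup (Fin 4)) := by
  exact Cfsg.Agent.H5.equiv_alternating_of_injective
    (Projectivization.PSLAction.toPermHom (ι := Fin 2) (K := F))
    Matrix.ProjectiveSpecialLinearGroup.toPermHom_injective 4
    (by rw [Cfsg.Agent.H5.card_projLine, Nat.card_eq_fintype_card, hF])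
    (by
      have := Cfsg.Agent.H5.card_PSL2 hF
      norm_num at this
      rw [this]; rfl)

end Cfsg.Agent.S0251
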