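import Cfsg.Statements.S0257
import Mathlib
import Cfsg.Agent.H5.SL2Inv
import Cfsg.Agent.S0251

set_option autoImplicit false
open Cfsg

namespace Cfsg.Agent.S0257

/-- SL_2(3) has a normal subgroup of index 3 isomorphic to the quaternion group of order 8, and its centre has order 2. -/
theorem result {F : Type*} [Field F] [Fintype F] (hF : Fintype.card F = 3) : (∃ Q : Subgroup (Matrix.SpecialLinearGroup (Fin 2) F), Q.Normal ∧ Q.index = 3 ∧ Nonempty (Q ≃* QuaternionGroup 2)) ∧ Nat.card (Subgroup.center (Matrix.SpecialLinearGroup (Fin 2) F)) = 2 := by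
  classical
  have hodd : Odd (Fintype.card F) := by rw [hF]; decide
  have h2 := Cfsg.Agent.H5.two_ne_zero_of_odd hodd
  have hcz : Nat.card (Subgroup.center (Matrix.SpecialLinearGroup (Fin 2) F)) = 2 := by
    rw [Cfsg.Agent.H5.card_center_SL 2 (by norm_num), Nat.card_eq_fintype_card, hF]
    norm_num
  refine ⟨?_, hcz⟩
  obtain ⟨e⟩ := Cfsg.Agent.S0251.result hF
  have h4 : Nat.card (Fin 4) = 4 := by simp
  let V := alternatingGroup.kleinFour (Fin 4)
  haveI hVn : V.Normal := alternatingGroup.normal_kleinFour h4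
  let f : Matrix.SpecialLinearGroup (Fin 2) F →* alternatingGroup (Fin 4) :=
    e.toMonoidHom.comp (QuotientGroup.mk' (Subgroup.center (Matrix.SpecialLinearGroup (Fin 2) F)))
  have hf : Function.Surjective f := e.surjective.comp (QuotientGroup.mk'_surjective _)
  let Q := V.comap f
  have hQi : Q.index = 3 := by
    rw [Subgroup.index_comap_of_surjective V hf]
    have h5 := V.card_mul_index
    rw [alternatingGroup.kleinFour_card_of_card_eq_four h4] at h5
    have h6 : Nat.card (alternatingGroup (Fin 4)) = 12 := by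
      rw [Nat.card_eq_fintype_card]
      have := card_alternatingGroup (α := Fin 4)
      rw [Fintype.card_fin] at this
      have h7 : Nat.factorial 4 = 24 := rfl
      omega
    rw [h6] at h5
    omega
  have hG : Nat.card (Matrix.SpecialLinearGroup (Fin 2) F) = 24 := by
    rw [Cfsg.Agent.H5.card_SL2 hF]; norm_num
  have hQc : Nat.card Q = 2 ^ 3 := by
    have h5 := Q.card_mul_index
    rw [hQi, hG] at h5
    omega
  refine ⟨Q, inferInstance, hQi, ?_⟩
  have hfac : Nat.card Q = 2 ^ (Nat.card (Matrix.SpecialLinearGroup (Fin 2) F)).factorization 2 := by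
    rw [hQc, hG, show (24 : ℕ) = 2 ^ 3 * 3 by norm_num,
      Nat.factorization_mul (by norm_num) (by norm_num), Finsupp.add_apply,
      Nat.factorization_eq_zero_of_not_dvd (show ¬ 2 ∣ 3 by norm_num),
      Nat.Prime.factorization_pow Nat.prime_two]
    simp
  obtain ⟨k, hk, ⟨e2⟩⟩ := Cfsg.Agent.H5.sl2_sylow_quat h2 (Sylow.ofCard Q hfac)
  have e3 : Q ≃* QuaternionGroup (2 ^ k) := e2
  have hc2 := Nat.card_congr e3.toEquiv
  rw [hQc, Nat.card_eq_fintype_card, QuaternionGroup.card] at hc2
  have hk1 : k = 1 := by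
    have h8 : 2 ^ k = 2 ^ 1 := by omega
    exact Nat.pow_right_injective (le_refl 2) h8
  subst hk1
  exact ⟨e3⟩

end Cfsg.Agent.S0257
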