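import Cfsg.Statements.S0264
import Mathlib
import Cfsg.Agent.H5.Small

set_option autoImplicit false
open Cfsg

namespace Cfsg.Agent.S0264

/-- GL_n(F)' = SL_n(F) (as the kernel of det), for every field F and every n, except n = 2 over the field of two elements. -/
theorem result {F : Type*} [Field F] (n : ℕ) (h : n = 2 → ∃ a : F, a ≠ 0 ∧ a ≠ 1) : commutator (Matrix.GeneralLinearGroup (Fin n) F) = (Matrix.GeneralLinearGroup.det : Matrix.GeneralLinearGroup (Fin n) F →* Fˣ).ker := by
  apply le_antisymm
  · intro g hg
    rw [MonoidHom.mem_ker]
    have : commutator (Matrix.GeneralLinearGroup (Fin n) F) ≤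
        (Matrix.GeneralLinearGroup.det : Matrix.GeneralLinearGroup (Fin n) F →* Fˣ).ker := by
      rw [commutator_def, Subgroup.commutator_le]
      intro a _ b _
      rw [MonoidHom.mem_ker, map_commutatorElement, commutatorElement_eq_one_iff_mul_comm, mul_comm]
    exact this hg
  · rw [← Cfsg.Agent.H5.range_toGL]
    rintro _ ⟨A, rfl⟩
    rcases Nat.lt_or_ge n 2 with hn | hn
    · have hs : Subsingleton (Fin n) := by
        interval_cases n <;> infer_instance
      have : A = 1 := Subsingleton.elim _ _
      rw [this, map_one]
      exact one_mem _
    · have hnt : Nontrivial (Fin n) := Fin.nontrivial_iff_two_le.mpr hn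
      refine Cfsg.Agent.H5.SL_transvection_induction
        (fun A => Matrix.SpecialLinearGroup.toGL A ∈ commutator (Matrix.GeneralLinearGroup (Fin n) F))
        ?_ (fun A B hA hB => by rw [map_mul]; exact mul_mem hA hB) A
      intro i j hij c
      rcases Nat.lt_or_ge n 3 with hn3 | hn3
      · have hn2 : n = 2 := by omega
        subst hn2
        obtain ⟨a, ha0, ha1⟩ := h rfl
        have hdet : (Matrix.diagonal (fun k : Fin 2 => if k = i then a else 1)).det ≠ 0 := by
          rw [Matrix.det_diagonal, Finset.prod_ite_eq' Finset.univ i (fun _ => a)]
          simpa using ha0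
        set d : Matrix.GeneralLinearGroup (Fin 2) F :=
          Matrix.GeneralLinearGroup.mkOfDetNeZero _ hdet with hd
        have hcomm : ∀ b : F, d * Matrix.SpecialLinearGroup.toGL
            (Matrix.SpecialLinearGroup.transvection hij b) =
            Matrix.SpecialLinearGroup.toGL (Matrix.SpecialLinearGroup.transvection hij (a * b)) * d := by
          intro b
          apply Units.ext
          show Matrix.diagonal (fun k : Fin 2 => if k = i then a else 1) * Matrix.transvection i j b =
            Matrix.transvection i j (a * b) * Matrix.diagonal (fun k : Fin 2 => if k = i then a else 1)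
          rw [Matrix.transvection, Matrix.transvection, mul_add, add_mul, mul_one, one_mul]
          congr 1
          ext k l
          rw [Matrix.diagonal_mul, Matrix.mul_diagonal]
          by_cases hk : i = k ∧ j = l
          · obtain ⟨rfl, rfl⟩ := hk
            simp [hij.symm]
          · simp [Matrix.single_apply, hk]
        have hc : Matrix.SpecialLinearGroup.toGL (Matrix.SpecialLinearGroup.transvection hij c) =
            d * Matrix.SpecialLinearGroup.toGL
              (Matrix.SpecialLinearGroup.transvection hij (c / (a - 1))) * d⁻¹ *
              (Matrix.SpecialLinearGroup.toGL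
              (Matrix.SpecialLinearGroup.transvection hij (c / (a - 1))))⁻¹ := by
          rw [hcomm, mul_inv_cancel_right, ← map_inv, ← map_mul,
            Matrix.SpecialLinearGroup.transvection_inv, ← Matrix.SpecialLinearGroup.transvection_add]
          congr 2
          have : a - 1 ≠ 0 := sub_ne_zero.mpr ha1
          field_simp
          ring
        rw [hc, ← commutatorElement_def]
        exact Subgroup.commutator_mem_commutator (Subgroup.mem_top _) (Subgroup.mem_top _)
      · have h1 : Matrix.SpecialLinearGroup.transvection hij c ∈
            commutator (Matrix.SpecialLinearGroup (Fin n) F) := by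
          rw [Cfsg.Agent.H5.SL_commutator_eq_top_of_three (by simpa using hn3)]
          exact Subgroup.mem_top _
        have h2 : (commutator (Matrix.SpecialLinearGroup (Fin n) F)).map
            Matrix.SpecialLinearGroup.toGL ≤ commutator (Matrix.GeneralLinearGroup (Fin n) F) := by
          rw [commutator_def, commutator_def, Subgroup.map_commutator]
          exact Subgroup.commutator_mono le_top le_top
        exact h2 (Subgroup.mem_map_of_mem _ h1)

end Cfsg.Agent.S0264
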