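import Cfsg.Statements.S0265
import Cfsg.Agent.H5.LinBasic

set_option autoImplicit false
open Cfsg

namespace Cfsg.Agent.S0265

/-- |PGL_n(q)| = |SL_n(q)|: GL_n modulo its centre (the q-1 non-zero scalars) has the same order as the kernel of det. -/
theorem result {F : Type*} [Field F] [Fintype F] (n : ℕ) : Nat.card (Matrix.ProjGenLinGroup (Fin n) F) = Nat.card (Matrix.SpecialLinearGroup (Fin n) F) := by
  rcases n with _ | n
  · have h1 : Subsingleton (Matrix.ProjGenLinGroup (Fin 0) F) :=
      Matrix.ProjGenLinGroup.mk_surjective.subsingleton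
    rw [Nat.card_unique, Nat.card_unique]
  · have h1 := Cfsg.Agent.H5.card_GL_eq_mul (ι := Fin (n + 1)) (R := F)
    have h2 := Subgroup.card_eq_card_quotient_mul_card_subgroup
      (Subgroup.center (Matrix.GeneralLinearGroup (Fin (n + 1)) F))
    have h3 : Nat.card (Subgroup.center (Matrix.GeneralLinearGroup (Fin (n + 1)) F)) = Nat.card Fˣ := by
      rw [Matrix.GeneralLinearGroup.center_eq_range_scalar]
      refine (Nat.card_congr (MonoidHom.ofInjective ?_).toEquiv).symm
      intro a b hab
      have := congrArg (fun g : Matrix.GeneralLinearGroup (Fin (n + 1)) F => (g : Matrix (Fin (n + 1)) (Fin (n + 1)) F) 0 0) hab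
      simpa [Units.ext_iff] using this
    rw [h3] at h2
    have h4 : 0 < Nat.card Fˣ := Nat.card_pos
    have h5 : Nat.card (Matrix.ProjGenLinGroup (Fin (n + 1)) F) =
      Nat.card (Matrix.GeneralLinearGroup (Fin (n + 1)) F ⧸
        (Subgroup.center (Matrix.GeneralLinearGroup (Fin (n + 1)) F))) := rfl
    rw [h5]
    rw [h1] at h2
    rw [mul_comm] at h2
    exact (Nat.eq_of_mul_eq_mul_right h4 h2).symm

end Cfsg.Agent.S0265
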