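import Cfsg.Statements.S0266
import Mathlib
import Cfsg.Agent.H5.Proj3

set_option autoImplicit false
open scoped MatrixGroups
open Cfsg

namespace Cfsg.Agent.S0266

/-- PGL_2(F) is sharply 3-transitive on the projective line: it is 3-transitive and the stabiliser of three distinct points is trivial. -/
theorem result {F : Type*} [Field F] : MulAction.IsMultiplyPretransitive (Matrix.ProjGenLinGroup (Fin 2) F) (Projectivization F (Fin 2 → F)) 3 ∧ ∀ (g : Matrix.ProjGenLinGroup (Fin 2) F) (a b c : Projectivization F (Fin 2 → F)), a ≠ b → a ≠ c → b ≠ c → g • a = a → g • b = b → g • c = c → g = 1 := by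
  refine ⟨?_, ?_⟩
  · rw [MulAction.isMultiplyPretransitive_iff]
    intro x y
    obtain ⟨g, hg⟩ := Cfsg.Agent.H5.gl_three_trans x y
    exact ⟨Matrix.ProjGenLinGroup.mk g, hg⟩
  · intro g a b c hab hac hbc ha hb hc
    obtain ⟨g, rfl⟩ := Matrix.ProjGenLinGroup.mk_surjective g
    let x : Fin 3 ↪ Projectivization F (Fin 2 → F) := ⟨![a, b, c], by
      intro i j hij
      fin_cases i <;> fin_cases j <;> simp_all⟩
    obtain ⟨r, hr⟩ := Cfsg.Agent.H5.gl_fix_three g x (by
      intro i
      fin_cases i
      · exact ha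
      · exact hb
      · exact hc)
    rw [Matrix.ProjGenLinGroup.mk_eq_one, Matrix.GeneralLinearGroup.center_eq_range_scalar]
    have hM : (g : Matrix (Fin 2) (Fin 2) F) = Matrix.scalar (Fin 2) r := by
      ext i j
      have h1 := congrFun (hr (Pi.single j 1)) i
      rw [Matrix.mulVec_single_one] at h1
      rw [show (g : Matrix (Fin 2) (Fin 2) F) i j = (g : Matrix (Fin 2) (Fin 2) F).col j i from rfl, h1]
      by_cases hij : i = j
      · subst hij; simp [Matrix.scalar_apply]
      · simp [Matrix.scalar_apply, Matrix.diagonal_apply_ne _ hij, Pi.single_eq_of_ne hij]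
    have hr0 : r ≠ 0 := by
      rintro rfl
      have h2 := g.det_ne_zero
      rw [hM] at h2
      simp at h2
    exact ⟨Units.mk0 r hr0, by apply Units.ext; rw [hM]; rfl⟩

end Cfsg.Agent.S0266
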