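import Cfsg.Statements.S0267
import Mathlib
import Cfsg.Agent.H5.Proj3

set_option autoImplicit false
open Cfsg

namespace Cfsg.Agent.S0267

/-- SL_2(q) is 3-transitive on the q+1 points of the projective line if and only if q is even. -/
theorem result {F : Type*} [Field F] [Fintype F] : MulAction.IsMultiplyPretransitive (Matrix.SpecialLinearGroup (Fin 2) F) (Projectivization F (Fin 2 → F)) 3 ↔ ringChar F = 2 := by
  classical
  constructor
  · intro h
    by_contra hne
    rw [MulAction.isMultiplyPretransitive_iff] at h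
    obtain ⟨d, hd⟩ := FiniteField.exists_nonsquare hne
    have hd0 : d ≠ 0 := by rintro rfl; exact hd ⟨0, by simp⟩
    have e1 : (![1, 0] : Fin 2 → F) ≠ 0 := by intro h; have := congrFun h 0; simp at this
    have e2 : (![0, 1] : Fin 2 → F) ≠ 0 := by intro h; have := congrFun h 1; simp at this
    have e3 : ∀ c : F, (![1, c] : Fin 2 → F) ≠ 0 := by intro c h; have := congrFun h 0; simp at this
    have hx : ∀ c : F, c ≠ 0 → Function.Injective ![Projectivization.mk F _ e1, Projectivization.mk F _ e2, Projectivization.mk F _ (e3 c)] := by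
      intro c hc
      have n12 : Projectivization.mk F _ e1 ≠ Projectivization.mk F _ e2 := by
        intro h
        rw [Projectivization.mk_eq_mk_iff'] at h
        obtain ⟨a, ha⟩ := h
        have := congrFun ha 0
        simp at this
      have n13 : Projectivization.mk F _ e1 ≠ Projectivization.mk F _ (e3 c) := by
        intro h
        rw [Projectivization.mk_eq_mk_iff'] at h
        obtain ⟨a, ha⟩ := h
        have h0 := congrFun ha 0
        have h1 := congrFun ha 1
        simp at h0 h1
        rcases h1 with h1 | h1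
        · rw [h1] at h0; exact zero_ne_one h0
        · exact hc h1
      have n23 : Projectivization.mk F _ e2 ≠ Projectivization.mk F _ (e3 c) := by
        intro h
        rw [Projectivization.mk_eq_mk_iff'] at h
        obtain ⟨a, ha⟩ := h
        have h0 := congrFun ha 0
        have h1 := congrFun ha 1
        simp at h0 h1
        rw [h0, zero_mul] at h1
        exact zero_ne_one h1
      intro i j hij
      fin_cases i <;> fin_cases j <;> simp_all
      all_goals first | exact absurd hij.symm n12 | exact absurd hij.symm n13 | exact absurd hij.symm n23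
    obtain ⟨g, hg⟩ := h ⟨_, hx 1 one_ne_zero⟩ ⟨_, hx d hd0⟩
    have g0 : g • Projectivization.mk F _ e1 = Projectivization.mk F _ e1 := congrArg (fun f : Fin 3 ↪ Projectivization F (Fin 2 → F) => f 0) hg
    have g1 : g • Projectivization.mk F _ e2 = Projectivization.mk F _ e2 := congrArg (fun f : Fin 3 ↪ Projectivization F (Fin 2 → F) => f 1) hg
    have g2 : g • Projectivization.mk F _ (e3 1) = Projectivization.mk F _ (e3 d) := congrArg (fun f : Fin 3 ↪ Projectivization F (Fin 2 → F) => f 2) hg
    rw [Projectivization.smul_mk, Projectivization.mk_eq_mk_iff'] at g0 g1 g2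
    obtain ⟨a, ha⟩ := g0
    obtain ⟨b, hb⟩ := g1
    obtain ⟨c, hc⟩ := g2
    have hsm : ∀ u : Fin 2 → F, g • u = (g : Matrix (Fin 2) (Fin 2) F).mulVec u := fun u => rfl
    rw [hsm] at ha hb hc
    have a0 := congrFun ha 0
    have a1 := congrFun ha 1
    have b0 := congrFun hb 0
    have b1 := congrFun hb 1
    have c0 := congrFun hc 0
    have c1 := congrFun hc 1
    simp [Matrix.mulVec, dotProduct, Fin.sum_univ_two] at a0 a1 b0 b1 c0 c1
    have hdet := g.2
    rw [Matrix.det_fin_two] at hdet
    apply hd
    refine ⟨(g : Matrix (Fin 2) (Fin 2) F) 1 1, ?_⟩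
    -- c = g00, c d = g11, g00 g11 = 1
    have h00 : (g : Matrix (Fin 2) (Fin 2) F) 0 1 = 0 := b0.symm
    have h10 : (g : Matrix (Fin 2) (Fin 2) F) 1 0 = 0 := a1.symm
    rw [h00, h10, zero_mul, sub_zero] at hdet
    rw [h00, add_zero] at c0
    rw [h10, zero_add] at c1
    rw [c0] at c1
    linear_combination (-d) * hdet + (g : Matrix (Fin 2) (Fin 2) F) 1 1 * c1
  · intro h2
    rw [MulAction.isMultiplyPretransitive_iff]
    intro x y
    obtain ⟨g, hg⟩ := Cfsg.Agent.H5.gl_three_trans x y
    haveI : CharP F 2 := by rw [← h2]; infer_instance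
    obtain ⟨s, hs⟩ := FiniteField.isSquare_of_char_two h2 ((g : Matrix (Fin 2) (Fin 2) F).det)
    have hs0 : s ≠ 0 := by
      rintro rfl
      rw [zero_mul] at hs
      exact g.det_ne_zero hs
    let A : Matrix.SpecialLinearGroup (Fin 2) F := ⟨s⁻¹ • (g : Matrix (Fin 2) (Fin 2) F), by
      rw [Matrix.det_smul, Fintype.card_fin, hs]
      field_simp⟩
    refine ⟨A, ?_⟩
    rw [← hg]
    ext i
    show A • x i = g • x i
    obtain ⟨v, hv, hx⟩ : ∃ (v : Fin 2 → F) (hv : v ≠ 0), x i = Projectivization.mk F v hv :=
      ⟨(x i).rep, (x i).rep_nonzero, (x i).mk_rep.symm⟩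
    rw [hx, Projectivization.smul_mk, Projectivization.smul_mk, Projectivization.mk_eq_mk_iff']
    refine ⟨s⁻¹, ?_⟩
    show s⁻¹ • (g : Matrix (Fin 2) (Fin 2) F).mulVec v = (s⁻¹ • (g : Matrix (Fin 2) (Fin 2) F)).mulVec v
    rw [Matrix.smul_mulVec]

end Cfsg.Agent.S0267
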