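import Cfsg.Statements.S0268
import Mathlib

set_option autoImplicit false
open Cfsg

namespace Cfsg.Agent.S0268

/-- For q odd, -1 is the unique involution of SL_2(q). -/
theorem result {F : Type*} [Field F] [Fintype F] (hF : Odd (Fintype.card F)) (g : Matrix.SpecialLinearGroup (Fin 2) F) (h1 : g ≠ 1) (h2 : g * g = 1) : (g : Matrix (Fin 2) (Fin 2) F) = -1 := by
  have h3 : ((g : Matrix (Fin 2) (Fin 2) F)) * (g : Matrix (Fin 2) (Fin 2) F) = 1 := by
    have := congrArg (fun x : Matrix.SpecialLinearGroup (Fin 2) F => (x : Matrix (Fin 2) (Fin 2) F)) h2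
    simpa using this
  have h4 : (g : Matrix (Fin 2) (Fin 2) F).det = 1 := g.2
  have h20 : (2 : F) ≠ 0 := by
    intro h
    have := CharTwo.of_one_ne_zero_of_two_eq_zero (R := F) one_ne_zero h
    have h5 := FiniteField.even_card_iff_char_two (F := F)
    have h6 : ringChar F = 2 := ringChar.eq F 2
    have := h5.mp h6
    rw [Nat.odd_iff] at hF
    omega
  rw [Matrix.det_fin_two] at h4
  have e00 := congrFun (congrFun h3 0) 0
  have e01 := congrFun (congrFun h3 0) 1
  have e10 := congrFun (congrFun h3 1) 0
  have e11 := congrFun (congrFun h3 1) 1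
  simp [Matrix.mul_apply, Fin.sum_univ_two] at e00 e01 e10 e11
  set a := (g : Matrix (Fin 2) (Fin 2) F) 0 0 with ha
  set b := (g : Matrix (Fin 2) (Fin 2) F) 0 1 with hb
  set c := (g : Matrix (Fin 2) (Fin 2) F) 1 0 with hc
  set d := (g : Matrix (Fin 2) (Fin 2) F) 1 1 with hd
  -- a(a+d) = a^2 + ad = (1 - bc) + (1 + bc) = 2
  have had : a * (a + d) = 2 := by linear_combination e00 + h4
  have had0 : a + d ≠ 0 := by
    intro h; rw [h, mul_zero] at had; exact h20 had.symm
  have hb0 : b = 0 := by
    have : b * (a + d) = 0 := by linear_combination e01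
    exact (mul_eq_zero.mp this).resolve_right had0
  have hc0 : c = 0 := by
    have : c * (a + d) = 0 := by linear_combination e10
    exact (mul_eq_zero.mp this).resolve_right had0
  have hda : d = a := by
    have : (a - d) * (a + d) = 0 := by linear_combination e00 - e11
    have := (mul_eq_zero.mp this).resolve_right had0
    exact (sub_eq_zero.mp this).symm
  have ha2 : (a - 1) * (a + 1) = 0 := by rw [hb0] at e00; linear_combination e00
  rcases mul_eq_zero.mp ha2 with h | h
  · exfalso
    apply h1
    have ha1 : a = 1 := sub_eq_zero.mp h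
    apply Subtype.ext
    ext i j
    fin_cases i <;> fin_cases j
    · show a = 1
      exact ha1
    · show b = 0
      exact hb0
    · show c = 0
      exact hc0
    · show d = 1
      rw [hda, ha1]
  · have ha1 : a = -1 := eq_neg_of_add_eq_zero_left h
    ext i j
    fin_cases i <;> fin_cases j
    · simpa using ha1
    · simpa using hb0
    · simpa using hc0
    · simpa using hda.trans ha1

end Cfsg.Agent.S0268
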