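import Cfsg.Statements.S0274
import Cfsg.Agent.H2.Dick5

set_option autoImplicit false
set_option linter.style.haveILetI false
set_option linter.unusedVariables false
set_option linter.unusedSectionVars false
open Cfsg

namespace Cfsg.Agent.S0274

/-- elements of `p`-power order in `SL(2,F)`, `char F = p`, have order dividing `p` -/
theorem pow_p_of_pPower {F : Type*} [Field F] {p : ℕ} [hp : Fact p.Prime] [CharP F p] (hp2 : p ≠ 2)
    {A : Matrix.SpecialLinearGroup (Fin 2) F} {k : ℕ} (hk : A ^ p ^ k = 1) : A ^ p = 1 := by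
  classical
  have hcomm : Commute A.1 (1 : Matrix (Fin 2) (Fin 2) F) := Commute.one_right _
  have h1 := sub_pow_char_pow_of_commute p k hcomm
  have h2 : A.1 ^ p ^ k = (A ^ p ^ k : Matrix.SpecialLinearGroup (Fin 2) F).1 := rfl
  rw [h2, hk, one_pow, Matrix.SpecialLinearGroup.coe_one, sub_self] at h1
  have h5 : (A.1 - 1).det = 0 := by
    have := congrArg Matrix.det h1
    rw [Matrix.det_pow, Matrix.det_zero] at this
    exact (pow_eq_zero_iff (pow_pos hp.out.pos k).ne').1 this
  rw [Matrix.det_fin_two] at h5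
  simp at h5
  have hdA := H2.sl_det_eq A
  have h7 : A.1 0 0 + A.1 1 1 = 2 * 1 := by linear_combination hdA - h5
  have h8 := H2.pow_p_of_tr (p := p) A (e := 1) (one_pow 2) h7
  apply Subtype.ext
  rw [h8, one_pow, one_smul]
  rfl

/-- Dickson's Theorem for SL_2: if p is odd and H is a subgroup of SL_2(q), q a power of p, with more than one Sylow p-subgroup, then H contains a copy of SL_2(p). -/
theorem result {F : Type*} [Field F] [Fintype F] (p : ℕ) [Fact p.Prime] [CharP F p] (hp : p ≠ 2) (H : Subgroup (Matrix.SpecialLinearGroup (Fin 2) F)) (hH : 1 < Nat.card (Sylow p H)) : ∃ K : Subgroup (Matrix.SpecialLinearGroup (Fin 2) F), K ≤ H ∧ Nonempty (K ≃* Matrix.SpecialLinearGroup (Fin 2) (ZMod p)) := by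
  classical
  haveI : Finite H := inferInstance
  obtain ⟨S, T, hST⟩ : ∃ S T : Sylow p H, S ≠ T := by
    haveI := (Finite.one_lt_card_iff_nontrivial (α := Sylow p H)).1 hH
    exact exists_pair_ne _
  obtain ⟨x, hx, y, hy, hxy⟩ : ∃ x ∈ (S : Subgroup H), ∃ y ∈ (T : Subgroup H), x * y ≠ y * x := by
    by_contra hcon
    push Not at hcon
    apply hST
    have h1 : (T : Subgroup H) ≤ Subgroup.normalizer ((S : Subgroup H) : Set H) := by
      intro y hy
      rw [Subgroup.mem_normalizer_iff]
      intro x
      constructor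
      · intro hx
        rw [← hcon x hx y hy, mul_inv_cancel_right]; exact hx
      · intro hx
        have h2 := hcon _ hx y hy
        have h3 : x = y * x * y⁻¹ := by
          calc x = y⁻¹ * (y * x * y⁻¹ * y) := by group
            _ = y⁻¹ * (y * (y * x * y⁻¹)) := by rw [h2]
            _ = y * x * y⁻¹ := by group
        rw [h3]; exact hx
    have h2 := H18.isPGroup_sup_of_le_normalizer T.2 S.2 h1
    have h3 : (T : Subgroup H) ⊔ S = S := S.3 h2 le_sup_right
    have h4 : (T : Subgroup H) ⊔ S = T := T.3 h2 le_sup_left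
    exact Sylow.ext (h3.symm.trans h4)
  have hpp : ∀ (R : Sylow p H) (z : H), z ∈ (R : Subgroup H) → (z : Matrix.SpecialLinearGroup (Fin 2) F) ^ p = 1 := by
    intro R z hz
    obtain ⟨k, hk⟩ := R.2 ⟨z, hz⟩
    apply pow_p_of_pPower hp (k := k)
    have h1 := congrArg Subtype.val (congrArg Subtype.val hk)
    simpa using h1
  exact H2.dickson_pair hp H x.2 y.2 (hpp S x hx) (hpp T y hy) (fun hc => hxy (Subtype.ext hc))

end Cfsg.Agent.S0274
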