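import Cfsg.Statements.S0275
import Mathlib
import Cfsg.Agent.H5.SL2Inv
import Cfsg.Agent.S0274

set_option autoImplicit false
open Cfsg

namespace Cfsg.Agent.S0275

/-- If p is odd and H is a subgroup of SL_2(q), q a power of p, with more than one Sylow p-subgroup, then the Sylow 2-subgroups of H are generalised quaternion. -/
theorem result {F : Type*} [Field F] [Fintype F] (p : ℕ) [Fact p.Prime] [CharP F p] (hp : p ≠ 2) (H : Subgroup (Matrix.SpecialLinearGroup (Fin 2) F)) (hH : 1 < Nat.card (Sylow p H)) (S : Sylow 2 H) : ∃ k : ℕ, 1 ≤ k ∧ Nonempty ((S : Subgroup H) ≃* QuaternionGroup (2 ^ k)) := by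
  have h2F : (2 : F) ≠ 0 := by
    intro h
    apply hp
    have h1 : ((2 : ℕ) : F) = 0 := by exact_mod_cast h
    rw [CharP.cast_eq_zero_iff F p] at h1
    exact (Nat.prime_dvd_prime_iff_eq Fact.out Nat.prime_two).1 h1
  have h2 : (2 : ZMod p) ≠ 0 := by
    intro h
    apply hp
    have h1 : ((2 : ℕ) : ZMod p) = 0 := by exact_mod_cast h
    rw [CharP.cast_eq_zero_iff (ZMod p) p] at h1
    exact (Nat.prime_dvd_prime_iff_eq Fact.out Nat.prime_two).1 h1
  obtain ⟨K, hK, ⟨e⟩⟩ := Cfsg.Agent.S0274.result p hp H hH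
  obtain ⟨a, b, ha, hb, hc, hne⟩ := Cfsg.Agent.H5.sl2_quat_pair (F := ZMod p) h2
  let f : Matrix.SpecialLinearGroup (Fin 2) (ZMod p) →* H := (Subgroup.inclusion hK).comp e.symm.toMonoidHom
  have hf : Function.Injective f := (Subgroup.inclusion_injective hK).comp e.symm.injective
  refine Cfsg.Agent.H5.quat_sylow_of_noncomm ?_ (f a) (f b) ?_ ?_ ?_ ?_ S
  · intro x y hx hy
    apply Subtype.ext
    exact Cfsg.Agent.H5.sl2_inv_unique h2F (by rw [Subgroup.orderOf_coe, hx]) (by rw [Subgroup.orderOf_coe, hy])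
  · rw [← map_pow, ha, map_one]
  · rw [← map_mul, ← map_pow, hb]
  · rw [← map_inv, ← map_mul, ← map_mul, hc, map_inv]
  · intro h
    rw [← map_mul, ← map_mul] at h
    exact hne (hf h)

end Cfsg.Agent.S0275
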