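import Cfsg.Statements.S0276
import Mathlib
import Cfsg.Agent.H5.SL2Inv

set_option autoImplicit false
open Cfsg

namespace Cfsg.Agent.S0276

/-- For q = 3 or 5 mod 8 the Sylow 2-subgroups of PSL_2(q) are elementary abelian of order 4. -/
theorem result {F : Type*} [Field F] [Fintype F] {q : ℕ} (hF : Fintype.card F = q) (hq : q % 8 = 3 ∨ q % 8 = 5) (P : Sylow 2 (Matrix.ProjectiveSpecialLinearGroup (Fin 2) F)) : IsKleinFour (P : Subgroup (Matrix.ProjectiveSpecialLinearGroup (Fin 2) F)) := by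
  classical
  have hodd : Odd (Fintype.card F) := by rw [hF, Nat.odd_iff]; omega
  have h2 := Cfsg.Agent.H5.two_ne_zero_of_odd hodd
  have hq1 : 1 < q := hF ▸ Fintype.one_lt_card
  have hcard := Cfsg.Agent.H5.card_PSL2 hF
  have hg : Nat.gcd 2 (q - 1) = 2 := by
    rw [Nat.gcd_eq_left_iff_dvd]; omega
  rw [hg] at hcard
  have hP4 : Nat.card (P : Subgroup (Matrix.ProjectiveSpecialLinearGroup (Fin 2) F)) = 4 := by
    rw [show (4 : ℕ) = 2 ^ 2 by norm_num]
    rw [P.card_eq_multiplicity]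
    congr 1
    have hne : Nat.card (Matrix.ProjectiveSpecialLinearGroup (Fin 2) F) ≠ 0 := Nat.card_pos.ne'
    have hsq : ∃ m, q ^ 2 - 1 = 8 * m ∧ m % 2 = 1 := by
      obtain ⟨k, hk⟩ : ∃ k, q = 8 * k + 3 ∨ q = 8 * k + 5 := ⟨q / 8, by omega⟩
      rcases hk with hk | hk
      · refine ⟨8 * k ^ 2 + 6 * k + 1, ?_, by omega⟩
        rw [hk]
        have : (8 * k + 3) ^ 2 = 8 * (8 * k ^ 2 + 6 * k + 1) + 1 := by ring
        omega
      · refine ⟨8 * k ^ 2 + 10 * k + 3, ?_, by omega⟩
        rw [hk]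
        have : (8 * k + 5) ^ 2 = 8 * (8 * k ^ 2 + 10 * k + 3) + 1 := by ring
        omega
    obtain ⟨m, hm, hm2⟩ := hsq
    rw [hm] at hcard
    have hN : Nat.card (Matrix.ProjectiveSpecialLinearGroup (Fin 2) F) = 2 ^ 2 * (q * m) := by
      have : q * (8 * m) = 2 * (4 * (q * m)) := by ring
      rw [this] at hcard
      omega
    rw [hN]
    have hqm : ¬ 2 ∣ q * m := by
      rw [Nat.prime_two.dvd_mul]
      omega
    rw [Nat.factorization_mul (by norm_num) (by rintro h; apply hqm; rw [h]; exact dvd_zero _)]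
    rw [Finsupp.add_apply, Nat.factorization_eq_zero_of_not_dvd hqm, Nat.Prime.factorization_pow Nat.prime_two]
    simp
  refine ⟨hP4, ?_⟩
  -- exponent two
  obtain ⟨p, hp⟩ := CharP.exists F
  haveI : Fact p.Prime := ⟨CharP.char_is_prime F p⟩
  have hp2 : p ≠ 2 := by
    rintro rfl
    apply h2
    have := CharP.cast_eq_zero F 2
    exact_mod_cast this
  have hle : ∀ x : (P : Subgroup (Matrix.ProjectiveSpecialLinearGroup (Fin 2) F)), x ^ 2 = 1 := by
    intro x
    by_contra hx
    have h4 : x ^ 4 = 1 := by rw [← hP4]; exact pow_card_eq_one'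
    obtain ⟨g, hg⟩ := QuotientGroup.mk_surjective (x : Matrix.ProjectiveSpecialLinearGroup (Fin 2) F)
    have hg2 : (QuotientGroup.mk (g ^ 2) : Matrix.ProjectiveSpecialLinearGroup (Fin 2) F) ≠ 1 := by
      intro h
      apply hx
      apply Subtype.ext
      rw [Subgroup.coe_pow, ← hg]
      exact h
    have hg4 : (QuotientGroup.mk (g ^ 4) : Matrix.ProjectiveSpecialLinearGroup (Fin 2) F) = 1 := by
      have := congrArg Subtype.val h4
      rw [Subgroup.coe_pow, ← hg] at this
      exact this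
    have hsc : g ^ 4 = 1 ∨ g ^ 4 = -1 := by
      rw [Cfsg.Agent.H16.psl_mk_one_iff, Cfsg.Agent.H16.isScal_sl_iff] at hg4
      rcases hg4 with h | h
      · left; apply Subtype.ext; rw [h]; rfl
      · right; apply Subtype.ext; rw [h]; rfl
    have hne : g ^ 4 ≠ 1 := by
      intro h
      have h5 : (g ^ 2) * (g ^ 2) = 1 := by rw [← pow_add]; exact h
      apply hg2
      rw [Cfsg.Agent.H16.psl_mk_one_iff, Cfsg.Agent.H16.isScal_sl_iff]
      rcases Cfsg.Agent.H5.sl2_sq_one h2 h5 with h6 | h6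
      · left; rw [h6]; rfl
      · right; rw [h6]; rfl
    have h8 : orderOf g = 2 ^ (2 + 1) := by
      apply orderOf_eq_prime_pow
      · exact hne
      · rw [show (2 ^ (2 + 1) : ℕ) = 4 * 2 by norm_num, pow_mul]
        rcases hsc with h | h <;> rw [h] <;> simp
    have h9 := Cfsg.Agent.H5.sl2_order_dvd p g (by
      rw [h8]
      exact Nat.Coprime.pow_left _ ((Nat.coprime_primes Nat.prime_two Fact.out).2 (Ne.symm hp2)))
    rw [h8, hF] at h9
    omega
  have h3 : Monoid.exponent (P : Subgroup (Matrix.ProjectiveSpecialLinearGroup (Fin 2) F)) ∣ 2 :=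
    Monoid.exponent_dvd_of_forall_pow_eq_one hle
  rcases (Nat.dvd_prime Nat.prime_two).1 h3 with h4 | h4
  · exfalso
    rw [Monoid.exp_eq_one_iff] at h4
    have := Finite.card_le_one_iff_subsingleton.2 h4
    omega
  · exact h4

end Cfsg.Agent.S0276
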