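import Cfsg.Statements.S0281
import Mathlib
import Cfsg.Agent.H5.IsoG2
import Cfsg.Agent.H5.UnitBasic
import Cfsg.Agent.H5.PSLEmb

set_option autoImplicit false
open Cfsg

namespace Cfsg.Agent.S0281

open Cfsg.Agent.H5 in
/-- the image of the small field is the fixed field -/
theorem exists_of_fixed {F K : Type*} [Field F] [Fintype F] [Field K] [Fintype K] {q : ℕ}
    (hK : Fintype.card K = q) (ι : K →+* F) {a : F} (ha : a ^ q = a) : ∃ x : K, ι x = a := by
  classical
  have hq : 1 < q := hK ▸ Fintype.one_lt_card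
  let S : Finset F := (Polynomial.X ^ q - Polynomial.X : Polynomial F).roots.toFinset
  have hne : (Polynomial.X ^ q - Polynomial.X : Polynomial F) ≠ 0 := FiniteField.X_pow_card_sub_X_ne_zero F hq
  have hS : S.card ≤ q := by
    calc S.card ≤ Multiset.card (Polynomial.X ^ q - Polynomial.X : Polynomial F).roots := Multiset.toFinset_card_le _
      _ ≤ (Polynomial.X ^ q - Polynomial.X : Polynomial F).natDegree := Polynomial.card_roots' _
      _ = q := FiniteField.X_pow_card_sub_X_natDegree_eq F hq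
  have hmem : ∀ b : F, b ∈ S ↔ b ^ q = b := by
    intro b
    rw [Multiset.mem_toFinset, Polynomial.mem_roots hne, Polynomial.IsRoot.def]
    simp [sub_eq_zero]
  have himg : Finset.univ.image ι ⊆ S := by
    intro b hb
    obtain ⟨x, -, rfl⟩ := Finset.mem_image.1 hb
    rw [hmem, ← map_pow, ← hK, FiniteField.pow_card]
  have heq : Finset.univ.image ι = S := by
    apply Finset.eq_of_subset_of_card_le himg
    rw [Finset.card_image_of_injective _ ι.injective, Finset.card_univ, hK]
    exact hS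
  have h1 : a ∈ S := (hmem a).2 ha
  rw [← heq] at h1
  obtain ⟨x, -, hx⟩ := Finset.mem_image.1 h1
  exact ⟨x, hx⟩

/-- the skew-hermitian plane -/
noncomputable def skB {F : Type*} [Field F] (σ : F →+* F) (d : F) : (Fin 2 → F) →ₛₗ[σ] (Fin 2 → F) →ₗ[F] F :=
  LinearMap.mk₂'ₛₗ σ (RingHom.id F) (fun x y => d * (σ (x 0) * y 1 - σ (x 1) * y 0))
    (by intro x y z; simp; ring) (by intro c x y; simp; ring) (by intro x y z; simp; ring)
    (by intro c x y; simp; ring)

theorem skB_apply {F : Type*} [Field F] (σ : F →+* F) (d : F) (x y : Fin 2 → F) :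
    skB σ d x y = d * (σ (x 0) * y 1 - σ (x 1) * y 0) := rfl

/-- SU_2(q) is isomorphic to SL_2(q). -/
theorem result {F K : Type*} [Field F] [Fintype F] [Field K] [Fintype K] {q : ℕ} (hF : Fintype.card F = q ^ 2) (hK : Fintype.card K = q) : Nonempty (Cfsg.SU 2 F q ≃* Matrix.SpecialLinearGroup (Fin 2) K) := by
  classical
  have hq1 : 1 < q := hK ▸ Fintype.one_lt_card
  obtain ⟨σ, hσ, hσ2, hσ1⟩ := Cfsg.Agent.H5.exists_frob hF
  obtain ⟨ι⟩ := Cfsg.Agent.H5.exists_ringHom_of_card (K := K) (F := F) (m := 2) (by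
    rw [Nat.card_eq_fintype_card, Nat.card_eq_fintype_card, hK, hF])
  have hισ : ∀ x, σ (ι x) = ι x := by
    intro x
    rw [hσ, ← map_pow, ← hK, FiniteField.pow_card]
  obtain ⟨a, ha⟩ : ∃ a, σ a ≠ a := by
    by_contra h
    push Not at h
    exact hσ1 (RingHom.ext h)
  obtain ⟨d, hd⟩ : ∃ d, d = a - σ a := ⟨_, rfl⟩
  have hd0 : d ≠ 0 := by rw [hd]; exact sub_ne_zero.2 (Ne.symm ha)
  have hσd : σ d = -d := by rw [hd, map_sub, hσ2]; ring
  have hS : ∀ x y, σ (skB σ d x y) = skB σ d y x := by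
    intro x y
    rw [skB_apply, skB_apply, map_mul, map_sub, map_mul, map_mul, hσ2, hσ2, hσd]
    ring
  have hN : ∀ x ∈ (⊤ : Submodule F (Fin 2 → F)), (∀ y ∈ (⊤ : Submodule F (Fin 2 → F)), skB σ d x y = 0) → x = 0 := by
    intro x _ hx
    have h0 := hx ![1, 0] trivial
    have h1 := hx ![0, 1] trivial
    rw [skB_apply] at h0 h1
    simp [hd0] at h0 h1
    ext i
    fin_cases i
    · simpa using h1
    · simpa using h0
  obtain ⟨e, he⟩ := Cfsg.Agent.H5.exists_herm_iso (B := skB σ d) (k := 2) hσ1 hσ2 hS ⊤ (by simp) hN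
  let E : (Fin 2 → F) ≃ₗ[F] (Fin 2 → F) := (Submodule.topEquiv (R := F) (M := Fin 2 → F)).symm.trans e
  have hE : ∀ x y, Cfsg.Agent.H5.hB (Fin 2) σ (E x) (E y) = skB σ d x y := by
    intro x y
    exact he _ _
  let P : Matrix (Fin 2) (Fin 2) F := LinearMap.toMatrix' (E : (Fin 2 → F) →ₗ[F] (Fin 2 → F))
  let R : Matrix (Fin 2) (Fin 2) F := LinearMap.toMatrix' (E.symm : (Fin 2 → F) →ₗ[F] (Fin 2 → F))
  have hPv : ∀ x, P.mulVec x = E x := fun x => LinearMap.toMatrix'_mulVec _ _
  have hRv : ∀ x, R.mulVec x = E.symm x := fun x => LinearMap.toMatrix'_mulVec _ _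
  have hPR : P * R = 1 := by
    rw [← LinearMap.toMatrix'_comp]
    rw [show (E : (Fin 2 → F) →ₗ[F] (Fin 2 → F)) ∘ₗ (E.symm : (Fin 2 → F) →ₗ[F] (Fin 2 → F)) = LinearMap.id from by
      ext x; simp]
    exact LinearMap.toMatrix'_id
  have hRP : R * P = 1 := mul_eq_one_comm.1 hPR
  have hdetc : ∀ M : Matrix (Fin 2) (Fin 2) F, (P * M * R).det = M.det := by
    intro M
    rw [Matrix.det_mul, Matrix.det_mul, mul_right_comm, ← Matrix.det_mul, hPR, Matrix.det_one, one_mul]
  have hdetc' : ∀ M : Matrix (Fin 2) (Fin 2) F, (R * M * P).det = M.det := by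
    intro M
    rw [Matrix.det_mul, Matrix.det_mul, mul_right_comm, ← Matrix.det_mul, hRP, Matrix.det_one, one_mul]
  have hiK : ∀ k : Matrix.SpecialLinearGroup (Fin 2) K, ∀ x y,
      skB σ d (((k : Matrix (Fin 2) (Fin 2) K).map ι).mulVec x) (((k : Matrix (Fin 2) (Fin 2) K).map ι).mulVec y) = skB σ d x y := by
    intro k x y
    have hdet : ι ((k : Matrix (Fin 2) (Fin 2) K) 0 0) * ι ((k : Matrix (Fin 2) (Fin 2) K) 1 1) -
        ι ((k : Matrix (Fin 2) (Fin 2) K) 0 1) * ι ((k : Matrix (Fin 2) (Fin 2) K) 1 0) = 1 := by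
      have := k.2
      rw [Matrix.det_fin_two] at this
      rw [← map_mul, ← map_mul, ← map_sub, this, map_one]
    rw [skB_apply, skB_apply]
    simp only [Matrix.mulVec, dotProduct, Fin.sum_univ_two, Matrix.map_apply, map_add, map_mul, hισ]
    linear_combination (d * (σ (x 0) * y 1 - σ (x 1) * y 0)) * hdet
  let φ₀ : Matrix.SpecialLinearGroup (Fin 2) K →* Matrix.SpecialLinearGroup (Fin 2) F :=
    { toFun := fun k => ⟨P * (k : Matrix (Fin 2) (Fin 2) K).map ι * R, by
        rw [hdetc]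
        have := (Matrix.SpecialLinearGroup.map ι k).2
        exact this⟩
      map_one' := by
        apply Subtype.ext
        show P * ((1 : Matrix.SpecialLinearGroup (Fin 2) K) : Matrix (Fin 2) (Fin 2) K).map ι * R = 1
        rw [Matrix.SpecialLinearGroup.coe_one, Matrix.map_one ι (map_zero ι) (map_one ι), mul_one, hPR]
      map_mul' := by
        intro k l
        apply Subtype.ext
        show P * ((k * l : Matrix.SpecialLinearGroup (Fin 2) K) : Matrix (Fin 2) (Fin 2) K).map ι * R =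
          (P * (k : Matrix (Fin 2) (Fin 2) K).map ι * R) * (P * (l : Matrix (Fin 2) (Fin 2) K).map ι * R)
        rw [Matrix.SpecialLinearGroup.coe_mul, Matrix.map_mul]
        calc P * ((k : Matrix (Fin 2) (Fin 2) K).map ι * (l : Matrix (Fin 2) (Fin 2) K).map ι) * R =
            P * (k : Matrix (Fin 2) (Fin 2) K).map ι * 1 * (l : Matrix (Fin 2) (Fin 2) K).map ι * R := by
              simp only [mul_assoc, mul_one]
          _ = _ := by rw [← hRP]; simp only [mul_assoc] }
  have hφ₀ : ∀ k, (φ₀ k : Matrix (Fin 2) (Fin 2) F) = P * (k : Matrix (Fin 2) (Fin 2) K).map ι * R := fun k => rfl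
  have hmem : ∀ k, φ₀ k ∈ Cfsg.SU 2 F q := by
    intro k
    rw [Cfsg.Agent.H5.mem_SU_iff hσ]
    intro u v
    rw [hφ₀, ← Matrix.mulVec_mulVec, ← Matrix.mulVec_mulVec, ← Matrix.mulVec_mulVec, ← Matrix.mulVec_mulVec,
      hPv, hPv, hE, hiK, hRv, hRv, ← hE, LinearEquiv.apply_symm_apply, LinearEquiv.apply_symm_apply]
  let φ : Matrix.SpecialLinearGroup (Fin 2) K →* Cfsg.SU 2 F q := φ₀.codRestrict _ hmem
  refine ⟨(MulEquiv.ofBijective φ ⟨?_, ?_⟩).symm⟩
  · intro k l hkl
    have h1 : (φ₀ k : Matrix (Fin 2) (Fin 2) F) = φ₀ l := congrArg (fun g => (g : Matrix.SpecialLinearGroup (Fin 2) F).1) (congrArg Subtype.val hkl)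
    rw [hφ₀, hφ₀] at h1
    have h2 : R * (P * (k : Matrix (Fin 2) (Fin 2) K).map ι * R) * P = R * (P * (l : Matrix (Fin 2) (Fin 2) K).map ι * R) * P := by
      rw [h1]
    have h3 : ∀ M : Matrix (Fin 2) (Fin 2) F, R * (P * M * R) * P = M := by
      intro M
      calc R * (P * M * R) * P = (R * P) * M * (R * P) := by simp only [mul_assoc]
        _ = M := by rw [hRP, one_mul, mul_one]
    rw [h3, h3] at h2
    apply Subtype.ext
    ext i j
    exact ι.injective (congrFun (congrFun h2 i) j)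
  · rintro ⟨g, hg⟩
    rw [Cfsg.Agent.H5.mem_SU_iff hσ] at hg
    set M : Matrix (Fin 2) (Fin 2) F := R * (g : Matrix (Fin 2) (Fin 2) F) * P with hM
    have hMi : ∀ x y, skB σ d (M.mulVec x) (M.mulVec y) = skB σ d x y := by
      intro x y
      rw [hM, ← Matrix.mulVec_mulVec, ← Matrix.mulVec_mulVec, ← Matrix.mulVec_mulVec, ← Matrix.mulVec_mulVec,
        hRv, hRv, ← hE, LinearEquiv.apply_symm_apply, LinearEquiv.apply_symm_apply, hg, hPv, hPv, hE]
    have hMd : M.det = 1 := by rw [hM, hdetc']; exact g.2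
    rw [Matrix.det_fin_two] at hMd
    have e00 := hMi ![1, 0] ![1, 0]
    have e01 := hMi ![1, 0] ![0, 1]
    have e10 := hMi ![0, 1] ![1, 0]
    have e11 := hMi ![0, 1] ![0, 1]
    simp only [skB_apply, Matrix.mulVec, dotProduct, Fin.sum_univ_two, Matrix.cons_val_zero, Matrix.cons_val_one,
      mul_one, mul_zero, add_zero, zero_add, map_one, map_zero, sub_zero, zero_mul, sub_self, zero_sub, one_mul] at e00 e01 e10 e11
    have f00 : σ (M 0 0) * M 1 0 - σ (M 1 0) * M 0 0 = 0 := by
      rcases mul_eq_zero.1 e00 with h | h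
      · exact absurd h hd0
      · exact h
    have f11 : σ (M 0 1) * M 1 1 - σ (M 1 1) * M 0 1 = 0 := by
      rcases mul_eq_zero.1 e11 with h | h
      · exact absurd h hd0
      · exact h
    have f01 : σ (M 0 0) * M 1 1 - σ (M 1 0) * M 0 1 = 1 := by
      apply mul_left_cancel₀ hd0
      rw [e01, mul_one]
    have f10 : σ (M 0 1) * M 1 0 - σ (M 1 1) * M 0 0 = -1 := by
      apply mul_left_cancel₀ hd0
      rw [e10]
    have s00 : σ (M 0 0) = M 0 0 := by linear_combination M 0 0 * f01 - M 0 1 * f00 - σ (M 0 0) * hMd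
    have s10 : σ (M 1 0) = M 1 0 := by linear_combination M 1 0 * f01 - M 1 1 * f00 - σ (M 1 0) * hMd
    have s01 : σ (M 0 1) = M 0 1 := by linear_combination M 0 0 * f11 - M 0 1 * f10 - σ (M 0 1) * hMd
    have s11 : σ (M 1 1) = M 1 1 := by linear_combination M 1 0 * f11 - M 1 1 * f10 - σ (M 1 1) * hMd
    have hfix : ∀ i j, ∃ x : K, ι x = M i j := by
      intro i j
      apply exists_of_fixed hK ι
      rw [← hσ]
      fin_cases i <;> fin_cases j
      · exact s00
      · exact s01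
      · exact s10
      · exact s11
    choose k hk using hfix
    have hkM : (Matrix.of k).map ι = M := by
      ext i j
      exact hk i j
    have hkd : (Matrix.of k).det = 1 := by
      apply ι.injective
      rw [map_one, RingHom.map_det]
      show ((Matrix.of k).map ι).det = 1
      rw [hkM, Matrix.det_fin_two]
      exact hMd
    refine ⟨⟨Matrix.of k, hkd⟩, ?_⟩
    apply Subtype.ext
    apply Subtype.ext
    show P * (Matrix.of k).map ι * R = (g : Matrix (Fin 2) (Fin 2) F)
    rw [hkM, hM]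
    calc P * (R * (g : Matrix (Fin 2) (Fin 2) F) * P) * R = (P * R) * (g : Matrix (Fin 2) (Fin 2) F) * (P * R) := by simp only [mul_assoc]
      _ = _ := by rw [hPR, one_mul, mul_one]

end Cfsg.Agent.S0281
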