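import Cfsg.Statements.S0282
import Mathlib
import Cfsg.Agent.H5.PSU32

set_option autoImplicit false
open Cfsg

namespace Cfsg.Agent.S0282

/-- PSU_3(2) is a solvable group of order 72. -/
theorem result {F : Type*} [Field F] [Fintype F] (hF : Fintype.card F = 4) : Nat.card (Cfsg.PSU 3 F 2) = 72 ∧ Group.IsSolvable (Cfsg.PSU 3 F 2) := by
  refine ⟨Cfsg.Agent.H5.card_PSU32 (by rw [hF]; norm_num), ?_⟩
  obtain ⟨N, hN, hN9, hN3, ⟨e⟩⟩ := Cfsg.Agent.H5.psu32 hF
  haveI : Fact (Nat.Prime 3) := ⟨Nat.prime_three⟩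
  haveI : Fact (Nat.Prime 2) := ⟨Nat.prime_two⟩
  have h1 : IsPGroup 3 N := IsPGroup.of_card (n := 2) (by rw [hN9]; norm_num)
  have h2 : IsPGroup 2 (Cfsg.PSU 3 F 2 ⧸ N) := IsPGroup.of_card (n := 3) (by
    rw [Nat.card_congr e.toEquiv, Nat.card_eq_fintype_card, QuaternionGroup.card]; norm_num)
  haveI : Group.IsNilpotent N := h1.isNilpotent
  haveI : Group.IsNilpotent (Cfsg.PSU 3 F 2 ⧸ N) := h2.isNilpotent
  have h3 : Group.IsSolvable N := inferInstance
  have h4 : Group.IsSolvable (Cfsg.PSU 3 F 2 ⧸ N) := inferInstance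
  exact solvable_of_ker_le_range N.subtype (QuotientGroup.mk' N) (by rw [QuotientGroup.ker_mk', Subgroup.range_subtype])

end Cfsg.Agent.S0282
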