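import Cfsg.Statements.S0285
import Mathlib
import Cfsg.Agent.H5.UnitOrder

set_option autoImplicit false
open Cfsg

namespace Cfsg.Agent.S0285

/-- The standard Hermitian form on F^n, |F| = q^2, has exactly (q^n - (-1)^n)(q^(n-1) + (-1)^n) non-zero isotropic vectors; counting the zero vector too: -/
theorem result {F : Type*} [Field F] [Fintype F] {q : ℕ} (hF : Fintype.card F = q ^ 2) (n : ℕ) : Nat.card {v : Fin n → F // Cfsg.hermForm n F q v v = 0} = (if Even n then (q ^ n - 1) * (q ^ (n - 1) + 1) else (q ^ n + 1) * (q ^ (n - 1) - 1)) + 1 := by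
  obtain ⟨σ, hσ, hσ2, hσ1⟩ := Cfsg.Agent.H5.exists_frob hF
  have h1 : Nat.card {v : Fin n → F // Cfsg.hermForm n F q v v = 0} = Cfsg.Agent.H5.nvec σ n 0 := by
    apply Nat.card_congr
    apply Equiv.subtypeEquivRight
    intro v
    rw [Cfsg.Agent.H5.hermForm_eq hσ, Cfsg.Agent.H5.hB_apply]
  rw [h1]
  rcases n with _ | n
  · rw [Cfsg.Agent.H5.nvec_zero_zero]
    simp
  · rw [Cfsg.Agent.H5.nvec_isotropic hF hσ hσ2 n, Nat.add_sub_cancel]
    by_cases he : Even n
    · rw [if_pos he, if_neg (by rw [Nat.even_add_one]; exact not_not.mpr he)]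
    · rw [if_neg he, if_pos (by rw [Nat.even_add_one]; exact he)]

end Cfsg.Agent.S0285
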