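import Cfsg.Statements.S0289
import Mathlib
import Cfsg.Agent.H5.OrthForms

set_option autoImplicit false
open Cfsg

namespace Cfsg.Agent.S0289

/-- The hyperbolic quadratic form on F^(2m), m at least 1, has q^(2m-1) + q^m - q^(m-1) zeros (that is, (q^m - 1)(q^(m-1) + 1) non-zero isotropic vectors). -/
theorem result {F : Type*} [Field F] [Fintype F] {q : ℕ} (hF : Fintype.card F = q) (m : ℕ) (hm : 1 ≤ m) : Nat.card {v : Fin m ⊕ Fin m → F // Cfsg.quadFormPlus m F v = 0} = q ^ (2 * m - 1) + q ^ m - q ^ (m - 1) := by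
  have hq : Nat.card F = q := by rw [Nat.card_eq_fintype_card, hF]
  obtain ⟨k, rfl⟩ : ∃ k, m = k + 1 := ⟨m - 1, by omega⟩
  have h := Cfsg.Agent.H5.zn_plus (m := k + 1) hq
  rw [Cfsg.Agent.H5.zn, Cfsg.Agent.H5.qPlus_coe] at h
  rw [h]
  obtain ⟨A, hA⟩ : ∃ A, q ^ (k + 1) = A + 1 := ⟨q ^ (k + 1) - 1, by
        have : 1 ≤ q ^ (k + 1) := Nat.one_le_pow _ _ (by rw [← hq]; exact Nat.card_pos)
        omega⟩
  have e2 : q ^ (2 * (k + 1) - 1) = (A + 1) * q ^ k := by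
    rw [← hA, ← pow_add]; congr 1; omega
  rw [e2, hA]
  simp only [Nat.add_sub_cancel]
  have : (A + 1) * q ^ k = A * q ^ k + q ^ k := by ring
  omega

end Cfsg.Agent.S0289
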