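import Cfsg.Statements.S0290
import Mathlib
import Cfsg.Agent.H5.OrthForms

set_option autoImplicit false
open Cfsg

namespace Cfsg.Agent.S0290

/-- The minus-type quadratic form on F^(2m), m at least 1, has q^(2m-1) + q^(m-1) - q^m zeros (that is, (q^m + 1)(q^(m-1) - 1) non-zero isotropic vectors). -/
theorem result {F : Type*} [Field F] [Fintype F] {q : ℕ} (hF : Fintype.card F = q) (m : ℕ) (hm : 1 ≤ m) (a b : F) (hab : ∀ z₁ z₂ : F, z₁ ^ 2 + a * z₁ * z₂ + b * z₂ ^ 2 = 0 → z₁ = 0 ∧ z₂ = 0) : Nat.card {v : (Fin (m - 1) ⊕ Fin (m - 1)) ⊕ Fin 2 → F // Cfsg.quadFormMinus (m - 1) F a b v = 0} = q ^ (2 * m - 1) + q ^ (m - 1) - q ^ m := by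
  have hq : Nat.card F = q := by rw [Nat.card_eq_fintype_card, hF]
  obtain ⟨k, rfl⟩ : ∃ k, m = k + 1 := ⟨m - 1, by omega⟩
  simp only [Nat.add_sub_cancel]
  change Nat.card {v : (Fin k ⊕ Fin k) ⊕ Fin 2 → F // Cfsg.quadFormMinus k F a b v = 0} = _
  have h := Cfsg.Agent.H5.zn_minus (m := k) hab hq
  rw [Cfsg.Agent.H5.zn, Cfsg.Agent.H5.qMinus_coe] at h
  rw [h]
  have hq1 : 1 ≤ q := by rw [← hq]; exact Nat.card_pos
  rcases Nat.eq_zero_or_pos k with h | h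
  · subst h; simp
  · obtain ⟨j, rfl⟩ : ∃ j, k = j + 1 := ⟨k - 1, by omega⟩
    obtain ⟨A, hA⟩ : ∃ A, q ^ (j + 1) = A + 1 := ⟨q ^ (j + 1) - 1, by
          have : 1 ≤ q ^ (j + 1) := Nat.one_le_pow _ _ hq1
          omega⟩
    have e1 : q ^ 2 * q ^ (j + 1 - 1) = q * (A + 1) := by rw [← hA]; simp; ring
    have e2 : q ^ (2 * (j + 1 + 1) - 1) = (A + 1) * (A + 1) * q := by
      rw [← hA, ← pow_add, ← pow_succ]; congr 1; omega
    have e3 : q ^ (j + 1 + 1) = (A + 1) * q := by rw [← hA]; ring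
    rw [e1, e2, e3, hA]
    simp only [Nat.add_sub_cancel]
    have h1 : (A + 1) * (A + 1) * q = A * (q * (A + 1)) + (A + 1) * q := by ring
    omega

end Cfsg.Agent.S0290
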