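import Cfsg.Statements.S0291
import Mathlib
import Cfsg.Agent.H5.OrthForms

set_option autoImplicit false
open Cfsg

namespace Cfsg.Agent.S0291

/-- For q odd, the form x_0^2 + sum_{i<m} x_i y_i on F^(2m+1) has exactly q^(2m) zeros. -/
theorem result {F : Type*} [Field F] [Fintype F] {q : ℕ} (hF : Fintype.card F = q) (hodd : Odd q) (m : ℕ) : Nat.card {v : Unit ⊕ (Fin m ⊕ Fin m) → F // Cfsg.quadFormOdd m F v = 0} = q ^ (2 * m) := by
  have hq : Nat.card F = q := by rw [Nat.card_eq_fintype_card, hF]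
  have h := Cfsg.Agent.H5.zn_odd (m := m) hq
  rw [Cfsg.Agent.H5.zn, Cfsg.Agent.H5.qOdd_coe] at h
  rw [h]
  rcases Nat.eq_zero_or_pos m with h | h
  · subst h; simp
  · obtain ⟨k, rfl⟩ : ∃ k, m = k + 1 := ⟨m - 1, by omega⟩
    obtain ⟨A, hA⟩ : ∃ A, q ^ (k + 1) = A + 1 := ⟨q ^ (k + 1) - 1, by
      have : 1 ≤ q ^ (k + 1) := Nat.one_le_pow _ _ (by rw [← hq]; exact Nat.card_pos)
      omega⟩
    have e1 : q * q ^ (k + 1 - 1) = A + 1 := by rw [← hA, pow_succ]; simp [mul_comm]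
    have e2 : q ^ (2 * (k + 1)) = (A + 1) * (A + 1) := by rw [two_mul, pow_add, hA]
    rw [e1, e2, hA]
    simp only [Nat.add_sub_cancel]
    ring

end Cfsg.Agent.S0291
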