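import Cfsg.Statements.S0790
import Mathlib
import Cfsg.Agent.H5.OrthNeg

set_option autoImplicit false
open Cfsg

namespace Cfsg.Agent.S0790

/-- −1 ∈ Ω⁺_2m(q) iff q^m ≡ 1 (mod 4), for q odd and m ≥ 1 (so that in the other case SO⁺_2m(q) = 2 × Ω⁺_2m(q)). -/
theorem result {F : Type*} [Field F] [Fintype F] {q : ℕ} (hF : Fintype.card F = q) (hodd : Odd q) (m : ℕ) (hm : 1 ≤ m) : (∃ g : ↥(Cfsg.isometryGroup F (Cfsg.quadFormPlus m F)), g ∈ Cfsg.Omega F (Cfsg.quadFormPlus m F) ∧ ((g : Matrix.GeneralLinearGroup (Fin m ⊕ Fin m) F) : Matrix (Fin m ⊕ Fin m) (Fin m ⊕ Fin m) F) = -1) ↔ q ^ m % 4 = 1 := by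
  have hq : Nat.card F = q := by rw [Nat.card_eq_fintype_card, hF]
  have h2 : (2 : F) ≠ 0 := by
    intro h2
    have h3 := FiniteField.even_card_of_char_two (Cfsg.Agent.H5.ringChar_eq_two h2)
    rw [hF] at h3
    rw [Nat.odd_iff] at hodd
    omega
  obtain ⟨k, rfl⟩ : ∃ k, m = k + 1 := ⟨m - 1, by omega⟩
  rw [← Cfsg.Agent.H5.qPlus_coe, Cfsg.Agent.H5.exists_neg_iff]
  have hodd1 : Odd (q ^ (k + 1)) := hodd.pow
  obtain ⟨N, hN⟩ := hodd1
  have hodd2 : Odd (q ^ k) := hodd.pow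
  rw [Cfsg.Agent.H5.neg_mem_comm h2 Cfsg.Agent.H5.nd_plus (by
    rw [Module.finrank_fintype_fun_eq_card]
    simp
    omega) (N := N * q ^ k)]
  · rw [Nat.even_mul, hN]
    constructor
    · rintro (h | h)
      · obtain ⟨j, hj⟩ := h
        omega
      · exact absurd h (Nat.not_even_iff_odd.mpr hodd2)
    · intro h
      left
      rw [Nat.even_iff]
      omega
  · intro c hc
    rw [Cfsg.Agent.H5.qPlus_coe, Cfsg.Agent.H5.card_plus_level c hq, hN]
    have : Nat.card {t : Unit // (0 : F) = c} = 0 := by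
      rw [Nat.card_eq_zero]
      left
      exact ⟨fun t => hc t.2.symm⟩
    rw [this]
    simp only [Nat.add_sub_cancel]
    ring

end Cfsg.Agent.S0790
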