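import Cfsg.Statements.S0293
import Mathlib
import Cfsg.Agent.H5.OmegaQuot
import Cfsg.Agent.S0287
import Cfsg.Agent.S0790

set_option autoImplicit false
open Cfsg

namespace Cfsg.Agent.S0293

/-- gcd(4, q^m - 1) |PΩ^+_{2m}(q)| = q^(m(m-1)) (q^m - 1) prod_{i=1}^{m-1} (q^(2i) - 1), m at least 4 (type D_m). -/
theorem result {F : Type*} [Field F] [Fintype F] {q : ℕ} (hF : Fintype.card F = q) (m : ℕ) (hm : 4 ≤ m) : Nat.gcd 4 (q ^ m - 1) * Nat.card (Cfsg.POmega F (Cfsg.quadFormPlus m F)) = q ^ (m * (m - 1)) * (q ^ m - 1) * ∏ i ∈ Finset.range (m - 1), (q ^ (2 * (i + 1)) - 1) := by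
  have hcard := Cfsg.Agent.S0287.result hF m (by omega)
  have hι : Fintype.card (Fin m ⊕ Fin m) = 2 * m := by simp; ring
  have hnd := Cfsg.Agent.H5.nd_plus (m := m) (F := F)
  have hq1 : 1 < q := by rw [← hF]; exact Fintype.one_lt_card
  have hqm : 1 ≤ q ^ m := Nat.one_le_pow _ _ (by omega)
  by_cases h2 : (2 : F) = 0
  · have hev : q % 2 = 0 := by
      have := FiniteField.even_card_of_char_two (Cfsg.Agent.H5.ringChar_eq_two h2)
      rwa [hF] at this
    have hevm : Even (q ^ m) := (Nat.even_iff.mpr hev).pow_of_ne_zero (by omega)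
    have hg : Nat.gcd 4 (q ^ m - 1) = 1 := by
      have hodd : Odd (q ^ m - 1) := Nat.Even.sub_odd hqm hevm odd_one
      have : Nat.Coprime (2 ^ 2) (q ^ m - 1) := Nat.Coprime.pow_left 2 ((Nat.coprime_two_left).mpr hodd)
      exact this
    rw [← Cfsg.Agent.H5.qPlus_coe, Nat.card_congr (Cfsg.Agent.H5.ogEquiv (Cfsg.Agent.H5.qPlus m F)).toEquiv,
      ← Cfsg.Agent.H5.card_POmega_even hnd (by rw [hι]; omega) h2] at hcard
    rw [hg, one_mul]
    rw [Cfsg.Agent.H5.qPlus_coe] at hcard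
    apply Nat.eq_of_mul_eq_mul_left (show 0 < 2 by norm_num)
    rw [hcard]; ring
  · have hodd : Odd q := by
      rw [Nat.odd_iff, ← hF]
      exact Cfsg.Agent.H5.odd_card h2
    have hoddm : Odd (q ^ m) := hodd.pow
    have hiff := Cfsg.Agent.S0790.result hF hodd m (by omega)
    rw [← Cfsg.Agent.H5.qPlus_coe] at hiff
    have hiff' := Cfsg.Agent.H5.exists_neg_iff (Q := Cfsg.Agent.H5.qPlus m F)
    rw [← Cfsg.Agent.H5.qPlus_coe, Nat.card_congr (Cfsg.Agent.H5.ogEquiv (Cfsg.Agent.H5.qPlus m F)).toEquiv] at hcard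
    by_cases h1 : q ^ m % 4 = 1
    · have hg : Nat.gcd 4 (q ^ m - 1) = 4 := Nat.gcd_eq_left (by omega)
      have h3 := Cfsg.Agent.H5.card_POmega_odd2 hnd (by rw [hι]; omega) h2 (hiff'.mp (hiff.mpr h1))
      rw [hg]
      rw [← h3, Cfsg.Agent.H5.qPlus_coe] at hcard
      apply Nat.eq_of_mul_eq_mul_left (show 0 < 2 by norm_num)
      rw [← mul_assoc, show 2 * 4 = 8 by norm_num, hcard]; ring
    · have h3 : q ^ m % 4 = 3 := by
        rw [Nat.odd_iff] at hoddm; omega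
      have hg : Nat.gcd 4 (q ^ m - 1) = 2 := by
        obtain ⟨k, hk⟩ : ∃ k, q ^ m - 1 = 4 * k + 2 := ⟨(q ^ m - 1) / 4, by omega⟩
        rw [hk, show 4 * k + 2 = 2 + 4 * k by ring, Nat.gcd_add_mul_left_right]; rfl
      have h3 := Cfsg.Agent.H5.card_POmega_odd1 hnd (by rw [hι]; omega) h2 (fun h => h1 (hiff.mp (hiff'.mpr h)))
      rw [hg]
      rw [← h3, Cfsg.Agent.H5.qPlus_coe] at hcard
      apply Nat.eq_of_mul_eq_mul_left (show 0 < 2 by norm_num)
      rw [← mul_assoc, show 2 * 2 = 4 by norm_num, hcard]; ring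

end Cfsg.Agent.S0293
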