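import Cfsg.Statements.S0295
import Mathlib
import Cfsg.Agent.H5.OmegaQuot

set_option autoImplicit false
open Cfsg

namespace Cfsg.Agent.S0295

/-- PΩ_{2m+1}(q) is simple for q odd and m at least 3. -/
theorem result {F : Type*} [Field F] [Fintype F] (hodd : Odd (Fintype.card F)) (m : ℕ) (hm : 3 ≤ m) : IsSimpleGroup (Cfsg.POmega F (Cfsg.quadFormOdd m F)) := by
  have h2 : (2 : F) ≠ 0 := by
    intro h2
    have h3 := FiniteField.even_card_of_char_two (Cfsg.Agent.H5.ringChar_eq_two h2)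
    rw [Nat.odd_iff] at hodd
    omega
  rw [← Cfsg.Agent.H5.qOdd_coe]
  exact Cfsg.Agent.H5.POmega_simple (Cfsg.Agent.H5.nd_odd h2) (by simp; omega)

end Cfsg.Agent.S0295
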