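import Cfsg.Statements.S0297
import Mathlib
import Cfsg.Agent.H5.OmegaQuot

set_option autoImplicit false
open Cfsg

namespace Cfsg.Agent.S0297

/-- PΩ^-_{2m}(q) is simple for m at least 4 (the form is quadFormMinus (m-1) with anisotropic binary part). -/
theorem result {F : Type*} [Field F] [Fintype F] (m : ℕ) (hm : 4 ≤ m) (a b : F) (hab : ∀ z₁ z₂ : F, z₁ ^ 2 + a * z₁ * z₂ + b * z₂ ^ 2 = 0 → z₁ = 0 ∧ z₂ = 0) : IsSimpleGroup (Cfsg.POmega F (Cfsg.quadFormMinus (m - 1) F a b)) := by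
  rw [← Cfsg.Agent.H5.qMinus_coe]
  exact Cfsg.Agent.H5.POmega_simple (Cfsg.Agent.H5.nd_minus hab) (by simp; omega)

end Cfsg.Agent.S0297
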