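import Cfsg.Statements.S0307
import Mathlib
import Cfsg.Agent.H5.UnitCenter

set_option autoImplicit false
open Cfsg

namespace Cfsg.Agent.S0307

/-- PSL_n(q) is normal in PGL_n(q) with cyclic quotient of order gcd(n, q-1): the image of the natural map PSL_n → PGL_n is the kernel of a surjective homomorphism onto the cyclic group of that order. -/
theorem result {F : Type*} [Field F] [Fintype F] {q : ℕ} (hF : Fintype.card F = q) (n : ℕ) (hn : 1 ≤ n) : ∃ g : Matrix.ProjGenLinGroup (Fin n) F →* Multiplicative (ZMod (Nat.gcd n (q - 1))), Function.Surjective g ∧ g.ker = (Matrix.ProjectiveSpecialLinearGroup.toPGL : Matrix.ProjectiveSpecialLinearGroup (Fin n) F →* Matrix.ProjGenLinGroup (Fin n) F).range := by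
  have h := Cfsg.Agent.H5.exists_hom_cyclic Fˣ n hn
  have hcard : Nat.card Fˣ = q - 1 := by rw [Nat.card_units, Nat.card_eq_fintype_card, hF]
  rw [hcard] at h
  obtain ⟨f, hf1, hf2⟩ := h
  have hdetn : ∀ u : Fˣ, (Matrix.GeneralLinearGroup.det : Matrix.GeneralLinearGroup (Fin n) F →* Fˣ)
      (Matrix.GeneralLinearGroup.scalar (Fin n) u) = u ^ n := by
    intro u
    apply Units.ext
    simp
  have hker : Subgroup.center (Matrix.GeneralLinearGroup (Fin n) F) ≤
      (f.comp (Matrix.GeneralLinearGroup.det : Matrix.GeneralLinearGroup (Fin n) F →* Fˣ)).ker := by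
    intro g hg
    rw [Matrix.GeneralLinearGroup.center_eq_range_scalar] at hg
    obtain ⟨u, rfl⟩ := hg
    rw [MonoidHom.mem_ker, MonoidHom.comp_apply, hdetn, ← MonoidHom.mem_ker, hf2]
    exact ⟨u, rfl⟩
  refine ⟨QuotientGroup.lift _ (f.comp Matrix.GeneralLinearGroup.det) hker, ?_, ?_⟩
  · intro y
    obtain ⟨u, hu⟩ := hf1 y
    obtain ⟨g, hg⟩ : ∃ g : Matrix.GeneralLinearGroup (Fin n) F, Matrix.GeneralLinearGroup.det g = u := by
      refine ⟨Matrix.GeneralLinearGroup.mkOfDetNeZero (Matrix.diagonal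
        (Function.update (fun _ => 1) ⟨0, hn⟩ (u : F))) ?_, ?_⟩
      · rw [Matrix.det_diagonal, Finset.prod_update_of_mem (Finset.mem_univ _)]
        simp
      · apply Units.ext
        show (Matrix.diagonal _).det = _
        rw [Matrix.det_diagonal, Finset.prod_update_of_mem (Finset.mem_univ _)]
        simp
    refine ⟨Matrix.ProjGenLinGroup.mk g, ?_⟩
    show f (Matrix.GeneralLinearGroup.det g) = y
    rw [hg, hu]
  · ext g
    refine Matrix.ProjGenLinGroup.induction_on g (fun g => ?_)
    change f (Matrix.GeneralLinearGroup.det g) = 1 ↔ _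
    constructor
    · intro h
      have h1 : Matrix.GeneralLinearGroup.det g ∈ f.ker := h
      rw [hf2] at h1
      obtain ⟨u, hu⟩ := h1
      have hu : u ^ n = Matrix.GeneralLinearGroup.det g := hu
      have h2 : (((Matrix.GeneralLinearGroup.scalar (Fin n) u)⁻¹ * g :
          Matrix.GeneralLinearGroup (Fin n) F) : Matrix (Fin n) (Fin n) F).det = 1 := by
        have : Matrix.GeneralLinearGroup.det ((Matrix.GeneralLinearGroup.scalar (Fin n) u)⁻¹ * g) = 1 := by
          rw [map_mul, map_inv, hdetn, hu, inv_mul_cancel]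
        exact congrArg Units.val this
      obtain ⟨s, hs⟩ : ∃ s : Matrix.SpecialLinearGroup (Fin n) F, Matrix.SpecialLinearGroup.toGL s =
          (Matrix.GeneralLinearGroup.scalar (Fin n) u)⁻¹ * g := ⟨⟨_, h2⟩, Units.ext rfl⟩
      refine ⟨QuotientGroup.mk s, ?_⟩
      change Matrix.ProjGenLinGroup.mk (Matrix.SpecialLinearGroup.toGL s) = _
      rw [hs, map_mul, map_inv, Matrix.ProjGenLinGroup.mk_scalar, inv_one, one_mul]
    · rintro ⟨s, hs⟩
      induction s using QuotientGroup.induction_on with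
      | H s =>
        have hs' : Matrix.ProjGenLinGroup.mk (Matrix.SpecialLinearGroup.toGL s) =
          Matrix.ProjGenLinGroup.mk g := hs
        rw [Matrix.ProjGenLinGroup.mk_eq_mk_iff] at hs'
        obtain ⟨u, hu⟩ := hs'
        have h1 : Matrix.GeneralLinearGroup.det (Matrix.SpecialLinearGroup.toGL s) = 1 := Units.ext s.2
        rw [← hu, map_mul, h1, one_mul, hdetn, ← MonoidHom.mem_ker, hf2]
        exact ⟨u, rfl⟩

end Cfsg.Agent.S0307
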