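import Cfsg.Statements.S0316
import Cfsg.Agent.H6.BN2

set_option autoImplicit false
open Cfsg

namespace Cfsg.Agent.S0316

/-- The map `J ↦ P_J` is a lattice isomorphism from the power set of the set of distinguished generators onto the
subgroups containing `B`. -/
theorem result {G : Type*} [Group G] (P : Cfsg.BNPair G) :
    ∃ e : Set P.S ≃o {M : Subgroup G // P.B ≤ M},
      ∀ J : Set P.S, ((e J : {M : Subgroup G // P.B ≤ M}) : Subgroup G) = P.parabolic (Subtype.val '' J) := by
  have hsub : ∀ J : Set P.S, (Subtype.val '' J : Set G) ⊆ P.S := by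
    rintro J _ ⟨x, _, rfl⟩
    exact x.2
  refine ⟨
    { toFun := fun J => ⟨P.parabolic (Subtype.val '' J), H6.BN.B_le_parabolic P _⟩
      invFun := fun M => {x | (x : G) ∈ M.1}
      left_inv := ?_
      right_inv := ?_
      map_rel_iff' := ?_ }, fun J => rfl⟩
  · intro J
    ext x
    constructor
    · intro hx
      obtain ⟨y, hy, e⟩ := H6.BN.mem_of_mem_parabolic P (hsub J) (i := x) hx
      exact Subtype.ext e ▸ hy
    · intro hx
      exact H6.BN.subset_parabolic P _ ⟨x, hx, rfl⟩
  · rintro ⟨M, hM⟩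
    apply Subtype.ext
    change P.parabolic (Subtype.val '' {x : P.S | (x : G) ∈ M}) = M
    conv_rhs => rw [H6.BN.eq_parabolic P M hM]
    congr 1
    ext x
    constructor
    · rintro ⟨y, hy, rfl⟩
      exact ⟨y.2, hy⟩
    · rintro ⟨h1, h2⟩
      exact ⟨⟨x, h1⟩, h2, rfl⟩
  · intro J K
    change P.parabolic (Subtype.val '' J) ≤ P.parabolic (Subtype.val '' K) ↔ J ⊆ K
    rw [H6.BN.parabolic_le_iff P (hsub J) (hsub K), Set.image_subset_image_iff Subtype.val_injective]

end Cfsg.Agent.S0316
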