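import Cfsg.Statements.S0321
import Cfsg.Agent.H6.BN2

set_option autoImplicit false
open Cfsg

namespace Cfsg.Agent.S0321

/-- For `n ∈ N` not in `B`, the union `B ∪ B n B` is (the underlying set of) a subgroup exactly when `n` agrees
modulo `B ⊓ N` with one of the distinguished representatives; thus the distinguished involutions are
determined by `B` and `N`. -/
theorem result {G : Type*} [Group G] (P : Cfsg.BNPair G) {n : G}
    (hn : n ∈ P.N) (hnB : n ∉ P.B) :
    (∃ H : Subgroup G, (H : Set G) = (P.B : Set G) ∪ DoubleCoset.doubleCoset n (P.B : Set G) P.B) ↔ ∃ s ∈ P.S, s⁻¹ * n ∈ P.B := by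
  have hC := H6.BN.C_pr P ⟨n, hn⟩
  constructor
  · rintro ⟨H, hH⟩
    have hBH : P.B ≤ H := by
      intro b hb
      have : b ∈ (H : Set G) := by rw [hH]; exact Or.inl hb
      exact this
    have hH2 := H6.BN.eq_parabolic P H hBH
    have hnH : n ∈ H := by
      have : n ∈ (H : Set G) := by
        rw [hH]
        right
        rw [← hC]
        exact H6.BN.mem_C_pr P ⟨n, hn⟩
      exact this
    obtain ⟨L, h1, h2⟩ := (H6.BN.genInv P).exists_isRed (H6.BN.pr P ⟨n, hn⟩)
    have h3 := H6.BN.letters_in' P H hBH L _ h1 h2 hnH
    cases L with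
    | nil => exact absurd ((H6.BN.pr_eq_one_iff P).1 h2.symm) hnB
    | cons i L =>
      have hi := h3 i (by simp)
      have hi' : (i : G) ∈ (H : Set G) := hi
      rw [hH] at hi'
      rcases hi' with h | h
      · exact absurd h (H6.BN.sm_not_mem_B P i)
      · rw [← hC] at h
        have := H6.BN.C_unique P (H6.BN.sm_mem_C P i) h
        exact ⟨i, i.2, (H6.BN.pr_eq_iff P).1 this⟩
  · rintro ⟨s, hs, h⟩
    refine ⟨P.parabolic {s}, ?_⟩
    have hs' : ({s} : Set G) ⊆ P.S := by simpa using hs
    have e : H6.BN.pr P ⟨n, hn⟩ = H6.BN.sm P ⟨s, hs⟩ := ((H6.BN.pr_eq_iff P).2 h).symm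
    rw [← hC, e]
    have hW : ∀ w, w ∈ H6.BN.WJ P {s} ↔ w = 1 ∨ w = H6.BN.sm P ⟨s, hs⟩ := by
      intro w
      constructor
      · intro hw
        unfold H6.BN.WJ at hw
        induction hw using Subgroup.closure_induction with
        | mem x hx =>
          obtain ⟨i, hi, rfl⟩ := hx
          right
          congr 1
          exact Subtype.ext hi
        | one => left; rfl
        | mul x y _ _ hx hy =>
          rcases hx with rfl | rfl <;> rcases hy with rfl | rfl
          · left; simp
          · right; simp
          · right; simp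
          · left; exact (H6.BN.genInv P).sq _
        | inv x _ hx =>
          rcases hx with rfl | rfl
          · left; simp
          · right; exact (H6.BN.genInv P).inv_eq _
      · rintro (rfl | rfl)
        · exact one_mem _
        · exact Subgroup.subset_closure ⟨⟨s, hs⟩, rfl, rfl⟩
    ext g
    obtain ⟨w, hw⟩ := H6.BN.exists_mem_C P g
    have h1 := H6.BN.mem_parabolic_iff P hs' hw
    change g ∈ P.parabolic {s} ↔ _
    rw [h1, hW]
    constructor
    · rintro (rfl | rfl)
      · left; rwa [H6.BN.C_one] at hw
      · right; exact hw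
    · rintro (h | h)
      · left
        apply H6.BN.C_unique P hw
        rw [H6.BN.C_one]; exact h
      · right; exact H6.BN.C_unique P hw h

end Cfsg.Agent.S0321
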