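import Cfsg.Statements.S0322
import Cfsg.Agent.H6.BN2

set_option autoImplicit false
open Cfsg

namespace Cfsg.Agent.S0322

/-- A group with a (B,N)-pair of rank one acts doubly transitively on the left cosets of `B`. -/
theorem result {G : Type*} [Group G] (P : Cfsg.BNPair G) (h : P.rank = 1) : MulAction.IsMultiplyPretransitive G (G ⧸ P.B) 2 := by
  have hne : Nonempty P.S := by
    by_contra hcon
    rw [not_nonempty_iff] at hcon
    have : Nat.card P.S = 0 := Nat.card_of_isEmpty
    rw [Cfsg.BNPair.rank, this] at h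
    omega
  have hsub : Subsingleton P.S := (Nat.card_eq_one_iff_unique.1 h).1
  obtain ⟨s⟩ := hne
  -- every element is in B or B s B
  have hdec : ∀ g : G, g ∉ P.B → g ∈ H6.BN.C P (H6.BN.sm P s) := by
    intro g hg
    obtain ⟨w, hw⟩ := H6.BN.exists_mem_C P g
    have hW : w ∈ Subgroup.closure (Set.range (H6.BN.sm P)) := by
      rw [(H6.BN.genInv P).gen]; trivial
    have : w = 1 ∨ w = H6.BN.sm P s := by
      clear hw
      induction hW using Subgroup.closure_induction with
      | mem x hx =>
        obtain ⟨i, rfl⟩ := hx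
        right
        rw [Subsingleton.elim i s]
      | one => left; rfl
      | mul x y _ _ hx hy =>
        rcases hx with rfl | rfl <;> rcases hy with rfl | rfl
        · left; simp
        · right; simp
        · right; simp
        · left; exact (H6.BN.genInv P).sq _
      | inv x _ hx =>
        rcases hx with rfl | rfl
        · left; simp
        · right; exact (H6.BN.genInv P).inv_eq _
    rcases this with rfl | rfl
    · rw [H6.BN.C_one] at hw
      exact absurd hw hg
    · exact hw
  -- base pair
  have key : ∀ {a b : G ⧸ P.B}, a ≠ b → ∃ g : G, g • ((1 : G) : G ⧸ P.B) = a ∧ g • (((s : G) : G) : G ⧸ P.B) = b := by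
    intro a b hab
    obtain ⟨x, rfl⟩ := QuotientGroup.mk_surjective a
    obtain ⟨y, rfl⟩ := QuotientGroup.mk_surjective b
    have hxy : x⁻¹ * y ∉ P.B := fun h => hab (QuotientGroup.eq.2 h)
    obtain ⟨b, hb, b', hb', e⟩ := H6.BN.C_rel P (hdec _ hxy) (H6.BN.sm_mem_C P s)
    refine ⟨x * b, ?_, ?_⟩
    · rw [MulAction.Quotient.smul_coe]
      rw [smul_eq_mul, mul_one]
      rw [eq_comm, QuotientGroup.eq]
      simpa using hb
    · rw [MulAction.Quotient.smul_coe, smul_eq_mul, QuotientGroup.eq]
      have : y = x * (b * s * b') := by rw [← e]; simp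
      rw [this]
      simpa [mul_assoc] using hb'
  rw [MulAction.is_two_pretransitive_iff]
  intro a b c d hab hcd
  obtain ⟨g, h1, h2⟩ := key hab
  obtain ⟨k, h3, h4⟩ := key hcd
  refine ⟨k * g⁻¹, ?_, ?_⟩
  · rw [← h1, smul_smul, inv_mul_cancel_right, h3]
  · rw [← h2, smul_smul, inv_mul_cancel_right, h4]

end Cfsg.Agent.S0322
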