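import Cfsg.Statements.S0323
import Cfsg.Agent.H6.BN2

set_option autoImplicit false
open scoped Pointwise
open Cfsg

namespace Cfsg.Agent.S0323

/-- A doubly transitive action on a set with at least three points yields a (B,N)-pair of rank one:
`B` is the stabiliser of a point `x`, `N` the setwise stabiliser of a pair `{x, y}`. -/
theorem result {G Ω : Type*} [Group G] [MulAction G Ω]
    (h2 : MulAction.IsMultiplyPretransitive G Ω 2) {x y z : Ω} (hxy : x ≠ y) (hyz : y ≠ z) (hxz : x ≠ z) :
    ∃ P : Cfsg.BNPair G, P.B = MulAction.stabilizer G x ∧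
      P.N = MulAction.stabilizer G ({x, y} : Set Ω) ∧ P.rank = 1 := by
  rw [MulAction.is_two_pretransitive_iff] at h2
  obtain ⟨s, hsx, hsy⟩ := h2 hxy hxy.symm
  have hN : ∀ g : G, g ∈ MulAction.stabilizer G ({x, y} : Set Ω) ↔
      (g • x = x ∧ g • y = y) ∨ (g • x = y ∧ g • y = x) := by
    intro g
    rw [MulAction.mem_stabilizer_iff]
    constructor
    · intro h
      have hx : g • x ∈ ({x, y} : Set Ω) := by
        rw [← h]; exact Set.smul_mem_smul_set (by simp)
      have hy : g • y ∈ ({x, y} : Set Ω) := by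
        rw [← h]; exact Set.smul_mem_smul_set (by simp)
      have hne : g • x ≠ g • y := fun h => hxy (MulAction.injective g h)
      simp only [Set.mem_insert_iff, Set.mem_singleton_iff] at hx hy
      rcases hx with hx | hx <;> rcases hy with hy | hy
      · exact absurd (hx.trans hy.symm) hne
      · left; exact ⟨hx, hy⟩
      · right; exact ⟨hx, hy⟩
      · exact absurd (hx.trans hy.symm) hne
    · rintro (⟨h1, h2⟩ | ⟨h1, h2⟩)
      · rw [Set.smul_set_insert, Set.smul_set_singleton, h1, h2]
      · rw [Set.smul_set_insert, Set.smul_set_singleton, h1, h2, Set.pair_comm]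
  have hsN : s ∈ MulAction.stabilizer G ({x, y} : Set Ω) := (hN s).2 (Or.inr ⟨hsx, hsy⟩)
  have hss : s * s ∈ MulAction.stabilizer G x := by
    rw [MulAction.mem_stabilizer_iff, mul_smul, hsx, hsy]
  -- G = B ∪ B s B
  have hdec : ∀ g : G, g ∉ MulAction.stabilizer G x → ∀ n : G, n • x = y → ∃ b ∈ MulAction.stabilizer G x,
      ∃ b' ∈ MulAction.stabilizer G x, g = b * n * b' := by
    intro g hg n hn
    rw [MulAction.mem_stabilizer_iff] at hg
    obtain ⟨b, hb1, hb2⟩ := h2 hxy (fun h => hg h.symm : x ≠ g • x)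
    refine ⟨b, hb1, (b * n)⁻¹ * g, ?_, by group⟩
    rw [MulAction.mem_stabilizer_iff, mul_smul, inv_smul_eq_iff, mul_smul, hn, hb2]
  have hmem : ∀ {g : G}, g ∈ MulAction.stabilizer G x ↔ g • x = x := MulAction.mem_stabilizer_iff
  refine ⟨
    { B := MulAction.stabilizer G x
      N := MulAction.stabilizer G ({x, y} : Set Ω)
      S := {s}
      sup_eq_top := ?_
      conj_mem := ?_
      subset := by simpa using hsN
      sq_mem := by rintro _ rfl; exact hss
      inj := by rintro _ rfl _ rfl _; rfl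
      closure_sup := ?_
      mul_mem_union := ?_
      conj_ne := ?_ }, rfl, rfl, ?_⟩
  · rw [eq_top_iff]
    rintro g -
    by_cases hg : g ∈ MulAction.stabilizer G x
    · exact (le_sup_left : MulAction.stabilizer G x ≤ _) hg
    · obtain ⟨b, hb, b', hb', rfl⟩ := hdec g hg s hsx
      exact mul_mem (mul_mem ((le_sup_left : MulAction.stabilizer G x ≤ _) hb)
        ((le_sup_right : MulAction.stabilizer G ({x, y} : Set Ω) ≤ _) hsN))
        ((le_sup_left : MulAction.stabilizer G x ≤ _) hb')
  · rintro n hn t ⟨ht1, ht2⟩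
    replace ht1 : t • x = x := ht1
    have ht3 : t • y = y := by
      rcases (hN t).1 ht2 with h | h
      · exact h.2
      · exact absurd (ht1.symm.trans h.1) hxy
    rw [hmem, mul_smul, mul_smul]
    rcases (hN n).1 hn with h | h
    · have : n⁻¹ • x = x := by rw [inv_smul_eq_iff, h.1]
      rw [this, ht1, h.1]
    · have : n⁻¹ • x = y := by rw [inv_smul_eq_iff, h.2]
      rw [this, ht3, h.2]
  · apply le_antisymm
    · refine sup_le ((Subgroup.closure_le _).2 (by simpa using hsN)) inf_le_right
    · intro n hn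
      have hTle : (MulAction.stabilizer G x ⊓ MulAction.stabilizer G ({x, y} : Set Ω)) ≤
        Subgroup.closure {s} ⊔ (MulAction.stabilizer G x ⊓ MulAction.stabilizer G ({x, y} : Set Ω)) := le_sup_right
      rcases (hN n).1 hn with h | h
      · exact hTle ⟨hmem.2 h.1, hn⟩
      · have h1 : s⁻¹ * n ∈ (MulAction.stabilizer G x ⊓ MulAction.stabilizer G ({x, y} : Set Ω)) := by
          refine Subgroup.mem_inf.2 ⟨?_, mul_mem (inv_mem hsN) hn⟩
          rw [hmem, mul_smul, inv_smul_eq_iff, h.1, hsx]
        have h2 : s ∈ Subgroup.closure {s} ⊔ (MulAction.stabilizer G x ⊓ MulAction.stabilizer G ({x, y} : Set Ω)) :=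
          (le_sup_left : Subgroup.closure {s} ≤ _) (Subgroup.subset_closure rfl)
        have := mul_mem h2 (hTle h1)
        simpa using this
  · intro s' hs' n hn b hb
    rw [Set.mem_singleton_iff] at hs'
    rw [hs']
    clear hs' s'
    rw [hmem] at hb
    rw [DoubleCoset.doubleCoset, DoubleCoset.doubleCoset]
    rcases (hN n).1 hn with h | h
    · left
      have h1 : s * b * n ∉ MulAction.stabilizer G x := by
        rw [hmem, mul_smul, mul_smul, h.1, hb, hsx]; exact hxy.symm
      obtain ⟨b1, hb1, b2, hb2, e⟩ := hdec _ h1 (s * n) (by rw [mul_smul, h.1, hsx])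
      rw [Set.mem_mul]
      refine ⟨b1 * (s * n), ?_, b2, hb2, e.symm⟩
      exact Set.mem_mul.2 ⟨b1, hb1, s * n, rfl, rfl⟩
    · by_cases h1 : s * b * n ∈ MulAction.stabilizer G x
      · left
        rw [Set.mem_mul]
        have h3 : s * n ∈ MulAction.stabilizer G x := by
          rw [hmem, mul_smul, h.1, hsy]
        refine ⟨1 * (s * n), Set.mem_mul.2 ⟨1, one_mem (MulAction.stabilizer G x), s * n, rfl, rfl⟩,
          (s * n)⁻¹ * (s * b * n), mul_mem (inv_mem h3) h1, by group⟩
      · right
        obtain ⟨b1, hb1, b2, hb2, e⟩ := hdec _ h1 n h.1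
        rw [Set.mem_mul]
        refine ⟨b1 * n, ?_, b2, hb2, e.symm⟩
        exact Set.mem_mul.2 ⟨b1, hb1, n, rfl, rfl⟩
  · intro s' hs'
    rw [Set.mem_singleton_iff] at hs'
    rw [hs']
    clear hs' s'
    intro heq
    obtain ⟨b, hb1, hb2⟩ := h2 hxy hxz
    have : s * b * s ∈ (fun b : G => s * b * s) '' (MulAction.stabilizer G x : Set G) := ⟨b, hmem.2 hb1, rfl⟩
    rw [heq, SetLike.mem_coe, hmem, mul_smul, mul_smul, hsx, hb2] at this
    have : s • z = s • y := by rw [this, hsy]
    exact hyz (MulAction.injective s this).symm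
  · rw [Cfsg.BNPair.rank]
    simp

end Cfsg.Agent.S0323
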