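import Cfsg.Statements.S0326

set_option autoImplicit false
open Cfsg

namespace Cfsg.Agent.S0326

theorem mk_eq_iff {F : Type*} [Field F] {v w : Fin 4 → F} (hv : v ≠ 0) (hw : w ≠ 0) :
    Projectivization.mk F v hv = Projectivization.mk F w hw ↔ ∃ a : F, a ≠ 0 ∧ a • w = v := by
  rw [Projectivization.mk_eq_mk_iff']
  constructor
  · rintro ⟨a, ha⟩
    refine ⟨a, ?_, ha⟩
    rintro rfl
    rw [zero_smul] at ha
    exact hv ha.symm
  · rintro ⟨a, _, ha⟩
    exact ⟨a, ha⟩

/-- The Suzuki–Tits ovoid over a finite field with `q` elements has `q² + 1` points. -/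
theorem result {F : Type*} [Field F] [Fintype F] (m : ℕ) :
    Nat.card (Cfsg.suzukiOvoid F m) = Fintype.card F ^ 2 + 1 := by
  classical
  have h3 : ∀ x y z : F, (![z, y, x, 1] : Fin 4 → F) ≠ 0 := by
    intro x y z h
    have := congrFun h 3
    simp at this
  have h0 : (![1, 0, 0, 0] : Fin 4 → F) ≠ 0 := by
    intro h
    have := congrFun h 0
    simp at this
  let f : Option (F × F) → Cfsg.suzukiOvoid F m := fun o =>
    match o with
    | none => ⟨Projectivization.mk F ![1, 0, 0, 0] h0, ![1, 0, 0, 0], h0, rfl, Or.inl rfl⟩
    | some (x, y) => ⟨Projectivization.mk F ![x * y + x ^ (2 ^ (m + 1) + 2) + y ^ (2 ^ (m + 1)), y, x, 1] (h3 _ _ _),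
        _, h3 _ _ _, rfl, Or.inr ⟨x, y, rfl⟩⟩
  have hf : Function.Bijective f := by
    constructor
    · intro a b hab
      match a, b, hab with
      | none, none, _ => rfl
      | none, some (x, y), h =>
        exfalso
        have h := congrArg Subtype.val h
        dsimp only [f] at h
        rw [mk_eq_iff] at h
        obtain ⟨a, ha, h⟩ := h
        have := congrFun h 3
        simp at this
        exact ha this
      | some (x, y), none, h =>
        exfalso
        have h := congrArg Subtype.val h
        dsimp only [f] at h
        rw [mk_eq_iff] at h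
        obtain ⟨a, ha, h⟩ := h
        have := congrFun h 3
        simp at this
      | some (x, y), some (x', y'), h =>
        have h := congrArg Subtype.val h
        dsimp only [f] at h
        rw [mk_eq_iff] at h
        obtain ⟨a, ha, h⟩ := h
        have e3 := congrFun h 3
        have e2 := congrFun h 2
        have e1 := congrFun h 1
        simp at e3 e2 e1
        subst e3
        simp at e1 e2
        rw [e1, e2]
    · rintro ⟨p, v, hv, rfl, h | ⟨x, y, h⟩⟩
      · refine ⟨none, ?_⟩
        apply Subtype.ext
        subst h
        rfl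
      · refine ⟨some (x, y), ?_⟩
        apply Subtype.ext
        subst h
        rfl
  rw [← Nat.card_congr (Equiv.ofBijective f hf)]
  rw [Nat.card_eq_fintype_card, Fintype.card_option, Fintype.card_prod, sq]

end Cfsg.Agent.S0326
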