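import Cfsg.Statements.S0328
import Cfsg.Agent.H20.Suzuki3

set_option autoImplicit false
open Cfsg


namespace Cfsg.Agent.S0328


open Cfsg.Agent.H20.Suz in
/-- The stabiliser in the Suzuki group of the two ovoid points spanned by `(1,0,0,0)` and `(0,0,0,1)` is
isomorphic to the multiplicative group of the field (cyclic of order `q - 1`). -/
theorem result {F : Type*} [Field F] [Fintype F] {m : ℕ} (hm : 1 ≤ m)
    (hF : Fintype.card F = 2 ^ (2 * m + 1)) :
    Nonempty (↥(MulAction.stabilizer (Cfsg.Sz F m) (Cfsg.suzukiPointInfinity F) ⊓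
        MulAction.stabilizer (Cfsg.Sz F m) (Cfsg.suzukiPointZero F)) ≃* Fˣ) := by
  have h := sf_of_card hm hF
  let f : Fˣ →* ↥(MulAction.stabilizer (Sz F m) (suzukiPointInfinity F) ⊓
        MulAction.stabilizer (Sz F m) (suzukiPointZero F)) :=
    { toFun := fun k => ⟨⟨D m k, D_mem h k⟩, by
        refine ⟨D_none k, ?_⟩
        change _ ∈ MulAction.stabilizer (Sz F m) (suzukiPointZero F)
        rw [mem_stab_zero_iff]
        change D m k • _ = _
        rw [D_some h]; simp⟩
      map_one' := Subtype.ext (Subtype.ext D_one)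
      map_mul' := fun k l => Subtype.ext (Subtype.ext (D_mul k l).symm) }
  have hf : Function.Bijective f := by
    constructor
    · intro k l hkl
      exact D_injective h (congrArg (fun z => ((z : Sz F m) : Matrix.SpecialLinearGroup (Fin 4) F)) (congrArg Subtype.val hkl))
    · rintro ⟨⟨g, hg⟩, h1, h2⟩
      obtain ⟨k, hk⟩ := stab_two h hg (mem_stab_inf_iff.mp h1) (mem_stab_zero_iff.mp h2)
      exact ⟨k, Subtype.ext (Subtype.ext hk.symm)⟩
  exact ⟨(MulEquiv.ofBijective f hf).symm⟩


end Cfsg.Agent.S0328
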