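import Cfsg.Statements.S0335
import Cfsg.Agent.H20.Suzuki3

set_option autoImplicit false
open Cfsg


namespace Cfsg.Agent.S0335


open Cfsg.Agent.H20.Suz in
/-- The Suzuki–Tits point set is an ovoid: any three distinct points of it are projectively independent
(no line of projective 3-space meets it in more than two points). -/
theorem result {F : Type*} [Field F] [Fintype F] {m : ℕ} (hm : 1 ≤ m)
    (hF : Fintype.card F = 2 ^ (2 * m + 1)) (p : Fin 3 ↪ Cfsg.suzukiOvoid F m) :
    Projectivization.Independent (fun i => (p i : Projectivization F (Fin 4 → F))) := by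
  have h := sf_of_card hm hF
  obtain ⟨o0, ho0⟩ := mem_ovoid.mp (p 0).2
  obtain ⟨o1, ho1⟩ := mem_ovoid.mp (p 1).2
  obtain ⟨o2, ho2⟩ := mem_ovoid.mp (p 2).2
  have h01 : o0 ≠ o1 := by
    rintro rfl
    have := p.injective (Subtype.ext (ho0.trans ho1.symm))
    exact absurd this (by decide)
  have h02 : o0 ≠ o2 := by
    rintro rfl
    have := p.injective (Subtype.ext (ho0.trans ho2.symm))
    exact absurd this (by decide)
  have h12 : o1 ≠ o2 := by
    rintro rfl
    have := p.injective (Subtype.ext (ho1.trans ho2.symm))
    exact absurd this (by decide)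
  obtain ⟨g, hg, hg0, hg1⟩ := two_trans h h01
  obtain ⟨o, hg2⟩ := smul_P_exists hg o2
  rcases o with _ | ⟨x, y⟩
  · exfalso
    rw [← hg0] at hg2
    exact h02 (P_injective (smul_left_cancel g hg2)).symm
  have hxy : ¬ (x = 0 ∧ y = 0) := by
    rintro ⟨rfl, rfl⟩
    rw [← hg1] at hg2
    exact h12 (P_injective (smul_left_cancel g hg2)).symm
  let v : Fin 3 → (Fin 4 → F) := ![vec m none, vec m (some (0, 0)), vec m (some (x, y))]
  let w : Fin 3 → (Fin 4 → F) := fun i => g⁻¹ • v i
  have hv : ∀ i, v i ≠ 0 := by
    intro i
    fin_cases i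
    · exact vec_ne (m := m) (none : Option (F × F))
    · exact vec_ne (m := m) (some ((0 : F), (0 : F)))
    · exact vec_ne (m := m) (some (x, y))
  have hw : ∀ i, w i ≠ 0 := fun i => (smul_ne_zero_iff_ne _).mpr (hv i)
  have hpw : (fun i => (p i : Projectivization F (Fin 4 → F))) = fun i => Projectivization.mk F (w i) (hw i) := by
    funext i
    have h1 : Projectivization.mk F (w i) (hw i) = g⁻¹ • Projectivization.mk F (v i) (hv i) := rfl
    rw [h1, eq_inv_smul_iff]
    fin_cases i
    · change g • (p 0 : Projectivization F (Fin 4 → F)) = P m none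
      rw [ho0]; exact hg0
    · change g • (p 1 : Projectivization F (Fin 4 → F)) = P m (some (0, 0))
      rw [ho1]; exact hg1
    · change g • (p 2 : Projectivization F (Fin 4 → F)) = P m (some (x, y))
      rw [ho2]; exact hg2
  rw [hpw]
  have hlin : LinearIndependent F v := by
    rw [Fintype.linearIndependent_iff]
    intro c hc
    rw [Fin.sum_univ_three] at hc
    have e0 := congrFun hc 0
    have e1 := congrFun hc 1
    have e2 := congrFun hc 2
    have e3 := congrFun hc 3
    simp [v, vec, ff_zero] at e0 e1 e2 e3
    have hc2 : c 2 = 0 := by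
      by_contra hne
      exact hxy ⟨e2.resolve_left hne, e1.resolve_left hne⟩
    rw [hc2] at e0 e3
    simp at e0 e3
    intro i
    fin_cases i
    · exact e0
    · exact e3
    · exact hc2
  have hlinw : LinearIndependent F w := by
    have := hlin.map' (DistribMulAction.toLinearEquiv F (Fin 4 → F) g⁻¹).toLinearMap (LinearEquiv.ker _)
    exact this
  exact Projectivization.Independent.mk w hw hlinw


end Cfsg.Agent.S0335
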