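import Cfsg.Statements.S0344
import Cfsg.Agent.H20.ZSharp5

set_option autoImplicit false
open Cfsg


namespace Cfsg.Agent.S0344

/-- A finite simple Zassenhaus group with a two-point stabiliser of even order is isomorphic to `PSL₂(F)` for a finite
field `F` with more than three elements. -/
theorem result {G Ω : Type*} [Group G] [Finite G] [MulAction G Ω] [Finite Ω]
    (hZ : Cfsg.IsZassenhausGroup G Ω) [IsSimpleGroup G]
    {a b : Ω} (hab : a ≠ b) (heven : Even (Nat.card ↥(MulAction.stabilizer G a ⊓ MulAction.stabilizer G b))) :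
    ∃ (F : Type) (_ : Field F) (_ : Fintype F), 3 < Fintype.card F ∧ Nonempty (G ≃* Matrix.ProjectiveSpecialLinearGroup (Fin 2) F) := by
  have hcard := H20.Zass.card_of_simple_even hZ hab heven
  obtain ⟨F, i1, i2, -, hF, hiso⟩ := H20.Zass.psl_of_even hZ hab heven hcard
  refine ⟨F, i1, i2, ?_, hiso⟩
  have hpos : 0 < Nat.card ↥(MulAction.stabilizer G a ⊓ MulAction.stabilizer G b) :=
    Nat.card_pos
  obtain ⟨k, hk⟩ := heven
  omega


end Cfsg.Agent.S0344
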