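import Cfsg.Statements.S0345
import Cfsg.Agent.H20.ZSharp5

set_option autoImplicit false
open Cfsg


namespace Cfsg.Agent.S0345

/-- In a finite simple Zassenhaus group the stabiliser `H` of two points `a ≠ b` is cyclic, and some involution
interchanging `a` and `b` inverts every element of `H`. -/
theorem result {G Ω : Type*} [Group G] [Finite G] [MulAction G Ω] [Finite Ω]
    (hZ : Cfsg.IsZassenhausGroup G Ω) [IsSimpleGroup G]
    {a b : Ω} (hab : a ≠ b) :
    IsCyclic ↥(MulAction.stabilizer G a ⊓ MulAction.stabilizer G b) ∧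
      ∃ v : G, orderOf v = 2 ∧ v • a = b ∧ v • b = a ∧ ∀ h ∈ MulAction.stabilizer G a ⊓ MulAction.stabilizer G b, v * h * v⁻¹ = h⁻¹ := by
  obtain ⟨t, ht1, ht2, hta, htb⟩ := H20.Zass.exists_involution_swap hZ hab
  have hord : orderOf t = 2 := orderOf_eq_prime (by rw [pow_two, ht2]) ht1
  rcases Nat.even_or_odd (Nat.card ↥(MulAction.stabilizer G a ⊓
      MulAction.stabilizer G b)) with heven | hodd
  · obtain ⟨h1, h2⟩ := H20.Zass.even_struct hZ hab heven
      (H20.Zass.card_of_simple_even hZ hab heven)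
    exact ⟨h2, t, hord, hta, htb, (h1 t hta htb).2⟩
  · obtain ⟨h1, h2⟩ := H20.Zass.two_pt_cyclic hZ hab hodd
      (H20.Zass.simple_no_complement hZ hodd)
    exact ⟨h1, t, hord, hta, htb, h2 t hta htb⟩


end Cfsg.Agent.S0345
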