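import Cfsg.Statements.S0346
import Cfsg.Agent.H20.ZCoh6

set_option autoImplicit false
open Cfsg


namespace Cfsg.Agent.S0346

/-- The number of points of a finite simple Zassenhaus group is `p^k + 1` for some prime power `p^k` (the regular normal
subgroup of a point stabiliser is a `p`-group). -/
theorem result {G Ω : Type*} [Group G] [Finite G] [MulAction G Ω] [Fintype Ω]
    (hZ : Cfsg.IsZassenhausGroup G Ω) [IsSimpleGroup G] :
    IsPrimePow (Fintype.card Ω - 1) := by
  obtain ⟨a, b, hab⟩ := H20.Zass.exists_ne_pts hZ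
  have hK := H20.Zass.card_K hZ a
  have h3 := H20.Zass.three_le_card hZ
  rw [Nat.card_eq_fintype_card (α := Ω)] at hK h3
  have hcard : Fintype.card Ω - 1 = Nat.card (H20.Zass.K hZ a) := by omega
  rw [hcard]
  have hfin : ∀ p f : ℕ, p.Prime → Nat.card (H20.Zass.K hZ a) = p ^ f →
      IsPrimePow (Nat.card (H20.Zass.K hZ a)) := by
    intro p f hp hf
    have hf0 : f ≠ 0 := by
      rintro rfl
      rw [pow_zero] at hf
      omega
    rw [isPrimePow_nat_iff]
    exact ⟨p, f, hp, Nat.pos_of_ne_zero hf0, hf.symm⟩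
  have hmain : Nat.card Ω - 2 ≤ 2 * Nat.card ↥(MulAction.stabilizer G a ⊓
      MulAction.stabilizer G b) → IsPrimePow (Nat.card (H20.Zass.K hZ a)) := by
    intro h4
    obtain ⟨-, p, f, hp, -, hf⟩ := H20.Zass.K_elementary hZ hab h4
    exact hfin p f hp hf
  rcases Nat.even_or_odd (Nat.card ↥(MulAction.stabilizer G a ⊓
      MulAction.stabilizer G b)) with he | ho
  · exact hmain (H20.Zass.card_le_of_even hZ hab he)
  · rcases H20.Zass.feit _ hZ le_rfl hab ho with h4 | ⟨h4, -, -⟩
    · exact hmain h4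
    · haveI : Fact (Nat.Prime 2) := ⟨Nat.prime_two⟩
      obtain ⟨n, hn⟩ := IsPGroup.iff_card.mp h4
      exact hfin 2 n Nat.prime_two hn


end Cfsg.Agent.S0346
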