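import Cfsg.Statements.S0350
import Cfsg.Agent.H29.Steiner

set_option autoImplicit false
open Cfsg

namespace Cfsg.Agent.S0350

/-- Counting pairs (t-subset, block containing it) in two ways: the number of blocks of a Steiner system with parameters (t, k, v), multiplied by C(k, t), equals C(v, t). -/
theorem result {α : Type*} [Fintype α] [DecidableEq α] {t k : ℕ} {B : Set (Finset α)} (hB : Cfsg.IsSteinerSystem t k B) : B.ncard * Nat.choose k t = Nat.choose (Fintype.card α) t := by
  have h := Cfsg.Agent.H29.sum_choose_inter B Finset.univ t
  rw [Finset.sum_congr rfl (g := fun _ => k.choose t), Finset.sum_const, smul_eq_mul] at h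
  · rw [Finset.sum_congr rfl (g := fun _ => 1), Finset.sum_const, Finset.card_powersetCard,
      Finset.card_univ, smul_eq_mul, mul_one] at h
    · rw [← h]
      congr 1
      rw [← Set.ncard_coe_finset]
      congr 1
      ext b
      simp [Cfsg.Agent.H29.mem_blk]
    · intro T hT
      exact Cfsg.Agent.H29.nb_top hB (Finset.mem_powersetCard.mp hT).2
  · intro b hb
    rw [Finset.inter_univ, hB.1 b (Cfsg.Agent.H29.mem_blk.mp hb)]

end Cfsg.Agent.S0350
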