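import Cfsg.Statements.S0351
import Cfsg.Agent.H29.Steiner

set_option autoImplicit false
open Cfsg

namespace Cfsg.Agent.S0351

/-- Derived design: removing a point p from the blocks through p of an S(t+1, k+1, v) yields an S(t, k, v-1) on the points other than p. -/
theorem result {α : Type*} [Fintype α] [DecidableEq α] {t k : ℕ} {B : Set (Finset α)} (hB : Cfsg.IsSteinerSystem (t + 1) (k + 1) B) (p : α) : Cfsg.IsSteinerSystem t k {b' : Finset {a : α // a ≠ p} | ∃ b ∈ B, p ∈ b ∧ b' = Finset.subtype (fun a => a ≠ p) b} := by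
  constructor
  · rintro b' ⟨b, hb, hpb, rfl⟩
    have h1 := hB.1 b hb
    rw [Finset.card_subtype]
    have h2 : b.filter (fun a => a ≠ p) = b.erase p := by
      ext x; simp [and_comm]
    rw [h2, Finset.card_erase_of_mem hpb, h1]
    rfl
  · intro S hS
    set S' : Finset α := S.map (Function.Embedding.subtype _) with hS'
    have hp : p ∉ S' := by
      intro h
      rw [hS', Finset.mem_map] at h
      obtain ⟨a, _, ha⟩ := h
      exact a.2 ha
    have hc : (insert p S').card = t + 1 := by
      rw [Finset.card_insert_of_notMem hp, hS', Finset.card_map, hS]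
    obtain ⟨b, ⟨hb, hSb⟩, hu⟩ := hB.2 _ hc
    refine ⟨Finset.subtype (fun a => a ≠ p) b, ⟨⟨b, hb, hSb (Finset.mem_insert_self _ _), rfl⟩, ?_⟩, ?_⟩
    · intro a ha
      rw [Finset.mem_subtype]
      apply hSb
      apply Finset.mem_insert_of_mem
      rw [hS', Finset.mem_map]
      exact ⟨a, ha, rfl⟩
    · rintro b' ⟨⟨c, hc, hpc, rfl⟩, hSc⟩
      rw [hu c ⟨hc, ?_⟩]
      intro x hx
      rw [Finset.mem_insert] at hx
      rcases hx with rfl | hx
      · exact hpc
      · rw [hS', Finset.mem_map] at hx
        obtain ⟨a, ha, rfl⟩ := hx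
        have := hSc ha
        rw [Finset.mem_subtype] at this
        exact this

end Cfsg.Agent.S0351
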