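import Cfsg.Statements.S0358
import Cfsg.Agent.H7.GolayBits

set_option autoImplicit false
open Cfsg

namespace Cfsg.Agent.S0358

open Cfsg.Agent.H7 in
theorem aux_card : Nat.card golayCode = 4096 := by
  have e : golayCode ≃ Fin 4096 := by
    refine Equiv.symm (Equiv.ofBijective (fun a : Fin 4096 => (⟨word (enc a), enc_mem a⟩ : golayCode)) ⟨?_, ?_⟩)
    · intro a b h
      have h1 : word (enc a) = word (enc b) := congrArg Subtype.val h
      have h2 := word_inj (enc_lt _) (enc_lt _) h1
      apply Fin.ext
      rw [← enc_mod_all a a.2, ← enc_mod_all b b.2, h2]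
    · rintro ⟨w, hw⟩
      obtain ⟨a, ha, rfl⟩ := exists_enc_of_mem hw
      exact ⟨⟨a, ha⟩, rfl⟩
  rw [Nat.card_congr e]; simp

/-- The length-24 code built from the squares modulo 23 has dimension 12 over the field with two elements. -/
theorem result : Module.finrank (ZMod 2) Cfsg.golayCode = 12 := by
  have h := aux_card
  rw [Module.natCard_eq_pow_finrank (K := ZMod 2)] at h
  simp only [Nat.card_eq_fintype_card, ZMod.card] at h
  exact Nat.pow_right_injective (le_refl 2) (h.trans (by norm_num : (4096:ℕ) = 2 ^ 12))

end Cfsg.Agent.S0358
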