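import Cfsg.Statements.S0362
import Cfsg.Agent.H7.GolayBits

set_option autoImplicit false
open Cfsg

namespace Cfsg.Agent.S0362

open Cfsg.Agent.H7 in
theorem aux_rows : ∀ r ∈ gRows, ∀ r' ∈ gRows, popc (r &&& r') % 2 = 0 := by decide +kernel

open Cfsg.Agent.H7 in
theorem aux_sum (a b : ℕ) : ∑ i, word a i * word b i = ((popc (a &&& b) : ℕ) : ZMod 2) := by
  rw [← card_toSet, toSet_and]
  have h : ∀ i, word a i * word b i = if i ∈ toSet a ∩ toSet b then 1 else 0 := by
    intro i
    simp only [Finset.mem_inter, mem_toSet]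
    unfold word
    by_cases h1 : a.testBit (gidx i) = true <;> by_cases h2 : b.testBit (gidx i) = true <;> simp [h1, h2]
  simp only [h, Finset.sum_boole]
  congr 2
  ext i; simp

open Cfsg.Agent.H7 in
theorem aux_bil (l l' : List ℕ) (h : ∀ r ∈ l, ∀ r' ∈ l', ∑ i, word r i * word r' i = (0 : ZMod 2))
    (a b : ℕ) : ∑ i, word (encL l a) i * word (encL l' b) i = (0 : ZMod 2) := by
  induction l generalizing a with
  | nil => simp [encL, word_zero]
  | cons r rs ih =>
    rw [encL, word_xor]
    simp only [Pi.add_apply, add_mul, Finset.sum_add_distrib]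
    rw [ih (fun r hr => h r (by simp [hr])), add_zero]
    split_ifs
    · have h' := h r (by simp)
      clear h ih
      induction l' generalizing b with
      | nil => simp [encL, word_zero]
      | cons r' rs' ih' =>
        rw [encL, word_xor]
        simp only [Pi.add_apply, mul_add, Finset.sum_add_distrib]
        rw [ih' (b / 2) (fun r hr => h' r (by simp [hr])), add_zero]
        split_ifs
        · exact h' r' (by simp)
        · simp [word_zero]
    · simp [word_zero]

/-- The length-24 code is self-orthogonal: the dot product over ZMod 2 of any two of its words vanishes (with dimension 12 this makes it self-dual). -/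
theorem result (v w : Cfsg.GolayPt → ZMod 2) (hv : v ∈ Cfsg.golayCode) (hw : w ∈ Cfsg.golayCode) : ∑ i, v i * w i = 0 := by
  obtain ⟨a, _, rfl⟩ := Cfsg.Agent.H7.exists_enc_of_mem hv
  obtain ⟨b, _, rfl⟩ := Cfsg.Agent.H7.exists_enc_of_mem hw
  apply aux_bil
  intro r hr r' hr'
  rw [aux_sum]
  have := aux_rows r hr r' hr'
  exact (ZMod.natCast_eq_zero_iff _ _).mpr (Nat.dvd_of_mod_eq_zero this)

end Cfsg.Agent.S0362
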