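import Cfsg.Statements.S0370
import Cfsg.Agent.H7.GolayM24

set_option autoImplicit false
open Cfsg

namespace Cfsg.Agent.S0370

open Cfsg.Agent.H7 in
theorem mem_of_code (σ : Equiv.Perm Cfsg.GolayPt) (c : ℕ) (h : okPerm c = true)
    (h2 : ∀ p, σ p = gpt (papp c (gidx p))) : σ ∈ Cfsg.M24 := by
  have : σ = mkPerm c := by
    ext1 p
    rw [mkPerm_apply (okPerm_isPerm h), h2]
  rw [this]
  exact mkPerm_mem_M24 h

/-- The permutation x ↦ x + 1 of the residues modulo 23, fixing the extra point, lies in the group of the length-24 code. -/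
theorem result : Equiv.optionCongr (Equiv.addRight (1 : ZMod 23)) ∈ Cfsg.M24 := by
  exact mem_of_code _ 0xb82d5a4e5183dcd62d4941cc520c41 (by decide +kernel) (by decide +kernel)

end Cfsg.Agent.S0370
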