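import Cfsg.Statements.S0371
import Cfsg.Agent.H7.GolayM24

set_option autoImplicit false
open Cfsg

namespace Cfsg.Agent.S0371

open Cfsg.Agent.H7 in
theorem mem_of_code (σ : Equiv.Perm Cfsg.GolayPt) (c : ℕ) (h : okPerm c = true)
    (h2 : ∀ p, σ p = gpt (papp c (gidx p))) : σ ∈ Cfsg.M24 := by
  have : σ = mkPerm c := by
    ext1 p
    rw [mkPerm_apply (okPerm_isPerm h), h2]
  rw [this]
  exact mkPerm_mem_M24 h

def mulCodes : List ℕ := [955382621970408283649611324576497664, 984818244535754528103549039458486304, 983435072843990828779021698901151808, 982051901153124072706648311500937312, 980668730378935070469623699575545984, 979285587159793148921706648229619872, 977903326592794432676351619257413824, 976520154928836901415823926747642080, 975166140090675008210365318152896768, 973782968399780250007192978068752672, 972399825208443596621879332945776960, 971016653516707076592351526811687264, 970567384681219435340729552166356352, 969184212989482915311201746032266656, 967801069798146261925888100909290944, 966417898107251503722715760825146848, 965063883269089610517257152230401536, 963680711605132079256729459720629792, 962298451038133363011374430748423744, 960915307818991441463457379402497632,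 959532137044802439226432767477106304, 958148965353935683154059380076891808, 956765793662171983829532039519557312]

open Cfsg.Agent.H7 in
theorem mul_all : ∀ x : ZMod 23, (∃ r : ZMod 23, x = r * r) → x ≠ 0 →
    okPerm (mulCodes.getD x.val 0) = true ∧
      ∀ p : Cfsg.GolayPt, Option.map (fun y => x * y) p =
        gpt (papp (mulCodes.getD x.val 0) (gidx p)) := by
  decide +kernel

/-- Multiplication by a nonzero square residue modulo 23, fixing the extra point, lies in the group of the length-24 code. -/
theorem result (u : (ZMod 23)ˣ) (hu : IsSquare u) : Equiv.optionCongr (Units.mulLeft u) ∈ Cfsg.M24 := by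
  have : Nontrivial (ZMod 23) := ⟨0, 1, by decide⟩
  obtain ⟨r, hr⟩ := hu
  obtain ⟨h1, h2⟩ := mul_all u ⟨r, by rw [hr]; simp⟩ u.ne_zero
  refine mem_of_code _ _ h1 ?_
  intro p
  rw [← h2 p]
  cases p <;> rfl

end Cfsg.Agent.S0371
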