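import Cfsg.Statements.S0384
import Cfsg.Agent.H7.GolayM24c

set_option autoImplicit false
open scoped Pointwise
open Cfsg

namespace Cfsg.Agent.S0384

/-- A dodecad stabiliser is sharply 5-transitive on the dodecad. -/
theorem result (d : Finset Cfsg.GolayPt) (hd : d ∈ Cfsg.dodecads) (x y : Fin 5 ↪ Cfsg.GolayPt) (hx : ∀ i, x i ∈ d) (hy : ∀ i, y i ∈ d) : ∃! g : MulAction.stabilizer Cfsg.M24 d, ∀ i, ((g : Cfsg.M24) : Equiv.Perm Cfsg.GolayPt) (x i) = y i := by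
  obtain ⟨σ, hσ, h1, h2⟩ := Cfsg.Agent.H7.dodecad_map x y x.injective y.injective hd hd hx hy
  refine ⟨⟨⟨σ, hσ⟩, h2⟩, h1, ?_⟩
  rintro ⟨⟨τ, hτ⟩, hτd⟩ hτx
  have hτd' : τ • d = d := hτd
  have hτx' : ∀ i, τ (x i) = y i := hτx
  have h3 : τ⁻¹ * σ = 1 := by
    refine Cfsg.Agent.H7.dodecad_fix hd x x.injective hx (Cfsg.M24.mul_mem (Cfsg.M24.inv_mem hτ) hσ) ?_ ?_
    · intro i
      rw [Equiv.Perm.mul_apply, h1, ← hτx' i]; simp
    · rw [mul_smul, h2]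
      conv_lhs => rw [← hτd']
      rw [inv_smul_smul]
  have h4 : τ = σ := (inv_mul_eq_one.mp h3)
  subst h4
  rfl

end Cfsg.Agent.S0384
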