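import Cfsg.Statements.S0385
import Cfsg.Agent.H7.GolayM24c

set_option autoImplicit false
open Cfsg

namespace Cfsg.Agent.S0385

/-- The 6-point intersections of octads with a fixed dodecad form a Steiner system S(5, 6, 12) on the dodecad. -/
theorem result (d : Finset Cfsg.GolayPt) (hd : d ∈ Cfsg.dodecads) : Cfsg.IsSteinerSystem 5 6 {h : Finset {p : Cfsg.GolayPt // p ∈ d} | ∃ o ∈ Cfsg.octads, (o ∩ d).card = 6 ∧ h = Finset.subtype (fun p => p ∈ d) o} := by
  have key : ∀ o ∈ Cfsg.octads, 5 ≤ (o ∩ d).card → (o ∩ d).card = 6 := by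
    intro o ho h5
    have := Cfsg.Agent.H7.octad_inter_dodecad ho hd
    omega
  have hcard : ∀ o : Finset Cfsg.GolayPt, (Finset.subtype (fun p => p ∈ d) o).card = (o ∩ d).card := by
    intro o
    rw [Finset.card_subtype]
    congr 1
  refine ⟨?_, ?_⟩
  · rintro b ⟨o, ho, h6, rfl⟩
    rw [hcard, h6]
  · intro s hs
    have hs' : (s.map (Function.Embedding.subtype _)).card = 5 := by rw [Finset.card_map, hs]
    obtain ⟨o, ⟨ho, hso⟩, huniq⟩ := Cfsg.Agent.H7.octads_steiner.2 _ hs'
    have hsub : ∀ o : Finset Cfsg.GolayPt, s.map (Function.Embedding.subtype _) ⊆ o ↔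
        s ⊆ Finset.subtype (fun p => p ∈ d) o := by
      intro o
      constructor
      · intro h x hx
        rw [Finset.mem_subtype]
        exact h (Finset.mem_map_of_mem _ hx)
      · intro h x hx
        rw [Finset.mem_map] at hx
        obtain ⟨y, hy, rfl⟩ := hx
        exact Finset.mem_subtype.mp (h hy)
    refine ⟨Finset.subtype (fun p => p ∈ d) o, ⟨⟨o, ho, key o ho ?_, rfl⟩, (hsub o).mp hso⟩, ?_⟩
    · rw [← hcard, ← hs]
      exact Finset.card_le_card ((hsub o).mp hso)
    · rintro b ⟨⟨o', ho', h6, rfl⟩, hs2⟩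
      rw [huniq o' ⟨ho', (hsub o').mpr hs2⟩]

end Cfsg.Agent.S0385
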