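import Cfsg.Statements.S0386
import Cfsg.Agent.H7.GolayM24c

set_option autoImplicit false
open Cfsg

namespace Cfsg.Agent.S0386

open Cfsg.Agent.H7
open scoped Pointwise

theorem count0 (k : ℕ) : {o : Finset Cfsg.GolayPt | o ∈ Cfsg.octads ∧
    (o ∩ toSet dod0).card = k}.ncard = countBin 12 (fun a =>
      Nat.beq (popc (enc a)) 8 && Nat.beq (popc (enc a &&& dod0)) k) 0 := by
  have h : {o : Finset Cfsg.GolayPt | o ∈ Cfsg.octads ∧ (o ∩ toSet dod0).card = k} =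
      ((fun a => toSet (enc a)) '' (((Finset.range (2 ^ 12)).filter fun a =>
        (Nat.beq (popc (enc a)) 8 && Nat.beq (popc (enc a &&& dod0)) k) = true : Finset ℕ) :
        Set ℕ)) := by
    ext s
    simp only [Set.mem_ofPred_eq, Finset.coe_filter, Finset.mem_range, Set.mem_image,
      Bool.and_eq_true, nbeq]
    constructor
    · rintro ⟨h1, h2⟩
      obtain ⟨a, ha, rfl⟩ := mem_GC_iff.mp h1.1
      refine ⟨a, ⟨ha, ?_, ?_⟩, rfl⟩
      · rw [← card_toSet]; exact h1.2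
      · rw [← card_toSet, toSet_and]; exact h2
    · rintro ⟨a, ⟨ha, h1, h2⟩, rfl⟩
      refine ⟨⟨mem_GC_iff.mpr ⟨a, ha, rfl⟩, ?_⟩, ?_⟩
      · rw [card_toSet]; exact h1
      · rw [← toSet_and, card_toSet]; exact h2
  rw [h, Set.InjOn.ncard_image, Set.ncard_coe_finset, ← countBin_range]
  intro a ha b hb h
  simp only [Finset.coe_filter, Finset.mem_range, Set.mem_ofPred_eq] at ha hb
  exact toSet_enc_injOn ha.1 hb.1 h

theorem count1 (d : Finset Cfsg.GolayPt) (hd : d ∈ Cfsg.dodecads) (k : ℕ) :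
    {o : Finset Cfsg.GolayPt | o ∈ Cfsg.octads ∧ (o ∩ d).card = k}.ncard =
    {o : Finset Cfsg.GolayPt | o ∈ Cfsg.octads ∧ (o ∩ toSet dod0).card = k}.ncard := by
  obtain ⟨g, hg, h⟩ := dodecad_transitive dod0_dodecad hd
  rw [← Set.ncard_smul_set g {o : Finset Cfsg.GolayPt | o ∈ Cfsg.octads ∧
    (o ∩ toSet dod0).card = k}]
  congr 1
  ext o
  rw [Set.mem_smul_set]
  constructor
  · rintro ⟨h1, h2⟩
    refine ⟨g⁻¹ • o, ⟨M24_smul_octad (Cfsg.M24.inv_mem hg) h1, ?_⟩, by simp⟩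
    rw [← h2, ← h]
    have e : g⁻¹ • (o ∩ g • toSet dod0) = g⁻¹ • o ∩ toSet dod0 := by
      rw [smul_inter', inv_smul_smul]
    rw [← e, Finset.card_smul_finset]
  · rintro ⟨o', ⟨h1, h2⟩, rfl⟩
    refine ⟨M24_smul_octad hg h1, ?_⟩
    rw [← h, ← smul_inter', Finset.card_smul_finset]; exact h2

/-- For a fixed dodecad, 132 octads meet it in 6 points, 132 in 2 points and 495 in 4 points. -/
theorem result (d : Finset Cfsg.GolayPt) (hd : d ∈ Cfsg.dodecads) : {o : Finset Cfsg.GolayPt | o ∈ Cfsg.octads ∧ (o ∩ d).card = 6}.ncard = 132 ∧ {o : Finset Cfsg.GolayPt | o ∈ Cfsg.octads ∧ (o ∩ d).card = 2}.ncard = 132 ∧ {o : Finset Cfsg.GolayPt | o ∈ Cfsg.octads ∧ (o ∩ d).card = 4}.ncard = 495 := by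
  rw [count1 d hd, count1 d hd, count1 d hd, count0, count0, count0]
  refine ⟨?_, ?_, ?_⟩ <;> decide +kernel

end Cfsg.Agent.S0386
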