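import Cfsg.Statements.S0389
import Cfsg.Agent.H7.GolayM12

set_option autoImplicit false
open scoped Pointwise
open Cfsg

namespace Cfsg.Agent.S0389

open Cfsg.Agent.H7
open scoped Pointwise

def trCodes : List ℕ := [0x2e6aa90724b9106be96398ac886e2, 0xb44ea92124a9e35a2d4398b1602f3, 0x136af9b224a3ad24254b398b01dc01, 0x1da4a800376bd7572514398a29922c, 0x2398f802b76a921b2e88398b310e32, 0x6208d8cc55759575a68f398a00c870, 0x82196254174d1a17ad4e398a298e51, 0x8a21465c415aad373da9398a0ac864, 0x9288e8dc406d9137d12b398b50b203, 0x9a2abbc6506a5eca29d6398a320801, 0xaac54040716a1c44d94f398ac906f3, 0xbd2b614983429716b92f398a484c01]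

theorem tr_ok : (trCodes.all fun c => okPerm c && Nat.beq (pimg c dod0) dod0 &&
    Nat.beq (papp c 5) 5 && Nat.beq (papp c 6) 6 && Nat.beq (papp c 7) 7) = true := by
  decide +kernel

theorem tr_cover : Nat.beq (trCodes.foldr (fun c acc => (1 <<< papp c 23) ||| acc) 0) dod0
    = true := by
  decide +kernel

theorem pts_notin : ∀ i : Fin 3, gpt (5 + i) ∉ toSet dod0 := by decide +kernel

theorem pts_inj : Function.Injective (fun i : Fin 3 => gpt (5 + i)) := by decide +kernel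

/-- elements of the stabiliser of `dod0` fixing three points of the complement and moving
`bp 0` to `q` -/
theorem tr_exists (q : Cfsg.GolayPt) (hq : q ∈ toSet dod0) : ∃ σ ∈ SD,
    (∀ i : Fin 3, σ (gpt (5 + i)) = gpt (5 + i)) ∧ σ (bp 0) = q := by
  rw [mem_toSet, ← nbeq.mp tr_cover, testBit_foldr_or] at hq
  obtain ⟨c, hc, hcq⟩ := hq
  have h := tr_ok
  rw [List.all_eq_true] at h
  have h1 := h c hc
  simp only [Bool.and_eq_true, nbeq] at h1
  obtain ⟨⟨⟨⟨h1, h2⟩, h3⟩, h4⟩, h5⟩ := h1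
  have hp := okPerm_isPerm h1
  refine ⟨mkPerm c, ⟨mkPerm_mem_M24 h1, ?_⟩, ?_, ?_⟩
  · show mkPerm c • toSet dod0 = toSet dod0
    rw [smul_toSet hp, h2]
  · intro i
    rw [mkPerm_gpt hp (by omega)]
    fin_cases i
    · exact congrArg gpt h3
    · exact congrArg gpt h4
    · exact congrArg gpt h5
  · unfold bp
    rw [mkPerm_gpt hp (by decide)]
    have : gBase.getD 0 0 = 23 := rfl
    rw [this, hcq, gpt_gidx]

theorem compl_stab {σ : Equiv.Perm Cfsg.GolayPt} {d d' : Finset Cfsg.GolayPt} (h : σ • d = d') :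
    σ • dᶜ = d'ᶜ := by
  rw [← h]
  ext x
  simp only [← Finset.inv_smul_mem_iff, Finset.mem_compl]

theorem std_map (d : Finset Cfsg.GolayPt) (hd : d ∈ Cfsg.dodecads) (p : Cfsg.GolayPt)
    (hp : p ∈ d) (x : Fin 3 → Cfsg.GolayPt) (hxi : Function.Injective x) (hx : ∀ i, x i ∉ d) :
    ∃ σ ∈ Cfsg.M24, σ • toSet dod0 = d ∧ σ (bp 0) = p ∧ ∀ i : Fin 3, σ (gpt (5 + i)) = x i := by
  obtain ⟨σ, hσ, h1, h2⟩ := dodecad_mapn (n := 3) (by norm_num) (fun i : Fin 3 => gpt (5 + i)) x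
    pts_inj hxi (dodecad_compl dod0_dodecad) (dodecad_compl hd)
    (fun i => Finset.mem_compl.mpr (pts_notin i)) (fun i => Finset.mem_compl.mpr (hx i))
  have h3 : σ • toSet dod0 = d := by
    have := compl_stab h2
    simpa using this
  have h4 : σ⁻¹ p ∈ toSet dod0 := by
    rw [← h3, ← Finset.inv_smul_mem_iff] at hp
    exact hp
  obtain ⟨τ, hτ, h5, h6⟩ := tr_exists _ h4
  refine ⟨σ * τ, Cfsg.M24.mul_mem hσ hτ.1, ?_, ?_, ?_⟩
  · rw [mul_smul]
    have : τ • toSet dod0 = toSet dod0 := hτ.2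
    rw [this, h3]
  · rw [Equiv.Perm.mul_apply, h6]; simp
  · intro i
    rw [Equiv.Perm.mul_apply, h5 i, h1 i]

/-- The stabiliser of a dodecad and a point on it is 3-transitive on the complementary dodecad. -/
theorem result (d : Finset Cfsg.GolayPt) (hd : d ∈ Cfsg.dodecads) (p : Cfsg.GolayPt) (hp : p ∈ d) (x y : Fin 3 ↪ Cfsg.GolayPt) (hx : ∀ i, x i ∉ d) (hy : ∀ i, y i ∉ d) : ∃ g ∈ MulAction.stabilizer Cfsg.M24 d ⊓ MulAction.stabilizer Cfsg.M24 p, ∀ i, (g : Equiv.Perm Cfsg.GolayPt) (x i) = y i := by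
  obtain ⟨σ, hσ, h1, h2, h3⟩ := std_map d hd p hp x x.injective hx
  obtain ⟨τ, hτ, h4, h5, h6⟩ := std_map d hd p hp y y.injective hy
  refine ⟨⟨τ * σ⁻¹, Cfsg.M24.mul_mem hτ (Cfsg.M24.inv_mem hσ)⟩, ⟨?_, ?_⟩, ?_⟩
  · show (τ * σ⁻¹) • d = d
    rw [mul_smul]
    conv_lhs => rw [← h1]
    rw [inv_smul_smul, h4]
  · show (τ * σ⁻¹) p = p
    rw [Equiv.Perm.mul_apply]
    conv_lhs => rw [← h2]
    simp [h5]
  · intro i
    show (τ * σ⁻¹) (x i) = y i
    rw [Equiv.Perm.mul_apply, ← h3 i]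
    simp [h6]

end Cfsg.Agent.S0389
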