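import Cfsg.Statements.S0393
import Cfsg.Agent.H7.Leech

set_option autoImplicit false
open Cfsg

namespace Cfsg.Agent.S0393

open Cfsg.Agent.H7
open Cfsg

abbrev V : Type := GolayPt → ℤ

/-- reduction modulo n -/
def red (n : ℕ) : V →+ (GolayPt → ZMod n) where
  toFun x := fun i => (x i : ZMod n)
  map_zero' := by funext i; simp
  map_add' x y := by funext i; simp

theorem red_surj (n : ℕ) : Function.Surjective (red n) := by
  intro f
  choose g hg using fun i => ZMod.intCast_surjective (f i)
  exact ⟨g, by funext i; exact hg i⟩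

def sumHom : V →+ ZMod 2 where
  toFun x := ((∑ i, x i : ℤ) : ZMod 2)
  map_zero' := by simp
  map_add' x y := by simp [Finset.sum_add_distrib]

theorem sumHom_surj : Function.Surjective sumHom := by
  intro z
  obtain ⟨k, rfl⟩ := ZMod.intCast_surjective z
  refine ⟨Pi.single none k, ?_⟩
  show ((∑ i, (Pi.single none k : V) i : ℤ) : ZMod 2) = k
  rw [Finset.sum_pi_single']
  simp

def four : V →+ V where
  toFun x := 4 • x
  map_zero' := by simp
  map_add' x y := by simp

theorem four_range : four.range = (red 4).ker := by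
  ext x
  rw [AddMonoidHom.mem_range, AddMonoidHom.mem_ker]
  constructor
  · rintro ⟨y, rfl⟩
    funext i
    show (((4 • y : V) i : ℤ) : ZMod 4) = 0
    simp only [Pi.smul_apply, nsmul_eq_mul, Int.cast_mul]
    have : ((4 : ℕ) : ZMod 4) = 0 := by decide
    push_cast at this ⊢
    rw [this, zero_mul]
  · intro h
    have h1 : ∀ i, (4 : ℤ) ∣ x i := fun i =>
      (ZMod.intCast_zmod_eq_zero_iff_dvd (x i) 4).mp (congrFun h i)
    refine ⟨fun i => x i / 4, ?_⟩
    funext i
    show ((4 : ℕ) • (fun i => x i / 4 : V)) i = x i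
    simp only [Pi.smul_apply, nsmul_eq_mul]
    push_cast
    exact Int.mul_ediv_cancel' (h1 i)

/-- `4 y` with `∑ y` even -/
def L00 : AddSubgroup V := (sumHom.ker).map four

theorem L00_index : L00.index = 2 ^ 49 := by
  unfold L00
  rw [AddSubgroup.index_map]
  have h1 : four.ker = ⊥ := by
    rw [AddMonoidHom.ker_eq_bot_iff]
    intro x y h
    funext i
    have := congrFun h i
    have h2 : (4 • x : V) i = (4 • y : V) i := this
    simp only [Pi.smul_apply, nsmul_eq_mul] at h2
    push_cast at h2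
    omega
  rw [h1, sup_bot_eq, four_range, AddSubgroup.index_ker, AddSubgroup.index_ker,
    AddMonoidHom.range_eq_top.mpr sumHom_surj, AddMonoidHom.range_eq_top.mpr (red_surj 4)]
  rw [Nat.card_congr (AddSubgroup.topEquiv).toEquiv, Nat.card_congr (AddSubgroup.topEquiv).toEquiv]
  rw [Nat.card_eq_fintype_card, Nat.card_eq_fintype_card, ZMod.card, Fintype.card_fun, ZMod.card]
  have : Fintype.card GolayPt = 24 := by decide
  rw [this]; norm_num

theorem mem_L00 {x : V} : x ∈ L00 ↔ ∃ y : V, (2 : ℤ) ∣ (∑ i, y i) ∧ ∀ i, x i = 4 * y i := by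
  unfold L00
  rw [AddSubgroup.mem_map]
  constructor
  · rintro ⟨y, hy, rfl⟩
    refine ⟨y, (ZMod.intCast_zmod_eq_zero_iff_dvd _ 2).mp hy, fun i => ?_⟩
    show (4 • y : V) i = 4 * y i
    simp
  · rintro ⟨y, hy, h⟩
    refine ⟨y, (ZMod.intCast_zmod_eq_zero_iff_dvd _ 2).mpr hy, ?_⟩
    funext i
    show (4 • y : V) i = x i
    rw [h i]; simp

/-- the even part of the Leech lattice -/
def L0 : AddSubgroup V := leechLattice ⊓ (red 2).ker

theorem mem_L0 {x : V} : x ∈ L0 ↔ ∃ s y, LP x 0 s y := by
  constructor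
  · rintro ⟨h1, h2⟩
    rcases mem_leech_cases.mp h1 with h | ⟨s, y, h3, h4, h5⟩
    · exact h
    · exfalso
      have h6 : (2 : ℤ) ∣ x none :=
        (ZMod.intCast_zmod_eq_zero_iff_dvd _ 2).mp (congrFun h2 none)
      have h7 := h4 none
      omega
  · rintro ⟨s, y, h3, h4, h5⟩
    refine ⟨mem_leech.mpr ⟨0, s, y, h3, h4, h5⟩, ?_⟩
    funext i
    refine (ZMod.intCast_zmod_eq_zero_iff_dvd _ 2).mpr ?_
    rw [h4 i]
    omega

theorem L0_relIndex : L0.relIndex leechLattice = 2 := by
  -- the hom x ↦ x none mod 2 on the lattice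
  let f : leechLattice →+ ZMod 2 :=
    { toFun := fun x => ((x : V) none : ZMod 2)
      map_zero' := by simp
      map_add' := by intro x y; simp }
  have hf : Function.Surjective f := by
    intro z
    have : z = 0 ∨ z = 1 := by revert z; decide
    rcases this with rfl | rfl
    · exact ⟨0, by simp⟩
    · let w : V := fun i => if i = none then -3 else 1
      have hw : w ∈ leechLattice := mem_leech.mpr ⟨1, ∅, fun i => if i = none then -1 else 0,
        GC_empty, fun i => by by_cases h : i = none <;> simp [w, ind, h], by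
          simp [Finset.sum_ite_eq']⟩
      refine ⟨⟨w, hw⟩, ?_⟩
      show ((w none : ℤ) : ZMod 2) = 1
      simp [w]
      decide
  have hk : L0.addSubgroupOf leechLattice = f.ker := by
    ext x
    rw [AddSubgroup.mem_addSubgroupOf, AddMonoidHom.mem_ker, mem_L0]
    constructor
    · rintro ⟨s, y, h3, h4, h5⟩
      refine (ZMod.intCast_zmod_eq_zero_iff_dvd _ 2).mpr ?_
      rw [h4 none]; omega
    · intro h
      rcases mem_leech_cases.mp x.2 with h' | ⟨s, y, h3, h4, h5⟩
      · exact h'
      · exfalso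
        have h6 : (2 : ℤ) ∣ (x : V) none := (ZMod.intCast_zmod_eq_zero_iff_dvd _ 2).mp h
        have h7 := h4 none
        omega
  unfold AddSubgroup.relIndex
  rw [hk, AddSubgroup.index_ker, AddMonoidHom.range_eq_top.mpr hf,
    Nat.card_congr (AddSubgroup.topEquiv).toEquiv, Nat.card_eq_fintype_card, ZMod.card]

theorem L00_relIndex : L00.relIndex L0 = 4096 := by
  let f : L0 →+ (GolayPt → ZMod 2) :=
    { toFun := fun x => fun i => (((x : V) i / 2 : ℤ) : ZMod 2)
      map_zero' := by funext i; simp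
      map_add' := by
        intro x y
        funext i
        obtain ⟨s, z, h3, h4, h5⟩ := mem_L0.mp x.2
        obtain ⟨s', z', h3', h4', h5'⟩ := mem_L0.mp y.2
        simp only [AddSubgroup.coe_add, Pi.add_apply]
        rw [← Int.cast_add]
        congr 1
        have := h4 i
        have := h4' i
        omega }
  have hval : ∀ (x : L0) (s : Finset GolayPt) (z : V), LP (x : V) 0 s z → support₂ (f x) = s := by
    rintro x s z ⟨h3, h4, h5⟩
    ext i
    unfold support₂
    rw [Finset.mem_filter]
    simp only [Finset.mem_univ, true_and]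
    show (((x : V) i / 2 : ℤ) : ZMod 2) ≠ 0 ↔ _
    rw [Ne, (ZMod.intCast_zmod_eq_zero_iff_dvd _ 2)]
    have := h4 i
    unfold ind at this
    split_ifs at this with h
    · simp only [h, iff_true]; push_cast; omega
    · simp only [h, iff_false]; push_cast; omega
  have hr : (f.range : Set (GolayPt → ZMod 2)) = (golayCode : Set (GolayPt → ZMod 2)) := by
    ext w
    simp only [SetLike.mem_coe, AddMonoidHom.mem_range]
    constructor
    · rintro ⟨x, rfl⟩
      obtain ⟨s, z, h⟩ := mem_L0.mp x.2
      rw [← support_mem_GC, hval x s z h]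
      exact h.1
    · intro hw
      have h1 : support₂ w ∈ GC := support_mem_GC.mpr hw
      have h2 : LP (fun i => 0 + 2 * ind (support₂ w) i + 4 * (0 : V) i) 0 (support₂ w) 0 :=
        ⟨h1, fun i => rfl, by simp⟩
      refine ⟨⟨_, mem_L0.mpr ⟨_, _, h2⟩⟩, ?_⟩
      exact support₂_injective (hval ⟨_, mem_L0.mpr ⟨_, _, h2⟩⟩ _ _ h2)
  have hk : L00.addSubgroupOf L0 = f.ker := by
    ext x
    rw [AddSubgroup.mem_addSubgroupOf, AddMonoidHom.mem_ker, mem_L00]
    constructor
    · rintro ⟨y, hy, h⟩
      funext i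
      show (((x : V) i / 2 : ℤ) : ZMod 2) = 0
      refine (ZMod.intCast_zmod_eq_zero_iff_dvd _ 2).mpr ?_
      rw [h i]; push_cast; omega
    · intro h
      obtain ⟨s, z, h'⟩ := mem_L0.mp x.2
      have h1 := hval x s z h'
      rw [h] at h1
      have h2 : s = ∅ := by rw [← h1]; ext i; simp [support₂]
      subst h2
      obtain ⟨h3, h4, h5⟩ := h'
      exact ⟨z, by simpa using h5, fun i => by rw [h4 i]; simp [ind]⟩
  have hcard : Nat.card f.range = Nat.card golayCode := by
    have : Nat.card (f.range : Set (GolayPt → ZMod 2)) =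
      Nat.card (golayCode : Set (GolayPt → ZMod 2)) := by rw [hr]
    exact this
  unfold AddSubgroup.relIndex
  rw [hk, AddSubgroup.index_ker, hcard]
  have e : golayCode ≃ Fin 4096 := by
    refine Equiv.symm (Equiv.ofBijective (fun a : Fin 4096 => (⟨word (enc a), enc_mem a⟩ : golayCode)) ⟨?_, ?_⟩)
    · intro a b h
      have h1 : word (enc a) = word (enc b) := congrArg Subtype.val h
      have h2 := word_inj (enc_lt _) (enc_lt _) h1
      apply Fin.ext
      rw [← enc_mod_all a a.2, ← enc_mod_all b b.2, h2]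
    · rintro ⟨w, hw⟩
      obtain ⟨a, ha, rfl⟩ := exists_enc_of_mem hw
      exact ⟨⟨a, ha⟩, rfl⟩
  rw [Nat.card_congr e]; simp

/-- The lattice has index 2^36 in ℤ^24 (unimodular at scale 1/8). -/
theorem result : Cfsg.leechLattice.index = 2 ^ 36 := by
  have h1 : L00 ≤ L0 := by
    intro x hx
    obtain ⟨y, hy, h⟩ := mem_L00.mp hx
    exact mem_L0.mpr ⟨∅, y, GC_empty, fun i => by rw [h i]; simp [ind], by simpa using hy⟩
  have h2 : L0 ≤ leechLattice := inf_le_left
  have h3 := AddSubgroup.relIndex_mul_index h1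
  have h4 := AddSubgroup.relIndex_mul_index h2
  rw [← h4, L00_relIndex, L0_relIndex, L00_index] at h3
  have h5 : 8192 * Cfsg.leechLattice.index = 8192 * 2 ^ 36 := by
    rw [show (8192 : ℕ) * 2 ^ 36 = 2 ^ 49 by norm_num, ← h3]; ring
  exact Nat.eq_of_mul_eq_mul_left (by norm_num) h5

end Cfsg.Agent.S0393
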