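import Cfsg.Statements.S0401
import Cfsg.Agent.H7.Conway2

set_option autoImplicit false
open Cfsg

namespace Cfsg.Agent.S0401

/-- Automorphisms of the lattice act transitively on vectors of sum of squares 48. -/
theorem result (v w : Cfsg.leechLattice) (hv : Cfsg.sqNorm (v : Cfsg.GolayPt → ℤ) = 48) (hw : Cfsg.sqNorm (w : Cfsg.GolayPt → ℤ) = 48) : ∃ g : Cfsg.Co0, g • v = w := by
  have hv' : Cfsg.Agent.H7.bL v v = 6 := by have := Cfsg.Agent.H7.bL_self v; omega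
  have hw' : Cfsg.Agent.H7.bL w w = 6 := by have := Cfsg.Agent.H7.bL_self w; omega
  obtain ⟨g, hg⟩ := Cfsg.Agent.H7.to_t3 v hv'
  obtain ⟨h, hh⟩ := Cfsg.Agent.H7.to_t3 w hw'
  exact ⟨h⁻¹ * g, by rw [mul_smul, hg, ← hh, inv_smul_smul]⟩

end Cfsg.Agent.S0401
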