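import Cfsg.Statements.S0402
import Cfsg.Agent.H7.Conway5

set_option autoImplicit false
open Cfsg

namespace Cfsg.Agent.S0402

/-- Stabiliser of a minimal vector is simple of order 42305421312000. -/
theorem result (v : Cfsg.leechLattice) (hv : Cfsg.sqNorm (v : Cfsg.GolayPt → ℤ) = 32) : Cfsg.IsCo2 (MulAction.stabilizer Cfsg.Co0 v) := by
  have hv' : Cfsg.Agent.H7.bL v v = 4 := by have := Cfsg.Agent.H7.bL_self v; omega
  obtain ⟨g, hg⟩ := Cfsg.Agent.H7.to_t2 v hv'
  have e : MulAction.stabilizer Cfsg.Co0 v ≃* MulAction.stabilizer Cfsg.Co0 Cfsg.Agent.H7.t2 :=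
    MulAction.stabilizerEquivStabilizer hg.symm
  have := Cfsg.Agent.H7.co2_simple
  exact ⟨Cfsg.Agent.H7.isSimple_congr e,
    by rw [Nat.card_congr e.toEquiv, Cfsg.Agent.H7.card_stab_t2]⟩

end Cfsg.Agent.S0402
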