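import Cfsg.Statements.S0404
import Cfsg.Agent.H7.Conway10

set_option autoImplicit false
open Cfsg

namespace Cfsg.Agent.S0404

/-- Joint stabiliser of two minimal vectors with coordinate dot product −8 is simple of order 898128000. -/
theorem result (v w : Cfsg.leechLattice) (hv : Cfsg.sqNorm (v : Cfsg.GolayPt → ℤ) = 32) (hw : Cfsg.sqNorm (w : Cfsg.GolayPt → ℤ) = 32) (hvw : Cfsg.dotInt (v : Cfsg.GolayPt → ℤ) (w : Cfsg.GolayPt → ℤ) = -8) : Cfsg.IsMcL ↥(MulAction.stabilizer Cfsg.Co0 v ⊓ MulAction.stabilizer Cfsg.Co0 w) := by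
  have hv' : Cfsg.Agent.H7.bL v v = 4 := by have := Cfsg.Agent.H7.bL_self v; omega
  have hw' : Cfsg.Agent.H7.bL w w = 4 := by have := Cfsg.Agent.H7.bL_self w; omega
  have hvw' : Cfsg.Agent.H7.bL v w = -1 := by have := Cfsg.Agent.H7.bL_mul v w; omega
  obtain ⟨g, h1, h2⟩ := Cfsg.Agent.H7.mcl_pair v w hv' hw' hvw'
  rw [Cfsg.Agent.H7.stab_inf_add]
  obtain ⟨e⟩ := Cfsg.Agent.H7.pair_stab_equiv g h2 h1
  have := Cfsg.Agent.H7.mcl_simple
  have e' : ↥(MulAction.stabilizer Cfsg.Co0 (v + w) ⊓ MulAction.stabilizer Cfsg.Co0 v) ≃*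
    Cfsg.Agent.H7.McLS := e
  exact ⟨Cfsg.Agent.H7.isSimple_congr e',
    by rw [Nat.card_congr e'.toEquiv, Cfsg.Agent.H7.card_McLS]⟩

end Cfsg.Agent.S0404
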