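import Cfsg.Statements.S0405
import Cfsg.Agent.H7.Conway10

set_option autoImplicit false
open Cfsg

namespace Cfsg.Agent.S0405

/-- Joint stabiliser of two vectors of sum of squares 48 with coordinate dot product −32 is simple of order 44352000. -/
theorem result (v w : Cfsg.leechLattice) (hv : Cfsg.sqNorm (v : Cfsg.GolayPt → ℤ) = 48) (hw : Cfsg.sqNorm (w : Cfsg.GolayPt → ℤ) = 48) (hvw : Cfsg.dotInt (v : Cfsg.GolayPt → ℤ) (w : Cfsg.GolayPt → ℤ) = -32) : Cfsg.IsHS ↥(MulAction.stabilizer Cfsg.Co0 v ⊓ MulAction.stabilizer Cfsg.Co0 w) := by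
  have hv' : Cfsg.Agent.H7.bL v v = 6 := by have := Cfsg.Agent.H7.bL_self v; omega
  have hw' : Cfsg.Agent.H7.bL w w = 6 := by have := Cfsg.Agent.H7.bL_self w; omega
  have hvw' : Cfsg.Agent.H7.bL v w = -4 := by have := Cfsg.Agent.H7.bL_mul v w; omega
  have hwv' : Cfsg.Agent.H7.bL w v = -4 := by rw [Cfsg.Agent.H7.bL_comm, hvw']
  obtain ⟨g, h1, h2⟩ := Cfsg.Agent.H7.hs_pair (v + w) v (by
      simp only [Cfsg.Agent.H7.bL_add, Cfsg.Agent.H7.bL_add_right, hv', hw', hvw', hwv']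
      norm_num) hv' (by
      simp only [Cfsg.Agent.H7.bL_add, hv', hwv']
      norm_num)
  rw [Cfsg.Agent.H7.stab_inf_add]
  obtain ⟨e⟩ := Cfsg.Agent.H7.pair_stab_equiv g h1 h2
  have := Cfsg.Agent.H7.hs_simple
  have e' : ↥(MulAction.stabilizer Cfsg.Co0 (v + w) ⊓ MulAction.stabilizer Cfsg.Co0 v) ≃*
    Cfsg.Agent.H7.HSS := e
  exact ⟨Cfsg.Agent.H7.isSimple_congr e',
    by rw [Nat.card_congr e'.toEquiv, Cfsg.Agent.H7.card_HSS]⟩

end Cfsg.Agent.S0405
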