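import Cfsg.Statements.S0406
import Cfsg.Agent.H7.Conway

set_option autoImplicit false
open Matrix
open Cfsg

namespace Cfsg.Agent.S0406

/-- A rank-24 even lattice with no roots and the stated numbers of vectors of norms 4, 6, 8 is isomorphic to the Leech lattice. -/
theorem result (B : Matrix (Fin 24) (Fin 24) ℤ) (hsymm : B.IsSymm) (hpos : ∀ x : Fin 24 → ℤ, x ≠ 0 → 0 < x ⬝ᵥ (B *ᵥ x)) (heven : ∀ x : Fin 24 → ℤ, (2 : ℤ) ∣ x ⬝ᵥ (B *ᵥ x)) (h2 : ∀ x : Fin 24 → ℤ, x ⬝ᵥ (B *ᵥ x) ≠ 2) (h4 : {x : Fin 24 → ℤ | x ⬝ᵥ (B *ᵥ x) = 4}.ncard = 196560) (h6 : {x : Fin 24 → ℤ | x ⬝ᵥ (B *ᵥ x) = 6}.ncard = 16773120) (h8 : {x : Fin 24 → ℤ | x ⬝ᵥ (B *ᵥ x) = 8}.ncard = 398034000) : ∃ f : (Fin 24 → ℤ) ≃+ Cfsg.leechLattice, ∀ x : Fin 24 → ℤ, Cfsg.sqNorm ((f x : Cfsg.leechLattice) : Cfsg.GolayPt → ℤ) = 8 * (x ⬝ᵥ (B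 *ᵥ x)) := by
  have hL : Cfsg.Agent.H7.LLat (Fin 24 → ℤ) (fun x y => x ⬝ᵥ (B *ᵥ y)) := by
    refine ⟨?_, ?_, heven, ?_, ⟨Pi.basisFun ℤ (Fin 24)⟩, h4, h6, h8⟩
    · intro x y z
      exact add_dotProduct x y (B *ᵥ z)
    · intro x y
      show x ⬝ᵥ (B *ᵥ y) = y ⬝ᵥ (B *ᵥ x)
      rw [Matrix.dotProduct_mulVec, ← Matrix.mulVec_transpose, hsymm.eq, dotProduct_comm]
    · intro x hx
      have h5 := hpos x hx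
      have h6 := heven x
      have h7 := h2 x
      show 4 ≤ x ⬝ᵥ (B *ᵥ x)
      omega
  obtain ⟨v, hv⟩ : {x : Fin 24 → ℤ | x ⬝ᵥ (B *ᵥ x) = 8}.Nonempty :=
    Set.nonempty_of_ncard_ne_zero (by rw [h8]; norm_num)
  obtain ⟨f, hf, -, -⟩ := hL.exists_frame' v hv
  obtain ⟨Φ, e, S, hΦ, -⟩ := hL.exists_isometry hf
  refine ⟨Φ, fun x => ?_⟩
  rw [Cfsg.Agent.H7.sqNorm_eq_dot]
  exact hΦ x x

end Cfsg.Agent.S0406
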