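import Cfsg.Statements.S0439
import Cfsg.Agent.H7.Trans

set_option autoImplicit false
open Cfsg

namespace Cfsg.Agent.S0439

/-- In the symmetric group of degree n ≥ 2, the set of transpositions is a conjugacy class of 3-transpositions which generates the group. -/
theorem result (n : ℕ) (hn : 2 ≤ n) : Cfsg.IsThreeTranspositionClass {σ : Equiv.Perm (Fin n) | σ.IsSwap} := by
  have hsw : ∀ a b c d : Fin n, a ≠ b → c ≠ d →
      (Equiv.swap a b * Equiv.swap c d) ^ 2 = 1 ∨ (Equiv.swap a b * Equiv.swap c d) ^ 3 = 1 := by
    intro a b c d hab hcd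
    have h3 : ∀ x y z : Fin n, x ≠ y → x ≠ z → y ≠ z →
        (Equiv.swap x y * Equiv.swap x z) ^ 3 = 1 := by
      intro x y z hxy hxz hyz
      have := Equiv.Perm.isThreeCycle_swap_mul_swap_same hxy hxz hyz
      rw [← this.orderOf, pow_orderOf_eq_one]
    have h1 : ∀ x y : Fin n, (Equiv.swap x y * Equiv.swap x y) ^ 2 = 1 := by
      intro x y; rw [Equiv.swap_mul_self, one_pow]
    by_cases hac : a = c
    · subst hac
      by_cases hbd : b = d
      · subst hbd; left; exact h1 a b
      · right; exact h3 a b d hab hcd hbd
    · by_cases hbd : b = d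
      · subst hbd
        right
        rw [Equiv.swap_comm a b, Equiv.swap_comm c b]
        exact h3 b a c hab.symm hcd.symm hac
      · by_cases had : a = d
        · subst had
          by_cases hbc : b = c
          · subst hbc; left; rw [Equiv.swap_comm b a]; exact h1 a b
          · right
            rw [Equiv.swap_comm c a]
            exact h3 a b c hab hac hbc
        · by_cases hbc : b = c
          · subst hbc
            right
            rw [Equiv.swap_comm a b]
            exact h3 b a d hab.symm hcd had
          · left
            have hdisj : Equiv.Perm.Disjoint (Equiv.swap a b) (Equiv.swap c d) := by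
              rw [Equiv.Perm.disjoint_iff_disjoint_support, Equiv.Perm.support_swap hab,
                Equiv.Perm.support_swap hcd]
              rw [Finset.disjoint_left]
              intro x hx
              simp only [Finset.mem_insert, Finset.mem_singleton] at hx ⊢
              rcases hx with rfl | rfl
              · rintro (h | h)
                · exact hac h
                · exact had h
              · rintro (h | h)
                · exact hbc h
                · exact hbd h
            rw [hdisj.commute.mul_pow, sq, sq, Equiv.swap_mul_self, Equiv.swap_mul_self, one_mul]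
  refine ⟨⟨?_, ?_⟩, ?_, ?_⟩
  · rintro _ ⟨x, y, hxy, rfl⟩
    exact Equiv.Perm.IsSwap.orderOf ⟨x, y, hxy, rfl⟩
  · rintro _ ⟨a, b, hab, rfl⟩ _ ⟨c, d, hcd, rfl⟩
    exact hsw a b c d hab hcd
  · obtain ⟨m, rfl⟩ : ∃ m, n = m + 2 := ⟨n - 2, by omega⟩
    have h01 : (0 : Fin (m + 2)) ≠ 1 := by
      intro h; have := congrArg Fin.val h; simp at this
    refine ⟨Equiv.swap 0 1, ⟨0, 1, h01, rfl⟩, ?_⟩
    ext σ
    show σ.IsSwap ↔ IsConj (Equiv.swap (0 : Fin (m + 2)) 1) σ
    constructor
    · rintro ⟨a, b, hab, rfl⟩
      exact Equiv.Perm.isConj_swap h01 hab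
    · intro h
      rw [isConj_iff] at h
      obtain ⟨c, hc⟩ := h
      refine ⟨c 0, c 1, fun h => h01 (c.injective h), ?_⟩
      rw [← hc, Equiv.swap_apply_apply]
  · exact Equiv.Perm.closure_isSwap

end Cfsg.Agent.S0439
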