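import Cfsg.Statements.S0446
import Cfsg.Agent.H7.Trans

set_option autoImplicit false
open Cfsg

namespace Cfsg.Agent.S0446

/-- Every finite group of even order contains a 2-central involution, i.e. an element of order 2 in the centre of some Sylow 2-subgroup. -/
theorem result {G : Type*} [Group G] [Finite G] (h : Even (Nat.card G)) : ∃ t : G, Cfsg.IsTwoCentralInvolution t := by
  exact Cfsg.Agent.H7.exists_two_central h

end Cfsg.Agent.S0446
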