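import Cfsg.Statements.S0462
import Cfsg.Agent.S1682
import Cfsg.Agent.S1683
import Cfsg.Agent.S1695
import Cfsg.Agent.H7.SporA

set_option autoImplicit false
open Cfsg

namespace Cfsg.Agent.S0462

/-- The Held group exists as a transitive permutation group of degree 2058: simple of order 4030387200, with point stabiliser containing, with index 2, a copy of the 4-dimensional symplectic group over the field with four elements. -/
theorem result : ∃ H : Subgroup (Equiv.Perm (Fin 2058)), Cfsg.IsHe H ∧ MulAction.IsPretransitive H (Fin 2058) ∧ ∃ (F : Type) (_ : Field F) (_ : Fintype F), Fintype.card F = 4 ∧ ∃ N : Subgroup (MulAction.stabilizer H (0 : Fin 2058)), N.index = 2 ∧ Nonempty (N ≃* Matrix.symplecticGroup (Fin 2) F) := by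
  classical
  haveI : Finite Cfsg.Spor.He := Nat.finite_of_card_ne_zero (by
    rw [Cfsg.Agent.S1695.result.2]; norm_num)
  obtain ⟨N, K, fK, ftK, -, hN, hK, ⟨eN⟩⟩ := Cfsg.Agent.S1682.result
  obtain ⟨H, e, htrans, ⟨e'⟩⟩ := Cfsg.Agent.H7.SporA.perm_realize Cfsg.Agent.S1695.result.1 _ 2058
    Cfsg.Agent.S1683.result.1 (by norm_num)
  refine ⟨H, ⟨Cfsg.Agent.H7.SporA.simple_congr e Cfsg.Agent.S1695.result.1, ?_⟩, htrans, K, fK, ftK, hK,
    N.map e'.toMonoidHom, ?_, ⟨(N.equivMapOfInjective e'.toMonoidHom e'.injective).symm.trans eN⟩⟩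
  · rw [← Nat.card_congr e.toEquiv]
    exact Cfsg.Agent.S1695.result.2
  · exact (Subgroup.index_map_of_bijective e'.bijective N).trans hN

end Cfsg.Agent.S0462
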