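import Cfsg.Statements.S0498
import Cfsg.Agent.H9.PSLRec

set_option autoImplicit false
open Cfsg

namespace Cfsg.Agent.S0498

/-- A simple group of order 660, respectively 1092, is isomorphic to the projective special linear group of dimension 2
over the field with 11, respectively 13, elements. -/
theorem result {G : Type*} [Group G] [Finite G] [IsSimpleGroup G] (p : ℕ)
    (hp : p = 11 ∨ p = 13) (h : 2 * Nat.card G = p * (p ^ 2 - 1)) {F : Type*} [Field F] [Fintype F]
    (hF : Fintype.card F = p) : Nonempty (G ≃* Matrix.ProjectiveSpecialLinearGroup (Fin 2) F) := by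
  rcases hp with rfl | rfl
  · have h' : Nat.card G = 660 := by omega
    haveI := Fact.mk (show Nat.Prime 11 by norm_num)
    have hG : ¬ IsMulCommutative G := Cfsg.Agent.H9.Simple.not_comm_of_not_prime (by rw [h']; norm_num)
    have hd : 11 ∣ Nat.card G := by rw [h']; norm_num
    obtain ⟨P⟩ : Nonempty (Sylow 11 G) := inferInstance
    have h1 : Nat.card (Sylow 11 G) ∣ 60 :=
      Cfsg.Agent.H9.Syl.card_sylow_dvd_of_card P (k := 1) (m := 60) (by rw [h']; norm_num) (by norm_num)
    have h2 : Nat.card (Sylow 11 G) ≡ 1 [MOD 11] := card_sylow_modEq_one 11 G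
    have h3 : Nat.card (Sylow 11 G) ≠ 1 := Cfsg.Agent.H9.Simple.card_sylow_ne_one hG hd
    have h4 : Nat.card (Sylow 11 G) = 11 + 1 := by
      have key : ∀ n ∈ Nat.divisors 60, n % 11 = 1 → n ≠ 1 → n = 11 + 1 := by decide +kernel
      exact key _ (Nat.mem_divisors.mpr ⟨h1, by norm_num⟩) h2 h3
    exact Cfsg.Agent.H9.PSLModel.psl_of_check' hG h4 (by norm_num) (by norm_num) h Cfsg.Agent.H9.PSLModel.check11 hF
  · have h' : Nat.card G = 1092 := by omega
    haveI := Fact.mk (show Nat.Prime 13 by norm_num)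
    have hG : ¬ IsMulCommutative G := Cfsg.Agent.H9.Simple.not_comm_of_not_prime (by rw [h']; norm_num)
    have hd : 13 ∣ Nat.card G := by rw [h']; norm_num
    obtain ⟨P⟩ : Nonempty (Sylow 13 G) := inferInstance
    have h1 : Nat.card (Sylow 13 G) ∣ 84 :=
      Cfsg.Agent.H9.Syl.card_sylow_dvd_of_card P (k := 1) (m := 84) (by rw [h']; norm_num) (by norm_num)
    have h2 : Nat.card (Sylow 13 G) ≡ 1 [MOD 13] := card_sylow_modEq_one 13 G
    have h3 : Nat.card (Sylow 13 G) ≠ 1 := Cfsg.Agent.H9.Simple.card_sylow_ne_one hG hd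
    have h4 : Nat.card (Sylow 13 G) = 13 + 1 := by
      have key : ∀ n ∈ Nat.divisors 84, n % 13 = 1 → n ≠ 1 → n = 13 + 1 := by decide +kernel
      exact key _ (Nat.mem_divisors.mpr ⟨h1, by norm_num⟩) h2 h3
    exact Cfsg.Agent.H9.PSLModel.psl_of_check' hG h4 (by norm_num) (by norm_num) h Cfsg.Agent.H9.PSLModel.check13 hF

end Cfsg.Agent.S0498
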