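import Cfsg.Statements.S0499
import Cfsg.Agent.H9.SimplePP

set_option autoImplicit false
open Cfsg

namespace Cfsg.Agent.S0499

open Subgroup MulAction in
/-- an automorphism of order prime to 2, 3, 7 of a group of order dividing 8 is trivial -/
theorem aut_trivial {X : Type*} [Group X] [Finite X] (h8 : Nat.card X ∣ 8) (ψ : MulAut X)
    (h2 : ¬ 2 ∣ orderOf ψ) (h3 : ¬ 3 ∣ orderOf ψ) (h7 : ¬ 7 ∣ orderOf ψ) : ψ = 1 := by
  classical
  have hfin : Finite (zpowers ψ) := inferInstance
  have hX8 : Nat.card X ≤ 8 := Nat.le_of_dvd (by norm_num) h8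
  have hmod := Cfsg.Agent.H9.Count.card_modEq_fixed (G := zpowers ψ) (α := X) 5 (by
    intro a ha
    have h1 : Nat.card (orbit (zpowers ψ) a) ∣ orderOf ψ := by
      rw [Cfsg.Agent.H9.Count.card_orbit_eq_index, ← Nat.card_zpowers]
      exact index_dvd_card _
    have h4 : Nat.card (orbit (zpowers ψ) a) ≤ 8 := by
      rw [Nat.card_coe_set_eq]
      exact (Set.ncard_le_card _).trans hX8
    have h5 : Nat.card (orbit (zpowers ψ) a) ≠ 1 := by
      intro h5
      apply ha
      rw [Nat.card_eq_one_iff_unique] at h5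
      have h6 := h5.1
      intro g
      exact congrArg Subtype.val (Subsingleton.elim (⟨g • a, ⟨g, rfl⟩⟩ : orbit (zpowers ψ) a) ⟨a, mem_orbit_self a⟩)
    have h6 : 0 < Nat.card (orbit (zpowers ψ) a) := by
      have : Nonempty (orbit (zpowers ψ) a) := ⟨⟨a, mem_orbit_self a⟩⟩
      exact Nat.card_pos
    have a2 : ¬ 2 ∣ Nat.card (orbit (zpowers ψ) a) := fun h => h2 (h.trans h1)
    have a3 : ¬ 3 ∣ Nat.card (orbit (zpowers ψ) a) := fun h => h3 (h.trans h1)
    have a7 : ¬ 7 ∣ Nat.card (orbit (zpowers ψ) a) := fun h => h7 (h.trans h1)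
    generalize Nat.card (orbit (zpowers ψ) a) = n at *
    clear h1
    interval_cases n <;> revert h5 a2 a3 a7 <;> decide)
  let F : Subgroup X :=
    { carrier := fixedPoints (zpowers ψ) X
      mul_mem' := fun {a b} ha hb g => by rw [smul_mul', ha g, hb g]
      one_mem' := fun g => smul_one g
      inv_mem' := fun {a} ha g => by rw [smul_inv', ha g] }
  have hF : Nat.card F = Nat.card (fixedPoints (zpowers ψ) X) := rfl
  rw [← hF] at hmod
  have hd := F.card_subgroup_dvd_card
  have heq : Nat.card F = Nat.card X := by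
    have hF8 := hd.trans h8
    have : Nat.card F ≤ 8 := Nat.le_of_dvd (by norm_num) hF8
    generalize Nat.card F = m at *
    generalize Nat.card X = n at *
    interval_cases n <;> interval_cases m <;> revert h8 hF8 hd hmod <;> decide
  have htop : F = ⊤ := eq_top_of_card_eq F heq
  ext x
  have h1 : x ∈ F := by rw [htop]; trivial
  exact h1 ⟨ψ, mem_zpowers ψ⟩

/-- A non-abelian finite simple group of even order has order divisible by 12, 16 or 56. -/
theorem result {G : Type*} [Group G] [Finite G] [IsSimpleGroup G]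
    (hG : ¬ IsMulCommutative G) (h2 : Even (Nat.card G)) :
    12 ∣ Nat.card G ∨ 16 ∣ Nat.card G ∨ 56 ∣ Nat.card G := by
  have := Fact.mk Nat.prime_two
  have hd2 : 2 ∣ Nat.card G := even_iff_two_dvd.mp h2
  by_contra hcon
  push Not at hcon
  obtain ⟨h12, h16, h56⟩ := hcon
  have h0 : Nat.card G ≠ 0 := Nat.card_pos.ne'
  -- 4 divides |G|
  have hmin : (Nat.card G).minFac = 2 := (Nat.minFac_eq_two_iff _).mpr hd2
  obtain ⟨T⟩ : Nonempty (Sylow 2 G) := inferInstance
  set k := (Nat.card G).factorization 2 with hk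
  have hT : Nat.card (T : Subgroup G) = 2 ^ k := T.card_eq_multiplicity
  have hk1 : 1 ≤ k := (Nat.prime_two.dvd_iff_one_le_factorization h0).mp hd2
  have hk4 : ¬ 4 ≤ k := fun h => h16 ((Nat.prime_two.pow_dvd_iff_le_factorization h0).mpr h)
  have hncyc := Cfsg.Agent.H9.Simple.not_cyclic_minFac hG hd2 hmin T
  have hk1' : k ≠ 1 := by
    intro h
    rw [h, pow_one] at hT
    exact hncyc (isCyclic_of_prime_card hT)
  have h4 : 4 ∣ Nat.card G := by
    have := (Nat.prime_two.pow_dvd_iff_le_factorization (k := 2) h0).mpr (by omega)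
    simpa using this
  have h3 : ¬ 3 ∣ Nat.card G := fun h => h12 (by
    have := Nat.Coprime.mul_dvd_of_dvd_of_dvd (by norm_num : Nat.Coprime 4 3) h4 h
    simpa using this)
  -- apply Frobenius
  apply Cfsg.Agent.H9.Simple.not_normalComplement hG hd2
  apply Cfsg.Agent.H2.hasNormalPComplement_of_centralizer
  intro X hX g hg hgo
  have hXc : ∃ j, Nat.card X = 2 ^ j := IsPGroup.iff_card.mp hX
  obtain ⟨j, hj⟩ := hXc
  have hjk : j ≤ k := by
    have h5 := X.card_subgroup_dvd_card
    rw [hj] at h5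
    exact (Nat.prime_two.pow_dvd_iff_le_factorization h0).mp h5
  have hX8 : Nat.card X ∣ 8 := by
    rw [hj, show 8 = 2 ^ 3 from rfl]; exact pow_dvd_pow 2 (by omega)
  -- 7 can only happen for order 8
  have hgG := orderOf_dvd_natCard g
  set ψ : MulAut X := X.normalizerMonoidHom ⟨g, hg⟩ with hψ
  have hψo : orderOf ψ ∣ orderOf g := by
    have h5 := orderOf_map_dvd X.normalizerMonoidHom ⟨g, hg⟩
    rwa [Subgroup.orderOf_mk] at h5
  have ho2 : ¬ 2 ∣ orderOf ψ := by
    intro h5
    have h6 := hgo.symm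
    have := (Nat.Prime.coprime_iff_not_dvd Nat.prime_two).mp h6
    exact this (h5.trans hψo)
  have ho3 : ¬ 3 ∣ orderOf ψ := fun h5 => h3 ((h5.trans hψo).trans hgG)
  have ho7 : ¬ 7 ∣ orderOf ψ := by
    intro h5
    have h7G : 7 ∣ Nat.card G := (h5.trans hψo).trans hgG
    have hk2 : k = 2 := by
      have : ¬ 3 ≤ k := by
        intro hk3
        apply h56
        have h8G := (Nat.prime_two.pow_dvd_iff_le_factorization (k := 3) h0).mpr (by omega)
        exact Nat.Coprime.mul_dvd_of_dvd_of_dvd (by norm_num : Nat.Coprime (2 ^ 3) 7) h8G h7G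
      omega
    -- order at most 4: an automorphism permutes at most 3 elements
    have hX4 : Nat.card X ≤ 4 := by
      rw [hj]
      calc 2 ^ j ≤ 2 ^ 2 := Nat.pow_le_pow_right (by norm_num) (by omega)
        _ = 4 := by norm_num
    have h8 : orderOf ψ ∣ (Nat.card X).factorial := by
      have h9 : orderOf (MulAut.toPerm X ψ) = orderOf ψ := orderOf_injective (MulAut.toPerm X) (fun a b h => by
        ext x; exact congrArg (fun σ : Equiv.Perm X => ((σ x : X) : G)) h) ψ
      rw [← h9, ← Nat.card_perm]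
      exact orderOf_dvd_natCard _
    have h9 : 7 ∣ Nat.factorial 4 := (h5.trans h8).trans (Nat.factorial_dvd_factorial hX4)
    revert h9; decide
  have hψ1 := aut_trivial hX8 ψ ho2 ho3 ho7
  have h5 : (⟨g, hg⟩ : Subgroup.normalizer (X : Set G)) ∈ X.normalizerMonoidHom.ker := hψ1
  rw [Subgroup.normalizerMonoidHom_ker] at h5
  exact h5

end Cfsg.Agent.S0499
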