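import Cfsg.Statements.S0502
import Cfsg.Agent.H4.ZStarF
import Cfsg.Agent.H2.Basic

set_option autoImplicit false
open Cfsg

namespace Cfsg.Agent.S0502

open Subgroup

theorem mul_self_of_sq {P : Type*} [Group P] {e : P} (h : e ^ 2 = 1) : e * e = 1 := by rw [← pow_two]; exact h

/-- the centralizer in `E` of an involution is large -/
theorem exists_klein {P : Type*} [Group P] [Finite P] (E : Subgroup P) [E.Normal] (hE : IsMulCommutative E)
    (hE2 : ∀ e ∈ E, e ^ 2 = 1) (hE8 : 8 ≤ Nat.card E) {u : P} (hu : u * u = 1) :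
    ∃ A : Subgroup P, IsKleinFour A ∧ A ≤ E ∧ ∀ a ∈ A, a * u = u * a := by
  classical
  have hcomm : ∀ a ∈ E, ∀ b ∈ E, a * b = b * a := fun a ha b hb =>
    congrArg Subtype.val (isMulCommutative_iff.mp hE ⟨a, ha⟩ ⟨b, hb⟩)
  have hui : u⁻¹ = u := inv_eq_of_mul_eq_one_left hu
  have hconj : ∀ e ∈ E, u * e * u ∈ E := by
    intro e he
    have := (inferInstance : E.Normal).conj_mem e he u
    rwa [hui] at this
  let C : Subgroup P := E ⊓ centralizer {u}
  have hC4 : 3 ≤ Nat.card C := by
    by_contra hcon
    push Not at hcon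
    -- the commutator map
    let f : E → C := fun e => ⟨(e : P) * (u * e * u), Subgroup.mem_inf.mpr ⟨mul_mem e.2 (hconj _ e.2), mem_centralizer_singleton_iff.mpr (by
      have h1 : (e : P) * (u * e * u) = (u * e * u) * e := hcomm _ e.2 _ (hconj _ e.2)
      calc (e : P) * (u * e * u) * u = e * u * e * (u * u) := by group
        _ = e * u * e := by rw [hu, mul_one]
        _ = (u * u) * (e * u * e) := by rw [hu, one_mul]
        _ = u * ((u * e * u) * e) := by group
        _ = u * ((e : P) * (u * e * u)) := by rw [h1])⟩⟩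
    have hfib : ∀ e e' : E, f e = f e' → (e : P) * (e' : P) ∈ C := by
      intro e e' h
      have h1 : (e : P) * (u * e * u) = (e' : P) * (u * e' * u) := congrArg Subtype.val h
      refine Subgroup.mem_inf.mpr ⟨mul_mem e.2 e'.2, mem_centralizer_singleton_iff.mpr ?_⟩
      have h2 := mul_self_of_sq (hE2 _ e.2)
      have h3 := mul_self_of_sq (hE2 _ e'.2)
      -- e e' = u e e' u
      have h4 : (e : P) * e' = (u * e * u) * (u * e' * u) := by
        have a1 : (e' : P) * ((e : P) * (u * e * u)) * (u * e * u) = (e' : P) * ((e' : P) * (u * e' * u)) * (u * e * u) := by rw [h1]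
        have a2 : (u * (e : P) * u) * (u * e * u) = 1 := by
          calc (u * (e : P) * u) * (u * e * u) = u * e * (u * u) * e * u := by group
            _ = u * (e * e) * u := by rw [hu]; group
            _ = 1 := by rw [h2, mul_one, hu]
        have a3 : (e' : P) * ((e : P) * (u * e * u)) * (u * e * u) = (e' : P) * e := by
          calc (e' : P) * ((e : P) * (u * e * u)) * (u * e * u) = e' * e * ((u * e * u) * (u * e * u)) := by group
            _ = e' * e := by rw [a2, mul_one]
        have a4 : (e' : P) * ((e' : P) * (u * e' * u)) * (u * e * u) = (u * e' * u) * (u * e * u) := by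
          calc (e' : P) * ((e' : P) * (u * e' * u)) * (u * e * u) = (e' * e') * ((u * e' * u) * (u * e * u)) := by group
            _ = _ := by rw [h3, one_mul]
        rw [hcomm _ e.2 _ e'.2, ← a3, a1, a4]
        exact hcomm _ (hconj _ e'.2) _ (hconj _ e.2)
      calc (e : P) * e' * u = (u * e * u) * (u * e' * u) * u := by rw [h4]
        _ = u * (e * (u * u) * e') * (u * u) := by group
        _ = u * (e * e') := by rw [hu]; group
    have hcard : Nat.card E ≤ Nat.card C * Nat.card C := by
      obtain ⟨s, hs⟩ : ∃ s : C → E, ∀ c, c ∈ Set.range f → f (s c) = c := by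
        have : ∀ c : C, ∃ e : E, c ∈ Set.range f → f e = c := by
          intro c
          by_cases h : c ∈ Set.range f
          · obtain ⟨e, he⟩ := h; exact ⟨e, fun _ => he⟩
          · exact ⟨1, fun h' => absurd h' h⟩
        choose s hs using this
        exact ⟨s, hs⟩
      rw [← Nat.card_prod]
      apply Nat.card_le_card_of_injective (fun e : E => ((f e, ⟨(e : P) * (s (f e) : P), hfib e (s (f e)) (hs _ ⟨e, rfl⟩).symm⟩) : C × C))
      intro e e' h
      have h1 : f e = f e' := congrArg Prod.fst h
      have h2 : (e : P) * (s (f e) : P) = (e' : P) * (s (f e') : P) := congrArg (fun x => ((x.2 : C) : P)) h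
      rw [h1] at h2
      exact Subtype.ext (mul_right_cancel h2)
    have : Nat.card C * Nat.card C ≤ 2 * 2 := Nat.mul_le_mul (by omega) (by omega)
    omega
  -- two elements
  haveI : Finite C := inferInstance
  obtain ⟨a, ha⟩ : ∃ a : C, a ≠ 1 := by
    haveI : Nontrivial C := Finite.one_lt_card_iff_nontrivial.mp (by omega)
    exact exists_ne 1
  obtain ⟨b, hb⟩ : ∃ b : C, b ≠ 1 ∧ b ≠ a := by
    by_contra hcon
    push Not at hcon
    have h1 : (Set.univ : Set C) ⊆ {1, a} := by
      intro b _
      by_cases h : b = 1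
      · left; exact h
      · right; exact hcon b h
    have h2 := Set.ncard_le_ncard h1
    rw [Set.ncard_univ] at h2
    have h3 : ({1, a} : Set C).ncard ≤ 2 := Set.ncard_insert_le _ _ |>.trans (by rw [Set.ncard_singleton])
    omega
  have haE : (a : P) ∈ E := a.2.1
  have hbE : (b : P) ∈ E := b.2.1
  have haa := mul_self_of_sq (hE2 _ haE)
  have hbb := mul_self_of_sq (hE2 _ hbE)
  have hab := hcomm _ haE _ hbE
  have ha1 : (a : P) ≠ 1 := fun h => ha (Subtype.ext h)
  have hb1 : (b : P) ≠ 1 := fun h => hb.1 (Subtype.ext h)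
  have hne : (a : P) ≠ b := fun h => hb.2 (Subtype.ext h.symm)
  have hau : (a : P) * u = u * a := mem_centralizer_singleton_iff.mp a.2.2
  have hbu : (b : P) * u = u * b := mem_centralizer_singleton_iff.mp b.2.2
  refine ⟨Cfsg.Agent.H4.kleinSub haa hbb hab, Cfsg.Agent.H4.kleinSub_isKleinFour haa hbb hab ha1 hb1 hne, ?_, ?_⟩
  · intro x hx
    rcases (Cfsg.Agent.H4.mem_kleinSub haa hbb hab).mp hx with rfl | rfl | rfl | rfl
    · exact one_mem _
    · exact haE
    · exact hbE
    · exact mul_mem haE hbE
  · intro x hx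
    rcases (Cfsg.Agent.H4.mem_kleinSub haa hbb hab).mp hx with rfl | rfl | rfl | rfl
    · rw [one_mul, mul_one]
    · exact hau
    · exact hbu
    · rw [mul_assoc, hbu, ← mul_assoc, hau, mul_assoc]

/-- If a finite 2-group has a normal elementary abelian subgroup of order at least 8, then any two of its Klein
four-subgroups are joined by a chain of Klein four-subgroups with consecutive members commuting elementwise. -/
theorem result {P : Type*} [Group P] [Finite P] (hP : IsPGroup 2 P)
    (E : Subgroup P) [E.Normal] (hE : IsMulCommutative E) (hE2 : ∀ e ∈ E, e ^ 2 = 1) (hE8 : 8 ≤ Nat.card E) :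
    Cfsg.IsFourConnected P := by
  classical
  haveI : Fact (Nat.Prime 2) := ⟨Nat.prime_two⟩
  have hcomm : ∀ a ∈ E, ∀ b ∈ E, a * b = b * a := fun a ha b hb =>
    congrArg Subtype.val (isMulCommutative_iff.mp hE ⟨a, ha⟩ ⟨b, hb⟩)
  have hEb : E ≠ ⊥ := by
    intro h
    rw [h, card_bot] at hE8
    omega
  have h1 := Cfsg.Agent.H2.inf_center_ne_bot_of_normal hP E hEb
  obtain ⟨z, hz, hz1⟩ := (Subgroup.bot_or_exists_ne_one _).resolve_left h1
  have hzE : z ∈ E := by first | exact hz.1 | exact hz.2
  have hzC : z ∈ center P := by first | exact hz.2 | exact hz.1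
  have hzz : z * z = 1 := mul_self_of_sq (hE2 z hzE)
  let R : Subgroup P → Subgroup P → Prop := fun A B => IsKleinFour A ∧ IsKleinFour B ∧ ∀ a ∈ A, ∀ b ∈ B, a * b = b * a
  -- connect to a subgroup of E
  have key : ∀ U : Subgroup P, IsKleinFour U → ∃ B A : Subgroup P, A ≤ E ∧ R U B ∧ R B A := by
    intro U hU
    obtain ⟨u, huU, hu1, huz⟩ : ∃ u ∈ U, u ≠ 1 ∧ u ≠ z := by
      by_contra hcon
      push Not at hcon
      have h2 : (U : Set P) ⊆ {1, z} := by
        intro b hb
        by_cases h : b = 1
        · left; exact h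
        · right; exact hcon b hb h
      have h3 := Set.ncard_le_ncard h2 (Set.toFinite _)
      have h4 : ({1, z} : Set P).ncard ≤ 2 := Set.ncard_insert_le _ _ |>.trans (by rw [Set.ncard_singleton])
      have h5 : (U : Set P).ncard = 4 := by
        rw [← Nat.card_coe_set_eq]; exact hU.card_four
      omega
    have huu : u * u = 1 := Cfsg.Agent.H4.klein_mul_self hU huU
    have huzc : u * z = z * u := mem_center_iff.mp hzC u
    obtain ⟨A, hA, hAE, hAu⟩ := exists_klein E hE hE2 hE8 huu
    have hB := Cfsg.Agent.H4.kleinSub_isKleinFour huu hzz huzc hu1 hz1 huz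
    refine ⟨Cfsg.Agent.H4.kleinSub huu hzz huzc, A, hAE, ⟨hU, hB, ?_⟩, ⟨hB, hA, ?_⟩⟩
    · intro a ha b hb
      have hau := Cfsg.Agent.H4.klein_comm hU a ha u huU
      have haz : a * z = z * a := mem_center_iff.mp hzC a
      rcases (Cfsg.Agent.H4.mem_kleinSub huu hzz huzc).mp hb with rfl | rfl | rfl | rfl
      · rw [one_mul, mul_one]
      · exact hau
      · exact haz
      · rw [← mul_assoc, hau, mul_assoc, haz, mul_assoc]
    · intro b hb a ha
      have hau := hAu a ha
      have haz : a * z = z * a := mem_center_iff.mp hzC a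
      rcases (Cfsg.Agent.H4.mem_kleinSub huu hzz huzc).mp hb with rfl | rfl | rfl | rfl
      · rw [one_mul, mul_one]
      · exact hau.symm
      · exact haz.symm
      · rw [mul_assoc, ← haz, ← mul_assoc, ← hau, mul_assoc]
  have hsymm : ∀ A B, R A B → R B A := fun A B h => ⟨h.2.1, h.1, fun a ha b hb => (h.2.2 b hb a ha).symm⟩
  intro U V hU hV
  obtain ⟨B, A, hAE, h2, h3⟩ := key U hU
  obtain ⟨B', A', hAE', h2', h3'⟩ := key V hV
  have h4 : R A A' := ⟨h3.2.1, h3'.2.1, fun a ha b hb => hcomm _ (hAE ha) _ (hAE' hb)⟩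
  exact (((((Relation.ReflTransGen.refl.tail h2).tail h3).tail h4).tail (hsymm _ _ h3')).tail (hsymm _ _ h2'))

end Cfsg.Agent.S0502
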