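import Cfsg.Statements.S0505
import Cfsg.Agent.H19.CharP
import Cfsg.Agent.H1.Chief

set_option autoImplicit false
open Cfsg

namespace Cfsg.Agent.S0505

open Subgroup Cfsg.Agent Cfsg.Agent.H19

theorem conj_mem_of {G : Type*} [Group G] {L N : Subgroup G} (h : L ≤ normalizer (N : Set G)) {g x : G} (hg : g ∈ L)
    (hx : x ∈ N) : g * x * g⁻¹ ∈ N := (mem_normalizer_iff.mp (h hg) x).mp hx

theorem eq_one_of_odd_two {G : Type*} [Group G] {x : G} (h1 : (orderOf x).Coprime 2) {R : Subgroup G}
    (hR : IsPGroup 2 R) (hx : x ∈ R) : x = 1 := by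
  haveI : Fact (Nat.Prime 2) := ⟨Nat.prime_two⟩
  exact eq_one_of_mem_pGroup hR hx h1

theorem main {G : Type*} [Group G] [Finite G]
    (hs : ∀ t : G, orderOf t = 2 → Group.IsSolvable (Subgroup.centralizer ({t} : Set G)))
    (hc : ∀ t : G, orderOf t = 2 → Cfsg.oddCore (Subgroup.centralizer ({t} : Set G)) = ⊥)
    (T : Subgroup G) (hT : IsPGroup 2 T) (hT1 : T ≠ ⊥) :
    centralizer (pCore 2 (normalizer (T : Set G)) : Set (normalizer (T : Set G))) ≤ pCore 2 (normalizer (T : Set G)) := by
  classical
  haveI : Fact (Nat.Prime 2) := ⟨Nat.prime_two⟩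
  -- central involution
  haveI : Nontrivial T := (Subgroup.nontrivial_iff_ne_bot T).mpr hT1
  haveI := hT.center_nontrivial
  have hd2 : 2 ∣ Nat.card (center T) := by
    rcases (hT.to_subgroup (center T)).card_eq_or_dvd with h1 | h1
    · exfalso
      have := Finite.one_lt_card_iff_nontrivial.mpr (inferInstance : Nontrivial (center T))
      omega
    · exact h1
  obtain ⟨c, hcc⟩ := exists_prime_orderOf_dvd_card' 2 hd2
  obtain ⟨t, ht⟩ : ∃ t : G, t = ((c : T) : G) := ⟨_, rfl⟩
  have hto : orderOf t = 2 := by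
    rw [ht, Subgroup.orderOf_coe, Subgroup.orderOf_coe, hcc]
  have htT : t ∈ T := by rw [ht]; exact (c : T).2
  have hTC : T ≤ centralizer ({t} : Set G) := by
    intro x hx
    rw [mem_centralizer_singleton_iff]
    have h1 := mem_center_iff.mp c.2 ⟨x, hx⟩
    have h2 := congrArg Subtype.val h1
    rw [ht]
    exact h2
  set L := normalizer (T : Set G) with hL
  set C := centralizer ({t} : Set G) with hCdef
  have hCs : Group.IsSolvable C := hs t hto
  have hCc : centralizer (pCore 2 C : Set C) ≤ pCore 2 C := H1.centralizer_pCore_le hCs 2 (hc t hto)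
  have hCT : centralizer (T : Set G) ≤ C := by
    intro x hx
    rw [hCdef, mem_centralizer_singleton_iff]
    exact (mem_centralizer_iff.mp hx t htT).symm
  have hCL : centralizer (T : Set G) ≤ L := centralizer_le_normalizer _
  have hTL : T ≤ L := le_normalizer
  -- Step 1: the odd core of `L`
  have step1 : pPrimeCore 2 L = ⊥ := by
    have hn := H1.pPrimeCore_normal 2 L
    have hcop := H1.pPrimeCore_coprime 2 L
    rw [eq_bot_iff]
    intro x hx
    rw [mem_bot]
    apply Subtype.ext
    -- `x` has odd order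
    have hxo : (orderOf (x : G)).Coprime 2 := by
      rw [Subgroup.orderOf_coe]
      have h1 : orderOf (⟨x, hx⟩ : pPrimeCore 2 L) ∣ Nat.card (pPrimeCore 2 L) := orderOf_dvd_natCard _
      rw [orderOf_mk] at h1
      exact Nat.Coprime.coprime_dvd_left h1 hcop
    -- members of the core which are in a 2-group are trivial
    have hone : ∀ y : L, y ∈ pPrimeCore 2 L → ∀ R : Subgroup G, IsPGroup 2 R → (y : G) ∈ R → (y : G) = 1 := by
      intro y hy R hR hyR
      apply eq_one_of_odd_two _ hR hyR
      rw [Subgroup.orderOf_coe]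
      have h1 : orderOf (⟨y, hy⟩ : pPrimeCore 2 L) ∣ Nat.card (pPrimeCore 2 L) := orderOf_dvd_natCard _
      rw [orderOf_mk] at h1
      exact Nat.Coprime.coprime_dvd_left h1 hcop
    -- `x` commutes with elements of `L` normalized into a 2-group
    have hcomm : ∀ r : L, ∀ R : Subgroup G, IsPGroup 2 R → (r : G) ∈ R → (x : G) * r * (x : G)⁻¹ ∈ R → Commute (x : G) (r : G) := by
      intro r R hR hr hxr
      have h1 : x * (r * x⁻¹ * r⁻¹) ∈ pPrimeCore 2 L := mul_mem hx (hn.conj_mem _ (inv_mem hx) r)
      have h2 := hone _ h1 R hR (by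
        have : ((x * (r * x⁻¹ * r⁻¹) : L) : G) = ((x : G) * r * (x : G)⁻¹) * (r : G)⁻¹ := by
          push_cast; group
        rw [this]
        exact mul_mem hxr (inv_mem hr))
      have h3 : (x : G) * r * (x : G)⁻¹ * (r : G)⁻¹ = 1 := by
        rw [← h2]; push_cast; group
      rw [mul_inv_eq_one, mul_inv_eq_iff_eq_mul] at h3
      exact h3
    have hxT : ∀ b ∈ T, Commute (x : G) b := by
      intro b hb
      exact hcomm ⟨b, hTL hb⟩ T hT hb (conj_mem_of (le_refl L) x.2 hb)
    have hxC : (x : G) ∈ C := by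
      rw [hCdef, mem_centralizer_singleton_iff]
      exact (hxT t htT).eq
    have hR := opOf_isPGroup 2 C
    have h4 := axb hR hT hxo (le_normalizer_opOf 2 C hxC) (hTC.trans (le_normalizer_opOf 2 C)) hxT (by
      intro r hr hrT
      have hrL : r ∈ L := hCL (mem_centralizer_iff.mpr fun b hb => (hrT b hb).symm.eq)
      exact hcomm ⟨r, hrL⟩ _ hR hr (conj_mem_of (le_normalizer_opOf 2 C) hxC hr))
    have h5 : (⟨x, hxC⟩ : C) = 1 := by
      apply eq_one_of_charP hCc
      · rw [orderOf_mk]; exact hxo
      · intro r hr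
        have := h4 r ⟨r, hr, rfl⟩
        exact Subtype.ext this
    have h6 := congrArg (fun w : C => (w : G)) h5
    exact h6
  -- Step 2
  apply charP_subgroup_of_forall
  intro x hxL hxo hx
  have hTop : T ≤ opOf 2 L := le_opOf hTL (le_refl _) hT
  let Y : Subgroup G := L ⊓ centralizer (opOf 2 L : Set G)
  have hYC : Y ≤ C := by
    intro y hy
    apply hCT
    rw [mem_centralizer_iff]
    intro b hb
    exact mem_centralizer_iff.mp (Subgroup.mem_inf.mp hy).2 b (hTop hb)
  have hYs : Group.IsSolvable Y := by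
    exact solvable_of_solvable_injective (Subgroup.inclusion_injective hYC)
  have hLY : L ≤ normalizer (Y : Set G) := by
    intro g hg
    rw [mem_normalizer_iff]
    have key : ∀ g ∈ L, ∀ y ∈ Y, g * y * g⁻¹ ∈ Y := by
      intro g hg y hy
      obtain ⟨h1, h2⟩ := Subgroup.mem_inf.mp hy
      refine Subgroup.mem_inf.mpr ⟨mul_mem (mul_mem hg h1) (inv_mem hg), ?_⟩
      rw [mem_centralizer_iff]
      intro r hr
      have h3 : g⁻¹ * r * g ∈ opOf 2 L := by
        have := conj_mem_of (le_normalizer_opOf 2 L) (inv_mem hg) hr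
        rwa [inv_inv] at this
      have h4 := mem_centralizer_iff.mp h2 _ h3
      calc r * (g * y * g⁻¹) = g * ((g⁻¹ * r * g) * y) * g⁻¹ := by group
        _ = g * (y * (g⁻¹ * r * g)) * g⁻¹ := by rw [h4]
        _ = _ := by group
    intro y
    constructor
    · exact key g hg y
    · intro hy
      have := key g⁻¹ (inv_mem hg) _ hy
      have e : g⁻¹ * (g * y * g⁻¹) * g⁻¹⁻¹ = y := by group
      rwa [e] at this
  have hYp : pPrimeCore 2 Y = ⊥ := by
    have hn := H1.pPrimeCore_normal 2 Y
    have hcop := H1.pPrimeCore_coprime 2 Y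
    -- image in L
    let D : Subgroup G := (pPrimeCore 2 Y).map Y.subtype
    have hDL : D ≤ L := by
      rintro _ ⟨y, _, rfl⟩
      exact (Subgroup.mem_inf.mp y.2).1
    have hDconj : ∀ g ∈ L, ∀ y ∈ D, g * y * g⁻¹ ∈ D := by
      -- the core of Y is characteristic in Y
      intro g hg
      let φ : Y ≃* Y :=
        { toFun := fun y => ⟨g * y * g⁻¹, conj_mem_of hLY hg y.2⟩
          invFun := fun y => ⟨g⁻¹ * y * g, by
            have := conj_mem_of hLY (inv_mem hg) y.2
            rwa [inv_inv] at this⟩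
          left_inv := fun y => Subtype.ext (by simp [mul_assoc])
          right_inv := fun y => Subtype.ext (by simp [mul_assoc])
          map_mul' := fun a b => Subtype.ext (by simp [mul_assoc]) }
      have h1 : (pPrimeCore 2 Y).map φ.toMonoidHom ≤ pPrimeCore 2 Y := by
        apply H1.le_pPrimeCore (H1.normal_map_equiv φ hn)
        rw [Nat.card_congr ((pPrimeCore 2 Y).equivMapOfInjective φ.toMonoidHom φ.injective).toEquiv.symm]
        exact hcop
      rintro _ ⟨y, hy, rfl⟩
      exact ⟨φ y, h1 ⟨y, hy, rfl⟩, rfl⟩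
    have hDn : (D.subgroupOf L).Normal := by
      constructor
      intro y hy g
      rw [mem_subgroupOf] at hy ⊢
      exact hDconj g g.2 y hy
    have hDcard : (Nat.card (D.subgroupOf L)).Coprime 2 := by
      rw [Nat.card_congr (subgroupOfEquivOfLe hDL).toEquiv]
      have : Nat.card D = Nat.card (pPrimeCore 2 Y) :=
        Nat.card_congr ((pPrimeCore 2 Y).equivMapOfInjective Y.subtype Y.subtype_injective).toEquiv.symm
      rw [this]; exact hcop
    have h1 := H1.le_pPrimeCore hDn hDcard
    rw [step1] at h1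
    rw [eq_bot_iff]
    intro y hy
    have h2 : (⟨(y : G), (Subgroup.mem_inf.mp y.2).1⟩ : L) ∈ D.subgroupOf L := by
      rw [mem_subgroupOf]
      exact ⟨y, hy, rfl⟩
    have h3 := h1 h2
    rw [mem_bot] at h3 ⊢
    have h6 := congrArg (fun w : L => (w : G)) h3
    exact Subtype.ext h6
  have hYc := H1.centralizer_pCore_le hYs 2 hYp
  have hYop : opOf 2 Y ≤ opOf 2 L := by
    -- `O_2(Y)` is normalized by `L`
    apply le_opOf
    · exact (opOf_le 2 Y).trans inf_le_left
    · have key : ∀ g ∈ L, ∀ y ∈ opOf 2 Y, g * y * g⁻¹ ∈ opOf 2 Y := by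
        intro g hg
        let φ : Y ≃* Y :=
          { toFun := fun y => ⟨g * y * g⁻¹, conj_mem_of hLY hg y.2⟩
            invFun := fun y => ⟨g⁻¹ * y * g, by
              have := conj_mem_of hLY (inv_mem hg) y.2
              rwa [inv_inv] at this⟩
            left_inv := fun y => Subtype.ext (by simp [mul_assoc])
            right_inv := fun y => Subtype.ext (by simp [mul_assoc])
            map_mul' := fun a b => Subtype.ext (by simp [mul_assoc]) }
        have h1 : (pCore 2 Y).map φ.toMonoidHom ≤ pCore 2 Y :=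
          H1.le_pCore (H1.normal_map_equiv φ (H1.pCore_normal 2 Y)) ((H1.pCore_isPGroup 2 Y).map _)
        rintro _ ⟨y, hy, rfl⟩
        exact ⟨φ y, h1 ⟨y, hy, rfl⟩, rfl⟩
      intro g hg
      rw [mem_normalizer_iff]
      intro y
      constructor
      · exact key g hg y
      · intro hy
        have := key g⁻¹ (inv_mem hg) _ hy
        have e : g⁻¹ * (g * y * g⁻¹) * g⁻¹⁻¹ = y := by group
        rwa [e] at this
    · exact opOf_isPGroup 2 Y
  have hxY : x ∈ Y := by
    refine Subgroup.mem_inf.mpr ⟨hxL, ?_⟩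
    rw [mem_centralizer_iff]
    intro r hr
    exact (hx r hr).symm.eq
  have h5 : (⟨x, hxY⟩ : Y) = 1 := by
    apply eq_one_of_charP hYc
    · rw [orderOf_mk]; exact hxo
    · intro r hr
      have := hx r (hYop ⟨r, hr, rfl⟩)
      exact Subtype.ext this
  exact congrArg Subtype.val h5

/-- Let G be a finite group of even order in which the centralizer of every involution is solvable and has trivial
core (no nontrivial normal subgroup of odd order). Then G is of characteristic 2 type. -/
theorem result {G : Type*} [Group G] [Finite G]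
    (h2 : Even (Nat.card G))
    (hs : ∀ t : G, orderOf t = 2 → Group.IsSolvable (Subgroup.centralizer ({t} : Set G)))
    (hc : ∀ t : G, orderOf t = 2 → Cfsg.oddCore (Subgroup.centralizer ({t} : Set G)) = ⊥) :
    Cfsg.IsCharacteristicTwoType G := by
  exact ⟨h2, fun T hT hT1 => main hs hc T hT hT1⟩

end Cfsg.Agent.S0505
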