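import Cfsg.Statements.S0519
import Cfsg.Agent.H23.RankOne2

set_option autoImplicit false
set_option linter.all false
open Cfsg

namespace Cfsg.Agent.S0519

section aux
open Subgroup
open scoped commutatorElement
theorem aux {P : Type*} [Group P] [Finite P] (p : ℕ) [Fact p.Prime]
    (hP : IsPGroup p P) (hn : ∀ A : Subgroup P, A.Normal → IsMulCommutative A → IsCyclic A)
    (hm : ∃ B : Subgroup P, IsMulCommutative B ∧ ¬ IsCyclic B) :
    p = 2 ∧ ((∃ n : ℕ, Nonempty (P ≃* QuaternionGroup n)) ∨ (∃ n : ℕ, 8 ≤ n ∧ Nonempty (P ≃* DihedralGroup n)) ∨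
      Cfsg.IsQuasiDihedral P) := by
  have hpp := (Fact.out : p.Prime)
  rcases H23.cyclic_or_dqs hP (fun E hEn hEc hEp => by
    have h1 : IsMulCommutative E := ⟨⟨fun a b => Subtype.ext (H23.comm_of_card_sq hEc a a.2 b b.2)⟩⟩
    exact H23.not_isCyclic_of_exponent (p := p) (E := E) (by rw [hEc]; nlinarith [hpp.one_lt]) hEp (hn E hEn h1)) with h | ⟨rfl, n, hn'⟩
  · exfalso
    obtain ⟨B, -, hB⟩ := hm
    exact hB inferInstance
  · refine ⟨rfl, ?_⟩
    have hn1 : n ≠ 1 ∨ (∃ m : ℕ, Nonempty (P ≃* QuaternionGroup m)) := by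
      by_contra hcon
      push Not at hcon
      obtain ⟨rfl, hnQ⟩ := hcon
      have hcard := hn'.card
      obtain ⟨-, u, x, hu, hi, hx, h⟩ := hn'
      rcases h with h | h | h
      · -- normal four subgroup
        haveI hun : (zpowers u).Normal := normal_of_index_eq_two hi
        have hz : zpowers (u ^ (2 ^ 1)) ≤ center P := H23.omega_central hP hu hun
        haveI hzn : (zpowers (u ^ (2 ^ 1))).Normal := by
          refine ⟨fun a ha g => ?_⟩
          have := (mem_center_iff.mp (hz ha)) g
          rw [this, mul_inv_cancel_right]; exact ha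
        have hzu : zpowers (u ^ (2 ^ 1)) ≤ zpowers u := zpowers_le.mpr (pow_mem (mem_zpowers u) _)
        have hxz : x ∉ zpowers (u ^ (2 ^ 1)) := fun h' => hx (hzu h')
        have hoz : orderOf (u ^ (2 ^ 1)) = 2 := H23.orderOf_top_pow Nat.prime_two hu
        have hF := H23.card_sup_zpowers_of_pow_mem (p := 2) (B := zpowers (u ^ (2 ^ 1))) hxz
          (by rw [pow_two, h.2]; exact one_mem _)
        rw [Nat.card_zpowers, hoz] at hF
        set F := zpowers (u ^ (2 ^ 1)) ⊔ zpowers x with hFdef
        have hFi : F.index = 2 := by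
          have := card_mul_index F
          rw [hF, hcard] at this
          omega
        have hFn : F.Normal := normal_of_index_eq_two hFi
        have hFc := H23.comm_of_card_sq (p := 2) (E := F) (by rw [hF]; norm_num)
        have hFe : ∀ a ∈ F, a ^ 2 = 1 := by
          intro a ha
          rw [hFdef, mem_sup_of_normal_left] at ha
          obtain ⟨c, hc, d, hd, rfl⟩ := ha
          have hcd : Commute c d := (mem_center_iff.mp (hz hc) d).symm
          have hc2 : c ^ 2 = 1 := H23.pow_eq_one_of_mem_omega Nat.prime_two hu hc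
          obtain ⟨k, rfl⟩ := mem_zpowers_iff.mp hd
          rw [hcd.mul_pow, hc2, one_mul, ← zpow_natCast, ← zpow_mul, mul_comm, zpow_mul, zpow_natCast, pow_two, h.2, one_zpow]
        exact H23.not_isCyclic_of_exponent (p := 2) (E := F) (by rw [hF]; norm_num) hFe
          (hn F hFn ⟨⟨fun a b => Subtype.ext (hFc a a.2 b b.2)⟩⟩)
      · have := H23.nonempty_mulEquiv_quaternionGroup (2 ^ 1) u x (by rw [hu]; rfl) h.2 h.1 hx (H23.closure_pair_eq_top hi hx)
        exact (hnQ _).false this.some
      · omega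
    rcases hn1 with hn1 | hQ
    · have hge := hn'.1
      rcases hn'.named with h | h | h
      · refine Or.inr (Or.inl ⟨_, ?_, h⟩)
        have : 2 ^ 3 ≤ 2 ^ (n + 1) := Nat.pow_le_pow_right (by norm_num) (by omega)
        omega
      · exact Or.inl ⟨_, h⟩
      · exact Or.inr (Or.inr h.2)
    · exact Or.inl hQ
end aux

/-- Let P be a finite p-group in which every abelian normal subgroup is cyclic, but which has a non-cyclic abelian
subgroup. Then p = 2 and P is generalized quaternion, dihedral of order at least 16, or quasi-dihedral. -/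
theorem result {P : Type*} [Group P] [Finite P] (p : ℕ) [Fact p.Prime]
    (hP : IsPGroup p P) (hn : ∀ A : Subgroup P, A.Normal → IsMulCommutative A → IsCyclic A)
    (hm : ∃ B : Subgroup P, IsMulCommutative B ∧ ¬ IsCyclic B) :
    p = 2 ∧ ((∃ n : ℕ, Nonempty (P ≃* QuaternionGroup n)) ∨ (∃ n : ℕ, 8 ≤ n ∧ Nonempty (P ≃* DihedralGroup n)) ∨
      Cfsg.IsQuasiDihedral P) := by
  exact aux p hP hn hm

end Cfsg.Agent.S0519
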