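import Cfsg.Statements.S0521
import Cfsg.Agent.H2.OddSolv
import Cfsg.Agent.H2.Frat
import Cfsg.Agent.H23.Coprime2
import Cfsg.Agent.H1.Coprime

set_option autoImplicit false
open Cfsg

namespace Cfsg.Agent.S0521

theorem isPGroup_of_no {G : Type*} [Group G] [Finite G] {p : ℕ} (hp : p.Prime) (D : Subgroup G)
    (h : ∀ y ∈ D, (orderOf y).Coprime p → y = 1) : IsPGroup p D := by
  have h1 : Nat.card D = p ^ (Nat.card D).primeFactorsList.length := by
    apply Nat.eq_prime_pow_of_unique_prime_dvd Nat.card_pos.ne'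
    intro q hq hqd
    by_contra hne
    haveI := Fact.mk hq
    obtain ⟨y, hy⟩ := exists_prime_orderOf_dvd_card' q hqd
    have h2 : orderOf (y : G) = q := by rw [Subgroup.orderOf_coe, hy]
    have h3 := h y y.2 (by rw [h2]; exact (Nat.coprime_primes hq hp).mpr hne)
    rw [h3, orderOf_one] at h2
    exact hq.one_lt.ne h2
  exact IsPGroup.of_card h1

theorem core {Y : Type*} [Group Y] [Finite Y] (hs : Group.IsSolvable Y) (hodd : Odd (Nat.card Y)) {p : ℕ} [hp : Fact p.Prime]
    (hp2 : p ≠ 2) (hc : Cfsg.pPrimeCore p Y = ⊥) (S : Subgroup Y) (hS : IsPGroup p S) (hQS : Cfsg.pCore p Y ≤ S)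
    (hcyc : IsCyclic ↥(⁅S, S⁆ : Subgroup Y)) : S ≤ Cfsg.pCore p Y := by
  classical
  set Q := Cfsg.pCore p Y with hQ
  haveI hQn : Q.Normal := inferInstance
  have hQp : IsPGroup p Q := H1.pCore_isPGroup p Y
  have hCQ : Subgroup.centralizer (Q : Set Y) ≤ Q := H1.centralizer_pCore_le hs p hc
  set Φ : Subgroup Y := (frattini Q).map Q.subtype with hΦ
  haveI : Φ.Normal := inferInstance
  let f := QuotientGroup.mk' Φ
  have hfs : Function.Surjective f := QuotientGroup.mk'_surjective Φ
  have hker : ∀ x, f x = 1 ↔ x ∈ Φ := fun x => by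
    rw [← MonoidHom.mem_ker, QuotientGroup.ker_mk']
  haveI : (Q.map f).Normal := hQn.map f hfs
  intro a ha
  -- quadratic action
  have hquad : ⁅⁅Q, Subgroup.zpowers a⁆, Subgroup.zpowers a⁆ ≤ Φ := by
    set D := ⁅Q, Subgroup.zpowers a⁆ with hD
    have hDQ : D ≤ Q := Subgroup.commutator_le_left _ _
    have hDS : D ≤ ⁅S, S⁆ := Subgroup.commutator_mono hQS (by rwa [Subgroup.zpowers_le])
    have hDc : IsCyclic D := isCyclic_of_injective (Subgroup.inclusion hDS) (Subgroup.inclusion_injective hDS)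
    by_cases hD1 : D = ⊥
    · rw [hD1, Subgroup.commutator_bot_left]; exact bot_le
    have hnorm : Subgroup.zpowers a ≤ Subgroup.normalizer (D : Set Y) := by
      rw [hD]
      exact H1.right_le_normalizer_commutator _ _
    have hlt := H23.commutator_lt_of_isPGroup (hQp.to_le hDQ) (hS.to_le (by rwa [Subgroup.zpowers_le])) hnorm hD1
    obtain ⟨d, hd⟩ := hDc.exists_generator
    intro x hx
    have hxD : x ∈ D := hlt.le hx
    obtain ⟨k, hk⟩ := Subgroup.mem_zpowers_iff.mp (hd ⟨x, hxD⟩)
    have hpk : (p : ℤ) ∣ k := by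
      by_contra hnk
      apply hlt.not_ge
      intro y hy
      -- d is a power of x
      have hcop : IsCoprime k (p : ℤ) := ((Nat.prime_iff_prime_int.mp hp.out).coprime_iff_not_dvd.mpr hnk).symm
      obtain ⟨m, hm⟩ := (IsPGroup.iff_orderOf.mp (hQp.to_le hDQ)) d
      have hcop2 : IsCoprime k ((orderOf d : ℕ) : ℤ) := by
        rw [hm, Nat.cast_pow]; exact hcop.pow_right
      obtain ⟨u, v, huv⟩ := hcop2
      obtain ⟨j, hj⟩ := Subgroup.mem_zpowers_iff.mp (hd ⟨y, hy⟩)
      have h3 : d = (⟨x, hxD⟩ : D) ^ u := by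
        rw [← hk, ← zpow_mul, mul_comm k u]
        have h4 : d ^ (u * k + v * ((orderOf d : ℕ) : ℤ)) = d := by rw [huv, zpow_one]
        have h5 : d ^ (v * ((orderOf d : ℕ) : ℤ)) = 1 := by
          rw [mul_comm, zpow_mul, zpow_natCast, pow_orderOf_eq_one, one_zpow]
        rw [zpow_add, h5, mul_one] at h4
        exact h4.symm
      have h5 : y = x ^ (u * j) := by
        have h6 := congrArg Subtype.val hj
        rw [h3, ← zpow_mul] at h6
        exact h6.symm
      rw [h5]
      exact Subgroup.zpow_mem _ hx _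
    obtain ⟨l, rfl⟩ := hpk
    have h6 : x = ((d : Y) ^ l) ^ p := by
      have h7 := congrArg Subtype.val hk
      have h8 : ((d : Y) ^ ((p : ℤ) * l)) = x := h7
      rw [← h8, mul_comm, zpow_mul, zpow_natCast]
    rw [h6]
    refine ⟨(⟨(d : Y) ^ l, Q.zpow_mem (hDQ d.2) l⟩ : Q) ^ p, H2.pow_mem_frattini hQp _, rfl⟩
  have hquad' : ⁅⁅Q.map f, Subgroup.zpowers (f a)⁆, Subgroup.zpowers (f a)⁆ = ⊥ := by
    rw [← MonoidHom.map_zpowers, ← Subgroup.map_commutator, ← Subgroup.map_commutator, eq_bot_iff]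
    rintro _ ⟨x, hx, rfl⟩
    exact Subgroup.mem_bot.mpr ((hker x).mpr (hquad hx))
  have hpinf := H2.pInf_of_not_SLConcl hp2 (H2.not_SLConcl_of_odd (H2.odd_quotient hodd Φ)) (Q.map f) (hQp.map f) (f a) hquad'
  obtain ⟨D₁, hD₁n, haD₁, hD₁⟩ := hpinf
  have hD : IsPGroup p (D₁.comap f) := by
    apply isPGroup_of_no hp.out
    intro y hy hyc
    obtain ⟨m, hm⟩ := hD₁ _ hy
    -- f y centralizes V
    have h1 : f y ∈ Subgroup.centralizer ((Q.map f : Subgroup (Y ⧸ Φ)) : Set (Y ⧸ Φ)) := by
      have hc2 : ((p ^ m : ℕ)).Coprime (orderOf (f y)) := by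
        apply Nat.Coprime.pow_left
        exact (Nat.Coprime.coprime_dvd_left (orderOf_map_dvd f y) hyc).symm
      obtain ⟨n, hn⟩ := exists_pow_eq_self_of_coprime hc2
      rw [← hn]
      exact Subgroup.pow_mem _ hm n
    have h2 : ⁅Q, Subgroup.zpowers y⁆ ≤ Φ := by
      have h3 : ⁅Q.map f, Subgroup.zpowers (f y)⁆ = ⊥ := by
        rw [Subgroup.commutator_eq_bot_iff_le_centralizer]
        intro v hv
        rw [Subgroup.mem_centralizer_iff]
        intro w hw
        obtain ⟨i, rfl⟩ := Subgroup.mem_zpowers_iff.mp hw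
        exact ((Subgroup.mem_centralizer_iff.mp (Subgroup.zpow_mem _ h1 i)) v hv).symm
      rw [← MonoidHom.map_zpowers, ← Subgroup.map_commutator] at h3
      intro x hx
      rw [← hker]
      have : f x ∈ (⁅Q, Subgroup.zpowers y⁆).map f := ⟨x, hx, rfl⟩
      rw [h3] at this
      exact Subgroup.mem_bot.mp this
    have h3 : (Nat.card (Subgroup.zpowers y)).Coprime (Nat.card Q) := by
      obtain ⟨n, hn⟩ := IsPGroup.iff_card.mp hQp
      rw [Nat.card_zpowers, hn]
      exact hyc.pow_right n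
    have h4 := H23.le_centralizer_of_commutator_le_frattini (A := Subgroup.zpowers y) (G := Q)
      (by rw [Subgroup.normalizer_eq_top]; exact le_top) h3
      (Or.inr (H23.isSolvable_of_isPGroup hQp)) h2
    have h5 : y ∈ Q := by
      apply hCQ
      rw [Subgroup.mem_centralizer_iff]
      intro x hx
      exact ((Subgroup.mem_centralizer_iff.mp (h4 hx)) y (Subgroup.mem_zpowers y)).symm
    obtain ⟨n, hn⟩ := (IsPGroup.iff_orderOf.mp hQp) ⟨y, h5⟩
    rw [Subgroup.orderOf_mk] at hn
    rw [hn] at hyc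
    have h6 : n = 0 := by
      by_contra hn0
      have h7 : p ∣ 1 := by
        rw [← hyc.gcd_eq_one]
        exact Nat.dvd_gcd (dvd_pow_self p hn0) dvd_rfl
      exact hp.out.one_lt.ne' (Nat.dvd_one.mp h7)
    rw [h6, pow_zero] at hn
    exact orderOf_eq_one_iff.mp hn
  exact H1.le_pCore (hD₁n.comap f) hD haD₁

/-- Let X be a finite solvable group of odd order, p a prime and S a Sylow p-subgroup of X whose commutator subgroup is
cyclic. Then the product of the largest normal subgroup of X of order prime to p with S is a normal subgroup of X. -/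
theorem result {X : Type*} [Group X] [Finite X] [Group.IsSolvable X]
    (hX : Odd (Nat.card X)) (p : ℕ) [Fact p.Prime] (S : Sylow p X) (hS : IsCyclic (commutator (S : Subgroup X))) :
    (Cfsg.pPrimeCore p X ⊔ (S : Subgroup X)).Normal := by
  have hp : p.Prime := Fact.out
  by_cases hp2 : p = 2
  · subst hp2
    have h1 : (S : Subgroup X) = ⊥ := H2.eq_bot_of_odd hX S.2
    rw [h1, sup_bot_eq]
    infer_instance
  set N := Cfsg.pPrimeCore p X with hN
  let f := QuotientGroup.mk' N
  have hfs : Function.Surjective f := QuotientGroup.mk'_surjective N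
  have hsol : Group.IsSolvable X := inferInstance
  have h1 : ((S : Subgroup X).map f) ≤ Cfsg.pCore p (X ⧸ N) := by
    have hcop : Cfsg.pPrimeCore p (X ⧸ N) = ⊥ := H1.pPrimeCore_quotient_eq_bot p
    have hcy2 : IsCyclic ↥(⁅(S : Subgroup X), (S : Subgroup X)⁆.map f) := by
      rw [← Subgroup.map_subtype_commutator]
      haveI h2 : IsCyclic ↥((commutator (S : Subgroup X)).map (S : Subgroup X).subtype) :=
        isCyclic_of_surjective _ ((S : Subgroup X).subtype.subgroupMap_surjective (commutator (S : Subgroup X)))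
      exact isCyclic_of_surjective _ (f.subgroupMap_surjective _)
    refine core (Group.isSolvable_of_surjective hfs) (H2.odd_quotient hX N) hp2 hcop _ (S.2.map f) ?_ ?_
    · have h2 := H1.pCore_le_sylow (S.mapSurjective hfs)
      exact h2
    · rw [← Subgroup.map_commutator]
      exact hcy2
  have h2 : ((S : Subgroup X).map f) = Cfsg.pCore p (X ⧸ N) := le_antisymm h1 (H1.pCore_le_sylow (S.mapSurjective hfs))
  have h3 : ((S : Subgroup X).map f).Normal := by rw [h2]; infer_instance
  have h4 := h3.comap f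
  rw [Subgroup.comap_map_eq, QuotientGroup.ker_mk', sup_comm] at h4
  exact h4

end Cfsg.Agent.S0521
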