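import Cfsg.Statements.S1480
import Cfsg.Agent.H18.Trans2
import Cfsg.Agent.H24.ClassTwo

set_option autoImplicit false
open Cfsg
open Cfsg.Agent.H18 Cfsg.Agent.H10
open scoped commutatorElement Pointwise

namespace Cfsg.Agent.S1480

/-- Let G be a finite group and p a prime such that the normalizer of every nontrivial p-subgroup of G is p-constrained; if p = 2 assume also that the Sylow 2-subgroups of G have nilpotency class at most 2. Let E be an abelian p-subgroup containing an elementary abelian subgroup of order p ^ 3 and containing every element of p-power order of C_G(E). Then for every prime q ≠ p, any two maximal E-invariant q-subgroups of G are conjugate by an element of O_{p'}(C_G(E)). -/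
theorem result {G : Type*} [Group G] [Finite G] (p : ℕ) [Fact p.Prime]
    (hloc : ∀ T : Subgroup G, IsPGroup p T → T ≠ ⊥ → Cfsg.IsPConstrained p ↥(Subgroup.normalizer (T : Set G)))
    (h2 : p = 2 → ∀ S : Sylow p G, Group.IsNilpotent (S : Subgroup G) ∧ Group.nilpotencyClass (S : Subgroup G) ≤ 2)
    (E : Subgroup G) (hEp : IsPGroup p E) (hEc : IsMulCommutative E) (hE3 : ¬ Cfsg.PRankLE p 2 E)
    (hEfull : ∀ x ∈ Subgroup.centralizer (E : Set G), IsPGroup p (Subgroup.zpowers x) → x ∈ E)
    (q : ℕ) [Fact q.Prime] (hqp : q ≠ p) :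
    ∀ Q₁ ∈ Cfsg.maxInvSubgroups ⊤ E {q}, ∀ Q₂ ∈ Cfsg.maxInvSubgroups ⊤ E {q},
        ∃ k ∈ Cfsg.piCoreOf (Cfsg.primesNotDvd p) (Subgroup.centralizer (E : Set G)), Q₂ = Q₁.map (MulAut.conj k).toMonoidHom := by
  have hp : p.Prime := Fact.out
  have hEc' : ∀ a ∈ E, ∀ b ∈ E, a * b = b * a := fun a ha b hb =>
    congrArg Subtype.val (hEc.is_comm.comm (⟨a, ha⟩ : E) ⟨b, hb⟩)
  -- the elementary abelian subgroup
  obtain ⟨A, hAc, hAp, hAcard⟩ : ∃ A : Subgroup E, IsMulCommutative A ∧ (∀ a ∈ A, a ^ p = 1) ∧
      p ^ 2 < Nat.card A := by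
    by_contra hcon
    apply hE3
    intro A h1 h2
    by_contra h3
    exact hcon ⟨A, h1, h2, not_le.1 h3⟩
  set B : Subgroup G := A.map E.subtype with hB
  have hBE : B ≤ E := Subgroup.map_subtype_le A
  have hBel : IsElementaryAbelian p B := by
    refine elab_of_comm (fun a ha b hb => hEc' a (hBE ha) b (hBE hb)) ?_
    rintro _ ⟨a, ha, rfl⟩
    have := hAp a ha
    rw [← map_pow, this, map_one]
  have hBc : p ^ 3 ≤ Nat.card B := by
    rw [hB, H1.card_map_subtype]
    obtain ⟨n, hn⟩ := IsPGroup.iff_card.1 (hEp.to_subgroup A)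
    rw [hn] at hAcard ⊢
    have h1 : 2 < n := (Nat.pow_lt_pow_iff_right hp.one_lt).1 hAcard
    exact Nat.pow_le_pow_right hp.pos h1
  set K := Cfsg.piCoreOf (Cfsg.primesNotDvd p) (Subgroup.centralizer (E : Set G)) with hK
  have hloc' : ∀ D ≤ B, Nat.card D = p → ∃ O : Subgroup G, (Nat.card O).Coprime p ∧
      E ≤ Subgroup.normalizer (O : Set G) ∧ ∀ Y : Subgroup G, IsPGroup q Y →
        Y ≤ Subgroup.centralizer (D : Set G) → E ≤ Subgroup.normalizer (Y : Set G) → Y ≤ O := by
    intro D hDB hDc
    have hDE : D ≤ E := hDB.trans hBE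
    have hDp : IsPGroup p D := hEp.to_le hDE
    have hD1 : D ≠ ⊥ := by
      rintro rfl
      rw [Subgroup.card_bot] at hDc
      exact hp.one_lt.ne hDc
    have hED : E ≤ Subgroup.centralizer (D : Set G) := by
      intro a ha
      rw [Subgroup.mem_centralizer_iff]
      intro d hd
      exact hEc' d (hDE hd) a ha
    set X := Subgroup.normalizer (D : Set G) with hX
    have hEX : E ≤ X := hED.trans (Subgroup.centralizer_le_normalizer _)
    have hXc : IsPConstrained p X := hloc D hDp hD1
    have hEp' : IsPGroup p (E.subgroupOf X) := H10.isPGroup_subgroupOf hEp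
    have hfull : ∀ x ∈ Subgroup.centralizer ((E.subgroupOf X : Subgroup X) : Set X),
        IsPElt p x → x ∈ E.subgroupOf X := by
      rintro x hx ⟨k, hk⟩
      rw [Subgroup.mem_subgroupOf]
      apply hEfull
      · rw [Subgroup.mem_centralizer_iff] at hx ⊢
        intro e he
        exact congrArg Subtype.val (hx ⟨e, hEX he⟩ (Subgroup.mem_subgroupOf.2 he))
      · have h1 : (x : G) ^ p ^ k = 1 := congrArg Subtype.val hk
        obtain ⟨m, -, hm⟩ := (Nat.dvd_prime_pow hp).1 (orderOf_dvd_of_pow_eq_one h1)
        apply IsPGroup.of_card (n := m)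
        rw [Nat.card_zpowers, hm]
    refine ⟨(pPrimeCore p X).map X.subtype, ?_, ?_, ?_⟩
    · rw [H1.card_map_subtype]; exact pPrimeCore_coprime p X
    · exact hEX.trans (Subgroup.le_normalizer.trans
        (by
          haveI := pPrimeCore_characteristic p X
          exact H23.normalizer_le_normalizer_map _))
    · intro Y hY hYD hEY
      have hYX : Y ≤ X := hYD.trans (Subgroup.centralizer_le_normalizer _)
      have hYc : (Nat.card (Y.subgroupOf X)).Coprime p := by
        rw [H1.card_subgroupOf hYX]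
        obtain ⟨n, hn⟩ := IsPGroup.iff_card.1 hY
        rw [hn]
        exact Nat.Coprime.pow_left n ((Nat.coprime_primes Fact.out hp).2 hqp)
      have hEY' : E.subgroupOf X ≤ Subgroup.normalizer ((Y.subgroupOf X : Subgroup X) : Set X) := by
        intro e he
        apply mem_normalizer_of_conj_le
        intro y hy
        rw [Subgroup.mem_subgroupOf] at he hy ⊢
        exact (Subgroup.mem_normalizer_iff.1 (hEY he) _).1 hy
      have key : Y.subgroupOf X ≤ pPrimeCore p X := by
        by_cases hp2 : p = 2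
        · -- the normal case
          obtain ⟨T, hT⟩ := hEp'.exists_le_sylow
          refine scn_invariant hXc (T := (T : Subgroup X)) T.isPGroup' (Sylow.not_dvd_index T) hEp' ?_
            hfull hYc hEY'
          obtain ⟨S, hS⟩ := (T.isPGroup'.map X.subtype).exists_le_sylow
          obtain ⟨hSn, hScl⟩ := h2 hp2 S
          have hcl : ∀ x ∈ (S : Subgroup G), ∀ y ∈ (S : Subgroup G), ∀ z ∈ (S : Subgroup G),
              ⁅x, y⁆ * z = z * ⁅x, y⁆ := by
            intro x hx y hy z hz
            haveI := hSn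
            have h1 := H24.class_two_commute hScl (⟨x, hx⟩ : (S : Subgroup G)) ⟨y, hy⟩ ⟨z, hz⟩
            exact congrArg Subtype.val h1.eq
          intro t ht
          have htS : (t : G) ∈ (S : Subgroup G) := hS ⟨t, ht, rfl⟩
          have hES : ∀ e ∈ E, e ∈ (S : Subgroup G) := fun e he =>
            hS ⟨⟨e, hEX he⟩, hT (Subgroup.mem_subgroupOf.2 he), rfl⟩
          apply mem_normalizer_of_conj_le
          intro e he
          rw [Subgroup.mem_subgroupOf] at he ⊢
          have h3 : ⁅(t : G), (e : G)⁆ ∈ E := by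
            apply hEfull
            · rw [Subgroup.mem_centralizer_iff]
              intro e' he'
              exact (hcl _ htS _ (hES _ he) _ (hES _ he')).symm
            · apply H23.isPGroup_zpowers_of_mem S.isPGroup'
              rw [commutatorElement_def]
              exact mul_mem (mul_mem (mul_mem htS (hES _ he)) (inv_mem htS)) (inv_mem (hES _ he))
          have h4 : ((t * e * t⁻¹ : X) : G) = ⁅(t : G), (e : G)⁆ * e := by
            push_cast
            rw [commutatorElement_def]; group
          rw [h4]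
          exact mul_mem h3 he
        · refine odd_invariant hp2 hXc hEp' ?_ hYc hEY'
          intro x hx hxo
          exact hfull x hx ⟨1, by rw [pow_one, ← hxo]; exact pow_orderOf_eq_one x⟩
      intro y hy
      exact ⟨⟨y, hYX hy⟩, key (Subgroup.mem_subgroupOf.2 hy), rfl⟩
  intro Q₁ hQ₁ Q₂ hQ₂
  obtain ⟨c, hc, hcQ⟩ := transitivity_aux hqp (K := K) hEp hBel hBE hBc
    (OOT.piCoreOf_le _ _)
    (fun Y hY hYC => le_core_centralizer hEp hEc' hEfull hY hYC) hloc' hEc' hQ₁ hQ₂
  exact ⟨c, hc, hcQ.symm⟩

end Cfsg.Agent.S1480
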