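import Cfsg.Statements.S0522
import Cfsg.Agent.S1480
import Cfsg.Agent.H23.PSolvable
import Cfsg.Agent.H9.Syl

set_option autoImplicit false
open Cfsg

namespace Cfsg.Agent.S0522

/-- Transitivity Theorem (odd-order setting). Let X be a finite group of odd order in which the normalizer of every
nontrivial p-subgroup is solvable, P a Sylow p-subgroup, and B an abelian subgroup of P, normalized by P, with
C_P(B) = B and containing an elementary abelian subgroup of order p^3. Then for every prime q ≠ p, any two q-subgroups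
that are maximal among the q-subgroups normalized by B are conjugate by an element of the centralizer of B. -/
theorem result {X : Type*} [Group X] [Finite X] (hX : Odd (Nat.card X)) (p : ℕ)
    [Fact p.Prime] (hloc : ∀ T : Subgroup X, IsPGroup p T → T ≠ ⊥ → Group.IsSolvable (Subgroup.normalizer (T : Set X)))
    (P : Sylow p X) (B : Subgroup X) (hBP : B ≤ (P : Subgroup X))
    (hBn : ∀ x ∈ (P : Subgroup X), ∀ b ∈ B, x * b * x⁻¹ ∈ B) (hBa : IsMulCommutative B)
    (hBc : (P : Subgroup X) ⊓ Subgroup.centralizer (B : Set X) = B)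
    (hB3 : ∃ E : Subgroup X, E ≤ B ∧ (∀ e ∈ E, e ^ p = 1) ∧ p ^ 3 ≤ Nat.card E)
    (q : ℕ) [Fact q.Prime] (hqp : q ≠ p) (Q₁ Q₂ : Subgroup X)
    (h₁ : IsPGroup q Q₁ ∧ B ≤ Subgroup.normalizer (Q₁ : Set X) ∧
      ∀ R : Subgroup X, IsPGroup q R → B ≤ Subgroup.normalizer (R : Set X) → Q₁ ≤ R → R = Q₁)
    (h₂ : IsPGroup q Q₂ ∧ B ≤ Subgroup.normalizer (Q₂ : Set X) ∧
      ∀ R : Subgroup X, IsPGroup q R → B ≤ Subgroup.normalizer (R : Set X) → Q₂ ≤ R → R = Q₂) :
    ∃ c ∈ Subgroup.centralizer (B : Set X), Q₂ = Q₁.map (MulAut.conj c).toMonoidHom := by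
  have hp : p.Prime := Fact.out
  have hq : q.Prime := Fact.out
  obtain ⟨E, hEB, hEp, hE3⟩ := hB3
  have hBp : IsPGroup p B := P.isPGroup'.to_le hBP
  have hPN : (P : Subgroup X) ≤ Subgroup.normalizer (B : Set X) := by
    intro x hx
    rw [Subgroup.mem_normalizer_iff]
    intro b
    refine ⟨fun hb => hBn x hx b hb, fun hb => ?_⟩
    have h := hBn x⁻¹ (inv_mem hx) _ hb
    have e : x⁻¹ * (x * b * x⁻¹) * x⁻¹⁻¹ = b := by group
    rwa [e] at h
  have hcong := S1480.result (G := X) p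
    (fun T hT hT1 => H23.isPConstrained_of_isPSolvable (H23.isPSolvable_of_isSolvable (hloc T hT hT1)))
    (by
      rintro rfl
      exfalso
      have h1 : ∀ e ∈ E, e = 1 := by
        intro e he
        have h2 : orderOf e ∣ 2 := orderOf_dvd_of_pow_eq_one (hEp e he)
        have h3 : Odd (orderOf e) := Odd.of_dvd_nat hX (orderOf_dvd_natCard e)
        rcases (Nat.dvd_prime Nat.prime_two).mp h2 with h | h
        · exact orderOf_eq_one_iff.mp h
        · rw [h] at h3; exact absurd h3 (by decide)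
      have h2 : E = ⊥ := (Subgroup.eq_bot_iff_forall _).mpr h1
      rw [h2, Subgroup.card_bot] at hE3
      norm_num at hE3)
    B hBp hBa (by
      intro h
      have h1 := h (E.subgroupOf B) (by
        refine ⟨⟨fun a b => ?_⟩⟩
        apply Subtype.ext
        exact hBa.is_comm.comm (a : B) (b : B)) (by
        intro a ha
        apply Subtype.ext
        exact hEp a (Subgroup.mem_subgroupOf.mp ha))
      rw [Nat.card_congr (Subgroup.subgroupOfEquivOfLe hEB).toEquiv] at h1
      have h2 : p ^ 2 < p ^ 3 := Nat.pow_lt_pow_right hp.one_lt (by norm_num)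
      omega)
    (by
      intro x hx hxp
      have hxN : Subgroup.zpowers x ≤ Subgroup.normalizer (B : Set X) := by
        rw [Subgroup.zpowers_le]
        exact Subgroup.centralizer_le_normalizer (B : Set X) hx
      obtain ⟨c, hc, hcP⟩ := H9.Syl.exists_smul_ge P hPN hxp hxN
      have h1 := H9.Syl.mem_smul_iff.mp (hcP (Subgroup.mem_zpowers x))
      have h2 : c⁻¹ * x * c ∈ Subgroup.centralizer (B : Set X) := by
        rw [Subgroup.mem_centralizer_iff] at hx ⊢
        intro b hb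
        have h3 := hx (c * b * c⁻¹) ((Subgroup.mem_normalizer_iff.mp hc b).mp hb)
        calc b * (c⁻¹ * x * c) = c⁻¹ * ((c * b * c⁻¹) * x) * c := by group
          _ = c⁻¹ * (x * (c * b * c⁻¹)) * c := by rw [h3]
          _ = c⁻¹ * x * c * b := by group
      have h3 : c⁻¹ * x * c ∈ B := by
        rw [← hBc]
        exact Subgroup.mem_inf.mpr ⟨h1, h2⟩
      have h4 := (Subgroup.mem_normalizer_iff.mp hc _).mp h3
      have e : c * (c⁻¹ * x * c) * c⁻¹ = x := by group
      rwa [e] at h4)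
    q hqp
  have hmem : ∀ Q : Subgroup X, (IsPGroup q Q ∧ B ≤ Subgroup.normalizer (Q : Set X) ∧
      ∀ R : Subgroup X, IsPGroup q R → B ≤ Subgroup.normalizer (R : Set X) → Q ≤ R → R = Q) →
      Q ∈ Cfsg.maxInvSubgroups ⊤ B {q} := by
    rintro Q ⟨h1, h2, h3⟩
    refine ⟨⟨le_top, ?_, h2⟩, ?_⟩
    · intro r hr hrd
      rw [Set.mem_singleton_iff]
      obtain ⟨k, hk⟩ := IsPGroup.iff_card.mp h1
      rw [hk] at hrd
      exact (Nat.prime_dvd_prime_iff_eq hr hq).mp (hr.dvd_of_dvd_pow hrd)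
    · rintro R ⟨_, hR2, hR3⟩ hQR
      refine h3 R ?_ hR3 hQR
      have h4 : Nat.card R = q ^ (Nat.card R).primeFactorsList.length :=
        Nat.eq_prime_pow_of_unique_prime_dvd Nat.card_pos.ne' (fun {r} hr hrd => hR2 r hr hrd)
      exact IsPGroup.of_card h4
  obtain ⟨k, hk, hkQ⟩ := hcong Q₁ (hmem Q₁ h₁) Q₂ (hmem Q₂ h₂)
  obtain ⟨y, _, rfl⟩ := hk
  exact ⟨_, y.2, hkQ⟩

end Cfsg.Agent.S0522
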