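import Cfsg.Statements.S0533
import Cfsg.Agent.H1.CLT

set_option autoImplicit false
open Cfsg

namespace Cfsg.Agent.S0533

/-- If every subgroup of a finite group has subgroups of all orders dividing its order, then the group is supersolvable. -/
theorem result {G : Type*} [Group G] [Finite G] (h : ∀ H : Subgroup G, Cfsg.HasSubgroupOfEveryOrder H) : Cfsg.IsSupersolvable G := by
    exact Cfsg.Agent.H1.clt_ss_aux _ G rfl h

end Cfsg.Agent.S0533
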