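import Cfsg.Statements.S0534
import Cfsg.Agent.S0531
import Cfsg.Agent.H1.Super2
import Cfsg.Agent.H1.Hall

set_option autoImplicit false
open Cfsg

namespace Cfsg.Agent.S0534

/-- Let G be a finite solvable group and A a finite abelian group such that every prime dividing the order of A divides the order of G and, for each prime p dividing the order of G, the exponent of p in the order of A is one less than its exponent in the order of G. Then G × A has a subgroup of every order dividing its order. -/
theorem result {G A : Type*} [Group G] [CommGroup A] [Finite G] [Finite A] [Group.IsSolvable G] (hA : ∀ p : ℕ, p.Prime → p ∣ Nat.card A → p ∣ Nat.card G) (hexp : ∀ p : ℕ, p.Prime → p ∣ Nat.card G → (Nat.card A).factorization p + 1 = (Nat.card G).factorization p) : Cfsg.HasSubgroupOfEveryOrder (G × A) := by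
    classical
    intro d hd
    set g := Nat.card G with hg
    set a := Nat.card A with ha
    have hg0 : g ≠ 0 := Nat.card_pos.ne'
    have ha0 : a ≠ 0 := Nat.card_pos.ne'
    rw [Nat.card_prod] at hd
    have hd0 : d ≠ 0 := by
      rintro rfl
      exact mul_ne_zero hg0 ha0 (zero_dvd_iff.1 hd)
    have hfd : ∀ p : ℕ, p.Prime → d.factorization p ≤ g.factorization p + a.factorization p := by
      intro p hp
      have h1 := (Nat.factorization_le_iff_dvd hd0 (mul_ne_zero hg0 ha0)).2 hd p
      rwa [Nat.factorization_mul hg0 ha0, Finsupp.add_apply] at h1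
    let f : ℕ →₀ ℕ := g.factorization.filter (fun p => g.factorization p ≤ d.factorization p)
    have hf1 : ∀ p, g.factorization p ≤ d.factorization p → f p = g.factorization p := fun p hp =>
      Finsupp.filter_apply_pos _ _ hp
    have hf2 : ∀ p, ¬ g.factorization p ≤ d.factorization p → f p = 0 := fun p hp =>
      Finsupp.filter_apply_neg _ _ hp
    have hfg : f ≤ g.factorization := by
      intro p
      by_cases h : g.factorization p ≤ d.factorization p
      · rw [hf1 p h]
      · rw [hf2 p h]; exact Nat.zero_le _
    have hfd' : f ≤ d.factorization := by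
      intro p
      by_cases h : g.factorization p ≤ d.factorization p
      · rw [hf1 p h]; exact h
      · rw [hf2 p h]; exact Nat.zero_le _
    set m := f.prod (· ^ ·) with hm
    have hmf : m.factorization = f := Nat.factorization_prod_pow_eq_self_of_le_factorization hfg
    have hmg : m ∣ g := Nat.prod_pow_dvd_of_le_factorization hfg
    have hmd : m ∣ d := Nat.prod_pow_dvd_of_le_factorization hfd'
    have hm0 : m ≠ 0 := fun h => hg0 (by rw [h] at hmg; exact zero_dvd_iff.1 hmg)
    obtain ⟨n, hn⟩ := hmg
    obtain ⟨c, hc⟩ := hmd
    have hn0 : n ≠ 0 := by rintro rfl; rw [mul_zero] at hn; exact hg0 hn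
    have hc0 : c ≠ 0 := by rintro rfl; rw [mul_zero] at hc; exact hd0 hc
    have hcop : m.Coprime n := by
      refine Nat.coprime_of_dvd fun p hp h1 h2 => ?_
      have h3 : 0 < m.factorization p := hp.factorization_pos_of_dvd hm0 h1
      have h4 : 0 < n.factorization p := hp.factorization_pos_of_dvd hn0 h2
      have h5 : g.factorization p = m.factorization p + n.factorization p := by
        rw [hn, Nat.factorization_mul hm0 hn0, Finsupp.add_apply]
      rw [hmf] at h3 h5
      by_cases h : g.factorization p ≤ d.factorization p
      · rw [hf1 p h] at h5; omega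
      · rw [hf2 p h] at h3; omega
    have hca : c ∣ a := by
      rw [← Nat.factorization_le_iff_dvd hc0 ha0]
      intro p
      by_cases hp : p.Prime
      swap
      · rw [Nat.factorization_eq_zero_of_not_prime c hp]; exact Nat.zero_le _
      have h5 : d.factorization p = m.factorization p + c.factorization p := by
        rw [hc, Nat.factorization_mul hm0 hc0, Finsupp.add_apply]
      rw [hmf] at h5
      have h6 := hfd p hp
      by_cases hpg : p ∣ g
      · have h7 := hexp p hp hpg
        by_cases h : g.factorization p ≤ d.factorization p
        · rw [hf1 p h] at h5; omega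
        · rw [hf2 p h] at h5; omega
      · have h7 : a.factorization p = 0 := by
          refine Nat.factorization_eq_zero_of_not_dvd fun h => hpg (hA p hp h)
        have h8 : g.factorization p = 0 := Nat.factorization_eq_zero_of_not_dvd hpg
        omega
    obtain ⟨H, hH⟩ := Cfsg.Agent.H1.hall_exists (G := G) inferInstance (hg ▸ hn) hcop
    obtain ⟨C, hC⟩ := Cfsg.Agent.S0531.result (Cfsg.Agent.H1.ss_of_nilpotent_aux _ A rfl inferInstance) c hca
    refine ⟨H.prod C, ?_⟩
    rw [Nat.card_congr (H.prodEquiv C).toEquiv, Nat.card_prod, hH, hC, hc]

end Cfsg.Agent.S0534
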