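import Cfsg.Statements.S0535
import Cfsg.Agent.H1.HallConv

set_option autoImplicit false
open Cfsg

namespace Cfsg.Agent.S0535

theorem aux {G : Type*} [Group G] [Finite G] (h : ∀ H : Subgroup G, H ≠ ⊥ → ∀ p : ℕ, p.Prime → p ∣ Nat.card H → ∃ K : Subgroup H, K ≠ ⊤ ∧ ∃ k : ℕ, K.index = p ^ k) (n : ℕ) :
    ∀ H : Subgroup G, Nat.card H = n → Group.IsSolvable H := by
  induction n using Nat.strong_induction_on with
  | _ n ih =>
    intro H hn
    by_cases hH : H = ⊥
    · subst hH
      infer_instance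
    have key : ∀ K : Subgroup H, K ≠ ⊤ → Group.IsSolvable K := by
      intro K hK
      have h1 : Nat.card (K.map H.subtype) = Nat.card K := Cfsg.Agent.H1.card_map_subtype K
      have h2 : Nat.card K < Nat.card H := by
        have := Cfsg.Agent.H1.card_lt_of_lt' (lt_top_iff_ne_top.mpr hK)
        rwa [Subgroup.card_top] at this
      have h3 := ih _ (hn ▸ h1 ▸ h2) (K.map H.subtype) rfl
      exact Cfsg.Agent.H1.isSolvable_of_equiv
        (K.equivMapOfInjective H.subtype H.subtype_injective).symm h3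
    rcases Cfsg.Agent.H1.two_or_three_primes (Nat.card H) with ⟨p, q, hp, hq, hr⟩ | ⟨p, q, r, hp, hq, hr, hpq, hpr, hqr, hpn, hqn, hrn⟩
    · exact Cfsg.Agent.H3.burnside_paqb p q hp hq _ H rfl hr
    · obtain ⟨K₁, h₁, k₁, e₁⟩ := h H hH p hp hpn
      obtain ⟨K₂, h₂, k₂, e₂⟩ := h H hH q hq hqn
      obtain ⟨K₃, h₃, k₃, e₃⟩ := h H hH r hr hrn
      refine Cfsg.Agent.H1.isSolvable_of_three_coprime_indices (key K₁ h₁) (key K₂ h₂) (key K₃ h₃) ?_ ?_ ?_
      · rw [e₁, e₂]; exact Nat.Coprime.pow _ _ ((Nat.coprime_primes hp hq).mpr hpq)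
      · rw [e₁, e₃]; exact Nat.Coprime.pow _ _ ((Nat.coprime_primes hp hr).mpr hpr)
      · rw [e₂, e₃]; exact Nat.Coprime.pow _ _ ((Nat.coprime_primes hq hr).mpr hqr)

/-- Suppose that for every nontrivial subgroup H of a finite group and every prime p dividing the order of H there is a proper subgroup of H whose index in H is a power of p. Then the group is solvable. -/
theorem result {G : Type*} [Group G] [Finite G] (h : ∀ H : Subgroup G, H ≠ ⊥ → ∀ p : ℕ, p.Prime → p ∣ Nat.card H → ∃ K : Subgroup H, K ≠ ⊤ ∧ ∃ k : ℕ, K.index = p ^ k) : Group.IsSolvable G := by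
  have h1 : Group.IsSolvable (⊤ : Subgroup G) := aux h _ ⊤ rfl
  exact Cfsg.Agent.H1.isSolvable_of_equiv Subgroup.topEquiv h1

end Cfsg.Agent.S0535
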