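import Cfsg.Statements.S0550
import Cfsg.Agent.H1.Struct1

set_option autoImplicit false
open Cfsg

namespace Cfsg.Agent.S0550

/-- Let U be a maximal subgroup with trivial normal core in a finite group G, and A ≠ B two minimal normal subgroups. Then A is the centralizer of B and B that of A, U complements each of them, A and B are non-abelian, and A, B and (A ⊔ B) ∩ U are pairwise isomorphic. -/
theorem result {G : Type*} [Group G] [Finite G] (U : Subgroup G) (hU : IsCoatom U) (hcore : U.normalCore = ⊥) (A B : Subgroup G) [A.Normal] [B.Normal] (hA : A ≠ ⊥) (hB : B ≠ ⊥) (hAmin : ∀ K : Subgroup G, K.Normal → K ≤ A → K = ⊥ ∨ K = A) (hBmin : ∀ K : Subgroup G, K.Normal → K ≤ B → K = ⊥ ∨ K = B) (hAB : A ≠ B) : Subgroup.centralizer (B : Set G) = A ∧ Subgroup.centralizer (A : Set G) = B ∧ Subgroup.IsComplement' A U ∧ Subgroup.IsComplement' B U ∧ ¬ IsMulCommutative A ∧ Nonempty (A ≃* B) ∧ Nonempty (A ≃* ↥((A ⊔ B) ⊓ U)) := by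
  have hdis : ∀ X Y : Subgroup G, X.Normal → Y.Normal →
      (∀ K : Subgroup G, K.Normal → K ≤ X → K = ⊥ ∨ K = X) →
      (∀ K : Subgroup G, K.Normal → K ≤ Y → K = ⊥ ∨ K = Y) → X ≠ Y → X ⊓ Y = ⊥ := by
    intro X Y hX hY h1 h2 hXY
    haveI := hX; haveI := hY
    rcases h1 (X ⊓ Y) inferInstance inf_le_left with h | h
    · exact h
    · rcases h2 (X ⊓ Y) inferInstance inf_le_right with h' | h'
      · exact h'
      · exact absurd (h.symm.trans h') hXY
  have hd : A ⊓ B = ⊥ := hdis A B inferInstance inferInstance hAmin hBmin hAB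
  have hAC : A ≤ Subgroup.centralizer (B : Set G) := by
    intro a ha
    rw [Subgroup.mem_centralizer_iff]
    intro b hb
    exact (Subgroup.commute_of_normal_of_disjoint B A inferInstance inferInstance
      (by rw [disjoint_iff, inf_comm]; exact hd) b a hb ha).eq
  have hBC : B ≤ Subgroup.centralizer (A : Set G) := by rwa [Subgroup.le_centralizer_iff]
  have e1 : Subgroup.centralizer (B : Set G) = A := by
    rcases Cfsg.Agent.H1.centralizer_minimal_coreFree hU hcore inferInstance hB A inferInstance hAC with h | h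
    · exact absurd h hA
    · exact h.symm
  have e2 : Subgroup.centralizer (A : Set G) = B := by
    rcases Cfsg.Agent.H1.centralizer_minimal_coreFree hU hcore inferInstance hA B inferInstance hBC with h | h
    · exact absurd h hB
    · exact h.symm
  have iA : A ⊓ U = ⊥ := by
    have := Cfsg.Agent.H1.centralizer_inf_coreFree hU hcore inferInstance hB
    rwa [e1] at this
  have iB : B ⊓ U = ⊥ := by
    have := Cfsg.Agent.H1.centralizer_inf_coreFree hU hcore inferInstance hA
    rwa [e2] at this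
  have sA := Cfsg.Agent.H1.sup_eq_top_of_coreFree hU hcore (N := A) inferInstance hA
  have sB := Cfsg.Agent.H1.sup_eq_top_of_coreFree hU hcore (N := B) inferInstance hB
  -- the diagonal
  have key : ∀ X Y : Subgroup G, X.Normal → Y.Normal → X ⊓ Y = ⊥ → X ⊓ U = ⊥ → X ⊔ U = ⊤ →
      Nonempty (Y ≃* ↥((X ⊔ Y) ⊓ U)) := by
    intro X Y hX hY hXY hXU hXUs
    haveI := hX; haveI := hY
    have f1 : Function.Injective ((QuotientGroup.mk' X).subgroupMap Y) := by
      rw [injective_iff_map_eq_one]
      intro y hy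
      have h1 : (y : G) ∈ X := by
        have := congrArg Subtype.val hy
        exact (QuotientGroup.eq_one_iff (y : G)).mp this
      have : (y : G) ∈ X ⊓ Y := Subgroup.mem_inf.mpr ⟨h1, y.2⟩
      rw [hXY, Subgroup.mem_bot] at this
      exact Subtype.ext this
    have f2 : Function.Injective ((QuotientGroup.mk' X).subgroupMap ((X ⊔ Y) ⊓ U)) := by
      rw [injective_iff_map_eq_one]
      intro y hy
      have h1 : (y : G) ∈ X := by
        have := congrArg Subtype.val hy
        exact (QuotientGroup.eq_one_iff (y : G)).mp this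
      have : (y : G) ∈ X ⊓ U := Subgroup.mem_inf.mpr ⟨h1, y.2.2⟩
      rw [hXU, Subgroup.mem_bot] at this
      exact Subtype.ext this
    have e : Y.map (QuotientGroup.mk' X) = ((X ⊔ Y) ⊓ U).map (QuotientGroup.mk' X) := by
      have h1 := Cfsg.Agent.H1.normal_sup_inf_of_le (M := X) (X := X ⊔ Y) U le_sup_left
      rw [hXUs, top_inf_eq, inf_comm] at h1
      have h2 := congrArg (Subgroup.map (QuotientGroup.mk' X)) h1
      rw [Subgroup.map_sup, Subgroup.map_sup, QuotientGroup.map_mk'_self, bot_sup_eq, bot_sup_eq] at h2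
      exact h2
    exact ⟨(MulEquiv.ofBijective _ ⟨f1, (QuotientGroup.mk' X).subgroupMap_surjective Y⟩).trans
      ((MulEquiv.subgroupCongr e).trans (MulEquiv.ofBijective _ ⟨f2, (QuotientGroup.mk' X).subgroupMap_surjective _⟩).symm)⟩
  obtain ⟨φ⟩ := key A B inferInstance inferInstance hd iA sA
  obtain ⟨ψ⟩ := key B A inferInstance inferInstance (by rw [inf_comm]; exact hd) iB sB
  have ψ' : A ≃* ↥((A ⊔ B) ⊓ U) := ψ.trans (MulEquiv.subgroupCongr (by rw [sup_comm]))
  refine ⟨e1, e2, Cfsg.Agent.H1.isComplement'_of_inf_sup iA sA, Cfsg.Agent.H1.isComplement'_of_inf_sup iB sB,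
    ?_, ⟨ψ'.trans φ.symm⟩, ⟨ψ'⟩⟩
  intro hc
  have h1 : A ≤ Subgroup.centralizer (A : Set G) := Subgroup.le_centralizer_iff_isMulCommutative.mpr hc
  rw [e2] at h1
  apply hA
  rw [eq_bot_iff, ← hd]
  exact le_inf le_rfl h1

end Cfsg.Agent.S0550
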