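import Cfsg.Statements.S0552
import Cfsg.Agent.H1.Chief

set_option autoImplicit false
open Cfsg

namespace Cfsg.Agent.S0552

/-- Let σ be an automorphism of a finite solvable group G fixing every element of the Fitting subgroup. If σ is not the identity then the order of σ and the order of G have a common prime factor. -/
theorem result {G : Type*} [Group G] [Finite G] [Group.IsSolvable G] (σ : G ≃* G) (hσ : ∀ x ∈ Cfsg.fittingSubgroup G, σ x = x) (hne : σ ≠ MulEquiv.refl G) : ¬ (orderOf σ).Coprime (Nat.card G) := by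
  intro hcop
  apply hne
  ext x
  change σ x = x
  set F := fittingSubgroup G with hF
  haveI : F.Normal := by rw [hF, Cfsg.Agent.H1.fitting_eq_iSup_pCore]; exact Cfsg.Agent.H1.iSup_pCore_normal G
  -- `x⁻¹ σ x` centralizes `F`
  have h1 : x⁻¹ * σ x ∈ F := by
    apply Cfsg.Agent.H1.centralizer_fitting_le inferInstance
    rw [Subgroup.mem_centralizer_iff]
    intro f hf
    have h2 : x * f * x⁻¹ ∈ F := Subgroup.Normal.conj_mem inferInstance f hf x
    have h3 := hσ _ h2
    rw [map_mul, map_mul, map_inv, hσ f hf] at h3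
    -- σx f σx⁻¹ = x f x⁻¹
    have h4 : σ x * f = x * f * x⁻¹ * σ x := by rw [← h3]; group
    calc f * (x⁻¹ * σ x) = x⁻¹ * (x * f * x⁻¹ * σ x) := by group
      _ = x⁻¹ * (σ x * f) := by rw [h4]
      _ = x⁻¹ * σ x * f := by group
  set f := x⁻¹ * σ x with hf
  have hx : σ x = x * f := by rw [hf]; group
  have hpow : ∀ n : ℕ, (σ ^ n) x = x * f ^ n := by
    intro n
    induction n with
    | zero => simp
    | succ n ih =>
      rw [pow_succ', MulAut.mul_apply, ih, map_mul, map_pow, hx, hσ f h1, pow_succ', mul_assoc]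
  have h2 := hpow (orderOf σ)
  rw [pow_orderOf_eq_one, MulAut.one_apply] at h2
  have h3 : f ^ orderOf σ = 1 := by
    have : x * 1 = x * f ^ orderOf σ := by rw [mul_one]; exact h2
    exact (mul_left_cancel this).symm
  have h4 : orderOf f ∣ orderOf σ := orderOf_dvd_of_pow_eq_one h3
  have h5 : orderOf f ∣ Nat.card G := orderOf_dvd_natCard f
  have h6 : orderOf f = 1 := Nat.eq_one_of_dvd_coprimes hcop h4 h5
  rw [hx, orderOf_eq_one_iff.mp h6, mul_one]

end Cfsg.Agent.S0552
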