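import Cfsg.Statements.S0554
import Cfsg.Agent.H1.Struct2

set_option autoImplicit false
open Cfsg

namespace Cfsg.Agent.S0554

universe v

/-- absorb an element of a normal subgroup into the `j`-th factor -/
theorem absorb {G : Type*} [Group G] (N : Subgroup G) [N.Normal] (t : ℕ) :
    ∀ (s : Fin t → G) (j : Fin t) (n : G), n ∈ N →
      ∃ m ∈ N, (List.ofFn s).prod * n = (List.ofFn (Function.update s j (s j * m))).prod := by
  induction t with
  | zero => intro s j; exact j.elim0
  | succ t ih =>
    intro s j n hn
    rw [List.ofFn_succ, List.prod_cons]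
    refine Fin.cases ?_ (fun j => ?_) j
    · set P := (List.ofFn fun i : Fin t => s i.succ).prod with hP
      refine ⟨P * n * P⁻¹, Subgroup.Normal.conj_mem inferInstance n hn P, ?_⟩
      rw [List.ofFn_succ, List.prod_cons]
      have h1 : (fun i : Fin t => Function.update s 0 (s 0 * (P * n * P⁻¹)) i.succ) =
          fun i : Fin t => s i.succ := by
        funext i
        rw [Function.update_of_ne (Fin.succ_ne_zero i)]
      rw [h1, ← hP, Function.update_self]
      group
    · obtain ⟨m, hm, h⟩ := ih (fun i => s i.succ) j n hn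
      refine ⟨m, hm, ?_⟩
      rw [List.ofFn_succ, List.prod_cons, mul_assoc, h]
      have e0 : Function.update s j.succ (s j.succ * m) 0 = s 0 :=
        Function.update_of_ne (Fin.succ_ne_zero j).symm _ _
      rw [e0]
      congr 3
      funext i
      by_cases hij : i = j
      · subst hij; rw [Function.update_self, Function.update_self]
      · rw [Function.update_of_ne hij, Function.update_of_ne (fun h => hij (Fin.succ_injective _ h))]

theorem aux (n : ℕ) : ∀ (G : Type v) [Group G] [Finite G], Nat.card G = n → Group.IsSolvable G →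
    ∀ (t : ℕ) (p : Fin t → ℕ) (hp : ∀ i, (p i).Prime)
    (hall : ∀ q : ℕ, q.Prime → q ∣ Nat.card G → ∃ i, p i = q)
    (S : (i : Fin t) → Sylow (p i) G) (g : G),
    ∃ s : (i : Fin t) → G, (∀ i, s i ∈ (S i : Subgroup G)) ∧ g = (List.ofFn s).prod := by
  induction n using Nat.strong_induction_on with
  | _ n ih =>
    intro G _ _ hn hs t p hp hall S g
    by_cases hnt : Subsingleton G
    · refine ⟨fun _ => 1, fun i => one_mem _, ?_⟩
      exact Subsingleton.elim _ _
    rw [not_subsingleton_iff_nontrivial] at hnt
    obtain ⟨N, hN, hne, -, hmin⟩ := Cfsg.Agent.H1.exists_minimal_normal_le (G := G) (N := ⊤) inferInstance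
      Cfsg.Agent.H1.top_ne_bot
    obtain ⟨hNc, r, hr, hNr, -⟩ := Cfsg.Agent.H1.minimal_normal_solvable hN hne hmin inferInstance
    haveI : Fact r.Prime := ⟨hr⟩
    have hrN : r ∣ Nat.card N := by
      obtain ⟨k, hk⟩ := IsPGroup.iff_card.mp hNr
      rw [hk]
      apply dvd_pow_self
      rintro rfl
      rw [pow_zero] at hk
      exact hne (Subgroup.card_eq_one.mp hk)
    obtain ⟨j, hj⟩ := hall r hr (hrN.trans (Subgroup.card_subgroup_dvd_card N))
    have hNj : N ≤ (S j : Subgroup G) := by
      have h1 : IsPGroup (p j) N := by rw [hj]; exact hNr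
      exact h1.le_sylow_of_normal (S j)
    haveI : ∀ i, Fact (p i).Prime := fun i => ⟨hp i⟩
    obtain ⟨s', hs', hg'⟩ := ih _ (hn ▸ Cfsg.Agent.H1.card_quotient_lt hne) (G ⧸ N) rfl inferInstance t p hp
      (fun q hq hqd => hall q hq (hqd.trans (Cfsg.Agent.H1.card_quotient_dvd N)))
      (fun i => (S i).mapSurjective (QuotientGroup.mk'_surjective N)) (QuotientGroup.mk' N g)
    have hc : ∀ i, ∃ x ∈ (S i : Subgroup G), QuotientGroup.mk' N x = s' i := fun i => hs' i
    choose s hs1 hs2 using hc
    have h1 : QuotientGroup.mk' N ((List.ofFn s).prod) = QuotientGroup.mk' N g := by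
      rw [hg', map_list_prod, List.map_ofFn]
      congr 2
      funext i
      exact hs2 i
    have h2 : (List.ofFn s).prod⁻¹ * g ∈ N := QuotientGroup.eq.mp h1
    obtain ⟨m, hm, h⟩ := absorb N t s j _ h2
    refine ⟨Function.update s j (s j * m), ?_, ?_⟩
    · intro i
      by_cases hij : i = j
      · subst hij
        rw [Function.update_self]
        exact mul_mem (hs1 i) (hNj hm)
      · rw [Function.update_of_ne hij]
        exact hs1 i
    · rw [← h, mul_inv_cancel_left]

/-- Let G be a finite solvable group and let S assign to each of t distinct primes, including every prime divisor of the order of G, a Sylow subgroup of G. Then every element of G is a product s_0 s_1 ⋯ s_(t-1) with s_i in S i, the factors taken in the given order. -/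
theorem result {G : Type*} [Group G] [Finite G] [Group.IsSolvable G] (t : ℕ) (p : Fin t → ℕ) (hp : ∀ i, (p i).Prime) (hinj : Function.Injective p) (hall : ∀ q : ℕ, q.Prime → q ∣ Nat.card G → ∃ i, p i = q) (S : (i : Fin t) → Sylow (p i) G) : ∀ g : G, ∃ s : (i : Fin t) → G, (∀ i, s i ∈ (S i : Subgroup G)) ∧ g = (List.ofFn s).prod := by
  exact aux _ G rfl inferInstance t p hp hall S

end Cfsg.Agent.S0554
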