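import Cfsg.Statements.S0561
import Cfsg.Agent.H1.Factor

set_option autoImplicit false
open Pointwise
open Cfsg
open scoped Pointwise commutatorElement

namespace Cfsg.Agent.S0561

/-- Let the finite solvable group G be the product HK of subgroups, and let A be normal in H and B normal in K, where A and B are Hall subgroups of G (order coprime to index). Then for all x, y the product set of xAx⁻¹ and yBy⁻¹ is a subgroup of G. -/
theorem result {G : Type*} [Group G] [Finite G] [Group.IsSolvable G] (H K A B : Subgroup G) (hHK : ∀ g : G, ∃ h ∈ H, ∃ k ∈ K, g = h * k) (hA : A ≤ H) (hAn : (A.subgroupOf H).Normal) (hB : B ≤ K) (hBn : (B.subgroupOf K).Normal) (hAh : (Nat.card A).Coprime A.index) (hBh : (Nat.card B).Coprime B.index) (x y : G) : ∃ S : Subgroup G, (S : Set G) = ((MulAut.conj x • A : Subgroup G) : Set G) * ((MulAut.conj y • B : Subgroup G) : Set G) := by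
    have hA' : H ≤ Subgroup.normalizer (A : Set G) :=
      (Subgroup.normal_subgroupOf_iff_le_normalizer hA).mp hAn
    have hB' : K ≤ Subgroup.normalizer (B : Set G) :=
      (Subgroup.normal_subgroupOf_iff_le_normalizer hB).mp hBn
    obtain ⟨z, hz1, hz2⟩ := Cfsg.Agent.H1.exists_common_conj hHK x y
    rw [Cfsg.Agent.H1.conj_smul_eq_of_inv_mul_mem hA' hz1,
      Cfsg.Agent.H1.conj_smul_eq_of_inv_mul_mem hB' hz2]
    refine Cfsg.Agent.H1.factor_hall ‹_› (Cfsg.Agent.H1.factor_conj_smul hHK z) ?_ ?_ ?_ ?_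
    · rw [← Cfsg.Agent.H1.conj_smul_normalizer]
      exact Cfsg.Agent.H1.conj_smul_le_conj_smul_iff.mpr hA'
    · rw [← Cfsg.Agent.H1.conj_smul_normalizer]
      exact Cfsg.Agent.H1.conj_smul_le_conj_smul_iff.mpr hB'
    · rw [Cfsg.Agent.H1.card_conj_smul, Cfsg.Agent.H1.index_conj_smul]; exact hAh
    · rw [Cfsg.Agent.H1.card_conj_smul, Cfsg.Agent.H1.index_conj_smul]; exact hBh

end Cfsg.Agent.S0561
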