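import Cfsg.Statements.S0563
import Cfsg.Agent.H1.KegelWielandt

set_option autoImplicit false
open Pointwise
open Cfsg
open scoped Pointwise commutatorElement

namespace Cfsg.Agent.S0563

/-- If a finite group G is the product AB of two nilpotent subgroups of coprime orders, then G is solvable, and for every Sylow p-subgroup P of A and Sylow q-subgroup Q of B the product set PQ is a subgroup. -/
theorem result {G : Type*} [Group G] [Finite G] (A B : Subgroup G) (hA : Group.IsNilpotent A) (hB : Group.IsNilpotent B) (hcop : (Nat.card A).Coprime (Nat.card B)) (hAB : ∀ g : G, ∃ a ∈ A, ∃ b ∈ B, g = a * b) : Group.IsSolvable G ∧ ∀ (p q : ℕ) [Fact p.Prime] [Fact q.Prime] (P : Sylow p A) (Q : Sylow q B), ∃ S : Subgroup G, (S : Set G) = (((P : Subgroup A).map A.subtype : Subgroup G) : Set G) * (((Q : Subgroup B).map B.subtype : Subgroup G) : Set G) := by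
    have hs := Cfsg.Agent.H1.wielandt_solvable_aux _ G rfl A B hA hB hcop hAB
    refine ⟨hs, ?_⟩
    intro p q _ _ P Q
    rw [Cfsg.Agent.H1.sylow_map_eq_part hA P, Cfsg.Agent.H1.sylow_map_eq_part hB Q]
    have hcard : Nat.card G = Nat.card A * Nat.card B := by
      have h1 := Cfsg.Agent.H1.card_of_factor hAB
      rwa [Cfsg.Agent.H1.inf_eq_bot_of_card_coprime hcop, Subgroup.card_bot, mul_one] at h1
    have hAi : A.index = Nat.card B := by
      have h1 := A.card_mul_index
      rw [hcard] at h1
      exact Nat.eq_of_mul_eq_mul_left Nat.card_pos h1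
    have hBi : B.index = Nat.card A := by
      have h1 := B.card_mul_index
      rw [hcard, mul_comm (Nat.card A)] at h1
      exact Nat.eq_of_mul_eq_mul_left Nat.card_pos h1
    have key : ∀ (X : Subgroup G) (t : ℕ) [ht : Fact t.Prime], Group.IsNilpotent X →
        (Nat.card X).Coprime X.index →
        (Nat.card (Cfsg.Agent.H1.part t X)).Coprime (Cfsg.Agent.H1.part t X).index := by
      intro X t ht hX hc
      obtain ⟨k, hk⟩ := IsPGroup.iff_card.mp (Cfsg.Agent.H1.part_isPGroup t X)
      rw [hk]
      cases k with
      | zero => simp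
      | succ k =>
        apply Nat.Coprime.pow_left
        rw [Nat.Prime.coprime_iff_not_dvd ht.out]
        apply Cfsg.Agent.H1.not_dvd_index_part hX hc
        have h1 := Cfsg.Agent.H1.card_dvd_of_le' (Cfsg.Agent.H1.part_le t X)
        rw [hk] at h1
        exact (dvd_pow_self t (Nat.succ_ne_zero k)).trans h1
    exact Cfsg.Agent.H1.factor_hall hs hAB (Cfsg.Agent.H1.le_normalizer_part p A)
      (Cfsg.Agent.H1.le_normalizer_part q B) (key A p hA (by rw [hAi]; exact hcop))
      (key B q hB (by rw [hBi]; exact hcop.symm))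

end Cfsg.Agent.S0563
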