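import Cfsg.Statements.S0567
import Cfsg.Agent.H1.Coprime

set_option autoImplicit false
open Cfsg
open scoped Pointwise commutatorElement

namespace Cfsg.Agent.S0567

/-- A subgroup H of a group G is subnormal exactly when, for some m, the subgroup obtained from G by taking the commutator with H m times in succession is contained in H. -/
theorem result {G : Type*} [Group G] (H : Subgroup G) : H.IsSubnormal ↔ ∃ m : ℕ, (fun K : Subgroup G => ⁅K, H⁆)^[m] ⊤ ≤ H := by
  constructor
  · intro h
    have key : ∀ K : Subgroup G, K.IsSubnormal → ∀ H : Subgroup G, H ≤ K →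
        ∃ m : ℕ, (fun L : Subgroup G => ⁅L, H⁆)^[m] ⊤ ≤ K := by
      intro K hK
      induction hK with
      | top => intro H _; exact ⟨0, le_rfl⟩
      | step H' K h_le hSubn hN ih =>
        intro H hH
        obtain ⟨m, hm⟩ := ih H (hH.trans h_le)
        refine ⟨m + 1, ?_⟩
        rw [Function.iterate_succ_apply']
        refine (Subgroup.commutator_mono hm hH).trans ?_
        rw [← Subgroup.le_normalizer_iff_commutator_le_right]
        exact (Subgroup.normal_subgroupOf_iff_le_normalizer h_le).mp hN
    exact key H h H le_rfl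
  · rintro ⟨m, hm⟩
    have key : ∀ j : ℕ, (H ⊔ (fun L : Subgroup G => ⁅L, H⁆)^[j] ⊤).IsSubnormal := by
      intro j
      induction j with
      | zero =>
        have : H ⊔ (fun L : Subgroup G => ⁅L, H⁆)^[0] ⊤ = ⊤ := sup_top_eq H
        rw [this]; exact Subgroup.IsSubnormal.top
      | succ j ih =>
        rw [Function.iterate_succ_apply']
        set L := (fun L : Subgroup G => ⁅L, H⁆)^[j] ⊤ with hL
        change (H ⊔ ⁅L, H⁆).IsSubnormal
        have h1 : ⁅L, H⁆ ≤ H ⊔ L := by
          rw [Subgroup.commutator_le]
          intro l hl h hh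
          rw [commutatorElement_def]
          have h2 : l ∈ H ⊔ L := Subgroup.mem_sup_right hl
          have h3 : h ∈ H ⊔ L := Subgroup.mem_sup_left hh
          exact mul_mem (mul_mem (mul_mem h2 h3) (inv_mem h2)) (inv_mem h3)
        refine Subgroup.IsSubnormal.step _ (H ⊔ L) (sup_le le_sup_left h1) ih ?_
        apply Subgroup.normal_subgroupOf_of_le_normalizer
        refine sup_le (le_sup_left.trans Subgroup.le_normalizer) ?_
        have hn : L ≤ Subgroup.normalizer (⁅L, H⁆ : Subgroup G) := Subgroup.normalizer_commutator_ge_left L H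
        have hle : ∀ l ∈ L, MulAut.conj l • (H ⊔ ⁅L, H⁆) ≤ H ⊔ ⁅L, H⁆ := by
          intro l hl
          rw [Cfsg.Agent.H1.conj_smul_sup]
          refine sup_le ?_ ?_
          · intro x hx
            rw [Cfsg.Agent.H1.mem_conj_smul] at hx
            have e : x = (l * (l⁻¹ * x * l) * l⁻¹ * (l⁻¹ * x * l)⁻¹) * (l⁻¹ * x * l) := by group
            rw [e]
            exact mul_mem (Subgroup.mem_sup_right (Subgroup.commutator_mem_commutator hl hx))
              (Subgroup.mem_sup_left hx)
          · rw [Cfsg.Agent.H1.mem_normalizer_iff_conj_smul.mp (hn hl)]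
            exact le_sup_right
        intro l hl
        rw [Cfsg.Agent.H1.mem_normalizer_iff_conj_smul]
        apply le_antisymm (hle l hl)
        have := hle l⁻¹ (inv_mem hl)
        rw [← Cfsg.Agent.H1.conj_smul_le_conj_smul_iff (g := l), Cfsg.Agent.H1.conj_smul_smul,
          mul_inv_cancel, Cfsg.Agent.H1.conj_one_smul] at this
        exact this
    have := key m
    rwa [sup_eq_left.mpr hm] at this

end Cfsg.Agent.S0567
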