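import Cfsg.Statements.S0569
import Cfsg.Agent.H1.Carter

set_option autoImplicit false
open Cfsg
open scoped Pointwise

namespace Cfsg.Agent.S0569

/-- In a finite solvable group: each nilpotent self-normalizing subgroup contains the system normalizer of some Hall complement system, and the system normalizer of any Hall complement system lies in some nilpotent self-normalizing subgroup. -/
theorem result {G : Type*} [Group G] [Finite G] [Group.IsSolvable G] : (∀ C : Subgroup G, Cfsg.IsCarterSubgroup C → ∃ K : Nat.Primes → Subgroup G, Cfsg.IsComplementSystem K ∧ Cfsg.systemNormalizer K ≤ C) ∧ ∀ K : Nat.Primes → Subgroup G, Cfsg.IsComplementSystem K → ∃ C : Subgroup G, Cfsg.IsCarterSubgroup C ∧ Cfsg.systemNormalizer K ≤ C := by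
  have hs : Group.IsSolvable G := inferInstance
  constructor
  · intro C hC
    obtain ⟨K, hK, hr⟩ := Cfsg.Agent.H1.exists_reduces hs C
    exact ⟨K, hK, Cfsg.Agent.H1.systemNormalizer_le_carter hs hC hK hr⟩
  · intro K hK
    obtain ⟨C, hC⟩ := Cfsg.Agent.H1.carter_exists hs
    obtain ⟨L, hL, hr⟩ := Cfsg.Agent.H1.exists_reduces hs C
    have h1 := Cfsg.Agent.H1.systemNormalizer_le_carter hs hC hL hr
    obtain ⟨g, hg⟩ := Cfsg.Agent.H1.complementSystem_conj hs hL hK
    refine ⟨MulAut.conj g • C, Cfsg.Agent.H1.carter_conj_smul hC g, ?_⟩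
    rw [← Cfsg.Agent.H1.systemNormalizer_eq_of_conj hg]
    exact Cfsg.Agent.H1.conj_smul_le_conj_smul_iff.mpr h1

end Cfsg.Agent.S0569
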