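import Cfsg.Statements.S0570
import Cfsg.Agent.H1.Carter

set_option autoImplicit false
open Cfsg

namespace Cfsg.Agent.S0570

/-- Let G be a finite group with a nilpotent normal subgroup F such that G modulo F is nilpotent (nilpotent length at most two). Then a subgroup of G is a Carter subgroup if and only if it is the system normalizer of some Hall complement system. -/
theorem result {G : Type*} [Group G] [Finite G] (F : Subgroup G) [F.Normal] (hF : Group.IsNilpotent F) (hGF : Group.IsNilpotent (G ⧸ F)) (C : Subgroup G) : Cfsg.IsCarterSubgroup C ↔ ∃ K : Nat.Primes → Subgroup G, Cfsg.IsComplementSystem K ∧ C = Cfsg.systemNormalizer K := by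
  have hs : Group.IsSolvable G := by
    haveI : Group.IsSolvable F := inferInstance
    haveI : Group.IsSolvable (G ⧸ F) := inferInstance
    exact (Group.isSolvable_iff_subgroup_quotient F).mpr ⟨inferInstance, inferInstance⟩
  constructor
  · intro hC
    obtain ⟨K, hK, hr⟩ := Cfsg.Agent.H1.exists_reduces hs C
    exact ⟨K, hK, Cfsg.Agent.H1.carter_eq_systemNormalizer hF hGF hs hC hK hr⟩
  · rintro ⟨K, hK, rfl⟩
    obtain ⟨C, hC⟩ := Cfsg.Agent.H1.carter_exists hs
    obtain ⟨L, hL, hr⟩ := Cfsg.Agent.H1.exists_reduces hs C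
    have h1 := Cfsg.Agent.H1.carter_eq_systemNormalizer hF hGF hs hC hL hr
    obtain ⟨g, hg⟩ := Cfsg.Agent.H1.complementSystem_conj hs hL hK
    rw [← Cfsg.Agent.H1.systemNormalizer_eq_of_conj hg, ← h1]
    exact Cfsg.Agent.H1.carter_conj_smul hC g

end Cfsg.Agent.S0570
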