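import Cfsg.Statements.S0574
import Cfsg.Agent.H1.Ito

set_option autoImplicit false
open Cfsg
open scoped Pointwise commutatorElement

namespace Cfsg.Agent.S0574

/-- Let the finite group G be the product AB of an abelian subgroup A and a subgroup B of nilpotency class at most two, and let Ω be the number of prime factors, with multiplicity, of the order of the commutator subgroup of B. Then the term of index 2(1 + Ω) of the derived series of G is trivial. -/
theorem result {G : Type*} [Group G] [Finite G] (A B : Subgroup G) [IsMulCommutative A] (hB : commutator ↥B ≤ Subgroup.center ↥B) (hAB : ∀ g : G, ∃ a ∈ A, ∃ b ∈ B, g = a * b) : derivedSeries G (2 * (1 + (Nat.card ↥(commutator ↥B)).primeFactorsList.length)) = ⊥ := by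
  have hcomm : Subgroup.map B.subtype (commutator ↥B) = ⁅B, B⁆ := Subgroup.map_subtype_commutator B
  have h1 : ⁅B, B⁆ ≤ Subgroup.centralizer (B : Set G) := by
    rw [← hcomm]
    rintro x ⟨y, hy, rfl⟩
    rw [Subgroup.mem_centralizer_iff]
    intro b hb
    have := Subgroup.mem_center_iff.mp (hB hy) ⟨b, hb⟩
    exact congrArg Subtype.val this
  have h2 : Nat.card ↥(commutator ↥B) = Nat.card ↥⁅B, B⁆ := by
    rw [← hcomm]
    exact (Subgroup.card_map_of_injective B.subtype_injective).symm
  rw [h2]
  exact Cfsg.Agent.H1.class_two_aux (Nat.card G) G rfl A B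
    (Cfsg.Agent.H1.comm_of_isMulCommutative inferInstance) h1 hAB

end Cfsg.Agent.S0574
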