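import Cfsg.Statements.S0576
import Cfsg.Agent.H1.Struct1

set_option autoImplicit false
open Cfsg

namespace Cfsg.Agent.S0576

/-- Let H be a normal subgroup of a finite group G with H contained in the Frattini subgroup of G. Then the group of inner automorphisms of H is contained in the Frattini subgroup of the automorphism group of H. -/
theorem result {G : Type*} [Group G] [Finite G] (H : Subgroup G) [H.Normal] (hH : H ≤ frattini G) : (MulAut.conj : ↥H →* MulAut ↥H).range ≤ frattini (MulAut ↥H) := by
  -- conjugation action of `G` on `H`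
  apply Cfsg.Agent.H1.le_frattini_of_forall
  intro M hM
  by_contra hnle
  have hsup : (MulAut.conj : ↥H →* MulAut ↥H).range ⊔ M = ⊤ := by
    apply hM.2
    refine lt_of_le_of_ne le_sup_right ?_
    intro he
    exact hnle (by rw [he]; exact le_sup_left)
  haveI : (MulAut.conj : ↥H →* MulAut ↥H).range.Normal := by
    constructor
    rintro _ ⟨h, rfl⟩ σ
    refine ⟨σ h, ?_⟩
    ext x
    simp [MulAut.conj_apply]
  let φ : G →* MulAut H := MulAut.conjNormal
  have hφ : ∀ h : H, φ (h : G) = MulAut.conj h := by
    intro h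
    ext x
    simp [φ, MulAut.conjNormal_apply, MulAut.conj_apply]
  have h1 : H ⊔ M.comap φ = ⊤ := by
    rw [eq_top_iff]
    intro g _
    have : φ g ∈ (MulAut.conj : ↥H →* MulAut ↥H).range ⊔ M := by rw [hsup]; exact Subgroup.mem_top _
    obtain ⟨_, ⟨h, rfl⟩, m, hm, hhm⟩ := Subgroup.mem_sup_of_normal_left.mp this
    have h2 : (h : G)⁻¹ * g ∈ M.comap φ := by
      rw [Subgroup.mem_comap, map_mul, map_inv, hφ, ← hhm, inv_mul_cancel_left]
      exact hm
    have h3 : g = (h : G) * ((h : G)⁻¹ * g) := by group
    rw [h3]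
    exact Subgroup.mul_mem _ (Subgroup.mem_sup_left h.2) (Subgroup.mem_sup_right h2)
  have h2 : M.comap φ = ⊤ := by
    apply frattini_nongenerating
    rw [eq_top_iff, ← h1, sup_comm]
    exact sup_le_sup le_rfl hH
  apply hnle
  rintro _ ⟨h, rfl⟩
  have : (h : G) ∈ M.comap φ := by rw [h2]; exact Subgroup.mem_top _
  rw [Subgroup.mem_comap, hφ] at this
  exact this

end Cfsg.Agent.S0576
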