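import Cfsg.Statements.S0579
import Cfsg.Agent.H1.Huppert

set_option autoImplicit false
open Cfsg

namespace Cfsg.Agent.S0579

/-- Huppert's supersolvability criterion: if every maximal subgroup of a finite group has prime index, then the group is supersolvable. -/
theorem result {G : Type*} [Group G] [Finite G] (h : ∀ M : Subgroup G, IsCoatom M → M.index.Prime) : Cfsg.IsSupersolvable G := by
    exact Cfsg.Agent.H1.huppert_aux _ G rfl h

end Cfsg.Agent.S0579
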