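import Cfsg.Statements.S0584
import Cfsg.Agent.H1.Chief

set_option autoImplicit false
open Cfsg

namespace Cfsg.Agent.S0584

/-- Let B ≤ A be normal subgroups of a finite group G with B contained in the Frattini subgroup of G. If A modulo B is nilpotent then A is nilpotent. -/
theorem result {G : Type*} [Group G] [Finite G] (A B : Subgroup G) [A.Normal] [B.Normal] (hBA : B ≤ A) (hB : B ≤ frattini G) (h : Group.IsNilpotent (↥A ⧸ B.subgroupOf A)) : Group.IsNilpotent A := by
  refine Cfsg.Agent.H1.nilpotent_of_quotient_le_frattini A B hBA hB ?_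
  have hsurj := (QuotientGroup.mk' B).subgroupMap_surjective A
  -- A / (B ∩ A) ≃ image of A
  let g : A →* A.map (QuotientGroup.mk' B) := (QuotientGroup.mk' B).subgroupMap A
  have hle : B.subgroupOf A ≤ g.ker := by
    intro x hx
    rw [MonoidHom.mem_ker]
    apply Subtype.ext
    exact (QuotientGroup.eq_one_iff (x : G)).mpr hx
  let e : (↥A ⧸ B.subgroupOf A) →* A.map (QuotientGroup.mk' B) := QuotientGroup.lift _ g hle
  have he : Function.Surjective e := by
    intro y
    obtain ⟨x, rfl⟩ := hsurj y
    exact ⟨(x : ↥A ⧸ B.subgroupOf A), rfl⟩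
  exact Group.nilpotent_of_surjective e he

end Cfsg.Agent.S0584
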