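import Cfsg.Statements.S0587
import Cfsg.Agent.H1.PrimSolv

set_option autoImplicit false
open Cfsg
open scoped Pointwise commutatorElement

namespace Cfsg.Agent.S0587

/-- Let G be a finite group whose largest normal p-subgroup L is nontrivial, and M a maximal subgroup of G with trivial normal core. Then L is elementary abelian, M is a complement to L, L is a minimal normal subgroup of G, the centralizer of L is L, and for every prime q such that the largest normal q-subgroup of M is nontrivial, the order of L is congruent to 1 modulo q and q ≠ p. -/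
theorem result {G : Type*} [Group G] [Finite G] (p : ℕ) [Fact p.Prime] (hL : Cfsg.pCore p G ≠ ⊥) (M : Subgroup G) (hM : IsCoatom M) (hcore : M.normalCore = ⊥) : Cfsg.IsElementaryAbelian p (Cfsg.pCore p G) ∧ Subgroup.IsComplement' (Cfsg.pCore p G) M ∧ (∀ K : Subgroup G, K.Normal → K ≤ Cfsg.pCore p G → K = ⊥ ∨ K = Cfsg.pCore p G) ∧ Subgroup.centralizer ((Cfsg.pCore p G : Subgroup G) : Set G) = Cfsg.pCore p G ∧ ∀ (q : ℕ) [Fact q.Prime], Cfsg.pCore q ↥M ≠ ⊥ → Nat.card (Cfsg.pCore p G) % q = 1 % q ∧ q ≠ p := by
  have hp : p.Prime := Fact.out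
  haveI hLn : (Cfsg.pCore p G).Normal := Cfsg.Agent.H1.pCore_normal p G
  set L := Cfsg.pCore p G with hLdef
  have hLp : IsPGroup p L := Cfsg.Agent.H1.pCore_isPGroup p G
  obtain ⟨N, hN, hne, hNL, hmin⟩ := Cfsg.Agent.H1.exists_minimal_normal_le hLn hL
  have hLnil : Group.IsNilpotent L := hLp.isNilpotent
  have hLF : L ≤ Cfsg.fittingSubgroup G := le_sSup ⟨hLn, hLnil⟩
  have hLC : L ≤ Subgroup.centralizer (N : Set G) :=
    hLF.trans (Cfsg.Agent.H1.fitting_le_centralizer_minimal hN hne hmin)
  have hNc : IsMulCommutative N := Subgroup.le_centralizer_iff_isMulCommutative.mp (hNL.trans hLC)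
  have hCN := Cfsg.Agent.H1.centralizer_eq_self_coreFree hM hcore hN hne hNc
  have hLN : L = N := le_antisymm (by rw [← hCN]; exact hLC) hNL
  rw [← hLN] at hN hne hmin hNc hCN
  have hsup := Cfsg.Agent.H1.sup_eq_top_of_coreFree hM hcore hN hne
  have hinf : L ⊓ M = ⊥ := by
    have := Cfsg.Agent.H1.centralizer_inf_coreFree hM hcore hN hne
    rwa [hCN] at this
  have hLs : Group.IsSolvable L := by haveI := hLnil; infer_instance
  obtain ⟨-, r, hr, hLr, hLe⟩ := Cfsg.Agent.H1.minimal_normal_solvable hN hne hmin hLs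
  have hrp : r = p := by
    haveI : Fact r.Prime := ⟨hr⟩
    obtain ⟨a, ha⟩ := IsPGroup.iff_card.mp hLr
    obtain ⟨b, hb⟩ := IsPGroup.iff_card.mp hLp
    have hb0 : b ≠ 0 := by
      intro h
      rw [h, pow_zero] at hb
      exact hne (Subgroup.card_eq_one.mp hb)
    rw [ha] at hb
    have : p ∣ r ^ a := by rw [hb]; exact dvd_pow_self p hb0
    exact ((Nat.prime_dvd_prime_iff_eq hp hr).mp (hp.dvd_of_dvd_pow this)).symm
  subst hrp
  refine ⟨⟨hNc, hLe⟩, Cfsg.Agent.H1.isComplement'_of_inf_sup hinf hsup, hmin, hCN, ?_⟩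
  intro q hq hQ
  haveI := hq
  set Q : Subgroup G := (Cfsg.pCore q ↥M).map M.subtype with hQdef
  have hQM : Q ≤ M := by rintro _ ⟨x, -, rfl⟩; exact x.2
  have hQne : Q ≠ ⊥ := by
    intro h
    exact hQ ((Subgroup.map_eq_bot_iff_of_injective _ M.subtype_injective).mp h)
  have hQq : IsPGroup q Q := (Cfsg.Agent.H1.pCore_isPGroup q M).map _
  have hMQ : M ≤ Subgroup.normalizer (Q : Set G) := by
    haveI := Cfsg.Agent.H1.pCore_normal q M
    have := Subgroup.le_normalizer_map (H := Cfsg.pCore q ↥M) M.subtype
    rw [Subgroup.normalizer_eq_top, ← MonoidHom.range_eq_map, Subgroup.range_subtype] at this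
    exact this
  have hLQ : L ⊓ Q = ⊥ := by
    rw [eq_bot_iff, ← hinf]; exact inf_le_inf_left _ hQM
  constructor
  · -- counting
    have hfix : L ⊓ Subgroup.centralizer (Q : Set G) = ⊥ := by
      have hn : (L ⊓ Subgroup.centralizer (Q : Set G)).Normal := by
        rw [← Subgroup.normalizer_eq_top_iff, eq_top_iff, ← hsup]
        refine sup_le ?_ ?_
        · have : L ≤ Subgroup.centralizer ((L ⊓ Subgroup.centralizer (Q : Set G) : Subgroup G) : Set G) := by
            rw [Subgroup.le_centralizer_iff]
            exact inf_le_left.trans (Subgroup.le_centralizer_iff_isMulCommutative.mpr hNc)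
          exact this.trans (Subgroup.centralizer_le_normalizer _)
        · refine (le_inf ?_ ?_).trans Subgroup.inf_normalizer_le_normalizer_inf
          · rw [Subgroup.normalizer_eq_top]; exact le_top
          · intro m hm
            rw [Cfsg.Agent.H1.mem_normalizer_iff_conj_smul, Cfsg.Agent.H1.conj_smul_centralizer,
              Cfsg.Agent.H1.mem_normalizer_iff_conj_smul.mp (hMQ hm)]
      rcases hmin _ hn inf_le_left with h | h
      · exact h
      · exfalso
        apply hQne
        rw [eq_bot_iff, ← hLQ]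
        refine le_inf ?_ le_rfl
        rw [← hCN, Subgroup.le_centralizer_iff]
        exact inf_eq_left.mp h
    -- action of Q on L
    letI : MulAction Q L := MulAction.compHom L ((MulAut.conjNormal : G →* MulAut L).comp Q.subtype)
    have hmod := hQq.card_modEq_card_fixedPoints (α := L)
    have hfp : Nat.card (MulAction.fixedPoints Q L) = 1 := by
      rw [Nat.card_eq_one_iff_unique]
      constructor
      · constructor
        have h1 : ∀ x : MulAction.fixedPoints Q L, (x : L) = 1 := by
          rintro ⟨x, hx⟩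
          have : (x : G) ∈ L ⊓ Subgroup.centralizer (Q : Set G) := by
            refine Subgroup.mem_inf.mpr ⟨x.2, ?_⟩
            rw [Subgroup.mem_centralizer_iff]
            intro y hy
            have h2 := hx ⟨y, hy⟩
            have h3 : (y * (x : G) * y⁻¹) = x := by
              have := congrArg (Subtype.val) h2
              exact this
            rwa [mul_inv_eq_iff_eq_mul] at h3
          rw [hfix, Subgroup.mem_bot] at this
          exact Subtype.ext this
        intro x y
        exact Subtype.ext ((h1 x).trans (h1 y).symm)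
      · exact ⟨1, fun y => map_one (MulAut.conjNormal (y : G) : L ≃* L)⟩
    rw [hfp] at hmod
    exact hmod
  · rintro rfl
    -- `L ⊔ Q` would be a normal `p`-subgroup
    have h1 : IsPGroup q (L ⊔ Q : Subgroup G) := IsPGroup.to_sup_of_normal_left hLp hQq
    have h2 : (L ⊔ Q).Normal := by
      rw [← Subgroup.normalizer_eq_top_iff, eq_top_iff, ← hsup]
      refine sup_le (le_sup_left.trans Subgroup.le_normalizer) ?_
      intro m hm
      rw [Cfsg.Agent.H1.mem_normalizer_iff_conj_smul, Cfsg.Agent.H1.conj_smul_sup,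
        Cfsg.Agent.H1.mem_normalizer_iff_conj_smul.mp (hMQ hm), Cfsg.Agent.H1.conj_smul_normal (N := L)]
    have h3 : L ⊔ Q ≤ L := Cfsg.Agent.H1.le_pCore h2 h1
    apply hQne
    rw [eq_bot_iff, ← hLQ]
    exact le_inf (le_sup_right.trans h3) le_rfl

end Cfsg.Agent.S0587
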