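import Cfsg.Statements.S0588
import Cfsg.Agent.H1.Struct1
import Cfsg.Agent.H2.Basic

set_option autoImplicit false
open Cfsg

namespace Cfsg.Agent.S0588

/-- If a subgroup H of a finite group G contains the centralizer of every non-identity element of H, then the order of H is coprime to its index. -/
theorem result {G : Type*} [Group G] [Finite G] (H : Subgroup G) (h : ∀ x ∈ H, x ≠ 1 → Subgroup.centralizer ({x} : Set G) ≤ H) : (Nat.card H).Coprime H.index := by
  rw [Nat.coprime_iff_gcd_eq_one]
  by_contra hne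
  obtain ⟨p, hp, hd⟩ := Nat.exists_prime_and_dvd hne
  haveI : Fact p.Prime := ⟨hp⟩
  have hpH := hd.trans (Nat.gcd_dvd_left _ _)
  have hpi := hd.trans (Nat.gcd_dvd_right _ _)
  obtain ⟨x, hx⟩ := exists_prime_orderOf_dvd_card' p hpH
  have hxne : (x : G) ≠ 1 := by
    intro h
    have : x = 1 := Subtype.ext h
    rw [this, orderOf_one] at hx
    exact hp.one_lt.ne hx
  have hxp : IsPGroup p (Subgroup.zpowers (x : G)) := by
    apply IsPGroup.of_card (n := 1)
    rw [Nat.card_zpowers, pow_one, ← hx]
    exact Subgroup.orderOf_coe x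
  obtain ⟨S, hS⟩ := hxp.exists_le_sylow
  have hxS : (x : G) ∈ (S : Subgroup G) := hS (Subgroup.mem_zpowers _)
  haveI : Nontrivial (S : Subgroup G) := by
    rw [Subgroup.nontrivial_iff_ne_bot]
    intro h
    rw [h, Subgroup.mem_bot] at hxS
    exact hxne hxS
  haveI : Nontrivial (Subgroup.center (S : Subgroup G)) := S.2.center_nontrivial
  obtain ⟨z, hz⟩ := exists_ne (1 : Subgroup.center (S : Subgroup G))
  have hz1 : ((z : (S : Subgroup G)) : G) ≠ 1 := fun h => hz (Subtype.ext (Subtype.ext h))
  have hzc : ∀ y ∈ (S : Subgroup G), y * ((z : (S : Subgroup G)) : G) = z * y := by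
    intro y hy
    exact congrArg Subtype.val (Subgroup.mem_center_iff.mp z.2 ⟨y, hy⟩)
  have hzH : ((z : (S : Subgroup G)) : G) ∈ H := by
    apply h x x.2 hxne
    rw [Subgroup.mem_centralizer_singleton_iff]
    exact (hzc x hxS).symm
  have hSH : (S : Subgroup G) ≤ H := by
    intro y hy
    apply h _ hzH hz1
    rw [Subgroup.mem_centralizer_singleton_iff]
    exact hzc y hy
  exact S.not_dvd_index (hpi.trans (Subgroup.index_dvd_of_le hSH))

end Cfsg.Agent.S0588
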