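import Cfsg.Statements.S0590
import Cfsg.Agent.H2.Quad

set_option autoImplicit false
set_option linter.style.haveILetI false
set_option linter.unusedVariables false
set_option linter.unusedSectionVars false
open Cfsg

namespace Cfsg.Agent.S0590

/-- Quadratic action on an elementary abelian p-group forces the acting group modulo the kernel of the action to be elementary abelian. -/
theorem result {G : Type*} [Group G] [Finite G] {p : ℕ} [Fact p.Prime] (V H : Subgroup G) (hV : Cfsg.IsElementaryAbelian p V) (hHV : H ≤ Subgroup.normalizer (V : Set G)) (hq : ⁅⁅V, H⁆, H⁆ = ⊥) : ⁅H, H⁆ ≤ Subgroup.centralizer (V : Set G) ∧ ∀ a ∈ H, a ^ p ∈ Subgroup.centralizer (V : Set G) := by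
  obtain ⟨hVc, hVp⟩ := H20.isElementaryAbelian_iff.1 hV
  refine ⟨H2.quad_comm_le hVc hq, ?_⟩
  intro a ha
  rw [Subgroup.mem_centralizer_iff]
  intro v hv
  have h1 := H2.comm_pow_right' (H2.quad_comm hq hv ha ha) p
  have h2 := hVp _ (H2.comm_mem_left (hHV ha) hv)
  rw [h2, commutatorElement_eq_one_iff_mul_comm] at h1
  exact h1

end Cfsg.Agent.S0590
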