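import Cfsg.Statements.S0592
import Cfsg.Agent.H2.QuadRep2

set_option autoImplicit false
set_option linter.style.haveILetI false
set_option linter.unusedVariables false
set_option linter.unusedSectionVars false
open Cfsg

namespace Cfsg.Agent.S0592

/-- Two quadratically acting generators of a linear group that is not a p-group, with the p'-part of the order of their product dividing q - 1, give a homomorphism onto a subgroup of SL(2, q) that is not a p-group. -/
theorem result {K : Type*} [Field K] [Fintype K] {p : ℕ} [Fact p.Prime] [CharP K p] {W : Type*} [AddCommGroup W] [Module K W] [FiniteDimensional K W] [Finite W] [Nontrivial W] (H : Subgroup (W ≃ₗ[K] W)) (a b : W ≃ₗ[K] W) (hH : H = Subgroup.closure {a, b}) (ha : ∀ w : W, a (a w - w) = a w - w) (hb : ∀ w : W, b (b w - w) = b w - w) (hnp : ¬ IsPGroup p H) (hk : ∃ e k : ℕ, orderOf (a * b) = p ^ e * k ∧ k ∣ Fintype.card K - 1) : ∃ φ : H →* Matrix.SpecialLinearGroup (Fin 2) K, ¬ IsPGroup p φ.range := by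
  classical
  obtain ⟨e, k, hord, hkq⟩ := hk
  have haH : a ∈ H := by rw [hH]; exact Subgroup.subset_closure (Or.inl rfl)
  have hbH : b ∈ H := by rw [hH]; exact Subgroup.subset_closure (Or.inr rfl)
  let ρ : H →* Module.End K W :=
    (LinearEquiv.automorphismGroup.toLinearMapMonoidHom (R := K) (M := W)).comp H.subtype
  have hρ : ∀ (g : H) (w : W), ρ g w = (g : W ≃ₗ[K] W) w := fun g w => rfl
  have hgen : Subgroup.closure {(⟨a, haH⟩ : H), ⟨b, hbH⟩} = ⊤ := by
    apply Subgroup.map_injective H.subtype_injective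
    rw [MonoidHom.map_closure, ← MonoidHom.range_eq_map, Subgroup.range_subtype]
    conv_rhs => rw [hH]
    congr 1
    ext x
    simp only [Set.mem_image, Set.mem_insert_iff, Set.mem_singleton_iff]
    constructor
    · rintro ⟨y, rfl | rfl, rfl⟩
      · exact Or.inl rfl
      · exact Or.inr rfl
    · rintro (rfl | rfl)
      · exact ⟨_, Or.inl rfl, rfl⟩
      · exact ⟨_, Or.inr rfl, rfl⟩
  have hquad : ∀ (x : W ≃ₗ[K] W) (hx : x ∈ H), (∀ w : W, x (x w - w) = x w - w) →
      (ρ ⟨x, hx⟩ - 1) * (ρ ⟨x, hx⟩ - 1) = 0 := by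
    intro x hx h
    apply LinearMap.ext
    intro w
    rw [Module.End.mul_apply, LinearMap.sub_apply, LinearMap.sub_apply, Module.End.one_apply,
      Module.End.one_apply, hρ, hρ]
    change x (x w - w) - (x w - w) = 0
    rw [h w, sub_self]
  rcases H2.quad_main (p := p) hgen
      (f := Polynomial.X ^ ((Fintype.card K - 1) * p ^ e) - 1) (by
        have h1 : 0 < (Fintype.card K - 1) * p ^ e := by
          apply Nat.mul_pos
          · have := Fintype.one_lt_card (α := K); omega
          · exact pow_pos (Fact.out : p.Prime).pos e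
        exact (Polynomial.monic_X_pow_sub_C (1 : K) h1.ne').ne_zero)
      (H2.splits_X_pow_sub_one e) _ W ρ rfl (hquad a haH ha) (hquad b hbH hb) (by
        rw [map_sub, map_pow, Polynomial.aeval_X, map_one, ← map_pow]
        have h1 : ((⟨a, haH⟩ : H) * ⟨b, hbH⟩) ^ ((Fintype.card K - 1) * p ^ e) = 1 := by
          obtain ⟨l, hl⟩ := hkq
          apply Subtype.ext
          change (a * b) ^ ((Fintype.card K - 1) * p ^ e) = 1
          have : (Fintype.card K - 1) * p ^ e = orderOf (a * b) * l := by rw [hord, hl]; ring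
          rw [this, pow_mul, pow_orderOf_eq_one, one_pow]
        rw [h1, map_one, sub_self]) with h1 | h1
  · obtain ⟨c, hc, φ, hφa, hφb⟩ := h1
    exact ⟨φ, H2.not_isPGroup_range hc φ hφa hφb⟩
  · exfalso
    apply hnp
    intro g
    obtain ⟨m, hm⟩ := h1 g
    refine ⟨m, ?_⟩
    rw [← map_pow] at hm
    apply Subtype.ext
    apply LinearEquiv.ext
    intro w
    exact congrArg (fun T : Module.End K W => T w) hm

end Cfsg.Agent.S0592
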