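import Cfsg.Statements.S0593
import Cfsg.Agent.H2.QuadStab2

set_option autoImplicit false
set_option linter.style.haveILetI false
set_option linter.unusedVariables false
set_option linter.unusedSectionVars false
open Cfsg

namespace Cfsg.Agent.S0593

/-- For odd p, a faithful group on an elementary abelian p-group generated by two quadratically acting elements is a p-group or has non-abelian Sylow 2-subgroups. -/
theorem result {G : Type*} [Group G] [Finite G] {p : ℕ} [Fact p.Prime] (hp : p ≠ 2) (V H : Subgroup G) (hV : Cfsg.IsElementaryAbelian p V) (hHV : H ≤ Subgroup.normalizer (V : Set G)) (hf : H ⊓ Subgroup.centralizer (V : Set G) = ⊥) (a b : G) (hab : H = Subgroup.closure {a, b}) (ha : ⁅⁅V, Subgroup.zpowers a⁆, Subgroup.zpowers a⁆ = ⊥) (hb : ⁅⁅V, Subgroup.zpowers b⁆, Subgroup.zpowers b⁆ = ⊥) (hnp : ¬ IsPGroup p H) (T : Sylow 2 H) : ¬ IsMulCommutative T := by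
  have haH : a ∈ H := by rw [hab]; exact Subgroup.subset_closure (Or.inl rfl)
  have hbH : b ∈ H := by rw [hab]; exact Subgroup.subset_closure (Or.inr rfl)
  haveI : CharP (AlgebraicClosure (ZMod p)) p :=
    charP_of_injective_algebraMap (algebraMap (ZMod p) (AlgebraicClosure (ZMod p))).injective p
  rcases H2.quad_group hV hHV haH hbH hab ha hb with h1 | h1
  · obtain ⟨φ, L, hL, ⟨e⟩⟩ := H2.exists_of_QConcl hp h1
    exact H2.not_comm_of_range hp φ hL e T
  · exfalso
    apply hnp
    rw [H18.isPGroup_iff_mem]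
    intro g hg
    obtain ⟨m, hm⟩ := h1 g hg
    refine ⟨m, ?_⟩
    have h2 : g ^ p ^ m ∈ H ⊓ Subgroup.centralizer (V : Set G) :=
      Subgroup.mem_inf.2 ⟨pow_mem hg _, hm⟩
    rwa [hf, Subgroup.mem_bot] at h2

end Cfsg.Agent.S0593
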