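import Cfsg.Statements.S0597
import Cfsg.Agent.H2.Timm2
import Cfsg.Agent.H23.Subnormal
import Cfsg.Agent.H1.Coprime

set_option autoImplicit false
set_option linter.style.haveILetI false
set_option linter.unusedVariables false
set_option linter.unusedSectionVars false
open Cfsg

namespace Cfsg.Agent.S0597

open scoped commutatorElement in
theorem isPGroup_comm {G : Type*} [Group G] [Finite G] {p : ℕ} [Fact p.Prime]
    (V H : Subgroup G) (hV : Cfsg.IsElementaryAbelian p V) (hHV : H ≤ Subgroup.normalizer (V : Set G))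
    (hf : H ⊓ Subgroup.centralizer (V : Set G) = ⊥) (E₁ E₂ : Subgroup G) (h₁ : E₁ ≤ H) (h₂ : E₂ ≤ H)
    (hc : ⁅⁅V, E₁⁆, E₂⁆ = ⊥) : IsPGroup p (⁅E₁, E₂⁆ : Subgroup G) := by
  obtain ⟨hVc, hVp⟩ := H20.isElementaryAbelian_iff.1 hV
  obtain ⟨W, hW⟩ : ∃ W, W = (⁅V, E₁⁆ : Subgroup G) := ⟨_, rfl⟩
  rw [← hW] at hc
  have hWV : W ≤ V := hW ▸ H2.commutator_le_left_of_norm le_rfl (h₁.trans hHV)
  have hE1W : E₁ ≤ Subgroup.normalizer (W : Set G) := by
    rw [hW]; exact H18.le_normalizer_commutator (h₁.trans hHV) Subgroup.le_normalizer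
  have hE2W : E₂ ≤ Subgroup.centralizer (W : Set G) := by
    rw [Subgroup.commutator_comm] at hc
    exact Subgroup.commutator_eq_bot_iff_le_centralizer.1 hc
  have hVW : V ≤ Subgroup.normalizer (W : Set G) := by
    refine le_trans ?_ (Subgroup.centralizer_le_normalizer (W : Set G))
    intro v hv
    rw [Subgroup.mem_centralizer_iff]
    intro w hw
    exact hVc w (hWV hw) v hv
  have hcentW : ⁅E₁, E₂⁆ ≤ Subgroup.centralizer (W : Set G) := by
    rw [Subgroup.commutator_le]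
    intro x hx y hy
    rw [commutatorElement_def]
    have h3 := H18.le_normalizer_centralizer hE1W
    exact mul_mem (H2.conj_mem_of_norm (h3 hx) (hE2W hy)) (inv_mem (hE2W hy))
  have hE2n : E₂ ≤ Subgroup.normalizer (W : Set G) :=
    hE2W.trans (Subgroup.centralizer_le_normalizer (W : Set G))
  have hVE : ⁅V, ⁅E₁, E₂⁆⁆ ≤ W := by
    have key : ⁅Subgroup.closure (V : Set G),
        Subgroup.closure {g | ∃ g₁ ∈ E₁, ∃ g₂ ∈ E₂, ⁅g₁, g₂⁆ = g}⁆ ≤ W := by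
      apply H2.commutator_closure_le
      · exact fun x hx => hVW hx
      · rintro _ ⟨x, hx, y, hy, rfl⟩
        rw [commutatorElement_def]
        exact mul_mem (mul_mem (mul_mem (hE1W hx) (hE2n hy)) (inv_mem (hE1W hx))) (inv_mem (hE2n hy))
      · rintro v hv _ ⟨x, hx, y, hy, rfl⟩
        -- for u ∈ V: u⁻¹ * (x u x⁻¹) ∈ W for x ∈ E₁
        have hx1 : ∀ x ∈ E₁, ∀ u ∈ V, u⁻¹ * (x * u * x⁻¹) ∈ W := by
          intro x hx u hu
          have h4 : ⁅u⁻¹, x⁆ ∈ W := by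
            rw [hW]; exact Subgroup.commutator_mem_commutator (inv_mem hu) hx
          rw [commutatorElement_def, inv_inv] at h4
          have h5 : u⁻¹ * (x * u * x⁻¹) = u⁻¹ * x * u * x⁻¹ := by group
          rw [h5]; exact h4
        have hg : ∀ u ∈ V, u⁻¹ * ((y * x⁻¹ * y⁻¹) * u * (y * x⁻¹ * y⁻¹)⁻¹) ∈ W := by
          intro u hu
          have hu' : y⁻¹ * u * y ∈ V := H2.conj_mem_of_norm' (hHV (h₂ hy)) hu
          have h4 := hx1 x⁻¹ (inv_mem hx) _ hu'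
          have h5 := H2.conj_mem_of_norm (hE2n hy) h4
          have h6 : y * ((y⁻¹ * u * y)⁻¹ * (x⁻¹ * (y⁻¹ * u * y) * x⁻¹⁻¹)) * y⁻¹ =
              u⁻¹ * ((y * x⁻¹ * y⁻¹) * u * (y * x⁻¹ * y⁻¹)⁻¹) := by group
          rwa [h6] at h5
        have hu2 : v⁻¹ ∈ V := inv_mem hv
        obtain ⟨w, hw⟩ : ∃ w, w = (v⁻¹)⁻¹ * ((y * x⁻¹ * y⁻¹) * v⁻¹ * (y * x⁻¹ * y⁻¹)⁻¹) := ⟨_, rfl⟩
        have hwW : w ∈ W := by rw [hw]; exact hg v⁻¹ hu2
        have h7 : (y * x⁻¹ * y⁻¹) * v⁻¹ * (y * x⁻¹ * y⁻¹)⁻¹ = v⁻¹ * w := by rw [hw]; group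
        have h8 : ⁅v, ⁅x, y⁆⁆ = v * (x * ((y * x⁻¹ * y⁻¹) * v⁻¹ * (y * x⁻¹ * y⁻¹)⁻¹) * x⁻¹) := by
          simp only [commutatorElement_def]; group
        rw [h8, h7]
        have h9 : v * (x * (v⁻¹ * w) * x⁻¹) = ((v⁻¹)⁻¹ * (x * v⁻¹ * x⁻¹)) * (x * w * x⁻¹) := by group
        rw [h9]
        exact mul_mem (hx1 x hx _ hu2) (H2.conj_mem_of_norm (hE1W hx) hwW)
    rw [Subgroup.closure_eq] at key
    exact key
  have hle : (⁅E₁, E₂⁆ : Subgroup G) ≤ H := by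
    rw [Subgroup.commutator_le]
    intro x hx y hy
    rw [commutatorElement_def]
    exact mul_mem (mul_mem (mul_mem (h₁ hx) (h₂ hy)) (inv_mem (h₁ hx))) (inv_mem (h₂ hy))
  intro x
  refine ⟨1, ?_⟩
  rw [pow_one]
  apply Subtype.ext
  rw [Subgroup.coe_pow, Subgroup.coe_one]
  have hxH : (x : G) ^ p ∈ H ⊓ Subgroup.centralizer (V : Set G) := by
    refine ⟨pow_mem (hle x.2) p, ?_⟩
    refine Subgroup.mem_centralizer_iff.2 ?_
    intro v hv
    have h3 : ⁅v, (x : G)⁆ ∈ W := hVE (Subgroup.commutator_mem_commutator hv x.2)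
    have h4 := (H2.comm_of_mem_centralizer (hcentW x.2) h3).symm
    have h5 := H2.comm_pow_right' h4 p
    rw [hVp _ (hWV h3), commutatorElement_eq_one_iff_mul_comm] at h5
    exact h5
  rw [hf, Subgroup.mem_bot] at hxH
  exact hxH

open scoped commutatorElement in
theorem aux {G : Type*} [Group G] [Finite G] {p : ℕ} [Fact p.Prime] (H E₁ E₂ : Subgroup G)
    (h₁ : E₁ ≤ H) (h₂ : E₂ ≤ H) (hs₁ : (E₁.subgroupOf H).IsSubnormal)
    (hs₂ : (E₂.subgroupOf H).IsSubnormal) (hp : IsPGroup p (⁅E₁, E₂⁆ : Subgroup G)) :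
    ⁅E₁, E₂⁆ ≤ (Cfsg.pCore p H).map H.subtype := by
  have h3 := H23.isSubnormal_sup hs₁ hs₂
  obtain ⟨A, hA⟩ : ∃ A, A = E₁.subgroupOf H := ⟨_, rfl⟩
  obtain ⟨B, hB⟩ : ∃ B, B = E₂.subgroupOf H := ⟨_, rfl⟩
  rw [← hA, ← hB] at h3
  have hmap : (⁅A, B⁆ : Subgroup H).map H.subtype = ⁅E₁, E₂⁆ := by
    rw [Subgroup.map_commutator, hA, hB, Subgroup.map_subgroupOf_eq_of_le h₁,
      Subgroup.map_subgroupOf_eq_of_le h₂]
  have h4 : IsPGroup p (⁅A, B⁆ : Subgroup H) := by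
    rw [← H18.isPGroup_map_subtype_iff, hmap]; exact hp
  have h5 : (⁅A, B⁆ : Subgroup H).IsSubnormal := by
    have hle : (⁅A, B⁆ : Subgroup H) ≤ A ⊔ B := by
      rw [Subgroup.commutator_le]
      intro x hx y hy
      have hx' := (le_sup_left : A ≤ A ⊔ B) hx
      have hy' := (le_sup_right : B ≤ A ⊔ B) hy
      rw [commutatorElement_def]
      exact mul_mem (mul_mem (mul_mem hx' hy') (inv_mem hx')) (inv_mem hy')
    refine H23.IsSubnormal.of_le_normalizer h3 hle ?_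
    apply sup_le
    · exact H1.left_le_normalizer_commutator A B
    · exact H1.right_le_normalizer_commutator A B
  have h6 := H18.le_pCore_of_isSubnormal h5 h4
  rw [← hmap]
  exact Subgroup.map_mono h6

/-- If two subnormal subgroups of a faithful group on an elementary abelian p-group satisfy [V, E₁, E₂] = 1, then their commutator lies in the largest normal p-subgroup. -/
theorem result {G : Type*} [Group G] [Finite G] {p : ℕ} [Fact p.Prime] (V H : Subgroup G) (hV : Cfsg.IsElementaryAbelian p V) (hHV : H ≤ Subgroup.normalizer (V : Set G)) (hf : H ⊓ Subgroup.centralizer (V : Set G) = ⊥) (E₁ E₂ : Subgroup G) (h₁ : E₁ ≤ H) (h₂ : E₂ ≤ H) (hs₁ : (E₁.subgroupOf H).IsSubnormal) (hs₂ : (E₂.subgroupOf H).IsSubnormal) (hc : ⁅⁅V, E₁⁆, E₂⁆ = ⊥) : ⁅E₁, E₂⁆ ≤ (Cfsg.pCore p H).map H.subtype := by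
  exact aux H E₁ E₂ h₁ h₂ hs₁ hs₂ (isPGroup_comm V H hV hHV hf E₁ E₂ h₁ h₂ hc)

end Cfsg.Agent.S0597
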