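import Cfsg.Statements.S0601
import Cfsg.Agent.H2.OmegaZ

set_option autoImplicit false
set_option linter.style.haveILetI false
set_option linter.unusedVariables false
set_option linter.unusedSectionVars false
open Cfsg

namespace Cfsg.Agent.S0601

theorem eq_of_relIndex {G : Type*} [Group G] [Finite G] {p : ℕ} [Fact p.Prime]
    (D : Subgroup G) (hD : D.Normal)
    (h1 : Subgroup.centralizer (H2.ozGen p G : Set G) ≤ D)
    (h2 : ∃ k : ℕ, (Subgroup.centralizer (H2.ozGen p G : Set G)).relIndex D = p ^ k) :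
    D = Subgroup.centralizer (H2.ozGen p G : Set G) := by
  apply le_antisymm _ h1
  have hC : (Subgroup.centralizer (H2.ozGen p G : Set G)).Normal := inferInstance
  obtain ⟨k, hk⟩ := h2
  have h3 : IsPGroup p (D.map (QuotientGroup.mk' (Subgroup.centralizer (H2.ozGen p G : Set G)))) := by
    apply IsPGroup.of_card (n := k)
    rw [← hk]
    have := Subgroup.relIndex_map_map (QuotientGroup.mk' (Subgroup.centralizer (H2.ozGen p G : Set G)))
      (Subgroup.centralizer (H2.ozGen p G : Set G)) D
    rw [QuotientGroup.ker_mk', sup_idem, sup_eq_left.2 h1, QuotientGroup.map_mk'_self,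
      Subgroup.relIndex_bot_left] at this
    exact this
  have h4 := H18.le_pCore (Subgroup.Normal.map hD _ (QuotientGroup.mk'_surjective _)) h3
  intro x hx
  have h5 : (QuotientGroup.mk x : G ⧸ Subgroup.centralizer (H2.ozGen p G : Set G)) ∈
      pCore p (G ⧸ Subgroup.centralizer (H2.ozGen p G : Set G)) :=
    h4 (Subgroup.mem_map_of_mem _ hx)
  apply H2.centralizes_iSup (rfl : H2.ozGen p G = _)
  intro S v hv
  obtain ⟨s, hs, c, hc, rfl⟩ := H2.exists_mul_of_mem_pCore_quotient S h5
  have h6 : s * v = v * s := (H2.mem_oz_iff.1 hv).2.1 s hs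
  have h7 : v * c = c * v := Subgroup.mem_centralizer_iff.1 hc v (H2.oz_le_ozGen S hv)
  rw [← mul_assoc, ← h6, mul_assoc, h7, ← mul_assoc]

/-- When O_p(G) contains its centralizer, the normal closure of Ω₁(Z(S)) is elementary abelian and G has no nontrivial normal p-subgroup modulo its centralizer. -/
theorem result {G : Type*} [Group G] [Finite G] {p : ℕ} [Fact p.Prime] (hc : Subgroup.centralizer (Cfsg.pCore p G : Set G) ≤ Cfsg.pCore p G) : (⨆ S : Sylow p G, Cfsg.omegaOne p (((S : Subgroup G)) ⊓ Subgroup.centralizer ((S : Subgroup G) : Set G))).Normal ∧ Cfsg.IsElementaryAbelian p (⨆ S : Sylow p G, Cfsg.omegaOne p (((S : Subgroup G)) ⊓ Subgroup.centralizer ((S : Subgroup G) : Set G))) ∧ ∀ D : Subgroup G, D.Normal → Subgroup.centralizer ((⨆ S : Sylow p G, Cfsg.omegaOne p (((S : Subgroup G)) ⊓ Subgroup.centralizer ((S : Subgroup G) : Set G)) : Subgroup G) : Set G) ≤ D → (∃ k : ℕ, (Subgroup.centralizer ((⨆ S : Sylow p G, Cfsg.omegaOne p (((S : Subgroup G)) ⊓ Subgroup.centralizer ((S : Subgroup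 G) : Set G)) : Subgroup G) : Set G)).relIndex D = p ^ k) → D = Subgroup.centralizer ((⨆ S : Sylow p G, Cfsg.omegaOne p (((S : Subgroup G)) ⊓ Subgroup.centralizer ((S : Subgroup G) : Set G)) : Subgroup G) : Set G) := by
  exact ⟨H2.ozGen_normal, H2.ozGen_isElementaryAbelian hc, eq_of_relIndex⟩

end Cfsg.Agent.S0601
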