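import Cfsg.Statements.S0607
import Cfsg.Agent.H2.Timm2

set_option autoImplicit false
set_option linter.style.haveILetI false
set_option linter.unusedVariables false
set_option linter.unusedSectionVars false
open Cfsg

namespace Cfsg.Agent.S0607

/-- The replacement Theorem for the Thompson subgroup: from A of maximal order among elementary abelian p-subgroups one obtains A₀ = [V, A] C_A([V, A]) of the same kind, quadratic on V and nontrivial on V when A is. -/
theorem result {G : Type*} [Group G] [Finite G] {p : ℕ} [Fact p.Prime] (V : Subgroup G) [V.Normal] (hV : Cfsg.IsElementaryAbelian p V) (A : Subgroup G) (hA : A ∈ Cfsg.maxElementaryAbelianSubgroups p G) : (⁅V, A⁆ ⊔ (A ⊓ Subgroup.centralizer ((⁅V, A⁆ : Subgroup G) : Set G))) ∈ Cfsg.maxElementaryAbelianSubgroups p G ∧ ⁅⁅V, ⁅V, A⁆ ⊔ (A ⊓ Subgroup.centralizer ((⁅V, A⁆ : Subgroup G) : Set G))⁆, ⁅V, A⁆ ⊔ (A ⊓ Subgroup.centralizer ((⁅V, A⁆ : Subgroup G) : Set G))⁆ = ⊥ ∧ (⁅V, A⁆ ≠ ⊥ → ⁅V, ⁅V, A⁆ ⊔ (A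 ⊓ Subgroup.centralizer ((⁅V, A⁆ : Subgroup G) : Set G))⁆ ≠ ⊥) := by
  have hA' := H2.mem_maxElem_top.1 hA
  have hAV : A ≤ Subgroup.normalizer (V : Set G) := by rw [Subgroup.normalizer_eq_top]; exact le_top
  have hVc := (H20.isElementaryAbelian_iff.1 hV).1
  have hVp := (H20.isElementaryAbelian_iff.1 hV).2
  have hAc := (H20.isElementaryAbelian_iff.1 hA'.2.1).1
  have hoff := hA'.isBestOffender le_top hV
  obtain ⟨h1, h2, h3⟩ := H2.timmesfeld_replacement hV hAV hoff (le_refl V)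
  obtain ⟨h4, h5⟩ := H2.timmGood_all hVc hAV hoff.2.1 hoff.1 (le_refl V)
  have hXV : (⁅V, A⁆ : Subgroup G) ≤ V := H2.commutator_le_left_of_norm le_rfl hAV
  obtain ⟨X, hX⟩ : ∃ X, X = (⁅V, A⁆ : Subgroup G) := ⟨_, rfl⟩
  rw [← hX] at h1 h2 h3 h4 h5 hXV ⊢
  obtain ⟨B, hB⟩ : ∃ B, B = A ⊓ Subgroup.centralizer (X : Set G) := ⟨_, rfl⟩
  rw [← hB] at h1 h2 h3 h4 h5 ⊢
  have hBA : B ≤ A := hB ▸ inf_le_left
  have hXB : ∀ a ∈ X, ∀ b ∈ B, a * b = b * a := by
    intro a ha b hb
    rw [hB] at hb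
    exact H2.comm_of_mem_centralizer hb.2 ha
  have hCA : V ⊓ Subgroup.centralizer (A : Set G) = V ⊓ A := by
    apply le_antisymm
    · intro x hx
      refine ⟨hx.1, ?_⟩
      exact hA'.mem_of_centralize (Subgroup.mem_top x) (hVp x hx.1)
        (fun a ha => H2.comm_of_mem_centralizer hx.2 ha)
    · intro x hx
      refine ⟨hx.1, ?_⟩
      refine Subgroup.mem_centralizer_iff.2 ?_
      intro a ha
      exact hAc a ha x hx.2
  have hVA_B : V ⊓ A ≤ B := by
    rw [hB]
    intro x hx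
    refine ⟨hx.2, ?_⟩
    refine Subgroup.mem_centralizer_iff.2 ?_
    intro y hy
    exact hVc y (hXV hy) x hx.1
  have hea : IsElementaryAbelian p (X ⊔ B) :=
    H2.isElementaryAbelian_sup (H18.isElementaryAbelian_mono hV hXV)
      (H18.isElementaryAbelian_mono hA'.2.1 hBA) hXB
  have hcard : Nat.card A = Nat.card ↥(X ⊔ B) := by
    have e1 := H2.card_sup_mul_card_inf_of_comm (A := X ⊔ (V ⊓ A)) (B := B) (by
      intro a ha b hb
      have hle : X ⊔ (V ⊓ A) ≤ Subgroup.centralizer ({b} : Set G) := by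
        apply sup_le
        · intro y hy
          have := hXB y hy b hb
          rw [Subgroup.mem_centralizer_singleton_iff]
          exact this
        · intro y hy
          have := hAc y hy.2 b (hBA hb)
          rw [Subgroup.mem_centralizer_singleton_iff]
          exact this
      have := Subgroup.mem_centralizer_singleton_iff.1 (hle ha)
      exact this)
    have e2 : X ⊔ (V ⊓ A) ⊔ B = X ⊔ B := by
      rw [sup_assoc, sup_eq_right.2 hVA_B]
    have e3 : (X ⊔ (V ⊓ A)) ⊓ B = V ⊓ A := by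
      apply le_antisymm
      · intro x hx
        refine ⟨?_, hBA hx.2⟩
        exact (sup_le hXV inf_le_left : X ⊔ (V ⊓ A) ≤ V) hx.1
      · exact le_inf le_sup_right hVA_B
    rw [e2, e3] at e1
    rw [hCA] at h5 h4
    rw [h4] at h5
    -- h5 : |A| * |V ⊓ A| = |B| * |X ⊔ V ⊓ A| ; e1 : |X⊔B| * |V⊓A| = |X ⊔ V ⊓ A| * |B|
    have hpos : 0 < Nat.card ↥(V ⊓ A) := Nat.card_pos
    have e4 : Nat.card A * Nat.card ↥(V ⊓ A) = Nat.card ↥(X ⊔ B) * Nat.card ↥(V ⊓ A) := by
      rw [h5, e1, mul_comm]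
    exact Nat.eq_of_mul_eq_mul_right hpos e4
  have hsupN : X ⊔ B ≤ Subgroup.normalizer (V : Set G) := by
    rw [Subgroup.normalizer_eq_top]; exact le_top
  refine ⟨?_, ?_, ?_⟩
  · exact H2.mem_maxElem_top.2 (hA'.of_card_eq le_top hea hcard.le)
  · -- [V, XB] ≤ [V,B] ≤ X
    have e1 : (⁅V, X ⊔ B⁆ : Subgroup G) ≤ X := by
      rw [Subgroup.commutator_le]
      intro v hv y hy
      have hn : B ≤ Subgroup.normalizer (X : Set G) := by
        refine le_trans ?_ (Subgroup.centralizer_le_normalizer (X : Set G))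
        rw [hB]; exact inf_le_right
      have hy2 : y ∈ ((X ⊔ B : Subgroup G) : Set G) := hy
      rw [Subgroup.coe_mul_of_right_le_normalizer_left X B hn] at hy2
      obtain ⟨x, hx, b, hb, rfl⟩ := hy2
      have hb' : v * b * v⁻¹ * b⁻¹ ∈ X := by
        rw [hX]
        exact Subgroup.commutator_mem_commutator hv (hBA hb)
      have e2 : v * (x * b) * v⁻¹ * (x * b)⁻¹ = x * (v * b * v⁻¹ * b⁻¹) * x⁻¹ := by
        have := hVc v hv x (hXV hx)
        calc v * (x * b) * v⁻¹ * (x * b)⁻¹ = (v * x) * b * v⁻¹ * b⁻¹ * x⁻¹ := by group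
          _ = (x * v) * b * v⁻¹ * b⁻¹ * x⁻¹ := by rw [this]
          _ = _ := by group
      show v * (x * b) * v⁻¹ * (x * b)⁻¹ ∈ X
      rw [e2]
      exact mul_mem (mul_mem hx hb') (inv_mem hx)
    rw [Subgroup.commutator_eq_bot_iff_le_centralizer]
    intro y hy
    have hyX := e1 hy
    refine Subgroup.mem_centralizer_iff.2 ?_
    intro z hz
    have hle : X ⊔ B ≤ Subgroup.centralizer ({y} : Set G) := by
      apply sup_le
      · intro w hw
        have := hVc w (hXV hw) y (hXV hyX)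
        rw [Subgroup.mem_centralizer_singleton_iff]
        exact this
      · intro w hw
        have := (hXB y hyX w hw).symm
        rw [Subgroup.mem_centralizer_singleton_iff]
        exact this
    have := Subgroup.mem_centralizer_singleton_iff.1 (hle hz)
    exact this
  · intro hne hbot
    apply h3 hne
    rw [eq_bot_iff]
    calc (⁅V, B⁆ : Subgroup G) ≤ ⁅V, X ⊔ B⁆ := Subgroup.commutator_mono le_rfl le_sup_right
      _ = ⊥ := hbot
      _ ≤ ⊥ := le_rfl

end Cfsg.Agent.S0607
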