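import Cfsg.Statements.S0609
import Cfsg.Agent.H2.CopQuot

set_option autoImplicit false
set_option linter.style.haveILetI false
set_option linter.unusedVariables false
set_option linter.unusedSectionVars false
open Cfsg

namespace Cfsg.Agent.S0609

/-- Thompson factorizability passes to and from the quotient by the largest normal subgroup of order prime to p. -/
theorem result {G : Type*} [Group G] [Finite G] {p : ℕ} [Fact p.Prime] : Cfsg.IsThompsonFactorizable p G ↔ Cfsg.IsThompsonFactorizable p (G ⧸ Cfsg.pPrimeCore p G) := by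
  have hN : (Nat.card (pPrimeCore p G)).Coprime p := H1.pPrimeCore_coprime p G
  have hbot := H1.pPrimeCore_quotient_eq_bot (G := G) p
  set N := pPrimeCore p G with hNdef
  haveI : N.Normal := H1.pPrimeCore_normal p G
  have hsurj : Function.Surjective (QuotientGroup.mk' N) := QuotientGroup.mk'_surjective N
  constructor
  · intro h T g
    obtain ⟨S, rfl⟩ := Sylow.mapSurjective_surjective hsurj p T
    obtain ⟨g, rfl⟩ := hsurj g
    obtain ⟨x, hx, c, hc, n, hn, rfl⟩ := h S g
    refine ⟨1, one_mem _, QuotientGroup.mk' N c, ?_, QuotientGroup.mk' N n, ?_, ?_⟩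
    · rw [Sylow.coe_mapSurjective, H2.oz_map_mk' S.2 hN, Subgroup.mem_centralizer_iff]
      rintro _ ⟨v, hv, rfl⟩
      rw [← map_mul, ← map_mul, H2.comm_of_mem_centralizer hc hv]
    · rw [Sylow.coe_mapSurjective, H2.thompsonSubgroupOf_map_mk' S.2 hN]
      exact Subgroup.le_normalizer_map _ (Subgroup.mem_map_of_mem _ hn)
    · rw [one_mul, map_mul, map_mul]
      have : QuotientGroup.mk' N x = 1 := (QuotientGroup.eq_one_iff x).2 hx
      rw [this, one_mul]
  · intro h S g
    obtain ⟨x, hx, c, hc, n, hn, hg⟩ := h (S.mapSurjective hsurj) (QuotientGroup.mk' N g)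
    rw [hbot, Subgroup.mem_bot] at hx
    subst hx
    rw [one_mul] at hg
    rw [Sylow.coe_mapSurjective, H2.oz_map_mk' S.2 hN] at hc
    rw [Sylow.coe_mapSurjective, H2.thompsonSubgroupOf_map_mk' S.2 hN] at hn
    obtain ⟨c, rfl⟩ := hsurj c
    obtain ⟨n, rfl⟩ := hsurj n
    have hZp : IsPGroup p (omegaOne p ((S : Subgroup G) ⊓ Subgroup.centralizer ((S : Subgroup G) : Set G))) :=
      H20.IsElementaryAbelian.isPGroup (H2.oz_isElementaryAbelian _)
    have hJp : IsPGroup p (thompsonSubgroupOf p (S : Subgroup G)) :=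
      S.2.to_le (H2.thompsonSubgroupOf_le p _)
    obtain ⟨x1, hx1, c1, hc1, rfl⟩ := H2.exists_mul_centralizer_of_map hZp hN (g := c) (by
      intro x hx
      have h1 := H2.comm_of_mem_centralizer hc (Subgroup.mem_map_of_mem (QuotientGroup.mk' N) hx)
      rw [← QuotientGroup.eq_one_iff]
      have h2 : (QuotientGroup.mk' N) (c * x * c⁻¹ * x⁻¹) = 1 := by
        rw [map_mul, map_mul, map_mul, map_inv, map_inv, mul_inv_eq_one, mul_inv_eq_iff_eq_mul]
        exact h1.symm
      exact h2)
    obtain ⟨x2, hx2, n1, hn1, rfl⟩ := H2.exists_mul_normalizer_of_map hJp hN (g := n) (by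
      intro x hx
      have h1 := (Subgroup.mem_normalizer_iff.1 hn _).1 (Subgroup.mem_map_of_mem (QuotientGroup.mk' N) hx)
      have h2 : n * x * n⁻¹ ∈ ((thompsonSubgroupOf p (S : Subgroup G)).map (QuotientGroup.mk' N)).comap
          (QuotientGroup.mk' N) := h1
      rwa [Subgroup.comap_map_eq, QuotientGroup.ker_mk'] at h2)
    have h1 : (QuotientGroup.mk g : G ⧸ N) = QuotientGroup.mk (c1 * n1) := by
      have e1 : QuotientGroup.mk' N x1 = 1 := (QuotientGroup.eq_one_iff x1).2 hx1
      have e2 : QuotientGroup.mk' N x2 = 1 := (QuotientGroup.eq_one_iff x2).2 hx2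
      have e3 : QuotientGroup.mk' N g = QuotientGroup.mk' N (c1 * n1) := by
        rw [hg, map_mul, map_mul, map_mul, e1, e2, one_mul, one_mul]
      exact e3
    have h2 : g * (c1 * n1)⁻¹ ∈ N := by
      rw [← QuotientGroup.eq_one_iff, QuotientGroup.mk_mul, h1, ← QuotientGroup.mk_mul,
        mul_inv_cancel, QuotientGroup.mk_one]
    exact ⟨_, h2, c1, hc1, n1, hn1, by group⟩

end Cfsg.Agent.S0609
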