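import Cfsg.Statements.S0611
import Cfsg.Agent.H19.FF9

set_option autoImplicit false
set_option linter.style.haveILetI false
open Cfsg

namespace Cfsg.Agent.S0611

/-- Minimal nontrivially-acting best offenders in such a faithful group have order p, commutator [V, B] of order p and fixed points of index p. -/
theorem result {G : Type*} [Group G] [Finite G] {p : ℕ} [Fact p.Prime] (V H : Subgroup G) (hV : Cfsg.IsElementaryAbelian p V) (hHV : H ≤ Subgroup.normalizer (V : Set G)) (hf : H ⊓ Subgroup.centralizer (V : Set G) = ⊥) (hS1 : Subgroup.centralizer (Cfsg.pPrimeCore p ↥H : Set ↥H) ≤ Cfsg.pPrimeCore p ↥H) (hS3 : H = ⨆ A : {A : Subgroup G // A ≤ H ∧ Cfsg.IsBestOffenderOn p V A}, (A : Subgroup G)) (hH1 : H ≠ ⊥) (A : Subgroup G) (hAH : A ≤ H) (hA : Cfsg.IsBestOffenderOn p V A) (hAV : ⁅V, A⁆ ≠ ⊥) (hmin : ∀ B : Subgroup G, B ≤ A → Cfsg.IsBestOffenderOn p V B → ⁅V, B⁆ ≠ ⊥ → B = A) : Nat.card A = p ∧ Nat.card ↥(⁅V, A⁆) = p ∧ ((V ⊓ Subgroup.centralizer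 (A : Set G))).relIndex V = p := by

  have hpp : p.Prime := Fact.out
  have hh : H19.FF.Hyp p V H := ⟨hV, hHV, hf, hS1⟩
  obtain ⟨A', rfl⟩ := H19.FF.exists_map_of_le hAH
  have h1 : H19.FF.FFS.TG p hh.MW A' := (hh.min_iff A').mp ⟨hA, hAV, hmin⟩
  refine ⟨?_, ?_, ?_⟩
  · rw [H19.FF.map_card]; exact h1.1
  · rw [← H19.FF.Wm.toG_comS (hV := hh.hV.1) (hHV := hh.hHV) A', H19.FF.Wm.card_toG]
    obtain ⟨a, ha, ha1⟩ := h1.exists_ne
    have heq : H19.PGV.comS hh.MW A' = H19.PGV.rg hh.MW a := by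
      apply le_antisymm
      · rw [H19.PGV.comS_le]
        intro b hb w
        by_cases hb1 : b = 1
        · rw [hb1, one_smul, sub_self]; exact AddSubgroup.zero_mem _
        · rw [h1.rg_eq hh.ffs ha ha1 hb hb1]
          exact H19.PGV.mem_rg b w
      · rintro _ ⟨v, _, rfl⟩
        exact H19.PGV.mem_comS ha v
    rw [heq]
    exact h1.card_rg ha ha1
  · have h2 := H19.PGV.card_relIndex (inf_le_left : V ⊓ Subgroup.centralizer ((A'.map H.subtype : Subgroup G) : Set G) ≤ V)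
    rw [hh.card_fix] at h2
    have h3 : p * Nat.card (H19.PGV.fixS hh.MW A') = Nat.card V := h1.2
    rw [← h3, mul_comm] at h2
    exact Nat.eq_of_mul_eq_mul_right Nat.card_pos h2


end Cfsg.Agent.S0611
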