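import Cfsg.Statements.S0612
import Cfsg.Agent.H19.FF9

set_option autoImplicit false
set_option linter.style.haveILetI false
open Cfsg

namespace Cfsg.Agent.S0612

/-- In such a faithful group every nontrivial best offender decomposes as a direct product of minimal nontrivially-acting best offenders. -/
theorem result {G : Type*} [Group G] [Finite G] {p : ℕ} [Fact p.Prime] (V H : Subgroup G) (hV : Cfsg.IsElementaryAbelian p V) (hHV : H ≤ Subgroup.normalizer (V : Set G)) (hf : H ⊓ Subgroup.centralizer (V : Set G) = ⊥) (hS1 : Subgroup.centralizer (Cfsg.pPrimeCore p ↥H : Set ↥H) ≤ Cfsg.pPrimeCore p ↥H) (hS3 : H = ⨆ A : {A : Subgroup G // A ≤ H ∧ Cfsg.IsBestOffenderOn p V A}, (A : Subgroup G)) (hH1 : H ≠ ⊥) (A : Subgroup G) (hAH : A ≤ H) (hA : Cfsg.IsBestOffenderOn p V A) (hA1 : A ≠ ⊥) : ∃ (k : ℕ) (B : Fin k → Subgroup G), (∀ i, B i ≤ A ∧ Cfsg.IsBestOffenderOn p V (B i) ∧ ⁅V, B i⁆ ≠ ⊥ ∧ ∀ C : Subgroup G, C ≤ B i → Cfsg.IsBestOffenderOn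 p V C → ⁅V, C⁆ ≠ ⊥ → C = B i) ∧ iSupIndep B ∧ ⨆ i, B i = A := by

  have hh : H19.FF.Hyp p V H := ⟨hV, hHV, hf, hS1⟩
  obtain ⟨A', rfl⟩ := H19.FF.exists_map_of_le hAH
  have h1 := (hh.off_iff A').mp hA
  obtain ⟨S, hS1', hS2, hS3'⟩ := hh.ffs.exists_indep h1
  have hfin : Finite S := inferInstance
  let e := (Finite.equivFin S)
  refine ⟨Nat.card S, fun i => ((e.symm i : S) : Subgroup ↥H).map H.subtype, ?_, ?_, ?_⟩
  · intro i
    have h2 := hS1' _ (e.symm i).2
    exact ⟨H19.FF.map_le_iff'.mpr h2.1, (hh.min_iff _).mpr h2.2⟩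
  · have h3 : iSupIndep (fun i => ((e.symm i : S) : Subgroup ↥H)) := by
      have h4 : iSupIndep (fun s : S => (s : Subgroup ↥H)) := (sSupIndep_iff S).mp hS2
      exact h4.comp e.symm.injective
    intro i
    have h5 := h3 i
    rw [disjoint_iff] at h5 ⊢
    have h6 : (⨆ j, ⨆ (_ : j ≠ i), Subgroup.map H.subtype ((e.symm j : S) : Subgroup ↥H)) =
        (⨆ j, ⨆ (_ : j ≠ i), ((e.symm j : S) : Subgroup ↥H)).map H.subtype := by
      rw [Subgroup.map_iSup]
      congr 1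
      funext j
      rw [Subgroup.map_iSup]
    rw [h6, ← Subgroup.map_inf _ _ _ H.subtype_injective, h5, Subgroup.map_bot]
  · rw [← Subgroup.map_iSup, ← hS3', sSup_eq_iSup']
    congr 1
    exact e.symm.iSup_comp (g := fun s : S => (s : Subgroup ↥H))


end Cfsg.Agent.S0612
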