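import Cfsg.Statements.S0613
import Cfsg.Agent.H19.FF9

set_option autoImplicit false
set_option linter.style.haveILetI false
open Cfsg

namespace Cfsg.Agent.S0613

/-- A minimal nontrivially-acting best offender and a conjugate of it under a non-centralizing element of the p'-core generate SL(2, p) acting naturally on a plane, and p is 2 or 3. -/
theorem result {G : Type*} [Group G] [Finite G] {p : ℕ} [Fact p.Prime] (V H : Subgroup G) (hV : Cfsg.IsElementaryAbelian p V) (hHV : H ≤ Subgroup.normalizer (V : Set G)) (hf : H ⊓ Subgroup.centralizer (V : Set G) = ⊥) (hS1 : Subgroup.centralizer (Cfsg.pPrimeCore p ↥H : Set ↥H) ≤ Cfsg.pPrimeCore p ↥H) (hS3 : H = ⨆ A : {A : Subgroup G // A ≤ H ∧ Cfsg.IsBestOffenderOn p V A}, (A : Subgroup G)) (hH1 : H ≠ ⊥) (A : Subgroup G) (hAH : A ≤ H) (hA : Cfsg.IsBestOffenderOn p V A) (hAV : ⁅V, A⁆ ≠ ⊥) (hmin : ∀ B : Subgroup G, B ≤ A → Cfsg.IsBestOffenderOn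 p V B → ⁅V, B⁆ ≠ ⊥ → B = A) (x : G) (hx : x ∈ ((Cfsg.pPrimeCore p ↥H).map H.subtype)) (hxA : x ∉ Subgroup.centralizer (A : Set G)) : (p = 2 ∨ p = 3) ∧ Nat.card ↥(⁅V, A ⊔ A.map (MulAut.conj x).toMonoidHom⁆) = p ^ 2 ∧ (A ⊔ A.map (MulAut.conj x).toMonoidHom) ⊓ Subgroup.centralizer ((⁅V, A ⊔ A.map (MulAut.conj x).toMonoidHom⁆ : Subgroup G) : Set G) = ⊥ ∧ Nonempty (↥(A ⊔ A.map (MulAut.conj x).toMonoidHom) ≃* Matrix.SpecialLinearGroup (Fin 2) (ZMod p)) := by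

  have hh : H19.FF.Hyp p V H := ⟨hV, hHV, hf, hS1⟩
  obtain ⟨A', rfl⟩ := H19.FF.exists_map_of_le hAH
  have h1 : H19.FF.FFS.TG p hh.MW A' := (hh.min_iff A').mp ⟨hA, hAV, hmin⟩
  obtain ⟨y, hy, rfl⟩ := hx
  have hQn := hh.ffs.hQn
  have hne : H19.PGV.cj y A' ≠ A' := by
    intro heq
    apply hxA
    show H.subtype y ∈ Subgroup.centralizer _
    rw [Subgroup.mem_centralizer_iff]
    rintro _ ⟨a, ha, rfl⟩
    have e1 : y * a * y⁻¹ ∈ A' := by rw [← heq]; exact H19.PGV.cj_mem y ha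
    have e2 : y * a * y⁻¹ * a⁻¹ ∈ A' := A'.mul_mem e1 (A'.inv_mem ha)
    have e3 : y * a * y⁻¹ * a⁻¹ ∈ Cfsg.pPrimeCore p ↥H := by
      have : y * a * y⁻¹ * a⁻¹ = y * (a * y⁻¹ * a⁻¹) := by group
      rw [this]
      exact Subgroup.mul_mem _ hy (hQn.conj_mem _ (Subgroup.inv_mem _ hy) a)
    have e4 := hh.ffs.inf_bot h1.EA _ e2 e3
    rw [mul_inv_eq_one, mul_inv_eq_iff_eq_mul] at e4
    exact congrArg Subtype.val e4.symm
  obtain ⟨ι, φ, hPl, -⟩ := hh.ffs.exists_Pl h1 hy hne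
  have hmap : (A'.map H.subtype).map (MulAut.conj (H.subtype y)).toMonoidHom = (H19.PGV.cj y A').map H.subtype := by
    unfold H19.PGV.cj
    rw [Subgroup.map_map, Subgroup.map_map]
    rfl
  have hmap2 : A'.map H.subtype ⊔ (A'.map H.subtype).map (MulAut.conj (H.subtype y)).toMonoidHom =
      (A' ⊔ H19.PGV.cj y A').map H.subtype := by
    rw [hmap, Subgroup.map_sup]
  rw [hmap2]
  refine ⟨h1.p_le hh.ffs, ?_, ?_, ?_⟩
  · rw [← H19.FF.Wm.toG_comS (hV := hh.hV.1) (hHV := hh.hHV), H19.FF.Wm.card_toG]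
    exact hPl.card_com
  · rw [hh.centr_map, eq_bot_iff]
    rintro _ ⟨x, ⟨hx, hx2⟩, rfl⟩
    rw [hPl.faithful hh.faithful hx hx2, map_one]
    exact Subgroup.one_mem _
  · exact ⟨((A' ⊔ H19.PGV.cj y A').equivMapOfInjective _ H.subtype_injective).symm.trans φ⟩


end Cfsg.Agent.S0613
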