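import Cfsg.Statements.S0614
import Cfsg.Agent.H19.FF9

set_option autoImplicit false
set_option linter.style.haveILetI false
open Cfsg

namespace Cfsg.Agent.S0614

/-- The commutator of the p'-core with a minimal nontrivially-acting best offender is a 3-group (when p = 2) or a non-abelian 2-group (when p = 3). -/
theorem result {G : Type*} [Group G] [Finite G] {p : ℕ} [Fact p.Prime] (V H : Subgroup G) (hV : Cfsg.IsElementaryAbelian p V) (hHV : H ≤ Subgroup.normalizer (V : Set G)) (hf : H ⊓ Subgroup.centralizer (V : Set G) = ⊥) (hS1 : Subgroup.centralizer (Cfsg.pPrimeCore p ↥H : Set ↥H) ≤ Cfsg.pPrimeCore p ↥H) (hS3 : H = ⨆ A : {A : Subgroup G // A ≤ H ∧ Cfsg.IsBestOffenderOn p V A}, (A : Subgroup G)) (hH1 : H ≠ ⊥) (A : Subgroup G) (hAH : A ≤ H) (hA : Cfsg.IsBestOffenderOn p V A) (hAV : ⁅V, A⁆ ≠ ⊥) (hmin : ∀ B : Subgroup G, B ≤ A → Cfsg.IsBestOffenderOn p V B → ⁅V, B⁆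 ≠ ⊥ → B = A) : (p = 2 ∧ IsPGroup 3 ↥(⁅((Cfsg.pPrimeCore p ↥H).map H.subtype), A⁆)) ∨ (p = 3 ∧ IsPGroup 2 ↥(⁅((Cfsg.pPrimeCore p ↥H).map H.subtype), A⁆) ∧ ¬ IsMulCommutative ↥(⁅((Cfsg.pPrimeCore p ↥H).map H.subtype), A⁆)) := by

  have hh : H19.FF.Hyp p V H := ⟨hV, hHV, hf, hS1⟩
  obtain ⟨A', rfl⟩ := H19.FF.exists_map_of_le hAH
  have h1 : H19.FF.FFS.TG p hh.MW A' := (hh.min_iff A').mp ⟨hA, hAV, hmin⟩
  rw [← Subgroup.map_commutator]
  have hc := H19.FF.map_card (⁅Cfsg.pPrimeCore p ↥H, A'⁆)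
  rcases h1.card_com hh.ffs with ⟨hp, hcard⟩ | ⟨hp, hcard⟩
  · left
    refine ⟨hp, IsPGroup.of_card (n := 1) ?_⟩
    rw [hc, hcard, pow_one]
  · right
    refine ⟨hp, IsPGroup.of_card (n := 3) ?_, ?_⟩
    · rw [hc, hcard]; norm_num
    · intro hcomm
      apply h1.nonabelian hh.ffs hp
      refine ⟨⟨fun a b => ?_⟩⟩
      apply Subtype.ext
      apply Subtype.ext
      have h2 := congrArg Subtype.val (hcomm.is_comm.comm ⟨H.subtype a.1, ⟨a.1, a.2, rfl⟩⟩ ⟨H.subtype b.1, ⟨b.1, b.2, rfl⟩⟩)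
      exact h2


end Cfsg.Agent.S0614
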