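import Cfsg.Statements.S0615
import Cfsg.Agent.H19.FF10

set_option autoImplicit false
set_option linter.style.haveILetI false
open Cfsg

namespace Cfsg.Agent.S0615

/-- Two subnormal subgroups acting irreducibly on their incomparable commutator modules, in a faithful group with trivial largest normal p-subgroup, generate their direct product, and the commutator module splits accordingly. -/
theorem result {G : Type*} [Group G] [Finite G] {p : ℕ} [Fact p.Prime] (V E E₁ E₂ : Subgroup G) (hV : Cfsg.IsElementaryAbelian p V) (hEV : E ≤ Subgroup.normalizer (V : Set G)) (hf : E ⊓ Subgroup.centralizer (V : Set G) = ⊥) (hgen : E = E₁ ⊔ E₂) (hs₁ : (E₁.subgroupOf E).IsSubnormal) (hs₂ : (E₂.subgroupOf E).IsSubnormal) (hOp : Cfsg.pCore p ↥E = ⊥) (hirr₁ : (∀ U : Subgroup G, U ≤ ⁅V, E₁⁆ → E₁ ≤ Subgroup.normalizer (U : Set G) → U = ⊥ ∨ U = ⁅V, E₁⁆)) (hirr₂ : (∀ U : Subgroup G, U ≤ ⁅V,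 E₂⁆ → E₂ ≤ Subgroup.normalizer (U : Set G) → U = ⊥ ∨ U = ⁅V, E₂⁆)) (h12 : ¬ ⁅V, E₁⁆ ≤ ⁅V, E₂⁆) (h21 : ¬ ⁅V, E₂⁆ ≤ ⁅V, E₁⁆) (hc₁ : 2 < Nat.card E₁) (hc₂ : 2 < Nat.card E₂) : ⁅E₁, E₂⁆ = ⊥ ∧ E₁ ⊓ E₂ = ⊥ ∧ ⁅V, E₁⁆ ⊓ ⁅V, E₂⁆ = ⊥ ∧ ⁅V, E⁆ = ⁅V, E₁⁆ ⊔ ⁅V, E₂⁆ := by

  have hpp : p.Prime := Fact.out
  have h1E : E₁ ≤ E := by rw [hgen]; exact le_sup_left
  have h2E : E₂ ≤ E := by rw [hgen]; exact le_sup_right
  have hm1 : (E₁.subgroupOf E).map E.subtype = E₁ := by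
    rw [Subgroup.subgroupOf_map_subtype, inf_eq_left.mpr h1E]
  have hm2 : (E₂.subgroupOf E).map E.subtype = E₂ := by
    rw [Subgroup.subgroupOf_map_subtype, inf_eq_left.mpr h2E]
  have hc1 : Nat.card (E₁.subgroupOf E) = Nat.card E₁ := by
    rw [← H19.FF.map_card, hm1]
  have hc2 : Nat.card (E₂.subgroupOf E) = Nat.card E₂ := by
    rw [← H19.FF.map_card, hm2]
  have hcom : ∀ B : Subgroup ↥E, ⁅V, B.map E.subtype⁆ = H19.FF.Wm.toG (H19.PGV.comS (H19.FF.Wm V E hV.1 hEV) B) := fun B =>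
    (H19.FF.Wm.toG_comS (hV := hV.1) (hHV := hEV) B).symm
  have hpW : ∀ w : H19.FF.Wm V E hV.1 hEV, p • w = 0 := by
    intro w
    apply H19.FF.Wm.ext
    rw [H19.FF.Wm.val_nsmul, H19.FF.Wm.val_zero]
    exact hV.2 _ w.val_mem
  have hfa : ∀ g : ↥E, (∀ w : H19.FF.Wm V E hV.1 hEV, g • w = w) → g = 1 := by
    intro g hg
    have h1 : (g : G) ∈ E ⊓ Subgroup.centralizer (V : Set G) := by
      refine ⟨g.2, ?_⟩
      show (g : G) ∈ Subgroup.centralizer (V : Set G)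
      rw [Subgroup.mem_centralizer_iff]
      intro v hv
      have h2 := congrArg H19.FF.Wm.val (hg (H19.FF.Wm.mk hv))
      rw [H19.FF.Wm.val_smul, H19.FF.Wm.val_mk, mul_inv_eq_iff_eq_mul] at h2
      exact h2.symm
    rw [hf, Subgroup.mem_bot] at h1
    exact Subtype.ext h1
  have hirr : ∀ F : Subgroup ↥E, (∀ U : Subgroup G, U ≤ ⁅V, F.map E.subtype⁆ →
      F.map E.subtype ≤ Subgroup.normalizer (U : Set G) → U = ⊥ ∨ U = ⁅V, F.map E.subtype⁆) →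
      H19.FF.Irr (H19.FF.Wm V E hV.1 hEV) F := by
    intro F hF U hU hinv
    have h1 := hF (H19.FF.Wm.toG U) (by rw [hcom]; exact H19.FF.Wm.toG_le.mpr hU) (by
      have key : ∀ x ∈ F, ∀ y : G, y ∈ H19.FF.Wm.toG U → (x : G) * y * (x : G)⁻¹ ∈ H19.FF.Wm.toG U := by
        intro x hx y hy
        obtain ⟨w, hw, rfl⟩ := H19.FF.Wm.mem_toG.mp hy
        exact H19.FF.Wm.mem_toG.mpr ⟨x • w, hinv x hx w hw, rfl⟩
      rintro _ ⟨x, hx, rfl⟩
      rw [Subgroup.mem_normalizer_iff]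
      intro y
      refine ⟨key x hx y, fun h => ?_⟩
      have h3 := key x⁻¹ (F.inv_mem hx) _ h
      have e : ((x⁻¹ : ↥E) : G) * (E.subtype x * y * (E.subtype x)⁻¹) * ((x⁻¹ : ↥E) : G)⁻¹ = y := by
        show (x : G)⁻¹ * ((x : G) * y * (x : G)⁻¹) * (x : G)⁻¹⁻¹ = y
        group
      rwa [e] at h3)
    rcases h1 with h | h
    · left
      rw [← H19.FF.Wm.toG_bot (hV := hV.1) (hHV := hEV)] at h
      exact H19.FF.Wm.toG_inj h
    · right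
      rw [hcom] at h
      exact H19.FF.Wm.toG_inj h
  have hv1 : ⁅V, E₁⁆ = H19.FF.Wm.toG (H19.PGV.comS (H19.FF.Wm V E hV.1 hEV) (E₁.subgroupOf E)) := by
    rw [← hcom, hm1]
  have hv2 : ⁅V, E₂⁆ = H19.FF.Wm.toG (H19.PGV.comS (H19.FF.Wm V E hV.1 hEV) (E₂.subgroupOf E)) := by
    rw [← hcom, hm2]
  obtain ⟨a1, a2, a3⟩ := H19.FF.sub_irr hpW hfa hOp _ (E₁.subgroupOf E) (E₂.subgroupOf E) rfl hs₁ hs₂
    (hirr _ (by rw [hm1]; exact hirr₁)) (hirr _ (by rw [hm2]; exact hirr₂))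
    (fun h => h12 (by rw [hv1, hv2]; exact H19.FF.Wm.toG_le.mpr h))
    (fun h => h21 (by rw [hv1, hv2]; exact H19.FF.Wm.toG_le.mpr h)) (by rw [hc1]; exact hc₁) (by rw [hc2]; exact hc₂)
  refine ⟨?_, ?_, ?_, ?_⟩
  · rw [eq_bot_iff, Subgroup.commutator_le]
    intro a ha b hb
    rw [Subgroup.mem_bot, commutatorElement_eq_one_iff_mul_comm]
    exact congrArg Subtype.val (a1 ⟨a, h1E ha⟩ ha ⟨b, h2E hb⟩ hb)
  · rw [← hm1, ← hm2, ← Subgroup.map_inf _ _ _ E.subtype_injective, a2, Subgroup.map_bot]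
  · rw [hv1, hv2, ← H19.FF.Wm.toG_inf, a3, H19.FF.Wm.toG_bot]
  · have h3 : (E₁.subgroupOf E ⊔ E₂.subgroupOf E).map E.subtype = E := by
      rw [Subgroup.map_sup, hm1, hm2, ← hgen]
    have h4 : ⁅V, E⁆ = H19.FF.Wm.toG (H19.PGV.comS (H19.FF.Wm V E hV.1 hEV) (E₁.subgroupOf E ⊔ E₂.subgroupOf E)) := by
      rw [← hcom, h3]
    rw [h4, hv1, hv2, ← H19.FF.Wm.toG_sup]
    congr 1
    apply le_antisymm
    · have h5 : E₁.subgroupOf E ⊔ E₂.subgroupOf E = sSup {E₁.subgroupOf E, E₂.subgroupOf E} := by rw [sSup_pair]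
      rw [h5]
      apply H19.FF.FFS.plane_of_gen
      rintro B (rfl | rfl)
      · exact le_sup_left
      · exact le_sup_right
    · refine sup_le ?_ ?_
      · rw [H19.PGV.comS_le]
        exact fun x hx w => H19.PGV.mem_comS ((le_sup_left : E₁.subgroupOf E ≤ _) hx) w
      · rw [H19.PGV.comS_le]
        exact fun x hx w => H19.PGV.mem_comS ((le_sup_right : E₂.subgroupOf E ≤ _) hx) w


end Cfsg.Agent.S0615
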