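import Cfsg.Statements.S0616
import Cfsg.Agent.H19.FF9

set_option autoImplicit false
set_option linter.style.haveILetI false
open Cfsg

namespace Cfsg.Agent.S0616

/-- Each minimal nontrivially-acting best offender spans, with its commutator on the p'-core, a direct factor E of H isomorphic to SL(2, p) with a 2-dimensional commutator module complementing C_V(E). -/
theorem result {G : Type*} [Group G] [Finite G] {p : ℕ} [Fact p.Prime] (V H : Subgroup G) (hV : Cfsg.IsElementaryAbelian p V) (hHV : H ≤ Subgroup.normalizer (V : Set G)) (hf : H ⊓ Subgroup.centralizer (V : Set G) = ⊥) (hS1 : Subgroup.centralizer (Cfsg.pPrimeCore p ↥H : Set ↥H) ≤ Cfsg.pPrimeCore p ↥H) (hS3 : H = ⨆ A : {A : Subgroup G // A ≤ H ∧ Cfsg.IsBestOffenderOn p V A}, (A : Subgroup G)) (hH1 : H ≠ ⊥) (A : Subgroup G) (hAH : A ≤ H) (hA : Cfsg.IsBestOffenderOn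 p V A) (hAV : ⁅V, A⁆ ≠ ⊥) (hmin : ∀ B : Subgroup G, B ≤ A → Cfsg.IsBestOffenderOn p V B → ⁅V, B⁆ ≠ ⊥ → B = A) : (p = 2 ∨ p = 3) ∧ Nonempty (↥(⁅((Cfsg.pPrimeCore p ↥H).map H.subtype), A⁆ ⊔ A) ≃* Matrix.SpecialLinearGroup (Fin 2) (ZMod p)) ∧ Nat.card ↥(⁅V, ⁅((Cfsg.pPrimeCore p ↥H).map H.subtype), A⁆ ⊔ A⁆) = p ^ 2 ∧ ⁅V, ⁅((Cfsg.pPrimeCore p ↥H).map H.subtype), A⁆ ⊔ A⁆ ⊓ (V ⊓ Subgroup.centralizer ((⁅((Cfsg.pPrimeCore p ↥H).map H.subtype), A⁆ ⊔ A : Subgroup G) : Set G)) = ⊥ ∧ ⁅V, ⁅((Cfsg.pPrimeCore p ↥H).map H.subtype), A⁆ ⊔ A⁆ ⊔ (V ⊓ Subgroup.centralizer ((⁅((Cfsg.pPrimeCore p ↥H).map H.subtype), A⁆ ⊔ A : Subgroup G) : Set G)) = V ∧ ⁅⁅((Cfsg.pPrimeCore p ↥H).map H.subtype), A⁆ ⊔ A, H ⊓ Subgroup.centralizer ((⁅V, ⁅((Cfsg.pPrimeCore p ↥H).map H.subtype), A⁆ ⊔ A⁆ : Subgroup G) : Set G)⁆ = ⊥ ∧ (⁅((Cfsg.pPrimeCore p ↥H).map H.subtype),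 A⁆ ⊔ A) ⊓ (H ⊓ Subgroup.centralizer ((⁅V, ⁅((Cfsg.pPrimeCore p ↥H).map H.subtype), A⁆ ⊔ A⁆ : Subgroup G) : Set G)) = ⊥ ∧ (⁅((Cfsg.pPrimeCore p ↥H).map H.subtype), A⁆ ⊔ A) ⊔ (H ⊓ Subgroup.centralizer ((⁅V, ⁅((Cfsg.pPrimeCore p ↥H).map H.subtype), A⁆ ⊔ A⁆ : Subgroup G) : Set G)) = H ∧ ⁅V, H ⊓ Subgroup.centralizer ((⁅V, ⁅((Cfsg.pPrimeCore p ↥H).map H.subtype), A⁆ ⊔ A⁆ : Subgroup G) : Set G)⁆ ≤ V ⊓ Subgroup.centralizer ((⁅((Cfsg.pPrimeCore p ↥H).map H.subtype), A⁆ ⊔ A : Subgroup G) : Set G) := by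

  have hh : H19.FF.Hyp p V H := ⟨hV, hHV, hf, hS1⟩
  obtain ⟨A', rfl⟩ := H19.FF.exists_map_of_le hAH
  have h1 : H19.FF.FFS.TG p hh.MW A' := (hh.min_iff A').mp ⟨hA, hAV, hmin⟩
  have hgen := hh.gen hS3
  obtain ⟨ι, φ, hPl⟩ := h1.exists_plane hh.ffs
  rw [H19.FF.Hyp.EG_map]
  set E := H19.FF.EG (Cfsg.pPrimeCore p ↥H) A' with hE
  have hHt : (⊤ : Subgroup ↥H).map H.subtype = H := by
    rw [← MonoidHom.range_eq_map, Subgroup.range_subtype]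
  have hC : H ⊓ Subgroup.centralizer ((⁅V, E.map H.subtype⁆ : Subgroup G) : Set G) =
      (H19.FF.FFS.CP (Cfsg.pPrimeCore p ↥H) A' hh.MW).map H.subtype := by
    have := hh.centr_map E ⊤
    rw [hHt] at this
    exact this
  rw [hC, ← H19.FF.Wm.toG_comS (hV := hh.hV.1) (hHV := hh.hHV), ← H19.FF.Wm.toG_fixS (hV := hh.hV.1) (hHV := hh.hHV)]
  refine ⟨h1.p_le hh.ffs, ⟨(E.equivMapOfInjective _ H.subtype_injective).symm.trans φ⟩, ?_, ?_, ?_, ?_, ?_, ?_, ?_⟩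
  · rw [H19.FF.Wm.card_toG]
    exact hPl.card_com
  · rw [← H19.FF.Wm.toG_inf, hPl.inf_bot, H19.FF.Wm.toG_bot]
  · rw [← H19.FF.Wm.toG_sup]
    have : H19.PGV.comS hh.MW E ⊔ H19.PGV.fixS hh.MW E = ⊤ := by rw [hPl.com]; exact hPl.dec
    rw [this, H19.FF.Wm.toG_top]
  · rw [← Subgroup.map_commutator]
    have : ⁅E, H19.FF.FFS.CP (Cfsg.pPrimeCore p ↥H) A' hh.MW⁆ = ⊥ := by
      rw [eq_bot_iff, Subgroup.commutator_le]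
      intro g hg c hc
      rw [Subgroup.mem_bot, commutatorElement_eq_one_iff_mul_comm]
      exact h1.comm_CP hh.ffs hgen g hg c hc
    rw [this, Subgroup.map_bot]
  · rw [← Subgroup.map_inf _ _ _ H.subtype_injective, h1.inf_CP hh.ffs, Subgroup.map_bot]
  · rw [← Subgroup.map_sup, h1.sup_CP hh.ffs hgen, hHt]
  · rw [← H19.FF.Wm.toG_comS (hV := hh.hV.1) (hHV := hh.hHV)]
    exact H19.FF.Wm.toG_le.mpr (h1.com_CP hh.ffs hgen)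


end Cfsg.Agent.S0616
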