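import Cfsg.Statements.S0617
import Cfsg.Agent.H19.FF9

set_option autoImplicit false
set_option linter.style.haveILetI false
open Cfsg

namespace Cfsg.Agent.S0617

/-- Structure Theorem for failure of factorization: a faithful group generated by best offenders, with self-centralizing p'-core, is a direct product of copies of SL(2, p) (p = 2 or 3), each acting on its own plane in V, which is the direct product of these planes and C_V(H). -/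
theorem result {G : Type*} [Group G] [Finite G] {p : ℕ} [Fact p.Prime] (V H : Subgroup G) (hV : Cfsg.IsElementaryAbelian p V) (hHV : H ≤ Subgroup.normalizer (V : Set G)) (hf : H ⊓ Subgroup.centralizer (V : Set G) = ⊥) (hS1 : Subgroup.centralizer (Cfsg.pPrimeCore p ↥H : Set ↥H) ≤ Cfsg.pPrimeCore p ↥H) (hS3 : H = ⨆ A : {A : Subgroup G // A ≤ H ∧ Cfsg.IsBestOffenderOn p V A}, (A : Subgroup G)) (hH1 : H ≠ ⊥) : (p = 2 ∨ p = 3) ∧ (∀ E : {E : Subgroup G // ∃ A : Subgroup G, A ≤ H ∧ Cfsg.IsBestOffenderOn p V A ∧ ⁅V, A⁆ ≠ ⊥ ∧ (∀ B : Subgroup G, B ≤ A → Cfsg.IsBestOffenderOn p V B → ⁅V, B⁆ ≠ ⊥ → B = A) ∧ E = ⁅((Cfsg.pPrimeCore p ↥H).map H.subtype), A⁆ ⊔ A}, H ≤ Subgroup.normalizer ((E : Subgroup G) : Set G) ∧ Nonempty (↥(E : Subgroup G) ≃* Matrix.SpecialLinearGroup (Fin 2) (ZMod p)) ∧ Nat.card ↥(⁅V, (E : Subgroup G)⁆) = p ^ 2) ∧ iSupIndep (fun E : {E :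 Subgroup G // ∃ A : Subgroup G, A ≤ H ∧ Cfsg.IsBestOffenderOn p V A ∧ ⁅V, A⁆ ≠ ⊥ ∧ (∀ B : Subgroup G, B ≤ A → Cfsg.IsBestOffenderOn p V B → ⁅V, B⁆ ≠ ⊥ → B = A) ∧ E = ⁅((Cfsg.pPrimeCore p ↥H).map H.subtype), A⁆ ⊔ A} => (E : Subgroup G)) ∧ (⨆ E : {E : Subgroup G // ∃ A : Subgroup G, A ≤ H ∧ Cfsg.IsBestOffenderOn p V A ∧ ⁅V, A⁆ ≠ ⊥ ∧ (∀ B : Subgroup G, B ≤ A → Cfsg.IsBestOffenderOn p V B → ⁅V, B⁆ ≠ ⊥ → B = A) ∧ E = ⁅((Cfsg.pPrimeCore p ↥H).map H.subtype), A⁆ ⊔ A}, (E : Subgroup G)) = H ∧ iSupIndep (fun o : Option {E : Subgroup G // ∃ A : Subgroup G, A ≤ H ∧ Cfsg.IsBestOffenderOn p V A ∧ ⁅V, A⁆ ≠ ⊥ ∧ (∀ B : Subgroup G, B ≤ A → Cfsg.IsBestOffenderOn p V B → ⁅V, B⁆ ≠ ⊥ → B = A) ∧ E = ⁅((Cfsg.pPrimeCore p ↥H).map H.subtype), A⁆ ⊔ A} => o.elim (V ⊓ Subgroup.centralizer (H : Set G)) (fun E => ⁅V, (E : Subgroup G)⁆)) ∧ (V ⊓ Subgroup.centralizer (H : Set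 G)) ⊔ (⨆ E : {E : Subgroup G // ∃ A : Subgroup G, A ≤ H ∧ Cfsg.IsBestOffenderOn p V A ∧ ⁅V, A⁆ ≠ ⊥ ∧ (∀ B : Subgroup G, B ≤ A → Cfsg.IsBestOffenderOn p V B → ⁅V, B⁆ ≠ ⊥ → B = A) ∧ E = ⁅((Cfsg.pPrimeCore p ↥H).map H.subtype), A⁆ ⊔ A}, ⁅V, (E : Subgroup G)⁆) = V := by

  have hh : H19.FF.Hyp p V H := ⟨hV, hHV, hf, hS1⟩
  have hgen := hh.gen hS3
  have hHt : (⊤ : Subgroup ↥H).map H.subtype = H := by
    rw [← MonoidHom.range_eq_map, Subgroup.range_subtype]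
  have hCV : V ⊓ Subgroup.centralizer (H : Set G) = H19.FF.Wm.toG (H19.PGV.fixS hh.MW (⊤ : Subgroup ↥H)) := by
    rw [H19.FF.Wm.toG_fixS, hHt]
  -- the index set
  have hI : ∀ E : Subgroup G, (∃ A : Subgroup G, A ≤ H ∧ Cfsg.IsBestOffenderOn p V A ∧ ⁅V, A⁆ ≠ ⊥ ∧ (∀ B : Subgroup G, B ≤ A → Cfsg.IsBestOffenderOn p V B → ⁅V, B⁆ ≠ ⊥ → B = A) ∧ E = ⁅((Cfsg.pPrimeCore p ↥H).map H.subtype), A⁆ ⊔ A) ↔
      ∃ A' : Subgroup ↥H, H19.FF.FFS.TG p hh.MW A' ∧ E = (H19.FF.EG (Cfsg.pPrimeCore p ↥H) A').map H.subtype := by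
    intro E
    constructor
    · rintro ⟨A, hAH, h1, h2, h3, rfl⟩
      obtain ⟨A', rfl⟩ := H19.FF.exists_map_of_le hAH
      exact ⟨A', (hh.min_iff A').mp ⟨h1, h2, h3⟩, H19.FF.Hyp.EG_map H _ A'⟩
    · rintro ⟨A', h1, rfl⟩
      obtain ⟨h2, h3, h4⟩ := (hh.min_iff A').mpr h1
      exact ⟨A'.map H.subtype, H19.FF.map_le_self A', h2, h3, h4, (H19.FF.Hyp.EG_map H _ A').symm⟩
  have hcom : ∀ B : Subgroup ↥H, ⁅V, B.map H.subtype⁆ = H19.FF.Wm.toG (H19.PGV.comS hh.MW B) := fun B =>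
    (H19.FF.Wm.toG_comS (hV := hh.hV.1) (hHV := hh.hHV) B).symm
  refine ⟨?_, ?_, ?_, ?_, ?_, ?_⟩
  · -- p
    by_contra hcon
    apply hH1
    rw [← hHt]
    have h1 : {B : Subgroup ↥H | H19.FF.FFS.TG p hh.MW B} = ∅ := by
      rw [Set.eq_empty_iff_forall_notMem]
      intro B hB
      exact hcon (H19.FF.FFS.TG.p_le hh.ffs hB)
    rw [h1, sSup_empty] at hgen
    rw [← hgen, Subgroup.map_bot]
  · rintro ⟨E, hE⟩
    obtain ⟨A', hA', rfl⟩ := (hI E).mp hE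
    obtain ⟨ι, φ, hPl⟩ := hA'.exists_plane hh.ffs
    refine ⟨?_, ⟨((H19.FF.EG (Cfsg.pPrimeCore p ↥H) A').equivMapOfInjective _ H.subtype_injective).symm.trans φ⟩, ?_⟩
    · intro x hx
      rw [Subgroup.mem_normalizer_iff]
      have h1 := hA'.norm hh.ffs hgen ⟨x, hx⟩
      have h2 := H19.PGV.cj_eq_iff_norm.mp h1
      intro y
      constructor
      · rintro ⟨z, hz, rfl⟩
        exact ⟨⟨x, hx⟩ * z * ⟨x, hx⟩⁻¹, (h2 z).mp hz, rfl⟩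
      · rintro ⟨z, hz, hzy⟩
        have h3 : y ∈ H := by
          have e1 : y = x⁻¹ * (x * y * x⁻¹) * x := by group
          rw [e1, ← hzy]
          exact H.mul_mem (H.mul_mem (H.inv_mem hx) z.2) hx
        have h4 : z = ⟨x, hx⟩ * ⟨y, h3⟩ * ⟨x, hx⟩⁻¹ := Subtype.ext hzy
        refine ⟨⟨y, h3⟩, ?_, rfl⟩
        rw [h4] at hz
        exact (h2 ⟨y, h3⟩).mpr hz
    · show Nat.card ↥⁅V, (H19.FF.EG (Cfsg.pPrimeCore p ↥H) A').map H.subtype⁆ = p ^ 2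
      rw [hcom, H19.FF.Wm.card_toG]
      exact hPl.card_com
  · rintro ⟨E, hE⟩
    obtain ⟨A', hA', rfl⟩ := (hI E).mp hE
    rw [disjoint_iff, eq_bot_iff]
    have h1 : (⊥ : Subgroup G) = (H19.FF.EG (Cfsg.pPrimeCore p ↥H) A').map H.subtype ⊓
        (H19.FF.FFS.CP (Cfsg.pPrimeCore p ↥H) A' hh.MW).map H.subtype := by
      rw [← Subgroup.map_inf _ _ _ H.subtype_injective, hA'.inf_CP hh.ffs, Subgroup.map_bot]
    refine le_trans ?_ h1.ge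
    refine inf_le_inf_left _ (iSup₂_le ?_)
    rintro ⟨F, hF⟩ hne
    obtain ⟨B', hB', rfl⟩ := (hI F).mp hF
    apply H19.FF.map_le_iff'.mpr
    apply hA'.le_CP hh.ffs hB'
    intro heq
    apply hne
    apply Subtype.ext
    show (H19.FF.EG (Cfsg.pPrimeCore p ↥H) B').map H.subtype = (H19.FF.EG (Cfsg.pPrimeCore p ↥H) A').map H.subtype
    rw [heq]
  · apply le_antisymm
    · refine iSup_le ?_
      rintro ⟨E, hE⟩
      obtain ⟨A', hA', rfl⟩ := (hI E).mp hE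
      exact H19.FF.map_le_self _
    · have h1 : sSup {B : Subgroup ↥H | H19.FF.FFS.TG p hh.MW B} ≤ (⨆ E : {E : Subgroup G // ∃ A : Subgroup G, A ≤ H ∧ Cfsg.IsBestOffenderOn p V A ∧ ⁅V, A⁆ ≠ ⊥ ∧ (∀ B : Subgroup G, B ≤ A → Cfsg.IsBestOffenderOn p V B → ⁅V, B⁆ ≠ ⊥ → B = A) ∧ E = ⁅((Cfsg.pPrimeCore p ↥H).map H.subtype), A⁆ ⊔ A}, (E : Subgroup G)).comap H.subtype := by
        refine sSup_le ?_
        intro B hB
        rw [← Subgroup.map_le_iff_le_comap]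
        have h2 := (hI _).mpr ⟨B, hB, rfl⟩
        exact le_trans (H19.FF.map_le_iff'.mpr (H19.FF.le_EG (Cfsg.pPrimeCore p ↥H) B)) (le_iSup (fun E : {E : Subgroup G // ∃ A : Subgroup G, A ≤ H ∧ Cfsg.IsBestOffenderOn p V A ∧ ⁅V, A⁆ ≠ ⊥ ∧ (∀ B : Subgroup G, B ≤ A → Cfsg.IsBestOffenderOn p V B → ⁅V, B⁆ ≠ ⊥ → B = A) ∧ E = ⁅((Cfsg.pPrimeCore p ↥H).map H.subtype), A⁆ ⊔ A} => (E : Subgroup G)) ⟨_, h2⟩)
      rw [hgen] at h1
      intro x hx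
      exact h1 (Subgroup.mem_top (⟨x, hx⟩ : ↥H))
  · intro o
    rcases o with _ | ⟨E, hE⟩
    · rw [disjoint_iff, eq_bot_iff]
      show (V ⊓ Subgroup.centralizer (H : Set G)) ⊓ _ ≤ ⊥
      rw [hCV]
      have h1 : (⊥ : Subgroup G) = H19.FF.Wm.toG (H19.PGV.fixS hh.MW (⊤ : Subgroup ↥H)) ⊓
          H19.FF.Wm.toG (⨆ E ∈ H19.FF.FFS.ES p hh.MW (Cfsg.pPrimeCore p ↥H), H19.PGV.comS hh.MW E) := by
        rw [← H19.FF.Wm.toG_inf]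
        have : H19.PGV.fixS hh.MW (⊤ : Subgroup ↥H) ⊓
            ⨆ E ∈ H19.FF.FFS.ES p hh.MW (Cfsg.pPrimeCore p ↥H), H19.PGV.comS hh.MW E = ⊥ := by
          rw [eq_bot_iff]
          rintro w ⟨hw1, hw2⟩
          exact (AddSubgroup.mem_bot).mpr (hh.ffs.fix_inf hgen hw1 hw2)
        rw [this, H19.FF.Wm.toG_bot]
      refine le_trans ?_ h1.ge
      refine inf_le_inf_left _ (iSup₂_le ?_)
      rintro o ho
      rcases o with _ | ⟨F, hF⟩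
      · exact absurd rfl ho
      · obtain ⟨B', hB', rfl⟩ := (hI F).mp hF
        show ⁅V, (H19.FF.EG (Cfsg.pPrimeCore p ↥H) B').map H.subtype⁆ ≤ _
        rw [hcom]
        exact H19.FF.Wm.toG_le.mpr (le_iSup₂_of_le _ ⟨B', hB', rfl⟩ le_rfl)
    · obtain ⟨A', hA', rfl⟩ := (hI E).mp hE
      obtain ⟨ι, φ, hPl⟩ := hA'.exists_plane hh.ffs
      rw [disjoint_iff, eq_bot_iff]
      show ⁅V, (H19.FF.EG (Cfsg.pPrimeCore p ↥H) A').map H.subtype⁆ ⊓ _ ≤ ⊥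
      rw [hcom]
      have h1 : (⊥ : Subgroup G) = H19.FF.Wm.toG (H19.PGV.comS hh.MW (H19.FF.EG (Cfsg.pPrimeCore p ↥H) A')) ⊓
          H19.FF.Wm.toG (H19.PGV.fixS hh.MW (H19.FF.EG (Cfsg.pPrimeCore p ↥H) A')) := by
        rw [← H19.FF.Wm.toG_inf, hPl.inf_bot, H19.FF.Wm.toG_bot]
      refine le_trans ?_ h1.ge
      refine inf_le_inf_left _ (iSup₂_le ?_)
      rintro o ho
      rcases o with _ | ⟨F, hF⟩
      · show V ⊓ Subgroup.centralizer (H : Set G) ≤ _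
        rw [hCV]
        exact H19.FF.Wm.toG_le.mpr (fun w hw g hg => hw g trivial)
      · obtain ⟨B', hB', rfl⟩ := (hI F).mp hF
        show ⁅V, (H19.FF.EG (Cfsg.pPrimeCore p ↥H) B').map H.subtype⁆ ≤ _
        rw [hcom]
        apply H19.FF.Wm.toG_le.mpr
        apply hA'.plane_le_fix hh.ffs hB'
        intro heq
        apply ho
        congr 1
        apply Subtype.ext
        show (H19.FF.EG (Cfsg.pPrimeCore p ↥H) B').map H.subtype = (H19.FF.EG (Cfsg.pPrimeCore p ↥H) A').map H.subtype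
        rw [heq]
  · apply le_antisymm
    · refine sup_le inf_le_left (iSup_le ?_)
      rintro ⟨E, hE⟩
      obtain ⟨A', hA', rfl⟩ := (hI E).mp hE
      show ⁅V, (H19.FF.EG (Cfsg.pPrimeCore p ↥H) A').map H.subtype⁆ ≤ V
      rw [hcom]
      intro g hg
      obtain ⟨w, _, rfl⟩ := H19.FF.Wm.mem_toG.mp hg
      exact w.val_mem
    · have h1 := congrArg H19.FF.Wm.toG (hh.ffs.fix_sup hgen)
      rw [H19.FF.Wm.toG_top, H19.FF.Wm.toG_sup] at h1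
      conv_lhs => rw [← h1]
      refine sup_le ?_ ?_
      · rw [hCV]; exact le_sup_left
      · refine le_trans ?_ le_sup_right
        rw [H19.FF.Wm.toG_iSup]
        refine iSup_le fun E => ?_
        rw [H19.FF.Wm.toG_iSup]
        refine iSup_le ?_
        rintro ⟨A', hA', rfl⟩
        rw [← hcom]
        exact le_iSup (fun E : {E : Subgroup G // ∃ A : Subgroup G, A ≤ H ∧ Cfsg.IsBestOffenderOn p V A ∧ ⁅V, A⁆ ≠ ⊥ ∧ (∀ B : Subgroup G, B ≤ A → Cfsg.IsBestOffenderOn p V B → ⁅V, B⁆ ≠ ⊥ → B = A) ∧ E = ⁅((Cfsg.pPrimeCore p ↥H).map H.subtype), A⁆ ⊔ A} => ⁅V, (E : Subgroup G)⁆) ⟨_, (hI _).mpr ⟨A', hA', rfl⟩⟩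


end Cfsg.Agent.S0617
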