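import Cfsg.Statements.S0619
import Cfsg.Agent.H19.FF12
import Cfsg.Agent.S0600
import Cfsg.Agent.S0608
import Cfsg.Agent.H2.OmegaZ

set_option autoImplicit false
set_option linter.style.haveILetI false
open Cfsg

namespace Cfsg.Agent.S0619

open scoped commutatorElement in
/-- For a p-separable group and a normal elementary abelian p-subgroup V with no nontrivial normal p-subgroup modulo its centralizer C, the Thompson subgroup J(G) moves Ω₁(Z(J(C))) only inside V. -/
theorem result {G : Type*} [Group G] [Finite G] {p : ℕ} [Fact p.Prime] (hsep : Cfsg.IsPSolvable p G) (V : Subgroup G) [V.Normal] (hV : Cfsg.IsElementaryAbelian p V) (hO : Cfsg.pCore p (G ⧸ Subgroup.centralizer (V : Set G)) = ⊥) : ⁅Cfsg.omegaOne p (Cfsg.centerThompsonOf p (Subgroup.centralizer (V : Set G))), Cfsg.thompsonSubgroup p G⁆ ≤ V := by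

  set C := Subgroup.centralizer (V : Set G) with hC
  rw [Subgroup.commutator_le]
  intro z hz j hj
  have hzm : z ∈ Cfsg.centerThompsonOf p C ∧ z ^ p = 1 := by
    have h1 : Cfsg.omegaOne p (Cfsg.centerThompsonOf p C) ≤ Subgroup.closure {x : G | x ∈ Cfsg.centerThompsonOf p C ∧ x ^ p = 1} := le_rfl
    have h2 : ∀ x ∈ Cfsg.centerThompsonOf p C, ∀ y ∈ Cfsg.centerThompsonOf p C, x * y = y * x := by
      intro x hx y hy
      exact (Subgroup.mem_centralizer_iff.mp hx.2 y hy.1).symm
    exact H2.mem_omegaOne_of_comm h2 |>.mp hz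
  obtain ⟨hz1, hzp⟩ := hzm
  have hzC : z ∈ C := H2.thompsonSubgroupOf_le p C hz1.1
  -- the set of elements acting well
  let D : Subgroup G :=
    { carrier := {g | ⁅z, g⁆ ∈ V}
      one_mem' := by
        show ⁅z, (1 : G)⁆ ∈ V
        rw [commutatorElement_one_right]; exact V.one_mem
      mul_mem' := by
        intro a b ha hb
        show ⁅z, a * b⁆ ∈ V
        have e : ⁅z, a * b⁆ = ⁅z, a⁆ * (a * ⁅z, b⁆ * a⁻¹) := by
          simp only [commutatorElement_def]; group
        rw [e]
        exact V.mul_mem ha (Subgroup.Normal.conj_mem inferInstance _ hb a)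
      inv_mem' := by
        intro a ha
        show ⁅z, a⁻¹⁆ ∈ V
        have e : ⁅z, a⁻¹⁆ = a⁻¹ * (⁅z, a⁆)⁻¹ * a⁻¹⁻¹ := by
          simp only [commutatorElement_def]; group
        rw [e]
        exact Subgroup.Normal.conj_mem inferInstance _ (V.inv_mem ha) _ }
  have hJD : Cfsg.thompsonSubgroup p G ≤ D := by
    rw [H2.thompsonSubgroup_eq]
    refine sSup_le ?_
    intro A hA a ha
    show ⁅z, a⁆ ∈ V
    have hst := H19.FF.star hV hsep hO hA
    have hle : V ⊔ (A ⊓ C) ≤ C := by
      refine sup_le ?_ inf_le_right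
      intro v hv
      rw [hC, Subgroup.mem_centralizer_iff]
      intro w hw
      exact congrArg Subtype.val (hV.1.is_comm.comm ⟨w, hw⟩ ⟨v, hv⟩)
    have hstC : H2.EAIn p C (V ⊔ (A ⊓ C)) := ⟨hle, hst.2.1, fun B hB hB2 => hst.2.2 B le_top hB2⟩
    have hzst : z ∈ V ⊔ (A ⊓ C) := by
      apply hstC.mem_of_centralize hzC hzp
      intro b hb
      exact Subgroup.mem_centralizer_iff.mp hz1.2 b (hstC.le_thompson hb)
    obtain ⟨v, hv, a', ha', rfl⟩ := Subgroup.mem_sup_of_normal_left.mp hzst
    have hcom : a' * a = a * a' := H19.FF.EAIn_comm hA a' ha'.1 a ha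
    have e : ⁅v * a', a⁆ = v * (a * v⁻¹ * a⁻¹) := by
      have e1 : ⁅v * a', a⁆ = v * (a' * a) * a'⁻¹ * v⁻¹ * a⁻¹ := by
        rw [commutatorElement_def]; group
      rw [e1, hcom]; group
    rw [e]
    exact V.mul_mem hv (Subgroup.Normal.conj_mem inferInstance _ (V.inv_mem hv) a)
  exact hJD hj


end Cfsg.Agent.S0619
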