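import Cfsg.Statements.S0623
import Cfsg.Agent.H2.WNorm2

set_option autoImplicit false
set_option linter.style.haveILetI false
set_option linter.unusedVariables false
set_option linter.unusedSectionVars false
open Cfsg

namespace Cfsg.Agent.S0623

/-- No element of a finite p-group acts quadratically and nontrivially on the stable normal closure W(S). -/
theorem result {S : Type*} [Group S] [Finite S] {p : ℕ} [Fact p.Prime] (hS : IsPGroup p S) (x : S) (hq : ⁅⁅Cfsg.stableNormalClosure p S, Subgroup.zpowers x⁆, Subgroup.zpowers x⁆ = ⊥) : ⁅Cfsg.stableNormalClosure p S, Subgroup.zpowers x⁆ = ⊥ := by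
  have h := H2.W_quad (p := p) x hq
  rw [Subgroup.commutator_eq_bot_iff_le_centralizer]
  intro w hw
  rw [Subgroup.mem_centralizer_iff]
  intro y hy
  obtain ⟨k, rfl⟩ := Subgroup.mem_zpowers_iff.1 hy
  have h1 : Commute w x := h w hw
  exact ((h1.zpow_right k).eq).symm

end Cfsg.Agent.S0623
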