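import Cfsg.Statements.S0627
import Cfsg.Agent.H2.WNorm2

set_option autoImplicit false
set_option linter.style.haveILetI false
set_option linter.unusedVariables false
set_option linter.unusedSectionVars false
open Cfsg

namespace Cfsg.Agent.S0627

/-- In a p-separable group with p at least 5, the normalizer of W(S) supplements the largest normal subgroup of order prime to p. -/
theorem result {G : Type*} [Group G] [Finite G] {p : ℕ} [Fact p.Prime] (hp : 5 ≤ p) (hsep : Cfsg.IsPSolvable p G) (S : Sylow p G) : Cfsg.pPrimeCore p G ⊔ Subgroup.normalizer (((Cfsg.stableNormalClosure p ↥(S : Subgroup G)).map (S : Subgroup G).subtype) : Set G) = ⊤ := by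
  have hsep' := H23.isPSolvable_quotient (Cfsg.pPrimeCore p G) hsep
  have hst : Cfsg.IsActionPStable p (G ⧸ Cfsg.pPrimeCore p G) :=
    H2.isActionPStable_of (by omega) (H2.not_SLConcl_of_pSolvable hp hsep')
      (fun H => H2.not_SLConcl_of_pSolvable hp (H23.isPSolvable_subgroup H hsep'))
  apply H2.sup_normalizer_of_map_normal (p := p) (H1.pPrimeCore_coprime p G)
    (S.2.to_le (H2.WOf_le (p := p) _))
  have hinj := H2.mk'_comp_subtype_injective (P := (S : Subgroup G)) S.2
    (H1.pPrimeCore_coprime p G)
  have h1 := Sylow.coe_mapSurjective (QuotientGroup.mk'_surjective (Cfsg.pPrimeCore p G)) S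
  have h2 := H2.WOf_map_of_injOn (p := p) hinj
  rw [← h2, ← h1]
  exact H2.WOf_normal hst (H2.charP_quotient_of_solvable hsep) _

end Cfsg.Agent.S0627
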