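import Cfsg.Statements.S0629
import Cfsg.Agent.H2.PCon

set_option autoImplicit false
set_option linter.style.haveILetI false
set_option linter.unusedVariables false
set_option linter.unusedSectionVars false
open Cfsg

namespace Cfsg.Agent.S0629

theorem charP_of_psolvable_centralizer {G : Type*} [Group G] [Finite G] {p : ℕ} [Fact p.Prime]
    (hO : pPrimeCore p G = ⊥)
    (hsol : Cfsg.IsPSolvable p ↥(Subgroup.centralizer (pCore p G : Set G))) :
    Subgroup.centralizer (pCore p G : Set G) ≤ pCore p G := by
  obtain ⟨C, hC⟩ : ∃ C, C = Subgroup.centralizer (pCore p G : Set G) := ⟨_, rfl⟩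
  haveI hCn : C.Normal := by rw [hC]; infer_instance
  rw [← hC] at hsol ⊢
  have h1 : pPrimeCore p C = ⊥ := by
    have h2 : (pPrimeCore p C).map C.subtype ≤ pPrimeCore p G := by
      apply H1.le_pPrimeCore
      · rw [← Subgroup.normalizer_eq_top_iff, eq_top_iff]
        have := H18.le_normalizer_map_of_characteristic (A := (⊤ : Subgroup G)) (H := C)
          (by rw [Subgroup.normalizer_eq_top]) (pPrimeCore p C)
        exact this
      · rw [H2.card_map_subtype']
        exact H1.pPrimeCore_coprime p C
    rw [hO, le_bot_iff, Subgroup.map_eq_bot_iff_of_injective _ C.subtype_injective] at h2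
    exact h2
  have h2 := H23.centralizer_pCore_le hsol h1
  have h3 : (pCore p C).map C.subtype ≤ pCore p G := by
    apply H18.le_pCore
    · rw [← Subgroup.normalizer_eq_top_iff, eq_top_iff]
      exact H18.le_normalizer_map_of_characteristic (A := (⊤ : Subgroup G)) (H := C)
          (by rw [Subgroup.normalizer_eq_top]) (pCore p C)
    · exact (H18.isPGroup_pCore p C).map _
  intro x hx
  apply h3
  refine ⟨⟨x, hx⟩, h2 ?_, rfl⟩
  rw [Subgroup.mem_centralizer_iff]
  intro y hy
  apply Subtype.ext
  have h4 : (y : G) ∈ pCore p G := h3 ⟨y, hy, rfl⟩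
  rw [hC] at hx
  exact H2.comm_of_mem_centralizer hx h4

/-- A group in which the centralizer of a Sylow p-subgroup of O_{p',p}(G) is p-solvable is p-constrained. -/
theorem result {G : Type*} [Group G] [Finite G] {p : ℕ} [Fact p.Prime] (P : Sylow p ↥(Cfsg.pPrimePCore p G)) (hsol : Cfsg.IsPSolvable p ↥(Subgroup.centralizer (((P : Subgroup ↥(Cfsg.pPrimePCore p G)).map (Cfsg.pPrimePCore p G).subtype : Subgroup G) : Set G))) : Cfsg.IsPConstrained p G := by
  rw [H10.isPConstrained_iff]
  apply charP_of_psolvable_centralizer (H1.pPrimeCore_quotient_eq_bot p)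
  have hPp : IsPGroup p ((P : Subgroup ↥(pPrimePCore p G)).map (pPrimePCore p G).subtype) := P.2.map _
  have h1 := H2.centralizer_map_mk hPp (H1.pPrimeCore_coprime p G)
  rw [H10.sylow_pPrimePCore_map] at h1
  rw [← h1]
  exact H23.isPSolvable_map _ hsol

end Cfsg.Agent.S0629
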