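import Cfsg.Statements.S0630
import Cfsg.Agent.H2.PCon

set_option autoImplicit false
set_option linter.style.haveILetI false
set_option linter.unusedVariables false
set_option linter.unusedSectionVars false
open Cfsg

namespace Cfsg.Agent.S0630

/-- p-constraint passes to and from the quotient by the largest normal subgroup of order prime to p. -/
theorem result {G : Type*} [Group G] [Finite G] {p : ℕ} [Fact p.Prime] : Cfsg.IsPConstrained p G ↔ Cfsg.IsPConstrained p (G ⧸ Cfsg.pPrimeCore p G) := by
  have hbot := H1.pPrimeCore_quotient_eq_bot (G := G) p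
  let e : ((G ⧸ pPrimeCore p G) ⧸ pPrimeCore p (G ⧸ pPrimeCore p G)) ≃* (G ⧸ pPrimeCore p G) :=
    (QuotientGroup.quotientMulEquivOfEq hbot).trans QuotientGroup.quotientBot
  rw [H10.isPConstrained_iff, H10.isPConstrained_iff (G := G ⧸ pPrimeCore p G)]
  exact ⟨fun h => H10.charP_equiv e.symm h, fun h => H10.charP_equiv e h⟩

end Cfsg.Agent.S0630
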