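import Cfsg.Statements.S0632
import Cfsg.Agent.H2.StabSec

set_option autoImplicit false
set_option linter.style.haveILetI false
set_option linter.unusedVariables false
set_option linter.unusedSectionVars false
open Cfsg

namespace Cfsg.Agent.S0632

open scoped commutatorElement in
theorem mem_pCore_of_normal {G : Type*} [Group G] [Finite G] {p : ℕ} [Fact p.Prime]
    {P A : Subgroup G} [P.Normal] (hst : Cfsg.IsPStableOn p P) (hq : ⁅⁅P, A⁆, A⁆ = ⊥) :
    (A.subgroupOf (Subgroup.normalizer (P : Set G))).map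
        (QuotientGroup.mk' ((Subgroup.centralizer (P : Set G)).subgroupOf
          (Subgroup.normalizer (P : Set G)))) ≤ Cfsg.pCore p _ := by
  rintro _ ⟨a, ha, rfl⟩
  refine H2.mk_mem_pCore_iff.2 ?_
  have h1 : H2.PInf p (Subgroup.centralizer (P : Set G)) (a : G) := by
    rw [← H2.mk_mem_pCore_iff]
    apply hst
    have hza : Subgroup.zpowers (a : G) ≤ A := by
      rw [Subgroup.zpowers_le]; exact ha
    rw [eq_bot_iff, ← hq]
    exact Subgroup.commutator_mono (Subgroup.commutator_mono le_rfl hza) hza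
  obtain ⟨D, hD, haD, hd⟩ := h1
  refine ⟨D.subgroupOf _, inferInstance, haD, fun d hdD => ?_⟩
  obtain ⟨m, hm⟩ := hd d hdD
  exact ⟨m, hm⟩

theorem pInf_of_normalizer {G : Type*} [Group G] [Finite G] {p : ℕ} [Fact p.Prime]
    {P A : Subgroup G} [hP : P.Normal] {a : G} (ha : a ∈ A)
    (h : (A.subgroupOf (Subgroup.normalizer (P : Set G))).map
        (QuotientGroup.mk' ((Subgroup.centralizer (P : Set G)).subgroupOf
          (Subgroup.normalizer (P : Set G)))) ≤ Cfsg.pCore p _) :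
    H2.PInf p (Subgroup.centralizer (P : Set G)) a := by
  have hN : Subgroup.normalizer (P : Set G) = ⊤ := Subgroup.normalizer_eq_top P
  have haN : a ∈ Subgroup.normalizer (P : Set G) := by rw [hN]; exact Subgroup.mem_top a
  have h1 := h ⟨⟨a, haN⟩, ha, rfl⟩
  obtain ⟨D, hD, haD, hd⟩ := H2.mk_mem_pCore_iff.1 h1
  refine ⟨D.map (Subgroup.normalizer (P : Set G)).subtype, ?_, ⟨_, haD, rfl⟩, ?_⟩
  · constructor
    rintro _ ⟨d, hd, rfl⟩ g
    have hgN : g ∈ Subgroup.normalizer (P : Set G) := by rw [hN]; exact Subgroup.mem_top g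
    exact ⟨_, hD.conj_mem d hd ⟨g, hgN⟩, rfl⟩
  · rintro _ ⟨d, hdD, rfl⟩
    obtain ⟨m, hm⟩ := hd d hdD
    exact ⟨m, hm⟩

/-- For a group with a nontrivial normal p-subgroup, p-stability passes to and from the quotient by the largest normal subgroup of order prime to p. -/
theorem result {G : Type*} [Group G] [Finite G] {p : ℕ} [Fact p.Prime] (hO : Cfsg.pCore p G ≠ ⊥) : Cfsg.IsPStable p G ↔ Cfsg.IsPStable p (G ⧸ Cfsg.pPrimeCore p G) := by
  obtain ⟨O, hOdef⟩ : ∃ O, O = Cfsg.pPrimeCore p G := ⟨_, rfl⟩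
  have hcop : (Nat.card (Cfsg.pPrimeCore p G)).Coprime p := H1.pPrimeCore_coprime p G
  have hbot : Cfsg.pPrimeCore p (G ⧸ Cfsg.pPrimeCore p G) = ⊥ := H1.pPrimeCore_quotient_eq_bot p
  constructor
  · intro h
    refine ⟨h.1, ?_, ?_⟩
    · intro h1
      apply hO
      have h2 : (Cfsg.pCore p G).map (QuotientGroup.mk' (Cfsg.pPrimeCore p G)) ≤
          Cfsg.pCore p (G ⧸ Cfsg.pPrimeCore p G) :=
        H18.le_pCore (Subgroup.Normal.map inferInstance _ (QuotientGroup.mk'_surjective _))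
          ((H18.isPGroup_pCore p G).map _)
      rw [h1, le_bot_iff, Subgroup.map_eq_bot_iff, QuotientGroup.ker_mk'] at h2
      rw [eq_bot_iff, ← H2.inf_eq_bot_of_isPGroup_of_coprime (H18.isPGroup_pCore p G) hcop]
      exact le_inf le_rfl h2
    · intro A P _ hP hAP _ hPn hq
      rw [hbot, bot_sup_eq] at hPn
      exact mem_pCore_of_normal (H2.stableOn_quotient h P hP) hq
  · intro h
    refine ⟨h.1, hO, ?_⟩
    intro A P hA hP hAP hPle hPn hq
    rintro _ ⟨a, ha, rfl⟩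
    refine H2.mk_mem_pCore_iff.2 ?_
    have haA : (a : G) ∈ A := ha
    -- the images in `G/O`
    have hPn' : (P.map (QuotientGroup.mk' (Cfsg.pPrimeCore p G))).Normal := by
      have h1 := hPn.map (QuotientGroup.mk' (Cfsg.pPrimeCore p G)) (QuotientGroup.mk'_surjective _)
      rwa [Subgroup.map_sup, QuotientGroup.map_mk'_self, bot_sup_eq] at h1
    haveI := hPn'
    have h3 := h.2.2 (A.map (QuotientGroup.mk' (Cfsg.pPrimeCore p G)))
      (P.map (QuotientGroup.mk' (Cfsg.pPrimeCore p G))) (hA.map _) (hP.map _) (by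
        rintro _ ⟨b, hb, rfl⟩ _ ⟨x, hx, rfl⟩
        rw [← map_mul, ← map_inv, ← map_mul]
        exact ⟨_, hAP b hb x hx, rfl⟩) (by
        rw [Cfsg.pPrimePCore, hbot] at *
        intro x hx
        rw [Subgroup.mem_comap]
        have h4 : P.map (QuotientGroup.mk' (Cfsg.pPrimeCore p G)) ≤
            Cfsg.pCore p (G ⧸ Cfsg.pPrimeCore p G) := H18.le_pCore hPn' (hP.map _)
        exact H2.mem_pCore_of_surjective _ (QuotientGroup.mk'_surjective _) (h4 hx)) (by
        rw [hbot, bot_sup_eq]; exact hPn') (by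
        rw [← Subgroup.map_commutator, ← Subgroup.map_commutator, hq, Subgroup.map_bot])
    have h4 := pInf_of_normalizer (a := QuotientGroup.mk' (Cfsg.pPrimeCore p G) (a : G))
      (Subgroup.mem_map_of_mem (QuotientGroup.mk' (Cfsg.pPrimeCore p G)) haA) h3
    obtain ⟨D, hD, haD, hd⟩ := h4
    refine ⟨(D.comap (QuotientGroup.mk' (Cfsg.pPrimeCore p G))).subgroupOf _, inferInstance, haD,
      fun d hdD => ?_⟩
    obtain ⟨m, hm⟩ := hd _ hdD
    refine ⟨m, ?_⟩
    rw [Subgroup.mem_subgroupOf, Subgroup.mem_centralizer_iff]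
    intro x hx
    rw [Subgroup.mem_centralizer_iff] at hm
    have h5 := hm _ ⟨x, hx, rfl⟩
    have h6 : x * ((d : G) ^ p ^ m) * x⁻¹ * ((d : G) ^ p ^ m)⁻¹ ∈ Cfsg.pPrimeCore p G := by
      rw [← QuotientGroup.eq_one_iff]
      have e1 : (QuotientGroup.mk (x * ((d : G) ^ p ^ m) * x⁻¹ * ((d : G) ^ p ^ m)⁻¹) : G ⧸ Cfsg.pPrimeCore p G) =
        QuotientGroup.mk' (Cfsg.pPrimeCore p G) x * (QuotientGroup.mk' (Cfsg.pPrimeCore p G) (d : G)) ^ p ^ m * (QuotientGroup.mk' (Cfsg.pPrimeCore p G) x)⁻¹ *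
          ((QuotientGroup.mk' (Cfsg.pPrimeCore p G) (d : G)) ^ p ^ m)⁻¹ := rfl
      rw [e1]
      have h5' : QuotientGroup.mk' (Cfsg.pPrimeCore p G) x * (QuotientGroup.mk' (Cfsg.pPrimeCore p G) (d : G)) ^ p ^ m =
        (QuotientGroup.mk' (Cfsg.pPrimeCore p G) (d : G)) ^ p ^ m * QuotientGroup.mk' (Cfsg.pPrimeCore p G) x := h5
      rw [h5']; group
    have h7 : x * ((d : G) ^ p ^ m) * x⁻¹ * ((d : G) ^ p ^ m)⁻¹ ∈ P := by
      have e1 : x * ((d : G) ^ p ^ m) * x⁻¹ * ((d : G) ^ p ^ m)⁻¹ =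
        x * (((d : G) ^ p ^ m) * x⁻¹ * ((d : G) ^ p ^ m)⁻¹) := by group
      rw [e1]
      exact mul_mem hx (H2.conj_mem_of_norm (pow_mem d.2 _) (inv_mem hx))
    have h8 : x * ((d : G) ^ p ^ m) * x⁻¹ * ((d : G) ^ p ^ m)⁻¹ ∈ P ⊓ Cfsg.pPrimeCore p G :=
      Subgroup.mem_inf.2 ⟨h7, h6⟩
    rw [H2.inf_eq_bot_of_isPGroup_of_coprime hP hcop, Subgroup.mem_bot, mul_inv_eq_one,
      mul_inv_eq_iff_eq_mul] at h8
    exact h8

end Cfsg.Agent.S0632
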