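import Cfsg.Statements.S0633
import Cfsg.Agent.H23.HHThmB2

set_option autoImplicit false
set_option linter.all false
open Cfsg

namespace Cfsg.Agent.S0633

open Subgroup

/-- Theorem B of Hall and Higman on the minimal polynomial of a p-element of order p^n in a p-solvable linear group on a nonzero vector space in characteristic p with no nontrivial normal p-subgroup: its degree is p^n, except when some p^n₀ - 1 (n₀ ≤ n) is a power of a prime q for which the Sylow q-subgroups are non-abelian, in which case the degree is at least p^(n-n₀)(p^n₀ - 1). -/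
theorem result {F : Type*} [Field F] {p : ℕ} [Fact p.Prime] [CharP F p] {V : Type*} [AddCommGroup V] [Module F V] [FiniteDimensional F V] [Nontrivial V] (H : Subgroup (V ≃ₗ[F] V)) [Finite H] (hsol : Cfsg.IsPSolvable p H) (hOp : Cfsg.pCore p H = ⊥) (x : V ≃ₗ[F] V) (hx : x ∈ H) (n : ℕ) (hn : orderOf x = p ^ n) (r : ℕ) (hr : minpoly F (x : Module.End F V) = (Polynomial.X - 1) ^ r) : r = p ^ n ∨ ∃ n₀ q m : ℕ, 1 ≤ n₀ ∧ n₀ ≤ n ∧ q.Prime ∧ 1 ≤ m ∧ p ^ n₀ - 1 = q ^ m ∧ (∀ Q : Sylow q H, ¬ IsMulCommutative Q) ∧ p ^ (n - n₀) * (p ^ n₀ - 1) ≤ r := by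
  classical
  have hp := (Fact.out : p.Prime)
  set ρ : H →* Module.End F V := (LinearEquiv.automorphismGroup.toLinearMapMonoidHom (R := F) (M := V)).comp H.subtype
    with hρ
  have hinj : Function.Injective ρ := by
    intro a b hab
    apply Subtype.ext
    exact LinearEquiv.toLinearMap_injective hab
  set x' : H := ⟨x, hx⟩ with hx'
  have hρx : ρ x' = (x : Module.End F V) := rfl
  have hzero : ∀ t : ℕ, (ρ x' - 1) ^ t = 0 ↔ r ≤ t := by
    intro t
    have h1 : (ρ x' - 1) ^ t = Polynomial.aeval (x : Module.End F V) ((Polynomial.X - 1 : Polynomial F) ^ t) := by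
      rw [hρx]
      simp
    have hmon : (Polynomial.X - 1 : Polynomial F).Monic := Polynomial.monic_X_sub_C (1 : F)
    have hdeg : (Polynomial.X - 1 : Polynomial F).natDegree = 1 := Polynomial.natDegree_X_sub_C (1 : F)
    rw [h1, ← minpoly.dvd_iff, hr]
    constructor
    · intro h
      have h2 := Polynomial.natDegree_le_of_dvd h (hmon.pow t).ne_zero
      rw [hmon.natDegree_pow, hmon.natDegree_pow, hdeg, mul_one, mul_one] at h2
      exact h2
    · intro h
      exact pow_dvd_pow _ h
  have hr0 : r ≠ 0 := by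
    rintro rfl
    have h1 := (hzero 0).mpr le_rfl
    rw [pow_zero] at h1
    exact one_ne_zero h1
  haveI : CharP (Module.End F V) p := charP_of_injective_algebraMap' F (A := Module.End F V) p
  have hrle : r ≤ p ^ n := by
    rw [← hzero, sub_pow_char_pow_of_commute, one_pow, ← map_pow, hx']
    · have : (⟨x, hx⟩ : H) ^ p ^ n = 1 := by
        apply Subtype.ext
        rw [SubmonoidClass.mk_pow]
        change x ^ p ^ n = 1
        rw [← hn, pow_orderOf_eq_one]
      rw [this, map_one, sub_self]
    · exact Commute.one_right _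
  rcases Nat.eq_zero_or_pos n with hn0 | hnpos
  · left
    rw [hn0, pow_zero] at hrle ⊢
    omega
  obtain ⟨m, rfl⟩ : ∃ m, n = m + 1 := ⟨n - 1, by omega⟩
  have hord : orderOf x' = p ^ (m + 1) := by
    rw [← hn, ← Subgroup.orderOf_coe]
  rcases H23.hh_theoremB ρ hinj hsol hOp hord with h1 | ⟨k, hk, q, hq, ⟨e, he1, he⟩, hna, hbd⟩
  · left
    apply le_antisymm hrle
    by_contra hcon
    apply h1
    rw [hzero]
    omega
  · right
    refine ⟨m + 1 - k, q, e, by omega, by omega, hq, he1, he, hna, ?_⟩
    have h2 : m + 1 - (m + 1 - k) = k := by omega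
    rw [h2]
    exact hbd r ((hzero r).mpr le_rfl)

end Cfsg.Agent.S0633
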