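import Cfsg.Statements.S0635
import Cfsg.Agent.H2.PLen

set_option autoImplicit false
set_option linter.style.haveILetI false
set_option linter.unusedVariables false
set_option linter.unusedSectionVars false
open Cfsg

namespace Cfsg.Agent.S0635

theorem center_le {G : Type*} [Group G] [Finite G] {p : ℕ} [Fact p.Prime]
    (hsol : Cfsg.IsPSolvable p G) (S : Sylow p G) :
    (Subgroup.center (S : Subgroup G)).map (S : Subgroup G).subtype ≤ (upperPSeries p G 2).1 := by
  rintro _ ⟨z, hz, rfl⟩
  have h2 := H2.upperPSeries_even p G 0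
  rw [show 2 * 0 + 2 = 2 from rfl] at h2
  rw [h2, Subgroup.mem_comap]
  have h3 := H23.centralizer_pCore_le (H23.isPSolvable_quotient (upperPSeries p G (2 * 0 + 1)).1 hsol)
    (H2.pPrimeCore_quotient_upperPSeries 0)
  apply h3
  rw [Subgroup.mem_centralizer_iff]
  intro y hy
  have h4 := H18.pCore_le_sylow (S.mapSurjective (QuotientGroup.mk'_surjective (upperPSeries p G (2 * 0 + 1)).1)) hy
  rw [Sylow.coe_mapSurjective] at h4
  obtain ⟨s, hs, rfl⟩ := h4
  rw [← map_mul, ← map_mul]
  congr 1
  exact congrArg Subtype.val (Subgroup.mem_center_iff.1 hz ⟨s, hs⟩)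

theorem class_lt {G : Type*} [Group G] [Finite G] {p : ℕ} [Fact p.Prime]
    (hsol : Cfsg.IsPSolvable p G) (S : Sylow p G) :
    Group.nilpotencyClass ↥((S.mapSurjective (QuotientGroup.mk'_surjective (upperPSeries p G 2).1) :
      Sylow p (G ⧸ (upperPSeries p G 2).1)) : Subgroup (G ⧸ (upperPSeries p G 2).1)) ≤
      Group.nilpotencyClass ↥(S : Subgroup G) - 1 := by
  haveI hnil : Group.IsNilpotent (S : Subgroup G) := S.2.isNilpotent
  rw [← nilpotencyClass_quotient_center]
  rw [Sylow.coe_mapSurjective]
  let f : (S : Subgroup G) →* ↥((S : Subgroup G).map (QuotientGroup.mk' (upperPSeries p G 2).1)) :=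
    (QuotientGroup.mk' (upperPSeries p G 2).1).subgroupMap (S : Subgroup G)
  have hf : Function.Surjective f := MonoidHom.subgroupMap_surjective _ _
  have hker : Subgroup.center (S : Subgroup G) ≤ f.ker := by
    intro z hz
    rw [MonoidHom.mem_ker]
    apply Subtype.ext
    have h1 : (z : G) ∈ (upperPSeries p G 2).1 := center_le hsol S ⟨z, hz, rfl⟩
    exact (QuotientGroup.eq_one_iff (z : G)).2 h1
  let g := QuotientGroup.lift (Subgroup.center (S : Subgroup G)) f hker
  have hg : Function.Surjective g := by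
    intro y
    obtain ⟨x, rfl⟩ := hf y
    exact ⟨QuotientGroup.mk x, rfl⟩
  exact Group.nilpotencyClass_le_of_surjective g hg

theorem main (p : ℕ) [Fact p.Prime] (c : ℕ) : ∀ (G : Type*) [Group G] [Finite G]
    (_ : Cfsg.IsPSolvable p G) (S : Sylow p G), Group.nilpotencyClass ↥(S : Subgroup G) ≤ c →
      PLengthLE p c G := by
  induction c with
  | zero =>
    intro G _ _ hsol S hc
    have hnil : Group.IsNilpotent (S : Subgroup G) := S.2.isNilpotent
    have h0 : Group.nilpotencyClass ↥(S : Subgroup G) = 0 := Nat.le_zero.1 hc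
    rw [nilpotencyClass_zero_iff_subsingleton] at h0
    apply H2.PLengthLE.of_not_dvd
    intro hd
    have h1 : (S : Subgroup G) = ⊥ := (Subgroup.eq_bot_iff_forall _).2 fun x hx =>
      congrArg Subtype.val (Subsingleton.elim (⟨x, hx⟩ : (S : Subgroup G)) 1)
    exact S.ne_bot_of_dvd_card hd h1
  | succ c ih =>
    intro G _ _ hsol S hc
    apply H2.PLengthLE.of_quotient
    exact ih _ (H23.isPSolvable_quotient _ hsol) _ ((class_lt hsol S).trans (by omega))

/-- The p-length of a p-soluble group is at most the nilpotency class of its Sylow p-subgroups. -/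
theorem result {G : Type*} [Group G] [Finite G] {p : ℕ} [Fact p.Prime] (hsol : Cfsg.IsPSolvable p G) (S : Sylow p G) : Cfsg.PLengthLE p (Group.nilpotencyClass ↥(S : Subgroup G)) G := by
  exact main p _ G hsol S le_rfl

end Cfsg.Agent.S0635
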