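import Cfsg.Statements.S0637
import Cfsg.Agent.H2.Om4
import Cfsg.Agent.H23.RankOne
import Cfsg.Agent.H23.Coprime2

set_option autoImplicit false
set_option linter.style.haveILetI false
set_option linter.unusedVariables false
set_option linter.unusedSectionVars false
open Cfsg

namespace Cfsg.Agent.S0637

open Subgroup
open scoped commutatorElement

universe u
variable {p : ℕ} [hp : Fact p.Prime]

theorem om_equiv {A B : Type*} [Group A] [Group B] [Finite A] (e : A ≃* B) :
    Nat.card (Cfsg.omegaOne p (⊤ : Subgroup B)) ≤ Nat.card (Cfsg.omegaOne p (⊤ : Subgroup A)) := by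
  haveI : Finite B := Finite.of_equiv A e.toEquiv
  have h1 : Cfsg.omegaOne p (⊤ : Subgroup B) ≤ (Cfsg.omegaOne p (⊤ : Subgroup A)).map e.toMonoidHom := by
    unfold Cfsg.omegaOne
    rw [closure_le]
    rintro x ⟨-, hx⟩
    refine ⟨e.symm x, Subgroup.subset_closure ⟨mem_top _, ?_⟩, e.apply_symm_apply x⟩
    rw [← map_pow, hx, map_one]
  calc _ ≤ Nat.card ((Cfsg.omegaOne p (⊤ : Subgroup A)).map e.toMonoidHom) := Subgroup.card_le_of_le h1
    _ = _ := Subgroup.card_map_of_injective e.injective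

theorem step (h3 : 3 < p) {R : Type u} [Group R] [Finite R] (hR : IsPGroup p R)
    (hO : Nat.card ↥(Cfsg.omegaOne p (⊤ : Subgroup R)) ≤ p ^ 2) (Z : Subgroup R) [Z.Normal]
    (hZ : Nat.card Z = p) : Nat.card ↥(Cfsg.omegaOne p (⊤ : Subgroup (R ⧸ Z))) ≤ p ^ 2 := by
  by_contra hlt
  push Not at hlt
  have hp2 : p ≠ 2 := by omega
  obtain ⟨S, hS⟩ : ∃ S, S = Cfsg.omegaOne p (⊤ : Subgroup (R ⧸ Z)) := ⟨_, rfl⟩
  rw [← hS] at hlt
  have hSp : IsPGroup p S := (hR.to_quotient Z).to_subgroup S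
  have hnc : ¬ IsCyclic S := by
    intro hc
    have h1 : ∀ z ∈ S, z ∈ S ∧ z ^ p = 1 := by
      intro z hz
      have hz' : z ∈ closure {x : R ⧸ Z | x ∈ (⊤ : Subgroup (R ⧸ Z)) ∧ x ^ p = 1} := by
        rw [hS] at hz
        exact hz
      induction hz' using Subgroup.closure_induction with
      | mem z hz1 => exact ⟨hz, hz1.2⟩
      | one => exact ⟨one_mem _, one_pow _⟩
      | mul a b ha hb h5 h6 =>
        have ha' : a ∈ S := by rw [hS]; exact ha
        have hb' : b ∈ S := by rw [hS]; exact hb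
        refine ⟨hz, ?_⟩
        letI := hc.commGroup
        have hcm : Commute a b := congrArg Subtype.val (mul_comm (⟨a, ha'⟩ : S) ⟨b, hb'⟩)
        rw [hcm.mul_pow, (h5 ha').2, (h6 hb').2, one_mul]
      | inv a ha h5 =>
        have ha' : a ∈ S := by rw [hS]; exact ha
        exact ⟨hz, by rw [inv_pow, (h5 ha').2, inv_one]⟩
    obtain ⟨g, hg⟩ := hc.exists_generator
    have h2 : zpowers g = ⊤ := by
      rw [eq_top_iff]
      intro z _
      exact hg z
    have h4 : Nat.card S ≤ p := by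
      rw [← Subgroup.card_top, ← h2, Nat.card_zpowers]
      exact orderOf_le_of_pow_eq_one hp.out.pos (Subtype.ext (h1 g g.2).2)
    have h5 : p ≤ p ^ 2 := Nat.le_self_pow two_ne_zero p
    omega
  obtain ⟨E, hEn, hEc, hE1⟩ := H23.exists_normal_sq_of_odd hSp hp2 hnc
  obtain ⟨x, hx1, hxE⟩ : ∃ x : S, x ^ p = 1 ∧ x ∉ E := by
    by_contra hno
    push Not at hno
    have h1 : S ≤ E.map S.subtype := by
      have h2 : Cfsg.omegaOne p (⊤ : Subgroup (R ⧸ Z)) ≤ E.map S.subtype := by
        unfold Cfsg.omegaOne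
        rw [closure_le]
        rintro z ⟨-, hz⟩
        have hzS : z ∈ S := by
          rw [hS]
          exact Subgroup.subset_closure ⟨mem_top _, hz⟩
        exact ⟨⟨z, hzS⟩, hno ⟨z, hzS⟩ (Subtype.ext hz), rfl⟩
      intro z hz
      apply h2
      rw [← hS]
      exact hz
    have h2 := Subgroup.card_le_of_le h1
    rw [Subgroup.card_map_of_injective S.subtype_injective, hEc] at h2
    omega
  -- the subgroup L' of order p ^ 3
  obtain ⟨L, hL⟩ : ∃ L, L = zpowers x ⊔ E := ⟨_, rfl⟩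
  have hEL : E ≤ L := by rw [hL]; exact le_sup_right
  have hidx : Nat.card L = Nat.card E * E.relIndex L := by
    have := Subgroup.relIndex_mul_relIndex (⊥ : Subgroup S) E L bot_le hEL
    rw [Subgroup.relIndex_bot_left, Subgroup.relIndex_bot_left] at this
    exact this.symm
  have hrel : E.relIndex L ≤ p := by
    rw [hL, Subgroup.relIndex_sup_right]
    have h1 : E.relIndex (zpowers x) ∣ Nat.card (zpowers x) := Subgroup.relIndex_dvd_card _ _
    refine (Nat.le_of_dvd Nat.card_pos h1).trans ?_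
    rw [Nat.card_zpowers]
    exact orderOf_le_of_pow_eq_one hp.out.pos hx1
  have hL3 : Nat.card L = p ^ 3 := by
    obtain ⟨m, hm⟩ := IsPGroup.iff_card.mp (hSp.to_subgroup L)
    have h1 : Nat.card L ≤ p ^ 3 := by
      rw [hidx, hEc]
      calc p ^ 2 * E.relIndex L ≤ p ^ 2 * p := Nat.mul_le_mul_left _ hrel
        _ = p ^ 3 := by ring
    have h2 : p ^ 2 < Nat.card L := by
      rw [← hEc]
      refine lt_of_le_of_ne (Subgroup.card_le_of_le hEL) ?_
      intro h
      have := Subgroup.eq_of_le_of_card_ge hEL h.ge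
      apply hxE
      rw [this, hL]
      exact (le_sup_left : zpowers x ≤ zpowers x ⊔ E) (mem_zpowers x)
    rw [hm] at h1 h2 ⊢
    have h4 := (Nat.pow_le_pow_iff_right hp.out.one_lt).mp h1
    have h5 := (Nat.pow_lt_pow_iff_right hp.out.one_lt).mp h2
    congr 1
    omega
  have hLexp : ∀ z ∈ L, z ^ p = 1 := by
    intro z hz
    have hz' := hz
    rw [hL, ← SetLike.mem_coe, Subgroup.mul_normal] at hz'
    obtain ⟨a, ha, e, he, rfl⟩ := hz'
    obtain ⟨k, rfl⟩ := mem_zpowers_iff.1 ha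
    have hxL : x ^ k ∈ L := by
      rw [hL]
      exact (le_sup_left : zpowers x ≤ zpowers x ⊔ E) (zpow_mem (mem_zpowers x) k)
    have h1 := H2.Om4.mul_pow (R := L) h3 hL3 (by norm_num) (x := ⟨x ^ k, hxL⟩) (y := ⟨e, hEL he⟩)
      (Subtype.ext (by
        show (x ^ k) ^ p = 1
        rw [← zpow_natCast, ← zpow_mul, mul_comm, zpow_mul, zpow_natCast, hx1, one_zpow]))
      (Subtype.ext (hE1 e he))
    exact congrArg Subtype.val h1
  -- the preimage
  obtain ⟨M, hM⟩ : ∃ M, M = (L.map S.subtype).comap (QuotientGroup.mk' Z) := ⟨_, rfl⟩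
  have hMc : Nat.card M = p ^ 4 := by
    have h1 : M.index = (L.map S.subtype).index := by
      rw [hM]
      exact Subgroup.index_comap_of_surjective _ (QuotientGroup.mk'_surjective Z)
    have h2 := M.card_mul_index
    have h4 := (L.map S.subtype).card_mul_index
    have h5 := Subgroup.card_eq_card_quotient_mul_card_subgroup Z
    rw [Subgroup.card_map_of_injective S.subtype_injective, hL3] at h4
    have h6 : 0 < (L.map S.subtype).index := Nat.pos_of_ne_zero Subgroup.index_ne_zero_of_finite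
    apply Nat.eq_of_mul_eq_mul_right h6
    rw [← h1, h2, h5, hZ, ← h4, h1]
    ring
  have hMZ : ∀ a ∈ M, a ^ p ∈ Z := by
    intro a ha
    rw [hM, mem_comap] at ha
    obtain ⟨z, hz, hza⟩ := mem_map.1 ha
    rw [← QuotientGroup.eq_one_iff]
    have h1 : (QuotientGroup.mk' Z a) ^ p = 1 := by
      rw [← hza, ← map_pow, hLexp z hz, map_one]
    rw [← map_pow] at h1
    exact h1
  have hreg := H2.Om4.regular (R := M) h3 hMc le_rfl
  have hpow : ∀ a b : M, a ^ p = b ^ p → (a * b⁻¹) ^ p = 1 := by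
    intro a b hab
    have h1 := (S4210.result hreg a b 1)
    rw [pow_one] at h1
    exact h1.1 hab
  classical
  let rep : Z → M := fun z => if h : ∃ b : M, ((b : R)) ^ p = z then h.choose else 1
  have hrep : ∀ a : M, a ^ p = (rep ⟨(a : R) ^ p, hMZ a a.2⟩) ^ p := by
    intro a
    have h : ∃ b : M, ((b : R)) ^ p = ((⟨(a : R) ^ p, hMZ a a.2⟩ : Z) : R) := ⟨a, rfl⟩
    have h1 : rep ⟨(a : R) ^ p, hMZ a a.2⟩ = h.choose := dif_pos h
    rw [h1]
    exact Subtype.ext h.choose_spec.symm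
  let f : M → Z × (Cfsg.omegaOne p (⊤ : Subgroup R)) := fun a =>
    (⟨(a : R) ^ p, hMZ a a.2⟩, ⟨((a * (rep ⟨(a : R) ^ p, hMZ a a.2⟩)⁻¹ : M) : R),
      Subgroup.subset_closure ⟨mem_top _, congrArg Subtype.val (hpow a _ (hrep a))⟩⟩)
  have hf : Function.Injective f := by
    intro a b hab
    have h1 : (⟨(a : R) ^ p, hMZ a a.2⟩ : Z) = ⟨(b : R) ^ p, hMZ b b.2⟩ := congrArg Prod.fst hab
    have h2 := congrArg (fun q => ((Prod.snd q : (Cfsg.omegaOne p (⊤ : Subgroup R))) : R)) hab
    have h4 : (a * (rep ⟨(a : R) ^ p, hMZ a a.2⟩)⁻¹ : M) = (b * (rep ⟨(b : R) ^ p, hMZ b b.2⟩)⁻¹ : M) :=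
      Subtype.ext h2
    rw [h1] at h4
    exact mul_right_cancel h4
  have h7 := Nat.card_le_card_of_injective f hf
  rw [Nat.card_prod, hMc, hZ] at h7
  have h8 : p ^ 4 ≤ p * p ^ 2 := h7.trans (Nat.mul_le_mul_left p hO)
  have h9 : p * p ^ 2 = p ^ 3 := by ring
  rw [h9] at h8
  have := (Nat.pow_le_pow_iff_right hp.out.one_lt).mp h8
  omega

theorem main (h3 : 3 < p) (n : ℕ) : ∀ {R : Type u} [Group R] [Finite R], IsPGroup p R → Nat.card R = n →
    Nat.card ↥(Cfsg.omegaOne p (⊤ : Subgroup R)) ≤ p ^ 2 → ∀ (T : Subgroup R) [T.Normal],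
    Nat.card ↥(Cfsg.omegaOne p (⊤ : Subgroup (R ⧸ T))) ≤ p ^ 2 := by
  induction n using Nat.strong_induction_on with
  | _ n ih =>
  intro R _ _ hR hn hO T _
  by_cases hT : T = ⊥
  · subst hT
    exact (om_equiv (QuotientGroup.quotientBot (G := R)).symm).trans hO
  · have h1 := H23.inf_center_ne_bot hR hT
    obtain ⟨z, hz, hzo⟩ : ∃ z ∈ T ⊓ center R, orderOf z = p := by
      have h2 : p ∣ Nat.card (T ⊓ center R : Subgroup R) := by
        haveI : Nontrivial (T ⊓ center R : Subgroup R) := (Subgroup.nontrivial_iff_ne_bot _).2 h1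
        obtain ⟨k, hk, hk2⟩ := IsPGroup.nontrivial_iff_card (hR.to_subgroup (T ⊓ center R)) |>.1 inferInstance
        rw [hk2]
        exact dvd_pow_self p hk.ne'
      obtain ⟨z, hz⟩ := exists_prime_orderOf_dvd_card' p h2
      refine ⟨z, z.2, ?_⟩
      rw [Subgroup.orderOf_coe, hz]
    have hZc : zpowers z ≤ center R := by rw [zpowers_le]; exact hz.2
    haveI : (zpowers z).Normal := ⟨fun n hn g => by
      rw [mem_center_iff.1 (hZc hn) g, mul_inv_cancel_right]
      exact hn⟩
    have hZcard : Nat.card (zpowers z) = p := by rw [Nat.card_zpowers, hzo]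
    have hZT : zpowers z ≤ T := by rw [zpowers_le]; exact hz.1
    have hlt : Nat.card (R ⧸ zpowers z) < n := by
      have h5 := Subgroup.card_eq_card_quotient_mul_card_subgroup (zpowers z)
      rw [hZcard, hn] at h5
      have : 0 < Nat.card (R ⧸ zpowers z) := Nat.card_pos
      nlinarith [hp.out.one_lt]
    have h4 := ih _ hlt (hR.to_quotient (zpowers z)) rfl (step h3 hR hO (zpowers z) hZcard)
      (T.map (QuotientGroup.mk' (zpowers z)))
    exact (om_equiv (QuotientGroup.quotientQuotientEquivQuotient (zpowers z) T hZT)).trans h4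

/-- For p greater than 3, the bound p² on the order of the subgroup generated by the elements of order dividing p passes from a p-group to all its quotients. -/
theorem result {R : Type*} [Group R] [Finite R] {p : ℕ} [Fact p.Prime] (hp : 3 < p) (hR : IsPGroup p R) (hO : Nat.card ↥(Cfsg.omegaOne p (⊤ : Subgroup R)) ≤ p ^ 2) (T : Subgroup R) [T.Normal] : Nat.card ↥(Cfsg.omegaOne p (⊤ : Subgroup (R ⧸ T))) ≤ p ^ 2 := by
  exact main hp _ hR rfl hO T

end Cfsg.Agent.S0637
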