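import Cfsg.Statements.S0639
import Cfsg.Agent.S0637
import Cfsg.Agent.H23.Coprime3
import Cfsg.Agent.H2.Frat

set_option autoImplicit false
set_option linter.style.haveILetI false
set_option linter.unusedVariables false
set_option linter.unusedSectionVars false
open Cfsg

namespace Cfsg.Agent.S0639

open Subgroup
open scoped commutatorElement

universe u
variable {p : ℕ} [hp : Fact p.Prime]

/-- the subgroup generated by the `p`-th powers -/
def U (p : ℕ) (R : Type u) [Group R] : Subgroup R := closure {y | ∃ x : R, y = x ^ p}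

theorem pow_mem_U {R : Type u} [Group R] (x : R) : x ^ p ∈ U p R := Subgroup.subset_closure ⟨x, rfl⟩

theorem U_map {R S : Type u} [Group R] [Group S] (f : R →* S) : (U p R).map f ≤ U p S := by
  unfold U
  rw [MonoidHom.map_closure, closure_le]
  rintro _ ⟨_, ⟨x, rfl⟩, rfl⟩
  rw [map_pow]
  exact Subgroup.subset_closure ⟨f x, rfl⟩

instance U_char {R : Type u} [Group R] : (U p R).Characteristic := by
  rw [Subgroup.characteristic_iff_map_le]
  intro e
  exact U_map e.toMonoidHom

theorem U_le_frattini {R : Type u} [Group R] [Finite R] (hR : IsPGroup p R) : U p R ≤ frattini R := by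
  unfold U
  rw [closure_le]
  rintro _ ⟨x, rfl⟩
  exact H2.pow_mem_frattini hR x

theorem eq_top_of_U {R : Type u} [Group R] [Finite R] (hR : IsPGroup p R) {A : Subgroup R} (h : A ⊔ U p R = ⊤) :
    A = ⊤ := by
  apply H23.eq_top_of_sup_frattini
  rw [eq_top_iff, ← h]
  exact sup_le_sup_left (U_le_frattini hR) _

theorem card_U {R : Type u} [Group R] [Finite R] (h3 : 3 < p) (hR : IsPGroup p R)
    (hO : Nat.card ↥(Cfsg.omegaOne p (⊤ : Subgroup R)) ≤ p ^ 2) : (U p R).index ≤ p ^ 2 := by
  have h1 := S0637.result h3 hR hO (U p R)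
  have h2 : Cfsg.omegaOne p (⊤ : Subgroup (R ⧸ U p R)) = ⊤ := by
    rw [eq_top_iff]
    intro z _
    obtain ⟨x, rfl⟩ := QuotientGroup.mk'_surjective _ z
    refine Subgroup.subset_closure ⟨mem_top _, ?_⟩
    rw [← map_pow]
    exact (QuotientGroup.eq_one_iff _).2 (pow_mem_U x)
  rw [h2, Subgroup.card_top] at h1
  rwa [Subgroup.index_eq_card]

theorem exists_gen {R : Type u} [Group R] [Finite R] (hR : IsPGroup p R) (hU : (U p R).index ≤ p ^ 2) {d : R}
    (hd : d ∉ U p R) : ∃ e, closure ({d, e} : Set R) = ⊤ := by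
  by_cases hA : zpowers d ⊔ U p R = ⊤
  · refine ⟨1, ?_⟩
    have h1 := eq_top_of_U hR hA
    rw [eq_top_iff, ← h1, zpowers_le]
    exact Subgroup.subset_closure (by simp)
  · obtain ⟨e, he⟩ : ∃ e, e ∉ zpowers d ⊔ U p R := by
      by_contra h
      push Not at h
      exact hA (eq_top_iff.2 fun x _ => h x)
    refine ⟨e, eq_top_of_U hR ?_⟩
    have hdB : d ∈ closure ({d, e} : Set R) := Subgroup.subset_closure (by simp)
    have heB : e ∈ closure ({d, e} : Set R) := Subgroup.subset_closure (by simp)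
    have h1 : U p R < zpowers d ⊔ U p R := by
      refine lt_of_le_of_ne le_sup_right ?_
      intro h
      apply hd
      rw [h]
      exact (le_sup_left : zpowers d ≤ zpowers d ⊔ U p R) (mem_zpowers d)
    have h2 : zpowers d ⊔ U p R < closure ({d, e} : Set R) ⊔ U p R := by
      refine lt_of_le_of_ne (sup_le_sup_right ((zpowers_le).2 hdB) _) ?_
      intro h
      apply he
      rw [h]
      exact (le_sup_left : closure ({d, e} : Set R) ≤ closure ({d, e} : Set R) ⊔ U p R) heB
    have h4 := Subgroup.index_strictAnti h1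
    have h5 := Subgroup.index_strictAnti h2
    obtain ⟨a, ha⟩ := hR.index (U p R)
    obtain ⟨b, hb⟩ := hR.index (zpowers d ⊔ U p R)
    obtain ⟨c, hc⟩ := hR.index (closure ({d, e} : Set R) ⊔ U p R)
    rw [ha] at hU h4
    rw [hb] at h4 h5
    rw [hc] at h5
    have h6 := (Nat.pow_le_pow_iff_right hp.out.one_lt).mp hU
    have h7 := (Nat.pow_lt_pow_iff_right hp.out.one_lt).mp h4
    have h8 := (Nat.pow_lt_pow_iff_right hp.out.one_lt).mp h5
    have h9 : c = 0 := by omega
    rw [h9, pow_zero] at hc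
    exact Subgroup.index_eq_one.1 hc

theorem comm_of_card {Q : Type u} [Group Q] [Finite Q] (hQ : IsPGroup p Q) (h : Nat.card Q ≤ p ^ 2) (a b : Q) :
    a * b = b * a := by
  obtain ⟨m, hm⟩ := IsPGroup.iff_card.mp hQ
  rw [hm] at h
  have h6 := (Nat.pow_le_pow_iff_right hp.out.one_lt).mp h
  rcases (by omega : m = 0 ∨ m = 1 ∨ m = 2) with rfl | rfl | rfl
  · rw [pow_zero] at hm
    haveI : Subsingleton Q := (Nat.card_eq_one_iff_unique.1 hm).1
    exact Subsingleton.elim _ _
  · rw [pow_one] at hm
    haveI := isCyclic_of_prime_card hm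
    letI := IsCyclic.commGroup (α := Q)
    exact mul_comm a b
  · letI := IsPGroup.commGroupOfCardEqPrimeSq hm
    exact mul_comm a b

theorem der_le_U {R : Type u} [Group R] [Finite R] (hR : IsPGroup p R) (hU : (U p R).index ≤ p ^ 2) :
    commutator R ≤ U p R := by
  rw [_root_.commutator_def, Subgroup.commutator_le]
  intro x _ y _
  rw [← QuotientGroup.eq_one_iff]
  rw [Subgroup.index_eq_card] at hU
  have h1 := comm_of_card (hR.to_quotient (U p R)) hU (x : R ⧸ U p R) (y : R ⧸ U p R)
  have h2 : ((⁅x, y⁆ : R) : R ⧸ U p R) = ⁅(x : R ⧸ U p R), (y : R ⧸ U p R)⁆ := rfl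
  rw [h2, commutatorElement_eq_one_iff_mul_comm]
  exact h1

theorem map_commutator {R : Type u} [Group R] (N : Subgroup R) [N.Normal] :
    (commutator R).map (QuotientGroup.mk' N) = commutator (R ⧸ N) := by
  rw [_root_.commutator_def, _root_.commutator_def, Subgroup.map_commutator, ← MonoidHom.range_eq_map,
    MonoidHom.range_eq_top.2 (QuotientGroup.mk'_surjective N)]

/-- lifting a generator of the derived subgroup -/
theorem lift_gen {R : Type u} [Group R] (N : Subgroup R) [N.Normal] (h : IsCyclic (commutator (R ⧸ N))) :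
    ∃ c ∈ commutator R, commutator R ≤ zpowers c ⊔ N := by
  obtain ⟨g, hg⟩ := h.exists_generator
  have hg2 : (g : R ⧸ N) ∈ (commutator R).map (QuotientGroup.mk' N) := by
    rw [map_commutator]
    exact g.2
  obtain ⟨c, hc, hcg⟩ := mem_map.1 hg2
  refine ⟨c, hc, ?_⟩
  intro x hx
  have h1 : QuotientGroup.mk' N x ∈ commutator (R ⧸ N) := by
    rw [← map_commutator]
    exact mem_map_of_mem _ hx
  obtain ⟨k, hk⟩ := mem_zpowers_iff.1 (hg ⟨_, h1⟩)
  have h2 : (g : R ⧸ N) ^ k = QuotientGroup.mk' N x := congrArg Subtype.val hk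
  rw [← hcg, ← map_zpow] at h2
  have h4 : (c ^ k)⁻¹ * x ∈ N := QuotientGroup.eq.1 h2
  have h5 : x = c ^ k * ((c ^ k)⁻¹ * x) := by group
  rw [h5]
  exact mul_mem ((le_sup_left : zpowers c ≤ zpowers c ⊔ N) (zpow_mem (mem_zpowers c) k))
    ((le_sup_right : N ≤ zpowers c ⊔ N) h4)

/-- class two, two generators -/
theorem der_cyclic_of_class_two {R : Type u} [Group R] {a b : R} (hab : closure ({a, b} : Set R) = ⊤)
    (hc : commutator R ≤ center R) : IsCyclic (commutator R) := by
  have hcab : ⁅a, b⁆ ∈ commutator R := Subgroup.commutator_mem_commutator (mem_top a) (mem_top b)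
  haveI hn : (zpowers ⁅a, b⁆).Normal := ⟨fun n hn g => by
    have h1 : zpowers ⁅a, b⁆ ≤ center R := by
      rw [zpowers_le]
      exact hc hcab
    rw [mem_center_iff.1 (h1 hn) g, mul_inv_cancel_right]
    exact hn⟩
  have key : commutator R ≤ zpowers ⁅a, b⁆ := by
    obtain ⟨f, hf⟩ : ∃ f, f = QuotientGroup.mk' (zpowers ⁅a, b⁆) := ⟨_, rfl⟩
    have hfs : Function.Surjective f := by rw [hf]; exact QuotientGroup.mk'_surjective _
    have hfab : f a * f b = f b * f a := by
      rw [← commutatorElement_eq_one_iff_mul_comm, ← map_commutatorElement, hf]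
      exact (QuotientGroup.eq_one_iff _).2 (mem_zpowers _)
    have h1 : ∀ x : R, f a * f x = f x * f a ∧ f b * f x = f x * f b := by
      intro x
      have hx : x ∈ closure ({a, b} : Set R) := by rw [hab]; exact mem_top x
      induction hx using Subgroup.closure_induction with
      | mem z hz =>
        rcases hz with rfl | rfl
        · exact ⟨rfl, hfab.symm⟩
        · exact ⟨hfab, rfl⟩
      | one => simp
      | mul x y _ _ h5 h6 =>
        refine ⟨?_, ?_⟩
        · rw [map_mul, ← mul_assoc, h5.1, mul_assoc, h6.1, mul_assoc]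
        · rw [map_mul, ← mul_assoc, h5.2, mul_assoc, h6.2, mul_assoc]
      | inv x _ h5 =>
        refine ⟨?_, ?_⟩
        · rw [map_inv]
          exact ((show Commute (f a) (f x) from h5.1).inv_right)
        · rw [map_inv]
          exact ((show Commute (f b) (f x) from h5.2).inv_right)
    have h2 : ∀ x y : R, f x * f y = f y * f x := by
      intro x y
      have hx : x ∈ closure ({a, b} : Set R) := by rw [hab]; exact mem_top x
      induction hx using Subgroup.closure_induction with
      | mem z hz =>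
        rcases hz with rfl | rfl
        · exact (h1 y).1
        · exact (h1 y).2
      | one => simp
      | mul x z _ _ h5 h6 =>
        rw [map_mul, mul_assoc, h6, ← mul_assoc, h5, mul_assoc]
      | inv x _ h5 =>
        rw [map_inv]
        exact ((show Commute (f x) (f y) from h5).inv_left)
    rw [_root_.commutator_def, Subgroup.commutator_le]
    intro x _ y _
    have h4 : f ⁅x, y⁆ = 1 := by
      rw [map_commutatorElement, commutatorElement_eq_one_iff_mul_comm]
      exact h2 x y
    rw [hf] at h4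
    exact (QuotientGroup.eq_one_iff _).1 h4
  have h8 : commutator R = zpowers ⁅a, b⁆ := le_antisymm key ((zpowers_le).2 hcab)
  rw [h8]
  infer_instance

theorem conj_pow' {R : Type u} [Group R] (hp2 : p ≠ 2) {x z : R}
    (hc : ∀ w : R, Commute ⁅z, x⁆ w) (hc1 : ⁅z, x⁆ ^ p = 1) (hz : z ^ p = 1) : (x * z) ^ p = x ^ p := by
  have h1 := H23.mul_pow_of_class_two x z hc p
  have hodd : p % 2 = 1 := hp.out.eq_two_or_odd.resolve_left hp2
  have h3 : p * (p - 1) / 2 = p * ((p - 1) / 2) := by
    rw [Nat.mul_div_assoc]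
    omega
  rw [h1, h3, pow_mul, hc1, one_pow, hz, mul_one, mul_one]

theorem der_cyclic (h3 : 3 < p) (n : ℕ) : ∀ {R : Type u} [Group R] [Finite R], IsPGroup p R → Nat.card R = n →
    Nat.card ↥(Cfsg.omegaOne p (⊤ : Subgroup R)) ≤ p ^ 2 → IsCyclic (commutator R) := by
  induction n using Nat.strong_induction_on with
  | _ n ih =>
  intro R _ _ hR hn hO
  have hp2 : p ≠ 2 := by omega
  have hq : ∀ (T : Subgroup R) [T.Normal], T ≠ ⊥ → IsCyclic (commutator (R ⧸ T)) := by
    intro T _ hT
    have hlt : Nat.card (R ⧸ T) < n := by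
      have h5 := Subgroup.card_eq_card_quotient_mul_card_subgroup T
      rw [hn] at h5
      have h6 : 0 < Nat.card (R ⧸ T) := Nat.card_pos
      have h7 : 1 < Nat.card T := (Subgroup.one_lt_card_iff_ne_bot _).2 hT
      nlinarith
    exact ih _ hlt (hR.to_quotient T) rfl (S0637.result h3 hR hO T)
  by_cases hD : commutator R = ⊥
  · rw [hD]
    infer_instance
  obtain ⟨z, hz, hzo⟩ : ∃ z ∈ commutator R ⊓ center R, orderOf z = p := by
    have h1 := H23.inf_center_ne_bot hR hD
    have h2 : p ∣ Nat.card (commutator R ⊓ center R : Subgroup R) := by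
      haveI : Nontrivial (commutator R ⊓ center R : Subgroup R) := (Subgroup.nontrivial_iff_ne_bot _).2 h1
      obtain ⟨k, hk, hk2⟩ := IsPGroup.nontrivial_iff_card (hR.to_subgroup (commutator R ⊓ center R)) |>.1 inferInstance
      rw [hk2]
      exact dvd_pow_self p hk.ne'
    obtain ⟨z, hz⟩ := exists_prime_orderOf_dvd_card' p h2
    exact ⟨z, z.2, by rw [Subgroup.orderOf_coe, hz]⟩
  have hZc : zpowers z ≤ center R := by rw [zpowers_le]; exact hz.2
  haveI : (zpowers z).Normal := ⟨fun n hn g => by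
      rw [mem_center_iff.1 (hZc hn) g, mul_inv_cancel_right]
      exact hn⟩
  have hz1 : zpowers z ≠ ⊥ := by
    intro h
    rw [zpowers_eq_bot] at h
    rw [h, orderOf_one] at hzo
    exact hp.out.one_lt.ne hzo
  obtain ⟨c, hc, hcN⟩ := lift_gen (zpowers z) (hq (zpowers z) hz1)
  -- the derived subgroup is commutative
  have hcomm : ∀ x ∈ commutator R, ∀ y ∈ commutator R, x * y = y * x := by
    have h1 : ∀ x ∈ zpowers c ⊔ zpowers z, ∃ i j : ℤ, x = c ^ i * z ^ j := by
      intro x hx
      rw [← SetLike.mem_coe, Subgroup.mul_normal] at hx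
      obtain ⟨a, ha, e, he, rfl⟩ := hx
      obtain ⟨i, rfl⟩ := mem_zpowers_iff.1 ha
      obtain ⟨j, rfl⟩ := mem_zpowers_iff.1 he
      exact ⟨i, j, rfl⟩
    intro x hx y hy
    obtain ⟨i, j, rfl⟩ := h1 x (hcN hx)
    obtain ⟨k, l, rfl⟩ := h1 y (hcN hy)
    have hzc : ∀ w : R, Commute z w := fun w => (mem_center_iff.1 hz.2 w).symm
    have h2 : Commute (c ^ i * z ^ j) (c ^ k * z ^ l) := by
      refine Commute.mul_left (Commute.mul_right ?_ ?_) (((hzc _).zpow_left j))
      · exact (Commute.refl c).zpow_zpow i k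
      · exact ((hzc (c ^ i)).zpow_left l).symm
    exact h2
  haveI hDcomm : IsMulCommutative (commutator R) := ⟨⟨fun a b => Subtype.ext (hcomm a a.2 b b.2)⟩⟩
  by_cases hP1 : (U p (commutator R)).map (commutator R).subtype = ⊥
  · -- the derived subgroup is elementary abelian
    have hel : ∀ x ∈ commutator R, x ^ p = 1 := by
      intro x hx
      have h1 : x ^ p ∈ (U p (commutator R)).map (commutator R).subtype := ⟨(⟨x, hx⟩ : commutator R) ^ p, pow_mem_U _, rfl⟩
      rw [hP1, mem_bot] at h1
      exact h1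
    have hU := card_U h3 hR hO
    have hUt : U p R ≠ ⊤ := by
      intro h
      have h1 : (⊥ : Subgroup R) = ⊤ := eq_top_of_U hR (by rw [h]; simp)
      apply hD
      rw [eq_bot_iff, h1]
      exact le_top
    obtain ⟨d, hd⟩ : ∃ d, d ∉ U p R := by
      by_contra h
      push Not at h
      exact hUt (eq_top_iff.2 fun x _ => h x)
    obtain ⟨e, he⟩ := exists_gen hR hU hd
    apply der_cyclic_of_class_two he
    -- the derived subgroup is central
    have hK3lt : ⁅commutator R, (⊤ : Subgroup R)⁆ < commutator R := by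
      refine H23.commutator_lt_of_isPGroup (hR.to_subgroup _) (hR.to_subgroup ⊤) ?_ hD
      rw [normalizer_eq_top]
    have hDcard : Nat.card (commutator R) ≤ p ^ 2 := by
      have h1 : Nat.card (commutator R) ≤ Nat.card (zpowers c × zpowers z) := by
        have h2 : ∀ x : commutator R, ∃ q : zpowers c × zpowers z, (x : R) = q.1 * q.2 := by
          intro x
          have hx := hcN x.2
          rw [← SetLike.mem_coe, Subgroup.mul_normal] at hx
          obtain ⟨a, ha, e, he, hae⟩ := hx
          exact ⟨(⟨a, ha⟩, ⟨e, he⟩), hae.symm⟩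
        choose g hg using h2
        refine Nat.card_le_card_of_injective g ?_
        intro x y hxy
        apply Subtype.ext
        rw [hg x, hg y, hxy]
      rw [Nat.card_prod, Nat.card_zpowers, Nat.card_zpowers, hzo] at h1
      refine h1.trans ?_
      rw [pow_two]
      exact Nat.mul_le_mul_right p (orderOf_le_of_pow_eq_one hp.out.pos (hel c hc))
    have hK3card : Nat.card (⁅commutator R, (⊤ : Subgroup R)⁆ : Subgroup R) ≤ p := by
      obtain ⟨m, hm⟩ := IsPGroup.iff_card.mp (hR.to_subgroup (⁅commutator R, (⊤ : Subgroup R)⁆ : Subgroup R))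
      have h1 : Nat.card (⁅commutator R, (⊤ : Subgroup R)⁆ : Subgroup R) < Nat.card (commutator R) := by
        refine lt_of_le_of_ne (Subgroup.card_le_of_le hK3lt.le) ?_
        intro h
        exact hK3lt.ne (Subgroup.eq_of_le_of_card_ge hK3lt.le h.ge)
      have h2 := h1.trans_le hDcard
      rw [hm] at h2 ⊢
      have h4 := (Nat.pow_lt_pow_iff_right hp.out.one_lt).mp h2
      calc p ^ m ≤ p ^ 1 := Nat.pow_le_pow_right hp.out.pos (by omega)
        _ = p := pow_one p
    have hK3c : ⁅commutator R, (⊤ : Subgroup R)⁆ ≤ center R := by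
      by_cases hb : ⁅commutator R, (⊤ : Subgroup R)⁆ = ⊥
      · rw [hb]; exact bot_le
      · have h1 := H23.inf_center_ne_bot hR hb
        have h2 : ⁅commutator R, (⊤ : Subgroup R)⁆ ⊓ center R = ⁅commutator R, (⊤ : Subgroup R)⁆ := by
          apply Subgroup.eq_of_le_of_card_ge inf_le_left
          refine hK3card.trans ?_
          haveI : Nontrivial (⁅commutator R, (⊤ : Subgroup R)⁆ ⊓ center R : Subgroup R) :=
            (Subgroup.nontrivial_iff_ne_bot _).2 h1
          obtain ⟨k, hk, hk2⟩ := IsPGroup.nontrivial_iff_card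
            (hR.to_subgroup (⁅commutator R, (⊤ : Subgroup R)⁆ ⊓ center R)) |>.1 inferInstance
          rw [hk2]
          exact Nat.le_self_pow hk.ne' p
        rw [← h2]
        exact inf_le_right
    have hUc : U p R ≤ center R := by
      unfold U
      rw [closure_le]
      rintro _ ⟨x, rfl⟩
      rw [SetLike.mem_coe, mem_center_iff]
      intro y
      have hz1 : ⁅x⁻¹, y⁻¹⁆ ∈ commutator R := Subgroup.commutator_mem_commutator (mem_top _) (mem_top _)
      have hz2 : ⁅⁅x⁻¹, y⁻¹⁆, x⁆ ∈ ⁅commutator R, (⊤ : Subgroup R)⁆ :=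
        Subgroup.commutator_mem_commutator hz1 (mem_top _)
      have h1 : (x * ⁅x⁻¹, y⁻¹⁆) ^ p = x ^ p :=
        conj_pow' hp2 (fun w => (mem_center_iff.1 (hK3c hz2) w).symm) (hel _ (hK3lt.le hz2)) (hel _ hz1)
      have h2 : x * ⁅x⁻¹, y⁻¹⁆ = y⁻¹ * x * y := by
        simp only [commutatorElement_def]
        group
      rw [h2] at h1
      have h4 : (y⁻¹ * x * y) ^ p = y⁻¹ * x ^ p * y := by
        have := conj_pow (i := p) (a := y⁻¹) (b := x)
        rw [inv_inv] at this
        exact this
      rw [h4] at h1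
      calc y * x ^ p = y * (y⁻¹ * x ^ p * y) := by rw [h1]
        _ = x ^ p * y := by group
    exact (der_le_U hR hU).trans hUc
  · haveI := hq ((U p (commutator R)).map (commutator R).subtype) hP1
    obtain ⟨c', hc', hcN'⟩ := lift_gen ((U p (commutator R)).map (commutator R).subtype) this
    have h1 : zpowers (⟨c', hc'⟩ : commutator R) ⊔ U p (commutator R) = ⊤ := by
      rw [eq_top_iff]
      intro x _
      have hx := hcN' x.2
      rw [← SetLike.mem_coe, Subgroup.mul_normal] at hx
      obtain ⟨a, ha, e, he, hae⟩ := hx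
      obtain ⟨i, rfl⟩ := mem_zpowers_iff.1 ha
      obtain ⟨e', he', rfl⟩ := he
      have h2 : x = (⟨c', hc'⟩ : commutator R) ^ i * e' := Subtype.ext hae.symm
      rw [h2]
      exact mul_mem ((le_sup_left : zpowers (⟨c', hc'⟩ : commutator R) ≤ zpowers (⟨c', hc'⟩ : commutator R) ⊔ U p (commutator R))
        (zpow_mem (mem_zpowers _) i)) ((le_sup_right : U p (commutator R) ≤ zpowers (⟨c', hc'⟩ : commutator R) ⊔ U p (commutator R)) he')
    have h2 := eq_top_of_U (hR.to_subgroup _) h1
    refine ⟨⟨⟨c', hc'⟩, fun x => ?_⟩⟩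
    have h4 : x ∈ zpowers (⟨c', hc'⟩ : commutator R) := by
      rw [h2]
      exact mem_top x
    exact mem_zpowers_iff.1 h4

theorem mem_zpowers_unit {R : Type u} [Group R] [Finite R] (hR : IsPGroup p R) (c : R) (k : ℤ) :
    c ∈ zpowers (c ^ (1 + (p : ℤ) * k)) := by
  obtain ⟨j, hj⟩ := (IsPGroup.iff_orderOf.1 hR) c
  have h1 : IsCoprime (1 + (p : ℤ) * k) ((p : ℤ) ^ j) :=
    IsCoprime.pow_right ⟨1, -k, by ring⟩
  obtain ⟨u, v, huv⟩ := h1
  have h2 : c ^ ((p : ℤ) ^ j) = 1 := by
    have : ((p : ℤ) ^ j) = ((orderOf c : ℕ) : ℤ) := by rw [hj]; push_cast; rfl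
    rw [this, zpow_natCast, pow_orderOf_eq_one]
  refine mem_zpowers_iff.2 ⟨u, ?_⟩
  rw [← zpow_mul]
  have h3 : (1 + (p : ℤ) * k) * u = 1 - (p : ℤ) ^ j * v := by linear_combination huv
  rw [h3, zpow_sub, zpow_mul, h2, one_zpow, zpow_one, inv_one, mul_one]

theorem fin {R : Type u} [Group R] {d e : R} (hde : closure ({d, e} : Set R) = ⊤)
    (hD : commutator R ≤ zpowers d) : Cfsg.IsMetacyclic R := by
  haveI hn : (zpowers d).Normal := ⟨fun n hn g => by
    have h1 : g * n * g⁻¹ = ⁅g, n⁆ * n := by rw [commutatorElement_def]; group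
    rw [h1]
    exact mul_mem (hD (Subgroup.commutator_mem_commutator (mem_top g) (mem_top n))) hn⟩
  refine ⟨zpowers d, hn, inferInstance, ⟨⟨QuotientGroup.mk' (zpowers d) e, ?_⟩⟩⟩
  intro z
  obtain ⟨w, rfl⟩ := QuotientGroup.mk'_surjective _ z
  have hw : w ∈ closure ({d, e} : Set R) := by rw [hde]; exact mem_top w
  have hle : closure ({d, e} : Set R) ≤ comap (QuotientGroup.mk' (zpowers d))
      (zpowers (QuotientGroup.mk' (zpowers d) e)) := by
    rw [closure_le]
    rintro w' (rfl | rfl)
    · show _ ∈ comap _ _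
      rw [mem_comap]
      have : QuotientGroup.mk' (zpowers w') w' = 1 := by
        rw [QuotientGroup.mk'_apply, QuotientGroup.eq_one_iff]
        exact mem_zpowers _
      rw [this]
      exact one_mem _
    · show _ ∈ comap _ _
      rw [mem_comap]
      exact mem_zpowers _
  exact hle hw

/-- in a class two group with derived subgroup of exponent p -/
theorem exists_root {Q : Type u} [Group Q] [Finite Q] (hQ : IsPGroup p Q) (hp2 : p ≠ 2)
    (hc : ∀ x y w : Q, Commute ⁅x, y⁆ w) (hc1 : ∀ x y : Q, ⁅x, y⁆ ^ p = 1) {c : Q} (hcU : c ∈ U p Q) (hc2 : c ≠ 1) :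
    ∃ d : Q, d ∉ U p Q ∧ ∃ n : ℕ, c = d ^ p ^ n := by
  have hodd : p % 2 = 1 := hp.out.eq_two_or_odd.resolve_left hp2
  have h3 : p * (p - 1) / 2 = p * ((p - 1) / 2) := by
    rw [Nat.mul_div_assoc]
    omega
  have hmul : ∀ x y : Q, (x * y) ^ p = x ^ p * y ^ p := by
    intro x y
    rw [H23.mul_pow_of_class_two x y (hc y x) p, h3, pow_mul, hc1, one_pow, mul_one]
  have hU : ∀ u ∈ U p Q, ∃ x, u = x ^ p := by
    intro u hu
    unfold U at hu
    induction hu using Subgroup.closure_induction with
    | mem z hz => exact hz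
    | one => exact ⟨1, (one_pow p).symm⟩
    | mul x y _ _ h5 h6 =>
      obtain ⟨a, rfl⟩ := h5
      obtain ⟨b, rfl⟩ := h6
      exact ⟨a * b, (hmul a b).symm⟩
    | inv x _ h5 =>
      obtain ⟨a, rfl⟩ := h5
      exact ⟨a⁻¹, by rw [inv_pow]⟩
  by_contra hno
  push Not at hno
  have h4 : ∀ n : ℕ, ∃ d : Q, d ∈ U p Q ∧ c = d ^ p ^ n := by
    intro n
    induction n with
    | zero => exact ⟨c, hcU, by simp⟩
    | succ n ih =>
      obtain ⟨d, hd, hcd⟩ := ih
      obtain ⟨d1, rfl⟩ := hU d hd
      rw [← pow_mul, ← pow_succ'] at hcd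
      refine ⟨d1, ?_, hcd⟩
      by_contra h
      exact hno d1 h (n + 1) hcd
  obtain ⟨m, hm⟩ := IsPGroup.iff_card.mp hQ
  obtain ⟨d, -, hd⟩ := h4 m
  apply hc2
  rw [hd, ← hm]
  exact pow_card_eq_one'

/-- Huppert's criterion: for p greater than 3, a p-group whose elements of order dividing p generate a subgroup of order at most p² is metacyclic. -/
theorem result {R : Type*} [Group R] [Finite R] {p : ℕ} [Fact p.Prime] (hp : 3 < p) (hR : IsPGroup p R) (hO : Nat.card ↥(Cfsg.omegaOne p (⊤ : Subgroup R)) ≤ p ^ 2) : Cfsg.IsMetacyclic R := by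
  have hp2 : p ≠ 2 := by omega
  have hU := card_U hp hR hO
  have hDU := der_le_U hR hU
  have hcyc := der_cyclic hp _ hR rfl hO
  by_cases hUt : U p R = ⊤
  · have h1 : (⊥ : Subgroup R) = ⊤ := eq_top_of_U hR (by rw [hUt]; simp)
    have h2 : ∀ x : R, x = 1 := by
      intro x
      have : x ∈ (⊥ : Subgroup R) := by rw [h1]; exact mem_top x
      exact mem_bot.1 this
    refine fin (d := 1) (e := 1) ?_ ?_
    · rw [eq_top_iff, ← h1]; exact bot_le
    · intro x _
      rw [h2 x]
      exact mem_zpowers _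
  · obtain ⟨d₀, hd₀⟩ : ∃ d, d ∉ U p R := by
      by_contra h
      push Not at h
      exact hUt (eq_top_iff.2 fun x _ => h x)
    obtain ⟨g, hg⟩ := hcyc.exists_generator
    have hDg : commutator R ≤ zpowers (g : R) := by
      intro x hx
      obtain ⟨k, hk⟩ := mem_zpowers_iff.1 (hg ⟨x, hx⟩)
      exact mem_zpowers_iff.2 ⟨k, congrArg Subtype.val hk⟩
    have hDg' : commutator R = zpowers (g : R) := le_antisymm hDg ((zpowers_le).2 g.2)
    by_cases hg1 : (g : R) = 1
    · obtain ⟨e, he⟩ := exists_gen hR hU hd₀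
      refine fin he (hDg.trans ?_)
      rw [hg1, zpowers_one_eq_bot]
      exact bot_le
    · -- K = ⟨g^p⟩
      have hDn : (zpowers (g : R)).Normal := by rw [← hDg']; infer_instance
      obtain ⟨K, hK⟩ : ∃ K, K = zpowers ((g : R) ^ p) := ⟨_, rfl⟩
      haveI hKn : K.Normal := by
        rw [hK]
        refine ⟨fun n hn x => ?_⟩
        obtain ⟨k, rfl⟩ := mem_zpowers_iff.1 hn
        obtain ⟨l, hl⟩ := mem_zpowers_iff.1 (hDn.conj_mem _ (mem_zpowers (g : R)) x)
        refine mem_zpowers_iff.2 ⟨l * k, ?_⟩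
        have h1 : x * ((g : R) ^ p) ^ k * x⁻¹ = ((x * (g : R) * x⁻¹) ^ p) ^ k := by
          rw [conj_pow, conj_zpow]
        rw [h1, ← hl, zpow_mul]
        congr 1
        rw [← zpow_natCast, ← zpow_natCast, ← zpow_mul, ← zpow_mul, mul_comm]
      have hπs := QuotientGroup.mk'_surjective K
      have hgK : ∀ k : ℤ, (g : R) ^ k ∈ K → (g : R) = 1 ∨ (p : ℤ) ∣ k := by
        intro k hk
        by_contra hcon
        push Not at hcon
        obtain ⟨h1, h2⟩ := hcon
        have hcop : IsCoprime (k : ℤ) (p : ℤ) := by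
          rw [isCoprime_comm]
          exact (Nat.prime_iff_prime_int.1 (Fact.out : p.Prime)).coprime_iff_not_dvd.2 h2
        obtain ⟨u, v, huv⟩ := hcop
        have h4 : (g : R) ∈ K := by
          have h5 : (g : R) = ((g : R) ^ k) ^ u * ((g : R) ^ p) ^ v := by
            rw [← zpow_mul, ← zpow_natCast (g : R) p, ← zpow_mul, ← zpow_add]
            have : k * u + (p : ℤ) * v = 1 := by linear_combination huv
            rw [this, zpow_one]
          rw [h5]
          refine mul_mem (zpow_mem hk u) (zpow_mem ?_ v)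
          rw [hK]
          exact mem_zpowers _
        rw [hK] at h4
        obtain ⟨m, hm⟩ := mem_zpowers_iff.1 h4
        have h6 : (g : R) ^ (1 + (p : ℤ) * (-m)) = 1 := by
          rw [zpow_add, zpow_one, mul_neg, zpow_neg, zpow_mul, zpow_natCast, hm, mul_inv_cancel]
        have h7 := mem_zpowers_unit hR (g : R) (-m)
        rw [h6, zpowers_one_eq_bot, mem_bot] at h7
        exact h1 h7
      have hQD : ∀ x y : R ⧸ K, ∃ k : ℤ, ⁅x, y⁆ = (QuotientGroup.mk' K (g : R)) ^ k := by
        intro x y
        obtain ⟨a, rfl⟩ := hπs x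
        obtain ⟨b, rfl⟩ := hπs y
        obtain ⟨k, hk⟩ := mem_zpowers_iff.1 (hDg (Subgroup.commutator_mem_commutator (mem_top a) (mem_top b)))
        exact ⟨k, by rw [← map_commutatorElement, ← hk, map_zpow]⟩
      have hgp : (QuotientGroup.mk' K (g : R)) ^ p = 1 := by
        rw [← map_pow]
        refine (QuotientGroup.eq_one_iff _).2 ?_
        rw [hK]
        exact mem_zpowers _
      have hQp := hR.to_quotient K
      have hgc : QuotientGroup.mk' K (g : R) ∈ center (R ⧸ K) := by
        haveI hn' : (zpowers (QuotientGroup.mk' K (g : R))).Normal := by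
          rw [← MonoidHom.map_zpowers]
          exact Subgroup.Normal.map hDn _ hπs
        by_cases hb : zpowers (QuotientGroup.mk' K (g : R)) = ⊥
        · rw [zpowers_eq_bot] at hb
          rw [hb]
          exact one_mem _
        · have h1 := H23.inf_center_ne_bot hQp hb
          have h2 : zpowers (QuotientGroup.mk' K (g : R)) ⊓ center (R ⧸ K) = zpowers (QuotientGroup.mk' K (g : R)) := by
            apply Subgroup.eq_of_le_of_card_ge inf_le_left
            rw [Nat.card_zpowers]
            refine (orderOf_le_of_pow_eq_one (Fact.out : p.Prime).pos hgp).trans ?_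
            haveI : Nontrivial (zpowers (QuotientGroup.mk' K (g : R)) ⊓ center (R ⧸ K) : Subgroup (R ⧸ K)) :=
              (Subgroup.nontrivial_iff_ne_bot _).2 h1
            obtain ⟨k, hk, hk2⟩ := IsPGroup.nontrivial_iff_card
              (hQp.to_subgroup (zpowers (QuotientGroup.mk' K (g : R)) ⊓ center (R ⧸ K))) |>.1 inferInstance
            rw [hk2]
            exact Nat.le_self_pow hk.ne' p
          have h4 : QuotientGroup.mk' K (g : R) ∈ zpowers (QuotientGroup.mk' K (g : R)) ⊓ center (R ⧸ K) := by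
            rw [h2]
            exact mem_zpowers _
          exact h4.2
      obtain ⟨d', hd'U, n, hd'⟩ := exists_root hQp hp2 (c := QuotientGroup.mk' K (g : R))
        (by
          intro x y w
          obtain ⟨k, hk⟩ := hQD x y
          rw [hk]
          exact (show Commute (QuotientGroup.mk' K (g : R)) w from (mem_center_iff.1 hgc w).symm).zpow_left k)
        (by
          intro x y
          obtain ⟨k, hk⟩ := hQD x y
          rw [hk, ← zpow_natCast, ← zpow_mul, mul_comm, zpow_mul, zpow_natCast, hgp, one_zpow])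
        (by
          exact U_map (QuotientGroup.mk' K) (mem_map_of_mem _ (hDU g.2)))
        (by
          intro h
          have h1 : (g : R) ∈ K := (QuotientGroup.eq_one_iff _).1 h
          rcases hgK 1 (by rwa [zpow_one]) with h2 | h2
          · exact hg1 h2
          · have h4 := Int.le_of_dvd one_pos h2
            have h5 := (Fact.out : p.Prime).one_lt
            omega)
      obtain ⟨d, rfl⟩ := hπs d'
      have hdU : d ∉ U p R := fun h => hd'U (U_map (QuotientGroup.mk' K) (mem_map_of_mem _ h))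
      obtain ⟨e, he⟩ := exists_gen hR hU hdU
      refine fin he (hDg.trans ?_)
      rw [zpowers_le]
      rw [← map_pow] at hd'
      have h1 : (g : R)⁻¹ * d ^ p ^ n ∈ K := QuotientGroup.eq.1 hd'
      rw [hK] at h1
      obtain ⟨k, hk⟩ := mem_zpowers_iff.1 h1
      have h2 : (g : R) ^ (1 + (p : ℤ) * k) = d ^ p ^ n := by
        rw [zpow_add, zpow_one, zpow_mul, zpow_natCast, hk]
        group
      have h4 := mem_zpowers_unit hR (g : R) k
      rw [h2] at h4
      exact (zpowers_le.2 (pow_mem (mem_zpowers d) _)) h4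

end Cfsg.Agent.S0639
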