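import Cfsg.Statements.S0640
import Cfsg.Agent.S3771
import Cfsg.Agent.S0120
import Cfsg.Agent.S0121
import Cfsg.Agent.H23.Coprime3
import Cfsg.Agent.H18.FrattiniP

set_option autoImplicit false
set_option linter.style.haveILetI false
set_option linter.unusedVariables false
set_option linter.unusedSectionVars false
open Cfsg

namespace Cfsg.Agent.S0640

open Subgroup
open scoped commutatorElement

section A
variable {R : Type*} [Group R]

/-- restriction of an automorphism to an invariant subgroup -/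
noncomputable def rest (a : MulAut R) (D : Subgroup R) (h : D.map (a : R →* R) = D) : MulAut D :=
  (MulEquiv.subgroupMap a D).trans (MulEquiv.subgroupCongr h)

theorem rest_coe (a : MulAut R) (D : Subgroup R) (h : D.map (a : R →* R) = D) (x : D) :
    ((rest a D h x : D) : R) = a x := rfl

theorem rest_pow (a : MulAut R) (D : Subgroup R) (h : D.map (a : R →* R) = D) (n : ℕ) (x : D) :
    ((((rest a D h) ^ n) x : D) : R) = (a ^ n) x := by
  induction n generalizing x with
  | zero => simp
  | succ n ih => rw [pow_succ, pow_succ, MulAut.mul_apply, MulAut.mul_apply, ih, rest_coe]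

theorem rest_pow_eq_one (a : MulAut R) (D : Subgroup R) (h : D.map (a : R →* R) = D) {n : ℕ}
    (ha : a ^ n = 1) : (rest a D h) ^ n = 1 := by
  ext x
  rw [rest_pow, ha]
  rfl

theorem fix_count [Finite R] (b : MulAut R) {q : ℕ} (hq : q.Prime) (hb : b ^ q = 1) :
    ∃ F : Subgroup R, (∀ x, x ∈ F ↔ b x = x) ∧ Nat.card R ≡ Nat.card F [MOD q] := by
  haveI : Fact q.Prime := ⟨hq⟩
  let F : Subgroup R :=
    { carrier := {x | b x = x}
      mul_mem' := by
        intro x y hx hy
        simp only [Set.mem_setOf_eq] at hx hy ⊢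
        rw [map_mul, hx, hy]
      one_mem' := by simp
      inv_mem' := by
        intro x hx
        simp only [Set.mem_setOf_eq] at hx ⊢
        rw [map_inv, hx] }
  refine ⟨F, fun x => Iff.rfl, ?_⟩
  have hP : IsPGroup q (zpowers b) := by
    rintro ⟨y, hy⟩
    obtain ⟨k, rfl⟩ := mem_zpowers_iff.1 hy
    refine ⟨1, Subtype.ext ?_⟩
    show (b ^ k) ^ (q ^ 1) = 1
    rw [pow_one, ← zpow_natCast, ← zpow_mul, mul_comm, zpow_mul, zpow_natCast, hb, one_zpow]
  have h := hP.card_modEq_card_fixedPoints R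
  have heq : (MulAction.fixedPoints (zpowers b) R) = (F : Set R) := by
    ext x
    rw [MulAction.mem_fixedPoints]
    constructor
    · intro hx
      exact hx ⟨b, mem_zpowers b⟩
    · rintro hx ⟨y, hy⟩
      obtain ⟨k, rfl⟩ := mem_zpowers_iff.1 hy
      have h1 : b ∈ MulAction.stabilizer (MulAut R) x := by
        rw [MulAction.mem_stabilizer_iff]
        exact hx
      have h2 := (MulAction.stabilizer (MulAut R) x).zpow_mem h1 k
      rw [MulAction.mem_stabilizer_iff] at h2
      exact h2
  rw [heq] at h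
  exact h

end A

theorem arith {p q k j : ℕ} (hp : p.Prime) (hq : q.Prime) (hqp : q ≠ p) (hjk : j < k) (h : p ^ k ≡ p ^ j [MOD q]) :
    q ∣ p ^ (k - j) - 1 := by
  have h1 : q ∣ p ^ k - p ^ j := by
    have := (Nat.modEq_iff_dvd' (Nat.pow_le_pow_right hp.pos hjk.le)).1 h.symm
    exact this
  have h2 : p ^ k - p ^ j = p ^ j * (p ^ (k - j) - 1) := by
    rw [Nat.mul_sub, mul_one, ← pow_add]
    congr 2
    omega
  rw [h2] at h1
  have hcop : Nat.Coprime q (p ^ j) := Nat.Coprime.pow_right j ((Nat.coprime_primes hq hp).2 hqp)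
  exact hcop.dvd_of_dvd_mul_left h1

theorem fin {p q i : ℕ} (hp : p.Prime) (hp2 : p ≠ 2) (hq : q.Prime) (hqp : q ≠ p) (hi : i = 1 ∨ i = 2)
    (h : q ∣ p ^ i - 1) : q ∣ p ^ 2 - 1 ∧ q < p := by
  have hp3 : 3 ≤ p := by
    have := hp.two_le
    omega
  have h2 : q ∣ p ^ 2 - 1 := by
    rcases hi with rfl | rfl
    · rw [pow_one] at h
      have : p ^ 2 - 1 = (p + 1) * (p - 1) := by
        have := Nat.sq_sub_sq p 1
        simpa using this
      rw [this]
      exact h.mul_left _
    · exact h
  refine ⟨h2, ?_⟩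
  have h3 : p ^ 2 - 1 = (p + 1) * (p - 1) := by
    have := Nat.sq_sub_sq p 1
    simpa using this
  rw [h3] at h2
  rcases (Nat.Prime.dvd_mul hq).1 h2 with h4 | h4
  · have h5 : q ≤ p + 1 := Nat.le_of_dvd (by omega) h4
    have hodd : p % 2 = 1 := hp.eq_two_or_odd.resolve_left hp2
    have h6 : q ≠ p + 1 := by
      intro h7
      have : q = 2 ∨ q % 2 = 1 := hq.eq_two_or_odd
      omega
    omega
  · have h5 : q ≤ p - 1 := Nat.le_of_dvd (by omega) h4
    omega

/-- For odd p, a prime q ≠ p dividing the order of the automorphism group of a p-group of rank at most 2 divides p² - 1 and is less than p. -/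
theorem result {R : Type*} [Group R] [Finite R] {p : ℕ} [Fact p.Prime] (hp : p ≠ 2) (hR : IsPGroup p R) (hrk : Cfsg.PRankLE p 2 R) (q : ℕ) (hq : q.Prime) (hqp : q ≠ p) (hdvd : q ∣ Nat.card (MulAut R)) : q ∣ p ^ 2 - 1 ∧ q < p := by
  have hpp : p.Prime := Fact.out
  haveI : Fact q.Prime := ⟨hq⟩
  haveI : Finite (MulAut R) := Finite.of_injective (fun f : MulAut R => (f : R → R)) DFunLike.coe_injective
  obtain ⟨a, ha⟩ := exists_prime_orderOf_dvd_card' q hdvd
  have haq : a ^ q = 1 := by rw [← ha]; exact pow_orderOf_eq_one a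
  have ha1 : a ≠ 1 := by
    intro h
    rw [h, orderOf_one] at ha
    exact hq.one_lt.ne ha
  obtain ⟨C, hCc, hC1, hC2, hC3⟩ := H23.exists_critical hR
  have hcl : ∀ x ∈ C, ∀ y ∈ C, ⁅y, x⁆ ∈ centralizer (C : Set R) := by
    intro x hx y hy
    exact (hC1 (commutator_mem_commutator (mem_top y) hx)).2
  have hmul : ∀ x ∈ C, ∀ y ∈ C, x ^ p = 1 → y ^ p = 1 → (x * y) ^ p = 1 := by
    intro x hx y hy hx1 hy1
    have hc : ∀ z : C, Commute ⁅(⟨y, hy⟩ : C), (⟨x, hx⟩ : C)⁆ z := by
      intro z
      have h1 := mem_centralizer_iff.1 (hcl x hx y hy) z z.2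
      exact Subtype.ext h1.symm
    have h1 := H23.mul_pow_of_class_two (⟨x, hx⟩ : C) ⟨y, hy⟩ hc p
    have h2 := H23.commutator_pow_left_of_central (⟨x, hx⟩ : C) ⟨y, hy⟩ hc p
    have hx2 : (⟨x, hx⟩ : C) ^ p = 1 := Subtype.ext hx1
    have hy2 : (⟨y, hy⟩ : C) ^ p = 1 := Subtype.ext hy1
    have hodd : p % 2 = 1 := hpp.eq_two_or_odd.resolve_left hp
    have h3 : p * (p - 1) / 2 = p * ((p - 1) / 2) := by
      rw [Nat.mul_div_assoc]
      omega
    rw [hx2, hy2, one_mul, one_mul, h3, pow_mul, ← h2, hy2, commutatorElement_one_left, one_pow] at h1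
    exact congrArg Subtype.val h1
  let D : Subgroup R :=
    { carrier := {x | x ∈ C ∧ x ^ p = 1}
      mul_mem' := by
        rintro x y ⟨hx, hx1⟩ ⟨hy, hy1⟩
        exact ⟨C.mul_mem hx hy, hmul x hx y hy hx1 hy1⟩
      one_mem' := ⟨C.one_mem, one_pow _⟩
      inv_mem' := by
        rintro x ⟨hx, hx1⟩
        exact ⟨C.inv_mem hx, by rw [inv_pow, hx1, inv_one]⟩ }
  have hmD : ∀ x, x ∈ D ↔ x ∈ C ∧ x ^ p = 1 := fun x => Iff.rfl
  have hCa : C.map (a : R →* R) = C := (Subgroup.characteristic_iff_map_eq.1 hCc) a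
  have hCa' : ∀ x, a x ∈ C ↔ x ∈ C := by
    intro x
    constructor
    · intro h
      rw [← hCa] at h
      obtain ⟨y, hy, hxy⟩ := mem_map.1 h
      have : y = x := a.injective hxy
      rwa [← this]
    · intro h
      have : a x ∈ C.map (a : R →* R) := mem_map_of_mem _ h
      rwa [hCa] at this
  have hDa : D.map (a : R →* R) = D := by
    ext x
    constructor
    · intro h
      obtain ⟨y, hy, rfl⟩ := mem_map.1 h
      refine ⟨(hCa' y).2 hy.1, ?_⟩
      show (a y) ^ p = 1
      rw [← map_pow, hy.2, map_one]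
    · intro h
      refine mem_map.2 ⟨a.symm x, ⟨?_, ?_⟩, a.apply_symm_apply x⟩
      · rw [← hCa']
        simpa using h.1
      · show (a.symm x) ^ p = 1
        rw [← map_pow, h.2, map_one]
  have hne : rest a D hDa ≠ 1 := by
    intro h1
    have h2 : rest a C hCa = 1 := by
      refine S0120.result hp (hR.to_subgroup C) _ ?_ ?_
      · have h3 : orderOf (rest a C hCa) ∣ q := orderOf_dvd_of_pow_eq_one (rest_pow_eq_one a C hCa haq)
        exact Nat.Coprime.coprime_dvd_left h3 ((Nat.coprime_primes hq hpp).2 hqp)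
      · intro x hx
        have hxD : (x : R) ∈ D := ⟨x.2, congrArg Subtype.val hx⟩
        have h3 : rest a D hDa ⟨x, hxD⟩ = ⟨x, hxD⟩ := by rw [h1]; rfl
        have h4 : a (x : R) = x := congrArg (fun z : D => (z : R)) h3
        exact Subtype.ext h4
    apply ha1
    refine S0121.result hR C hCc ?_ ?_ hC2 a ?_ ?_
    · rw [map_le_iff_le_comap]
      have h3 : frattini C ≤ (centralizer (C : Set R)).subgroupOf C := by
        refine H18.frattini_le_of_elementary (p := p) _ ?_ ?_
        · rw [_root_.commutator_def, Subgroup.commutator_le]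
          intro x _ y _
          rw [mem_subgroupOf]
          exact hcl y y.2 x x.2
        · intro x
          rw [mem_subgroupOf]
          exact hC3 x x.2
      exact h3
    · rw [Subgroup.commutator_comm]
      exact hC1
    · rw [ha]
      exact (Nat.coprime_primes hq hpp).2 hqp
    · intro x hx
      have h3 : rest a C hCa ⟨x, hx⟩ = ⟨x, hx⟩ := by rw [h2]; rfl
      exact congrArg Subtype.val h3
  have hDp : IsPGroup p D := hR.to_subgroup D
  have hDexp : ∀ x : D, x ^ p = 1 := fun x => Subtype.ext x.2.2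
  have hDrk : Cfsg.PRankLE p 2 D := by
    intro A hA hA1
    have h1 := hrk (A.map D.subtype) ?_ ?_
    · rwa [Subgroup.card_map_of_injective D.subtype_injective] at h1
    · haveI := hA
      infer_instance
    · rintro _ ⟨x, hx, rfl⟩
      rw [← map_pow, hA1 x hx, map_one]
  have hD3 := S3771.result hDp hDrk hDexp
  obtain ⟨k, hk⟩ := IsPGroup.iff_card.mp hDp
  have hk3 : k ≤ 3 := by
    rw [hk] at hD3
    exact (Nat.pow_le_pow_iff_right hpp.one_lt).mp hD3
  obtain ⟨F, hF, hFc⟩ := fix_count (rest a D hDa) hq (rest_pow_eq_one a D hDa haq)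
  obtain ⟨j, hj⟩ := IsPGroup.iff_card.mp (hDp.to_subgroup F)
  have hFt : F ≠ ⊤ := by
    intro h
    apply hne
    ext x
    have : x ∈ F := by rw [h]; exact mem_top x
    exact congrArg Subtype.val ((hF x).1 this)
  have hjk : j < k := by
    have h1 : Nat.card F < Nat.card D := by
      refine lt_of_le_of_ne (Subgroup.card_le_card_group F) ?_
      intro h
      exact hFt (Subgroup.eq_top_of_card_eq F h)
    rw [hj, hk] at h1
    exact (Nat.pow_lt_pow_iff_right hpp.one_lt).1 h1
  rw [hk, hj] at hFc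
  by_cases hkj : k - j ≤ 2
  · exact fin hpp hp hq hqp (by omega) (arith hpp hq hqp hjk hFc)
  · have hj0 : j = 0 := by omega
    have hk3' : k = 3 := by omega
    subst hj0 hk3'
    have hF1 : F = ⊥ := Subgroup.eq_bot_of_card_eq F (by rw [hj, pow_zero])
    have hZa : (center D).map ((rest a D hDa) : D →* D) = center D :=
      (Subgroup.characteristic_iff_map_eq.1 inferInstance) (rest a D hDa)
    obtain ⟨F', hF', hF'c⟩ := fix_count (rest (rest a D hDa) (center D) hZa) hq
      (rest_pow_eq_one _ _ hZa (rest_pow_eq_one a D hDa haq))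
    have hF'1 : F' = ⊥ := by
      rw [eq_bot_iff]
      intro x hx
      have h1 := congrArg Subtype.val ((hF' x).1 hx)
      rw [rest_coe] at h1
      have h2 := (hF x).2 h1
      rw [hF1, mem_bot] at h2
      rw [mem_bot]
      exact Subtype.ext h2
    obtain ⟨i, hi⟩ := IsPGroup.iff_card.mp (hDp.to_subgroup (center D))
    haveI : Nontrivial D := by
      rw [← Finite.one_lt_card_iff_nontrivial, hk]
      exact Nat.one_lt_pow (by norm_num) hpp.one_lt
    haveI := hDp.center_nontrivial
    have hi0 : 0 < i := by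
      rcases Nat.eq_zero_or_pos i with h | h
      · exfalso
        rw [h, pow_zero] at hi
        have := Finite.one_lt_card_iff_nontrivial.2 (inferInstance : Nontrivial (center D))
        omega
      · exact h
    have hi3 : i < 3 := by
      have h1 : Nat.card (center D) < Nat.card D := by
        refine lt_of_le_of_ne (Subgroup.card_le_card_group _) ?_
        intro h
        have h2 := Subgroup.eq_top_of_card_eq _ h
        have h3 := hDrk ⊤ ?_ (fun x _ => hDexp x)
        · rw [Subgroup.card_top, hk] at h3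
          have := (Nat.pow_le_pow_iff_right hpp.one_lt).mp h3
          omega
        · refine ⟨⟨?_⟩⟩
          rintro ⟨x, hx⟩ ⟨y, hy⟩
          have hx2 : x ∈ center D := by rw [h2]; exact mem_top x
          exact Subtype.ext (mem_center_iff.1 hx2 y).symm
      rw [hi, hk] at h1
      exact (Nat.pow_lt_pow_iff_right hpp.one_lt).1 h1
    rw [hF'1, hi, Subgroup.card_bot] at hF'c
    have h5 : p ^ i ≡ p ^ 0 [MOD q] := by rw [pow_zero]; exact hF'c
    have h6 := arith hpp hq hqp hi0 h5
    rw [Nat.sub_zero] at h6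
    exact fin hpp hp hq hqp (by omega) h6

end Cfsg.Agent.S0640
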