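import Cfsg.Statements.S0642
import Cfsg.Agent.H2.Regular

set_option autoImplicit false
set_option linter.style.haveILetI false
set_option linter.unusedVariables false
set_option linter.unusedSectionVars false
open Cfsg

namespace Cfsg.Agent.S0642

open scoped commutatorElement in
theorem aux {G : Type*} [Group G] [Finite G] (hG : IsPGroup 2 G) (h : Cfsg.IsRegularPGroup 2 G)
    (a b : G) : a * b = b * a := by
  set H := Subgroup.closure ({a, b} : Set G) with hH
  have haH : a ∈ H := Subgroup.subset_closure (by simp)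
  have hbH : b ∈ H := Subgroup.subset_closure (by simp)
  obtain ⟨c, hc, hpow⟩ := h.2 b a 1
  have hset : ({b, a} : Set G) = {a, b} := Set.pair_comm b a
  rw [hset, ← hH] at hc
  rw [pow_one] at hpow
  have hHD : H ≤ Subgroup.normalizer ((⁅H, H⁆ : Subgroup G) : Set G) :=
    H18.le_normalizer_commutator Subgroup.le_normalizer Subgroup.le_normalizer
  set K := powerClosure 2 1 ⁅H, H⁆ with hK
  have hHK : H ≤ Subgroup.normalizer (K : Set G) := H2.le_normalizer_powerClosure 1 hHD
  -- (ba)^2 = b^2 a^2 c → a b = b a a c a⁻¹ ... 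
  have h1 : ⁅a, b⁆ ∈ K := by
    have h2 : b * a * b * a = b * b * a * a * c := by
      have : (b * a) ^ 2 = b * a * b * a := by rw [pow_two, mul_assoc, mul_assoc, mul_assoc]
      rw [← this, hpow, pow_two, pow_two]; simp only [mul_assoc]
    have h3 : a * b = b * a * (a * c * a⁻¹) := by
      have : a * b = b⁻¹ * (b * a * b * a) * a⁻¹ := by group
      rw [this, h2]; group
    have h4 : ⁅a, b⁆ = (b * a) * (a * c * a⁻¹) * (b * a)⁻¹ := by
      rw [commutatorElement_def, h3]; group
    rw [h4]
    exact H2.conj_mem_of_norm (hHK (mul_mem hbH haH)) (H2.conj_mem_of_norm (hHK haH) hc)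
  have h2 : ⁅H, H⁆ ≤ K := by
    rw [hH]
    have hn : ∀ x ∈ ({a, b} : Set G), x ∈ Subgroup.normalizer (K : Set G) :=
      fun x hx => hHK (Subgroup.subset_closure hx)
    apply H2.commutator_closure_le hn hn
    rintro x hx y hy
    rcases hx with rfl | hx
    · rcases hy with rfl | hy
      · rw [commutatorElement_self]; exact one_mem _
      · rw [Set.mem_singleton_iff.1 hy]; exact h1
    · rw [Set.mem_singleton_iff.1 hx]
      rcases hy with rfl | hy
      · exact H2.comm_swap_mem h1
      · rw [Set.mem_singleton_iff.1 hy, commutatorElement_self]; exact one_mem _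
  have h3 := H2.eq_bot_of_le_powerClosure (hG.to_subgroup _) h2
  have h4 : ⁅a, b⁆ ∈ ⁅H, H⁆ := Subgroup.commutator_mem_commutator haH hbH
  rw [h3, Subgroup.mem_bot, commutatorElement_eq_one_iff_mul_comm] at h4
  exact h4

/-- Among finite 2-groups the regular ones are exactly the abelian ones. -/
theorem result {G : Type*} [Group G] [Finite G] (hG : IsPGroup 2 G) : Cfsg.IsRegularPGroup 2 G ↔ ∀ a b : G, a * b = b * a := by
  refine ⟨aux hG, fun h => ⟨hG, ?_⟩⟩
  intro a b n
  refine ⟨1, one_mem _, ?_⟩
  rw [mul_one]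
  exact (Commute.mul_pow (h a b) _)

end Cfsg.Agent.S0642
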