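import Cfsg.Statements.S0644
import Mathlib
import Cfsg.Agent.H2.Regular

set_option autoImplicit false
set_option linter.all false
open Cfsg

namespace Cfsg.Agent.S0644

open scoped commutatorElement

theorem pow_pow_mem {G : Type*} [Group G] [Finite G] {p : ℕ} [Fact p.Prime]
    (hG : Cfsg.IsRegularPGroup p G) (n N : ℕ) : ∀ a b : G,
    Nat.card (Subgroup.closure ({a, b} : Set G)) ≤ N →
    ∃ e ∈ Subgroup.closure ({a, b} : Set G), a ^ p ^ n * b ^ p ^ n = e ^ p ^ n := by
  have hpp : p.Prime := Fact.out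
  induction N with
  | zero =>
    intro a b hN
    have : 0 < Nat.card (Subgroup.closure ({a, b} : Set G)) := Nat.card_pos
    omega
  | succ N ih =>
    intro a b hN
    set D := Subgroup.closure ({a, b} : Set G) with hD
    have haD : a ∈ D := Subgroup.subset_closure (by simp)
    have hbD : b ∈ D := Subgroup.subset_closure (by simp)
    by_cases htop : Subgroup.zpowers (⟨a * b, mul_mem haD hbD⟩ : D) = ⊤
    · refine ⟨a * b, mul_mem haD hbD, ?_⟩
      have h1 : ∀ x ∈ D, ∃ k : ℤ, x = (a * b) ^ k := by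
        intro x hx
        have : (⟨x, hx⟩ : D) ∈ Subgroup.zpowers (⟨a * b, mul_mem haD hbD⟩ : D) := by
          rw [htop]; exact Subgroup.mem_top _
        obtain ⟨k, hk⟩ := this
        exact ⟨k, (congrArg Subtype.val hk).symm⟩
      obtain ⟨i, hi⟩ := h1 a haD
      obtain ⟨j, hj⟩ := h1 b hbD
      have h2 : Commute a b := by
        have h3 := Commute.zpow_zpow (Commute.refl (a * b)) i j
        rwa [← hi, ← hj] at h3
      exact (h2.mul_pow _).symm
    obtain ⟨M, hM, habM⟩ := (eq_top_or_exists_le_coatom _).resolve_left htop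
    obtain ⟨hMi, hMn⟩ := Cfsg.Agent.H2.index_eq_of_isCoatom (hG.1.to_subgroup D) hM
    have hcM : commutator D ≤ M := Cfsg.Agent.H2.commutator_le_of_index_prime hMi
    have hcard : Nat.card (M.map D.subtype) ≤ N := by
      rw [Subgroup.card_map_of_injective D.subtype_injective]
      have h3 := Subgroup.card_mul_index M
      rw [hMi] at h3
      have h4 : 0 < Nat.card M := Nat.card_pos
      have h5 := hpp.one_lt
      nlinarith
    have hDM : ⁅D, D⁆ ≤ M.map D.subtype := by
      have h1 : (commutator D).map D.subtype = ⁅D, D⁆ := by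
        rw [commutator_def, Subgroup.map_commutator, ← MonoidHom.range_eq_map, Subgroup.range_subtype]
      rw [← h1]
      exact Subgroup.map_mono hcM
    have ih' : ∀ x ∈ M.map D.subtype, ∀ y ∈ M.map D.subtype,
        ∃ e ∈ Subgroup.closure ({x, y} : Set G), x ^ p ^ n * y ^ p ^ n = e ^ p ^ n := by
      intro x hx y hy
      apply ih
      refine (Subgroup.card_le_of_le ?_).trans hcard
      rw [Subgroup.closure_le]
      rintro z (rfl | hz)
      · exact hx
      · rw [Set.mem_singleton_iff] at hz; rw [hz]; exact hy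
    obtain ⟨c, hc, hcab⟩ := hG.2 a b n
    have key : ∀ c ∈ Cfsg.powerClosure p n ⁅D, D⁆, ∃ d ∈ ⁅D, D⁆, c = d ^ p ^ n := by
      intro c hc
      unfold Cfsg.powerClosure at hc
      induction hc using Subgroup.closure_induction with
      | mem x hx => exact hx
      | one => exact ⟨1, one_mem _, by simp⟩
      | mul x y _ _ hx hy =>
        obtain ⟨a, ha, rfl⟩ := hx
        obtain ⟨b, hb, rfl⟩ := hy
        obtain ⟨e, he, h⟩ := ih' a (hDM ha) b (hDM hb)
        refine ⟨e, ?_, h⟩
        have : Subgroup.closure ({a, b} : Set G) ≤ ⁅D, D⁆ := by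
          rw [Subgroup.closure_le]
          rintro z (rfl | hz)
          · exact ha
          · rw [Set.mem_singleton_iff] at hz; rw [hz]; exact hb
        exact this he
      | inv x _ hx =>
        obtain ⟨a, ha, rfl⟩ := hx
        exact ⟨a⁻¹, inv_mem ha, by rw [inv_pow]⟩
    obtain ⟨d, hd, rfl⟩ := key c hc
    obtain ⟨e, he, he2⟩ := ih' (a * b) ⟨_, habM (Subgroup.mem_zpowers _), rfl⟩ d⁻¹ (inv_mem (hDM hd))
    refine ⟨e, ?_, ?_⟩
    · have : Subgroup.closure ({a * b, d⁻¹} : Set G) ≤ D := by
        rw [Subgroup.closure_le]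
        rintro z (rfl | hz)
        · exact mul_mem haD hbD
        · rw [Set.mem_singleton_iff] at hz; rw [hz]
          exact inv_mem (Subgroup.commutator_le_self D hd)
      exact this he
    · rw [← he2, hcab, inv_pow]; group

/-- In a regular p-group the p^n-th powers of the elements of any subgroup H form a subgroup, whose derived subgroup is contained in the subgroup generated by the p^n-th powers of elements of the derived subgroup of H. -/
theorem result {G : Type*} [Group G] [Finite G] {p : ℕ} [Fact p.Prime] (hG : Cfsg.IsRegularPGroup p G) (H : Subgroup G) (n : ℕ) : {y : G | ∃ x ∈ H, y = x ^ (p ^ n)} = (Cfsg.powerClosure p n H : Set G) ∧ ⁅Cfsg.powerClosure p n H, Cfsg.powerClosure p n H⁆ ≤ Cfsg.powerClosure p n ⁅H, H⁆ := by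
  have hmul : ∀ x ∈ H, ∀ y ∈ H, ∃ z ∈ H, x ^ p ^ n * y ^ p ^ n = z ^ p ^ n := by
    intro x hx y hy
    obtain ⟨e, he, h⟩ := pow_pow_mem hG n _ x y le_rfl
    refine ⟨e, ?_, h⟩
    have : Subgroup.closure ({x, y} : Set G) ≤ H := by
      rw [Subgroup.closure_le]
      rintro z (rfl | hz)
      · exact hx
      · rw [Set.mem_singleton_iff] at hz; rw [hz]; exact hy
    exact this he
  have h1 : {y : G | ∃ x ∈ H, y = x ^ (p ^ n)} = (Cfsg.powerClosure p n H : Set G) := by
    apply Set.Subset.antisymm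
    · exact Subgroup.subset_closure
    · intro y hy
      rw [SetLike.mem_coe] at hy
      unfold Cfsg.powerClosure at hy
      induction hy using Subgroup.closure_induction with
      | mem x hx => exact hx
      | one => exact ⟨1, one_mem _, by simp⟩
      | mul x y _ _ hx hy =>
        obtain ⟨a, ha, rfl⟩ := hx
        obtain ⟨b, hb, rfl⟩ := hy
        exact hmul a ha b hb
      | inv x _ hx =>
        obtain ⟨a, ha, rfl⟩ := hx
        exact ⟨a⁻¹, inv_mem ha, by rw [inv_pow]⟩
  refine ⟨h1, ?_⟩
  rw [Subgroup.commutator_le]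
  intro u hu y hy
  have hu' : u ∈ {y : G | ∃ x ∈ H, y = x ^ (p ^ n)} := by rw [h1]; exact hu
  obtain ⟨x, hx, rfl⟩ := hu'
  have hyH := Cfsg.Agent.H2.powerClosure_le hy
  obtain ⟨c, hc, h2⟩ := hG.2 x (y * x⁻¹ * y⁻¹) n
  have hle : Subgroup.closure ({x, y * x⁻¹ * y⁻¹} : Set G) ≤ H := by
    rw [Subgroup.closure_le]
    rintro z (rfl | hz)
    · exact hx
    · rw [Set.mem_singleton_iff] at hz; rw [hz]
      exact mul_mem (mul_mem hyH (inv_mem hx)) (inv_mem hyH)
  have hc' := Cfsg.Agent.H2.powerClosure_mono (Subgroup.commutator_mono hle hle) hc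
  have h3 : ⁅x ^ p ^ n, y⁆ = (x * (y * x⁻¹ * y⁻¹)) ^ p ^ n * c⁻¹ := by
    rw [h2, conj_pow, commutatorElement_def, inv_pow]; group
  rw [h3]
  refine mul_mem (Subgroup.subset_closure ⟨_, ?_, rfl⟩) (inv_mem hc')
  have h4 : x * (y * x⁻¹ * y⁻¹) = ⁅x, y⁆ := by rw [commutatorElement_def]; group
  rw [h4]
  exact Subgroup.commutator_mem_commutator hx hyH

end Cfsg.Agent.S0644
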