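import Cfsg.Statements.S0643
import Cfsg.Agent.S0644
import Cfsg.Agent.H23.Coprime2

set_option autoImplicit false
open Cfsg

namespace Cfsg.Agent.S0643

open scoped commutatorElement
open Cfsg.Agent.H2 (powerClosure_le powerClosure_mono le_normalizer_powerClosure comm_mul_left_mem comm_inv_left_mem)

def Law {G : Type*} [Group G] (p : ℕ) : Prop := ∀ a b : G,
  ∃ c ∈ ⁅Subgroup.closure ({a, b} : Set G), Subgroup.closure ({a, b} : Set G)⁆,
    (a * b) ^ p = a ^ p * b ^ p * c ^ p

def PN {G : Type*} [Group G] (p n : ℕ) : Prop := ∀ a b : G,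
  ∃ c ∈ Cfsg.powerClosure p n ⁅Subgroup.closure ({a, b} : Set G), Subgroup.closure ({a, b} : Set G)⁆,
    (a * b) ^ p ^ n = a ^ p ^ n * b ^ p ^ n * c

theorem cl_le {G : Type*} [Group G] {a b : G} {K : Subgroup G} (ha : a ∈ K) (hb : b ∈ K) :
    Subgroup.closure ({a, b} : Set G) ≤ K := by
  rw [Subgroup.closure_le]
  rintro z (rfl | hz)
  · exact ha
  · rw [Set.mem_singleton_iff] at hz; rw [hz]; exact hb

theorem comm_pow {G : Type*} [Group G] {p n : ℕ} (h : PN (G := G) p n) (K : Subgroup G) :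
    ⁅Cfsg.powerClosure p n K, K⁆ ≤ Cfsg.powerClosure p n ⁅K, K⁆ := by
  have hN : K ≤ Subgroup.normalizer ((Cfsg.powerClosure p n ⁅K, K⁆ : Subgroup G) : Set G) := by
    apply le_normalizer_powerClosure
    exact Subgroup.normalizer_commutator_ge_left _ _
  rw [Subgroup.commutator_le]
  intro u hu y hy
  have hle : Cfsg.powerClosure p n K ≤ K := powerClosure_le
  unfold Cfsg.powerClosure at hu
  induction hu using Subgroup.closure_induction with
  | mem u hu =>
    obtain ⟨x, hx, rfl⟩ := hu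
    obtain ⟨c, hc, h2⟩ := h x (y * x⁻¹ * y⁻¹)
    have hle : Subgroup.closure ({x, y * x⁻¹ * y⁻¹} : Set G) ≤ K :=
      cl_le hx (mul_mem (mul_mem hy (inv_mem hx)) (inv_mem hy))
    have hc' := powerClosure_mono (Subgroup.commutator_mono hle hle) hc
    have h3 : ⁅x ^ p ^ n, y⁆ = (x * (y * x⁻¹ * y⁻¹)) ^ p ^ n * c⁻¹ := by
      rw [h2, conj_pow, commutatorElement_def, inv_pow]; group
    rw [h3]
    refine mul_mem (Subgroup.subset_closure ⟨_, ?_, rfl⟩) (inv_mem hc')
    have h4 : x * (y * x⁻¹ * y⁻¹) = ⁅x, y⁆ := by rw [commutatorElement_def]; group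
    rw [h4]
    exact Subgroup.commutator_mem_commutator hx hy
  | one => rw [commutatorElement_one_left]; exact one_mem _
  | mul a b ha hb iha ihb => exact comm_mul_left_mem (hN (hle ha)) iha ihb
  | inv a ha iha => exact comm_inv_left_mem (hN (hle ha)) iha

theorem pow_up {G : Type*} [Group G] [Finite G] {p n : ℕ} [Fact p.Prime] (hG : IsPGroup p G)
    (hL : Law (G := G) p) (h : PN (G := G) p n) (N : ℕ) :
    ∀ K : Subgroup G, Nat.card K ≤ N → ∀ w ∈ Cfsg.powerClosure p n K,
      w ^ p ∈ Cfsg.powerClosure p (n + 1) K := by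
  induction N with
  | zero =>
    intro K hK
    have : 0 < Nat.card K := Nat.card_pos
    omega
  | succ N ih =>
    intro K hK w hw
    by_cases hKb : K = ⊥
    · subst hKb
      have : w = 1 := by simpa using powerClosure_le hw
      rw [this, one_pow]; exact one_mem _
    have hlt : ⁅K, K⁆ < K :=
      H23.commutator_lt_of_isPGroup (hG.to_subgroup K) (hG.to_subgroup K) Subgroup.le_normalizer hKb
    have hcard : Nat.card ↥⁅K, K⁆ ≤ N := by
      have h1 : Nat.card ↥⁅K, K⁆ < Nat.card K := Set.Finite.card_lt_card (Set.toFinite _) hlt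
      omega
    have hmem : ∀ w ∈ Cfsg.powerClosure p n K, w ∈ Cfsg.powerClosure p n K := fun _ h => h
    have hw0 := hw
    unfold Cfsg.powerClosure at hw
    induction hw using Subgroup.closure_induction with
    | mem x hx =>
      obtain ⟨y, hy, rfl⟩ := hx
      refine Subgroup.subset_closure ⟨y, hy, ?_⟩
      rw [← pow_mul, pow_succ]
    | one => rw [one_pow]; exact one_mem _
    | mul u v hu hv ihu ihv =>
      obtain ⟨d, hd, he⟩ := hL u v
      rw [he]
      refine mul_mem (mul_mem (ihu hu) (ihv hv)) ?_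
      have hu' : u ∈ Cfsg.powerClosure p n K := hu
      have hv' : v ∈ Cfsg.powerClosure p n K := hv
      have hd1 : d ∈ Cfsg.powerClosure p n ⁅K, K⁆ := by
        have h1 := Subgroup.commutator_mono (cl_le hu' hv') (cl_le hu' hv') hd
        exact comm_pow h K (Subgroup.commutator_mono le_rfl powerClosure_le h1)
      exact powerClosure_mono (Subgroup.commutator_le_self K) (ih _ hcard d hd1)
    | inv x hx ihx => rw [inv_pow]; exact inv_mem (ihx hx)

theorem pn_all {G : Type*} [Group G] [Finite G] {p : ℕ} [Fact p.Prime] (hG : IsPGroup p G)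
    (hL : Law (G := G) p) (n : ℕ) : PN (G := G) p n := by
  induction n with
  | zero =>
    intro a b
    exact ⟨1, one_mem _, by simp⟩
  | succ n ih =>
    intro a b
    obtain ⟨c, hc, h1⟩ := ih a b
    set D := Subgroup.closure ({a, b} : Set G) with hD
    have haD : a ∈ D := Subgroup.subset_closure (by simp)
    have hbD : b ∈ D := Subgroup.subset_closure (by simp)
    obtain ⟨w1, hw1, e1⟩ := hL (a ^ p ^ n * b ^ p ^ n) c
    obtain ⟨w2, hw2, e2⟩ := hL (a ^ p ^ n) (b ^ p ^ n)
    have ha' : a ^ p ^ n ∈ Cfsg.powerClosure p n D := Subgroup.subset_closure ⟨a, haD, rfl⟩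
    have hb' : b ^ p ^ n ∈ Cfsg.powerClosure p n D := Subgroup.subset_closure ⟨b, hbD, rfl⟩
    have hc' : c ∈ Cfsg.powerClosure p n D := powerClosure_mono (Subgroup.commutator_le_self D) hc
    have key : ⁅Cfsg.powerClosure p n D, Cfsg.powerClosure p n D⁆ ≤ Cfsg.powerClosure p n ⁅D, D⁆ :=
      (Subgroup.commutator_mono le_rfl powerClosure_le).trans (comm_pow ih D)
    have h2 := pow_up hG hL ih _ ⁅D, D⁆ le_rfl
    have hw1' := h2 w1 (key (Subgroup.commutator_mono (cl_le (mul_mem ha' hb') hc')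
      (cl_le (mul_mem ha' hb') hc') hw1))
    have hw2' := h2 w2 (key (Subgroup.commutator_mono (cl_le ha' hb') (cl_le ha' hb') hw2))
    have hcp := h2 c hc
    refine ⟨w2 ^ p * c ^ p * w1 ^ p, mul_mem (mul_mem hw2' hcp) hw1', ?_⟩
    rw [pow_succ, pow_mul, h1, e1, e2, pow_mul, pow_mul]
    simp only [mul_assoc]

/-- Kemhadze's criterion: a finite p-group is regular exactly when (ab)^p = a^p b^p c^p always holds for some c in the derived subgroup of the subgroup generated by a and b. -/
theorem result {G : Type*} [Group G] [Finite G] {p : ℕ} [Fact p.Prime] (hG : IsPGroup p G) : Cfsg.IsRegularPGroup p G ↔ ∀ a b : G, ∃ c ∈ ⁅Subgroup.closure ({a, b} : Set G), Subgroup.closure ({a, b} : Set G)⁆, (a * b) ^ p = a ^ p * b ^ p * c ^ p := by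
  constructor
  · intro h a b
    obtain ⟨c, hc, h1⟩ := h.2 a b 1
    have h2 : c ∈ (Cfsg.powerClosure p 1 ⁅Subgroup.closure ({a, b} : Set G), Subgroup.closure ({a, b} : Set G)⁆ : Set G) := hc
    rw [← (S0644.result h _ 1).1] at h2
    obtain ⟨x, hx, rfl⟩ := h2
    refine ⟨x, hx, ?_⟩
    simpa using h1
  · intro h
    exact ⟨hG, fun a b n => pn_all hG h n a b⟩

end Cfsg.Agent.S0643
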