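import Cfsg.Statements.S0646
import Mathlib
import Cfsg.Agent.H22.OddPG1
import Cfsg.Agent.H2.Frat

set_option autoImplicit false
set_option linter.all false
open Cfsg

namespace Cfsg.Agent.S0646

open scoped commutatorElement

theorem int_aux2 {m : ℕ} (hm : 2 ≤ m) {r : ℤ} (h : ((2 : ℤ) ^ m) ∣ r ^ 2 - 1) :
    (r % 4 = 1 ∧ (2 : ℤ) ^ (m - 1) ∣ r - 1) ∨ (r % 4 = 3 ∧ (2 : ℤ) ^ (m - 1) ∣ r + 1) := by
  have h4 : (4 : ℤ) ∣ r ^ 2 - 1 := by
    refine dvd_trans ?_ h
    have : (4 : ℤ) = 2 ^ 2 := by norm_num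
    rw [this]; exact pow_dvd_pow 2 hm
  have hodd : r % 2 = 1 := by
    rcases Int.emod_two_eq_zero_or_one r with h0 | h0
    · exfalso
      obtain ⟨k, hk⟩ := Int.dvd_of_emod_eq_zero h0
      rw [hk] at h4
      have : (4 : ℤ) ∣ 1 := by
        have h5 : (4 : ℤ) ∣ (2 * k) ^ 2 := ⟨k ^ 2, by ring⟩
        have := dvd_sub h5 h4
        simpa using this
      norm_num at this
    · exact h0
  obtain ⟨j, rfl⟩ := Nat.exists_eq_add_of_le' (show 1 ≤ m by omega)
  rw [Nat.add_sub_cancel]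
  have hfac : r ^ 2 - 1 = (r - 1) * (r + 1) := by ring
  rw [hfac] at h
  have : r % 4 = 1 ∨ r % 4 = 3 := by omega
  rcases this with h1 | h1
  · left
    refine ⟨h1, ?_⟩
    obtain ⟨u, hu⟩ : ∃ u, r + 1 = 2 * (2 * u + 1) := ⟨r / 4, by omega⟩
    rw [hu] at h
    have h2 : (2 : ℤ) ^ j * 2 ∣ ((r - 1) * (2 * u + 1)) * 2 := by
      rw [← pow_succ]; refine h.trans (dvd_of_eq (by ring))
    have h3 := Int.dvd_of_mul_dvd_mul_right (by norm_num : (2:ℤ) ≠ 0) h2
    have h4 : IsCoprime ((2 : ℤ) ^ j) (2 * u + 1) := by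
      apply IsCoprime.pow_left
      exact ⟨-u, 1, by ring⟩
    exact h4.dvd_of_dvd_mul_right h3
  · right
    refine ⟨h1, ?_⟩
    obtain ⟨u, hu⟩ : ∃ u, r - 1 = 2 * (2 * u + 1) := ⟨r / 4, by omega⟩
    rw [hu] at h
    have h2 : (2 : ℤ) ^ j * 2 ∣ ((r + 1) * (2 * u + 1)) * 2 := by
      rw [← pow_succ]; refine h.trans (dvd_of_eq (by ring))
    have h3 := Int.dvd_of_mul_dvd_mul_right (by norm_num : (2:ℤ) ≠ 0) h2
    have h4 : IsCoprime ((2 : ℤ) ^ j) (2 * u + 1) := by
      apply IsCoprime.pow_left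
      exact ⟨-u, 1, by ring⟩
    exact h4.dvd_of_dvd_mul_right h3

/-- Classification of non-abelian 2-groups with a cyclic maximal subgroup: dihedral, generalized quaternion, and for order at least 16 the modular group and the semidihedral group, each given by generators a (of index 2) and b with the stated relations. -/
theorem result {G : Type*} [Group G] [Finite G] (n : ℕ) (hn : 3 ≤ n) (hG : Nat.card G = 2 ^ n) (C : Subgroup G) (hC : IsCyclic C) (hCi : C.index = 2) (hna : ∃ x y : G, x * y ≠ y * x) : ∃ a b : G, orderOf a = 2 ^ (n - 1) ∧ b ∉ Subgroup.zpowers a ∧ ((b ^ 2 = 1 ∧ b * a * b⁻¹ = a⁻¹) ∨ (b ^ 2 = a ^ (2 ^ (n - 2)) ∧ b * a * b⁻¹ = a⁻¹) ∨ (4 ≤ n ∧ b ^ 2 = 1 ∧ b * a * b⁻¹ = a ^ (1 + 2 ^ (n - 2))) ∨ (4 ≤ n ∧ b ^ 2 = 1 ∧ b * a * b⁻¹ = a ^ (2 ^ (n - 2) - 1))) := by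
  classical
  haveI : Fact (Nat.Prime 2) := ⟨Nat.prime_two⟩
  have hpp : (2:ℕ).Prime := Nat.prime_two
  have hpg : IsPGroup 2 G := IsPGroup.of_card hG
  haveI hCn : C.Normal := Cfsg.Agent.H23.normal_of_index_prime hpg hCi
  obtain ⟨c, hc⟩ := hC.exists_generator
  obtain ⟨c, hcC⟩ := c
  have hCc : C = Subgroup.zpowers c := by
    apply le_antisymm
    · intro x hx
      obtain ⟨k, hk⟩ := hc ⟨x, hx⟩
      exact ⟨k, congrArg Subtype.val hk⟩
    · rw [Subgroup.zpowers_le]; exact hcC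
  clear hc
  obtain ⟨m, rfl⟩ : ∃ m, n = m + 1 := ⟨n - 1, by omega⟩
  have hm : 2 ≤ m := by omega
  have hord : orderOf c = 2 ^ m := by
    have h1 := Subgroup.card_mul_index C
    rw [hCi, hG, pow_succ] at h1
    have h2 := Nat.eq_of_mul_eq_mul_right hpp.pos h1
    rw [← Nat.card_zpowers, ← hCc, h2]
  obtain ⟨b, hb⟩ : ∃ b, b ∉ C := by
    by_contra hcon
    push Not at hcon
    have : C = ⊤ := by rw [eq_top_iff]; exact fun x _ => hcon x
    rw [this, Subgroup.index_top] at hCi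
    exact hpp.one_lt.ne hCi
  -- elements outside C do not commute with c
  have hcen : ∀ b, b ∉ C → b * c ≠ c * b := by
    intro b hb hbc
    obtain ⟨x, y, hxy⟩ := hna
    have h1 : C < Subgroup.centralizer {c} := by
      refine lt_of_le_of_ne ?_ ?_
      · rw [hCc, Subgroup.zpowers_le, Subgroup.mem_centralizer_singleton_iff]
      · intro h
        apply hb
        rw [h, Subgroup.mem_centralizer_singleton_iff]
        exact hbc
    have h2 := Cfsg.Agent.H23.eq_top_of_lt_of_index_prime hCi h1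
    have h3 : ∀ g, Commute g c := fun g => by
      have : g ∈ Subgroup.centralizer {c} := by rw [h2]; exact Subgroup.mem_top _
      exact Subgroup.mem_centralizer_singleton_iff.1 this
    have h4 : C < Subgroup.centralizer {b} := by
      refine lt_of_le_of_ne ?_ ?_
      · rw [hCc, Subgroup.zpowers_le, Subgroup.mem_centralizer_singleton_iff]
        exact hbc.symm
      · intro h
        apply hb
        rw [h, Subgroup.mem_centralizer_singleton_iff]
    have h5 := Cfsg.Agent.H23.eq_top_of_lt_of_index_prime hCi h4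
    have h6 : C < Subgroup.center G := by
      refine lt_of_le_of_ne ?_ ?_
      · rw [hCc, Subgroup.zpowers_le, Subgroup.mem_center_iff]
        exact fun g => h3 g
      · intro h
        apply hb
        rw [h, Subgroup.mem_center_iff]
        intro g
        have : g ∈ Subgroup.centralizer {b} := by rw [h5]; exact Subgroup.mem_top _
        exact Subgroup.mem_centralizer_singleton_iff.1 this
    have h7 := Cfsg.Agent.H23.eq_top_of_lt_of_index_prime hCi h6
    apply hxy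
    have : x ∈ Subgroup.center G := by rw [h7]; exact Subgroup.mem_top _
    exact (Subgroup.mem_center_iff.1 this y).symm
  obtain ⟨r, hr⟩ : ∃ r : ℤ, b * c * b⁻¹ = c ^ r := by
    have : b * c * b⁻¹ ∈ C := hCn.conj_mem c hcC b
    rw [hCc] at this
    obtain ⟨r, hr⟩ := this
    exact ⟨r, hr.symm⟩

  have hb2C : b ^ 2 ∈ C := Cfsg.Agent.H2.pow_mem_of_index hCi b
  have hCcomm : ∀ x ∈ C, x * c = c * x := by
    intro x hx
    rw [hCc] at hx
    obtain ⟨k, rfl⟩ := hx
    exact (Commute.refl c).zpow_left k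
  have hcm : c ^ 2 ^ m = 1 := by rw [← hord, pow_orderOf_eq_one]
  have hrp : ((2 : ℤ) ^ m) ∣ r ^ 2 - 1 := by
    have h1 : (((orderOf c : ℕ)) : ℤ) ∣ r ^ 2 - 1 := by
      rw [orderOf_dvd_sub_iff_zpow_eq_zpow, zpow_one]
      have h2 : b ^ 2 * c * (b ^ 2)⁻¹ = c ^ (r ^ 2) := by
        have h1 : b ^ 2 * c * (b ^ 2)⁻¹ = b * (b * c * b⁻¹) * b⁻¹ := by rw [pow_two]; group
        rw [h1, hr, ← conj_zpow, hr, ← zpow_mul, pow_two]
      rw [← h2, hCcomm _ hb2C]; group
    rw [hord] at h1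
    exact_mod_cast h1
  set z := c ^ (2 ^ (m - 1)) with hz
  have hz2 : z ^ 2 = 1 := by
    rw [hz, ← pow_mul, ← pow_succ, Nat.sub_add_cancel (by omega), hcm]
  have hzc : Commute z c := (Commute.refl c).pow_left _
  have hz1 : z ≠ 1 := by
    intro h
    have h1 := orderOf_dvd_of_pow_eq_one h
    rw [hord] at h1
    have := (Nat.pow_dvd_pow_iff_le_right (by norm_num)).1 h1
    omega
  have hzk : ∀ k : ℤ, z ^ k = 1 ∨ z ^ k = z := by
    intro k
    rcases Int.even_or_odd' k with ⟨l, rfl | rfl⟩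
    · left; rw [zpow_mul]; simp [hz2]
    · right; rw [zpow_add, zpow_mul]; simp [hz2]
  have hr1 : ∀ k : ℤ, z ^ k * c = c → b * c * b⁻¹ = z ^ k * c → False := by
    intro k h1 h2
    rw [h1] at h2
    exact hcen b hb (by rw [← mul_inv_eq_iff_eq_mul]; exact h2)
  have hb2C' := hb2C
  rw [hCc] at hb2C'
  obtain ⟨s, hs⟩ := hb2C'
  have hs : b ^ 2 = c ^ s := hs.symm
  have hsb : b * c ^ s * b⁻¹ = c ^ s := by rw [← hs, pow_two]; group
  have hse : (2 : ℤ) ∣ s := by
    by_contra hps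
    have h1 : IsCoprime ((2 : ℤ) ^ m) s :=
      ((Int.prime_two).coprime_iff_not_dvd.2 hps).pow_left
    obtain ⟨u, v, huv⟩ := h1
    have h2 : c = (b ^ 2) ^ v := by
      have h3 : c ^ ((2 : ℤ) ^ m) = 1 := by
        have : ((2 : ℤ) ^ m) = ((2 ^ m : ℕ) : ℤ) := by push_cast; rfl
        rw [this, zpow_natCast, hcm]
      calc c = c ^ (u * (2 : ℤ) ^ m + v * s) := by rw [huv, zpow_one]
        _ = _ := by rw [zpow_add, mul_comm u, zpow_mul, h3, one_zpow, one_mul, mul_comm, zpow_mul, hs]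
    have h4 : Commute b c := by
      rw [h2]; exact ((Commute.refl b).pow_right 2).zpow_right v
    exact hcen b hb h4.eq
  have hzpow : ∀ k : ℤ, c ^ ((2 : ℤ) ^ (m - 1) * k) = z ^ k := by
    intro k
    rw [zpow_mul]
    congr 1
    have : ((2 : ℤ) ^ (m-1)) = ((2 ^ (m-1) : ℕ) : ℤ) := by push_cast; rfl
    rw [this, zpow_natCast]
  have hzodd : ∀ k : ℤ, z ^ (2 * k + 1) = z := fun k => by
    rw [zpow_add, zpow_mul]; simp [hz2]
  have hzeven : ∀ k : ℤ, z ^ (2 * k) = 1 := fun k => by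
    rw [zpow_mul]; simp [hz2]
  rcases int_aux2 hm hrp with ⟨hr4, k, hk⟩ | ⟨hr4, k, hk⟩
  · -- r = 1 + 2^(m-1) k
    have hbc : b * c * b⁻¹ = z ^ k * c := by
      have : r = (2 : ℤ) ^ (m - 1) * k + 1 := by linarith
      rw [hr, this, zpow_add, zpow_one, hzpow]
    have hzk' : z ^ k = z := by
      rcases hzk k with h | h
      · exact absurd hbc (fun h2 => hr1 k (by rw [h, one_mul]) h2)
      · exact h
    rw [hzk'] at hbc
    have hm3 : 3 ≤ m := by
      by_contra hlt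
      have hm2 : m = 2 := by omega
      subst hm2
      have h1 : r = 4 * (r / 4) + 1 := by omega
      rw [h1, zpow_add, zpow_one, zpow_mul] at hr
      have h2 : c ^ (4 : ℤ) = 1 := by
        have : c ^ (4:ℤ) = c ^ (2 ^ 2) := by norm_cast
        rw [this, hcm]
      rw [h2, one_zpow, one_mul] at hr
      exact hcen b hb (by rw [← mul_inv_eq_iff_eq_mul]; exact hr)
    have hbz : b * z * b⁻¹ = z := by
      obtain ⟨j, hj⟩ := Nat.exists_eq_add_of_le' (show 1 ≤ m - 1 by omega)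
      rw [hz, ← conj_pow, hbc, hzc.mul_pow, ← hz]
      have : z ^ 2 ^ (m - 1) = 1 := by rw [hj, pow_succ', pow_mul, hz2, one_pow]
      rw [this, one_mul]
    obtain ⟨t, ht⟩ := hse
    -- (c^j b)^2 = z^j c^(2j+2t)
    have hsq : ∀ j : ℤ, (c ^ j * b) ^ 2 = z ^ j * c ^ (2 * j + 2 * t) := by
      intro j
      have h1 : (c ^ j * b) ^ 2 = c ^ j * (b * c ^ j * b⁻¹) * b ^ 2 := by rw [pow_two, pow_two]; group
      rw [h1, ← conj_zpow, hbc, hzc.mul_zpow, hs, ht, ← mul_assoc, ← (hzc.zpow_zpow j j).eq, mul_assoc,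
        mul_assoc, ← zpow_add, ← zpow_add]
      congr 2; ring
    have hact : ∀ j : ℤ, (c ^ j * b) * c * (c ^ j * b)⁻¹ = c ^ (1 + 2 ^ (m - 1)) := by
      intro j
      have h2 : (c ^ j * b) * c * (c ^ j * b)⁻¹ = c ^ j * (b * c * b⁻¹) * (c ^ j)⁻¹ := by group
      rw [h2, hbc, ← ((hzc.zpow_right j).mul_left ((Commute.refl c).zpow_right j)).eq, mul_inv_cancel_right,
        hz, ← pow_succ, add_comm]
    have hout : ∀ j : ℤ, c ^ j * b ∉ Subgroup.zpowers c := by
      intro j hj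
      rw [← hCc] at hj
      exact hb ((Subgroup.mul_mem_cancel_left C (zpow_mem hcC j)).1 hj)
    obtain ⟨j, hj⟩ : ∃ j : ℤ, (c ^ j * b) ^ 2 = 1 := by
      rcases Int.even_or_odd' t with ⟨l, hl | hl⟩
      · refine ⟨-t, ?_⟩
        rw [hsq, show 2 * -t + 2 * t = 0 by ring, zpow_zero, mul_one, hl,
          show -(2 * l) = 2 * (-l) by ring, hzeven]
      · refine ⟨-t + 2 ^ (m - 2), ?_⟩
        rw [hsq, show 2 * (-t + 2 ^ (m - 2)) + 2 * t = (2:ℤ) ^ (m - 1) * 1 by
          rw [show m - 1 = (m - 2) + 1 by omega, pow_succ]; ring, hzpow, ← zpow_add]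
        obtain ⟨i, hi⟩ := Nat.exists_eq_add_of_le' (show 1 ≤ m - 2 by omega)
        rw [hi, pow_succ, hl, show -(2 * l + 1) + (2:ℤ) ^ i * 2 + 1 = 2 * (-l + 2 ^ i) by ring, hzeven]
    refine ⟨c, c ^ j * b, by rw [hord, Nat.add_sub_cancel], hout j, Or.inr (Or.inr (Or.inl ⟨by omega, hj, ?_⟩))⟩
    rw [hact, show m + 1 - 2 = m - 1 by omega]
  · -- r = -1 + 2^(m-1) k
    have hbc : b * c * b⁻¹ = z ^ k * c⁻¹ := by
      have : r = (2 : ℤ) ^ (m - 1) * k + (-1) := by linarith
      rw [hr, this, zpow_add, hzpow, zpow_neg_one]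
    rcases hzk k with hzk' | hzk'
    · rw [hzk', one_mul] at hbc
      rw [← conj_zpow, hbc] at hsb
      have h1 : c ^ (2 * s) = 1 := by
        rw [inv_zpow] at hsb
        rw [two_mul, zpow_add]
        nth_rw 1 [← hsb]
        rw [inv_mul_cancel]
      have h2 : (2 : ℤ) ^ (m - 1) ∣ s := by
        rw [← orderOf_dvd_iff_zpow_eq_one, hord] at h1
        have h3 : (2 : ℤ) ^ (m - 1) * 2 ∣ s * 2 := by
          rw [← pow_succ, Nat.sub_add_cancel (by omega), mul_comm s]
          exact_mod_cast h1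
        exact Int.dvd_of_mul_dvd_mul_right (by norm_num) h3
      obtain ⟨l, hl⟩ := h2
      rw [hl, hzpow] at hs
      refine ⟨c, b, by rw [hord, Nat.add_sub_cancel], by rw [← hCc]; exact hb, ?_⟩
      rw [show m + 1 - 2 = m - 1 by omega]
      rcases hzk l with h3 | h3
      · left; exact ⟨by rw [hs, h3], hbc⟩
      · right; left; exact ⟨by rw [hs, h3], hbc⟩
    · rw [hzk'] at hbc
      have hm3 : 3 ≤ m := by
        by_contra hlt
        have hm2 : m = 2 := by omega
        subst hm2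
        have h3 : z = c ^ 2 := by rw [hz]; norm_num
        apply hcen b hb
        rw [← mul_inv_eq_iff_eq_mul, hbc, h3]; group
      have hzc' : Commute z c⁻¹ := hzc.inv_right
      have hs2 : c ^ (2 * s) = z ^ s := by
        rw [← conj_zpow, hbc, hzc'.mul_zpow, inv_zpow] at hsb
        rw [two_mul, zpow_add]
        nth_rw 1 [← hsb]
        group
      obtain ⟨t, ht⟩ := hse
      have hzs : z ^ s = 1 := by rw [ht, hzeven]
      have h2 : (2 : ℤ) ^ (m - 1) ∣ s := by
        rw [hzs, ← orderOf_dvd_iff_zpow_eq_one, hord] at hs2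
        have h3 : (2 : ℤ) ^ (m - 1) * 2 ∣ s * 2 := by
          rw [← pow_succ, Nat.sub_add_cancel (by omega), mul_comm s]
          exact_mod_cast hs2
        exact Int.dvd_of_mul_dvd_mul_right (by norm_num) h3
      obtain ⟨l, hl⟩ := h2
      rw [hl, hzpow] at hs
      have hfin : z * c⁻¹ = c ^ (2 ^ (m - 1) - 1) := by
        rw [hz, mul_inv_eq_iff_eq_mul, ← pow_succ, Nat.sub_add_cancel Nat.one_le_two_pow]
      rcases hzk l with h3 | h3
      · refine ⟨c, b, by rw [hord, Nat.add_sub_cancel], by rw [← hCc]; exact hb, ?_⟩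
        rw [show m + 1 - 2 = m - 1 by omega]
        exact Or.inr (Or.inr (Or.inr ⟨by omega, by rw [hs, h3], by rw [hbc, hfin]⟩))
      · refine ⟨c, c * b, by rw [hord, Nat.add_sub_cancel], ?_, ?_⟩
        · rw [← hCc]
          intro hj
          exact hb ((Subgroup.mul_mem_cancel_left C hcC).1 hj)
        rw [show m + 1 - 2 = m - 1 by omega]
        refine Or.inr (Or.inr (Or.inr ⟨by omega, ?_, ?_⟩))
        · have h1 : (c * b) ^ 2 = c * (b * c * b⁻¹) * b ^ 2 := by rw [pow_two, pow_two]; group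
          rw [h1, hbc, hs, h3, hzc'.eq]
          have : c * (c⁻¹ * z) * z = z ^ 2 := by rw [pow_two]; group
          rw [this, hz2]
        · have h1 : c * b * c * (c * b)⁻¹ = c * (b * c * b⁻¹) * c⁻¹ := by group
          rw [h1, hbc, ← hfin, ← mul_assoc, ← hzc.eq]; group

end Cfsg.Agent.S0646
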