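import Cfsg.Statements.S0657
import Cfsg.Agent.H2.StabSec

set_option autoImplicit false
set_option linter.style.haveILetI false
set_option linter.unusedVariables false
set_option linter.unusedSectionVars false
open Cfsg

namespace Cfsg.Agent.S0657

/-- For odd p, a group that fails to be p-stable modulo its largest normal subgroup of order prime to p, and whose upper p-series does not stop there, has a section isomorphic to SL(2, p). -/
theorem result {G : Type*} [Group G] [Finite G] {p : ℕ} [Fact p.Prime] (hp : p ≠ 2) (hO : Cfsg.pPrimeCore p G < Cfsg.pPrimePCore p G) (hns : ¬ Cfsg.IsPStable p (G ⧸ Cfsg.pPrimeCore p G)) : ∃ (K L : Subgroup G) (hL : (L.subgroupOf K).Normal), K ≤ ⊤ ∧ Nonempty ((K ⧸ L.subgroupOf K) ≃* Matrix.SpecialLinearGroup (Fin 2) (ZMod p)) := by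
  by_contra hno
  apply hns
  have hsec : ¬ H2.HasSec G (Matrix.SpecialLinearGroup (Fin 2) (ZMod p)) := by
    rintro ⟨K, L, hL, h⟩
    exact hno ⟨K, L, hL, le_top, h⟩
  apply H2.isPStable_of_not_SLConcl hp
  · intro h
    apply hO.ne
    unfold Cfsg.pPrimePCore
    rw [h, MonoidHom.comap_bot, QuotientGroup.ker_mk']
  · intro H hH
    exact hsec ((H2.HasSec.of_subgroup hH.hasSec).of_surjective
      (QuotientGroup.mk'_surjective (Cfsg.pPrimeCore p G)))

end Cfsg.Agent.S0657
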