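import Cfsg.Statements.S0658
import Cfsg.Agent.H2.LocCtrl

set_option autoImplicit false
set_option linter.style.haveILetI false
set_option linter.unusedVariables false
set_option linter.unusedSectionVars false
open Cfsg

namespace Cfsg.Agent.S0658

/-- In a group of characteristic p type all of whose p-locals are p-stable (p odd), the normalizer of Z(J(P)) contains the normalizer of every nontrivial subgroup of the Sylow p-subgroup P. -/
theorem result {G : Type*} [Group G] [Finite G] {p : ℕ} [Fact p.Prime] (hp : p ≠ 2) (hloc : ∀ Q : Subgroup G, IsPGroup p Q → Q ≠ ⊥ → Cfsg.pPrimeCore p ↥(Subgroup.normalizer (Q : Set G)) = ⊥ ∧ Cfsg.IsPConstrained p ↥(Subgroup.normalizer (Q : Set G)) ∧ Cfsg.IsPStable p ↥(Subgroup.normalizer (Q : Set G))) (P : Sylow p G) (Q : Subgroup G) (hQP : Q ≤ (P : Subgroup G)) (hQ1 : Q ≠ ⊥) : Subgroup.normalizer (Q : Set G) ≤ Subgroup.normalizer (Cfsg.centerThompsonAOf ((P : Subgroup G)) : Set G) := by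
  rw [H2.centerThompsonAOf_eq]
  refine H2.control_of_local (p := p) (fun U => H2.Zf (fun U A => H2.AbIn U A) U)
    (fun U => (H2.abFam hp).Zf_le U) (fun U g => (H2.abFam hp).Zf_equiv (MulAut.conj g) U)
    (fun U hU h1 => H2.Zf_abIn_ne_bot hU h1) ?_ P _ Q hQP hQ1 rfl
  intro R S hR hR1 hS hSN hidx
  obtain ⟨h1, h2, h3⟩ := hloc R hR hR1
  exact H2.normalizes_ZJ_of_local hp h1 h2 h3 hSN hS hidx

end Cfsg.Agent.S0658
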