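import Cfsg.Statements.S0662
import Cfsg.Agent.S0063
import Cfsg.Agent.H23.Coprime2
import Cfsg.Agent.H2.Frat

set_option autoImplicit false
set_option linter.style.haveILetI false
set_option linter.unusedVariables false
set_option linter.unusedSectionVars false
open Cfsg

namespace Cfsg.Agent.S0662

open Subgroup
open scoped commutatorElement

variable {G : Type*} [Group G] [Finite G] {p : ℕ} [hp : Fact p.Prime]

theorem strict (hG : IsPGroup p G) (k : ℕ) (h : (⊤ : Subgroup G).lowerCentralSeries k ≠ ⊥) :
    (⊤ : Subgroup G).lowerCentralSeries (k + 1) < (⊤ : Subgroup G).lowerCentralSeries k := by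
  rw [Subgroup.lowerCentralSeries_succ]
  refine H23.commutator_lt_of_isPGroup (hG.to_subgroup _) (hG.to_subgroup ⊤) ?_ h
  haveI : ((⊤ : Subgroup G).lowerCentralSeries k).Normal := inferInstance
  rw [normalizer_eq_top]

theorem not_cyc (hG : IsPGroup p G) {n : ℕ} (hcl : Group.nilpotencyClass G = n - 1) (hn : 3 ≤ n) :
    commutator G ≠ ⊥ := by
  haveI : Group.IsNilpotent G := hG.isNilpotent
  intro h
  have h1 : (⊤ : Subgroup G).lowerCentralSeries 1 = ⊥ := by
    rw [Subgroup.top_lowerCentralSeries_one, h]
  rw [Subgroup.lowerCentralSeries_eq_bot_iff_nilpotencyClass_le] at h1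
  omega

theorem zp_ne_top (hG : IsPGroup p G) (hc : commutator G ≠ ⊥) (x : G) : zpowers x ⊔ commutator G ≠ ⊤ := by
  intro h
  have h1 : zpowers x = ⊤ := by
    apply H23.eq_top_of_sup_frattini
    rw [eq_top_iff, ← h]
    exact sup_le_sup_left (H2.commutator_le_frattini hG) _
  apply hc
  rw [_root_.commutator_def, Subgroup.commutator_eq_bot_iff_le_centralizer, ← h1]
  intro a ha
  rw [mem_centralizer_iff]
  intro b hb
  obtain ⟨i, rfl⟩ := mem_zpowers_iff.1 ha
  obtain ⟨j, rfl⟩ := mem_zpowers_iff.1 hb
  exact zpow_mul_comm x j i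

/-- In a p-group of maximal class of order at least p³ the normal subgroups of index at least p² are exactly the terms of the lower central series, and there are exactly p + 1 normal subgroups of index p. -/
theorem result {G : Type*} [Group G] [Finite G] {p : ℕ} [Fact p.Prime] (n : ℕ) (hG : Nat.card G = p ^ n) (hcl : Group.nilpotencyClass G = n - 1) (hn : 3 ≤ n) : (∀ (N : Subgroup G) [N.Normal] (r : ℕ), 2 ≤ r → N.index = p ^ r → N = (⊤ : Subgroup G).lowerCentralSeries (r - 1)) ∧ Nat.card {N : Subgroup G // N.Normal ∧ N.index = p} = p + 1 := by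
  have hpp : p.Prime := Fact.out
  have hP : IsPGroup p G := IsPGroup.of_card hG
  haveI : Group.IsNilpotent G := hP.isNilpotent
  have hc := not_cyc hP hcl hn
  -- orders of the terms
  have hex : ∀ k : ℕ, ∃ a, Nat.card ((⊤ : Subgroup G).lowerCentralSeries k) = p ^ a :=
    fun k => IsPGroup.iff_card.mp (hP.to_subgroup _)
  choose f hf using hex
  have hlast : (⊤ : Subgroup G).lowerCentralSeries (n - 1) = ⊥ := by
    rw [Subgroup.lowerCentralSeries_eq_bot_iff_nilpotencyClass_le]
    omega
  have hpen : (⊤ : Subgroup G).lowerCentralSeries (n - 2) ≠ ⊥ := by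
    intro h
    rw [Subgroup.lowerCentralSeries_eq_bot_iff_nilpotencyClass_le] at h
    omega
  have hne : ∀ k ≤ n - 2, (⊤ : Subgroup G).lowerCentralSeries k ≠ ⊥ := by
    intro k hk h
    apply hpen
    rw [eq_bot_iff, ← h]
    exact Subgroup.lowerCentralSeries_antitone _ hk
  have hstep : ∀ k ≤ n - 2, f (k + 1) < f k := by
    intro k hk
    have h1 := strict hP k (hne k hk)
    have h2 : Nat.card ((⊤ : Subgroup G).lowerCentralSeries (k + 1)) < Nat.card ((⊤ : Subgroup G).lowerCentralSeries k) := by
      refine lt_of_le_of_ne (Subgroup.card_le_of_le h1.le) ?_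
      intro h
      exact h1.ne (Subgroup.eq_of_le_of_card_ge h1.le h.ge)
    rw [hf, hf] at h2
    exact (Nat.pow_lt_pow_iff_right hpp.one_lt).mp h2
  have hidx : ∀ k, ((⊤ : Subgroup G).lowerCentralSeries k).index = p ^ (n - f k) ∧ f k ≤ n := by
    intro k
    have h1 := ((⊤ : Subgroup G).lowerCentralSeries k).card_mul_index
    rw [hf, hG] at h1
    have h2 : f k ≤ n := (Nat.pow_dvd_pow_iff_le_right hpp.one_lt).1 (Dvd.intro _ h1)
    refine ⟨?_, h2⟩
    apply Nat.eq_of_mul_eq_mul_left (pow_pos hpp.pos (f k))
    rw [h1, ← pow_add]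
    congr 1
    omega
  have hf1 : f 1 + 2 ≤ n := by
    obtain ⟨h1, h2⟩ := hidx 1
    by_contra h3
    have h4 : n - f 1 ≤ 1 := by omega
    have h5 : IsCyclic (G ⧸ commutator G) := by
      have h6 : Nat.card (G ⧸ commutator G) = p ^ (n - f 1) := by
        rw [← h1, Subgroup.top_lowerCentralSeries_one, Subgroup.index_eq_card]
      rcases (by omega : n - f 1 = 0 ∨ n - f 1 = 1) with h7 | h7
      · rw [h7, pow_zero] at h6
        haveI : Subsingleton (G ⧸ commutator G) := (Nat.card_eq_one_iff_unique.1 h6).1
        infer_instance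
      · rw [h7, pow_one] at h6
        exact isCyclic_of_prime_card h6
    obtain ⟨g, hg⟩ := h5.exists_generator
    obtain ⟨x, rfl⟩ := QuotientGroup.mk'_surjective _ g
    apply zp_ne_top hP hc x
    rw [eq_top_iff]
    intro y _
    obtain ⟨k, hk⟩ := mem_zpowers_iff.1 (hg (QuotientGroup.mk' _ y))
    rw [← map_zpow] at hk
    have h8 : (x ^ k)⁻¹ * y ∈ commutator G := QuotientGroup.eq.1 hk
    have h9 : y = x ^ k * ((x ^ k)⁻¹ * y) := by group
    rw [h9]
    exact mul_mem ((le_sup_left : zpowers x ≤ zpowers x ⊔ commutator G) (zpow_mem (mem_zpowers x) k))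
      ((le_sup_right : commutator G ≤ zpowers x ⊔ commutator G) h8)
  have hup : ∀ j, 1 + j ≤ n - 1 → f (1 + j) + (1 + j) + 1 ≤ n := by
    intro j
    induction j with
    | zero => intro _; omega
    | succ j ih =>
      intro hj
      have h1 := ih (by omega)
      have h2 := hstep (1 + j) (by omega)
      have h3 : 1 + (j + 1) = 1 + j + 1 := by omega
      rw [h3]
      omega
  have hlow : ∀ j, j ≤ n - 1 → n ≤ f (n - 1 - j) + (n - 1 - j) + 1 := by
    intro j
    induction j with
    | zero => intro _; omega
    | succ j ih =>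
      intro hj
      have h1 := ih (by omega)
      have h2 := hstep (n - 1 - (j + 1)) (by omega)
      have h3 : n - 1 - (j + 1) + 1 = n - 1 - j := by omega
      rw [h3] at h2
      omega
  have hfk : ∀ k, 1 ≤ k → k ≤ n - 1 → f k + k + 1 = n := by
    intro k h1 h2
    have h3 := hup (k - 1) (by omega)
    have h4 := hlow (n - 1 - k) (by omega)
    have h5 : 1 + (k - 1) = k := by omega
    have h6 : n - 1 - (n - 1 - k) = k := by omega
    rw [h5] at h3
    rw [h6] at h4
    omega
  refine ⟨?_, ?_⟩
  · intro N _ r hr hNr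
    have hrn : r ≤ n := by
      have h1 := N.card_mul_index
      rw [hNr, hG] at h1
      exact (Nat.pow_dvd_pow_iff_le_right hpp.one_lt).1 (Dvd.intro_left _ h1)
    have hcardQ : Nat.card (G ⧸ N) = p ^ r := by rw [← Subgroup.index_eq_card, hNr]
    have hle : (⊤ : Subgroup G).lowerCentralSeries (r - 1) ≤ N := by
      haveI : Group.IsNilpotent (G ⧸ N) := (hP.to_quotient N).isNilpotent
      have h1 : (⊤ : Subgroup (G ⧸ N)).lowerCentralSeries (r - 1) = ⊥ := by
        rw [Subgroup.lowerCentralSeries_eq_bot_iff_nilpotencyClass_le]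
        exact S0063.result p r hcardQ (by omega)
      intro x hx
      have h2 : QuotientGroup.mk' N x ∈ ((⊤ : Subgroup G).lowerCentralSeries (r - 1)).map (QuotientGroup.mk' N) :=
        mem_map_of_mem _ hx
      have h3 : ((⊤ : Subgroup G).lowerCentralSeries (r - 1)).map (QuotientGroup.mk' N) ≤
          (⊤ : Subgroup (G ⧸ N)).lowerCentralSeries (r - 1) :=
        Subgroup.lowerCentralSeries.map (QuotientGroup.mk' N) (r - 1)
      have h4 := h3 h2
      rw [h1, mem_bot] at h4
      exact (QuotientGroup.eq_one_iff _).1 h4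
    symm
    have h5 : ((⊤ : Subgroup G).lowerCentralSeries (r - 1)).index = N.index := by
      rw [(hidx (r - 1)).1, hNr]
      have := hfk (r - 1) (by omega) (by omega)
      congr 1
      omega
    have h6 : Nat.card ((⊤ : Subgroup G).lowerCentralSeries (r - 1)) = Nat.card N := by
      have h7 := ((⊤ : Subgroup G).lowerCentralSeries (r - 1)).card_mul_index
      have h8 := N.card_mul_index
      rw [h5, ← h8] at h7
      exact Nat.eq_of_mul_eq_mul_right (Nat.pos_of_ne_zero Subgroup.index_ne_zero_of_finite) h7
    exact Subgroup.eq_of_le_of_card_ge hle h6.ge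
  · -- counting
    have hGi : (commutator G).index = p ^ 2 := by
      have h1 := (hidx 1).1
      rw [Subgroup.top_lowerCentralSeries_one] at h1
      rw [h1]
      have := hfk 1 le_rfl (by omega)
      congr 1
      omega
    have hGc : Nat.card (commutator G) = p ^ (n - 2) := by
      have h1 := (commutator G).card_mul_index
      rw [hGi, hG] at h1
      apply Nat.eq_of_mul_eq_mul_right (pow_pos hpp.pos 2)
      rw [h1, ← pow_add]
      congr 1
      omega
    have hcontains : ∀ N : Subgroup G, N.Normal → N.index = p → commutator G ≤ N := by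
      intro N hN hNi
      haveI := hN
      have h1 : IsCyclic (G ⧸ N) := isCyclic_of_prime_card (p := p) (by rw [← Subgroup.index_eq_card, hNi])
      rw [_root_.commutator_def, Subgroup.commutator_le]
      intro a _ b _
      rw [← QuotientGroup.eq_one_iff]
      letI := h1.commGroup
      have h3 : ((⁅a, b⁆ : G) : G ⧸ N) = ⁅(a : G ⧸ N), (b : G ⧸ N)⁆ := rfl
      rw [h3, commutatorElement_eq_one_iff_mul_comm]
      exact mul_comm _ _
    have hx : ∀ x : {x : G // x ∉ commutator G}, (zpowers (x : G) ⊔ commutator G).Normal ∧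
        (zpowers (x : G) ⊔ commutator G).index = p := by
      rintro ⟨x, hx⟩
      constructor
      · exact ⟨fun a ha g => by
          have h1 : g * a * g⁻¹ = ⁅g, a⁆ * a := by rw [commutatorElement_def]; group
          rw [h1]
          exact mul_mem ((le_sup_right : commutator G ≤ zpowers x ⊔ commutator G)
            (Subgroup.commutator_mem_commutator (mem_top g) (mem_top a))) ha⟩
      · have h1 : (zpowers x ⊔ commutator G).index ∣ p ^ 2 := by
          rw [← hGi]
          exact Subgroup.index_dvd_of_le le_sup_right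
        obtain ⟨i, hi, hi2⟩ := (Nat.dvd_prime_pow hpp).1 h1
        have h2 : i ≠ 0 := by
          rintro rfl
          rw [pow_zero] at hi2
          exact zp_ne_top hP hc x (Subgroup.index_eq_one.1 hi2)
        have h3 : i ≠ 2 := by
          rintro rfl
          apply hx
          have h4 : Nat.card (commutator G) = Nat.card (zpowers x ⊔ commutator G : Subgroup G) := by
            have h5 := (commutator G).card_mul_index
            have h6 := (zpowers x ⊔ commutator G).card_mul_index
            rw [hGi] at h5
            rw [hi2] at h6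
            exact Nat.eq_of_mul_eq_mul_right (pow_pos hpp.pos 2) (h5.trans h6.symm)
          have h5 := Subgroup.eq_of_le_of_card_ge (le_sup_right : commutator G ≤ zpowers x ⊔ commutator G) h4.ge
          rw [h5]
          exact (le_sup_left : zpowers x ≤ zpowers x ⊔ commutator G) (mem_zpowers x)
        show (zpowers x ⊔ commutator G).index = p
        rw [hi2, (by omega : i = 1), pow_one]
    let F : {x : G // x ∉ commutator G} → {N : Subgroup G // N.Normal ∧ N.index = p} :=
      fun x => ⟨zpowers (x : G) ⊔ commutator G, hx x⟩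
    have hNcard : ∀ N : {N : Subgroup G // N.Normal ∧ N.index = p}, Nat.card (N : Subgroup G) = p ^ (n - 1) := by
      intro N
      have h1 := (N : Subgroup G).card_mul_index
      rw [N.2.2, hG] at h1
      apply Nat.eq_of_mul_eq_mul_right hpp.pos
      rw [h1, ← pow_succ]
      congr 1
      omega
    have hfib : ∀ N : {N : Subgroup G // N.Normal ∧ N.index = p},
        Nat.card {x // F x = N} = p ^ (n - 1) - p ^ (n - 2) := by
      intro N
      have h1 : Nat.card {x // F x = N} = (((N : Subgroup G) : Set G) \ (commutator G : Set G)).ncard := by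
        rw [← Nat.card_coe_set_eq]
        refine Nat.card_congr
          { toFun := fun x => ⟨(x.1 : G), ⟨?_, x.1.2⟩⟩
            invFun := fun x => ⟨⟨(x : G), x.2.2⟩, ?_⟩
            left_inv := fun x => rfl
            right_inv := fun x => rfl }
        · have h2 : zpowers (x.1 : G) ⊔ commutator G = N := congrArg Subtype.val x.2
          rw [← h2]
          exact (le_sup_left : zpowers (x.1 : G) ≤ zpowers (x.1 : G) ⊔ commutator G) (mem_zpowers _)
        · apply Subtype.ext
          show zpowers (x : G) ⊔ commutator G = N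
          have h2 : zpowers (x : G) ⊔ commutator G ≤ N :=
            sup_le (zpowers_le.2 x.2.1) (hcontains N N.2.1 N.2.2)
          apply Subgroup.eq_of_le_of_card_ge h2
          rw [hNcard, hNcard (F ⟨x, x.2.2⟩)]
      have h3 := Set.ncard_sdiff_add_ncard_of_subset (s := (commutator G : Set G)) (t := ((N : Subgroup G) : Set G))
        (hcontains N N.2.1 N.2.2) (Set.toFinite _)
      have h4 : ((commutator G : Set G)).ncard = p ^ (n - 2) := hGc
      have h5 : (((N : Subgroup G) : Set G)).ncard = p ^ (n - 1) := hNcard N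
      rw [h4, h5] at h3
      rw [h1]
      omega
    haveI : Finite {x : G // x ∉ commutator G} := inferInstance
    haveI : Fintype {N : Subgroup G // N.Normal ∧ N.index = p} := Fintype.ofFinite _
    have h1 : Nat.card {x : G // x ∉ commutator G} =
        Nat.card {N : Subgroup G // N.Normal ∧ N.index = p} * (p ^ (n - 1) - p ^ (n - 2)) := by
      rw [← Nat.card_congr (Equiv.sigmaFiberEquiv F), Nat.card_sigma]
      simp only [hfib]
      rw [Finset.sum_const, Finset.card_univ, smul_eq_mul, Nat.card_eq_fintype_card]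
    have h2 : Nat.card {x : G // x ∉ commutator G} = p ^ n - p ^ (n - 2) := by
      have h3 : Nat.card {x : G // x ∉ commutator G} = ((commutator G : Set G)ᶜ).ncard := by
        rw [← Nat.card_coe_set_eq]
        rfl
      rw [h3, Set.ncard_compl, hG, ← hGc]
      rfl
    rw [h2] at h1
    obtain ⟨m, rfl⟩ : ∃ m, n = m + 2 := ⟨n - 2, by omega⟩
    have e1 : m + 2 - 2 = m := by omega
    have e2 : m + 2 - 1 = m + 1 := by omega
    rw [e1, e2] at h1
    have e3 : p ^ (m + 2) - p ^ m = p ^ m * ((p + 1) * (p - 1)) := by
      obtain ⟨q, rfl⟩ : ∃ q, p = q + 1 := ⟨p - 1, by have := hpp.pos; omega⟩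
      have : (q + 1) ^ (m + 2) = (q + 1) ^ m + (q + 1) ^ m * ((q + 1 + 1) * q) := by ring
      rw [this, Nat.add_sub_cancel_left, Nat.add_sub_cancel]
    have e4 : p ^ (m + 1) - p ^ m = p ^ m * (p - 1) := by
      rw [pow_succ, Nat.mul_sub, mul_one]
    rw [e3, e4] at h1
    have h5 : p ^ m * (p - 1) * (p + 1) = p ^ m * (p - 1) * Nat.card {N : Subgroup G // N.Normal ∧ N.index = p} := by
      calc p ^ m * (p - 1) * (p + 1) = p ^ m * ((p + 1) * (p - 1)) := by ring
        _ = _ := h1
        _ = _ := by ring
    exact (Nat.eq_of_mul_eq_mul_left (Nat.mul_pos (pow_pos hpp.pos m) (Nat.sub_pos_of_lt hpp.one_lt)) h5).symm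

end Cfsg.Agent.S0662
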