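import Cfsg.Statements.S0663
import Mathlib
import Cfsg.Agent.H22.PStep

set_option autoImplicit false
set_option linter.all false
open Cfsg

namespace Cfsg.Agent.S0663

open scoped commutatorElement

variable {L : Type*} [Group L]

theorem normal_subgroupOf {A X : Subgroup L} (h : X ≤ Subgroup.normalizer (A : Set L)) :
    (A.subgroupOf X).Normal := by
  rw [← Subgroup.normalizer_eq_top_iff, eq_top_iff]
  intro y _
  rw [Subgroup.mem_normalizer_iff]
  intro z
  exact Subgroup.mem_normalizer_iff.1 (h y.2) z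

theorem le_norm_of {A X : Subgroup L} (h : ∀ x ∈ X, ∀ a ∈ A, x * a * x⁻¹ ∈ A) :
    X ≤ Subgroup.normalizer (A : Set L) := by
  intro x hx
  rw [Subgroup.mem_normalizer_iff]
  intro a
  refine ⟨h x hx a, fun ha => ?_⟩
  have := h x⁻¹ (inv_mem hx) _ ha
  have h3 : x⁻¹ * (x * a * x⁻¹) * x⁻¹⁻¹ = a := by group
  rwa [h3] at this

theorem step [Finite L] {p : ℕ} [Fact p.Prime] {X A B : Subgroup L} (hX : IsPGroup p X) (hAB : A < B)
    (hB : B ≤ X) (hA : X ≤ Subgroup.normalizer (A : Set L)) (hBn : X ≤ Subgroup.normalizer (B : Set L)) :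
    ∃ M : Subgroup L, A ≤ M ∧ M < B ∧ ⁅B, X⁆ ≤ M ∧ X ≤ Subgroup.normalizer (M : Set L) := by
  haveI := normal_subgroupOf hA
  haveI := normal_subgroupOf hBn
  have hlt : A.subgroupOf X < B.subgroupOf X := by
    refine lt_of_le_of_ne ?_ ?_
    · intro x hx; exact hAB.le hx
    · intro h
      have h1 := congrArg (Subgroup.map X.subtype) h
      rw [Subgroup.subgroupOf_map_subtype, Subgroup.subgroupOf_map_subtype,
        inf_eq_left.2 (hAB.le.trans hB), inf_eq_left.2 hB] at h1
      exact hAB.ne h1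
  obtain ⟨M, hMn, hAM, hMB, hcom, -⟩ := Cfsg.Agent.H22.exists_step hX hlt
  refine ⟨M.map X.subtype, ?_, ?_, ?_, ?_⟩
  · intro x hx
    exact ⟨⟨x, hB (hAB.le hx)⟩, hAM hx, rfl⟩
  · refine lt_of_le_of_ne ?_ ?_
    · rintro _ ⟨x, hx, rfl⟩
      exact hMB.le hx
    · intro h
      apply hMB.ne
      have h1 := congrArg (Subgroup.comap X.subtype) h
      rw [Subgroup.comap_map_eq_self_of_injective X.subtype_injective] at h1
      exact h1
  · rw [Subgroup.commutator_le]
    intro b hb x hx
    exact ⟨⁅(⟨b, hB hb⟩ : X), (⟨x, hx⟩ : X)⁆, hcom ⟨b, hB hb⟩ hb ⟨x, hx⟩, rfl⟩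
  · apply le_norm_of
    rintro x hx _ ⟨a, ha, rfl⟩
    exact ⟨(⟨x, hx⟩ : X) * a * (⟨x, hx⟩ : X)⁻¹, hMn.conj_mem a ha _, rfl⟩

theorem norm_comm {H G : Subgroup L} (h : G ≤ Subgroup.normalizer (H : Set L)) :
    ⁅H, G⁆ ≤ H ∧ G ≤ Subgroup.normalizer ((⁅H, G⁆ : Subgroup L) : Set L) := by
  constructor
  · rw [Subgroup.commutator_le]
    intro a ha g hg
    rw [commutatorElement_def, mul_assoc, mul_assoc, ← mul_assoc g]
    exact mul_mem ha ((Subgroup.mem_normalizer_iff.1 (h hg) a⁻¹).1 (inv_mem ha))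
  · apply le_norm_of
    intro g hg x hx
    have h1 : (⁅H, G⁆ : Subgroup L).map (MulAut.conj g).toMonoidHom = ⁅H, G⁆ := by
      rw [Subgroup.map_commutator]
      congr 1
      · ext y
        constructor
        · rintro ⟨z, hz, rfl⟩
          exact (Subgroup.mem_normalizer_iff.1 (h hg) z).1 hz
        · intro hy
          refine ⟨g⁻¹ * y * g, ?_, by simp [mul_assoc]⟩
          have := (Subgroup.mem_normalizer_iff.1 (h (inv_mem hg)) y).1 hy
          simpa using this
      · ext y
        constructor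
        · rintro ⟨z, hz, rfl⟩
          exact mul_mem (mul_mem hg hz) (inv_mem hg)
        · intro hy
          exact ⟨g⁻¹ * y * g, mul_mem (mul_mem (inv_mem hg) hy) hg, by simp [mul_assoc]⟩
    rw [← h1]
    exact ⟨x, hx, rfl⟩

theorem iter_inv {N G : Subgroup L} (h : G ≤ Subgroup.normalizer (N : Set L)) (i : ℕ) :
    Cfsg.iterCommutator N G i ≤ N ∧ G ≤ Subgroup.normalizer ((Cfsg.iterCommutator N G i : Subgroup L) : Set L) := by
  induction i with
  | zero => exact ⟨le_rfl, h⟩
  | succ i ih =>
    have h1 := norm_comm ih.2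
    exact ⟨h1.1.trans ih.1, h1.2⟩

theorem comm_lt [Finite L] {p : ℕ} [Fact p.Prime] {H G : Subgroup L} (hH : IsPGroup p H) (hG : IsPGroup p G)
    (h : G ≤ Subgroup.normalizer (H : Set L)) (hne : H ≠ ⊥) : ⁅H, G⁆ < H := by
  have hX : IsPGroup p (H ⊔ G : Subgroup L) := hH.to_sup_of_normal_left' hG h
  obtain ⟨M, -, hM, hc, -⟩ := step (A := ⊥) (B := H) hX (bot_lt_iff_ne_bot.2 hne) le_sup_left
    (le_norm_of (by simp)) (sup_le Subgroup.le_normalizer h)
  exact lt_of_le_of_lt ((Subgroup.commutator_mono le_rfl le_sup_right).trans hc) hM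

theorem relIndex_of_card [Finite L] {p a : ℕ} (hp : 0 < p) {A B : Subgroup L} (h : A ≤ B) (hA : Nat.card A = p ^ a)
    (hB : Nat.card B = p ^ (a + 1)) : A.relIndex B = p := by
  have h1 := Subgroup.card_mul_index (A.subgroupOf B)
  rw [Nat.card_congr (Subgroup.subgroupOfEquivOfLe h).toEquiv, hA, hB, pow_succ] at h1
  exact Nat.eq_of_mul_eq_mul_left (pow_pos hp a) h1

theorem eq_of_between [Finite L] {p a : ℕ} (hp : p.Prime) {A H B : Subgroup L} (hAH : A ≤ H) (hHB : H < B)
    (hA : Nat.card A = p ^ a) (hB : Nat.card B = p ^ (a + 1)) : A = H := by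
  have h1 := Subgroup.card_dvd_of_le hHB.le
  rw [hB, Nat.dvd_prime_pow hp] at h1
  obtain ⟨j, hj, hj2⟩ := h1
  apply Subgroup.eq_of_le_of_card_ge hAH
  have h2 : j ≠ a + 1 := by
    rintro rfl
    exact hHB.ne (Subgroup.eq_of_le_of_card_ge hHB.le (by rw [hj2, hB]))
  rw [hj2, hA]
  exact Nat.pow_le_pow_right hp.pos (by omega)

theorem classify [Finite L] {p : ℕ} [Fact p.Prime] (N G : Subgroup L) (hN : IsPGroup p N)
    (hG : IsPGroup p G) (hGN : G ≤ Subgroup.normalizer (N : Set L)) (n : ℕ)
    (hyp : ∀ i ≤ n, Nat.card (Cfsg.iterCommutator N G i) = p ^ (n - i)) (H : Subgroup L) (hHN : H ≤ N)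
    (hGH : G ≤ Subgroup.normalizer (H : Set L)) : ∃ i ≤ n, H = Cfsg.iterCommutator N G i := by
  by_contra hcon
  obtain ⟨H, hH, hmax⟩ := Set.Finite.exists_maximal
    (s := {H : Subgroup L | H ≤ N ∧ G ≤ Subgroup.normalizer (H : Set L) ∧ ¬ ∃ i ≤ n, H = Cfsg.iterCommutator N G i})
    (Set.toFinite _) ⟨H, hHN, hGH, hcon⟩
  clear hcon hHN hGH
  obtain ⟨hHN, hGH, hcon⟩ := hH
  have hltN : H < N := by
    refine lt_of_le_of_ne hHN ?_
    rintro rfl
    exact hcon ⟨0, by omega, rfl⟩
  obtain ⟨K, hK, hmin⟩ := Set.Finite.exists_minimal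
    (s := {K : Subgroup L | H < K ∧ K ≤ N ∧ G ≤ Subgroup.normalizer (K : Set L)})
    (Set.toFinite _) ⟨N, hltN, le_rfl, hGN⟩
  obtain ⟨hHK, hKN, hGK⟩ := hK
  have hKi : ∃ i ≤ n, K = Cfsg.iterCommutator N G i := by
    by_contra hK
    have := hmax ⟨hKN, hGK, hK⟩ hHK.le
    exact absurd hHK (not_lt_of_ge this)
  obtain ⟨i, hi, hKi⟩ := hKi
  have hKp : IsPGroup p K := hN.to_le hKN
  -- H normal in K
  have hKH : K ≤ Subgroup.normalizer (H : Set L) := by
    have h1 : H < Subgroup.normalizer (H : Set L) ⊓ K := by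
      refine lt_of_le_of_ne (le_inf Subgroup.le_normalizer hHK.le) ?_
      intro h
      haveI := hKp.isNilpotent
      have h2 : H.subgroupOf K < ⊤ := by
        rw [lt_top_iff_ne_top]
        intro h3
        rw [Subgroup.subgroupOf_eq_top] at h3
        exact absurd hHK (not_lt_of_ge h3)
      have h3 := Group.normalizerCondition_of_isNilpotent (G := K) _ h2
      obtain ⟨x, hx, hxH⟩ := SetLike.exists_of_lt h3
      apply hxH
      rw [Subgroup.mem_subgroupOf, h]
      refine Subgroup.mem_inf.2 ⟨?_, x.2⟩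
      rw [Subgroup.mem_normalizer_iff] at hx ⊢
      intro y
      by_cases hy : y ∈ K
      · exact hx ⟨y, hy⟩
      · constructor
        · intro h4; exact absurd (hHK.le h4) hy
        · intro h4
          exfalso
          apply hy
          have h5 := hHK.le h4
          have h6 : (x : L)⁻¹ * (x * y * (x : L)⁻¹) * x ∈ K := mul_mem (mul_mem (inv_mem x.2) h5) x.2
          have h7 : (x : L)⁻¹ * (x * y * (x : L)⁻¹) * x = y := by group
          rwa [h7] at h6
    have h2 : G ≤ Subgroup.normalizer ((Subgroup.normalizer (H : Set L) ⊓ K : Subgroup L) : Set L) := by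
      apply le_norm_of
      intro g hg x hx
      exact Subgroup.mem_inf.2 ⟨mul_mem (mul_mem (hGH hg) (Subgroup.mem_inf.1 hx).1) (inv_mem (hGH hg)),
        (Subgroup.mem_normalizer_iff.1 (hGK hg) x).1 (Subgroup.mem_inf.1 hx).2⟩
    have h3 := hmin ⟨h1, inf_le_right.trans hKN, h2⟩ inf_le_right
    exact h3.trans inf_le_left
  have hX : IsPGroup p (K ⊔ G : Subgroup L) := hKp.to_sup_of_normal_left' hG hGK
  obtain ⟨M, hHM, hMK, hc, hXM⟩ := step hX hHK le_sup_left (sup_le hKH hGH) (sup_le Subgroup.le_normalizer hGK)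
  have hMH : M = H := by
    by_contra hne
    have := hmin ⟨lt_of_le_of_ne hHM (Ne.symm hne), hMK.le.trans hKN, le_sup_right.trans hXM⟩ hMK.le
    exact absurd hMK (not_lt_of_ge this)
  have h4 : ⁅K, G⁆ ≤ H := by
    rw [← hMH]; exact (Subgroup.commutator_mono le_rfl le_sup_right).trans hc
  have hin : i < n := by
    refine lt_of_le_of_ne hi ?_
    rintro rfl
    have := hyp i le_rfl
    rw [Nat.sub_self, pow_zero, ← hKi, Subgroup.card_eq_one] at this
    rw [this] at hHK
    exact absurd hHK not_lt_bot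
  apply hcon
  refine ⟨i + 1, hin, ?_⟩
  have h5 := hyp (i + 1) hin
  have h6 := hyp i hi
  rw [← hKi, show n - i = (n - (i + 1)) + 1 by omega] at h6
  rw [hKi] at h4
  exact (eq_of_between Fact.out h4 hHK h5 h6).symm

theorem norm_iter [Finite L] {p : ℕ} [Fact p.Prime] (N G : Subgroup L) (hN : IsPGroup p N)
    (hG : IsPGroup p G) (hGN : G ≤ Subgroup.normalizer (N : Set L)) (n : ℕ)
    (hyp : ∀ i ≤ n, Nat.card (Cfsg.iterCommutator N G i) = p ^ (n - i)) (i : ℕ) (hi : i ≤ n) :
    N ≤ Subgroup.normalizer ((Cfsg.iterCommutator N G i : Subgroup L) : Set L) := by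
  induction i with
  | zero => exact Subgroup.le_normalizer
  | succ i ih =>
    have ih := ih (by omega)
    have hX : IsPGroup p (N ⊔ G : Subgroup L) := hN.to_sup_of_normal_left' hG hGN
    have hinv := iter_inv hGN i
    have hne : Cfsg.iterCommutator N G i ≠ ⊥ := by
      intro h
      have := hyp i (by omega)
      rw [h, Subgroup.card_bot] at this
      have h1 : n - i ≠ 0 := by omega
      exact (Nat.one_lt_pow h1 (Fact.out : p.Prime).one_lt).ne this
    obtain ⟨M, -, hMK, hc, hXM⟩ := step (A := ⊥) hX (bot_lt_iff_ne_bot.2 hne) (hinv.1.trans le_sup_left)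
      (le_norm_of (by simp)) (sup_le ih hinv.2)
    have h5 := hyp (i + 1) hi
    have h6 := hyp i (by omega)
    rw [show n - i = (n - (i + 1)) + 1 by omega] at h6
    have h4 : Cfsg.iterCommutator N G (i + 1) ≤ M :=
      (Subgroup.commutator_mono le_rfl le_sup_right).trans hc
    rw [eq_of_between Fact.out h4 hMK h5 h6]
    exact le_sup_left.trans hXM


/-- A p-group acts uniserially on a p-group N of order p^n exactly when the iterated commutator chain from N has length n; in that case the chain terms are all the invariant subgroups of N and they are normal in N. -/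
theorem result {L : Type*} [Group L] [Finite L] {p : ℕ} [Fact p.Prime] (N G : Subgroup L) (hN : IsPGroup p N) (hG : IsPGroup p G) (hGN : G ≤ Subgroup.normalizer (N : Set L)) (n : ℕ) (hn : Nat.card N = p ^ n) : ((∀ H : Subgroup L, H ≤ N → G ≤ Subgroup.normalizer (H : Set L) → H ≠ ⊥ → (⁅H, G⁆).relIndex H = p) ↔ Cfsg.iterCommutator N G (n - 1) ≠ ⊥ ∨ n = 0) ∧ ((∀ H : Subgroup L, H ≤ N → G ≤ Subgroup.normalizer (H : Set L) → H ≠ ⊥ → (⁅H, G⁆).relIndex H = p) → ∀ H : Subgroup L, H ≤ N → G ≤ Subgroup.normalizer (H : Set L) → (∃ i ≤ n, H = Cfsg.iterCommutator N G i) ∧ N ≤ Subgroup.normalizer (H : Set L)) := by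
  have hpp : p.Prime := Fact.out
  have hinv := fun i => iter_inv hGN i
  have hA : (∀ H : Subgroup L, H ≤ N → G ≤ Subgroup.normalizer (H : Set L) → H ≠ ⊥ → (⁅H, G⁆).relIndex H = p) →
      ∀ i ≤ n, Nat.card (Cfsg.iterCommutator N G i) = p ^ (n - i) := by
    intro huni i
    induction i with
    | zero => intro _; rw [Nat.sub_zero]; exact hn
    | succ i ih =>
      intro hi
      have ih := ih (by omega)
      have hne : Cfsg.iterCommutator N G i ≠ ⊥ := by
        intro h
        rw [h, Subgroup.card_bot] at ih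
        have h1 : n - i ≠ 0 := by omega
        exact (Nat.one_lt_pow h1 hpp.one_lt).ne ih
      have h1 := huni _ (hinv i).1 (hinv i).2 hne
      have h2 : ⁅Cfsg.iterCommutator N G i, G⁆ ≤ Cfsg.iterCommutator N G i := (norm_comm (hinv i).2).1
      have h3 := Subgroup.card_mul_index ((⁅Cfsg.iterCommutator N G i, G⁆).subgroupOf (Cfsg.iterCommutator N G i))
      rw [Nat.card_congr (Subgroup.subgroupOfEquivOfLe h2).toEquiv, ih] at h3
      have h4 : (⁅Cfsg.iterCommutator N G i, G⁆.subgroupOf (Cfsg.iterCommutator N G i)).index = p := h1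
      rw [h4, show n - i = (n - (i + 1)) + 1 by omega, pow_succ] at h3
      exact Nat.eq_of_mul_eq_mul_right hpp.pos h3
  have hB : (Cfsg.iterCommutator N G (n - 1) ≠ ⊥ ∨ n = 0) →
      ∀ i ≤ n, Nat.card (Cfsg.iterCommutator N G i) = p ^ (n - i) := by
    rintro (h | rfl)
    · have hmono : ∀ i j, Cfsg.iterCommutator N G (i + j) ≤ Cfsg.iterCommutator N G i := by
        intro i j
        induction j with
        | zero => exact le_rfl
        | succ j ih => exact (norm_comm (hinv (i + j)).2).1.trans ih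
      have hpow : ∀ i, ∃ a, Nat.card (Cfsg.iterCommutator N G i) = p ^ a := fun i =>
        IsPGroup.iff_card.1 (hN.to_le (hinv i).1)
      choose a ha using hpow
      have hne : ∀ i ≤ n - 1, Cfsg.iterCommutator N G i ≠ ⊥ := by
        intro i hi h0
        apply h
        have := hmono i (n - 1 - i)
        rw [show i + (n - 1 - i) = n - 1 by omega, h0, le_bot_iff] at this
        exact this
      have hlt : ∀ i ≤ n - 1, a (i + 1) < a i := by
        intro i hi
        have h1 := comm_lt (hN.to_le (hinv i).1) hG (hinv i).2 (hne i hi)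
        have h2 : Nat.card (Cfsg.iterCommutator N G (i + 1)) < Nat.card (Cfsg.iterCommutator N G i) := by
          by_contra hle
          exact h1.ne (Subgroup.eq_of_le_of_card_ge h1.le (not_lt.1 hle))
        rw [ha, ha] at h2
        exact (Nat.pow_lt_pow_iff_right hpp.one_lt).1 h2
      have ha0 : a 0 = n := by
        have := ha 0
        exact (Nat.pow_right_injective hpp.two_le (hn.symm.trans this)).symm
      have hlow : ∀ j ≤ n, j ≤ a (n - j) := by
        intro j
        induction j with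
        | zero => intro _; omega
        | succ j ih =>
          intro hj
          have h1 := ih (by omega)
          have h2 := hlt (n - (j + 1)) (by omega)
          rw [show n - (j + 1) + 1 = n - j by omega] at h2
          omega
      have hup : ∀ i ≤ n, a i + i ≤ n := by
        intro i
        induction i with
        | zero => intro _; omega
        | succ i ih =>
          intro hi
          have h1 := ih (by omega)
          have h2 := hlt i (by omega)
          omega
      intro i hi
      rw [ha]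
      congr 1
      have h1 := hlow (n - i) (by omega)
      rw [show n - (n - i) = i by omega] at h1
      have h2 := hup i hi
      omega
    · intro i hi
      have : i = 0 := by omega
      subst this
      exact hn
  have hC : (∀ i ≤ n, Nat.card (Cfsg.iterCommutator N G i) = p ^ (n - i)) →
      ∀ H : Subgroup L, H ≤ N → G ≤ Subgroup.normalizer (H : Set L) → H ≠ ⊥ → (⁅H, G⁆).relIndex H = p := by
    intro hyp H hHN hGH hne
    obtain ⟨i, hi, rfl⟩ := classify N G hN hG hGN n hyp H hHN hGH
    have hin : i < n := by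
      refine lt_of_le_of_ne hi ?_
      rintro rfl
      apply hne
      have := hyp i le_rfl
      rwa [Nat.sub_self, pow_zero, Subgroup.card_eq_one] at this
    have h5 := hyp (i + 1) hin
    have h6 := hyp i hi
    rw [show n - i = (n - (i + 1)) + 1 by omega] at h6
    exact relIndex_of_card hpp.pos (norm_comm hGH).1 h5 h6
  have hD : (∀ i ≤ n, Nat.card (Cfsg.iterCommutator N G i) = p ^ (n - i)) →
      (Cfsg.iterCommutator N G (n - 1) ≠ ⊥ ∨ n = 0) := by
    intro hyp
    rcases Nat.eq_zero_or_pos n with h | h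
    · right; exact h
    · left
      intro h0
      have := hyp (n - 1) (by omega)
      rw [h0, Subgroup.card_bot, show n - (n - 1) = 1 by omega, pow_one] at this
      exact hpp.one_lt.ne this
  refine ⟨⟨fun h => hD (hA h), fun h => hC (hB h)⟩, ?_⟩
  intro huni H hHN hGH
  obtain ⟨i, hi, rfl⟩ := classify N G hN hG hGN n (hA huni) H hHN hGH
  exact ⟨⟨i, hi, rfl⟩, norm_iter N G hN hG hGN n (hA huni) i hi⟩

end Cfsg.Agent.S0663
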