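import Cfsg.Statements.S0668

set_option autoImplicit false
open Cfsg

namespace Cfsg.Agent.S0668

/-- The equivariant linear maps between the permutation modules of two finite `G`-sets form a space whose dimension is the number of `G`-orbits on the product of the two sets. -/
theorem result {G : Type*} [Group G] {K : Type*} [Field K] {Ω₁ Ω₂ : Type*} [Fintype Ω₁] [Fintype Ω₂] [MulAction G Ω₁] [MulAction G Ω₂] : Module.finrank K ((Cfsg.permRep K G Ω₁).linHom (Cfsg.permRep K G Ω₂)).invariants = Nat.card (MulAction.orbitRel.Quotient G (Ω₁ × Ω₂)) := by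
  classical
  let Q := MulAction.orbitRel.Quotient G (Ω₁ × Ω₂)
  haveI : Finite Q := Quotient.finite _
  haveI : Fintype Q := Fintype.ofFinite Q
  let L : (Q → K) →ₗ[K] ((Ω₁ → K) →ₗ[K] (Ω₂ → K)) :=
    { toFun := fun c =>
        { toFun := fun v y => ∑ x, c (Quotient.mk'' (x, y)) * v x
          map_add' := fun v w => by
            ext y; simp only [Pi.add_apply, mul_add, Finset.sum_add_distrib]
          map_smul' := fun a v => by
            ext y
            simp only [Pi.smul_apply, smul_eq_mul, RingHom.id_apply, Finset.mul_sum]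
            exact Finset.sum_congr rfl fun x _ => by ring }
      map_add' := fun c d => by
        ext v y
        simp only [Pi.add_apply, add_mul, Finset.sum_add_distrib, LinearMap.coe_mk, AddHom.coe_mk,
          LinearMap.add_apply, LinearMap.comp_apply]
      map_smul' := fun a c => by
        ext v y
        simp only [Pi.smul_apply, smul_eq_mul, RingHom.id_apply, Finset.mul_sum, LinearMap.coe_mk,
          AddHom.coe_mk, LinearMap.smul_apply, LinearMap.comp_apply]
        exact Finset.sum_congr rfl fun x _ => by ring }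
  have hLa : ∀ (c : Q → K) (v : Ω₁ → K) (y : Ω₂), L c v y = ∑ x, c (Quotient.mk'' (x, y)) * v x :=
    fun c v y => rfl
  have hLs : ∀ (c : Q → K) (x : Ω₁) (y : Ω₂), L c (Pi.single x 1) y = c (Quotient.mk'' (x, y)) := by
    intro c x y
    rw [hLa, Finset.sum_eq_single x]
    · simp
    · intro b _ hb; simp [hb]
    · intro h; exact absurd (Finset.mem_univ x) h
  have hL : ∀ c, L c ∈ ((Cfsg.permRep K G Ω₁).linHom (Cfsg.permRep K G Ω₂)).invariants := by
    intro c
    rw [Representation.mem_invariants]
    intro g
    apply LinearMap.ext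
    intro v
    ext y
    rw [Representation.linHom_apply]
    show L c (Cfsg.permRep K G Ω₁ g⁻¹ v) (g⁻¹ • y) = L c v y
    rw [hLa, hLa]
    refine Fintype.sum_equiv (MulAction.toPerm g) _ _ fun x => ?_
    have h1 : (Quotient.mk'' (x, g⁻¹ • y) : Q) = Quotient.mk'' (g • x, y) := by
      refine Quotient.sound' ((MulAction.orbitRel_apply).2 ⟨g⁻¹, ?_⟩)
      simp [Prod.smul_mk]
    rw [h1]
    show c _ * v (g⁻¹⁻¹ • x) = c _ * v (g • x)
    rw [inv_inv]
    rfl
  have hbij : Function.Bijective (L.codRestrict _ hL) := by
    constructor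
    · intro c d h
      have h1 : L c = L d := congrArg Subtype.val h
      funext q
      induction q using Quotient.inductionOn' with | _ q => ?_
      obtain ⟨x, y⟩ := q
      rw [← hLs c x y, ← hLs d x y, h1]
    · rintro ⟨f, hf⟩
      rw [Representation.mem_invariants] at hf
      have hfe : ∀ (g : G) (x : Ω₁) (y : Ω₂),
          f (Pi.single (g • x) 1) (g • y) = f (Pi.single x 1) y := by
        intro g x y
        have h1 := congrFun (LinearMap.congr_fun (hf g) (Pi.single (g • x) 1)) (g • y)
        rw [Representation.linHom_apply] at h1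
        have h2 : Cfsg.permRep K G Ω₁ g⁻¹ (Pi.single (g • x) 1) = Pi.single x 1 := by
          ext z
          show (Pi.single (g • x) (1 : K) : Ω₁ → K) (g⁻¹⁻¹ • z) = (Pi.single x (1 : K) : Ω₁ → K) z
          rw [inv_inv]
          by_cases hz : z = x
          · subst hz; simp
          · rw [Pi.single_eq_of_ne hz, Pi.single_eq_of_ne]
            intro h; exact hz (MulAction.injective g h)
        have h3 : f (Cfsg.permRep K G Ω₁ g⁻¹ (Pi.single (g • x) 1)) (g⁻¹ • g • y) =
          f (Pi.single (g • x) 1) (g • y) := h1
        rw [h2, inv_smul_smul] at h3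
        exact h3.symm
      obtain ⟨c, hc⟩ : ∃ c : Q → K, ∀ x y, c (Quotient.mk'' (x, y)) = f (Pi.single x 1) y := by
        refine ⟨fun q => Quotient.liftOn' q (fun z => f (Pi.single z.1 1) z.2) ?_, fun x y => rfl⟩
        rintro ⟨x, y⟩ ⟨x', y'⟩ hxy
        obtain ⟨g, hg⟩ := MulAction.orbitRel_apply.1 hxy
        obtain ⟨rfl, rfl⟩ := Prod.mk.inj hg
        exact hfe g x' y'
      refine ⟨c, ?_⟩
      apply Subtype.ext
      show L _ = f
      apply LinearMap.pi_ext'
      intro x
      ext y
      show L _ (Pi.single x 1) y = f (Pi.single x 1) y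
      rw [hLs, hc]
  rw [← (LinearEquiv.ofBijective _ hbij).finrank_eq, Module.finrank_fintype_fun_eq_card,
    Nat.card_eq_fintype_card]

end Cfsg.Agent.S0668
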