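import Cfsg.Statements.S0669

set_option autoImplicit false
open Cfsg

namespace Cfsg.Agent.S0669

/-- The rank of a transitive action: orbits on ordered pairs correspond to orbits of a point stabiliser. -/
theorem result {G : Type*} [Group G] {Ω : Type*} [Finite Ω] [MulAction G Ω] [MulAction.IsPretransitive G Ω] (a : Ω) : Nat.card (MulAction.orbitRel.Quotient G (Ω × Ω)) = Nat.card (MulAction.orbitRel.Quotient (MulAction.stabilizer G a) Ω) := by
  let F : MulAction.orbitRel.Quotient (MulAction.stabilizer G a) Ω →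
      MulAction.orbitRel.Quotient G (Ω × Ω) := fun q =>
    Quotient.liftOn' q (fun b => (Quotient.mk'' (a, b) : MulAction.orbitRel.Quotient G (Ω × Ω)))
      (by
        intro b b' hb
        obtain ⟨g, hg⟩ := MulAction.orbitRel_apply.1 hb
        refine Quotient.sound' (MulAction.orbitRel_apply.2 ⟨g.1, ?_⟩)
        exact Prod.ext g.2 hg)
  have hF : ∀ b, F (Quotient.mk'' b) = Quotient.mk'' (a, b) := fun b => rfl
  refine (Nat.card_congr (Equiv.ofBijective F ⟨?_, ?_⟩)).symm
  · intro q q'
    induction q using Quotient.inductionOn' with | _ b => ?_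
    induction q' using Quotient.inductionOn' with | _ b' => ?_
    intro h
    rw [hF, hF] at h
    obtain ⟨g, hg⟩ := MulAction.orbitRel_apply.1 (Quotient.exact' h)
    obtain ⟨h1, h2⟩ := Prod.mk.inj hg
    exact Quotient.sound' (MulAction.orbitRel_apply.2 ⟨⟨g, h1⟩, h2⟩)
  · intro q
    induction q using Quotient.inductionOn' with | _ z => ?_
    obtain ⟨x, y⟩ := z
    obtain ⟨g, hg⟩ := MulAction.exists_smul_eq G x a
    refine ⟨Quotient.mk'' (g • y), ?_⟩
    rw [hF]
    refine Quotient.sound' (MulAction.orbitRel_apply.2 ⟨g, ?_⟩)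
    exact Prod.ext hg rfl

end Cfsg.Agent.S0669
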