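import Cfsg.Statements.S0671
import Cfsg.Agent.H10.Perm2

set_option autoImplicit false
open Cfsg

namespace Cfsg.Agent.S0671

/-- If the heart of the permutation module in characteristic `p` of a transitive action of degree `p ^ f` has no trivial composition factor, the action is doubly transitive. The hypothesis is phrased without composition series: no invariant subspaces `W < W'` between the constants and the sum-zero functions with trivial action on the quotient. -/
theorem result {G : Type*} [Group G] [Finite G] {K : Type*} [Field K] {p f : ℕ} [Fact p.Prime] [CharP K p] {Ω : Type*} [Fintype Ω] [MulAction G Ω] [MulAction.IsPretransitive G Ω] (hf : 1 ≤ f) (hcard : Fintype.card Ω = p ^ f) (h : ∀ W W' : Subrepresentation (Cfsg.permRep K G Ω), (Cfsg.permConstants K G Ω).toSubmodule ≤ W.toSubmodule → W.toSubmodule < W'.toSubmodule → W'.toSubmodule ≤ (Cfsg.permSumZero K G Ω).toSubmodule → ∃ g : G, ∃ v ∈ W'.toSubmodule, Cfsg.permRep K G Ω g v - v ∉ W.toSubmodule) : MulAction.IsMultiplyPretransitive G Ω 2 := by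
  classical
  open H10 in
  by_contra hnt
  rw [MulAction.is_two_pretransitive_iff] at hnt
  push Not at hnt
  obtain ⟨a, b, c, d, hab, hcd, hno⟩ := hnt
  obtain ⟨t, ht⟩ := MulAction.exists_smul_eq G c a
  set d' := t • d with hd'
  have had' : a ≠ d' := by
    rw [← ht, hd']; exact fun h => hcd (MulAction.injective t h)
  have hno' : ∀ g : G, g • a = a → g • b ≠ d' := by
    intro g h1 h2
    refine hno (t⁻¹ * g) ?_ ?_
    · rw [mul_smul, h1, ← ht, inv_smul_smul]
    · rw [mul_smul, h2, hd', inv_smul_smul]
  let R : Ω → Ω → Prop := fun x y => ∃ g : G, g • a = x ∧ g • b = y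
  have hR : ∀ (g : G) x y, R (g • x) (g • y) ↔ R x y := by
    intro g x y
    constructor
    · rintro ⟨k, h1, h2⟩
      exact ⟨g⁻¹ * k, by rw [mul_smul, h1, inv_smul_smul], by rw [mul_smul, h2, inv_smul_smul]⟩
    · rintro ⟨k, rfl, rfl⟩
      exact ⟨g * k, mul_smul _ _ _, mul_smul _ _ _⟩
  let out : Ω → ℕ := fun x => (Finset.univ.filter fun y => R x y).card
  let inn : Ω → ℕ := fun y => (Finset.univ.filter fun x => R x y).card
  have hout : ∀ x, out x = out a := by
    intro x
    obtain ⟨g, rfl⟩ := MulAction.exists_smul_eq G a x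
    refine (Finset.card_bij (fun y _ => g • y) ?_ ?_ ?_).symm
    · intro y hy
      simp only [Finset.mem_filter, Finset.mem_univ, true_and] at hy ⊢
      exact (hR g a y).2 hy
    · intro y _ z _ h; exact MulAction.injective g h
    · intro y hy
      simp only [Finset.mem_filter, Finset.mem_univ, true_and] at hy
      refine ⟨g⁻¹ • y, ?_, smul_inv_smul _ _⟩
      simp only [Finset.mem_filter, Finset.mem_univ, true_and]
      rw [← hR g, smul_inv_smul]; exact hy
  have hinn : ∀ y, inn y = inn a := by
    intro x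
    obtain ⟨g, rfl⟩ := MulAction.exists_smul_eq G a x
    refine (Finset.card_bij (fun y _ => g • y) ?_ ?_ ?_).symm
    · intro y hy
      simp only [Finset.mem_filter, Finset.mem_univ, true_and] at hy ⊢
      exact (hR g y a).2 hy
    · intro y _ z _ h; exact MulAction.injective g h
    · intro y hy
      simp only [Finset.mem_filter, Finset.mem_univ, true_and] at hy
      refine ⟨g⁻¹ • y, ?_, smul_inv_smul _ _⟩
      simp only [Finset.mem_filter, Finset.mem_univ, true_and]
      rw [← hR g, smul_inv_smul]; exact hy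
  have hio : inn a = out a := by
    have h1 : ∑ x, out x = ∑ y, inn y :=
      Finset.sum_card_bipartiteAbove_eq_sum_card_bipartiteBelow R
    rw [Finset.sum_congr rfl (fun x _ => hout x), Finset.sum_congr rfl (fun x _ => hinn x),
      Finset.sum_const, Finset.sum_const, smul_eq_mul, smul_eq_mul] at h1
    exact (Nat.eq_of_mul_eq_mul_left (Finset.card_pos.2 ⟨a, Finset.mem_univ a⟩) h1).symm
  set k := out a with hk
  let r : Ω → Ω → K := fun x y => if R x y then 1 else 0
  have hr : ∀ (g : G) x y, r (g • x) (g • y) = r x y := by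
    intro g x y; simp only [r, hR]
  let B : (Ω → K) →ₗ[K] (Ω → K) := orbMap r - (k : K) • LinearMap.id
  have hBx : ∀ v x, B v x = ∑ y, r x y * v y - k * v x := by
    intro v x; rfl
  have hB : ∀ (g : G) v, B (Cfsg.permRep K G Ω g v) = Cfsg.permRep K G Ω g (B v) := by
    intro g v
    show orbMap r _ - (k : K) • _ = Cfsg.permRep K G Ω g (orbMap r v - (k : K) • v)
    rw [orbMap_comm hr, map_sub, map_smul]
    rfl
  have hrsum : ∀ y, ∑ x, r x y = (k : K) := by
    intro y
    simp only [r]
    rw [Finset.sum_boole]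
    show ((inn y : ℕ) : K) = k
    rw [hinn, hio]
  have hrsum' : ∀ x, ∑ y, r x y = (k : K) := by
    intro y
    simp only [r]
    rw [Finset.sum_boole]
    show ((out y : ℕ) : K) = k
    rw [hout]
  -- the image has sum zero
  have him : ∀ v, B v ∈ (Cfsg.permSumZero K G Ω).toSubmodule := by
    intro v
    rw [mem_permSumZero]
    simp only [hBx, Finset.sum_sub_distrib]
    rw [Finset.sum_comm]
    simp only [← Finset.sum_mul, hrsum, ← Finset.mul_sum, sub_self]
  -- `B` is not zero on the sum-zero functions
  let u : Ω → K := Pi.single b 1 - Pi.single d' 1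
  have hu : u ∈ (Cfsg.permSumZero K G Ω).toSubmodule := by
    rw [mem_permSumZero]
    simp [u, Finset.sum_sub_distrib, Finset.sum_pi_single']
  have hBu : B u ≠ 0 := by
    intro h
    have h1 := congrFun h a
    rw [hBx] at h1
    simp only [u, Pi.sub_apply, mul_sub, Finset.sum_sub_distrib, Pi.single_apply, mul_ite, mul_one,
      mul_zero, Finset.sum_ite_eq', Finset.mem_univ, if_true, if_neg hab, if_neg had', sub_zero,
      Pi.zero_apply] at h1
    have h2 : r a b = 1 := if_pos ⟨1, one_smul _ _, one_smul _ _⟩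
    have h3 : r a d' = 0 := if_neg (by rintro ⟨g, hg1, hg2⟩; exact hno' g hg1 hg2)
    rw [h2, h3] at h1
    simp at h1
  have hcW : (Cfsg.permConstants K G Ω).toSubmodule ≤
      (mapRep B hB (Cfsg.permSumZero K G Ω)).toSubmodule := by
    apply S0670.result hf hcard
    rw [Submodule.ne_bot_iff]
    exact ⟨B u, ⟨u, hu, rfl⟩, hBu⟩
  have hker : LinearMap.ker B ≤ (Cfsg.permSumZero K G Ω).toSubmodule := by
    apply le_sumZero_of_ne_top hf hcard (kerRep B hB)
    intro h
    apply hBu
    have : u ∈ (kerRep B hB).toSubmodule := by rw [h]; trivial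
    exact this
  have hlt : (mapRep B hB (Cfsg.permSumZero K G Ω)).toSubmodule <
      (mapRep B hB (topRep G K Ω)).toSubmodule := by
    refine lt_of_le_of_ne (Submodule.map_mono le_top) fun h => ?_
    have h1 : B (Pi.single a 1) ∈ (mapRep B hB (Cfsg.permSumZero K G Ω)).toSubmodule := by
      rw [h]; exact ⟨_, trivial, rfl⟩
    obtain ⟨w, hw, hwB⟩ := h1
    have h2 : w - Pi.single a 1 ∈ LinearMap.ker B := by
      rw [LinearMap.mem_ker, map_sub, hwB, sub_self]
    have h3 := Submodule.sub_mem _ hw (hker h2)
    rw [sub_sub_cancel, mem_permSumZero, Finset.sum_pi_single'] at h3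
    simp at h3
  obtain ⟨g, v, hv, hgv⟩ := h _ _ hcW hlt (by
    rintro _ ⟨w, -, rfl⟩; exact him w)
  apply hgv
  obtain ⟨w, -, rfl⟩ := hv
  refine ⟨Cfsg.permRep K G Ω g w - w, ?_, ?_⟩
  · show ∑ x, (Cfsg.permRep K G Ω g w - w) x = 0
    simp only [Pi.sub_apply, permRep_apply, Finset.sum_sub_distrib]
    rw [sum_smul_eq, sub_self]
  · rw [map_sub, hB]

end Cfsg.Agent.S0671
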