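import Cfsg.Statements.S0672
import Cfsg.Agent.H10.Perm2
import Cfsg.Agent.H10.Perm4

set_option autoImplicit false
open Cfsg

namespace Cfsg.Agent.S0672

/-- Let a finite group act faithfully and doubly transitively with point stabilisers of even order, and let `K` have characteristic `p` dividing the degree. If the heart of the permutation module admits no non-zero equivariant map to the permutation module on unordered pairs (phrased: every intertwining map from the sum-zero functions vanishing on the constants is zero), the action is triply transitive. -/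
theorem result {G : Type*} [Group G] [Finite G] {K : Type*} [Field K] {p : ℕ} [Fact p.Prime] [CharP K p] {Ω : Type*} [Fintype Ω] [DecidableEq Ω] [MulAction G Ω] [FaithfulSMul G Ω] (h2 : MulAction.IsMultiplyPretransitive G Ω 2) (hp : p ∣ Fintype.card Ω) (heven : ∀ a : Ω, Even (Nat.card (MulAction.stabilizer G a))) (h : ∀ f : Representation.IntertwiningMap (Cfsg.permSumZero K G Ω).toRepresentation (Cfsg.permRep K G (Set.powersetCard Ω 2)), (∀ v : (Cfsg.permSumZero K G Ω).toSubmodule, (v : Ω → K) ∈ (Cfsg.permConstants K G Ω).toSubmodule → f v = 0) → f = 0) : MulAction.IsMultiplyPretransitive G Ω 3 := by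
  classical
  open H10 in
  by_contra hnt
  -- a point stabiliser contains an involution swapping two points
  have hcard : 2 ≤ Nat.card Ω ∨ Subsingleton Ω := by
    rcases subsingleton_or_nontrivial Ω with h | h
    · exact Or.inr h
    · exact Or.inl (Finite.one_lt_card)
  rcases hcard with hcard | hcard
  swap
  · apply hnt
    rw [three_trans_iff]
    intro a b c x y z hab
    exact absurd (Subsingleton.elim a b) hab
  haveI : Nontrivial Ω := Finite.one_lt_card_iff_nontrivial.1 hcard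
  obtain ⟨a₀, -⟩ := exists_pair_ne Ω
  haveI : FaithfulSMul (MulAction.stabilizer G a₀) Ω :=
    ⟨fun {g h} e => Subtype.ext (FaithfulSMul.eq_of_smul_eq_smul (α := Ω) e)⟩
  obtain ⟨t, b₀, c₀, hbc, htb, htc⟩ := exists_swap (G := MulAction.stabilizer G a₀) (Ω := Ω) (heven a₀)
  have hta : (t : G) • a₀ = a₀ := t.2
  have htb' : (t : G) • b₀ = c₀ := htb
  have htc' : (t : G) • c₀ = b₀ := htc
  have hab : a₀ ≠ b₀ := by
    rintro rfl
    exact hbc (hta.symm.trans htb')
  have hac : a₀ ≠ c₀ := by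
    rintro rfl
    exact hbc (htc'.symm.trans hta)
  obtain ⟨x₁, y₁, z₁, hxy, hxz, hyz, hno⟩ : ∃ x y z : Ω, x ≠ y ∧ x ≠ z ∧ y ≠ z ∧
      ∀ g : G, ¬ (g • a₀ = x ∧ ((g • b₀ = y ∧ g • c₀ = z) ∨ (g • b₀ = z ∧ g • c₀ = y))) := by
    by_contra hcon
    push Not at hcon
    apply hnt
    refine three_trans_of_base hab hac hbc fun x y z hxy hxz hyz => ?_
    obtain ⟨g, hg1, ⟨hg2, hg3⟩ | ⟨hg2, hg3⟩⟩ := hcon x y z hxy hxz hyz
    · exact ⟨g, hg1, hg2, hg3⟩
    · exact ⟨g * t, by rw [mul_smul, hta, hg1], by rw [mul_smul, htb', hg3],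
        by rw [mul_smul, htc', hg2]⟩
  -- the two orbits
  let R₁ : Ω → Set.powersetCard Ω 2 → Prop := fun x s => ∃ g : G, g • a₀ = x ∧ g • pr hbc = s
  let R₂ : Ω → Set.powersetCard Ω 2 → Prop := fun x s => ∃ g : G, g • x₁ = x ∧ g • pr hyz = s
  have hR₁ : ∀ (g : G) x s, R₁ (g • x) (g • s) ↔ R₁ x s := by
    intro g x s
    constructor
    · rintro ⟨k, h1, h2⟩
      exact ⟨g⁻¹ * k, by rw [mul_smul, h1, inv_smul_smul], by rw [mul_smul, h2, inv_smul_smul]⟩
    · rintro ⟨k, rfl, rfl⟩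
      exact ⟨g * k, mul_smul _ _ _, mul_smul _ _ _⟩
  have hR₂ : ∀ (g : G) x s, R₂ (g • x) (g • s) ↔ R₂ x s := by
    intro g x s
    constructor
    · rintro ⟨k, h1, h2⟩
      exact ⟨g⁻¹ * k, by rw [mul_smul, h1, inv_smul_smul], by rw [mul_smul, h2, inv_smul_smul]⟩
    · rintro ⟨k, rfl, rfl⟩
      exact ⟨g * k, mul_smul _ _ _, mul_smul _ _ _⟩
  have hdisj : ∀ x s, R₁ x s → ¬ R₂ x s := by
    rintro x s ⟨g, rfl, rfl⟩ ⟨k, h1, h2⟩
    apply hno (k⁻¹ * g)
    refine ⟨by rw [mul_smul, ← h1, inv_smul_smul], ?_⟩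
    have h3 : (k⁻¹ * g) • pr hbc = pr hyz := by rw [mul_smul, ← h2, inv_smul_smul]
    rw [smul_pr, pr_eq_iff] at h3
    exact h3
  have hR₁m : ∀ x s, R₁ x s → x ∉ ((s : Set.powersetCard Ω 2) : Finset Ω) := by
    rintro x s ⟨g, rfl, rfl⟩
    rw [mem_smul_iff, pr_coe]
    simp [hab, hac]
  have hR₂m : ∀ x s, R₂ x s → x ∉ ((s : Set.powersetCard Ω 2) : Finset Ω) := by
    rintro x s ⟨g, rfl, rfl⟩
    rw [mem_smul_iff, pr_coe]
    simp [hxy, hxz]
  haveI : Fintype (Set.powersetCard Ω 2) := Fintype.ofFinite _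
  have hhom : MulAction.IsPretransitive G (Set.powersetCard Ω 2) := by
    rw [homog_two_iff]
    intro a b c d hab hcd
    obtain ⟨g, hg⟩ := (MulAction.is_two_pretransitive_iff (G := G) (α := Ω)).1 h2 hab hcd
    exact ⟨g, Or.inl hg⟩
  -- general construction
  have key : ∀ (ρ : Ω → Set.powersetCard Ω 2 → K), (∀ (g : G) x s, ρ (g • x) (g • s) = ρ x s) →
      (∀ x (s : Set.powersetCard Ω 2), x ∈ (s : Finset Ω) → ρ x s = 0) → (∃ s, ∑ x, ρ x s = 0) → (∃ x s, ρ x s ≠ 0) → False := by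
    intro ρ hρ hρ0 hsum hne
    have hsum' : ∀ s, ∑ x, ρ x s = 0 := by
      obtain ⟨s₀, hs₀⟩ := hsum
      intro s
      obtain ⟨g, rfl⟩ := hhom.exists_smul_eq s₀ s
      rw [← sum_smul_eq g]
      simp only [hρ, hs₀]
    let F : (Cfsg.permSumZero K G Ω).toSubmodule →ₗ[K] (Set.powersetCard Ω 2 → K) :=
      { toFun := fun v s => ∑ x, ρ x s * (v : Ω → K) x
        map_add' := fun v w => by
          ext s; simp [mul_add, Finset.sum_add_distrib]
        map_smul' := fun c v => by
          ext s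
          simp only [Submodule.coe_smul, Pi.smul_apply, smul_eq_mul, RingHom.id_apply, Finset.mul_sum]
          exact Finset.sum_congr rfl fun y _ => by ring }
    have hF : ∀ v s, F v s = ∑ x, ρ x s * (v : Ω → K) x := fun v s => rfl
    let Fi : Representation.IntertwiningMap (Cfsg.permSumZero K G Ω).toRepresentation
        (Cfsg.permRep K G (Set.powersetCard Ω 2)) :=
      { F with
        isIntertwining' := by
          intro g
          apply LinearMap.ext
          intro v
          funext s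
          show F ((Cfsg.permSumZero K G Ω).toRepresentation g v) s = F v (g⁻¹ • s)
          rw [hF, hF, ← sum_smul_eq g]
          refine Finset.sum_congr rfl fun x _ => ?_
          have e1 : (((Cfsg.permSumZero K G Ω).toRepresentation g v :
              (Cfsg.permSumZero K G Ω).toSubmodule) : Ω → K) (g • x) = (v : Ω → K) x := by
            show (v : Ω → K) (g⁻¹ • g • x) = _
            rw [inv_smul_smul]
          rw [e1]
          congr 1
          have := hρ g x (g⁻¹ • s)
          rw [smul_inv_smul] at this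
          exact this }
    have hFi := h Fi (by
      intro v hv
      show F v = 0
      obtain ⟨c, hc⟩ := mem_permConstants.1 hv
      funext s
      rw [hF]
      simp only [hc, ← Finset.sum_mul, hsum', zero_mul]
      rfl)
    obtain ⟨x, s, hxs⟩ := hne
    have hxm : x ∉ (s : Finset Ω) := fun h => hxs (hρ0 x s h)
    obtain ⟨y, z, hyz', rfl⟩ := exists_pr s
    have hym : y ∈ ((pr hyz' : Set.powersetCard Ω 2) : Finset Ω) := by rw [pr_coe]; simp
    have hxy' : x ≠ y := fun h => hxm (h ▸ hym)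
    let v : (Cfsg.permSumZero K G Ω).toSubmodule := ⟨Pi.single x 1 - Pi.single y 1, by
      rw [mem_permSumZero]
      simp [Finset.sum_sub_distrib, Finset.sum_pi_single']⟩
    have h1 : F v (pr hyz') = 0 := by
      have : Fi v = 0 := by rw [hFi]; rfl
      exact congrFun this _
    rw [hF] at h1
    have h2 : ∀ w, (v : Ω → K) w = (Pi.single x (1 : K) : Ω → K) w - (Pi.single y (1 : K) : Ω → K) w :=
      fun w => rfl
    simp only [h2, mul_sub, Finset.sum_sub_distrib, Pi.single_apply, mul_ite, mul_one, mul_zero,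
      Finset.sum_ite_eq', Finset.mem_univ, if_true] at h1
    rw [hρ0 y _ hym, sub_zero] at h1
    exact hxs h1
  obtain ⟨s₀⟩ : Nonempty (Set.powersetCard Ω 2) := ⟨pr hbc⟩
  let r₁ : Ω → Set.powersetCard Ω 2 → K := fun x s => if R₁ x s then 1 else 0
  let r₂ : Ω → Set.powersetCard Ω 2 → K := fun x s => if R₂ x s then 1 else 0
  have hr₁ : ∀ (g : G) x s, r₁ (g • x) (g • s) = r₁ x s := fun g x s => by simp only [r₁, hR₁]
  have hr₂ : ∀ (g : G) x s, r₂ (g • x) (g • s) = r₂ x s := fun g x s => by simp only [r₂, hR₂]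
  have hr₁0 : ∀ x s, x ∈ ((s : Set.powersetCard Ω 2) : Finset Ω) → r₁ x s = 0 := fun x s hx =>
    if_neg fun h => hR₁m x s h hx
  have hr₂0 : ∀ x s, x ∈ ((s : Set.powersetCard Ω 2) : Finset Ω) → r₂ x s = 0 := fun x s hx =>
    if_neg fun h => hR₂m x s h hx
  by_cases hc : ∑ x, r₁ x s₀ = 0
  · refine key r₁ hr₁ hr₁0 ⟨s₀, hc⟩ ⟨a₀, pr hbc, ?_⟩
    have : r₁ a₀ (pr hbc) = 1 := if_pos ⟨1, one_smul _ _, one_smul _ _⟩
    rw [this]; exact one_ne_zero
  · refine key (fun x (s : Set.powersetCard Ω 2) => (∑ x, r₁ x s₀) * r₂ x s - (∑ x, r₂ x s₀) * r₁ x s) ?_ ?_ ⟨s₀, ?_⟩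
      ⟨x₁, pr hyz, ?_⟩
    · intro g x s; simp only [hr₁, hr₂]
    · intro x s hx; simp only [hr₁0 x s hx, hr₂0 x s hx, mul_zero, sub_zero]
    · rw [Finset.sum_sub_distrib, ← Finset.mul_sum, ← Finset.mul_sum, mul_comm, sub_self]
    · have e1 : r₂ x₁ (pr hyz) = 1 := if_pos ⟨1, one_smul _ _, one_smul _ _⟩
      have e2 : r₁ x₁ (pr hyz) = 0 := if_neg fun h => hdisj _ _ h ⟨1, one_smul _ _, one_smul _ _⟩
      show (∑ x, r₁ x s₀) * r₂ x₁ (pr hyz) - (∑ x, r₂ x s₀) * r₁ x₁ (pr hyz) ≠ 0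
      rw [e1, e2, mul_one, mul_zero, sub_zero]
      exact hc

end Cfsg.Agent.S0672
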