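import Cfsg.Statements.S0674
import Cfsg.Agent.H10.Perm3

set_option autoImplicit false
open Cfsg

namespace Cfsg.Agent.S0674

/-- Let `G` be a non-solvable transitive permutation group of prime degree `p` and `K` a field of characteristic `p`. Then the heart of the permutation module is irreducible: an invariant subspace containing the constants and contained in the sum-zero functions is one or the other. -/
theorem result {α : Type*} [Fintype α] [DecidableEq α] {p : ℕ} [Fact p.Prime] (hα : Fintype.card α = p) (G : Subgroup (Equiv.Perm α)) [MulAction.IsPretransitive G α] (hG : ¬ Group.IsSolvable G) {K : Type*} [Field K] [CharP K p] (W : Subrepresentation (Cfsg.permRep K G α)) (h₁ : (Cfsg.permConstants K G α).toSubmodule ≤ W.toSubmodule) (h₂ : W.toSubmodule ≤ (Cfsg.permSumZero K G α).toSubmodule) : W = Cfsg.permConstants K G α ∨ W = Cfsg.permSumZero K G α := by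
  haveI : Nonempty α := by
    rw [← Fintype.card_pos_iff, hα]; exact (Fact.out : p.Prime).pos
  have hc1 : Module.finrank K (Cfsg.permConstants K G α).toSubmodule = 1 := H10.finrank_constants
  have hs1 : Module.finrank K (Cfsg.permSumZero K G α).toSubmodule + 1 = Fintype.card α :=
    H10.finrank_sumZero
  have ha := H10.finrank_annih W
  have hle1 := Submodule.finrank_mono h₁
  have hle2 := Submodule.finrank_mono h₂
  rw [hα] at hs1 ha
  by_cases hr1 : Module.finrank K W.toSubmodule = 1
  · left
    apply Subrepresentation.toSubmodule_injective
    exact (Submodule.eq_of_le_of_finrank_eq h₁ (by rw [hc1, hr1])).symm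
  by_cases hr2 : Module.finrank K W.toSubmodule + 1 = p
  · right
    apply Subrepresentation.toSubmodule_injective
    exact Submodule.eq_of_le_of_finrank_eq h₂ (by omega)
  exfalso
  apply hG
  by_cases h3 : 2 * Module.finrank K W.toSubmodule ≤ p + 1
  · exact H10.solvable_of_small_rep hα G W (by omega) h3
  · exact H10.solvable_of_small_rep hα G (H10.annih W) (by omega) (by omega)

end Cfsg.Agent.S0674
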