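import Cfsg.Statements.S0676
import Cfsg.Agent.H10.Perm5
import Cfsg.Agent.S0672
import Cfsg.Agent.S0674
import Cfsg.Agent.S0675

set_option autoImplicit false
open Cfsg

namespace Cfsg.Agent.S0676

/-- A non-solvable transitive permutation group of prime degree `p` whose Sylow `p`-normaliser has even order is triply transitive. -/
theorem result {α : Type*} [Fintype α] [DecidableEq α] {p : ℕ} [Fact p.Prime] (hα : Fintype.card α = p) (G : Subgroup (Equiv.Perm α)) [MulAction.IsPretransitive G α] (hG : ¬ Group.IsSolvable G) (P : Sylow p G) (heven : Even (Nat.card (Subgroup.normalizer ((P : Subgroup G) : Set G)))) : MulAction.IsMultiplyPretransitive G α 3 := by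
  open H10 in
  have hp := (Fact.out : p.Prime)
  have hp2 : p ≠ 2 := by
    rintro rfl
    apply hG
    have h1 : Nat.card (Equiv.Perm α) = 2 := by
      rw [Nat.card_eq_fintype_card, Fintype.card_perm, hα]; rfl
    have h2 : Nat.card G ∣ 2 := by rw [← h1]; exact Subgroup.card_subgroup_dvd_card G
    haveI : IsCyclic G := by
      rcases (Nat.dvd_prime Nat.prime_two).1 h2 with h | h
      · haveI := (Nat.card_eq_one_iff_unique.1 h).1
        infer_instance
      · exact isCyclic_of_prime_card (p := 2) h
    apply Group.isSolvable_of_comm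
    intro a b
    exact (IsCyclic.commGroup (α := G)).mul_comm a b
  obtain ⟨c, e, t, b, he, ht⟩ := exists_inverting hα hp2 G P heven
  have h2 : MulAction.IsMultiplyPretransitive G α 2 := by
    rcases S0675.result (by rw [hα]; exact hp) G with h | h
    · exact absurd h hG
    · exact h
  have h2ne : (2 : ZMod p) ≠ 0 := by
    intro h
    have : ((2 : ℕ) : ZMod p) = 0 := by exact_mod_cast h
    rw [ZMod.natCast_eq_zero_iff] at this
    exact hp2 ((Nat.prime_dvd_prime_iff_eq hp Nat.prime_two).1 this)
  refine S0672.result (K := ZMod p) (p := p) h2 (by rw [hα]) ?_ ?_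
  · intro a
    have h3 : Even (Nat.card G) := by
      obtain ⟨m, hm⟩ := Subgroup.card_subgroup_dvd_card (Subgroup.normalizer ((P : Subgroup G) : Set G))
      rw [hm]; exact heven.mul_right m
    have h4 : (MulAction.stabilizer G a).index = p := by
      rw [MulAction.index_stabilizer_of_transitive, Nat.card_eq_fintype_card, hα]
    rw [← Subgroup.card_mul_index (MulAction.stabilizer G a), h4, Nat.even_mul] at h3
    rcases h3 with h3 | h3
    · exact h3
    · exact absurd ((hp.even_iff).1 h3) hp2
  · intro f hf
    -- the coordinate function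
    let v₀ : α → ZMod p := fun x => e.symm x - b / 2
    have hv₀s : v₀ ∈ (Cfsg.permSumZero (ZMod p) G α).toSubmodule := by
      have h1 : Cfsg.permRep (ZMod p) G α t v₀ = -v₀ := by
        funext x
        rw [permRep_apply]
        show e.symm (t⁻¹ • x) - b / 2 = -(e.symm x - b / 2)
        have h3 : e.symm (t⁻¹ • x) = b - e.symm x := by
          apply e.injective
          rw [Equiv.apply_symm_apply, inv_smul_eq_iff, ht, sub_sub_cancel, Equiv.apply_symm_apply]
        rw [h3]
        field_simp
        ring
      have h3 : ∑ x, Cfsg.permRep (ZMod p) G α t v₀ x = ∑ x, v₀ x := sum_smul_eq t⁻¹ v₀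
      rw [h1] at h3
      rw [mem_permSumZero]
      simp only [Pi.neg_apply, Finset.sum_neg_distrib] at h3
      have h5 : 2 * ∑ x, v₀ x = 0 := by linear_combination -h3
      exact (mul_eq_zero.1 h5).resolve_left h2ne
    let v : (Cfsg.permSumZero (ZMod p) G α).toSubmodule := ⟨v₀, hv₀s⟩
    have hfg : ∀ (g : G) u, f ((Cfsg.permSumZero (ZMod p) G α).toRepresentation g u) =
        Cfsg.permRep (ZMod p) G (Set.powersetCard α 2) g (f u) := by
      intro g u
      exact LinearMap.congr_fun (f.isIntertwining' g) u
    have htv : (Cfsg.permSumZero (ZMod p) G α).toRepresentation t v = -v := by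
      apply Subtype.ext
      funext x
      show e.symm (t⁻¹ • x) - b / 2 = -(e.symm x - b / 2)
      have h3 : e.symm (t⁻¹ • x) = b - e.symm x := by
        apply e.injective
        rw [Equiv.apply_symm_apply, inv_smul_eq_iff, ht, sub_sub_cancel, Equiv.apply_symm_apply]
      rw [h3]
      field_simp
      ring
    have hcv : f ((Cfsg.permSumZero (ZMod p) G α).toRepresentation c v) = f v := by
      have h1 : f ((Cfsg.permSumZero (ZMod p) G α).toRepresentation c v - v) = 0 := by
        apply hf
        refine mem_permConstants.2 ⟨-1, fun x => ?_⟩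
        show (e.symm (c⁻¹ • x) - b / 2) - (e.symm x - b / 2) = -1
        have h3 : e.symm (c⁻¹ • x) = e.symm x - 1 := by
          apply e.injective
          rw [Equiv.apply_symm_apply, inv_smul_eq_iff, ← he, sub_add_cancel, Equiv.apply_symm_apply]
        rw [h3]; ring
      rw [map_sub, sub_eq_zero] at h1
      exact h1
    have hw0 : f v = 0 := by
      funext s
      have h1 : ∀ s, f v (c⁻¹ • s) = f v s := by
        intro s
        have := congrFun (hfg c v) s
        rw [hcv] at this
        exact this.symm
      have h1' : ∀ s, f v (c • s) = f v s := fun s => by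
        rw [← h1 (c • s), inv_smul_smul]
      have h1n : ∀ (n : ℕ) s, f v (c ^ n • s) = f v s := by
        intro n
        induction n with
        | zero => intro s; rw [pow_zero, one_smul]
        | succ n ih => intro s; rw [pow_succ', mul_smul, h1', ih]
      obtain ⟨x, y, hxy, rfl⟩ := exists_pr s
      have h3 : f v (t⁻¹ • pr hxy) = - f v (pr hxy) := by
        have := congrFun (hfg t v) (pr hxy)
        rw [htv, map_neg] at this
        exact this.symm
      obtain ⟨i, rfl⟩ := e.surjective x
      obtain ⟨j, rfl⟩ := e.surjective y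
      have h4 : t⁻¹ • pr hxy = c ^ (b - i - j).val • pr hxy := by
        refine (smul_pr hxy t⁻¹).trans (Eq.trans ?_ (smul_pr hxy (c ^ (b - i - j).val)).symm)
        rw [pr_eq_iff]
        right
        rw [← coord_pow he, ← coord_pow he, ZMod.natCast_zmod_val, inv_smul_eq_iff, inv_smul_eq_iff,
          ht, ht]
        constructor <;> congr 1 <;> ring
      rw [h4, h1n] at h3
      have h5 : 2 * f v (pr hxy) = 0 := by linear_combination h3
      exact (mul_eq_zero.1 h5).resolve_left h2ne
    -- the kernel
    let U : Subrepresentation (Cfsg.permRep (ZMod p) G α) :=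
      { toSubmodule := (LinearMap.ker f.toLinearMap).map (Cfsg.permSumZero (ZMod p) G α).toSubmodule.subtype
        apply_mem_toSubmodule := by
          rintro g _ ⟨u, hu, rfl⟩
          refine ⟨(Cfsg.permSumZero (ZMod p) G α).toRepresentation g u, ?_, rfl⟩
          show f _ = 0
          rw [hfg]
          have : f u = 0 := hu
          rw [this, map_zero] }
    have hU1 : (Cfsg.permConstants (ZMod p) G α).toSubmodule ≤ U.toSubmodule := by
      intro u hu
      obtain ⟨k, hk⟩ := mem_permConstants.1 hu
      have hus : u ∈ (Cfsg.permSumZero (ZMod p) G α).toSubmodule := by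
        rw [mem_permSumZero]
        simp only [hk, Finset.sum_const, Finset.card_univ, hα, nsmul_eq_mul, CharP.cast_eq_zero, zero_mul]
      exact ⟨⟨u, hus⟩, hf _ hu, rfl⟩
    have hU2 : U.toSubmodule ≤ (Cfsg.permSumZero (ZMod p) G α).toSubmodule := by
      rintro _ ⟨u, hu, rfl⟩
      exact u.2
    have hvU : v₀ ∈ U.toSubmodule := ⟨v, hw0, rfl⟩
    rcases S0674.result hα G hG U hU1 hU2 with h | h
    · exfalso
      rw [h] at hvU
      obtain ⟨k, hk⟩ := mem_permConstants.1 hvU
      have h3 : v₀ (e 0) = v₀ (e 1) := by rw [hk, hk]
      have h4 : (0 : ZMod p) - b / 2 = 1 - b / 2 := by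
        have : e.symm (e 0) - b / 2 = e.symm (e 1) - b / 2 := h3
        rwa [Equiv.symm_apply_apply, Equiv.symm_apply_apply] at this
      haveI : Fact (1 < p) := ⟨hp.one_lt⟩
      have h5 : (0 : ZMod p) = 1 := by linear_combination h4
      exact zero_ne_one h5
    · apply DFunLike.ext
      intro u
      have hu : (u : α → ZMod p) ∈ U.toSubmodule := by rw [h]; exact u.2
      obtain ⟨u', hu', hu''⟩ := hu
      have : u' = u := Subtype.ext hu''
      rw [← this]
      exact hu'

end Cfsg.Agent.S0676
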