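import Cfsg.Statements.S0677
import Cfsg.Agent.H10.Perm6
import Cfsg.Agent.S0676

set_option autoImplicit false
open Cfsg

namespace Cfsg.Agent.S0677

/-- In a transitive permutation group of prime degree `p` whose Sylow `p`-normaliser has even order, the point stabilisers are the only subgroups of index `p`. -/
theorem result {α : Type*} [Fintype α] [DecidableEq α] {p : ℕ} [Fact p.Prime] (hα : Fintype.card α = p) (G : Subgroup (Equiv.Perm α)) [MulAction.IsPretransitive G α] (P : Sylow p G) (heven : Even (Nat.card (Subgroup.normalizer ((P : Subgroup G) : Set G)))) (H : Subgroup G) (hH : H.index = p) : ∃ a : α, H = MulAction.stabilizer G a := by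
  classical
  have hp := (Fact.out : p.Prime)
  -- it suffices that `H` fixes a point
  have hfix : ∀ a : α, (∀ h ∈ H, h • a = a) → H = MulAction.stabilizer G a := by
    intro a ha
    have h1 : H ≤ MulAction.stabilizer G a := fun h hh => ha h hh
    apply Subgroup.eq_of_le_of_card_ge h1
    have h2 : (MulAction.stabilizer G a).index = p := by
      rw [MulAction.index_stabilizer_of_transitive, Nat.card_eq_fintype_card, hα]
    have h3 := Subgroup.card_mul_index H
    rw [← Subgroup.card_mul_index (MulAction.stabilizer G a), hH, h2] at h3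
    exact (Nat.eq_of_mul_eq_mul_right hp.pos h3).ge
  have hpH : ¬ p ∣ Nat.card H := by
    intro h
    apply H10.not_sq_dvd hα G
    rw [← Subgroup.card_mul_index H, hH, pow_two]
    exact Nat.mul_dvd_mul_right h p
  obtain ⟨a₀⟩ : Nonempty α := by
    rw [← Fintype.card_pos_iff, hα]; exact hp.pos
  by_cases hs : Group.IsSolvable G
  · have h2 : (MulAction.stabilizer G a₀).index = p := by
      rw [MulAction.index_stabilizer_of_transitive, Nat.card_eq_fintype_card, hα]
    have h4 : Nat.card (MulAction.stabilizer G a₀) = Nat.card H := by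
      have h3 := Subgroup.card_mul_index H
      rw [← Subgroup.card_mul_index (MulAction.stabilizer G a₀), hH, h2] at h3
      exact (Nat.eq_of_mul_eq_mul_right hp.pos h3).symm
    obtain ⟨g, hg⟩ := H1.hall_conj hs (m := Nat.card H) (n := p)
      (by rw [← Subgroup.card_mul_index H, hH])
      ((Nat.Prime.coprime_iff_not_dvd hp).2 hpH).symm (MulAction.stabilizer G a₀) H h4 rfl
    refine ⟨g • a₀, ?_⟩
    rw [← hg, MulAction.stabilizer_smul_eq_stabilizer_map_conj]
    rfl
  · have h3 := S0676.result hα G hs P heven
    let B := G ⧸ H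
    haveI : Fintype B := Fintype.ofFinite _
    have hB : Fintype.card B = Fintype.card α := by
      rw [← Nat.card_eq_fintype_card, hα, ← hH]; rfl
    let Δ : Set α := MulAction.orbit H a₀
    have hΔ : ∀ h ∈ H, ∀ x, h • x ∈ Δ ↔ x ∈ Δ := by
      intro h hh x
      constructor
      · rintro ⟨k, hk⟩
        refine ⟨⟨h, hh⟩⁻¹ * k, ?_⟩
        show ((⟨h, hh⟩ : H)⁻¹ * k) • a₀ = x
        rw [mul_smul]
        have : k • a₀ = h • x := hk
        rw [this]
        exact inv_smul_smul h x
      · rintro ⟨k, hk⟩
        refine ⟨⟨h, hh⟩ * k, ?_⟩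
        show ((⟨h, hh⟩ : H) * k) • a₀ = h • x
        rw [mul_smul]
        have : k • a₀ = x := hk
        rw [this]
        rfl
    let I : α → B → Prop := fun x q => ∃ g : G, (g : B) = q ∧ g⁻¹ • x ∈ Δ
    have hI1 : ∀ x (g : G), I x (g : B) ↔ g⁻¹ • x ∈ Δ := by
      intro x g
      constructor
      · rintro ⟨k, hk, hx⟩
        rw [QuotientGroup.eq] at hk
        have h4 := (hΔ (k⁻¹ * g) hk (g⁻¹ • x)).1 (by
          rw [← mul_smul, mul_assoc, mul_inv_cancel, mul_one]; exact hx)
        exact h4
      · intro h; exact ⟨g, rfl, h⟩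
    have hI : ∀ (g : G) x q, I (g • x) (g • q) ↔ I x q := by
      intro g x q
      obtain ⟨k, rfl⟩ := QuotientGroup.mk_surjective q
      rw [hI1]
      show I (g • x) ((g * k : G) : B) ↔ _
      rw [hI1, mul_inv_rev, mul_smul, inv_smul_smul]
    have hI0 : ∀ x, I x ((1 : G) : B) ↔ x ∈ Δ := by
      intro x; rw [hI1, inv_one, one_smul]
    have ha₀ : a₀ ∈ Δ := MulAction.mem_orbit_self a₀
    by_cases h1 : ∃ b ∈ Δ, b ≠ a₀
    · obtain ⟨b, hb, hba⟩ := h1
      by_cases h2 : ∃ c, c ∉ Δ
      · obtain ⟨c, hc⟩ := h2
        have h5 := H10.block_large (G := G) (Ω := α) (B := B) h3 hB I hI ((1 : G) : B)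
          (Ne.symm hba) ((hI0 _).2 ha₀) ((hI0 _).2 hb) (fun h => hc ((hI0 _).1 h))
        -- the complement is `{c}`
        refine ⟨c, hfix c fun h hh => ?_⟩
        by_contra hne
        have h6 : Nat.card {x // I x ((1 : G) : B)} = Δ.ncard := by
          rw [← Nat.card_coe_set_eq]
          exact Nat.card_congr (Equiv.subtypeEquivRight hI0)
        rw [h6] at h5
        have h7 : Δ ⊆ Set.univ \ {c, h • c} := by
          intro x hx
          refine ⟨trivial, ?_⟩
          rintro (rfl | h8)
          · exact hc hx
          · rw [Set.mem_singleton_iff] at h8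
            rw [h8, hΔ h hh] at hx
            exact hc hx
        have h8 := Set.ncard_le_ncard h7 (Set.toFinite _)
        rw [Set.ncard_diff (Set.subset_univ _) (Set.toFinite _), Set.ncard_univ, Set.ncard_pair (Ne.symm hne),
          Nat.card_eq_fintype_card] at h8
        have h9 : 2 ≤ Fintype.card α := by rw [hα]; exact hp.two_le
        omega
      · exfalso
        push Not at h2
        apply hpH
        have h5 : Nat.card (MulAction.orbit H a₀) ∣ Nat.card H := by
          rw [Nat.card_coe_set_eq, ← MulAction.index_stabilizer]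
          exact Subgroup.index_dvd_card _
        have h6 : MulAction.orbit H a₀ = Set.univ := Set.eq_univ_of_forall h2
        rw [h6, Nat.card_coe_set_eq, Set.ncard_univ, Nat.card_eq_fintype_card, hα] at h5
        exact h5
    · push Not at h1
      exact ⟨a₀, hfix a₀ fun h hh => h1 _ ((hΔ h hh a₀).2 ha₀)⟩

end Cfsg.Agent.S0677
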