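import Cfsg.Statements.S0680
import Cfsg.Agent.H10.Perm7

set_option autoImplicit false
open Cfsg

namespace Cfsg.Agent.S0680

/-- A finite sharply doubly transitive permutation group has degree a prime power `p ^ j`; a Sylow `p`-subgroup is normal, elementary abelian and regular, and consists of the identity together with the elements without fixed points. (Frobenius' Theorem is not needed.) -/
theorem result {α : Type*} [Fintype α] [DecidableEq α] (G : Subgroup (Equiv.Perm α)) [MulAction.IsMultiplyPretransitive G α 2] (hsharp : ∀ x : Fin 2 ↪ α, MulAction.stabilizer G x = ⊥) (h2 : 2 ≤ Fintype.card α) : ∃ p j : ℕ, p.Prime ∧ 1 ≤ j ∧ Fintype.card α = p ^ j ∧ ∀ (hp : Fact p.Prime) (P : Sylow p G), (P : Subgroup G).Normal ∧ IsMulCommutative (P : Subgroup G) ∧ (∀ x ∈ (P : Subgroup G), x ^ p = 1) ∧ MulAction.IsPretransitive (P : Subgroup G) α ∧ (∀ a : α, MulAction.stabilizer (P : Subgroup G) a = ⊥) ∧ ∀ g : G, g ∈ (P : Subgroup G) ↔ g = 1 ∨ ∀ a : α, g • a ≠ a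 := by
  have hS := H10.Sharp2.of_stab (G := G) (α := α) inferInstance hsharp
  obtain ⟨p, j, hp, hj, hα, N, hNn, hNc, hNcomm, hNp, hNmem, hNtr⟩ :=
    hS.structure (by rw [Nat.card_eq_fintype_card]; exact h2)
  refine ⟨p, j, hp, hj, by rw [← Nat.card_eq_fintype_card, hα], fun hpf P => ?_⟩
  have hNpg : IsPGroup p N := IsPGroup.of_card hNc
  have hcard := hS.card (by rw [Nat.card_eq_fintype_card]; exact h2)
  have hidx : ¬ p ∣ N.index := by
    have h3 := Subgroup.card_mul_index N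
    rw [hcard, hNc, hα] at h3
    have h4 : N.index = p ^ j - 1 := Nat.eq_of_mul_eq_mul_left (pow_pos hp.pos j) h3
    rw [h4]
    intro hd
    have h5 : p ∣ p ^ j := dvd_pow_self p (by omega)
    have h6 : 1 ≤ p ^ j := Nat.one_le_pow _ _ hp.pos
    have h7 := (Nat.dvd_sub h5 hd)
    have h8 : p ^ j - (p ^ j - 1) = 1 := by omega
    rw [h8] at h7
    exact hp.one_lt.ne' (Nat.dvd_one.1 h7)
  have hPN : (P : Subgroup G) = N := by
    let Q := hNpg.toSylow hidx
    have hQn : (Q : Subgroup G).Normal := hNn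
    haveI := Sylow.unique_of_normal Q hQn
    have : P = Q := Subsingleton.elim _ _
    rw [this]; rfl
  refine ⟨hPN ▸ hNn, ?_, fun x hx => hNp x (hPN ▸ hx), ?_, ?_, fun g => ?_⟩
  · refine ⟨⟨fun a b => Subtype.ext ?_⟩⟩
    exact hNcomm a (hPN ▸ a.2) b (hPN ▸ b.2)
  · refine ⟨fun a b => ?_⟩
    obtain ⟨n, hn, hab⟩ := hNtr a b
    rw [← hPN] at hn
    exact ⟨⟨n, hn⟩, hab⟩
  · intro a
    rw [eq_bot_iff]
    intro x hx
    have h3 : (x : G) ∈ N := hPN ▸ x.2
    rcases (hNmem _).1 h3 with h4 | h4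
    · exact Subgroup.mem_bot.2 (Subtype.ext h4)
    · exact absurd hx (h4 a)
  · rw [hPN]; exact hNmem g

end Cfsg.Agent.S0680
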