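import Cfsg.Statements.S0681
import Cfsg.Agent.H10.Perm7

set_option autoImplicit false
open Cfsg

namespace Cfsg.Agent.S0681

theorem nf_zero_mul {F : Type*} [Cfsg.NearField F] (a : F) : 0 * a = 0 := by
  have h := Cfsg.NearField.right_distrib (0 : F) 0 a
  rw [add_zero] at h
  exact left_eq_add.1 h

theorem nf_neg_mul {F : Type*} [Cfsg.NearField F] (x a : F) : (-x) * a = -(x * a) := by
  have h := Cfsg.NearField.right_distrib (-x) x a
  rw [neg_add_cancel, nf_zero_mul] at h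
  exact (neg_eq_of_add_eq_zero_left h.symm).symm

theorem nf_sub_mul {F : Type*} [Cfsg.NearField F] (x y a : F) : (x - y) * a = x * a - y * a := by
  rw [sub_eq_add_neg, Cfsg.NearField.right_distrib, nf_neg_mul, ← sub_eq_add_neg]

theorem nf_mul_ne {F : Type*} [Cfsg.NearField F] {a b : F} (ha : a ≠ 0) (hb : b ≠ 0) : a * b ≠ 0 := by
  intro h
  obtain ⟨a', h1, h2⟩ := Cfsg.NearField.exists_inv a ha
  apply hb
  calc b = a' * a * b := by rw [h2, one_mul]
    _ = a' * (a * b) := mul_assoc _ _ _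
    _ = 0 := by rw [h, Cfsg.NearField.mul_zero]

/-- the affine group of a near-field -/
def nfAff (F : Type*) [Cfsg.NearField F] : Subgroup (Equiv.Perm F) where
  carrier := {σ | ∃ a b : F, a ≠ 0 ∧ ∀ x : F, σ x = x * a + b}
  one_mem' := ⟨1, 0, Ne.symm Cfsg.NearField.zero_ne_one, fun x => by simp⟩
  mul_mem' := by
    rintro σ τ ⟨a, b, ha, hσ⟩ ⟨c, d, hc, hτ⟩
    refine ⟨c * a, d * a + b, nf_mul_ne hc ha, fun x => ?_⟩
    rw [Equiv.Perm.mul_apply, hτ, hσ, Cfsg.NearField.right_distrib, mul_assoc, add_assoc]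
  inv_mem' := by
    rintro σ ⟨a, b, ha, hσ⟩
    obtain ⟨a', h1, h2⟩ := Cfsg.NearField.exists_inv a ha
    refine ⟨a', (-b) * a', ?_, fun x => ?_⟩
    · rintro rfl
      rw [nf_zero_mul] at h2
      exact Cfsg.NearField.zero_ne_one h2
    · rw [Equiv.Perm.inv_eq_iff_eq, hσ, ← Cfsg.NearField.right_distrib, mul_assoc, h2, mul_one,
        neg_add_cancel_right]

theorem mem_nfAff {F : Type*} [Cfsg.NearField F] {σ : Equiv.Perm F} :
    σ ∈ nfAff F ↔ ∃ a b : F, a ≠ 0 ∧ ∀ x : F, σ x = x * a + b := Iff.rfl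

theorem nfAff_exists {F : Type*} [Cfsg.NearField F] {x₁ x₂ y₁ y₂ : F} (hx : x₁ ≠ x₂) (hy : y₁ ≠ y₂) :
    ∃ σ ∈ nfAff F, σ x₁ = y₁ ∧ σ x₂ = y₂ := by
  obtain ⟨d, h1, h2⟩ := Cfsg.NearField.exists_inv (x₁ - x₂) (sub_ne_zero.2 hx)
  set a := d * (y₁ - y₂) with ha
  have hd : d ≠ 0 := by
    rintro rfl
    rw [nf_zero_mul] at h2
    exact Cfsg.NearField.zero_ne_one h2
  have ha0 : a ≠ 0 := nf_mul_ne hd (sub_ne_zero.2 hy)
  obtain ⟨a', h3, h4⟩ := Cfsg.NearField.exists_inv a ha0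
  have hsub : x₁ * a - x₂ * a = y₁ - y₂ := by
    rw [← nf_sub_mul, ha, ← mul_assoc, h1, one_mul]
  let b := -(x₁ * a) + y₁
  let σ : Equiv.Perm F :=
    { toFun := fun x => x * a + b
      invFun := fun y => (y - b) * a'
      left_inv := fun x => by
        show (x * a + b - b) * a' = x
        rw [add_sub_cancel_right, mul_assoc, h3, mul_one]
      right_inv := fun y => by
        show (y - b) * a' * a + b = y
        rw [mul_assoc, h4, mul_one, sub_add_cancel] }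
  refine ⟨σ, ⟨a, b, ha0, fun x => rfl⟩, ?_, ?_⟩
  · show x₁ * a + (-(x₁ * a) + y₁) = y₁
    rw [add_neg_cancel_left]
  · show x₂ * a + (-(x₁ * a) + y₁) = y₂
    have h5 : x₂ * a + -(x₁ * a) = -(y₁ - y₂) := by
      rw [← hsub, neg_sub, sub_eq_add_neg]
    rw [← add_assoc, h5, neg_sub, sub_add_cancel]

theorem nfAff_sharp {F : Type*} [Cfsg.NearField F] {σ : Equiv.Perm F} (hσ : σ ∈ nfAff F) {x₁ x₂ : F}
    (hx : x₁ ≠ x₂) (h1 : σ x₁ = x₁) (h2 : σ x₂ = x₂) : σ = 1 := by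
  obtain ⟨a, b, ha, hσ⟩ := hσ
  rw [hσ] at h1 h2
  obtain ⟨d, h3, h4⟩ := Cfsg.NearField.exists_inv (x₁ - x₂) (sub_ne_zero.2 hx)
  have h5 : (x₁ - x₂) * a = x₁ - x₂ := by
    rw [nf_sub_mul]
    calc x₁ * a - x₂ * a = (x₁ * a + b) - (x₂ * a + b) := (add_sub_add_right_eq_sub _ _ _).symm
      _ = _ := by rw [h1, h2]
  have ha1 : a = 1 := by
    calc a = d * (x₁ - x₂) * a := by rw [h4, one_mul]
      _ = d * ((x₁ - x₂) * a) := mul_assoc _ _ _
      _ = 1 := by rw [h5, h4]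
  have hb : b = 0 := by
    rw [ha1, mul_one] at h1
    exact add_eq_left.1 h1
  ext x
  rw [hσ, ha1, hb, mul_one, add_zero, Equiv.Perm.one_apply]

/-- The affine maps `x ↦ x * a + b`, `a ≠ 0`, of a near-field form a sharply doubly transitive permutation group. -/
theorem result {F : Type*} [Cfsg.NearField F] : ∃ H : Subgroup (Equiv.Perm F), (∀ σ : Equiv.Perm F, σ ∈ H ↔ ∃ a b : F, a ≠ 0 ∧ ∀ x : F, σ x = x * a + b) ∧ MulAction.IsMultiplyPretransitive H F 2 ∧ ∀ x : Fin 2 ↪ F, MulAction.stabilizer H x = ⊥ := by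
  refine ⟨nfAff F, fun σ => mem_nfAff, ?_, ?_⟩
  · rw [MulAction.is_two_pretransitive_iff]
    intro a b c d hab hcd
    obtain ⟨σ, hσ, h1, h2⟩ := nfAff_exists hab hcd
    exact ⟨⟨σ, hσ⟩, h1, h2⟩
  · intro x
    rw [eq_bot_iff]
    intro σ hσ
    rw [MulAction.mem_stabilizer_iff] at hσ
    have h1 : (σ : Equiv.Perm F) = 1 := nfAff_sharp σ.2 (x₁ := x 0) (x₂ := x 1)
      (fun h => absurd (x.injective h) (by decide)) (DFunLike.congr_fun hσ 0) (DFunLike.congr_fun hσ 1)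
    exact Subgroup.mem_bot.2 (Subtype.ext h1)

end Cfsg.Agent.S0681
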