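import Cfsg.Statements.S0682
import Cfsg.Agent.S0681
import Cfsg.Agent.S0680

set_option autoImplicit false
open Cfsg

namespace Cfsg.Agent.S0682

/-- A finite near-field has prime-power order; its additive group is commutative of prime exponent. -/
theorem result {F : Type*} [Cfsg.NearField F] [Finite F] : ∃ p j : ℕ, p.Prime ∧ 1 ≤ j ∧ Nat.card F = p ^ j ∧ (∀ x y : F, x + y = y + x) ∧ ∀ x : F, p • x = 0 := by
  classical
  haveI : Fintype F := Fintype.ofFinite F
  have h2 : 2 ≤ Nat.card F := by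
    have : Nontrivial F := ⟨⟨0, 1, Cfsg.NearField.zero_ne_one⟩⟩
    exact Finite.one_lt_card
  have hS : H10.Sharp2 (S0681.nfAff F) F := by
    refine ⟨?_, ?_⟩
    · rw [MulAction.is_two_pretransitive_iff]
      intro a b c d hab hcd
      obtain ⟨σ, hσ, h1, h2⟩ := S0681.nfAff_exists hab hcd
      exact ⟨⟨σ, hσ⟩, h1, h2⟩
    · intro g a b hab ha hb
      exact Subtype.ext (S0681.nfAff_sharp g.2 hab ha hb)
  obtain ⟨p, j, hp, hj, hα, N, hNn, hNc, hNcomm, hNp, hNmem, hNtr⟩ := hS.structure h2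
  -- translations
  have htr : ∀ b : F, ∃ τ : S0681.nfAff F, τ ∈ N ∧ ∀ x, (τ : Equiv.Perm F) x = x + b := by
    intro b
    let τ : S0681.nfAff F := ⟨Equiv.addRight b, ⟨1, b, Ne.symm Cfsg.NearField.zero_ne_one,
      fun x => by rw [mul_one]; rfl⟩⟩
    refine ⟨τ, ?_, fun x => rfl⟩
    rw [hNmem]
    by_cases hb : b = 0
    · left
      apply Subtype.ext
      ext x
      show x + b = x
      rw [hb, add_zero]
    · right
      intro a ha
      have : a + b = a := ha
      exact hb (add_eq_left.1 this)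
  refine ⟨p, j, hp, hj, hα, ?_, ?_⟩
  · intro x y
    obtain ⟨τ, hτ, h3⟩ := htr x
    obtain ⟨σ, hσ, h4⟩ := htr y
    have h5 := congrArg (fun g : S0681.nfAff F => (g : Equiv.Perm F) 0) (hNcomm σ hσ τ hτ)
    have h6 : (σ : Equiv.Perm F) ((τ : Equiv.Perm F) 0) = (τ : Equiv.Perm F) ((σ : Equiv.Perm F) 0) := h5
    rw [h3, h4, h3, h4, zero_add, zero_add] at h6
    exact h6
  · intro x
    obtain ⟨τ, hτ, h3⟩ := htr x
    have h4 : ∀ n : ℕ, ((τ : Equiv.Perm F) ^ n) 0 = n • x := by
      intro n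
      induction n with
      | zero => simp
      | succ n ih => rw [pow_succ', Equiv.Perm.mul_apply, ih, h3, succ_nsmul]
    rw [← h4 p]
    have h5 : (τ : Equiv.Perm F) ^ p = 1 := congrArg Subtype.val (hNp τ hτ)
    rw [h5]; rfl

end Cfsg.Agent.S0682
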