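import Cfsg.Statements.S0683
import Cfsg.Agent.H10.Perm7

set_option autoImplicit false
open Cfsg

namespace Cfsg.Agent.S0683

/-- A finite sharply doubly transitive permutation group is the affine group of a near-field: the permuted set carries a near-field structure for which the group consists exactly of the maps `x ↦ x * a + b` with `a ≠ 0`. -/
theorem result {α : Type*} [Fintype α] [DecidableEq α] (H : Subgroup (Equiv.Perm α)) [MulAction.IsMultiplyPretransitive H α 2] (hsharp : ∀ x : Fin 2 ↪ α, MulAction.stabilizer H x = ⊥) (h2 : 2 ≤ Fintype.card α) : ∃ _ : Cfsg.NearField α, ∀ σ : Equiv.Perm α, σ ∈ H ↔ ∃ a b : α, a ≠ 0 ∧ ∀ x : α, σ x = x * a + b := by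
  classical
  have hS := H10.Sharp2.of_stab (G := H) (α := α) inferInstance hsharp
  obtain ⟨p, j, hp, hj, hα, N, hNn, hNc, hNcomm, hNp, hNmem, hNtr⟩ :=
    hS.structure (by rw [Nat.card_eq_fintype_card]; exact h2)
  haveI : Nontrivial α := Fintype.one_lt_card_iff_nontrivial.1 h2
  obtain ⟨o, e, hoe⟩ := exists_pair_ne α
  have hNinj : ∀ m ∈ N, ∀ n ∈ N, ∀ a : α, m • a = n • a → m = n := by
    intro m hm n hn a hmn
    have h1 : (n⁻¹ * m) • a = a := by rw [mul_smul, hmn, inv_smul_smul]
    rcases (hNmem _).1 (mul_mem (inv_mem hn) hm) with h5 | h5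
    · rw [inv_mul_eq_one] at h5
      exact h5.symm
    · exact absurd h1 (h5 a)
  choose ν hνN hν using hNtr o
  have hνu : ∀ m ∈ N, ν (m • o) = m := fun m hm => hNinj _ (hνN _) _ hm o (hν _)
  -- multiplication
  have hmul : ∀ y : α, y ≠ o → ∃ h : H, h • o = o ∧ h • e = y := by
    intro y hy
    exact (MulAction.is_two_pretransitive_iff.1 hS.trans) hoe (Ne.symm hy)
  choose! η hηo hηe using hmul
  have hηu : ∀ h : H, h • o = o → ∀ y, h • e = y → y ≠ o → η y = h := by
    intro h ho y hy hyo
    have h1 : (h⁻¹ * η y) = 1 := by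
      apply hS.sharp _ o e hoe
      · rw [mul_smul, hηo y hyo, inv_smul_eq_iff, ho]
      · rw [mul_smul, hηe y hyo, ← hy, inv_smul_smul]
    rw [inv_mul_eq_one] at h1
    exact h1.symm
  have hηne : ∀ y, y ≠ o → ∀ x, x ≠ o → η y • x ≠ o := by
    intro y hy x hx h
    apply hx
    rw [← hηo y hy] at h
    exact MulAction.injective _ h
  let add : α → α → α := fun x y => ν x • y
  let mul : α → α → α := fun x y => if y = o then o else η y • x
  have hadd : ∀ x y, add x y = (ν x * ν y) • o := by
    intro x y
    show ν x • y = _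
    rw [mul_smul, hν y]
  have hνadd : ∀ x y, ν (add x y) = ν x * ν y := by
    intro x y
    rw [hadd]; exact hνu _ (mul_mem (hνN _) (hνN _))
  have hνo : ν o = 1 := by
    have := hνu 1 (one_mem N)
    rwa [one_smul] at this
  have hmul0 : ∀ x, mul x o = o := fun x => if_pos rfl
  have hmuln : ∀ x y, y ≠ o → mul x y = η y • x := fun x y hy => if_neg hy
  have h0mul : ∀ y, mul o y = o := by
    intro y
    by_cases hy : y = o
    · rw [hy, hmul0]
    · rw [hmuln _ _ hy, hηo y hy]
  have hηmul : ∀ y z, y ≠ o → z ≠ o → η (mul y z) = η z * η y := by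
    intro y z hy hz
    rw [hmuln _ _ hz]
    apply hηu
    · rw [mul_smul, hηo y hy, hηo z hz]
    · rw [mul_smul, hηe y hy]
    · exact hηne z hz y hy
  have hηe1 : η e = 1 := hηu 1 (one_smul _ _) e (one_smul _ _) (Ne.symm hoe)
  let inst : Cfsg.NearField α :=
    { add := add
      add_assoc := by
        intro x y z
        show add (add x y) z = add x (add y z)
        rw [hadd (add x y) z, hνadd, hadd x (add y z), hνadd, mul_assoc]
      zero := o
      zero_add := by
        intro x
        show add o x = x
        show ν o • x = x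
        rw [hνo, one_smul]
      add_zero := by
        intro x
        show ν x • o = x
        exact hν x
      nsmul := @nsmulRec α ⟨o⟩ ⟨add⟩
      zsmul := @zsmulRec α ⟨o⟩ ⟨add⟩ ⟨fun x => (ν x)⁻¹ • o⟩ (@nsmulRec α ⟨o⟩ ⟨add⟩)
      neg := fun x => (ν x)⁻¹ • o
      neg_add_cancel := by
        intro x
        show add ((ν x)⁻¹ • o) x = o
        rw [hadd, hνu _ (inv_mem (hνN x)), inv_mul_cancel, one_smul]
      mul := mul
      mul_assoc := by
        intro x y z
        show mul (mul x y) z = mul x (mul y z)
        by_cases hz : z = o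
        · rw [hz, hmul0, hmul0, hmul0]
        by_cases hy : y = o
        · rw [hy, hmul0, h0mul, hmul0]
        have hyz : mul y z ≠ o := by rw [hmuln _ _ hz]; exact hηne z hz y hy
        rw [hmuln x (mul y z) hyz, hηmul y z hy hz, hmuln _ _ hz, hmuln _ _ hy, mul_smul]
      one := e
      one_mul := by
        intro x
        show mul e x = x
        by_cases hx : x = o
        · rw [hx, hmul0]
        · rw [hmuln _ _ hx, hηe x hx]
      mul_one := by
        intro x
        show mul x e = x
        rw [hmuln _ _ (Ne.symm hoe), hηe1, one_smul]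
      right_distrib := by
        intro a b c
        show mul (add a b) c = add (mul a c) (mul b c)
        by_cases hc : c = o
        · rw [hc, hmul0, hmul0, hmul0]
          show o = ν o • o
          rw [hνo, one_smul]
        · rw [hmuln _ _ hc, hmuln _ _ hc, hmuln _ _ hc]
          have hconj : ν (η c • a) = η c * ν a * (η c)⁻¹ := by
            apply hNinj _ (hνN _) _ (hNn.conj_mem _ (hνN a) _) o
            rw [hν, mul_smul, mul_smul]
            have : (η c)⁻¹ • o = o := by rw [inv_smul_eq_iff, hηo c hc]
            rw [this, hν]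
          show η c • ν a • b = ν (η c • a) • η c • b
          rw [hconj, ← mul_smul, ← mul_smul]
          congr 1
          group
      mul_zero := hmul0
      zero_ne_one := hoe
      exists_inv := by
        intro a ha
        have ha' : a ≠ o := ha
        have h1 : (η a)⁻¹ • o = o := by rw [inv_smul_eq_iff, hηo a ha']
        have h3 : (η a)⁻¹ • e ≠ o := by
          intro h
          rw [inv_smul_eq_iff, hηo a ha'] at h
          exact hoe h.symm
        refine ⟨(η a)⁻¹ • e, ?_, ?_⟩
        · show mul a ((η a)⁻¹ • e) = e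
          rw [hmuln _ _ h3, hηu (η a)⁻¹ h1 _ rfl h3, inv_smul_eq_iff, hηe a ha']
        · show mul ((η a)⁻¹ • e) a = e
          rw [hmuln _ _ ha', smul_inv_smul] }
  refine ⟨inst, fun σ => ?_⟩
  have hform : ∀ a b x : α, a ≠ o → x * a + b = (ν b * η a : H) • x := by
    intro a b x ha
    show add (mul x a) b = _
    rw [hmuln _ _ ha, hadd, hNcomm _ (hνN _) _ (hνN _), mul_smul, hν, mul_smul]
  constructor
  · intro hσ
    let s : H := ⟨σ, hσ⟩
    let b := s • o
    let t : H := (ν b)⁻¹ * s
    have ht : t • o = o := by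
      rw [mul_smul, inv_smul_eq_iff, hν]
    have hte : t • e ≠ o := by
      intro h
      rw [← ht] at h
      exact hoe (MulAction.injective _ h).symm
    refine ⟨t • e, b, hte, fun x => ?_⟩
    rw [hform _ _ _ hte, hηu t ht _ rfl hte, mul_inv_cancel_left]
    rfl
  · rintro ⟨a, b, ha, hσ⟩
    have : σ = ((ν b * η a : H) : Equiv.Perm α) := by
      ext x
      rw [hσ x, hform a b x ha]
      rfl
    rw [this]
    exact (ν b * η a).2

end Cfsg.Agent.S0683
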