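import Cfsg.Statements.S0684
import Mathlib
import Cfsg.Agent.H10.Perm21

set_option autoImplicit false
open Cfsg

namespace Cfsg.Agent.S0684

/-- Point stabiliser of a sharply doubly transitive group not of semilinear type: a maximal normal abelian subgroup `A` of a linear group `H` that is regular on non-zero vectors and has no irreducible cyclic normal subgroup is cyclic and reducible, and the order of `A` divides `p ^ k - 1` for `k` the dimension of a minimal `A`-invariant subspace. -/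
theorem result {p : ℕ} [Fact p.Prime] {V : Type*} [AddCommGroup V] [Module (ZMod p) V] [Finite V] (H : Subgroup (V ≃ₗ[ZMod p] V)) (hreg : ∀ v w : V, v ≠ 0 → w ≠ 0 → ∃! h : H, (h : V ≃ₗ[ZMod p] V) v = w) (hI : ∀ A : Subgroup H, A.Normal → IsCyclic A → ∃ W : Submodule (ZMod p) V, W ≠ ⊥ ∧ W ≠ ⊤ ∧ ∀ a ∈ A, ∀ v ∈ W, ((a : H) : V ≃ₗ[ZMod p] V) v ∈ W) (A : Subgroup H) (hAn : A.Normal) (hAc : IsMulCommutative A) (hAmax : ∀ B : Subgroup H, B.Normal → IsMulCommutative B → A ≤ B → B = A) : IsCyclic A ∧ ∃ W : Submodule (ZMod p) V, W ≠ ⊥ ∧ W ≠ ⊤ ∧ (∀ a ∈ A, ∀ v ∈ W, ((a : H) : V ≃ₗ[ZMod p] V) v ∈ W) ∧ (∀ W' : Submodule (ZMod p) V, W' ≤ W → (∀ a ∈ A, ∀ v ∈ W', ((a : H) : V ≃ₗ[ZMod p] V) v ∈ W') → W' = ⊥ ∨ W' = W) ∧ Nat.card A ∣ p ^ Module.finrank (ZMod p) W - 1 := by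
  open Cfsg.Agent.H10 MulAction in
  have hAcc : ∀ a ∈ A, ∀ b ∈ A, a * b = b * a := fun a ha b hb =>
    congrArg Subtype.val (hAc.is_comm.comm ⟨a, ha⟩ ⟨b, hb⟩)
  haveI : Nontrivial V := by
    obtain ⟨W, hW, _⟩ := hI ⊥ inferInstance inferInstance
    obtain ⟨x, _, hx⟩ := Submodule.exists_mem_ne_zero_of_ne_bot hW
    exact ⟨x, 0, hx⟩
  have hcyc := cyclic_of_reg hreg hAcc
  refine ⟨hcyc, ?_⟩
  obtain ⟨W₀, hW₀, hW₀t, hW₀i⟩ := hI A hAn hcyc
  obtain ⟨W, hWle, hW0, hWi, hWm⟩ := exists_min_inv A W₀ hW₀ hW₀i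
  refine ⟨W, hW0, ?_, hWi, fun W' h1 h2 => hWm W' h1 h2, ?_⟩
  · rintro rfl
    exact hW₀t (top_le_iff.1 hWle)
  · have h1 : Nat.card A ∣ Nat.card ((W : Set V) \ {0} : Set V) := by
      apply dvd_card_of_orbits (H := A)
      · rintro a x ⟨hx, hx0⟩
        refine ⟨hWi a a.2 x hx, fun h => hx0 ?_⟩
        have h3 : (((a : H) : V ≃ₗ[ZMod p] V)) x = 0 := h
        exact ((((a : H) : V ≃ₗ[ZMod p] V)).map_eq_zero_iff).1 h3
      · rintro x ⟨hx, hx0⟩
        have hx0' : x ≠ 0 := hx0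
        have e1 := card_orb_mul (H := A) x
        have e2 : stabilizer A x = ⊥ := by
          rw [eq_bot_iff]
          rintro a ha
          rw [Subgroup.mem_bot]
          apply Subtype.ext
          exact (hreg x x hx0' hx0').unique (y₁ := (a : H)) (y₂ := 1) ha rfl
        rw [e2, Subgroup.card_bot, mul_one] at e1
        exact e1
    have h2 : Nat.card ((W : Set V) \ {0} : Set V) + 1 = p ^ Module.finrank (ZMod p) W := by
      rw [Nat.card_coe_set_eq, Set.ncard_diff_singleton_add_one (show (0 : V) ∈ (W : Set V) from W.zero_mem) (Set.toFinite _),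
        ← Nat.card_coe_set_eq]
      have : Nat.card W = Nat.card (ZMod p) ^ Module.finrank (ZMod p) W := Module.natCard_eq_pow_finrank
      rw [Nat.card_zmod] at this
      exact this
    rw [← h2, Nat.add_sub_cancel]
    exact h1

end Cfsg.Agent.S0684
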