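import Cfsg.Statements.S0685
import Mathlib
import Cfsg.Agent.H10.Perm21

set_option autoImplicit false
open Cfsg

namespace Cfsg.Agent.S0685

open Cfsg.Agent.H10 in
theorem aeval_val {p : ℕ} [hp : Fact p.Prime] {V : Type*} [AddCommGroup V] [Module (ZMod p) V]
    {H : Subgroup (V ≃ₗ[ZMod p] V)} (A : Subgroup H) (x : EA A) (P : Polynomial (ZMod p)) :
    ((Polynomial.aeval x P : EA A) : Module.End (ZMod p) V) = Polynomial.aeval (x : Module.End (ZMod p) V) P :=
  (Polynomial.aeval_algHom_apply (EA A).val x P).symm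

open Cfsg.Agent.H10 in
/-- number of conjugates of an element of a normal abelian subgroup -/
theorem index_le {p : ℕ} [hp : Fact p.Prime] {V : Type*} [AddCommGroup V] [Module (ZMod p) V]
    {H : Subgroup (V ≃ₗ[ZMod p] V)} [Finite V] [Nontrivial V]
    (hreg : ∀ v w : V, v ≠ 0 → w ≠ 0 → ∃! h : H, (h : V ≃ₗ[ZMod p] V) v = w)
    {A : Subgroup H} [hAn : A.Normal] (hA : ∀ a ∈ A, ∀ b ∈ A, a * b = b * a) (a : H) (ha : a ∈ A)
    (hcent : ∀ h : H, h * a = a * h → h ∈ A) :
    A.index ≤ Module.finrank (ZMod p) (EA A) := by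
  classical
  letI := EAring hA
  haveI := EA_noZero hreg hA
  haveI : IsDomain (EA A) := NoZeroDivisors.to_isDomain _
  let y : H → EA A := fun h => ⟨_, mem_EA (hAn.conj_mem a ha h)⟩
  let xa : EA A := ⟨_, mem_EA ha⟩
  let P := minpoly (ZMod p) xa
  haveI : Module.Finite (ZMod p) V := Module.Finite.of_finite
  have hint : IsIntegral (ZMod p) xa := Algebra.IsIntegral.isIntegral xa
  have hP0 : P ≠ 0 := minpoly.ne_zero hint
  have hroot : ∀ h : H, Polynomial.aeval (y h) P = 0 := by
    intro h
    apply Subtype.ext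
    have h1 : Polynomial.aeval (((y h : EA A) : Module.End (ZMod p) V)) P = 0 := by
      have h2 : ((y h : EA A) : Module.End (ZMod p) V) =
          ((h : V ≃ₗ[ZMod p] V).conjAlgEquiv (ZMod p)) ((xa : EA A) : Module.End (ZMod p) V) := rfl
      rw [h2, Polynomial.aeval_algHom_apply ((h : V ≃ₗ[ZMod p] V).conjAlgEquiv (ZMod p))]
      have h3 : Polynomial.aeval ((xa : EA A) : Module.End (ZMod p) V) P = 0 := by
        have h4 : Polynomial.aeval xa P = 0 := minpoly.aeval _ _
        have h5 := congrArg (fun t : EA A => (t : Module.End (ZMod p) V)) h4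
        exact (aeval_val A xa P).symm.trans h5
      rw [h3, map_zero]
    have h6 : ((Polynomial.aeval (y h) P : EA A) : Module.End (ZMod p) V) = Polynomial.aeval (((y h : EA A) : Module.End (ZMod p) V)) P :=
      aeval_val A (y h) P
    rw [h6, h1]; rfl
  let S : Finset (EA A) := (P.aroots (EA A)).toFinset
  have hS : S.card ≤ Module.finrank (ZMod p) (EA A) := by
    calc S.card ≤ Multiset.card (P.aroots (EA A)) := Multiset.toFinset_card_le _
      _ ≤ P.natDegree := by
        rw [Polynomial.aroots_def]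
        refine (Polynomial.card_roots' _).trans ?_
        exact Polynomial.natDegree_map_le
      _ ≤ _ := minpoly.natDegree_le xa
  have hyS : ∀ h : H, y h ∈ S := by
    intro h
    rw [Multiset.mem_toFinset, Polynomial.mem_aroots]
    exact ⟨hP0, hroot h⟩
  let F : H ⧸ A → S := Quotient.lift (fun h => (⟨y h, hyS h⟩ : S)) (by
    intro h k hhk
    apply Subtype.ext; apply Subtype.ext
    have h1 : h⁻¹ * k ∈ A := QuotientGroup.leftRel_apply.1 hhk
    have h2 := hA _ h1 a ha
    have h3 : h * a * h⁻¹ = k * a * k⁻¹ := by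
      calc h * a * h⁻¹ = h * (a * (h⁻¹ * k)) * k⁻¹ := by group
        _ = h * ((h⁻¹ * k) * a) * k⁻¹ := by rw [h2]
        _ = _ := by group
    exact congrArg (fun t : H => ((t : V ≃ₗ[ZMod p] V) : V →ₗ[ZMod p] V)) h3)
  have hF : Function.Injective F := by
    intro q q'
    induction q using QuotientGroup.induction_on with | _ h => ?_
    induction q' using QuotientGroup.induction_on with | _ k => ?_
    intro hhk
    have h1 : (((h * a * h⁻¹ : H) : V ≃ₗ[ZMod p] V) : V →ₗ[ZMod p] V) = (((k * a * k⁻¹ : H) : V ≃ₗ[ZMod p] V) : V →ₗ[ZMod p] V) :=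
      congrArg (fun t : S => ((t : EA A) : Module.End (ZMod p) V)) hhk
    have h2 : h * a * h⁻¹ = k * a * k⁻¹ := Subtype.ext (LinearEquiv.toLinearMap_injective h1)
    rw [QuotientGroup.eq]
    apply hcent
    calc h⁻¹ * k * a = h⁻¹ * (k * a * k⁻¹) * k := by group
      _ = h⁻¹ * (h * a * h⁻¹) * k := by rw [h2]
      _ = _ := by group
  calc A.index = Nat.card (H ⧸ A) := rfl
    _ ≤ Nat.card S := Nat.card_le_card_of_injective F hF
    _ = S.card := by rw [Nat.card_eq_fintype_card, Fintype.card_coe]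
    _ ≤ _ := hS

/-- In a linear group over the prime field that is regular on non-zero vectors and has no irreducible cyclic normal subgroup, a maximal normal abelian subgroup is properly contained in its centraliser, which is non-abelian. -/
theorem result {p : ℕ} [Fact p.Prime] {V : Type*} [AddCommGroup V] [Module (ZMod p) V] [Finite V] (H : Subgroup (V ≃ₗ[ZMod p] V)) (hreg : ∀ v w : V, v ≠ 0 → w ≠ 0 → ∃! h : H, (h : V ≃ₗ[ZMod p] V) v = w) (hI : ∀ A : Subgroup H, A.Normal → IsCyclic A → ∃ W : Submodule (ZMod p) V, W ≠ ⊥ ∧ W ≠ ⊤ ∧ ∀ a ∈ A, ∀ v ∈ W, ((a : H) : V ≃ₗ[ZMod p] V) v ∈ W) (A : Subgroup H) (hAn : A.Normal) (hAc : IsMulCommutative A) (hAmax : ∀ B : Subgroup H, B.Normal → IsMulCommutative B → A ≤ B → B = A) : A < Subgroup.centralizer (A : Set H) ∧ ¬ IsMulCommutative (Subgroup.centralizer (A : Set H)) := by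
  open Cfsg.Agent.H10 MulAction in
  have hAcc : ∀ a ∈ A, ∀ b ∈ A, a * b = b * a := fun a ha b hb =>
    congrArg Subtype.val (hAc.is_comm.comm ⟨a, ha⟩ ⟨b, hb⟩)
  haveI : Nontrivial V := by
    obtain ⟨W, hW, _⟩ := hI ⊥ inferInstance inferInstance
    obtain ⟨x, _, hx⟩ := Submodule.exists_mem_ne_zero_of_ne_bot hW
    exact ⟨x, 0, hx⟩
  have hcyc := cyclic_of_reg hreg hAcc
  have hAle : A ≤ Subgroup.centralizer (A : Set H) := by
    intro x hx
    rw [Subgroup.mem_centralizer_iff]
    intro y hy
    exact hAcc y hy x hx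
  have hkey : A ≠ Subgroup.centralizer (A : Set H) := by
    intro hAC
    obtain ⟨W₀, hW₀, hW₀t, hW₀i⟩ := hI A hAn hcyc
    obtain ⟨y, hyW, hy0⟩ := Submodule.exists_mem_ne_zero_of_ne_bot hW₀
    obtain ⟨z, hzW⟩ : ∃ z, z ∉ W₀ := by
      by_contra hcon
      push Not at hcon
      exact hW₀t (eq_top_iff.2 (fun z _ => hcon z))
    have hz0 : z ≠ 0 := by rintro rfl; exact hzW W₀.zero_mem
    obtain ⟨⟨a, ha⟩, hgen⟩ := hcyc.exists_generator
    have hcent : ∀ h : H, h * a = a * h → h ∈ A := by
      intro h hh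
      rw [hAC, Subgroup.mem_centralizer_iff]
      intro b hb
      obtain ⟨i, hi⟩ := hgen ⟨b, hb⟩
      have hi' : a ^ i = b := congrArg Subtype.val hi
      rw [← hi']
      exact ((show Commute h a from hh).zpow_right i).symm
    have hidx := index_le hreg hAcc a ha hcent
    haveI hfV : Finite (Module.End (ZMod p) V) := Finite.of_injective (fun e : Module.End (ZMod p) V => (e : V → V)) DFunLike.coe_injective
    haveI : Finite (V ≃ₗ[ZMod p] V) := Finite.of_injective (fun e : V ≃ₗ[ZMod p] V => (e : V → V)) DFunLike.coe_injective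
    haveI : Finite (EA A) := inferInstance
    obtain ⟨k, hk⟩ : ∃ k, k = Module.finrank (ZMod p) (EA A) := ⟨_, rfl⟩
    have hE : Nat.card (EA A) = p ^ k := by
      have : Nat.card (EA A) = Nat.card (ZMod p) ^ Module.finrank (ZMod p) (EA A) := Module.natCard_eq_pow_finrank
      rw [Nat.card_zmod] at this
      rw [hk]; exact this
    -- |A| ≤ |E| - 1
    have hA1 : Nat.card A + 1 ≤ p ^ k := by
      rw [← hE]
      have h1 : Nat.card (Option A) ≤ Nat.card (EA A) := by
        refine Nat.card_le_card_of_injective (fun o : Option A => o.elim (0 : EA A) (fun a => ⟨_, mem_EA a.2⟩)) ?_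
        have hne : ∀ a : A, (⟨_, mem_EA a.2⟩ : EA A) ≠ 0 := by
          intro a h
          have h2 : ((((a : H) : V ≃ₗ[ZMod p] V)) : V →ₗ[ZMod p] V) = 0 := congrArg Subtype.val h
          have h3 := congrArg (fun t : V →ₗ[ZMod p] V => t y) h2
          exact hy0 ((((a : H) : V ≃ₗ[ZMod p] V)).map_eq_zero_iff.1 h3)
        rintro (_ | a) (_ | b) hab
        · rfl
        · exact absurd hab.symm (hne b)
        · exact absurd hab (hne a)
        · have h2 : ((((a : H) : V ≃ₗ[ZMod p] V)) : V →ₗ[ZMod p] V) = ((((b : H) : V ≃ₗ[ZMod p] V)) : V →ₗ[ZMod p] V) :=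
            congrArg Subtype.val hab
          congr 1
          apply Subtype.ext; apply Subtype.ext
          exact LinearEquiv.toLinearMap_injective h2
      rwa [Finite.card_option] at h1
    -- |V| ≥ |E|^2
    have hV : (p ^ k) * (p ^ k) ≤ Nat.card V := by
      rw [← hE, ← Nat.card_prod]
      refine Nat.card_le_card_of_injective (fun q : EA A × EA A => (q.1 : Module.End (ZMod p) V) y + (q.2 : Module.End (ZMod p) V) z) ?_
      have hzero : ∀ e ∈ EA A, ∀ f ∈ EA A, e y + f z = 0 → e = 0 ∧ f = 0 := by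
        intro e he f hf h
        have hf0 : f = 0 := by
          by_contra hf0
          have hfz : f z ≠ 0 := fun h1 => hf0 (EA_injective hreg hAcc hf hz0 h1)
          obtain ⟨g, hg, hgf⟩ := EA_inverse hreg hz0 hf hfz
          apply hzW
          rw [← hgf]
          apply EA_inv hW₀i hg
          have h2 : f z = - e y := by
            rw [eq_neg_iff_add_eq_zero, add_comm]; exact h
          rw [h2]
          exact W₀.neg_mem (EA_inv hW₀i he y hyW)
        refine ⟨?_, hf0⟩
        rw [hf0] at h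
        have h3 : e y = 0 := by simpa using h
        exact EA_injective hreg hAcc he hy0 h3
      rintro ⟨⟨e, he⟩, ⟨f, hf⟩⟩ ⟨⟨e', he'⟩, ⟨f', hf'⟩⟩ h
      have h1 : e y + f z = e' y + f' z := h
      obtain ⟨h2, h3⟩ := hzero (e - e') (sub_mem he he') (f - f') (sub_mem hf hf') (by
        simp only [LinearMap.sub_apply]
        have : e y - e' y + (f z - f' z) = (e y + f z) - (e' y + f' z) := by abel
        rw [this, h1, sub_self])
      rw [sub_eq_zero] at h2 h3
      subst h2; subst h3; rfl
    -- |H| = |V| - 1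
    have hH : Nat.card H + 1 = Nat.card V := by
      rw [← Finite.card_option]
      refine Nat.card_congr (Equiv.ofBijective (fun o : Option H => o.elim (0 : V) (fun h => (h : V ≃ₗ[ZMod p] V) y)) ⟨?_, ?_⟩)
      · have hne : ∀ h : H, (h : V ≃ₗ[ZMod p] V) y ≠ 0 := fun h h1 => hy0 ((h : V ≃ₗ[ZMod p] V).map_eq_zero_iff.1 h1)
        rintro (_ | a) (_ | b) hab
        · rfl
        · exact absurd hab.symm (hne b)
        · exact absurd hab (hne a)
        · congr 1
          exact (hreg y ((b : V ≃ₗ[ZMod p] V) y) hy0 (hne b)).unique hab rfl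
      · intro v
        by_cases hv : v = 0
        · exact ⟨none, hv.symm⟩
        · obtain ⟨h, hh, _⟩ := hreg y v hy0 hv
          exact ⟨some h, hh⟩
    have hmul : Nat.card A * A.index = Nat.card H := A.card_mul_index
    rw [← hk] at hidx
    have hkp : k < p ^ k := Nat.lt_pow_self (Fact.out : p.Prime).one_lt
    have h1 : Nat.card H ≤ Nat.card A * k := by rw [← hmul]; exact Nat.mul_le_mul_left _ hidx
    have hpos : 0 < Nat.card H := Nat.card_pos
    obtain ⟨q, hq⟩ : ∃ q, p ^ k = q + 1 := ⟨p ^ k - 1, by omega⟩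
    rw [hq] at hA1 hV hkp
    have h2 : Nat.card A * k ≤ q * q := Nat.mul_le_mul (by omega) (by omega)
    have h3 : (q + 1) * (q + 1) = q * q + 2 * q + 1 := by ring
    have h4 : 0 < q := by
      rcases Nat.eq_zero_or_pos q with h | h
      · exfalso
        have : 0 < Nat.card A := Nat.card_pos
        omega
      · exact h
    rw [h3] at hV
    omega
  have hlt : A < Subgroup.centralizer (A : Set H) := lt_of_le_of_ne hAle hkey
  refine ⟨hlt, fun hcomm => hkey ?_⟩
  exact (hAmax _ inferInstance hcomm hAle).symm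

end Cfsg.Agent.S0685
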