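import Cfsg.Statements.S0691
import Mathlib
import Cfsg.Agent.H10.Perm22

set_option autoImplicit false
open Cfsg

namespace Cfsg.Agent.S0691

open Cfsg.Agent.H10

local instance factPrime : Fact (Nat.Prime 5) := ⟨by norm_num⟩

def tblT : ℕ := 0x1101600700c00401001500600b00201301800900e00301201700800d00100500f00a014000
def tblD : ℕ := 0x3004004002002002003003003003004002002004001003003003001000003002002001000
theorem chkA : allB (fun i => (Nat.ble (5 * 5) i) || (Nat.beq i 0) || chkT 5 tblT 2 0 0 3 i) 5 0 = true := by decide +kernel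
theorem chkB : allB (fun i => (Nat.ble (5 * 5) i) || (Nat.beq i 0) || chkT 5 tblT 0 4 1 0 i) 5 0 = true := by decide +kernel
theorem chkC : allB (fun i => (Nat.ble (5 * 5) i) || (Nat.beq i 0) || chkT 5 tblT 1 2 1 3 i) 5 0 = true := by decide +kernel
theorem chkDep : allB (fun i => (Nat.ble (5 * 5) i) || (Nat.beq i 0) || (Nat.beq i 5) || chkD 5 tblD 3 0 0 2 i || chkD 5 tblD 0 1 4 0 i || chkD 5 tblD 3 3 4 1 i) 5 0 = true := by decide +kernel


/-- An exceptional sharply doubly transitive group of degree 5^2: the listed matrices generate a subgroup of GL(2,5) of order 24 acting regularly on the non-zero vectors. -/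
theorem result (A : Matrix.GeneralLinearGroup (Fin 2) (ZMod 5)) (B : Matrix.GeneralLinearGroup (Fin 2) (ZMod 5)) (C : Matrix.GeneralLinearGroup (Fin 2) (ZMod 5)) (hA : (A : Matrix (Fin 2) (Fin 2) (ZMod 5)) = !![2, 0; 0, -2]) (hB : (B : Matrix (Fin 2) (Fin 2) (ZMod 5)) = !![0, -1; 1, 0]) (hC : (C : Matrix (Fin 2) (Fin 2) (ZMod 5)) = !![1, 2; 1, -2]) : Nat.card (Subgroup.closure ({A, B, C} : Set (Matrix.GeneralLinearGroup (Fin 2) (ZMod 5)))) = 24 ∧ ∀ v w : Fin 2 → ZMod 5, v ≠ 0 → w ≠ 0 → ∃! h : Subgroup.closure ({A, B, C} : Set (Matrix.GeneralLinearGroup (Fin 2) (ZMod 5))), Matrix.mulVec ((h : Matrix.GeneralLinearGroup (Fin 2) (ZMod 5)) : Matrix (Fin 2) (Fin 2) (ZMod 5)) v = w := by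
  have eA : (A : Matrix (Fin 2) (Fin 2) (ZMod 5)) = !![((2 : ℕ) : ZMod 5), ((0 : ℕ) : ZMod 5); ((0 : ℕ) : ZMod 5), ((3 : ℕ) : ZMod 5)] := by
    rw [hA]; ext i j; fin_cases i <;> fin_cases j <;> decide
  have eB : (B : Matrix (Fin 2) (Fin 2) (ZMod 5)) = !![((0 : ℕ) : ZMod 5), ((4 : ℕ) : ZMod 5); ((1 : ℕ) : ZMod 5), ((0 : ℕ) : ZMod 5)] := by
    rw [hB]; ext i j; fin_cases i <;> fin_cases j <;> decide
  have eC : (C : Matrix (Fin 2) (Fin 2) (ZMod 5)) = !![((1 : ℕ) : ZMod 5), ((2 : ℕ) : ZMod 5); ((1 : ℕ) : ZMod 5), ((3 : ℕ) : ZMod 5)] := by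
    rw [hC]; ext i j; fin_cases i <;> fin_cases j <;> decide
  have main := exc_main (q := 5) ({A, B, C} : Set (Matrix.GeneralLinearGroup (Fin 2) (ZMod 5))) (TF 5 tblT) ?_ ?_ (DF 5 tblD) ?_
  · exact main
  · decide +kernel
  · intro g hg v hv
    rcases hg with rfl | rfl | rfl
    · rw [eA]; exact TF_equiv tblT _ _ _ _ 5 (by norm_num) chkA v hv
    · rw [eB]; exact TF_equiv tblT _ _ _ _ 5 (by norm_num) chkB v hv
    · rw [eC]; exact TF_equiv tblT _ _ _ _ 5 (by norm_num) chkC v hv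
  · intro v hv hv1
    obtain ⟨a, ha, c, hc, hvac, hi, hi0, hi1⟩ := idx_ne v hv hv1
    have h1 := allB_spec _ 5 0 chkDep (a * 5 + c) (Nat.zero_le _) (by norm_num; omega)
    have e1 : Nat.ble (5 * 5) (a * 5 + c) = false := by rw [← Bool.not_eq_true, Nat.ble_eq]; omega
    have e2 : Nat.beq (a * 5 + c) 0 = false := by rw [← Bool.not_eq_true, Nat.beq_eq]; exact hi0
    have e3 : Nat.beq (a * 5 + c) 5 = false := by rw [← Bool.not_eq_true, Nat.beq_eq]; exact hi1
    simp only [e1, e2, e3, Bool.false_or, Bool.or_eq_true] at h1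
    rcases h1 with ((h1 | h1) | h1)
    · refine ⟨A, Or.inl rfl, DF_step tblD 3 0 0 2 _ ?_ v a c ha hc hvac h1⟩
      rw [eA]; ext i j; fin_cases i <;> fin_cases j <;> simp only [Matrix.mul_apply, Fin.sum_univ_two] <;> decide
    · refine ⟨B, Or.inr (Or.inl rfl), DF_step tblD 0 1 4 0 _ ?_ v a c ha hc hvac h1⟩
      rw [eB]; ext i j; fin_cases i <;> fin_cases j <;> simp only [Matrix.mul_apply, Fin.sum_univ_two] <;> decide
    · refine ⟨C, Or.inr (Or.inr rfl), DF_step tblD 3 3 4 1 _ ?_ v a c ha hc hvac h1⟩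
      rw [eC]; ext i j; fin_cases i <;> fin_cases j <;> simp only [Matrix.mul_apply, Fin.sum_univ_two] <;> decide

end Cfsg.Agent.S0691
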