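import Cfsg.Statements.S0692
import Mathlib
import Cfsg.Agent.H10.Perm22

set_option autoImplicit false
open Cfsg

namespace Cfsg.Agent.S0692

open Cfsg.Agent.H10

local instance factPrime : Fact (Nat.Prime 11) := ⟨by norm_num⟩

def tblT : ℕ := 0x7700c02c05203904405801a02506400a05006605e07103804300501802301503104f06505c07001903d02402f04500701200804205b05106300f03001702203b07606907403c04e04a05d00202a01101c02e06807305a00902703a03604801001b05604906206d05407501603302903700300e00403f05506004706b01402801f03507206f06106c00604104c01302601e03405302005f06a02104004b03204d07800d00100b04602d02b06701d05905703e06e000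
def tblD : ℕ := 0x700800900c00700600800500200600200300a00c00400800900500b00900700500200800a00500c00500b00900b00800900900600c00b00400900c00400300b00800700600600a00500400300b00700a00700800900a00500600700b00800800900500c00500200c00b00600c00a00800700a00600900b00900700b00300800a00400a00500b00900700700a00600a00c00100700400400300a00800900a00700600500000300600a009008006007008004001000
theorem chkA : allB (fun i => (Nat.ble (11 * 11) i) || (Nat.beq i 0) || chkT 11 tblT 0 10 1 0 i) 7 0 = true := by decide +kernel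
theorem chkB : allB (fun i => (Nat.ble (11 * 11) i) || (Nat.beq i 0) || chkT 11 tblT 2 4 1 8 i) 7 0 = true := by decide +kernel
theorem chkDep : allB (fun i => (Nat.ble (11 * 11) i) || (Nat.beq i 0) || (Nat.beq i 11) || chkD 11 tblD 0 1 10 0 i || chkD 11 tblD 8 7 10 2 i) 7 0 = true := by decide +kernel


/-- An exceptional sharply doubly transitive group of degree 11^2: the listed matrices generate a subgroup of GL(2,11) of order 120 acting regularly on the non-zero vectors. -/
theorem result (A : Matrix.GeneralLinearGroup (Fin 2) (ZMod 11)) (B : Matrix.GeneralLinearGroup (Fin 2) (ZMod 11)) (hA : (A : Matrix (Fin 2) (Fin 2) (ZMod 11)) = !![0, -1; 1, 0]) (hB : (B : Matrix (Fin 2) (Fin 2) (ZMod 11)) = !![2, 4; 1, -3]) : Nat.card (Subgroup.closure ({A, B} : Set (Matrix.GeneralLinearGroup (Fin 2) (ZMod 11)))) = 120 ∧ ∀ v w : Fin 2 → ZMod 11, v ≠ 0 → w ≠ 0 → ∃! h : Subgroup.closure ({A, B} : Set (Matrix.GeneralLinearGroup (Fin 2) (ZMod 11))), Matrix.mulVec ((h : Matrix.GeneralLinearGroup (Fin 2) (ZMod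 11)) : Matrix (Fin 2) (Fin 2) (ZMod 11)) v = w := by
  have eA : (A : Matrix (Fin 2) (Fin 2) (ZMod 11)) = !![((0 : ℕ) : ZMod 11), ((10 : ℕ) : ZMod 11); ((1 : ℕ) : ZMod 11), ((0 : ℕ) : ZMod 11)] := by
    rw [hA]; ext i j; fin_cases i <;> fin_cases j <;> decide
  have eB : (B : Matrix (Fin 2) (Fin 2) (ZMod 11)) = !![((2 : ℕ) : ZMod 11), ((4 : ℕ) : ZMod 11); ((1 : ℕ) : ZMod 11), ((8 : ℕ) : ZMod 11)] := by
    rw [hB]; ext i j; fin_cases i <;> fin_cases j <;> decide
  have main := exc_main (q := 11) ({A, B} : Set (Matrix.GeneralLinearGroup (Fin 2) (ZMod 11))) (TF 11 tblT) ?_ ?_ (DF 11 tblD) ?_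
  · exact main
  · decide +kernel
  · intro g hg v hv
    rcases hg with rfl | rfl
    · rw [eA]; exact TF_equiv tblT _ _ _ _ 7 (by norm_num) chkA v hv
    · rw [eB]; exact TF_equiv tblT _ _ _ _ 7 (by norm_num) chkB v hv
  · intro v hv hv1
    obtain ⟨a, ha, c, hc, hvac, hi, hi0, hi1⟩ := idx_ne v hv hv1
    have h1 := allB_spec _ 7 0 chkDep (a * 11 + c) (Nat.zero_le _) (by norm_num; omega)
    have e1 : Nat.ble (11 * 11) (a * 11 + c) = false := by rw [← Bool.not_eq_true, Nat.ble_eq]; omega
    have e2 : Nat.beq (a * 11 + c) 0 = false := by rw [← Bool.not_eq_true, Nat.beq_eq]; exact hi0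
    have e3 : Nat.beq (a * 11 + c) 11 = false := by rw [← Bool.not_eq_true, Nat.beq_eq]; exact hi1
    simp only [e1, e2, e3, Bool.false_or, Bool.or_eq_true] at h1
    rcases h1 with (h1 | h1)
    · refine ⟨A, Or.inl rfl, DF_step tblD 0 1 10 0 _ ?_ v a c ha hc hvac h1⟩
      rw [eA]; ext i j; fin_cases i <;> fin_cases j <;> simp only [Matrix.mul_apply, Fin.sum_univ_two] <;> decide
    · refine ⟨B, Or.inr rfl, DF_step tblD 8 7 10 2 _ ?_ v a c ha hc hvac h1⟩
      rw [eB]; ext i j; fin_cases i <;> fin_cases j <;> simp only [Matrix.mul_apply, Fin.sum_univ_two] <;> decide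

end Cfsg.Agent.S0692
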