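import Cfsg.Statements.S0694
import Mathlib
import Cfsg.Agent.OOT.Base

set_option autoImplicit false
open Cfsg

namespace Cfsg.Agent.S0694

theorem dvd_iff_val {a b : ℕ} (ha : a ≠ 0) (hb : b ≠ 0) :
    a ∣ b ↔ ∀ r : ℕ, r.Prime → padicValNat r a ≤ padicValNat r b := by
  rw [← Nat.factorization_le_iff_dvd ha hb]
  constructor
  · intro h r hr
    have := h r
    rwa [Nat.factorization_def _ hr, Nat.factorization_def _ hr] at this
  · intro h r
    by_cases hr : r.Prime
    · rw [Nat.factorization_def _ hr, Nat.factorization_def _ hr]; exact h r hr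
    · rw [Nat.factorization_eq_zero_of_not_prime _ hr]; exact Nat.zero_le _

theorem val_odd {q r i : ℕ} (hq : 2 ≤ q) (hr : r.Prime) (hr2 : r ≠ 2) (h : r ∣ q - 1) (hi : i ≠ 0) :
    padicValNat r (q ^ i - 1) = padicValNat r (q - 1) + padicValNat r i := by
  haveI : Fact r.Prime := ⟨hr⟩
  have h1 := padicValNat.pow_sub_pow (p := r) (x := q) (y := 1) (hr.odd_of_ne_two hr2) (by omega) h
    (by
      intro h2
      have h3 := Nat.dvd_sub h2 h
      have h4 : q - (q - 1) = 1 := by omega
      rw [h4] at h3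
      exact hr.one_lt.ne' (Nat.dvd_one.1 h3)) hi
  rwa [one_pow] at h1

theorem val_two {q i : ℕ} (hq : 2 ≤ q) (h : 2 ∣ q - 1) (hi : i ≠ 0) (hie : Even i) :
    padicValNat 2 (q ^ i - 1) + 1 = padicValNat 2 (q + 1) + padicValNat 2 (q - 1) + padicValNat 2 i := by
  have h1 := padicValNat.pow_two_sub_pow (x := q) (y := 1) (by omega) h
    (by
      intro h2
      have h3 := Nat.dvd_sub h2 h
      have h4 : q - (q - 1) = 1 := by omega
      rw [h4] at h3
      omega) hi hie
  rwa [one_pow] at h1

theorem dvd_pow_sub {q i : ℕ} (hq : 2 ≤ q) : q - 1 ∣ q ^ i - 1 := by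
  have := Nat.sub_dvd_pow_sub_pow q 1 i
  rwa [one_pow] at this

/-- `q ^ i = 1 + (q-1) d` with `d` of the parity of `i` -/
theorem even_of_dvd {q n i : ℕ} (hq : 2 ≤ q) (h2 : 2 ∣ q - 1) (hn : 2 ∣ n)
    (h : n * (q - 1) ∣ q ^ i - 1) : Even i := by
  have h1 : (∑ k ∈ Finset.range i, q ^ k) * (q - 1) = q ^ i - 1 := by
    have h3 := Nat.geomSum_eq hq i
    rw [h3]
    exact Nat.div_mul_cancel (dvd_pow_sub hq)
  rw [← h1] at h
  have h3 := Nat.dvd_of_mul_dvd_mul_right (by omega) h
  have h4 : 2 ∣ ∑ k ∈ Finset.range i, q ^ k := hn.trans h3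
  have hqo : q % 2 = 1 := by omega
  have h5 : (∑ k ∈ Finset.range i, q ^ k) % 2 = i % 2 := by
    rw [Finset.sum_nat_mod]
    have : ∀ k ∈ Finset.range i, q ^ k % 2 = 1 := by
      intro k _
      rw [Nat.pow_mod, hqo, one_pow]; rfl
    rw [Finset.sum_congr rfl this, Finset.sum_const, Finset.card_range, smul_eq_mul, mul_one]
  rw [Nat.even_iff]
  omega

theorem lemA {q n m : ℕ} (hq : 2 ≤ q) (hn : n ≠ 0) (hm : m ≠ 0) (hnm : n ∣ m)
    (h : ∀ r : ℕ, r.Prime → r ∣ n → r ∣ q - 1) : n * (q - 1) ∣ q ^ m - 1 := by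
  have hq1 : q - 1 ≠ 0 := by omega
  have hqm : q ^ m - 1 ≠ 0 := by
    have : 1 < q ^ m := Nat.one_lt_pow hm hq
    omega
  rw [dvd_iff_val (mul_ne_zero hn hq1) hqm]
  intro r hr
  haveI : Fact r.Prime := ⟨hr⟩
  rw [padicValNat.mul hn hq1]
  by_cases hrn : r ∣ n
  · have hrq := h r hr hrn
    have h1 := (dvd_iff_val hn hm).1 hnm r hr
    by_cases hr2 : r = 2
    · subst hr2
      have hme : Even m := (even_iff_two_dvd).2 (hrn.trans hnm)
      have h3 := val_two hq hrq hm hme
      have h4 : 1 ≤ padicValNat 2 (q + 1) := one_le_padicValNat_of_dvd (by omega) (by omega)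
      omega
    · rw [val_odd hq hr hr2 hrq hm]; omega
  · rw [padicValNat.eq_zero_of_not_dvd hrn, zero_add]
    exact (dvd_iff_val hq1 hqm).1 (dvd_pow_sub hq) r hr

/-- The Dickson pair condition: for a prime power `q` and `n > 1`, (every prime factor of `n` divides `q - 1`, and `4 ∣ n → 4 ∣ q - 1`) holds exactly when `q ^ n ≡ 1` modulo `n * (q - 1)` but `q ^ i` is not, for `0 < i < n`. -/
theorem result (q n : ℕ) (hq : IsPrimePow q) (hn : 1 < n) : ((∀ r : ℕ, r.Prime → r ∣ n → r ∣ q - 1) ∧ (4 ∣ n → 4 ∣ q - 1)) ↔ (q ^ n ≡ 1 [MOD n * (q - 1)] ∧ ∀ i : ℕ, 0 < i → i < n → ¬ q ^ i ≡ 1 [MOD n * (q - 1)]) := by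
  have hq2 : 2 ≤ q := hq.two_le
  have hq1 : q - 1 ≠ 0 := by omega
  have key : ∀ i, q ^ i ≡ 1 [MOD n * (q - 1)] ↔ n * (q - 1) ∣ q ^ i - 1 := by
    intro i
    rw [← Nat.modEq_iff_dvd' (Nat.one_le_pow _ _ (by omega))]
    exact ⟨fun h => h.symm, fun h => h.symm⟩
  simp only [key]
  have hn0 : n ≠ 0 := by omega
  constructor
  · rintro ⟨h1, h4⟩
    refine ⟨lemA hq2 hn0 hn0 dvd_rfl h1, fun i hi0 hin hdvd => ?_⟩
    have hi : i ≠ 0 := by omega
    have hqi : q ^ i - 1 ≠ 0 := by
      have : 1 < q ^ i := Nat.one_lt_pow hi hq2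
      omega
    have hni : n ∣ i := by
      rw [dvd_iff_val hn0 hi]
      intro r hr
      haveI : Fact r.Prime := ⟨hr⟩
      by_cases hrn : r ∣ n
      · have hrq := h1 r hr hrn
        have h5 := (dvd_iff_val (mul_ne_zero hn0 hq1) hqi).1 hdvd r hr
        rw [padicValNat.mul hn0 hq1] at h5
        by_cases hr2 : r = 2
        · subst hr2
          have hie := even_of_dvd hq2 hrq hrn hdvd
          have h6 := val_two hq2 hrq hi hie
          by_cases h4n : 4 ∣ n
          · have h4q := h4 h4n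
            have h7 : padicValNat 2 (q + 1) = 1 := by
              have h8 : 1 ≤ padicValNat 2 (q + 1) := one_le_padicValNat_of_dvd (by omega) (by omega)
              by_contra hne
              have h9 : 2 ≤ padicValNat 2 (q + 1) := by omega
              have h10 : 2 ^ 2 ∣ q + 1 := (padicValNat_dvd_iff_le (by omega)).2 h9
              omega
            omega
          · have h7 : padicValNat 2 n ≤ 1 := by
              by_contra hne
              have h9 : 2 ≤ padicValNat 2 n := by omega
              have h10 : 2 ^ 2 ∣ n := (padicValNat_dvd_iff_le hn0).2 h9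
              exact h4n h10
            have h8 : 1 ≤ padicValNat 2 i := one_le_padicValNat_of_dvd hi hie.two_dvd
            omega
        · rw [val_odd hq2 hr hr2 hrq hi] at h5; omega
      · rw [padicValNat.eq_zero_of_not_dvd hrn]; exact Nat.zero_le _
    exact absurd (Nat.le_of_dvd hi0 hni) (by omega)
  · rintro ⟨hN, hmin⟩
    have hprimes : ∀ r : ℕ, r.Prime → r ∣ n → r ∣ q - 1 := by
      obtain ⟨m, k, hmk, hm, hk⟩ := OOT.exists_pi_split {r : ℕ | r ∣ q - 1} hn0
      have hm0 : m ≠ 0 := by rintro rfl; simp at hmk; omega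
      have hk0 : k ≠ 0 := by rintro rfl; simp at hmk; omega
      have hk1 : k = 1 := by
        by_contra hk1
        have hφ : Nat.totient k < k := Nat.totient_lt k (by omega)
        have hφ0 : 0 < Nat.totient k := Nat.totient_pos.2 (by omega)
        have hE0 : 0 < m * Nat.totient k := Nat.mul_pos (Nat.pos_of_ne_zero hm0) hφ0
        refine hmin (m * Nat.totient k) hE0 ?_ ?_
        · rw [hmk]; exact Nat.mul_lt_mul_of_pos_left hφ (Nat.pos_of_ne_zero hm0)
        · have h1 : m * (q - 1) ∣ q ^ (m * Nat.totient k) - 1 :=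
            lemA hq2 hm0 hE0.ne' (dvd_mul_right _ _) hm
          have hcop : Nat.Coprime q k := by
            refine Nat.coprime_of_dvd fun r hr h5 h6 => ?_
            have h7 : r ∣ q ^ n - 1 := (h6.trans (Dvd.intro_left m hmk.symm)).trans
              ((dvd_mul_right n (q - 1)).trans hN)
            have h8 : r ∣ q ^ n := h5.trans (dvd_pow_self q hn0)
            have h9 := Nat.dvd_sub h8 h7
            have h10 : q ^ n - (q ^ n - 1) = 1 := by
              have : 1 ≤ q ^ n := Nat.one_le_pow _ _ (by omega)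
              omega
            rw [h10] at h9
            exact hr.one_lt.ne' (Nat.dvd_one.1 h9)
          have h2 : k ∣ q ^ (m * Nat.totient k) - 1 := by
            have h3 : q ^ (m * Nat.totient k) ≡ 1 [MOD k] := by
              rw [mul_comm, pow_mul]
              have := (Nat.ModEq.pow_totient hcop).pow m
              rwa [one_pow] at this
            exact (Nat.modEq_iff_dvd' (Nat.one_le_pow _ _ (by omega))).1 h3.symm
          have h3 : Nat.Coprime (m * (q - 1)) k := by
            refine Nat.coprime_of_dvd fun r hr h5 h6 => ?_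
            apply hk r hr _ h6
            rcases hr.dvd_mul.1 h5 with h7 | h7
            · exact hm r hr h7
            · exact h7
          have h5 := h3.mul_dvd_of_dvd_of_dvd h1 h2
          rw [hmk]
          have h6 : m * k * (q - 1) = m * (q - 1) * k := by ring
          rw [h6]; exact h5
      intro r hr hrn
      rw [hmk, hk1, mul_one] at hrn
      exact hm r hr hrn
    refine ⟨hprimes, fun h4n => ?_⟩
    by_contra h4q
    have h2q : 2 ∣ q - 1 := hprimes 2 Nat.prime_two ((by norm_num : 2 ∣ 4).trans h4n)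
    obtain ⟨t, ht⟩ := h4n
    have hi : 2 * t ≠ 0 := by omega
    have hqi : q ^ (2 * t) - 1 ≠ 0 := by
      have : 1 < q ^ (2 * t) := Nat.one_lt_pow hi hq2
      omega
    refine hmin (2 * t) (by omega) (by omega) ?_
    have hn2 : n = 2 * (2 * t) := by omega
    rw [dvd_iff_val (mul_ne_zero hn0 hq1) hqi]
    intro r hr
    haveI : Fact r.Prime := ⟨hr⟩
    rw [padicValNat.mul hn0 hq1, hn2, padicValNat.mul two_ne_zero hi]
    by_cases hr2 : r = 2
    · subst hr2
      have h6 := val_two hq2 h2q hi ⟨t, by ring⟩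
      have h7 : 2 ≤ padicValNat 2 (q + 1) := by
        rw [← padicValNat_dvd_iff_le (by omega)]
        omega
      rw [padicValNat_self]
      omega
    · have h8 : padicValNat r 2 = 0 := padicValNat.eq_zero_of_not_dvd (fun h =>
        hr2 ((Nat.prime_dvd_prime_iff_eq hr Nat.prime_two).1 h))
      rw [h8, zero_add]
      by_cases hrn : r ∣ n
      · rw [val_odd hq2 hr hr2 (hprimes r hr hrn) hi]; omega
      · have h9 : padicValNat r (2 * t) = 0 := padicValNat.eq_zero_of_not_dvd (fun h =>
          hrn (by rw [hn2]; exact h.mul_left 2))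
        rw [h9, zero_add]
        exact (dvd_iff_val hq1 hqi).1 (dvd_pow_sub hq2) r hr

end Cfsg.Agent.S0694
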