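import Cfsg.Statements.S0695
import Cfsg.Agent.H10.Perm8

set_option autoImplicit false
open Cfsg

namespace Cfsg.Agent.S0695

/-- A regular normal subgroup of a doubly primitive group of finite degree at least 2 is an elementary abelian 2-group (and the degree is a power of 2), unless the degree is 3. -/
theorem result {G : Type*} [Group G] {X : Type*} [Fintype X] [MulAction G X] (hX : 2 ≤ Fintype.card X) (h2 : MulAction.IsMultiplyPreprimitive G X 2) (N : Subgroup G) [N.Normal] (htrans : MulAction.IsPretransitive N X) (hreg : ∀ x : X, MulAction.stabilizer N x = ⊥) : Fintype.card X = 3 ∨ (IsMulCommutative N ∧ (∀ n ∈ N, n ^ 2 = 1) ∧ ∃ m : ℕ, Fintype.card X = 2 ^ m) := by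
  rw [← Nat.card_eq_fintype_card] at hX ⊢
  rcases Cfsg.Agent.H10.two_prim_reg h2 hX htrans hreg with h | ⟨h1, h3, h4⟩
  · exact Or.inl h
  · exact Or.inr ⟨⟨⟨fun a b => Subtype.ext (h1 a a.2 b b.2)⟩⟩, h3, h4⟩

end Cfsg.Agent.S0695
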