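import Cfsg.Statements.S0697
import Cfsg.Agent.H10.Perm9

set_option autoImplicit false
open Cfsg

namespace Cfsg.Agent.S0697

/-- In a `k`-primitive permutation group which is not the whole symmetric group, a non-trivial non-regular normal subgroup is `k`-transitive. -/
theorem result {α : Type*} [Fintype α] [DecidableEq α] (G : Subgroup (Equiv.Perm α)) {k : ℕ} (hk : 1 ≤ k) (hkn : k ≤ Fintype.card α) (hG : MulAction.IsMultiplyPreprimitive G α k) (htop : G ≠ ⊤) (H : Subgroup G) [H.Normal] (hH : H ≠ ⊥) (hnr : ∃ a : α, MulAction.stabilizer H a ≠ ⊥) : MulAction.IsMultiplyPretransitive H α k := by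
  classical
  have hX : k + 2 ≤ Nat.card α := by
    by_contra hcon
    push Not at hcon
    apply htop
    have hle : Nat.card α - 1 ≤ k := by omega
    haveI := hG.isMultiplyPretransitive
    have h1 : MulAction.IsMultiplyPretransitive G α (Nat.card α - 1) := by
      refine MulAction.isMultiplyPretransitive_of_le (n := k) hle ?_
      rw [Nat.card_eq_fintype_card]; exact hkn
    exact Equiv.Perm.eq_top_of_isMultiplyPretransitive h1
  rw [← Cfsg.Agent.H10.kt_iff]
  obtain ⟨a, ha⟩ := hnr
  apply Cfsg.Agent.H10.kt_of_prim k hk hX hG H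
  obtain ⟨⟨⟨h, hhH⟩, hh⟩, hne⟩ := Subgroup.ne_bot_iff_exists_ne_one.1 ha
  exact ⟨a, h, hhH, fun h1 => hne (by apply Subtype.ext; apply Subtype.ext; exact h1), hh⟩

end Cfsg.Agent.S0697
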