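import Cfsg.Statements.S0699
import Mathlib
import Cfsg.Agent.H10.Perm19
import Cfsg.Agent.S0698

set_option autoImplicit false
open Cfsg

namespace Cfsg.Agent.S0699

/-- Wagner's Theorem: a non-trivial normal subgroup of a triply transitive permutation group of odd degree at least 5 is triply transitive. -/
theorem result {α : Type*} [Fintype α] [DecidableEq α] (G : Subgroup (Equiv.Perm α)) (hodd : Odd (Fintype.card α)) (h5 : 5 ≤ Fintype.card α) (hG : MulAction.IsMultiplyPretransitive G α 3) (N : Subgroup G) [N.Normal] (hN : N ≠ ⊥) : MulAction.IsMultiplyPretransitive N α 3 := by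
  open MulAction Cfsg.Agent.H10 Cfsg.Agent.H22 in
  rcases Cfsg.Agent.S0698.result G (k := 3) (by norm_num) (by omega) hG N hN with h | ⟨_, hc, hsq⟩
  · rw [← Nat.card_eq_fintype_card] at hodd h5
    exact wagner hodd h5 hG h
  · exfalso
    have hp : IsPreprimitive G α := by
      apply isPreprimitive_of_is_two_pretransitive
      exact isMultiplyPretransitive_of_le (n := 3) (by norm_num) (by rw [Nat.card_eq_fintype_card]; omega)
    have ht := isPretransitive_of_normal_of_primitive hp N inferInstance hN
    obtain ⟨a₀⟩ : Nonempty α := by rw [← Fintype.card_pos_iff]; omega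
    have h1 := card_orb_mul (H := N) a₀
    rw [orbit_eq_univ, Nat.card_coe_set_eq, Set.ncard_univ, Nat.card_eq_fintype_card] at h1
    haveI : Fact (Nat.Prime 2) := ⟨Nat.prime_two⟩
    have hpg : IsPGroup 2 N := fun x => ⟨1, by rw [pow_one]; exact Subtype.ext (hsq x x.2)⟩
    obtain ⟨m, hm⟩ := IsPGroup.iff_card.1 hpg
    rw [hm] at h1
    have h2 : Fintype.card α ∣ 2 ^ m := ⟨_, h1.symm⟩
    obtain ⟨j, _, hj⟩ := (Nat.dvd_prime_pow Nat.prime_two).1 h2
    rcases j with _ | j
    · rw [hj] at h5; norm_num at h5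
    · rw [hj] at hodd
      exact (Nat.not_even_iff_odd.2 hodd) ((Nat.even_pow).2 ⟨even_two, by omega⟩)

end Cfsg.Agent.S0699
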