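import Cfsg.Statements.S0700
import Mathlib
import Cfsg.Agent.H10.Perm18
import Cfsg.Agent.H21.Socle
import Cfsg.Agent.H22.Perm

set_option autoImplicit false
open Cfsg

namespace Cfsg.Agent.S0700

theorem simple_of_primitive {G : Type*} [Group G] {X : Type*} [MulAction G X] [Finite X] [FaithfulSMul G X]
    (h2 : MulAction.IsMultiplyPretransitive G X 2) {N T : Subgroup G} (h : Cfsg.Agent.H21.IsTSoc N T)
    (hprim : MulAction.IsPreprimitive N X) (a₀ : X) : T = N := by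
  open MulAction Cfsg.Agent.H21 Cfsg.Agent.H22 in
  by_contra hTN
  haveI : Finite G := Finite.of_injective _ (MulAction.toPerm_injective (α := G) (β := X))
  have hNn := h.normal
  have h2' : ∀ {a b c d : X}, a ≠ b → c ≠ d → ∃ g : G, g • a = c ∧ g • b = d :=
    is_two_pretransitive_iff.1 h2
  let C : Subgroup G := N ⊓ Subgroup.centralizer (T : Set G)
  have hCmem : ∀ c, c ∈ C ↔ c ∈ N ∧ ∀ s ∈ T, s * c = c * s := by
    intro c
    show c ∈ N ∧ c ∈ Subgroup.centralizer (T : Set G) ↔ _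
    rw [mem_centralizer_iff_comm]
  have hCb : C ≠ ⊥ := by
    intro hC
    apply hTN
    apply le_antisymm h.hT.le
    intro n hn
    obtain ⟨t, ht, c, hc, hcc, rfl⟩ := h.exists_mul hn
    have : c ∈ C := (hCmem c).2 ⟨hc, hcc⟩
    rw [hC, Subgroup.mem_bot] at this
    rw [this, mul_one]; exact ht
  have htrans : ∀ K : Subgroup G, K ≤ N → K ≠ ⊥ → (∀ n ∈ N, ∀ k ∈ K, n * k * n⁻¹ ∈ K) → IsPretransitive K X := by
    intro K hKN hKb hKc
    have hKn : (K.subgroupOf N).Normal := by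
      constructor
      rintro ⟨k, hk⟩ hkK ⟨n, hn⟩
      exact hKc n hn k hkK
    have h3 := isPretransitive_of_normal_of_primitive (G := N) (Ω := X) hprim (K.subgroupOf N) hKn (by
      intro h4
      apply hKb
      rw [Subgroup.subgroupOf_eq_bot] at h4
      exact disjoint_self.1 (h4.mono_right hKN))
    refine ⟨fun x y => ?_⟩
    obtain ⟨⟨⟨k, hkN⟩, hk⟩, hkx⟩ := h3.exists_smul_eq x y
    exact ⟨⟨k, hk⟩, hkx⟩
  have hTt := htrans T h.hT.le h.hT.ne_bot h.hT.conj
  have hCt := htrans C inf_le_left hCb (by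
    intro n hn c hc
    rw [hCmem] at hc ⊢
    refine ⟨mul_mem (mul_mem hn hc.1) (inv_mem hn), fun s hs => ?_⟩
    have h3 : n⁻¹ * s * n ∈ T := by simpa using h.hT.conj n⁻¹ (inv_mem hn) s hs
    have h4 := hc.2 _ h3
    calc s * (n * c * n⁻¹) = n * ((n⁻¹ * s * n) * c) * n⁻¹ := by group
      _ = n * (c * (n⁻¹ * s * n)) * n⁻¹ := by rw [h4]
      _ = n * c * n⁻¹ * s := by group)
  have hTr : ∀ t ∈ T, ∀ x : X, t • x = x → t = 1 := by
    intro t ht x hx
    exact eq_one_of_centralizes hCt (x := t) (fun n hn => (((hCmem n).1 hn).2 t ht).symm) hx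
  have hCr : ∀ c ∈ C, ∀ x : X, c • x = x → c = 1 := by
    intro c hc x hx
    exact eq_one_of_centralizes hTt (x := c) (fun n hn => ((hCmem c).1 hc).2 n hn) hx
  have hord : ∀ t₁ ∈ T, ∀ t₂ ∈ T, t₁ ≠ 1 → t₂ ≠ 1 → orderOf t₁ = orderOf t₂ := by
    intro t₁ ht₁ t₂ ht₂ h1 h2
    obtain ⟨g, hg1, hg2⟩ := h2' (a := t₁ • a₀) (b := a₀) (c := t₂ • a₀) (d := a₀)
      (fun h3 => h1 (hTr t₁ ht₁ a₀ h3)) (fun h3 => h2 (hTr t₂ ht₂ a₀ h3))
    have h3 : g⁻¹ • a₀ = a₀ := by rw [inv_smul_eq_iff, hg2]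
    have h4 : (g * t₁ * g⁻¹) • a₀ = t₂ • a₀ := by rw [mul_smul, mul_smul, h3]; exact hg1
    have h5 : orderOf t₁ = orderOf (g * t₁ * g⁻¹) := by
      have : g * t₁ * g⁻¹ = MulAut.conj g t₁ := rfl
      rw [this]
      exact (orderOf_injective (MulAut.conj g).toMonoidHom (MulAut.conj g).injective t₁).symm
    rw [h5]
    rcases h.conj_dich g with h6 | h6
    · have h7 : g * t₁ * g⁻¹ ∈ T := (h6 t₁).1 ht₁
      have h8 : t₂⁻¹ * (g * t₁ * g⁻¹) = 1 := hTr _ (mul_mem (inv_mem ht₂) h7) a₀ (by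
        rw [mul_smul, h4, inv_smul_smul])
      rw [inv_mul_eq_one] at h8
      rw [← h8]
    · have h7 : g * t₁ * g⁻¹ ∈ C := (hCmem _).2 ⟨hNn.conj_mem _ (h.hT.le ht₁) g, fun s hs => h6 t₁ ht₁ s hs⟩
      obtain ⟨c, hc⟩ : ∃ c, c = g * t₁ * g⁻¹ := ⟨_, rfl⟩
      rw [← hc] at h7 h4 ⊢
      have hcc := ((hCmem c).1 h7).2
      have h8 : ∀ k : ℕ, c ^ k • a₀ = t₂ ^ k • a₀ := by
        intro k
        induction k with
        | zero => simp
        | succ k ih =>
          have h9 : c * t₂ ^ k = t₂ ^ k * c := (hcc (t₂ ^ k) (pow_mem ht₂ k)).symm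
          rw [pow_succ', mul_smul, ih, ← mul_smul, h9, mul_smul, h4, ← mul_smul, ← pow_succ]
      apply Nat.dvd_antisymm
      · rw [orderOf_dvd_iff_pow_eq_one]
        apply hCr _ (pow_mem h7 _) a₀
        rw [h8, pow_orderOf_eq_one, one_smul]
      · rw [orderOf_dvd_iff_pow_eq_one]
        apply hTr _ (pow_mem ht₂ _) a₀
        rw [← h8, pow_orderOf_eq_one, one_smul]
  have hTc : Nat.card T ≠ 1 := by
    intro h3
    exact h.hT.ne_bot (Subgroup.card_eq_one.1 h3)
  obtain ⟨r, hr, hrT⟩ := Nat.exists_prime_and_dvd hTc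
  haveI : Fact r.Prime := ⟨hr⟩
  obtain ⟨y, hy⟩ := exists_prime_orderOf_dvd_card' (G := T) r hrT
  apply h.not_pgroup r
  intro x
  refine ⟨1, ?_⟩
  rw [pow_one]
  by_cases hx1 : x = 1
  · rw [hx1, one_pow]
  · have hy1 : y ≠ 1 := by
      rintro rfl
      rw [orderOf_one] at hy
      exact hr.one_lt.ne hy
    have h3 := hord x x.2 y y.2 (fun h4 => hx1 (Subtype.ext h4)) (fun h4 => hy1 (Subtype.ext h4))
    rw [Subgroup.orderOf_coe, Subgroup.orderOf_coe, hy] at h3
    rw [← h3, pow_orderOf_eq_one]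

/-- Burnside's Theorem on doubly transitive groups: a minimal normal subgroup of a finite doubly transitive permutation group is elementary abelian and regular, or simple and primitive. -/
theorem result {α : Type*} [Fintype α] [DecidableEq α] (G : Subgroup (Equiv.Perm α)) (hG : MulAction.IsMultiplyPretransitive G α 2) (N : Subgroup G) [N.Normal] (hN : N ≠ ⊥) (hmin : ∀ M : Subgroup G, M.Normal → M ≤ N → M = ⊥ ∨ M = N) : (IsMulCommutative N ∧ (∃ p : ℕ, p.Prime ∧ ∀ n ∈ N, n ^ p = 1) ∧ ∀ a : α, MulAction.stabilizer N a = ⊥) ∨ (IsSimpleGroup N ∧ MulAction.IsPreprimitive N α) := by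
  open MulAction Cfsg.Agent.H10 Cfsg.Agent.H21 Cfsg.Agent.H22 in
  obtain ⟨⟨n₀, hn₀⟩, hn₀1⟩ := Subgroup.ne_bot_iff_exists_ne_one.1 hN
  have hcard : 2 ≤ Nat.card α := by
    by_contra hcon
    have : Nat.card α ≤ 1 := by omega
    haveI : Subsingleton α := Finite.card_le_one_iff_subsingleton.1 this
    apply hn₀1
    apply Subtype.ext; apply Subtype.ext
    ext x
    exact Subsingleton.elim _ _
  haveI : Nontrivial α := Finite.one_lt_card_iff_nontrivial.1 hcard
  obtain ⟨a₀⟩ : Nonempty α := inferInstance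
  have hprimG : IsPreprimitive G α := isPreprimitive_of_is_two_pretransitive hG
  have hNt := isPretransitive_of_normal_of_primitive hprimG N inferInstance hN
  have hm : IsMinNormalIn ⊤ N := ⟨le_top, fun n _ t ht => ‹N.Normal›.conj_mem t ht n, hN,
      fun K hK hKM => hmin K (normal_of_conj_top (fun n hn t ht => hK n hn t ht)) hKM⟩
  -- consequences of the Frobenius-like situation
  have hfrob : (∀ n ∈ N, ∀ a b : α, a ≠ b → n • a = a → n • b = b → n = 1) →
      (∀ n ∈ N, n = 1 ∨ ∀ a : α, n • a ≠ a) ∧ ∃ p : ℕ, p.Prime ∧ IsPGroup p N := by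
    intro hs
    obtain ⟨p, P, hp, hPn, hPN, hPp, hPb, hPmem⟩ := frob_like hG hcard hNt hs
    have hPN' : P = N := (hmin P hPn hPN).resolve_left hPb
    subst hPN'
    exact ⟨fun n hn => ((hPmem n).1 hn).2, p, hp, hPp⟩
  by_cases hreg : ∀ a : α, stabilizer N a = ⊥
  · left
    have hreg' : ∀ n ∈ N, ∀ a : α, n • a = a → n = 1 := by
      intro n hn a ha
      have : (⟨n, hn⟩ : N) ∈ stabilizer N a := ha
      rw [hreg a, Subgroup.mem_bot] at this
      exact congrArg Subtype.val this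
    obtain ⟨_, p, hp, hpN⟩ := hfrob (fun n hn a b hab ha hb => hreg' n hn a ha)
    haveI : Fact p.Prime := ⟨hp⟩
    have hab : ∀ a ∈ N, ∀ b ∈ N, a * b = b * a := by
      by_contra hcon
      exact not_isPGroup_of_nonabelian hm hcon hpN
    exact ⟨⟨⟨fun a b => Subtype.ext (hab a a.2 b b.2)⟩⟩, elementary_of_abelian hm hab, hreg⟩
  · right
    push Not at hreg
    obtain ⟨a₁, ha₁⟩ := hreg
    obtain ⟨⟨⟨n₁, hn₁⟩, hn₁a⟩, hn₁1⟩ := Subgroup.ne_bot_iff_exists_ne_one.1 ha₁
    have hn₁' : n₁ ≠ 1 := fun h => hn₁1 (by apply Subtype.ext; apply Subtype.ext; exact h)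
    have hnofrob : ¬ ∀ n ∈ N, ∀ a b : α, a ≠ b → n • a = a → n • b = b → n = 1 := by
      intro hs
      rcases (hfrob hs).1 n₁ hn₁ with h | h
      · exact hn₁' h
      · exact h a₁ hn₁a
    have hprimN : IsPreprimitive N α := by
      refine ⟨fun {B} hB => ?_⟩
      by_contra hcon
      have hcon' : ¬ (B.Subsingleton ∨ B = Set.univ) := hcon
      push Not at hcon'
      apply hnofrob
      obtain ⟨a, b, hab⟩ := exists_pair_ne α
      refine half_trans_imprim (G := G) hNt (c := Nat.card (N ⊓ stabilizer G a ⊓ stabilizer G b : Subgroup G)) ?_ B hB hcon'.1 hcon'.2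
      intro x y hxy
      obtain ⟨g, rfl, rfl⟩ := is_two_pretransitive_iff.1 hG hab hxy
      have hNn : N.Normal := inferInstance
      refine Nat.card_congr ⟨fun k => ⟨g⁻¹ * k * g, ?_⟩, fun k => ⟨g * k * g⁻¹, ?_⟩, ?_, ?_⟩
      · refine ⟨⟨by simpa using hNn.conj_mem k k.2.1.1 g⁻¹, ?_⟩, ?_⟩
        · exact (mem_stabilizer_smul_iff g _ a).1 k.2.1.2
        · exact (mem_stabilizer_smul_iff g _ b).1 k.2.2
      · refine ⟨⟨hNn.conj_mem k k.2.1.1 g, ?_⟩, ?_⟩
        · refine (mem_stabilizer_smul_iff g _ a).2 ?_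
          have : g⁻¹ * (g * (k : G) * g⁻¹) * g = k := by group
          rw [this]; exact k.2.1.2
        · refine (mem_stabilizer_smul_iff g _ b).2 ?_
          have : g⁻¹ * (g * (k : G) * g⁻¹) * g = k := by group
          rw [this]; exact k.2.2
      · intro k; apply Subtype.ext; show g * (g⁻¹ * (k : G) * g) * g⁻¹ = k; group
      · intro k; apply Subtype.ext; show g⁻¹ * (g * (k : G) * g⁻¹) * g = k; group
    refine ⟨?_, hprimN⟩
    have hna : ¬ ∀ a ∈ N, ∀ b ∈ N, a * b = b * a := by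
      intro hab
      apply hn₁'
      exact eq_one_of_centralizes hNt (x := n₁) (fun n hn => hab n hn n₁ hn₁) (ω := a₁) hn₁a
    obtain ⟨T, hTN, hT⟩ := exists_isMinNormalIn N N le_rfl
      (fun n hn t ht => N.mul_mem (N.mul_mem hn ht) (N.inv_mem hn)) hN
    have hS : IsTSoc N T := ⟨hm, hT, hna⟩
    have hTN' := simple_of_primitive hG hS hprimN a₀
    subst hTN'
    exact hS.isSimpleGroup

end Cfsg.Agent.S0700
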