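import Cfsg.Statements.S0701
import Mathlib
import Cfsg.Agent.H10.Perm10

set_option autoImplicit false
open Cfsg

namespace Cfsg.Agent.S0701

/-- The centraliser in the full symmetric group of a transitive permutation group `G` is semiregular, and it is transitive if and only if `G` is regular. -/
theorem result {α : Type*} (G : Subgroup (Equiv.Perm α)) [MulAction.IsPretransitive G α] : (∀ c ∈ Subgroup.centralizer (G : Set (Equiv.Perm α)), ∀ a : α, c a = a → c = 1) ∧ (MulAction.IsPretransitive (Subgroup.centralizer (G : Set (Equiv.Perm α))) α ↔ ∀ a : α, MulAction.stabilizer G a = ⊥) := by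
  have ht : MulAction.IsPretransitive G α := inferInstance
  refine ⟨fun c hc a ha => Cfsg.Agent.H10.centr_semireg ht (Cfsg.Agent.H10.mem_centr.1 hc) ha, ?_, ?_⟩
  · intro hC a
    rw [eq_bot_iff]
    rintro ⟨g, hg⟩ hga
    rw [Subgroup.mem_bot]
    apply Subtype.ext
    have hga' : g a = a := hga
    show g = 1
    ext b
    obtain ⟨⟨c, hc⟩, rfl⟩ := hC.exists_smul_eq a b
    show g (c a) = c a
    rw [← Cfsg.Agent.H10.mem_centr.1 hc g hg, hga']
  · intro hreg
    refine ⟨fun a b => ?_⟩
    have hbij : ∀ b : α, Function.Bijective (fun g : G => g • b) := by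
      intro b
      constructor
      · intro g h hgh
        have hgh' : g • b = h • b := hgh
        have h1 : h⁻¹ * g ∈ MulAction.stabilizer G b := by
          rw [MulAction.mem_stabilizer_iff, mul_smul, hgh', inv_smul_smul]
        rw [hreg b, Subgroup.mem_bot, inv_mul_eq_one] at h1
        exact h1.symm
      · intro x
        exact ht.exists_smul_eq b x
    let ea := Equiv.ofBijective _ (hbij a)
    let eb := Equiv.ofBijective _ (hbij b)
    have he : ∀ g : G, (ea.symm.trans eb) (g • a) = g • b := by
      intro g
      have : g • a = ea g := rfl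
      rw [this, Equiv.trans_apply, Equiv.symm_apply_apply]
      rfl
    refine ⟨⟨ea.symm.trans eb, ?_⟩, ?_⟩
    · rw [Cfsg.Agent.H10.mem_centr]
      intro g hg x
      obtain ⟨h, rfl⟩ := ht.exists_smul_eq a x
      have h1 : g (h • a) = (⟨g, hg⟩ * h : G) • a := by rw [mul_smul]; rfl
      rw [h1, he, he, mul_smul]; rfl
    · have := he 1
      rw [one_smul, one_smul] at this
      exact this

end Cfsg.Agent.S0701
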