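import Cfsg.Statements.S0702
import Mathlib
import Cfsg.Agent.H10.Perm10

set_option autoImplicit false
open Cfsg

namespace Cfsg.Agent.S0702

/-- For a transitive permutation group `G` on a finite set, the centraliser of `G` in the symmetric group is isomorphic to `N_G(G_ω)/G_ω`, and its orbit of `ω` is the set of fixed points of `G_ω`. -/
theorem result {α : Type*} [Finite α] (G : Subgroup (Equiv.Perm α)) [MulAction.IsPretransitive G α] (a : α) : Nonempty (Subgroup.centralizer (G : Set (Equiv.Perm α)) ≃* Subgroup.normalizer ((MulAction.stabilizer G a : Subgroup G) : Set G) ⧸ (MulAction.stabilizer G a).subgroupOf (Subgroup.normalizer ((MulAction.stabilizer G a : Subgroup G) : Set G))) ∧ MulAction.orbit (Subgroup.centralizer (G : Set (Equiv.Perm α))) a = MulAction.fixedPoints (MulAction.stabilizer G a) α := by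
  open Cfsg.Agent.H10 in
  have ht : MulAction.IsPretransitive G α := inferInstance
  haveI : Finite (Equiv.Perm α) := inferInstance
  haveI : Finite G := inferInstance
  -- existence of centralizing elements
  have hex : ∀ n : G, (∀ h : G, h • a = a → (n * h * n⁻¹) • a = a) →
      ∃ c ∈ Subgroup.centralizer (G : Set (Equiv.Perm α)), c a = n⁻¹ • a := by
    intro n hn
    have hch : ∀ x : α, ∃ g : G, g • a = x := fun x => ht.exists_smul_eq a x
    choose r hr using hch
    have hn' : ∀ h : G, (n * h * n⁻¹) • a = a → h • a = a := by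
      have hle : (MulAction.stabilizer G a).map (MulAut.conj n).toMonoidHom ≤ MulAction.stabilizer G a := by
        rintro _ ⟨h, hh, rfl⟩
        exact hn h hh
      have heq := Subgroup.eq_of_le_of_card_ge hle (by
        rw [Nat.card_congr (Subgroup.equivMapOfInjective _ _ (MulAut.conj n).injective).toEquiv.symm])
      intro h hh
      have h1 : n * h * n⁻¹ ∈ (MulAction.stabilizer G a).map (MulAut.conj n).toMonoidHom := by
        rw [heq]; exact hh
      obtain ⟨k, hk, hkh⟩ := h1
      have h2 : n * k * n⁻¹ = n * h * n⁻¹ := hkh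
      have h3 : k = h := by
        have := mul_right_cancel h2
        exact mul_left_cancel this
      rw [← h3]; exact hk
    have hwd : ∀ g g' : G, g • a = g' • a → g • n⁻¹ • a = g' • n⁻¹ • a := by
      intro g g' h
      have h1 : (g'⁻¹ * g) • a = a := by rw [mul_smul, h, inv_smul_smul]
      have h2 := hn _ h1
      rw [mul_smul, mul_smul, smul_eq_iff_eq_inv_smul] at h2
      rw [mul_smul, inv_smul_eq_iff] at h2
      exact h2
    have hinj : Function.Injective (fun x => r x • n⁻¹ • a) := by
      intro x y hxy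
      have hxy' : r x • n⁻¹ • a = r y • n⁻¹ • a := hxy
      have h1 : (n * ((r y)⁻¹ * r x) * n⁻¹) • a = a := by
        rw [mul_smul, mul_smul, mul_smul, hxy', inv_smul_smul, smul_inv_smul]
      have h2 := hn' _ h1
      rw [mul_smul, inv_smul_eq_iff, hr, hr] at h2
      exact h2
    let c : Equiv.Perm α := Equiv.ofBijective _ (Finite.injective_iff_bijective.1 hinj)
    have hc : ∀ g : G, c (g • a) = g • n⁻¹ • a := fun g => hwd _ _ (hr _)
    refine ⟨c, ?_, ?_⟩
    · rw [mem_centr]
      intro g hg x
      obtain ⟨h, rfl⟩ := ht.exists_smul_eq a x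
      have h1 : g (h • a) = (⟨g, hg⟩ * h : G) • a := by rw [mul_smul]; rfl
      rw [h1, hc, hc, mul_smul]; rfl
    · have := hc 1
      rw [one_smul, one_smul] at this
      exact this
  have hcs : ∀ c ∈ Subgroup.centralizer (G : Set (Equiv.Perm α)), ∀ (g : G) (x : α), c (g • x) = g • c x :=
    fun c hc g x => mem_centr.1 hc g g.2 x
  have hnm : ∀ n : Subgroup.normalizer ((MulAction.stabilizer G a : Subgroup G) : Set G),
      ∀ h : G, h • a = a → ((n : G) * h * (n : G)⁻¹) • a = a := by
    intro n h hh
    exact (Subgroup.mem_normalizer_iff.1 n.2 h).1 hh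
  choose φ hφc hφa using fun n : Subgroup.normalizer ((MulAction.stabilizer G a : Subgroup G) : Set G) => hex n (hnm n)
  have huniq : ∀ c c' : Subgroup.centralizer (G : Set (Equiv.Perm α)), (c : Equiv.Perm α) a = (c' : Equiv.Perm α) a → c = c' := by
    intro c c' h
    exact Subtype.ext (centr_semireg' ht (mem_centr.1 c.2) (mem_centr.1 c'.2) h)
  let Φ : Subgroup.normalizer ((MulAction.stabilizer G a : Subgroup G) : Set G) →*
      Subgroup.centralizer (G : Set (Equiv.Perm α)) := MonoidHom.mk' (fun n => ⟨φ n, hφc n⟩) (by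
    intro n m
    apply huniq
    show φ (n * m) a = φ n (φ m a)
    rw [hφa, hφa, hcs _ (hφc n), hφa, ← mul_smul, Subgroup.coe_mul, mul_inv_rev])
  have hker : Φ.ker = (MulAction.stabilizer G a).subgroupOf (Subgroup.normalizer ((MulAction.stabilizer G a : Subgroup G) : Set G)) := by
    ext n
    rw [MonoidHom.mem_ker, Subgroup.mem_subgroupOf, MulAction.mem_stabilizer_iff]
    constructor
    · intro h
      have h1 : φ n = 1 := congrArg Subtype.val h
      have h2 := hφa n
      rw [h1] at h2
      rw [eq_inv_smul_iff] at h2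
      exact h2
    · intro h
      apply huniq
      show φ n a = a
      rw [hφa, inv_smul_eq_iff, h]
  have hfix : ∀ c ∈ Subgroup.centralizer (G : Set (Equiv.Perm α)), ∀ g : G, g • a = a ↔ g • c a = c a := by
    intro c hc g
    rw [← hcs c hc]
    exact c.injective.eq_iff.symm
  have hsurj : Function.Surjective Φ := by
    rintro ⟨c, hc⟩
    obtain ⟨m, hm⟩ := ht.exists_smul_eq a (c a)
    have h1 : m⁻¹ ∈ Subgroup.normalizer ((MulAction.stabilizer G a : Subgroup G) : Set G) := by
      rw [Subgroup.mem_normalizer_iff]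
      intro g
      show g • a = a ↔ (m⁻¹ * g * m⁻¹⁻¹) • a = a
      rw [hfix c hc, ← hm, inv_inv, mul_smul, mul_smul, inv_smul_eq_iff]
    refine ⟨⟨m⁻¹, h1⟩, huniq _ _ ?_⟩
    show φ _ a = c a
    rw [hφa, ← hm, inv_inv]
  refine ⟨⟨((QuotientGroup.quotientMulEquivOfEq hker.symm).trans
    (QuotientGroup.quotientKerEquivOfSurjective Φ hsurj)).symm⟩, ?_⟩
  ext x
  constructor
  · rintro ⟨⟨c, hc⟩, rfl⟩
    rintro ⟨g, hg⟩
    exact (hfix c hc g).1 hg
  · intro hx
    obtain ⟨m, hm⟩ := ht.exists_smul_eq a x
    obtain ⟨c, hc, hca⟩ := hex m⁻¹ (by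
      intro h hh
      have h1 : h • x = x := hx ⟨h, hh⟩
      rw [mul_smul, mul_smul, inv_inv, hm, h1, inv_smul_eq_iff, hm])
    refine ⟨⟨c, hc⟩, ?_⟩
    show c a = x
    rw [hca, inv_inv, hm]

end Cfsg.Agent.S0702
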