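import Cfsg.Statements.S0703
import Mathlib
import Cfsg.Agent.H10.Perm10

set_option autoImplicit false
open Cfsg

namespace Cfsg.Agent.S0703

/-- An abelian transitive minimal normal subgroup `M` of a permutation group on a finite set is self-centralising in the symmetric group, regular, elementary abelian, and is the unique minimal normal subgroup. -/
theorem result {α : Type*} [Finite α] (G : Subgroup (Equiv.Perm α)) (M : Subgroup G) [M.Normal] (hM : M ≠ ⊥) (hmin : ∀ L : Subgroup G, L.Normal → L ≤ M → L = ⊥ ∨ L = M) (hab : IsMulCommutative M) (htrans : MulAction.IsPretransitive M α) : Subgroup.centralizer ((M.map G.subtype : Subgroup (Equiv.Perm α)) : Set (Equiv.Perm α)) = M.map G.subtype ∧ (∀ a : α, MulAction.stabilizer M a = ⊥) ∧ (∃ p : ℕ, p.Prime ∧ ∀ m ∈ M, m ^ p = 1) ∧ ∀ L : Subgroup G, L.Normal → L ≠ ⊥ → (∀ L' : Subgroup G, L'.Normal → L' ≤ L → L' = ⊥ ∨ L' = L) → L = M := by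
  open Cfsg.Agent.H10 Cfsg.Agent.H22 in
  have hcomm : ∀ a ∈ M, ∀ b ∈ M, a * b = b * a := by
    intro a ha b hb
    exact congrArg Subtype.val (hab.is_comm.comm ⟨a, ha⟩ ⟨b, hb⟩)
  have hMc : ∀ m ∈ M, ∀ m' ∈ M, ∀ x : α, (m' : Equiv.Perm α) ((m : Equiv.Perm α) x) = (m : Equiv.Perm α) ((m' : Equiv.Perm α) x) := by
    intro m hm m' hm' x
    have := congrArg (fun g : G => (g : Equiv.Perm α) x) (hcomm m' hm' m hm)
    exact this
  obtain ⟨⟨m₀, hm₀⟩, hm₀1⟩ := Subgroup.ne_bot_iff_exists_ne_one.1 hM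
  have hne : Nonempty α := by
    by_contra hcon
    rw [not_nonempty_iff] at hcon
    apply hm₀1
    apply Subtype.ext; apply Subtype.ext
    ext x
    exact (hcon.false x).elim
  obtain ⟨a₀⟩ := hne
  have hcent : ∀ c : Equiv.Perm α, (∀ m ∈ M, ∀ x : α, c ((m : Equiv.Perm α) x) = (m : Equiv.Perm α) (c x)) →
      ∃ m ∈ M, c = (m : Equiv.Perm α) := by
    intro c hc
    obtain ⟨⟨m, hm⟩, hma⟩ := htrans.exists_smul_eq a₀ (c a₀)
    refine ⟨m, hm, ?_⟩
    exact sub_semireg htrans hc (fun m' hm' x => hMc m' hm' m hm x) (a := a₀) hma.symm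
  refine ⟨?_, ?_, ?_, ?_⟩
  · apply le_antisymm
    · intro c hc
      rw [map_subtype_comm] at hc
      obtain ⟨m, hm, rfl⟩ := hcent c hc
      exact ⟨m, hm, rfl⟩
    · rintro _ ⟨m, hm, rfl⟩
      rw [map_subtype_comm]
      exact fun m' hm' x => hMc m' hm' m hm x
  · intro a
    rw [eq_bot_iff]
    rintro ⟨m, hm⟩ hma
    rw [Subgroup.mem_bot]
    apply Subtype.ext; apply Subtype.ext
    have hma' : (m : Equiv.Perm α) a = (1 : Equiv.Perm α) a := hma
    exact sub_semireg htrans (fun m' hm' x => hMc m' hm' m hm x) (fun m' hm' x => rfl) hma'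
  · exact elementary_of_abelian (G := G) ⟨le_top, fun n _ t ht => ‹M.Normal›.conj_mem t ht n, hM,
      fun K hK hKM => hmin K (normal_of_conj_top (fun n hn t ht => hK n hn t ht)) hKM⟩ hcomm
  · intro L hL hLb hLmin
    by_contra hLM
    obtain ⟨hinf, hc⟩ := min_commute hLmin hmin hLM hLb hM
    have hLM' : L ≤ M := by
      intro l hl
      obtain ⟨m, hm, hlm⟩ := hcent l (fun m hm x => congrArg (fun g : G => (g : Equiv.Perm α) x) (hc l hl m hm))
      rw [Subtype.ext hlm]; exact hm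
    apply hLb
    rw [← hinf]
    exact (inf_eq_left.2 hLM').symm

end Cfsg.Agent.S0703
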