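import Cfsg.Statements.S0704
import Mathlib
import Cfsg.Agent.H10.Perm10

set_option autoImplicit false
open Cfsg

namespace Cfsg.Agent.S0704

/-- Two distinct transitive minimal normal subgroups `M`, `N` of a permutation group are regular, non-abelian, isomorphic, each other's centraliser in the symmetric group, and the only minimal normal subgroups. -/
theorem result {α : Type*} (G : Subgroup (Equiv.Perm α)) (M N : Subgroup G) [M.Normal] [N.Normal] (hM : M ≠ ⊥) (hN : N ≠ ⊥) (hMmin : ∀ L : Subgroup G, L.Normal → L ≤ M → L = ⊥ ∨ L = M) (hNmin : ∀ L : Subgroup G, L.Normal → L ≤ N → L = ⊥ ∨ L = N) (hMN : M ≠ N) (hMt : MulAction.IsPretransitive M α) (hNt : MulAction.IsPretransitive N α) : (∀ a : α, MulAction.stabilizer M a = ⊥) ∧ (∀ a : α, MulAction.stabilizer N a = ⊥) ∧ ¬ IsMulCommutative M ∧ Nonempty (M ≃* N) ∧ Subgroup.centralizer ((M.map G.subtype : Subgroup (Equiv.Perm α)) : Set (Equiv.Perm α)) = N.map G.subtype ∧ Subgroup.centralizer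 ((N.map G.subtype : Subgroup (Equiv.Perm α)) : Set (Equiv.Perm α)) = M.map G.subtype ∧ ∀ L : Subgroup G, L.Normal → L ≠ ⊥ → (∀ L' : Subgroup G, L'.Normal → L' ≤ L → L' = ⊥ ∨ L' = L) → L = M ∨ L = N := by
  open Cfsg.Agent.H10 Cfsg.Agent.H22 in
  obtain ⟨hinf, hc⟩ := min_commute hMmin hNmin hMN hM hN
  obtain ⟨⟨m₀, hm₀⟩, hm₀1⟩ := Subgroup.ne_bot_iff_exists_ne_one.1 hM
  have hne : Nonempty α := by
    by_contra hcon
    rw [not_nonempty_iff] at hcon
    apply hm₀1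
    apply Subtype.ext; apply Subtype.ext
    ext x
    exact (hcon.false x).elim
  obtain ⟨a₀⟩ := hne
  have hcx : ∀ m ∈ M, ∀ n ∈ N, ∀ x : α, (m : Equiv.Perm α) ((n : Equiv.Perm α) x) = (n : Equiv.Perm α) ((m : Equiv.Perm α) x) := by
    intro m hm n hn x
    exact congrArg (fun g : G => (g : Equiv.Perm α) x) (hc m hm n hn)
  have hcentM : ∀ c : Equiv.Perm α, (∀ m ∈ M, ∀ x : α, c ((m : Equiv.Perm α) x) = (m : Equiv.Perm α) (c x)) →
      ∃ n ∈ N, c = (n : Equiv.Perm α) := by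
    intro c hcc
    obtain ⟨⟨n, hn⟩, hna⟩ := hNt.exists_smul_eq a₀ (c a₀)
    exact ⟨n, hn, sub_semireg hMt hcc (fun m hm x => (hcx m hm n hn x).symm) (a := a₀) hna.symm⟩
  have hcentN : ∀ c : Equiv.Perm α, (∀ n ∈ N, ∀ x : α, c ((n : Equiv.Perm α) x) = (n : Equiv.Perm α) (c x)) →
      ∃ m ∈ M, c = (m : Equiv.Perm α) := by
    intro c hcc
    obtain ⟨⟨m, hm⟩, hma⟩ := hMt.exists_smul_eq a₀ (c a₀)
    exact ⟨m, hm, sub_semireg hNt hcc (fun n hn x => hcx m hm n hn x) (a := a₀) hma.symm⟩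
  have hMreg : ∀ m ∈ M, ∀ a : α, (m : Equiv.Perm α) a = a → m = 1 := by
    intro m hm a ha
    apply Subtype.ext
    exact sub_semireg hNt (fun n hn x => hcx m hm n hn x) (d := 1) (fun n hn x => rfl) ha
  have hNreg : ∀ m ∈ N, ∀ a : α, (m : Equiv.Perm α) a = a → m = 1 := by
    intro m hm a ha
    apply Subtype.ext
    exact sub_semireg hMt (fun n hn x => (hcx n hn m hm x).symm) (d := 1) (fun n hn x => rfl) ha
  refine ⟨?_, ?_, ?_, ?_, ?_, ?_, ?_⟩
  · intro a
    rw [eq_bot_iff]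
    rintro ⟨m, hm⟩ hma
    rw [Subgroup.mem_bot]
    exact Subtype.ext (hMreg m hm a hma)
  · intro a
    rw [eq_bot_iff]
    rintro ⟨m, hm⟩ hma
    rw [Subgroup.mem_bot]
    exact Subtype.ext (hNreg m hm a hma)
  · intro hab
    have hMc : ∀ m ∈ M, ∀ m' ∈ M, ∀ x : α, (m' : Equiv.Perm α) ((m : Equiv.Perm α) x) = (m : Equiv.Perm α) ((m' : Equiv.Perm α) x) := by
      intro m hm m' hm' x
      have h1 : (⟨m', hm'⟩ : M) * ⟨m, hm⟩ = ⟨m, hm⟩ * ⟨m', hm'⟩ := hab.is_comm.comm _ _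
      exact congrArg (fun g : M => ((g : G) : Equiv.Perm α) x) h1
    have hMN' : M ≤ N := by
      intro m hm
      obtain ⟨n, hn, hmn⟩ := hcentM m (fun m' hm' x => hMc m' hm' m hm x)
      rw [Subtype.ext hmn]; exact hn
    apply hM
    rw [← hinf]; exact (inf_eq_left.2 hMN').symm
  · -- isomorphism
    have hex : ∀ m : M, ∃ n : N, ((n : G) : Equiv.Perm α) a₀ = (((m⁻¹ : M) : G) : Equiv.Perm α) a₀ := by
      intro m
      obtain ⟨n, hn⟩ := hNt.exists_smul_eq a₀ ((((m⁻¹ : M) : G) : Equiv.Perm α) a₀)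
      exact ⟨n, hn⟩
    choose φ hφ using hex
    have huniq : ∀ n n' : N, ((n : G) : Equiv.Perm α) a₀ = ((n' : G) : Equiv.Perm α) a₀ → n = n' := by
      intro n n' h
      apply Subtype.ext; apply Subtype.ext
      exact sub_semireg hMt (fun m hm x => (hcx m hm n n.2 x).symm) (fun m hm x => (hcx m hm n' n'.2 x).symm) h
    let Φ : M →* N := MonoidHom.mk' φ (by
      intro m₁ m₂
      apply huniq
      rw [hφ]
      show _ = ((φ m₁ : G) : Equiv.Perm α) (((φ m₂ : G) : Equiv.Perm α) a₀)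
      rw [hφ m₂, ← hcx _ (m₂⁻¹).2 _ (φ m₁).2, hφ m₁, mul_inv_rev]
      rfl)
    refine ⟨MulEquiv.ofBijective Φ ⟨?_, ?_⟩⟩
    · rw [injective_iff_map_eq_one]
      intro m hm
      have h1 := hφ m
      have h2 : φ m = 1 := hm
      rw [h2] at h1
      have h3 : (m⁻¹ : M) = 1 := by
        apply Subtype.ext
        exact hMreg _ (m⁻¹).2 a₀ h1.symm
      exact inv_eq_one.1 h3
    · intro n
      obtain ⟨m, hm⟩ := hMt.exists_smul_eq a₀ (((n : G) : Equiv.Perm α) a₀)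
      refine ⟨m⁻¹, huniq _ _ ?_⟩
      show ((φ m⁻¹ : G) : Equiv.Perm α) a₀ = _
      rw [hφ, inv_inv]; exact hm
  · apply le_antisymm
    · intro c hcc
      rw [map_subtype_comm] at hcc
      obtain ⟨n, hn, rfl⟩ := hcentM c hcc
      exact ⟨n, hn, rfl⟩
    · rintro _ ⟨n, hn, rfl⟩
      rw [map_subtype_comm]
      exact fun m hm x => (hcx m hm n hn x).symm
  · apply le_antisymm
    · intro c hcc
      rw [map_subtype_comm] at hcc
      obtain ⟨n, hn, rfl⟩ := hcentN c hcc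
      exact ⟨n, hn, rfl⟩
    · rintro _ ⟨m, hm, rfl⟩
      rw [map_subtype_comm]
      exact fun n hn x => hcx m hm n hn x
  · intro L hL hLb hLmin
    by_contra hcon
    push Not at hcon
    obtain ⟨hinf1, hc1⟩ := min_commute hLmin hMmin hcon.1 hLb hM
    have hLN : L ≤ N := by
      intro l hl
      obtain ⟨n, hn, hln⟩ := hcentM l (fun m hm x => congrArg (fun g : G => (g : Equiv.Perm α) x) (hc1 l hl m hm))
      rw [Subtype.ext hln]; exact hn
    rcases hNmin L hL hLN with h | h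
    · exact hLb h
    · exact hcon.2 h

end Cfsg.Agent.S0704
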