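import Cfsg.Statements.S0705
import Mathlib
import Cfsg.Agent.H10.Perm11

set_option autoImplicit false
open scoped Pointwise
open Cfsg

namespace Cfsg.Agent.S0705

/-- A generously `k`-transitive permutation group (every `(k+1)`-subset has its full symmetric group induced by the setwise stabiliser) of degree greater than `k` is `k`-transitive, and for a `k`-subset the setwise and pointwise stabilisers have the same orbits outside it. -/
theorem result {α : Type*} [Fintype α] [DecidableEq α] (G : Subgroup (Equiv.Perm α)) {k : ℕ} (hk : k < Fintype.card α) (hgen : ∀ s : Finset α, s.card = k + 1 → ∀ σ : Equiv.Perm ↥s, ∃ g ∈ G, ∀ x : ↥s, g (x : α) = σ x) : MulAction.IsMultiplyPretransitive G α k ∧ ∀ s : Finset α, s.card = k → ∀ a b : α, a ∉ s → b ∉ s → (∃ g ∈ G, g • s = s ∧ g a = b) → ∃ g ∈ G, (∀ x ∈ s, g x = x) ∧ g a = b := by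
  have hG : Cfsg.Agent.H10.Gen G k := hgen
  refine ⟨hG.isMult (by rw [Nat.card_eq_fintype_card]; exact hk), ?_⟩
  rintro s hs a b ha hb ⟨g, hg, hgs, hga⟩
  refine hG.orb hs ha hg (fun x => ?_) hga
  conv_rhs => rw [← hgs]
  exact (Finset.smul_mem_smul_finset_iff g).symm

end Cfsg.Agent.S0705
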