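import Cfsg.Statements.S0706
import Mathlib
import Cfsg.Agent.H10.Perm12

set_option autoImplicit false
open Cfsg

namespace Cfsg.Agent.S0706

/-- In a generously `k`-transitive permutation group, for a prime `p ≤ k` and a `k`-set `Γ`, there are no `p` points outside `Γ` lying in distinct orbits of the pointwise stabiliser of `Γ` all of length prime to `p` (at most `p - 1` such orbits). -/
theorem result {α : Type*} [Fintype α] [DecidableEq α] (G : Subgroup (Equiv.Perm α)) {k : ℕ} (hk : k < Fintype.card α) (hgen : ∀ s : Finset α, s.card = k + 1 → ∀ σ : Equiv.Perm ↥s, ∃ g ∈ G, ∀ x : ↥s, g (x : α) = σ x) {p : ℕ} (hp : p.Prime) (hpk : p ≤ k) (Γ : Finset α) (hΓ : Γ.card = k) (f : Fin p → α) (hf : ∀ i, f i ∉ Γ) (hdist : ∀ i j, i ≠ j → f j ∉ MulAction.orbit (fixingSubgroup G (Γ : Set α)) (f i)) : ∃ i, p ∣ Nat.card (MulAction.orbit (fixingSubgroup G (Γ : Set α)) (f i)) := by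
  open MulAction Cfsg.Agent.H10 in
  have hG : Gen G k := hgen
  have hkt : IsMultiplyPretransitive G α k := hG.isMult (by rw [Nat.card_eq_fintype_card]; exact hk)
  haveI : Fact p.Prime := ⟨hp⟩
  by_contra hcon
  push Not at hcon
  obtain ⟨σ, u, huΓ, hu, hσ, hσu⟩ := exists_perm_order hp (s := Γ) (hΓ ▸ hpk)
  have hσu' : ∀ (i : ℤ) (x : α), x ∉ u → (σ ^ i) x = x := by
    intro i x hx
    exact Equiv.Perm.zpow_apply_eq_self_of_apply_eq_self (hσu x hx) i
  have hσΓ : ∀ (i : ℤ) (x : α), x ∈ Γ → (σ ^ i) x ∈ Γ := by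
    intro i x hx
    by_contra hx'
    have h1 : (σ ^ i) ((σ ^ i) x) = (σ ^ i) x := hσu' i _ (fun h => hx' (huΓ h))
    have h2 := (σ ^ i).injective h1
    rw [h2] at hx'
    exact hx' hx
  have huniq : ∀ i j : ℤ, (∀ x ∈ Γ, (σ ^ i) x = (σ ^ j) x) → σ ^ i = σ ^ j := by
    intro i j h
    ext x
    by_cases hx : x ∈ Γ
    · exact h x hx
    · rw [hσu' i x (fun h => hx (huΓ h)), hσu' j x (fun h => hx (huΓ h))]
  let H : Subgroup G :=
    { carrier := {h | ∃ i : ℤ, ∀ x ∈ Γ, (h : Equiv.Perm α) x = (σ ^ i) x}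
      one_mem' := ⟨0, fun x _ => by simp⟩
      mul_mem' := by
        rintro a b ⟨i, hi⟩ ⟨j, hj⟩
        refine ⟨i + j, fun x hx => ?_⟩
        show (a : Equiv.Perm α) ((b : Equiv.Perm α) x) = _
        rw [hj x hx, hi _ (hσΓ j x hx), zpow_add]
        rfl
      inv_mem' := by
        rintro a ⟨i, hi⟩
        refine ⟨-i, fun x hx => ?_⟩
        show (a : Equiv.Perm α)⁻¹ x = _
        rw [Equiv.Perm.inv_eq_iff_eq, hi _ (hσΓ _ x hx), zpow_neg]
        simp }
  have hH : ∀ h : H, ∃ i : ℤ, ∀ x ∈ Γ, ((h : G) : Equiv.Perm α) x = (σ ^ i) x := fun h => h.2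
  choose e he using hH
  let φ : H →* Equiv.Perm α := MonoidHom.mk' (fun h => σ ^ e h) (by
    intro a b
    show σ ^ e (a * b) = σ ^ e a * σ ^ e b
    rw [← zpow_add]
    apply huniq
    intro x hx
    rw [← he (a * b) x hx, zpow_add]
    show ((a : G) : Equiv.Perm α) (((b : G) : Equiv.Perm α) x) = (σ ^ e a) ((σ ^ e b) x)
    rw [he b x hx, he a _ (hσΓ _ x hx)])
  have hφker : ∀ h : H, h ∈ φ.ker ↔ (h : G) ∈ fixingSubgroup G (Γ : Set α) := by
    intro h
    rw [MonoidHom.mem_ker, mem_fixingSubgroup_iff]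
    constructor
    · intro h1 x hx
      have h2 : σ ^ e h = 1 := h1
      show ((h : G) : Equiv.Perm α) x = x
      rw [he h x hx, h2]; rfl
    · intro h1
      show σ ^ e h = 1
      rw [← zpow_zero σ]
      apply huniq
      intro x hx
      rw [← he h x hx, zpow_zero]
      exact h1 x hx
  have hsub : fixingSubgroup G (Γ : Set α) ≤ H := by
    intro h hh
    rw [mem_fixingSubgroup_iff] at hh
    exact ⟨0, fun x hx => by rw [zpow_zero]; exact hh x hx⟩
  have hcker : Nat.card φ.ker = Nat.card (fixingSubgroup G (Γ : Set α)) := by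
    refine Nat.card_congr ⟨fun h => ⟨(h : H), (hφker _).1 h.2⟩, fun h => ⟨⟨h, hsub h.2⟩, (hφker _).2 h.2⟩, fun h => rfl, fun h => rfl⟩
  have hne : ∃ a, a ∉ Γ := by
    refine ⟨f ⟨0, hp.pos⟩, hf _⟩
  obtain ⟨a₀, ha₀⟩ := hne
  have hrange : φ.range = Subgroup.zpowers σ := by
    apply le_antisymm
    · rintro _ ⟨h, rfl⟩
      exact ⟨e h, rfl⟩
    · rw [Subgroup.zpowers_le]
      have hσs : ∀ x, x ∈ insert a₀ Γ ↔ σ x ∈ insert a₀ Γ := by
        intro x
        have h1 := hσΓ 1
        rw [zpow_one] at h1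
        by_cases hx : x ∈ Γ
        · exact ⟨fun _ => Finset.mem_insert_of_mem (h1 x hx), fun _ => Finset.mem_insert_of_mem hx⟩
        · rw [hσu x (fun h => hx (huΓ h))]
      obtain ⟨g, hg, hgx⟩ := hgen (insert a₀ Γ) (by rw [Finset.card_insert_of_notMem ha₀, hΓ])
        (σ.subtypePerm (fun x => (hσs x).symm))
      have hgΓ : ∀ x ∈ Γ, g x = (σ ^ (1 : ℤ)) x := by
        intro x hx
        rw [zpow_one]
        exact hgx ⟨x, Finset.mem_insert_of_mem hx⟩
      refine ⟨⟨⟨g, hg⟩, ⟨1, hgΓ⟩⟩, ?_⟩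
      show σ ^ e _ = σ
      conv_rhs => rw [← zpow_one σ]
      apply huniq
      intro x hx
      rw [← he _ x hx, ← hgΓ x hx]
  have hcardH : Nat.card H = p * Nat.card (fixingSubgroup G (Γ : Set α)) := by
    rw [← Subgroup.index_mul_card φ.ker, Subgroup.index_ker, hrange, Nat.card_zpowers, hσ, hcker]
  obtain ⟨Q⟩ : Nonempty (Sylow p H) := inferInstance
  -- fixed points of Q in each orbit
  have hfix : ∀ i, ∃ y, y ∈ orbit (fixingSubgroup G (Γ : Set α)) (f i) ∧ ∀ q : Q, ((q : H) : G) • y = y := by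
    intro i
    have horb : orbit H (f i) = orbit (fixingSubgroup G (Γ : Set α)) (f i) := by
      ext y
      constructor
      · rintro ⟨h, rfl⟩
        have h1 : ∀ x, x ∈ Γ ↔ ((h : G) : Equiv.Perm α) x ∈ Γ := by
          intro x
          constructor
          · intro hx
            rw [he h x hx]; exact hσΓ _ x hx
          · intro hx
            have h2 := he h⁻¹ _ hx
            have h3 : x = (((h⁻¹ : H) : G) : Equiv.Perm α) (((h : G) : Equiv.Perm α) x) := by
              simp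
            rw [h3, h2]; exact hσΓ _ _ hx
        obtain ⟨g, hg, hgx, hga⟩ := hG.orb hΓ (hf i) (g := ((h : G) : Equiv.Perm α)) (h : G).2 h1 rfl
        refine ⟨⟨⟨g, hg⟩, ?_⟩, hga⟩
        rw [mem_fixingSubgroup_iff]
        exact hgx
      · rintro ⟨g, rfl⟩
        exact ⟨⟨g, hsub g.2⟩, rfl⟩
    have hnd : ¬ p ∣ Nat.card (orbit H (f i)) := by rw [horb]; exact hcon i
    obtain ⟨⟨y, hy⟩, hyQ⟩ := Q.isPGroup'.nonempty_fixed_point_of_prime_not_dvd_card (orbit H (f i)) hnd
    rw [horb] at hy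
    exact ⟨y, hy, fun q => congrArg Subtype.val (hyQ q)⟩
  choose y hy hyQ using hfix
  have hyinj : Function.Injective y := by
    intro i j hij
    by_contra hne
    apply hdist i j hne
    have h1 := hy i
    rw [hij] at h1
    have h2 := hy j
    rw [← orbit_eq_iff] at h1 h2
    rw [← h1, h2]
    exact mem_orbit_self _
  have hyΓ : ∀ i, y i ∉ Γ := by
    intro i hi
    obtain ⟨g, hg⟩ := hy i
    have h1 : (g : G) • (y i) = y i := (mem_fixingSubgroup_iff G).1 g.2 _ hi
    have h2 : (g : G) • f i = y i := hg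
    rw [← h2, smul_left_cancel_iff, h2] at h1
    exact hf i (by rw [← h1]; exact hi)
  let Γ' : Finset α := (Γ \ u) ∪ Finset.univ.image y
  have hΓ' : Γ'.card = k := by
    rw [Finset.card_union_of_disjoint]
    · rw [Finset.card_sdiff_of_subset huΓ, Finset.card_image_of_injective _ hyinj, hΓ, hu, Finset.card_univ, Fintype.card_fin]
      omega
    · rw [Finset.disjoint_left]
      intro x hx hx'
      rw [Finset.mem_image] at hx'
      obtain ⟨i, _, rfl⟩ := hx'
      exact hyΓ i (Finset.mem_sdiff.1 hx).1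
  have hQle : (Q : Subgroup H).map H.subtype ≤ fixingSubgroup G (Γ' : Set α) := by
    rintro _ ⟨q, hq, rfl⟩
    rw [mem_fixingSubgroup_iff]
    intro x hx
    rcases Finset.mem_union.1 (Finset.mem_coe.1 hx) with h1 | h1
    · rw [Finset.mem_sdiff] at h1
      show ((q : G) : Equiv.Perm α) x = x
      rw [he q x h1.1, hσu' _ _ h1.2]
    · rw [Finset.mem_image] at h1
      obtain ⟨i, _, rfl⟩ := h1
      exact hyQ i ⟨q, hq⟩
  have hdvd : Nat.card Q ∣ Nat.card (fixingSubgroup G (Γ : Set α)) := by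
    rw [card_fixing_eq hkt hΓ hΓ', Nat.card_congr (Subgroup.equivMapOfInjective (Q : Subgroup H) H.subtype H.subtype_injective).toEquiv]
    exact Subgroup.card_dvd_of_le hQle
  rw [Q.card_eq_multiplicity, hcardH, Nat.factorization_mul hp.ne_zero Nat.card_pos.ne', Finsupp.add_apply, hp.factorization_self] at hdvd
  exact Nat.pow_succ_factorization_not_dvd Nat.card_pos.ne' hp (by rwa [add_comm] at hdvd)

end Cfsg.Agent.S0706
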