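import Cfsg.Statements.S0707
import Mathlib
import Cfsg.Agent.H22.Perm

set_option autoImplicit false
open Cfsg

namespace Cfsg.Agent.S0707

/-- In a primitive permutation group, distinct points have distinct stabilisers unless the group is regular of prime degree. -/
theorem result {α : Type*} (G : Subgroup (Equiv.Perm α)) [MulAction.IsPreprimitive G α] (h : ¬ (Nat.card α).Prime ∨ ∃ a : α, MulAction.stabilizer G a ≠ ⊥) {a b : α} (hab : a ≠ b) : MulAction.stabilizer G a ≠ MulAction.stabilizer G b := by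
  have ht : MulAction.IsPretransitive G α := inferInstance
  haveI : Nontrivial α := ⟨a, b, hab⟩
  intro hst
  have hcoa : IsCoatom (MulAction.stabilizer G a) := MulAction.IsPreprimitive.isCoatom_stabilizer_of_isPreprimitive G a
  obtain ⟨g, hg⟩ := ht.exists_smul_eq a b
  have hgN : g ∈ Subgroup.normalizer ((MulAction.stabilizer G a : Subgroup G) : Set G) := by
    rw [Subgroup.mem_normalizer_iff]
    intro h
    show h ∈ MulAction.stabilizer G a ↔ g * h * g⁻¹ ∈ MulAction.stabilizer G a
    rw [show (g * h * g⁻¹ ∈ MulAction.stabilizer G a) ↔ (g * h * g⁻¹ ∈ MulAction.stabilizer G b) by rw [hst]]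
    rw [← hg, Cfsg.Agent.H22.mem_stabilizer_smul_iff]
    simp [mul_assoc]
  have hgn : g ∉ MulAction.stabilizer G a := by
    intro h
    exact hab ((MulAction.mem_stabilizer_iff.1 h).symm.trans hg)
  have hN : Subgroup.normalizer ((MulAction.stabilizer G a : Subgroup G) : Set G) = ⊤ := by
    apply hcoa.2
    refine lt_of_le_of_ne Subgroup.le_normalizer ?_
    intro h
    exact hgn (by rw [h]; exact hgN)
  have hnorm : (MulAction.stabilizer G a).Normal := Subgroup.normalizer_eq_top_iff.1 hN
  have hbot : MulAction.stabilizer G a = ⊥ := Cfsg.Agent.H22.eq_bot_of_normal_le_stabilizer ht _ hnorm a le_rfl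
  have hall : ∀ c : α, MulAction.stabilizer G c = ⊥ := by
    intro c
    obtain ⟨k, rfl⟩ := ht.exists_smul_eq a c
    rw [eq_bot_iff]
    intro x hx
    rw [Cfsg.Agent.H22.mem_stabilizer_smul_iff, hbot, Subgroup.mem_bot] at hx
    rw [Subgroup.mem_bot]
    have : x = k * (k⁻¹ * x * k) * k⁻¹ := by group
    rw [this, hx]; group
  rw [hbot] at hcoa
  have hbt : ∀ H : Subgroup G, H ≠ ⊥ → H = ⊤ := fun H hH => hcoa.2 H (bot_lt_iff_ne_bot.2 hH)
  have hne1 : ∃ x : G, x ≠ 1 := ⟨g, fun h => hgn (by rw [h]; exact one_mem _)⟩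
  obtain ⟨x, hx⟩ := hne1
  have hz : Subgroup.zpowers x = ⊤ := hbt _ (by rw [Ne, Subgroup.zpowers_eq_bot]; exact hx)
  have hcomm : ∀ y z : G, y * z = z * y := by
    intro y z
    obtain ⟨i, rfl⟩ : y ∈ Subgroup.zpowers x := by rw [hz]; trivial
    obtain ⟨j, rfl⟩ : z ∈ Subgroup.zpowers x := by rw [hz]; trivial
    show x ^ i * x ^ j = x ^ j * x ^ i
    rw [← zpow_add, ← zpow_add, add_comm]
  letI : CommGroup G := { (inferInstance : Group G) with mul_comm := hcomm }
  haveI : Nontrivial G := ⟨x, 1, hx⟩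
  haveI : IsSimpleGroup G := ⟨fun H _ => by
    by_cases hH : H = ⊥
    · exact Or.inl hH
    · exact Or.inr (hbt H hH)⟩
  have hp : (Nat.card G).Prime := IsSimpleGroup.prime_card
  have hbij : Function.Bijective (fun g : G => g • a) := by
    constructor
    · intro g k hgk
      have hgk' : g • a = k • a := hgk
      have h1 : k⁻¹ * g ∈ MulAction.stabilizer G a := by
        rw [MulAction.mem_stabilizer_iff, mul_smul, hgk', inv_smul_smul]
      rw [hbot, Subgroup.mem_bot, inv_mul_eq_one] at h1
      exact h1.symm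
    · intro y
      exact ht.exists_smul_eq a y
  rw [Nat.card_congr (Equiv.ofBijective _ hbij)] at hp
  rcases h with h | ⟨c, hc⟩
  · exact h hp
  · exact hc (hall c)

end Cfsg.Agent.S0707
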