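import Cfsg.Statements.S0710
import Mathlib
import Cfsg.Agent.H10.Perm1
import Cfsg.Agent.H10.Perm5
import Cfsg.Agent.H21.Socle

set_option autoImplicit false
open Cfsg

namespace Cfsg.Agent.S0710

/-- No transitive permutation group on 13 points has order `13 * 12 * 11 * 10 * 9 * 8`. -/
theorem result {α : Type*} [Fintype α] [DecidableEq α] (hα : Fintype.card α = 13) (G : Subgroup (Equiv.Perm α)) [MulAction.IsPretransitive G α] : Nat.card G ≠ 13 * 12 * 11 * 10 * 9 * 8 := by
  open MulAction in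
  intro hcard
  haveI hp : Fact (Nat.Prime 13) := ⟨by norm_num⟩
  obtain ⟨P⟩ : Nonempty (Sylow 13 G) := inferInstance
  have hPc : Nat.card P = 13 := Cfsg.Agent.H10.card_sylow_eq hα G P
  have hPt : IsPretransitive (P : Subgroup G) α := ⟨fun a b => by
    obtain ⟨g, hg, hgab⟩ := Cfsg.Agent.H10.sylow_transitive (f := 1) (by rw [Nat.card_eq_fintype_card, hα, pow_one]) P a b
    exact ⟨⟨g, hg⟩, hgab⟩⟩
  haveI hcyc : IsCyclic (P : Subgroup G) := isCyclic_of_prime_card hPc
  have hPcomm : ∀ a ∈ (P : Subgroup G), ∀ b ∈ (P : Subgroup G), a * b = b * a := by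
    intro a ha b hb
    obtain ⟨⟨x, hx⟩, hgen⟩ := hcyc.exists_generator
    obtain ⟨i, hi⟩ := hgen ⟨a, ha⟩
    obtain ⟨j, hj⟩ := hgen ⟨b, hb⟩
    have hi' : x ^ i = a := congrArg Subtype.val hi
    have hj' : x ^ j = b := congrArg Subtype.val hj
    rw [← hi', ← hj', ← zpow_add, ← zpow_add, add_comm]
  have hne : Nonempty α := by rw [← Fintype.card_pos_iff, hα]; norm_num
  obtain ⟨a₀⟩ := hne
  have hC : Subgroup.centralizer ((P : Subgroup G) : Set G) ≤ P := by
    intro c hc
    rw [Subgroup.mem_centralizer_iff] at hc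
    obtain ⟨⟨m, hm⟩, hma⟩ := hPt.exists_smul_eq a₀ (c • a₀)
    have hma' : m • a₀ = c • a₀ := hma
    have h1 : m⁻¹ * c = 1 := by
      refine Cfsg.Agent.H21.eq_one_of_centralizes (Ω := α) hPt (x := m⁻¹ * c) (fun n hn => ?_) (ω := a₀) ?_
      · rw [← mul_assoc, hPcomm n hn m⁻¹ (inv_mem hm), mul_assoc, mul_assoc, hc n hn]
      · rw [mul_smul, ← hma', inv_smul_smul]
    rw [inv_mul_eq_one] at h1
    rw [← h1]; exact hm
  obtain ⟨N, hN⟩ : ∃ N, N = Subgroup.normalizer ((P : Subgroup G) : Set G) := ⟨_, rfl⟩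
  have hNc : ∃ d, d ∣ 12 ∧ Nat.card (Subgroup.normalizer ((P : Subgroup G) : Set G)) = 13 * d := by
    let f := Subgroup.normalizerMonoidHom (P : Subgroup G)
    have hker : Nat.card f.ker = 13 := by
      rw [Subgroup.normalizerMonoidHom_ker]
      have h1 : (Subgroup.centralizer ((P : Subgroup G) : Set G)) = (P : Subgroup G) := by
        apply le_antisymm hC
        intro x hx
        rw [Subgroup.mem_centralizer_iff]
        intro y hy
        exact hPcomm y hy x hx
      rw [h1]
      rw [Nat.card_congr (Subgroup.subgroupOfEquivOfLe Subgroup.le_normalizer).toEquiv]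
      exact hPc
    refine ⟨Nat.card f.range, ?_, ?_⟩
    · have h2 : Nat.card f.range ∣ Nat.card (MulAut (P : Subgroup G)) := Subgroup.card_subgroup_dvd_card _
      have h3 : Nat.card (MulAut (P : Subgroup G)) = 12 := by
        rw [IsCyclic.card_mulAut, hPc]; decide
      rwa [h3] at h2
    · rw [← Subgroup.card_mul_index f.ker, Subgroup.index_ker, hker]
  obtain ⟨d, hd, hNd⟩ := hNc
  have hn1 := card_sylow_modEq_one 13 G
  have hn2 : Nat.card (Sylow 13 G) = (Subgroup.normalizer ((P : Subgroup G) : Set G)).index := P.card_eq_index_normalizer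
  have hn3 := Subgroup.card_mul_index (Subgroup.normalizer ((P : Subgroup G) : Set G))
  rw [hNd, ← hn2, hcard] at hn3
  have h4 : d * Nat.card (Sylow 13 G) = 95040 := by
    have : 13 * (d * Nat.card (Sylow 13 G)) = 13 * 95040 := by rw [← mul_assoc, hn3]
    omega
  have h5 : d * Nat.card (Sylow 13 G) ≡ d * 1 [MOD 13] := Nat.ModEq.mul_left d hn1
  rw [h4, mul_one] at h5
  have hd12 : d ≤ 12 := Nat.le_of_dvd (by norm_num) hd
  have h6 : 95040 % 13 = d % 13 := h5
  interval_cases d <;> first | omega | (revert hd; decide)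

end Cfsg.Agent.S0710
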