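import Cfsg.Statements.S0714
import Mathlib
import Cfsg.Agent.H10.Perm1

set_option autoImplicit false
open Cfsg

namespace Cfsg.Agent.S0714

theorem rep_single {G : Type*} [Group G] {α : Type*} [DecidableEq α] [MulAction G α] {K : Type*} [Field K] (g : G) (x : α) :
    Cfsg.permRep K G α g (Pi.single x (1 : K)) = Pi.single (g • x) (1 : K) := by
  ext y
  rw [Cfsg.Agent.H10.permRep_apply]
  by_cases h : y = g • x
  · rw [h, inv_smul_smul]; simp
  · rw [Pi.single_eq_of_ne h, Pi.single_eq_of_ne]
    intro h1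
    apply h
    rw [← h1, smul_inv_smul]

theorem exists_diff {α : Type*} [Fintype α] [DecidableEq α] (hα : 5 ≤ Fintype.card α) {K : Type*} [Field K]
    (W : Subrepresentation (Cfsg.permRep K (alternatingGroup α) α)) (w : α → K) (hw : w ∈ W.toSubmodule)
    (a b : α) (hab : w a ≠ w b) :
    ∃ x y : α, x ≠ y ∧ (Pi.single x (1 : K) - Pi.single y (1 : K) : α → K) ∈ W.toSubmodule := by
  have hne : a ≠ b := fun h => hab (by rw [h])
  obtain ⟨c, hc, d, hd, e, he, hcd, hce, hde⟩ := Finset.two_lt_card.1 (show 2 < (({a, b} : Finset α)ᶜ).card by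
    rw [Finset.card_compl, Finset.card_pair hne]; omega)
  simp only [Finset.mem_compl, Finset.mem_insert, Finset.mem_singleton, not_or] at hc hd he
  have hact : ∀ (g : alternatingGroup α) (v : α → K), v ∈ W.toSubmodule →
      Cfsg.permRep K (alternatingGroup α) α g v ∈ W.toSubmodule := fun g v hv => W.apply_mem_toSubmodule g hv
  have hsg : ∀ x y z t : α, x ≠ y → z ≠ t → Equiv.swap x y * Equiv.swap z t ∈ alternatingGroup α := by
    intro x y z t h1 h2
    rw [Equiv.Perm.mem_alternatingGroup, map_mul, Equiv.Perm.sign_swap h1, Equiv.Perm.sign_swap h2]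
    decide
  let σ : alternatingGroup α := ⟨_, hsg a b c d hne hcd⟩
  let δ : α → (α → K) := fun x => Pi.single x (1 : K)
  obtain ⟨s, hs⟩ : ∃ s, s = w a - w b := ⟨_, rfl⟩
  obtain ⟨t, ht⟩ : ∃ t, t = w c - w d := ⟨_, rfl⟩
  have hs0 : s ≠ 0 := by rw [hs]; exact sub_ne_zero.2 hab
  have hu : w - Cfsg.permRep K (alternatingGroup α) α σ w = s • (δ a - δ b) + t • (δ c - δ d) := by
    ext x
    simp only [Pi.sub_apply, Pi.add_apply, Pi.smul_apply, smul_eq_mul, δ]
    rw [Cfsg.Agent.H10.permRep_apply]
    have h1 : σ⁻¹ • x = Equiv.swap c d (Equiv.swap a b x) := by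
      rw [inv_smul_eq_iff]
      show x = Equiv.swap a b (Equiv.swap c d (Equiv.swap c d (Equiv.swap a b x)))
      simp
    rw [h1]
    by_cases hxa : x = a
    · subst hxa
      rw [Equiv.swap_apply_left, Equiv.swap_apply_of_ne_of_ne (Ne.symm hc.2) (Ne.symm hd.2)]
      simp [hne, Ne.symm hc.1, Ne.symm hd.1, hs]
    by_cases hxb : x = b
    · subst hxb
      rw [Equiv.swap_apply_right, Equiv.swap_apply_of_ne_of_ne (Ne.symm hc.1) (Ne.symm hd.1)]
      simp [Ne.symm hne, Ne.symm hc.2, Ne.symm hd.2, hs]
    rw [Equiv.swap_apply_of_ne_of_ne hxa hxb]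
    by_cases hxc : x = c
    · subst hxc
      rw [Equiv.swap_apply_left]
      simp [hxa, hxb, hcd, ht]
    by_cases hxd : x = d
    · subst hxd
      rw [Equiv.swap_apply_right]
      simp [hxa, hxb, hxc, ht]
    rw [Equiv.swap_apply_of_ne_of_ne hxc hxd]
    simp [hxa, hxb, hxc, hxd]
  obtain ⟨u, hudef⟩ : ∃ u, u = s • (δ a - δ b) + t • (δ c - δ d) := ⟨_, rfl⟩
  have huW : u ∈ W.toSubmodule := by
    rw [hudef, ← hu]
    exact W.toSubmodule.sub_mem hw (hact σ w hw)
  have hδ : ∀ (g : alternatingGroup α) (x : α), Cfsg.permRep K (alternatingGroup α) α g (δ x) = δ (g • x) :=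
    fun g x => rep_single g x
  -- the three-cycle c -> d -> e -> c
  let ρ : alternatingGroup α := ⟨_, hsg c d d e hcd hde⟩
  have hρa : ρ • a = a := by
    show Equiv.swap c d (Equiv.swap d e a) = a
    rw [Equiv.swap_apply_of_ne_of_ne (Ne.symm hd.1) (Ne.symm he.1), Equiv.swap_apply_of_ne_of_ne (Ne.symm hc.1) (Ne.symm hd.1)]
  have hρb : ρ • b = b := by
    show Equiv.swap c d (Equiv.swap d e b) = b
    rw [Equiv.swap_apply_of_ne_of_ne (Ne.symm hd.2) (Ne.symm he.2), Equiv.swap_apply_of_ne_of_ne (Ne.symm hc.2) (Ne.symm hd.2)]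
  have hρc : ρ • c = d := by
    show Equiv.swap c d (Equiv.swap d e c) = d
    rw [Equiv.swap_apply_of_ne_of_ne hcd hce, Equiv.swap_apply_left]
  have hρd : ρ • d = e := by
    show Equiv.swap c d (Equiv.swap d e d) = e
    rw [Equiv.swap_apply_left, Equiv.swap_apply_of_ne_of_ne (Ne.symm hce) (Ne.symm hde)]
  have hρe : ρ • e = c := by
    show Equiv.swap c d (Equiv.swap d e e) = c
    rw [Equiv.swap_apply_right, Equiv.swap_apply_right]
  have h1 : Cfsg.permRep K (alternatingGroup α) α ρ u = s • (δ a - δ b) + t • (δ d - δ e) := by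
    rw [hudef, map_add, map_smul, map_smul, map_sub, map_sub, hδ, hδ, hδ, hδ, hρa, hρb, hρc, hρd]
  have h2 : Cfsg.permRep K (alternatingGroup α) α ρ (Cfsg.permRep K (alternatingGroup α) α ρ u) = s • (δ a - δ b) + t • (δ e - δ c) := by
    rw [h1, map_add, map_smul, map_smul, map_sub, map_sub, hδ, hδ, hδ, hδ, hρa, hρb, hρe, hρd]
  have h1W := hact ρ u huW
  have h2W := hact ρ _ h1W
  by_cases h3 : (3 : K) = 0
  · by_cases ht0 : t = 0
    · refine ⟨a, b, hne, ?_⟩
      have : s⁻¹ • u = δ a - δ b := by
        rw [hudef, ht0, zero_smul, add_zero, smul_smul, inv_mul_cancel₀ hs0, one_smul]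
      show δ a - δ b ∈ W.toSubmodule
      rw [← this]; exact W.toSubmodule.smul_mem _ huW
    · have hv : δ c + δ d + δ e ∈ W.toSubmodule := by
        have : t⁻¹ • (u - Cfsg.permRep K (alternatingGroup α) α ρ u) = δ c + δ d + δ e := by
          rw [h1, hudef]
          have e1 : s • (δ a - δ b) + t • (δ c - δ d) - (s • (δ a - δ b) + t • (δ d - δ e)) = t • (δ c + δ d + δ e) - (3 * t) • δ d := by
            module
          rw [e1, h3, zero_mul, zero_smul, sub_zero, smul_smul, inv_mul_cancel₀ ht0, one_smul]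
        rw [← this]; exact W.toSubmodule.smul_mem _ (W.toSubmodule.sub_mem huW h1W)
      -- three cycle e -> a -> b -> e
      let τ : alternatingGroup α := ⟨_, hsg e a a b he.1 hne⟩
      have hτc : τ • c = c := by
        show Equiv.swap e a (Equiv.swap a b c) = c
        rw [Equiv.swap_apply_of_ne_of_ne hc.1 hc.2, Equiv.swap_apply_of_ne_of_ne hce hc.1]
      have hτd : τ • d = d := by
        show Equiv.swap e a (Equiv.swap a b d) = d
        rw [Equiv.swap_apply_of_ne_of_ne hd.1 hd.2, Equiv.swap_apply_of_ne_of_ne hde hd.1]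
      have hτe : τ • e = a := by
        show Equiv.swap e a (Equiv.swap a b e) = a
        rw [Equiv.swap_apply_of_ne_of_ne he.1 he.2, Equiv.swap_apply_left]
      refine ⟨e, a, he.1, ?_⟩
      have h4 := W.toSubmodule.sub_mem hv (hact τ _ hv)
      rw [map_add, map_add, hδ, hδ, hδ, hτc, hτd, hτe] at h4
      have h5 : δ c + δ d + δ e - (δ c + δ d + δ a) = δ e - δ a := by module
      rw [h5] at h4
      exact h4
  · refine ⟨a, b, hne, ?_⟩
    have h4 := W.toSubmodule.smul_mem ((3 * s)⁻¹) (W.toSubmodule.add_mem (W.toSubmodule.add_mem huW h1W) h2W)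
    have h5 : ((3 * s)⁻¹) • (u + Cfsg.permRep K (alternatingGroup α) α ρ u +
        Cfsg.permRep K (alternatingGroup α) α ρ (Cfsg.permRep K (alternatingGroup α) α ρ u)) = δ a - δ b := by
      rw [h2, h1, hudef]
      have e1 : s • (δ a - δ b) + t • (δ c - δ d) + (s • (δ a - δ b) + t • (δ d - δ e)) + (s • (δ a - δ b) + t • (δ e - δ c)) =
        (3 * s) • (δ a - δ b) := by module
      rw [e1, smul_smul, inv_mul_cancel₀ (mul_ne_zero h3 hs0), one_smul]
    rw [h5] at h4
    exact h4

/-- Over any field, the permutation module of the alternating group of degree at least 5 has exactly four invariant subspaces: zero, the constant functions, the functions with coordinate sum zero, and everything. -/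
theorem result {α : Type*} [Fintype α] [DecidableEq α] (hα : 5 ≤ Fintype.card α) {K : Type*} [Field K] (W : Subrepresentation (Cfsg.permRep K (alternatingGroup α) α)) : W.toSubmodule = ⊥ ∨ W = Cfsg.permConstants K (alternatingGroup α) α ∨ W = Cfsg.permSumZero K (alternatingGroup α) α ∨ W.toSubmodule = ⊤ := by
  open Cfsg.Agent.H10 in
  have hact : ∀ (g : alternatingGroup α) (v : α → K), v ∈ W.toSubmodule →
      Cfsg.permRep K (alternatingGroup α) α g v ∈ W.toSubmodule := fun g v hv => W.apply_mem_toSubmodule g hv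
  by_cases hcon : ∀ w ∈ W.toSubmodule, ∀ a b, w a = w b
  · by_cases hW : W.toSubmodule = ⊥
    · exact Or.inl hW
    · right; left
      obtain ⟨w, hw, hw0⟩ := Submodule.exists_mem_ne_zero_of_ne_bot hW
      obtain ⟨a, ha⟩ : ∃ a, w a ≠ 0 := by
        by_contra h
        push Not at h
        exact hw0 (funext h)
      apply Subrepresentation.toSubmodule_injective
      apply le_antisymm
      · intro v hv
        rw [mem_permConstants]
        exact ⟨v a, fun x => hcon v hv x a⟩
      · intro v hv
        rw [mem_permConstants] at hv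
        obtain ⟨c, hc⟩ := hv
        have : v = (c * (w a)⁻¹) • w := by
          ext x
          rw [hc, Pi.smul_apply, smul_eq_mul, hcon w hw x a, mul_assoc, inv_mul_cancel₀ ha, mul_one]
        rw [this]; exact W.toSubmodule.smul_mem _ hw
  push Not at hcon
  obtain ⟨w, hw, a, b, hab⟩ := hcon
  obtain ⟨x, y, hxy, hd⟩ := exists_diff hα W w hw a b hab
  have h2t : MulAction.IsMultiplyPretransitive (alternatingGroup α) α 2 := by
    haveI := alternatingGroup.isMultiplyPretransitive α
    refine MulAction.isMultiplyPretransitive_of_le (n := Nat.card α - 2) ?_ ?_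
    · rw [Nat.card_eq_fintype_card]; omega
    · omega
  have hall : ∀ z t : α, (Pi.single z (1 : K) - Pi.single t (1 : K) : α → K) ∈ W.toSubmodule := by
    intro z t
    by_cases hzt : z = t
    · rw [hzt, sub_self]; exact W.toSubmodule.zero_mem
    · obtain ⟨g, hgx, hgy⟩ := MulAction.is_two_pretransitive_iff.1 h2t hxy hzt
      have := hact g _ hd
      rw [map_sub, rep_single, rep_single, hgx, hgy] at this
      exact this
  have hsz : (Cfsg.permSumZero K (alternatingGroup α) α).toSubmodule ≤ W.toSubmodule := by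
    intro v hv
    rw [mem_permSumZero] at hv
    have h1 : v = ∑ z, v z • (Pi.single z (1 : K) - Pi.single a (1 : K) : α → K) := by
      simp only [smul_sub, Finset.sum_sub_distrib, ← Finset.sum_smul, hv, zero_smul, sub_zero]
      conv_lhs => rw [← Finset.univ_sum_single v]
      apply Finset.sum_congr rfl
      intro z _
      ext t
      by_cases htz : t = z
      · subst htz; simp
      · simp [Pi.single_eq_of_ne htz]
    rw [h1]
    exact W.toSubmodule.sum_mem (fun z _ => W.toSubmodule.smul_mem _ (hall z a))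
  by_cases hle : W.toSubmodule ≤ (Cfsg.permSumZero K (alternatingGroup α) α).toSubmodule
  · right; right; left
    apply Subrepresentation.toSubmodule_injective
    exact le_antisymm hle hsz
  · right; right; right
    rw [SetLike.not_le_iff_exists] at hle
    obtain ⟨u, hu, huz⟩ := hle
    rw [mem_permSumZero] at huz
    rw [eq_top_iff]
    intro v _
    have h1 : v - ((∑ x, v x) * (∑ x, u x)⁻¹) • u ∈ W.toSubmodule := by
      apply hsz
      rw [mem_permSumZero]
      simp only [Pi.sub_apply, Pi.smul_apply, smul_eq_mul, Finset.sum_sub_distrib, ← Finset.mul_sum]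
      rw [mul_assoc, inv_mul_cancel₀ huz, mul_one, sub_self]
    have h2 := W.toSubmodule.add_mem h1 (W.toSubmodule.smul_mem ((∑ x, v x) * (∑ x, u x)⁻¹) hu)
    rwa [sub_add_cancel] at h2

end Cfsg.Agent.S0714
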