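import Cfsg.Statements.S0717
import Mathlib
import Cfsg.Agent.H10.Perm33

set_option autoImplicit false
open Cfsg

namespace Cfsg.Agent.S0717



/-- All suborbits of a transitive group are self-paired (every pair of points is interchanged by some group element) if and only if the permutation character is multiplicity-free and each of its irreducible constituents is real-valued. -/
theorem result {G : Type*} [Group G] [Fintype G] {Ω : Type*} [Fintype Ω] [MulAction G Ω] [MulAction.IsPretransitive G Ω] : (∀ a b : Ω, ∃ g : G, g • a = b ∧ g • b = a) ↔ ∀ χ : G → ℂ, Cfsg.IsIrrCharacter G χ → Cfsg.classInner (fun g : G => (Nat.card (MulAction.fixedBy Ω g) : ℂ)) χ ≠ 0 → Cfsg.classInner (fun g : G => (Nat.card (MulAction.fixedBy Ω g) : ℂ)) χ = 1 ∧ ∀ g : G, (starRingEnd ℂ) (χ g) = χ g := by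
  classical
  open Cfsg.Agent.H10 Cfsg.Agent.H3 in
  rw [← permRep_char (G := G) (Ω := Ω)]
  constructor
  · intro hgen χ hχ h0
    have hcomm : ∀ S T : (Ω → ℂ) →ₗ[ℂ] (Ω → ℂ), (∀ (g : G) v, S (permRep ℂ G Ω g v) = permRep ℂ G Ω g (S v)) →
        (∀ (g : G) v, T (permRep ℂ G Ω g v) = permRep ℂ G Ω g (T v)) → S ∘ₗ T = T ∘ₗ S := by
      intro S T hS hT
      have hTS : ∀ (g : G) v, (T ∘ₗ S) (permRep ℂ G Ω g v) = permRep ℂ G Ω g ((T ∘ₗ S) v) := by
        intro g v
        rw [LinearMap.comp_apply, LinearMap.comp_apply, hS, hT]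
      apply ent_ext
      intro x y
      rw [ent_symm_of_gen hgen hTS x y, ent_comp, ent_comp]
      refine Finset.sum_congr rfl fun z _ => ?_
      rw [ent_symm_of_gen hgen hS x z, ent_symm_of_gen hgen hT z y, mul_comm]
    have h1 := (mf_of_comm (permRep ℂ G Ω) hcomm hχ).resolve_left h0
    refine ⟨h1, ?_⟩
    by_contra hcon
    push Not at hcon
    obtain ⟨g₀, hg₀⟩ := hcon
    have hne : χ ≠ fun g => (starRingEnd ℂ) (χ g) := by
      intro h
      exact hg₀ (congrFun h g₀).symm
    have hEE : EE (permRep ℂ G Ω) χ = EE (permRep ℂ G Ω) (fun g => (starRingEnd ℂ) (χ g)) := by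
      apply ent_ext
      intro x y
      rw [← ent_EE_symm hχ]
      exact ent_symm_of_gen hgen (fun g v => EE_inter _ (irr_classFun hχ) g v) x y
    apply EE_ne_zero (permRep ℂ G Ω) hχ h0
    apply LinearMap.ext
    intro v
    have h2 := EE_mul (permRep ℂ G Ω) hχ hχ v
    rw [if_pos rfl] at h2
    have h3 := EE_mul (permRep ℂ G Ω) hχ (isIrr_conj hχ) v
    rw [if_neg hne, ← hEE, h2] at h3
    rw [h3]; rfl
  · intro h a b
    haveI : Fintype (IrrCharacter G) := Fintype.ofFinite _
    let R : Ω → Ω → Prop := fun x y => ∃ g : G, g • a = x ∧ g • b = y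
    have hR : ∀ (g : G) x y, R (g • x) (g • y) ↔ R x y := by
      intro g x y
      constructor
      · rintro ⟨k, hk1, hk2⟩
        exact ⟨g⁻¹ * k, by rw [mul_smul, hk1, inv_smul_smul], by rw [mul_smul, hk2, inv_smul_smul]⟩
      · rintro ⟨k, hk1, hk2⟩
        exact ⟨g * k, by rw [mul_smul, hk1], by rw [mul_smul, hk2]⟩
    have hmf : ∀ χ : G → ℂ, IsIrrCharacter G χ → classInner (permRep ℂ G Ω).character χ = 0 ∨ classInner (permRep ℂ G Ω).character χ = 1 := by
      intro χ hχ
      by_cases h0 : classInner (permRep ℂ G Ω).character χ = 0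
      · exact Or.inl h0
      · exact Or.inr (h χ hχ h0).1
    obtain ⟨c, hc⟩ := exists_expand (permRep ℂ G Ω) hmf (relOp R) (relOp_comm R hR)
    have hentsum : ∀ x y, ent (relOp R) x y = ∑ χ : IrrCharacter G, c χ * ent (EE (permRep ℂ G Ω) (χ : G → ℂ)) x y := by
      intro x y
      unfold ent
      rw [hc, LinearMap.sum_apply, Finset.sum_apply]
      rfl
    have hsymm : ent (relOp R) a b = ent (relOp R) b a := by
      rw [hentsum, hentsum]
      refine Finset.sum_congr rfl fun χ _ => ?_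
      congr 1
      by_cases h0 : classInner (permRep ℂ G Ω).character (χ : G → ℂ) = 0
      · rw [EE_eq_zero (permRep ℂ G Ω) χ.2 h0]; rfl
      · rw [ent_EE_symm χ.2]
        have : (fun g => (starRingEnd ℂ) ((χ : G → ℂ) g)) = (χ : G → ℂ) := funext (h χ χ.2 h0).2
        rw [this]
    rw [ent_relOp, ent_relOp, if_pos ⟨1, one_smul _ _, one_smul _ _⟩] at hsymm
    by_contra hcon
    have hba : ¬ R b a := fun ⟨g, h1, h2⟩ => hcon ⟨g, h1, h2⟩
    rw [if_neg hba] at hsymm
    exact one_ne_zero hsymm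

end Cfsg.Agent.S0717
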