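import Cfsg.Statements.S0719
import Cfsg.Agent.H10.Perm39

set_option autoImplicit false
open Cfsg

namespace Cfsg.Agent.S0719



/-- Groups of Wielandt type: if a primitive group of degree `2m` has rank 3 and permutation character `1 + χ₁ + χ₂` with irreducible `χ₁, χ₂` of degrees `m - 1` and `m`, then `m = 2a² + 2a + 1` for some positive integer `a` and the two non-trivial subdegrees are `a(2a+1)` and `(a+1)(2a+1)`. -/
theorem result {G : Type*} [Group G] [Fintype G] {Ω : Type*} [Fintype Ω] [MulAction G Ω] (hprim : MulAction.IsPreprimitive G Ω) {m : ℕ} (hm : Fintype.card Ω = 2 * m) (a₀ : Ω) (hrank : Nat.card (MulAction.orbitRel.Quotient (MulAction.stabilizer G a₀) Ω) = 3) (χ₁ χ₂ : G → ℂ) (h₁ : Cfsg.IsIrrCharacter G χ₁) (h₂ : Cfsg.IsIrrCharacter G χ₂) (hπ : (fun g : G => (Nat.card (MulAction.fixedBy Ω g) : ℂ)) = fun g => 1 + χ₁ g + χ₂ g) (hd₁ : χ₁ 1 = (m : ℂ) - 1) (hd₂ : χ₂ 1 = m) : ∃ a : ℕ, 0 < a ∧ m =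 2 * a ^ 2 + 2 * a + 1 ∧ ∀ b : Ω, b ≠ a₀ → Nat.card (MulAction.orbit (MulAction.stabilizer G a₀) b) = a * (2 * a + 1) ∨ Nat.card (MulAction.orbit (MulAction.stabilizer G a₀) b) = (a + 1) * (2 * a + 1) := by
  classical
  haveI := hprim.toIsPretransitive
  obtain ⟨b, hb⟩ : ∃ b, b ≠ a₀ := by
    obtain ⟨c, hc, -⟩ := Cfsg.Agent.H10.rank3_exists hrank a₀
    exact ⟨c, hc⟩
  obtain ⟨c, hc, hbc⟩ := Cfsg.Agent.H10.rank3_exists hrank b
  have hm' : Nat.card Ω = 2 * m := by rw [Nat.card_eq_fintype_card, hm]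
  have hπ' : (Cfsg.permRep ℂ G Ω).character = fun g => 1 + χ₁ g + χ₂ g := by
    rw [Cfsg.Agent.H10.permRep_char]; exact hπ
  obtain ⟨hall, -⟩ := Cfsg.Agent.H10.rank3_orbits hrank hb hc hbc
  have hfin : ∀ a : ℕ, 0 < a → m = 2 * a ^ 2 + 2 * a + 1 →
      ((Nat.card (MulAction.orbit (MulAction.stabilizer G a₀) b) = a * (2 * a + 1) ∧
      Nat.card (MulAction.orbit (MulAction.stabilizer G a₀) c) = (a + 1) * (2 * a + 1)) ∨
      (Nat.card (MulAction.orbit (MulAction.stabilizer G a₀) c) = a * (2 * a + 1) ∧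
      Nat.card (MulAction.orbit (MulAction.stabilizer G a₀) b) = (a + 1) * (2 * a + 1))) →
      ∃ a : ℕ, 0 < a ∧ m = 2 * a ^ 2 + 2 * a + 1 ∧ ∀ b : Ω, b ≠ a₀ → Nat.card (MulAction.orbit (MulAction.stabilizer G a₀) b) = a * (2 * a + 1) ∨ Nat.card (MulAction.orbit (MulAction.stabilizer G a₀) b) = (a + 1) * (2 * a + 1) := by
    intro a ha hma hor
    refine ⟨a, ha, hma, fun x hx => ?_⟩
    rcases hall x with h | h | h
    · exact absurd h hx
    · rw [MulAction.orbit_eq_iff.2 h]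
      rcases hor with h2 | h2
      · exact Or.inl h2.1
      · exact Or.inr h2.2
    · rw [MulAction.orbit_eq_iff.2 h]
      rcases hor with h2 | h2
      · exact Or.inr h2.2
      · exact Or.inl h2.1
  rcases le_total (Nat.card (MulAction.orbit (MulAction.stabilizer G a₀) b)) (Nat.card (MulAction.orbit (MulAction.stabilizer G a₀) c)) with hle | hle
  · obtain ⟨a, ha, hma, h3, h4⟩ := Cfsg.Agent.H10.wielandt_main_aux hprim hm' hrank χ₁ χ₂ h₁ h₂ hπ' hd₁ hd₂ hb hc hbc hle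
    exact hfin a ha hma (Or.inl ⟨h3, h4⟩)
  · have hcb : b ∉ MulAction.orbit (MulAction.stabilizer G a₀) c := fun h => hbc (MulAction.mem_orbit_symm.1 h)
    obtain ⟨a, ha, hma, h3, h4⟩ := Cfsg.Agent.H10.wielandt_main_aux hprim hm' hrank χ₁ χ₂ h₁ h₂ hπ' hd₁ hd₂ hc hb hcb hle
    exact hfin a ha hma (Or.inr ⟨h3, h4⟩)

end Cfsg.Agent.S0719
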