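import Cfsg.Statements.S0721
import Mathlib
import Cfsg.Agent.H22.SimpleProd

set_option autoImplicit false
open Cfsg

namespace Cfsg.Agent.S0721

theorem elem_equiv0 {V : Type*} [AddCommGroup V] {p : ℕ} [Fact p.Prime] [Module (ZMod p) V] [Finite V] [Nontrivial V] :
    ∃ m : ℕ, 0 < m ∧ Nonempty (V ≃+ (Fin m → ZMod p)) := by
  let b := Module.finBasis (ZMod p) V
  exact ⟨_, Module.finrank_pos, ⟨b.equivFun.toAddEquiv⟩⟩

theorem elem_equiv {N : Type*} [CommGroup N] [Finite N] [Nontrivial N] {p : ℕ} [Fact p.Prime]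
    (h : ∀ x : N, x ^ p = 1) : ∃ m : ℕ, 0 < m ∧ Nonempty (N ≃* (Fin m → Multiplicative (ZMod p))) := by
  letI : Module (ZMod p) (Additive N) := AddCommGroup.zmodModule (n := p) (by
      intro x
      exact h (Additive.toMul x))
  haveI : Finite (Additive N) := inferInstanceAs (Finite N)
  haveI : Nontrivial (Additive N) := inferInstanceAs (Nontrivial N)
  obtain ⟨m, hpos, ⟨e⟩⟩ := elem_equiv0 (V := Additive N) (p := p)
  refine ⟨_, hpos, ⟨{
        toFun := fun n i => Multiplicative.ofAdd (e (Additive.ofMul n) i)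
        invFun := fun f => Additive.toMul (e.symm (fun i => Multiplicative.toAdd (f i)))
        left_inv := fun n => by simp
        right_inv := fun f => by ext i; simp
        map_mul' := fun x y => by
          ext i
          show Multiplicative.ofAdd (e (Additive.ofMul (x * y)) i) = _
          rw [ofMul_mul, map_add]
          rfl }⟩⟩

/-- A minimal normal subgroup of a finite group is isomorphic to a direct power `T ^ m` of a simple group `T` (possibly of prime order). -/
theorem result {H : Type*} [Group H] [Finite H] (N : Subgroup H) [N.Normal] (hN : N ≠ ⊥) (hmin : ∀ M : Subgroup H, M.Normal → M ≤ N → M = ⊥ ∨ M = N) : ∃ (T : Type) (_ : Group T) (m : ℕ), IsSimpleGroup T ∧ 0 < m ∧ Nonempty (N ≃* (Fin m → T)) := by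
  open Cfsg.Agent.H22 in
  have hm : IsMinNormalIn ⊤ N := ⟨le_top, fun n _ t ht => ‹N.Normal›.conj_mem t ht n, hN,
      fun K hK hKM => hmin K (normal_of_conj_top (fun n hn t ht => hK n hn t ht)) hKM⟩
  by_cases hab : ∀ a ∈ N, ∀ b ∈ N, a * b = b * a
  · obtain ⟨p, hp, hpN⟩ := elementary_of_abelian hm hab
    haveI : Fact p.Prime := ⟨hp⟩
    letI : CommGroup N := { (inferInstance : Group N) with mul_comm := fun a b => Subtype.ext (hab a a.2 b b.2) }
    haveI : Nontrivial N := (Subgroup.nontrivial_iff_ne_bot N).2 hN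
    obtain ⟨m, hm0, ⟨e⟩⟩ := elem_equiv (N := N) (p := p) (fun x => Subtype.ext (hpN x x.2))
    refine ⟨Multiplicative (ZMod p), inferInstance, m, ?_, hm0, ⟨e⟩⟩
    have hc : Nat.card (Multiplicative (ZMod p)) = p := by
        rw [Nat.card_congr (Multiplicative.toAdd)]; simp
    haveI : Fact (Nat.card (Multiplicative (ZMod p))).Prime := ⟨hc.symm ▸ hp⟩
    exact isSimpleGroup_of_prime_card hc
  · obtain ⟨T, i1, m, hm1, hs, _, he⟩ := exists_pow_of_nonabelian hm hab
    exact ⟨T, i1, m, hs, hm1, he⟩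

end Cfsg.Agent.S0721
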