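import Cfsg.Statements.S0722
import Mathlib
import Cfsg.Agent.H22.Perm
import Cfsg.Agent.H22.MinNormal

set_option autoImplicit false
open Cfsg

namespace Cfsg.Agent.S0722

/-- In a primitive group `H`, with `N` a minimal normal subgroup and `K` a point stabiliser, `K ⊓ N` is maximal among proper `K`-invariant subgroups of `N`. -/
theorem result {α : Type*} [Finite α] (H : Subgroup (Equiv.Perm α)) [MulAction.IsPreprimitive H α] (N : Subgroup H) [N.Normal] (hN : N ≠ ⊥) (hmin : ∀ M : Subgroup H, M.Normal → M ≤ N → M = ⊥ ∨ M = N) (a : α) (X : Subgroup H) (hX : X ≤ N) (hKX : MulAction.stabilizer H a ⊓ N ≤ X) (hinv : MulAction.stabilizer H a ≤ Subgroup.normalizer (X : Set H)) : X = MulAction.stabilizer H a ⊓ N ∨ X = N := by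
  open Cfsg.Agent.H22 in
  by_cases hne : Nontrivial α
  swap
  · -- trivial case
    rw [not_nontrivial_iff_subsingleton] at hne
    exfalso
    apply hN
    rw [eq_bot_iff]
    intro n hn
    rw [Subgroup.mem_bot]
    apply Subtype.ext
    ext x
    exact Subsingleton.elim _ _
  have ht : MulAction.IsPretransitive H α := inferInstance
  have hNt := isPretransitive_of_normal_of_primitive (G := H) (Ω := α) inferInstance N inferInstance hN
  have hcoa : IsCoatom (MulAction.stabilizer H a) := MulAction.IsPreprimitive.isCoatom_stabilizer_of_isPreprimitive H a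
  by_cases hXK : X ≤ MulAction.stabilizer H a
  · left
    exact le_antisymm (le_inf hXK hX) hKX
  right
  apply le_antisymm hX
  have htop : MulAction.stabilizer H a ⊔ X = ⊤ := by
    apply hcoa.2
    refine lt_of_le_of_ne le_sup_left ?_
    intro h
    exact hXK (by rw [h]; exact le_sup_right)
  intro n hn
  have h1 : n ∈ MulAction.stabilizer H a ⊔ X := by rw [htop]; trivial
  rw [← SetLike.mem_coe, Subgroup.coe_mul_of_left_le_normalizer_right _ _ hinv] at h1
  obtain ⟨k, hk, x, hx, rfl⟩ := h1
  have h2 : k ∈ N := by
    have := mul_mem hn (inv_mem (hX hx))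
    simpa using this
  exact mul_mem (hKX ⟨hk, h2⟩) hx

end Cfsg.Agent.S0722
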