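import Cfsg.Statements.S0724
import Mathlib

set_option autoImplicit false
open Cfsg

namespace Cfsg.Agent.S0724

theorem sum_pow {G : Type*} [Group G] [Fintype G] {α : Type*} [Fintype α] [MulAction G α] (j : ℕ) :
    (Fintype.card G : ℤ) ∣ ∑ g : G, ((Nat.card (MulAction.fixedBy α g) : ℕ) : ℤ) ^ j := by
  classical
  have h1 := MulAction.sum_card_fixedBy_eq_card_orbits_mul_card_group G (Fin j → α)
  have h2 : ∀ g : G, Fintype.card (MulAction.fixedBy (Fin j → α) g) = (Nat.card (MulAction.fixedBy α g)) ^ j := by
    intro g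
    rw [← Nat.card_eq_fintype_card]
    have : Nat.card (Fin j → MulAction.fixedBy α g) = (Nat.card (MulAction.fixedBy α g)) ^ j := by
      rw [Nat.card_fun]; simp
    rw [← this]
    refine Nat.card_congr ⟨fun f i => ⟨(f : Fin j → α) i, congrFun f.2 i⟩, fun f => ⟨fun i => f i, by
      funext i
      exact (f i).2⟩, fun f => rfl, fun f => rfl⟩
  have h3 : (∑ g : G, ((Nat.card (MulAction.fixedBy α g) : ℕ) : ℤ) ^ j) =
      ((∑ g : G, Fintype.card (MulAction.fixedBy (Fin j → α) g) : ℕ) : ℤ) := by
    push_cast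
    apply Finset.sum_congr rfl
    intro g _
    rw [h2 g]; push_cast; rfl
  rw [h3, h1]
  push_cast
  exact dvd_mul_left _ _

theorem sum_poly {G : Type*} [Group G] [Fintype G] {α : Type*} [Fintype α] [MulAction G α]
    (P : Polynomial ℤ) :
    (Fintype.card G : ℤ) ∣ ∑ g : G, P.eval ((Nat.card (MulAction.fixedBy α g) : ℕ) : ℤ) := by
  induction P using Polynomial.induction_on' with
  | add p q hp hq =>
    simp only [Polynomial.eval_add, Finset.sum_add_distrib]
    exact dvd_add hp hq
  | monomial n a =>
    simp only [Polynomial.eval_monomial]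
    rw [← Finset.mul_sum]
    exact (sum_pow n).mul_left a

/-- Blichfeldt's Theorem: if a finite set `L` of natural numbers contains the number of fixed points of every non-identity element of a permutation group `G` of degree `n`, then the order of `G` divides `∏ (n - l)` over `l ∈ L`. -/
theorem result {α : Type*} [Fintype α] [DecidableEq α] (G : Subgroup (Equiv.Perm α)) (L : Finset ℕ) (hL : ∀ g ∈ G, g ≠ 1 → Nat.card (MulAction.fixedBy α g) ∈ L) : Nat.card G ∣ ∏ l ∈ L, (Fintype.card α - l) := by
  haveI : Fintype G := Fintype.ofFinite G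
  by_cases hlt : ∃ l ∈ L, Fintype.card α < l
  · obtain ⟨l, hl, hlt⟩ := hlt
    rw [Finset.prod_eq_zero hl (Nat.sub_eq_zero_of_le hlt.le)]
    exact dvd_zero _
  push Not at hlt
  have h1 := sum_poly (G := G) (α := α) (∏ l ∈ L, (Polynomial.X - Polynomial.C (l : ℤ)))
  have h2 : (∑ g : G, (∏ l ∈ L, (Polynomial.X - Polynomial.C (l : ℤ))).eval ((Nat.card (MulAction.fixedBy α g) : ℕ) : ℤ)) =
      ((∏ l ∈ L, (Fintype.card α - l) : ℕ) : ℤ) := by
    rw [Finset.sum_eq_single (1 : G)]
    · rw [Polynomial.eval_prod]
      push_cast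
      apply Finset.prod_congr rfl
      intro l hl
      have h3 : MulAction.fixedBy α (1 : G) = Set.univ := by
        ext x; simp
      rw [h3]
      simp only [Polynomial.eval_sub, Polynomial.eval_X, Polynomial.eval_C]
      rw [Nat.card_coe_set_eq, Set.ncard_univ, Nat.card_eq_fintype_card, Nat.cast_sub (hlt l hl)]
    · intro g _ hg
      rw [Polynomial.eval_prod]
      have h3 := hL g g.2 (fun h => hg (Subtype.ext h))
      apply Finset.prod_eq_zero (i := Nat.card (MulAction.fixedBy α g)) h3
      simp
    · intro h; exact absurd (Finset.mem_univ _) h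
  rw [h2] at h1
  rw [Nat.card_eq_fintype_card]
  exact_mod_cast h1

end Cfsg.Agent.S0724
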