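import Cfsg.Statements.S0726
import Mathlib
import Cfsg.Agent.H10.Perm10

set_option autoImplicit false
open Cfsg

namespace Cfsg.Agent.S0726

/-- The left and right regular permutation representations of a group are each other's centralisers in the symmetric group: the centraliser of the left regular image is the right regular image, and a transitive subgroup centralising the left regular image is the whole right regular image. -/
theorem result {G : Type*} [Group G] : Subgroup.centralizer ((MulAction.toPermHom G G).range : Set (Equiv.Perm G)) = (MulAction.toPermHom Gᵐᵒᵖ G).range ∧ ∀ H : Subgroup (Equiv.Perm G), H ≤ Subgroup.centralizer ((MulAction.toPermHom G G).range : Set (Equiv.Perm G)) → MulAction.IsPretransitive H G → H = (MulAction.toPermHom Gᵐᵒᵖ G).range := by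
  have key : ∀ c : Equiv.Perm G, c ∈ Subgroup.centralizer ((MulAction.toPermHom G G).range : Set (Equiv.Perm G)) ↔
      ∀ x : G, c x = x * c 1 := by
    intro c
    rw [Cfsg.Agent.H10.mem_centr]
    constructor
    · intro h x
      have := h (MulAction.toPermHom G G x) ⟨x, rfl⟩ 1
      simpa using this
    · rintro h _ ⟨g, rfl⟩ x
      show c (g * x) = g * c x
      rw [h, h x, mul_assoc]
  have hr : ∀ c : Equiv.Perm G, (∀ x : G, c x = x * c 1) → c ∈ (MulAction.toPermHom Gᵐᵒᵖ G).range := by
    intro c hc
    refine ⟨MulOpposite.op (c 1), ?_⟩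
    ext x
    rw [hc x]; rfl
  refine ⟨?_, ?_⟩
  · apply le_antisymm
    · intro c hc
      exact hr c ((key c).1 hc)
    · rintro _ ⟨g, rfl⟩
      rw [key]
      intro x
      show x * g.unop = x * (1 * g.unop)
      rw [one_mul]
  · intro H hH ht
    apply le_antisymm
    · intro c hc
      exact hr c ((key c).1 (hH hc))
    · rintro _ ⟨g, rfl⟩
      obtain ⟨⟨h, hh⟩, h1⟩ := ht.exists_smul_eq (1 : G) g.unop
      have h1 : h 1 = g.unop := h1
      have h2 : h = MulAction.toPermHom Gᵐᵒᵖ G g := by
        ext x
        rw [(key h).1 (hH hh) x, h1]; rfl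
      rw [← h2]; exact hh

end Cfsg.Agent.S0726
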