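import Cfsg.Statements.S0727
import Mathlib
import Cfsg.Agent.H10.Perm26

set_option autoImplicit false
open Cfsg

namespace Cfsg.Agent.S0727



/-- A sharply triply transitive permutation group of degree `2^f + 1` is isomorphic to the projective general linear group of degree 2 over the field with `2^f` elements. -/
theorem result {α : Type*} [Fintype α] [DecidableEq α] {f : ℕ} (hf : 1 ≤ f) (hα : Fintype.card α = 2 ^ f + 1) (G : Subgroup (Equiv.Perm α)) (h3 : MulAction.IsMultiplyPretransitive G α 3) (hsharp : ∀ x : Fin 3 ↪ α, MulAction.stabilizer G x = ⊥) : ∃ (F : Type) (_ : Field F) (_ : Fintype F), Fintype.card F = 2 ^ f ∧ Nonempty (G ≃* Matrix.ProjGenLinGroup (Fin 2) F) := by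
  classical
  open Cfsg.Agent.H10 Cfsg.Agent.H20 MulAction in
  have hN : Nat.card α = 2 ^ f + 1 := by rw [Nat.card_eq_fintype_card]; exact hα
  rcases Nat.eq_or_lt_of_le hf with hf1 | hf1
  · -- degree 3
    rw [← hf1] at hα hN
    obtain ⟨e⟩ := perm_three_iso (α := α) hα
    have hG : G = ⊤ := by
      rw [eq_top_iff]
      intro σ _
      obtain ⟨a, b, c, hab, hac, hbc, huniv⟩ := Finset.card_eq_three.1 (show (Finset.univ : Finset α).card = 3 from hα)
      obtain ⟨g, hga, hgb, hgc⟩ := sharp3_trans h3 hab hac hbc (σ.injective.ne hab) (σ.injective.ne hac) (σ.injective.ne hbc)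
      have : σ = g := by
        ext x
        have hx : x ∈ ({a, b, c} : Finset α) := huniv ▸ Finset.mem_univ x
        simp only [Finset.mem_insert, Finset.mem_singleton] at hx
        rcases hx with rfl | rfl | rfl
        · exact hga.symm
        · exact hgb.symm
        · exact hgc.symm
      rw [this]; exact g.2
    subst hG
    exact ⟨ZMod 2, inferInstance, inferInstance, by rw [← hf1]; rfl, ⟨Subgroup.topEquiv.trans e⟩⟩
  · have h5 : 5 ≤ Nat.card α := by
      have : 2 ^ 2 ≤ 2 ^ f := Nat.pow_le_pow_right (by norm_num) hf1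
      omega
    have hZ := sharp3_zass h3 hsharp h5
    obtain ⟨a, b, hab⟩ := Zass.exists_ne_pts hZ
    haveI : Nontrivial G := by
      obtain ⟨g, hg, _⟩ := hZ.2.2.2.1
      exact ⟨g, 1, hg⟩
    have heven : Even (2 ^ f) := by
      rw [Nat.even_pow]; exact ⟨even_two, by omega⟩
    have hodd : ¬ Even (Nat.card α) := by
      rw [hN, Nat.not_even_iff_odd]; exact heven.add_one
    haveI hs : IsSimpleGroup G := ⟨fun N hNn => by
      by_cases h0 : N = ⊥
      · exact Or.inl h0
      · right
        haveI := hNn
        rcases sharp3_normal h3 hsharp h5 N h0 with h | ⟨F, i1, i2, hF, hc, -⟩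
        · exact h
        · exfalso
          apply hF
          apply FiniteField.even_card_iff_char_two.mpr
          have : Even (Fintype.card F) := by
            have : Fintype.card F = 2 ^ f := by omega
            rw [this]; exact heven
          exact Nat.even_iff.1 this⟩
    rcases Zass.simple_classification hZ with ⟨F, i1, i2, hF, ⟨e⟩⟩ | ⟨c, -, u, v, huv⟩
    · have hcF : Fintype.card F = 2 ^ f := by omega
      have hchar : ringChar F = 2 := by
        apply FiniteField.even_card_iff_char_two.mpr
        rw [hcF]; exact Nat.even_iff.1 heven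
      obtain ⟨e'⟩ := pgl_of_psl (F := F) (by
        intro x _
        obtain ⟨l, hl⟩ := FiniteField.isSquare_of_char_two hchar x
        exact ⟨l, hl.symm⟩)
      exact ⟨F, i1, i2, hcF, ⟨e.trans e'⟩⟩
    · exfalso
      exact huv (Subtype.ext (sharp3_K_comm h3 hsharp h5 hZ c u u.2 v v.2))

end Cfsg.Agent.S0727
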