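import Cfsg.Statements.S0728
import Mathlib
import Cfsg.Agent.H10.Perm27

set_option autoImplicit false
open Cfsg

namespace Cfsg.Agent.S0728



/-- In a sharply triply transitive group of even degree at least 6 (degree `q + 1`, `q` odd), a two-point stabiliser has at most one subgroup of order 3. -/
theorem result {α : Type*} [Fintype α] [DecidableEq α] (heven : Even (Fintype.card α)) (h6 : 6 ≤ Fintype.card α) (G : Subgroup (Equiv.Perm α)) (h3 : MulAction.IsMultiplyPretransitive G α 3) (hsharp : ∀ x : Fin 3 ↪ α, MulAction.stabilizer G x = ⊥) {a b : α} (hab : a ≠ b) (A B : Subgroup G) (hA : A ≤ MulAction.stabilizer G a ⊓ MulAction.stabilizer G b) (hB : B ≤ MulAction.stabilizer G a ⊓ MulAction.stabilizer G b) (hA3 : Nat.card A = 3) (hB3 : Nat.card B = 3) : A = B := by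
  classical
  open Cfsg.Agent.H10 Cfsg.Agent.H20 MulAction in
  have h6' : 6 ≤ Nat.card α := by rw [Nat.card_eq_fintype_card]; exact h6
  have heven' : Even (Nat.card α) := by rw [Nat.card_eq_fintype_card]; exact heven
  obtain ⟨N, hN, hidx, hZN, hall⟩ := sharp3_even h3 hsharp (by omega) heven'
  obtain ⟨-, hcyc⟩ := hall a b hab
  have hmem : ∀ (A : Subgroup G), A ≤ stabilizer G a ⊓ stabilizer G b → Nat.card A = 3 → ∀ x ∈ A,
      ∃ y : ↥(stabilizer N a ⊓ stabilizer N b : Subgroup N), ((y : N) : G) = x ∧ y ^ 3 = 1 := by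
    intro A hA hA3 x hx
    have hx3 : x ^ 3 = 1 := by
      have := pow_card_eq_one' (x := (⟨x, hx⟩ : A))
      rw [hA3] at this
      exact congrArg Subtype.val this
    have hxN : x ∈ N := by
      have h1 : x = (x * x) * (x * x) := by
        calc x = x * 1 := by rw [mul_one]
          _ = x * x ^ 3 := by rw [hx3]
          _ = _ := by rw [pow_succ, pow_two]; group
      rw [h1]
      exact mul_mem (Subgroup.mul_self_mem_of_index_two hidx x) (Subgroup.mul_self_mem_of_index_two hidx x)
    refine ⟨⟨⟨x, hxN⟩, (hA hx).1, (hA hx).2⟩, rfl, ?_⟩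
    apply Subtype.ext; apply Subtype.ext
    exact hx3
  have hle : ∀ (A B : Subgroup G), A ≤ stabilizer G a ⊓ stabilizer G b → Nat.card A = 3 → B ≤ stabilizer G a ⊓ stabilizer G b → Nat.card B = 3 → B ≤ A := by
    intro A B hA hA3 hB hB3 x hx
    let C := ↥(stabilizer N a ⊓ stabilizer N b : Subgroup N)
    haveI : Fintype C := Fintype.ofFinite _
    have hS : (Finset.univ.filter (fun y : C => y ^ 3 = 1)).card ≤ 3 := IsCyclic.card_pow_eq_one_le (by norm_num)
    choose f hf hf3 using fun x : A => hmem A hA hA3 x x.2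
    have hfinj : Function.Injective f := by
      intro x y h
      apply Subtype.ext
      rw [← hf x, ← hf y, h]
    haveI : Fintype A := Fintype.ofFinite _
    have himg : Finset.univ.image f = Finset.univ.filter (fun y : C => y ^ 3 = 1) := by
      apply Finset.eq_of_subset_of_card_le
      · intro y hy
        obtain ⟨x, -, rfl⟩ := Finset.mem_image.1 hy
        exact Finset.mem_filter.2 ⟨Finset.mem_univ _, hf3 x⟩
      · rw [Finset.card_image_of_injective _ hfinj, Finset.card_univ, ← Nat.card_eq_fintype_card, hA3]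
        exact hS
    obtain ⟨y, hy, hy3⟩ := hmem B hB hB3 x hx
    have : y ∈ Finset.univ.image f := by
      rw [himg]; exact Finset.mem_filter.2 ⟨Finset.mem_univ _, hy3⟩
    obtain ⟨z, -, hz⟩ := Finset.mem_image.1 this
    rw [← hy, ← hz, hf z]
    exact z.2
  exact le_antisymm (hle B A hB hB3 hA hA3) (hle A B hA hA3 hB hB3)

end Cfsg.Agent.S0728
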