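import Cfsg.Statements.S0729
import Mathlib
import Cfsg.Agent.H10.Perm27

set_option autoImplicit false
open Cfsg

namespace Cfsg.Agent.S0729



/-- In a sharply triply transitive group of even degree at least 6, the two-point stabiliser `H = G_{a,b}` has a normal subgroup of index 2 that is normalised by the element `s` interchanging `a, b` and fixing a third point `c`. -/
theorem result {α : Type*} [Fintype α] [DecidableEq α] (heven : Even (Fintype.card α)) (h6 : 6 ≤ Fintype.card α) (G : Subgroup (Equiv.Perm α)) (h3 : MulAction.IsMultiplyPretransitive G α 3) (hsharp : ∀ x : Fin 3 ↪ α, MulAction.stabilizer G x = ⊥) {a b c : α} (hab : a ≠ b) (hac : a ≠ c) (hbc : b ≠ c) (s : G) (hsa : s • a = b) (hsb : s • b = a) (hsc : s • c = c) : ∃ N : Subgroup G, N ≤ MulAction.stabilizer G a ⊓ MulAction.stabilizer G b ∧ (N.subgroupOf (MulAction.stabilizer G a ⊓ MulAction.stabilizer G b)).Normal ∧ N.relIndex (MulAction.stabilizer G a ⊓ MulAction.stabilizer G b) = 2 ∧ ∀ n ∈ N, s * n * s⁻¹ ∈ N :=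 by
  classical
  open Cfsg.Agent.H10 Cfsg.Agent.H20 MulAction in
  have h6' : 6 ≤ Nat.card α := by rw [Nat.card_eq_fintype_card]; exact h6
  have heven' : Even (Nat.card α) := by rw [Nat.card_eq_fintype_card]; exact heven
  obtain ⟨N, hN, hidx, hZN, hall⟩ := sharp3_even h3 hsharp (by omega) heven'
  obtain ⟨hc, -⟩ := hall a b hab
  have hG := sharp3_card_two h3 hsharp hab (by omega)
  refine ⟨N ⊓ (stabilizer G a ⊓ stabilizer G b), inf_le_right, ?_, ?_, ?_⟩
  · constructor
    intro n hn g
    rw [Subgroup.mem_subgroupOf] at hn ⊢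
    exact ⟨hN.conj_mem _ hn.1 _, (stabilizer G a ⊓ stabilizer G b).mul_mem ((stabilizer G a ⊓ stabilizer G b).mul_mem g.2 hn.2) ((stabilizer G a ⊓ stabilizer G b).inv_mem g.2)⟩
  · have h1 : (N ⊓ (stabilizer G a ⊓ stabilizer G b)).relIndex (stabilizer G a ⊓ stabilizer G b) * Nat.card ↥(N ⊓ (stabilizer G a ⊓ stabilizer G b) : Subgroup G) =
        Nat.card ↥(stabilizer G a ⊓ stabilizer G b : Subgroup G) := by
      have h := ((N ⊓ (stabilizer G a ⊓ stabilizer G b)).subgroupOf (stabilizer G a ⊓ stabilizer G b)).card_mul_index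
      rw [Nat.card_congr (Subgroup.subgroupOfEquivOfLe (inf_le_right : N ⊓ (stabilizer G a ⊓ stabilizer G b) ≤ _)).toEquiv] at h
      rw [mul_comm]; exact h
    rw [← card_inf_two] at h1
    have hpos : 0 < Nat.card ↥(stabilizer N a ⊓ stabilizer N b : Subgroup N) := Nat.card_pos
    have h2 : (N ⊓ (stabilizer G a ⊓ stabilizer G b)).relIndex (stabilizer G a ⊓ stabilizer G b) * Nat.card ↥(stabilizer N a ⊓ stabilizer N b : Subgroup N) =
      2 * Nat.card ↥(stabilizer N a ⊓ stabilizer N b : Subgroup N) := by omega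
    exact Nat.eq_of_mul_eq_mul_right hpos h2
  · rintro n ⟨hn, hna, hnb⟩
    have hsa' : s⁻¹ • b = a := by rw [inv_smul_eq_iff]; exact hsa.symm
    have hsb' : s⁻¹ • a = b := by rw [inv_smul_eq_iff]; exact hsb.symm
    refine ⟨hN.conj_mem _ hn _, ?_, ?_⟩
    · show (s * n * s⁻¹) • a = a
      rw [mul_smul, mul_smul, hsb', show n • b = b from hnb, hsb]
    · show (s * n * s⁻¹) • b = b
      rw [mul_smul, mul_smul, hsa', show n • a = a from hna, hsa]

end Cfsg.Agent.S0729
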