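import Cfsg.Statements.S0731
import Cfsg.Agent.H20.ZPsl6

set_option autoImplicit false
open Cfsg


namespace Cfsg.Agent.S0731

open Cfsg.Agent.H20.Zass in
/-- A finite Zassenhaus group whose point stabiliser has an abelian regular normal subgroup on the remaining points is sharply triply transitive or isomorphic to `PSL(2, F)` for a finite field `F` of odd characteristic. -/
theorem result {G Ω : Type*} [Group G] [Finite G] [MulAction G Ω] [Finite Ω] (hZ : Cfsg.IsZassenhausGroup G Ω) (x : Ω) (F : Subgroup G) (hFle : F ≤ MulAction.stabilizer G x) (hFn : (F.subgroupOf (MulAction.stabilizer G x)).Normal) (hFab : IsMulCommutative F) (hreg : ∀ y z : Ω, y ≠ x → z ≠ x → ∃! u : F, (u : G) • y = z) : (MulAction.IsMultiplyPretransitive G Ω 3 ∧ ∀ t : Fin 3 ↪ Ω, MulAction.stabilizer G t = ⊥) ∨ ∃ (K : Type) (_ : Field K) (_ : Fintype K), ringChar K ≠ 2 ∧ Nonempty (G ≃* Matrix.ProjectiveSpecialLinearGroup (Fin 2) K) := by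
  have hFK : F = K hZ x := eq_K_of_regular hZ hFle (fun c d hc hd => hreg c d hc hd)
  subst hFK
  rcases abelian_main hZ (a := x) (fun u hu v hv => setLike_mul_comm hu hv) with h | h
  · exact Or.inl h
  · obtain ⟨L, h1, h2, h3, -, h4⟩ := h
    exact Or.inr ⟨L, h1, h2, h3, h4⟩


end Cfsg.Agent.S0731
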