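import Cfsg.Statements.S0733
import Mathlib

set_option autoImplicit false
open Cfsg

namespace Cfsg.Agent.S0733

/-- A permutation group of affine type — generated by the translations of a finite vector space `V` over `ZMod p` together with a group `G₀` of linear automorphisms — is primitive on `V` if and only if `G₀` is irreducible on `V`. -/
theorem result {p : ℕ} [Fact p.Prime] {V : Type*} [AddCommGroup V] [Module (ZMod p) V] [Finite V] [Nontrivial V] (G₀ : Subgroup (V ≃ₗ[ZMod p] V)) (G : Subgroup (Equiv.Perm V)) (hG : ∀ σ : Equiv.Perm V, σ ∈ G ↔ ∃ g ∈ G₀, ∃ b : V, ∀ x : V, σ x = (g : V ≃ₗ[ZMod p] V) x + b) : MulAction.IsPreprimitive G V ↔ ∀ W : Submodule (ZMod p) V, (∀ g ∈ G₀, ∀ v ∈ W, (g : V ≃ₗ[ZMod p] V) v ∈ W) → W = ⊥ ∨ W = ⊤ := by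
  open MulAction Pointwise in
  constructor
  · intro hprim W hW
    have hB : IsBlock G (W : Set V) := by
      rw [isBlock_iff_smul_eq_or_disjoint]
      rintro ⟨σ, hσ⟩
      obtain ⟨g, hg, b, hgb⟩ := (hG σ).1 hσ
      have hgW : ∀ w, w ∈ W ↔ (g : V ≃ₗ[ZMod p] V) w ∈ W := by
        intro w
        refine ⟨fun h => hW g hg w h, fun h => ?_⟩
        have h1 := hW g⁻¹ (inv_mem hg) _ h
        have h2 : (g⁻¹ : V ≃ₗ[ZMod p] V) ((g : V ≃ₗ[ZMod p] V) w) = w := g.symm_apply_apply w
        rwa [h2] at h1
      by_cases hbW : b ∈ W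
      · left
        have hsub : ∀ w, w ∈ W ↔ σ w ∈ W := by
          intro w
          rw [hgb, hgW w]
          exact ⟨fun h => W.add_mem h hbW, fun h => by simpa using W.sub_mem h hbW⟩
        ext y
        constructor
        · rintro ⟨w, hw, rfl⟩
          exact (hsub w).1 hw
        · intro hy
          refine ⟨σ⁻¹ y, ?_, ?_⟩
          · show σ⁻¹ y ∈ W
            rw [hsub]; simpa using hy
          · show σ (σ⁻¹ y) = y
            simp
      · right
        rw [Set.disjoint_left]
        rintro _ ⟨w, hw, rfl⟩ hy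
        apply hbW
        have h1 : σ w ∈ W := hy
        rw [hgb] at h1
        simpa using W.sub_mem h1 ((hgW w).1 hw)
    rcases hprim.isTrivialBlock_of_isBlock hB with h | h
    · left
      rw [eq_bot_iff]
      intro x hx
      exact (Submodule.mem_bot _).2 (h hx W.zero_mem)
    · right
      rw [eq_top_iff]
      intro x _
      have : x ∈ (W : Set V) := by rw [h]; trivial
      exact this
  · intro hirr
    have htr : ∀ b : V, Equiv.addRight b ∈ G := fun b => (hG _).2 ⟨1, one_mem _, b, fun x => rfl⟩
    haveI : IsPretransitive G V := ⟨fun x y => ⟨⟨_, htr (y - x)⟩, by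
      show x + (y - x) = y
      abel⟩⟩
    apply IsPreprimitive.of_isTrivialBlock_base (0 : V)
    intro B h0 hB
    have htB : ∀ b ∈ B, ∀ x, x ∈ B ↔ x + b ∈ B := by
      intro b hb
      have h1 : (⟨_, htr b⟩ : G) • B = B := by
        apply hB.smul_eq_of_mem (a := 0) h0
        show (0 : V) + b ∈ B
        rw [zero_add]; exact hb
      intro x
      constructor
      · intro hx
        rw [← h1]; exact ⟨x, hx, rfl⟩
      · intro hx
        rw [← h1] at hx
        obtain ⟨y, hy, hyx⟩ := hx
        have : y + b = x + b := hyx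
        rw [← add_right_cancel this]; exact hy
    have hgB : ∀ g ∈ G₀, ∀ v ∈ B, (g : V ≃ₗ[ZMod p] V) v ∈ B := by
      intro g hg v hv
      have hgG : (g : V ≃ₗ[ZMod p] V).toEquiv ∈ G := (hG _).2 ⟨g, hg, 0, fun x => by simp⟩
      have h1 : (⟨_, hgG⟩ : G) • B = B := by
        apply hB.smul_eq_of_mem (a := 0) h0
        show (g : V ≃ₗ[ZMod p] V) 0 ∈ B
        rw [map_zero]; exact h0
      rw [← h1]; exact ⟨v, hv, rfl⟩
    let W : Submodule (ZMod p) V :=
      { carrier := B
        add_mem' := fun {x y} hx hy => (htB y hy x).1 hx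
        zero_mem' := h0
        smul_mem' := by
          intro c x hx
          have h1 : ∀ n : ℕ, n • x ∈ B := by
            intro n
            induction n with
            | zero => simpa using h0
            | succ n ih => rw [succ_nsmul]; exact (htB x hx _).1 ih
          have h2 : c • x = c.val • x := by
            rw [← Nat.cast_smul_eq_nsmul (ZMod p), ZMod.natCast_zmod_val]
          rw [h2]; exact h1 _ }
    rcases hirr W hgB with h | h
    · left
      intro x hx y hy
      have hx' : x ∈ W := hx
      have hy' : y ∈ W := hy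
      rw [h, Submodule.mem_bot] at hx' hy'
      rw [hx', hy']
    · right
      ext x
      have : x ∈ W := by rw [h]; trivial
      exact ⟨fun _ => trivial, fun _ => this⟩

end Cfsg.Agent.S0733
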