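import Cfsg.Statements.S0734
import Mathlib

set_option autoImplicit false
open Cfsg

namespace Cfsg.Agent.S0734

/-- Higman's criterion for primitivity: a transitive action on a finite set is primitive if and only if every non-trivial orbital graph (edges = images of a fixed pair of distinct points) is connected. -/
theorem result {G : Type*} [Group G] {Ω : Type*} [Finite Ω] [MulAction G Ω] [MulAction.IsPretransitive G Ω] [Nontrivial Ω] : MulAction.IsPreprimitive G Ω ↔ ∀ a b : Ω, a ≠ b → (SimpleGraph.fromRel fun x y : Ω => ∃ g : G, g • a = x ∧ g • b = y).Connected := by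
  open MulAction Pointwise in
  have hadj : ∀ (a b x y : Ω), (SimpleGraph.fromRel fun x y : Ω => ∃ g : G, g • a = x ∧ g • b = y).Adj x y ↔
      x ≠ y ∧ ((∃ g : G, g • a = x ∧ g • b = y) ∨ (∃ g : G, g • a = y ∧ g • b = x)) := by
    intro a b x y
    exact SimpleGraph.fromRel_adj _ _ _
  constructor
  · intro hprim a b hab
    obtain ⟨Γ, hΓ⟩ : ∃ Γ, Γ = SimpleGraph.fromRel fun x y : Ω => ∃ g : G, g • a = x ∧ g • b = y := ⟨_, rfl⟩
    have hadj' : ∀ x y, Γ.Adj x y ↔
      x ≠ y ∧ ((∃ g : G, g • a = x ∧ g • b = y) ∨ (∃ g : G, g • a = y ∧ g • b = x)) := by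
      intro x y; rw [hΓ]; exact hadj a b x y
    rw [← hΓ]
    have hmap : ∀ (g : G) (x y : Ω), Γ.Adj x y → Γ.Adj (g • x) (g • y) := by
      intro g x y h
      rw [hadj'] at h ⊢
      obtain ⟨hne, h | h⟩ := h
      · obtain ⟨k, rfl, rfl⟩ := h
        exact ⟨fun h => hne (MulAction.injective g h), Or.inl ⟨g * k, mul_smul _ _ _, mul_smul _ _ _⟩⟩
      · obtain ⟨k, rfl, rfl⟩ := h
        exact ⟨fun h => hne (MulAction.injective g h), Or.inr ⟨g * k, mul_smul _ _ _, mul_smul _ _ _⟩⟩
    have hreach : ∀ (g : G) (x y : Ω), Γ.Reachable x y → Γ.Reachable (g • x) (g • y) := by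
      intro g x y h
      exact h.map (⟨fun x => g • x, fun {x y} h => hmap g x y h⟩ : Γ →g Γ)
    have hB : IsBlock G {x | Γ.Reachable a x} := by
      rw [isBlock_iff_smul_eq_or_disjoint]
      intro g
      by_cases hd : Disjoint (g • {x | Γ.Reachable a x}) {x | Γ.Reachable a x}
      · exact Or.inr hd
      left
      rw [Set.not_disjoint_iff] at hd
      obtain ⟨_, ⟨y, hy, rfl⟩, hyB⟩ := hd
      have h1 : Γ.Reachable (g • a) (g • y) := hreach g a y hy
      have h2 : Γ.Reachable a (g • a) := hyB.trans h1.symm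
      ext z
      constructor
      · rintro ⟨w, hw, rfl⟩
        exact h2.trans (hreach g a w hw)
      · intro hz
        refine ⟨g⁻¹ • z, ?_, smul_inv_smul _ _⟩
        have h3 := hreach g⁻¹ (g • a) z (h2.symm.trans hz)
        rwa [inv_smul_smul] at h3
    have hall : ∀ x, Γ.Reachable a x := by
      rcases hprim.isTrivialBlock_of_isBlock hB with h | h
      · exfalso
        apply hab
        apply h (SimpleGraph.Reachable.refl a)
        apply SimpleGraph.Adj.reachable
        rw [hadj']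
        exact ⟨hab, Or.inl ⟨1, one_smul _ _, one_smul _ _⟩⟩
      · intro x
        have : x ∈ {x | Γ.Reachable a x} := by rw [h]; trivial
        exact this
    haveI : Nonempty Ω := ⟨a⟩
    exact SimpleGraph.Connected.mk (fun x y => (hall x).symm.trans (hall y))
  · intro h
    refine ⟨fun {B} hB => ?_⟩
    by_cases hs : B.Subsingleton
    · exact Or.inl hs
    right
    rw [Set.not_subsingleton_iff] at hs
    obtain ⟨a, ha, b, hb, hab⟩ := hs
    obtain ⟨Γ, hΓ⟩ : ∃ Γ, Γ = SimpleGraph.fromRel fun x y : Ω => ∃ g : G, g • a = x ∧ g • b = y := ⟨_, rfl⟩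
    have hadj' : ∀ x y, Γ.Adj x y ↔
      x ≠ y ∧ ((∃ g : G, g • a = x ∧ g • b = y) ∨ (∃ g : G, g • a = y ∧ g • b = x)) := by
      intro x y; rw [hΓ]; exact hadj a b x y
    have hc := h a b hab
    rw [← hΓ] at hc
    have hstep : ∀ x y, Γ.Adj x y → x ∈ B → y ∈ B := by
      intro x y hxy hx
      rw [hadj'] at hxy
      obtain ⟨_, ⟨g, rfl, rfl⟩ | ⟨g, rfl, rfl⟩⟩ := hxy
      · have h1 : g • B = B := hB.smul_eq_of_mem ha hx
        rw [← h1]; exact ⟨b, hb, rfl⟩
      · have h1 : g • B = B := hB.smul_eq_of_mem hb hx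
        rw [← h1]; exact ⟨a, ha, rfl⟩
    ext x
    simp only [Set.mem_univ, iff_true]
    obtain ⟨w⟩ := hc.preconnected a x
    have : ∀ (u v : Ω), Γ.Walk u v → u ∈ B → v ∈ B := by
      intro u v w
      induction w with
      | nil => exact id
      | cons h _ ih => intro hu; exact ih (hstep _ _ h hu)
    exact this a x w ha

end Cfsg.Agent.S0734
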