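import Cfsg.Statements.S0735
import Cfsg.Agent.H10.Perm4

set_option autoImplicit false
open Cfsg

namespace Cfsg.Agent.S0735

/-- A 2-homogeneous permutation group (transitive on 2-subsets) of even order is doubly transitive; a non-trivial 2-homogeneous group is primitive. -/
theorem result {α : Type*} [Fintype α] [DecidableEq α] (G : Subgroup (Equiv.Perm α)) (h2 : MulAction.IsPretransitive G (Set.powersetCard α 2)) (hα : 3 ≤ Fintype.card α) : (Even (Nat.card G) → MulAction.IsMultiplyPretransitive G α 2) ∧ (G ≠ ⊥ → MulAction.IsPreprimitive G α) := by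
  have hh := H10.homog_two_iff.1 h2
  refine ⟨fun he => H10.two_trans_of_homog_even he hh, fun _ => ?_⟩
  obtain ⟨x, y, z, hxy, hxz, hyz⟩ := Fintype.two_lt_card_iff.1 (show 2 < Fintype.card α by omega)
  haveI : MulAction.IsPretransitive G α := by
    -- any two points of the base are in the same orbit
    have key : ∀ a b : α, a ≠ b → ∃ g : G, g • a = b := by
      intro a b hab
      by_contra hcon
      push Not at hcon
      -- a third point
      obtain ⟨c, hca, hcb⟩ : ∃ c, c ≠ a ∧ c ≠ b := by
        by_contra h
        push Not at h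
        by_cases h1 : x = a
        · by_cases h2 : y = b
          · exact hyz (h2.trans (h z (fun e => hxz (h1.trans e.symm))).symm)
          · exact h2 (h y (fun e => hxy (h1.trans e.symm)))
        · have hxb := h x h1
          by_cases h2 : y = a
          · exact hxz (hxb.trans (h z (fun e => hyz (h2.trans e.symm))).symm)
          · exact hxy (hxb.trans (h y h2).symm)
      have hnb : ∀ g : G, g • b ≠ a := fun g hg => hcon g⁻¹ (by rw [← hg, inv_smul_smul])
      -- (a, b) → (a, c): so b ~ c ; (a, b) → (b, c)
      obtain ⟨g, hg⟩ := hh a b a c hab hca.symm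
      have hbc : g • a = a ∧ g • b = c := by
        rcases hg with h | h
        · exact h
        · exact absurd h.2 (hnb g)
      obtain ⟨k, hk⟩ := hh a b b c hab hcb.symm
      rcases hk with h | h
      · exact hcon k h.1
      · refine hcon (g⁻¹ * k) ?_
        rw [mul_smul, h.1, ← hbc.2, inv_smul_smul]
    refine ⟨fun a b => ?_⟩
    by_cases h : a = b
    · exact ⟨1, by rw [h, one_smul]⟩
    · exact key a b h
  refine ⟨fun {B} hB => ?_⟩
  by_contra hnt
  rw [MulAction.IsTrivialBlock, not_or] at hnt
  obtain ⟨hns, hnu⟩ := hnt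
  rw [Set.not_subsingleton_iff] at hns
  obtain ⟨u, hu, v, hv, huv⟩ := hns
  obtain ⟨w, hw⟩ := (Set.ne_univ_iff_exists_notMem B).1 hnu
  have huw : u ≠ w := fun h => hw (h ▸ hu)
  obtain ⟨g, hg⟩ := hh u v u w huv huw
  open scoped Pointwise in
  have hgB : g • B = B := by
    have h1 : ¬ Disjoint (g • B) B := by
      rw [Set.not_disjoint_iff]
      rcases hg with h | h
      · exact ⟨u, ⟨u, hu, h.1⟩, hu⟩
      · exact ⟨u, ⟨v, hv, h.2⟩, hu⟩
    rcases hB.smul_eq_or_disjoint g with h | h
    · exact h
    · exact absurd h h1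
  apply hw
  rw [← hgB]
  rcases hg with h | h
  · exact ⟨v, hv, h.2⟩
  · exact ⟨u, hu, h.1⟩

end Cfsg.Agent.S0735
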