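import Cfsg.Statements.S0736
import Mathlib
import Cfsg.Agent.H10.Perm14

set_option autoImplicit false
open Cfsg

namespace Cfsg.Agent.S0736

theorem lucas_aux {p : ℕ} [hp : Fact p.Prime] (j : ℕ) : ∀ k' : ℕ, ¬ p ∣ (p ^ j * k' + p ^ j - 1).choose (p ^ j * k') := by
  have hp2 := hp.out.two_le
  induction j with
  | zero => intro k'; simp; exact hp.out.one_lt.ne'
  | succ j ih =>
    intro k' hd
    apply ih k'
    have h1 := Choose.choose_modEq_choose_mod_mul_choose_div_nat (p := p) (n := p ^ (j+1) * k' + p ^ (j+1) - 1) (k := p ^ (j+1) * k')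
    have hpos : 0 < p ^ j := Nat.pow_pos (by omega)
    have e1 : p ^ (j + 1) * k' = p * (p ^ j * k') := by ring
    have e2 : p ^ (j+1) * k' + p ^ (j+1) - 1 = p * (p ^ j * k' + p ^ j - 1) + (p - 1) := by
      obtain ⟨m, hm⟩ : ∃ m, p ^ j * k' + p ^ j = m + 1 := ⟨p ^ j * k' + p ^ j - 1, by omega⟩
      have e3 : p ^ (j+1) * k' + p ^ (j+1) = p * (p ^ j * k' + p ^ j) := by ring
      rw [e3, hm, Nat.add_sub_cancel]
      obtain ⟨r, hr⟩ : ∃ r, p = r + 1 := ⟨p - 1, by omega⟩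
      rw [hr]; simp; ring_nf
      omega
    have e4 : (p * (p ^ j * k' + p ^ j - 1) + (p - 1)) / p = p ^ j * k' + p ^ j - 1 := by
      rw [Nat.mul_add_div (by omega), Nat.div_eq_of_lt (by omega)]; rfl
    have e5 : (p * (p ^ j * k')) / p = p ^ j * k' := Nat.mul_div_cancel_left _ (by omega)
    have e6 : (p * (p ^ j * k')) % p = 0 := Nat.mul_mod_right _ _
    rw [e2, e1, e4, e5, e6, Nat.choose_zero_right, one_mul] at h1
    rw [e2, e1] at hd
    rw [← Nat.modEq_zero_iff_dvd] at hd ⊢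
    exact h1.symm.trans hd

/-- A `k`-homogeneous permutation group of degree `n`, `k ≥ 2`, with `k + q - 1 ≤ n` for every prime power `q` dividing `k`, is `(k-1)`-homogeneous. -/
theorem result {α : Type*} [Fintype α] [DecidableEq α] (G : Subgroup (Equiv.Perm α)) {k : ℕ} (hk : 2 ≤ k) (hG : MulAction.IsPretransitive G (Set.powersetCard α k)) (hq : ∀ q : ℕ, IsPrimePow q → q ∣ k → k + q - 1 ≤ Fintype.card α) : MulAction.IsPretransitive G (Set.powersetCard α (k - 1)) := by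
  open Cfsg.Agent.H10 in
  classical
  rw [homE_iff] at hG ⊢
  intro T₁ T₂ hT₁ hT₂
  by_contra hcon
  obtain ⟨O, hOdef⟩ : ∃ O : Finset α → Prop, ∀ t, O t ↔ ∃ g ∈ G, T₁.map (g : Equiv.Perm α).toEmbedding = t :=
    ⟨_, fun t => Iff.rfl⟩
  have hOT₁ : O T₁ := (hOdef _).2 ⟨1, one_mem _, Finset.map_refl⟩
  have hOT₂ : ¬ O T₂ := fun h => hcon ((hOdef _).1 h)
  have hOg : ∀ g ∈ G, ∀ T : Finset α, O (T.map (g : Equiv.Perm α).toEmbedding) ↔ O T := by
    have h1 : ∀ g ∈ G, ∀ T : Finset α, O T → O (T.map (g : Equiv.Perm α).toEmbedding) := by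
      intro g hg T hT
      obtain ⟨h, hh, rfl⟩ := (hOdef _).1 hT
      refine (hOdef _).2 ⟨g * h, mul_mem hg hh, ?_⟩
      rw [Finset.map_map]; rfl
    intro g hg T
    refine ⟨fun h => ?_, h1 g hg T⟩
    have := h1 g⁻¹ (inv_mem hg) _ h
    rw [Finset.map_map] at this
    convert this
    symm
    convert Finset.map_refl
    ext x; simp
  -- the constant
  obtain ⟨p₀, hp₀, hp₀k⟩ := Nat.exists_prime_and_dvd (show k ≠ 1 by omega)
  have hkn : k < Fintype.card α := by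
    have := hq p₀ hp₀.isPrimePow hp₀k
    have := hp₀.two_le
    omega
  have hsup : ∀ T : Finset α, T.card = k - 1 → ∃ U : Finset α, T ⊆ U ∧ U.card = k := by
    intro T hT
    obtain ⟨U, hTU, hU⟩ := Finset.exists_superset_card_eq (s := T) (n := k) (by omega) (by omega)
    exact ⟨U, hTU, hU⟩
  obtain ⟨U₁, hTU₁, hU₁⟩ := hsup T₁ hT₁
  obtain ⟨U₂, hTU₂, hU₂⟩ := hsup T₂ hT₂
  obtain ⟨c, hc⟩ : ∃ c, c = ((U₁.powersetCard (k-1)).filter O).card := ⟨_, rfl⟩
  have hconst : ∀ U : Finset α, U.card = k → ((U.powersetCard (k-1)).filter O).card = c := by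
    intro U hU
    obtain ⟨g, hg, rfl⟩ := hG U₁ U hU₁ hU
    rw [hc]
    exact card_filter_map g O (hOg g hg) U₁ (k-1)
  have hc1 : 1 ≤ c := by
    rw [hc, Nat.one_le_iff_ne_zero, ← Nat.pos_iff_ne_zero, Finset.card_pos]
    exact ⟨T₁, Finset.mem_filter.2 ⟨Finset.mem_powersetCard.2 ⟨hTU₁, hT₁⟩, hOT₁⟩⟩
  have hck : c < k := by
    rw [← hconst U₂ hU₂]
    have h1 : (U₂.powersetCard (k-1)).card = k := by
      rw [Finset.card_powersetCard, hU₂, Nat.choose_symm_of_eq_add (show k = (k-1) + 1 by omega), Nat.choose_one_right]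
    conv_rhs => rw [← h1]
    apply Finset.card_lt_card
    rw [Finset.ssubset_iff_of_subset (Finset.filter_subset _ _)]
    exact ⟨T₂, Finset.mem_powersetCard.2 ⟨hTU₂, hT₂⟩, fun h => hOT₂ (Finset.mem_filter.1 h).2⟩
  have hndvd : ¬ k ∣ c := fun h => by
    have := Nat.le_of_dvd (by omega) h
    omega
  rw [Nat.dvd_iff_prime_pow_dvd_dvd] at hndvd
  push Not at hndvd
  obtain ⟨p, j, hp, hpk, hpc⟩ := hndvd
  haveI : Fact p.Prime := ⟨hp⟩
  have hj : j ≠ 0 := by rintro rfl; exact hpc (by simp)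
  have hqq : k + p ^ j - 1 ≤ Fintype.card α := hq (p ^ j) (hp.isPrimePow.pow hj) hpk
  obtain ⟨S, -, hS⟩ := Finset.exists_superset_card_eq (s := (∅ : Finset α)) (n := k + p ^ j - 1) (by simp) hqq
  have hcount := Finset.card_mul_eq_card_mul (s := (S.powersetCard (k-1)).filter O) (t := S.powersetCard k)
    (fun T U : Finset α => T ⊆ U) (m := p ^ j) (n := c) (by
      intro T hT
      rw [Finset.mem_filter, Finset.mem_powersetCard] at hT
      have h1 := above_card S T hT.1.1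
      rw [hT.1.2, hS] at h1
      rw [Finset.bipartiteAbove]
      rw [show k - 1 + 1 = k by omega] at h1
      rw [h1]
      have := Nat.pos_of_ne_zero (pow_ne_zero j hp.ne_zero)
      omega) (by
      intro U hU
      rw [Finset.mem_powersetCard] at hU
      rw [← hconst U hU.2, Finset.bipartiteBelow]
      congr 1
      ext T
      simp only [Finset.mem_filter, Finset.mem_powersetCard]
      constructor
      · rintro ⟨⟨⟨h1, h2⟩, h3⟩, h4⟩
        exact ⟨⟨h4, h2⟩, h3⟩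
      · rintro ⟨⟨h4, h2⟩, h3⟩
        exact ⟨⟨⟨h4.trans hU.1, h2⟩, h3⟩, h4⟩)
  rw [Finset.card_powersetCard, hS] at hcount
  have hd : p ^ j ∣ (k + p ^ j - 1).choose k * c := ⟨_, by rw [← hcount, mul_comm]⟩
  obtain ⟨k', hk'⟩ := hpk
  have hl := lucas_aux (p := p) j k'
  rw [← hk'] at hl
  exact hpc ((Nat.Coprime.dvd_mul_left (((Nat.Prime.coprime_iff_not_dvd hp).2 hl).pow_left j)).1 hd)

end Cfsg.Agent.S0736
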