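import Cfsg.Statements.S0737
import Cfsg.Agent.FT
import Cfsg.Agent.H10.KA7
import Cfsg.Agent.S0735
import Cfsg.Agent.H10.Perm4

set_option autoImplicit false
open Cfsg

namespace Cfsg.Agent.S0737

/-- A non-trivial 2-homogeneous permutation group that is not doubly transitive has odd order and degree `p^f ≡ 3 (mod 4)`, and is permutation-isomorphic to a group of semi-affine transformations `x ↦ a φ(x) + b` of the field with `p^f` elements containing all translations. -/
theorem result {α : Type*} [Fintype α] [DecidableEq α] (G : Subgroup (Equiv.Perm α)) (hne : G ≠ ⊥) (h2 : MulAction.IsPretransitive G (Set.powersetCard α 2)) (hn2 : ¬ MulAction.IsMultiplyPretransitive G α 2) : Odd (Nat.card G) ∧ ∃ (p f : ℕ) (_ : Fact p.Prime), p ≠ 2 ∧ Fintype.card α = p ^ f ∧ p ^ f % 4 = 3 ∧ ∃ e : α ≃ GaloisField p f, (∀ g : G, e.symm.trans (((g : Equiv.Perm α)).trans e) ∈ Cfsg.semiaffineGroup (GaloisField p f)) ∧ ∀ b : GaloisField p f, ∃ g : G, ∀ x : α, e ((g : Equiv.Perm α) x) = e x + b := by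
  classical
  -- at least three points
  have h3 : 3 ≤ Fintype.card α := by
    by_contra hlt
    have hle : Fintype.card α ≤ 2 := by omega
    obtain ⟨g, hgG, hg1⟩ := (Subgroup.ne_bot_iff_exists_ne_one.1 hne).elim (fun g hg => (⟨(g : Equiv.Perm α), g.2, fun e => hg (Subtype.ext e)⟩ : ∃ g ∈ G, g ≠ 1))
    apply hn2
    rw [MulAction.is_two_pretransitive_iff]
    intro a b c d hab hcd
    have hall : ∀ x y z : α, x ≠ y → z = x ∨ z = y := by
      intro x y z hxy
      by_contra hno
      push Not at hno
      have h1 : ({x, y, z} : Finset α).card = 3 := Finset.card_eq_three.2 ⟨x, y, z, hxy, hno.1.symm, hno.2.symm, rfl⟩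
      have h2 := Finset.card_le_univ ({x, y, z} : Finset α)
      omega
    have hga : g a ≠ a := by
      intro h
      have hb : g b = b := by
        rcases hall a b (g b) hab with h1 | h1
        · exact absurd (g.injective (h1.trans h.symm)) hab.symm
        · exact h1
      apply hg1
      ext x
      rcases hall a b x hab with rfl | rfl
      · exact h
      · exact hb
    have hgb : g a = b := (hall a b _ hab).resolve_left hga
    have hgb' : g b = a := by
      rcases hall a b (g b) hab with h1 | h1
      · exact h1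
      · exact absurd (g.injective (h1.trans hgb.symm)) hab.symm
    rcases hall a b c hab with rfl | rfl
    · have hd : d = b := (hall c b d hab).resolve_left hcd.symm
      exact ⟨1, one_smul _ _, by rw [one_smul, hd]⟩
    · have hd : d = a := (hall a c d hab).resolve_right hcd.symm
      exact ⟨⟨g, hgG⟩, hgb, hd ▸ hgb'⟩
  obtain ⟨hev, hprim⟩ := S0735.result G h2 h3
  have hodd : Odd (Nat.card G) := by
    rw [← Nat.not_even_iff_odd]
    exact fun he => hn2 (hev he)
  refine ⟨hodd, ?_⟩
  haveI : Nontrivial α := by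
    rw [← Fintype.one_lt_card_iff_nontrivial]; omega
  have hh := H10.homog_two_iff.1 h2
  obtain ⟨p, f, hp, hp2, hcard, e, he1, he2⟩ := H10.semiaffine_of_odd (G := G) (α := α) (FT.odd_order hodd) (hprim hne) hh hodd
  rw [Nat.card_eq_fintype_card] at hcard
  refine ⟨p, f, hp, hp2, hcard, ?_, e, ?_, fun b => he2 b⟩
  · -- n (n - 1) / 2 is odd
    have h4 : (Fintype.card α).choose 2 ∣ Nat.card G := by
      obtain ⟨a, b, hab⟩ := exists_pair_ne α
      have h5 := MulAction.index_stabilizer_of_transitive G (⟨{a, b}, Set.powersetCard.mem_iff.2 (Finset.card_pair hab)⟩ : Set.powersetCard α 2)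
      rw [Set.powersetCard.card, Nat.card_eq_fintype_card] at h5
      rw [← h5]
      exact Subgroup.index_dvd_card _
    have h5 : Odd ((Fintype.card α).choose 2) := hodd.of_dvd_nat h4
    have h6 : Odd (p ^ f) := (hp.out.odd_of_ne_two hp2).pow
    rw [hcard, Nat.choose_two_right] at h5
    obtain ⟨k, hk⟩ := h6
    rw [hk] at h5 ⊢
    have h7 : (2 * k + 1) * (2 * k + 1 - 1) / 2 = (2 * k + 1) * k := by
      rw [Nat.add_sub_cancel, mul_comm 2 k, ← mul_assoc, Nat.mul_div_cancel _ (by norm_num)]
    rw [h7] at h5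
    have h8 : Odd k := (Nat.odd_mul.1 h5).2
    obtain ⟨j, rfl⟩ := h8
    omega
  · intro g
    obtain ⟨a, b, φ, h⟩ := he1 g
    refine ⟨a, b, φ, fun y => ?_⟩
    have := h (e.symm y)
    rw [Equiv.apply_symm_apply] at this
    exact this

end Cfsg.Agent.S0737
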