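import Cfsg.Statements.S0740
import Cfsg.Agent.H20.Zass4

set_option autoImplicit false
open Cfsg


namespace Cfsg.Agent.S0740


open MulAction in
/-- In a finite Zassenhaus group any two points `a ≠ b` are swapped by an involution; every such involution has exactly one fixed point when the degree is odd and 0 or 2 fixed points when the degree is even; and if the two-point stabiliser has even order, some such involution has exactly 2 fixed points. -/
theorem result {G Ω : Type*} [Group G] [Finite G] [MulAction G Ω] [Fintype Ω] (hZ : Cfsg.IsZassenhausGroup G Ω) {a b : Ω} (hab : a ≠ b) : (∃ s : G, orderOf s = 2 ∧ s • a = b ∧ s • b = a) ∧ (∀ s : G, orderOf s = 2 → s • a = b → s • b = a → (Odd (Fintype.card Ω) → Nat.card (MulAction.fixedBy Ω s) = 1) ∧ (Even (Fintype.card Ω) → Nat.card (MulAction.fixedBy Ω s) = 0 ∨ Nat.card (MulAction.fixedBy Ω s) = 2)) ∧ (Even (Fintype.card Ω) → Even (Nat.card ↥(MulAction.stabilizer G a ⊓ MulAction.stabilizer G b)) → ∃ s : G, orderOf s = 2 ∧ s • a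 = b ∧ s • b = a ∧ Nat.card (MulAction.fixedBy Ω s) = 2) := by
  classical
  haveI := H20.Zass.finite_group hZ
  have horder : ∀ s : G, orderOf s = 2 ↔ (s ≠ 1 ∧ s * s = 1) := by
    intro s
    constructor
    · intro h
      refine ⟨?_, ?_⟩
      · rintro rfl
        rw [orderOf_one] at h
        omega
      · rw [← pow_two, ← h]
        exact pow_orderOf_eq_one s
    · rintro ⟨h1, h2⟩
      exact orderOf_eq_prime (by rw [pow_two, h2]) h1
  refine ⟨?_, ?_, ?_⟩
  · obtain ⟨t, h1, h2, h3, h4⟩ := H20.Zass.exists_involution_swap hZ hab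
    exact ⟨t, (horder t).mpr ⟨h1, h2⟩, h3, h4⟩
  · intro s hs hsa hsb
    obtain ⟨h1, h2⟩ := (horder s).mp hs
    have h3 := H20.Zass.card_fixedBy_modEq (Ω := Ω) h2
    have h4 := H20.Zass.card_fixedBy_le_two hZ h1
    rw [Nat.card_eq_fintype_card (α := Ω)] at h3
    have h5 : Fintype.card Ω % 2 = Nat.card (fixedBy Ω s) % 2 := h3
    refine ⟨fun h => ?_, fun h => ?_⟩
    · have := Nat.odd_iff.mp h
      omega
    · have := Nat.even_iff.mp h
      omega
  · intro _ heven
    haveI : Fact (Nat.Prime 2) := ⟨Nat.prime_two⟩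
    obtain ⟨z, hz⟩ := exists_prime_orderOf_dvd_card' 2 heven.two_dvd
    have hz' : orderOf (z : G) = 2 := by rw [Subgroup.orderOf_coe]; exact hz
    obtain ⟨h1, h2⟩ := (horder z).mp hz'
    obtain ⟨g, hg1, hg2⟩ := H20.Zass.conj_swap hZ h1 h2 hab
    refine ⟨g * z * g⁻¹, (horder _).mpr ⟨fun h => h1 (conj_eq_one_iff.mp h), ?_⟩, hg1, hg2, ?_⟩
    · have : g * z * g⁻¹ * (g * z * g⁻¹) = g * ((z : G) * z) * g⁻¹ := by group
      rw [this, h2]
      simp
    · rw [H20.Zass.card_fixedBy_conj]
      exact H20.Zass.card_fixedBy_eq_two hZ hab h1 z.2.1 z.2.2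


end Cfsg.Agent.S0740
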