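import Cfsg.Statements.S0742
import Cfsg.Agent.H20.ZPsl5

set_option autoImplicit false
open Cfsg


namespace Cfsg.Agent.S0742

open Cfsg.Agent.H20.Zass in
/-- A finite Zassenhaus group of degree `n + 1` with two-point stabilisers of even order `d` satisfying `2d ≤ n - 1` has `n = p^f` for an odd prime `p` and is isomorphic to `PSL(2, p^f)`. -/
theorem result {G Ω : Type*} [Group G] [Finite G] [MulAction G Ω] [Fintype Ω] (hZ : Cfsg.IsZassenhausGroup G Ω) {a b : Ω} (hab : a ≠ b) (heven : Even (Nat.card ↥(MulAction.stabilizer G a ⊓ MulAction.stabilizer G b))) (hd : 2 * Nat.card ↥(MulAction.stabilizer G a ⊓ MulAction.stabilizer G b) ≤ Fintype.card Ω - 2) : ∃ (p f : ℕ) (K : Type) (_ : Field K) (_ : Fintype K), p.Prime ∧ p ≠ 2 ∧ Fintype.card K = p ^ f ∧ Fintype.card Ω = p ^ f + 1 ∧ Nonempty (G ≃* Matrix.ProjectiveSpecialLinearGroup (Fin 2) K) := by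
  have h1 := card_le_of_even hZ hab heven
  have h2 := three_le_card hZ
  rw [Nat.card_eq_fintype_card (α := Ω)] at h1 h2
  obtain ⟨F, hF1, hF2, hchar, hcard, hiso⟩ := psl_of_even hZ hab heven
    (by rw [Nat.card_eq_fintype_card (α := Ω)]; omega)
  obtain ⟨p, f, hp, hpf⟩ : ∃ (p f : ℕ), p.Prime ∧ Fintype.card F = p ^ f :=
    (isPrimePow_nat_iff _).mp (FiniteField.isPrimePow_card F) |>.imp fun p h => h.imp fun f h => ⟨h.1, h.2.2.symm⟩
  rw [Nat.card_eq_fintype_card] at hcard
  refine ⟨p, f, F, hF1, hF2, hp, ?_, hpf, by rw [← hpf, hcard], hiso⟩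
  rintro rfl
  apply hchar
  have h3 : Even (Fintype.card F) := by
    rw [hpf]; refine (Nat.even_pow.mpr ⟨even_two, ?_⟩)
    rintro rfl
    rw [pow_zero] at hpf
    have := Fintype.one_lt_card (α := F)
    omega
  exact FiniteField.even_card_iff_char_two.mpr (Nat.even_iff.mp h3)


end Cfsg.Agent.S0742
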