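import Cfsg.Statements.S0745
import Cfsg.Agent.H10.MT15

set_option autoImplicit false
open Cfsg

namespace Cfsg.Agent.S0745

/-- Let `G` have degree `n` and `3 ≤ k ≤ n`; suppose `G` is `(k-2)`-transitive but not `(k-1)`-transitive, and is `(k-1)`-homogeneous and `k`-homogeneous. Then `k = n` and `G` is the alternating group, or `n = 5, k = 4, |G| = 20`, or `n = 6, k = 5, |G| = 120`, or `n = 9, k = 5, |G| ∈ {504, 1512}`. -/
theorem result {α : Type*} [Fintype α] [DecidableEq α] (G : Subgroup (Equiv.Perm α)) {k : ℕ} (hk : 3 ≤ k) (hkn : k ≤ Fintype.card α) (ht : MulAction.IsMultiplyPretransitive G α (k - 2)) (hnt : ¬ MulAction.IsMultiplyPretransitive G α (k - 1)) (hh1 : MulAction.IsPretransitive G (Set.powersetCard α (k - 1))) (hh : MulAction.IsPretransitive G (Set.powersetCard α k)) : (k = Fintype.card α ∧ G = alternatingGroup α) ∨ (Fintype.card α = 5 ∧ k = 4 ∧ Nat.card G = 20) ∨ (Fintype.card α = 6 ∧ k = 5 ∧ Nat.card G = 120) ∨ (Fintype.card α = 9 ∧ k = 5 ∧ (Nat.card G = 504 ∨ Nat.card G = 1512)) := by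
  classical
  open MulAction H10 in
  have hom1 := homE_iff.1 hh1
  have hne : G ≠ ⊤ := by
    rintro rfl
    apply hnt
    have h1 := Equiv.Perm.isMultiplyPretransitive α (k - 1)
    refine ⟨fun x y => ?_⟩
    obtain ⟨g, hg⟩ := h1.exists_smul_eq x y
    exact ⟨⟨g, Subgroup.mem_top g⟩, hg⟩
  rcases Nat.lt_or_ge k 6 with hk6 | hk6
  · have hpos : 0 < Fintype.card α := by omega
    obtain ⟨j, rfl⟩ : ∃ j, k = j + 1 := ⟨k - 1, by omega⟩
    rw [Nat.add_sub_cancel] at hnt hh1 hom1
    obtain ⟨hfree, y, x, hy, hGy, hGx, hyd, hyne, hxy⟩ := H10.hom_data (by omega) hkn hh1 hh hnt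
    obtain ⟨c, rfl⟩ : ∃ c, j = c + 1 := ⟨j - 1, by omega⟩
    have hct : MulAction.IsMultiplyPretransitive G α c := ht
    have htd := H10.trans_dvd (c := c) (by omega) hct hGy
    obtain ⟨d, hd⟩ : ∃ d, Fintype.card α = (c + 1) + d := ⟨Fintype.card α - (c + 1), by omega⟩
    have hd1 : Fintype.card α - (c + 1) = d := by omega
    have hd2 : Fintype.card α - c = d + 1 := by omega
    have hdpos : 1 ≤ d := by omega
    rw [hd1] at hxy
    rw [hd2] at htd
    have hypos : 0 < y := Nat.pos_of_dvd_of_pos hyd (Nat.factorial_pos _)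
    have hyle := Nat.le_of_dvd (Nat.factorial_pos _) hyd
    have hdd : d ∣ (c + 1 + 1) * y := Dvd.intro_left x hxy
    have hdle := Nat.le_of_dvd (by positivity) hdd
    have hc : c = 1 ∨ c = 2 ∨ c = 3 := by omega
    rcases hc with rfl | rfl | rfl
    · have f2 : (1 + 1).factorial = 2 := by decide
      rw [f2] at hyd hyne hyle htd
      have hle : d ≤ 6 := by omega
      rcases H10.num2 y (Finset.mem_range.2 (by omega)) d (Finset.mem_range.2 (by omega)) hyd hyne hdd with ⟨rfl, rfl⟩ | ⟨rfl, rfl⟩
      · left
        refine ⟨hd.symm, H10.eq_alt_of_card (m := 3) (by norm_num) ?_ ?_⟩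
        · rw [hGy, hd]; decide
        · rw [hd]; decide
      · exfalso
        refine H10.kill_five hy ?_
        rw [hGy, hd]; decide
    · have f3 : (2 + 1).factorial = 6 := by decide
      rw [f3] at hyd hyne hyle htd
      have hle : d ≤ 24 := by omega
      rcases H10.num3 y (Finset.mem_range.2 (by omega)) d (Finset.mem_range.2 (by omega)) hyd hyne hdd htd with ⟨rfl, rfl⟩ | ⟨rfl, rfl⟩ | ⟨rfl, rfl⟩ | ⟨rfl, rfl⟩
      · right; left
        refine ⟨hd, rfl, ?_⟩
        rw [hGy, hd]; decide
      · exfalso
        obtain ⟨e, l, he, hel⟩ := H10.sylow_kill (p := 11) (m := 30) (j := 3) (by norm_num) (by norm_num) (by omega) hfree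
          (by rw [hGy, hd]; decide) (by decide)
        have : e ∈ Nat.divisors 10 := Nat.mem_divisors.2 ⟨he, by norm_num⟩
        have h2 : Nat.divisors 10 = {1, 2, 5, 10} := by decide +kernel
        rw [h2] at this
        simp only [Finset.mem_insert, Finset.mem_singleton] at this
        rcases this with rfl | rfl | rfl | rfl <;> omega
      · left
        refine ⟨hd.symm, H10.eq_alt_of_card (m := 12) (by norm_num) ?_ ?_⟩
        · rw [hGy, hd]; decide
        · rw [hd]; decide
      · exfalso
        refine H10.kill_six hct hd ?_ hy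
        rw [hGy, hd]; decide
    · have f4 : (3 + 1).factorial = 24 := by decide
      rw [f4] at hyd hyne hyle htd
      have hle : d ≤ 120 := by omega
      have kill : ∀ p m : ℕ, p.Prime → 4 ≤ p → 3 + 1 + d < 2 * p → (3 + 1 + d).choose 4 * y = p * m → ¬ p ∣ m →
          ∃ e l : ℕ, e ∣ p - 1 ∧ m = e * (1 + l * p) := by
        intro p m hp h4 hn hcard hpm
        exact H10.sylow_kill hp h4 (by omega) hfree (by rw [hGy, hd]; exact hcard) hpm
      rcases H10.num4 y (Finset.mem_range.2 (by omega)) d (Finset.mem_range.2 (by omega)) hyd hyne hdd htd with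
        ⟨rfl, rfl⟩ | ⟨rfl, rfl⟩ | ⟨rfl, rfl⟩ | ⟨rfl, rfl⟩ | ⟨rfl, rfl⟩ | ⟨rfl, rfl⟩ | ⟨rfl, rfl⟩ | ⟨rfl, rfl⟩ | ⟨rfl, rfl⟩ |
        ⟨rfl, rfl⟩ | ⟨rfl, rfl⟩ | ⟨rfl, rfl⟩
      · left
        refine ⟨hd.symm, H10.eq_alt_of_card (m := 60) (by norm_num) ?_ ?_⟩
        · rw [hGy, hd]; decide
        · rw [hd]; decide
      · exfalso
        obtain ⟨e, l, he, hel⟩ := kill 7 60 (by norm_num) (by norm_num) (by norm_num) (by decide) (by decide)
        have : e ∈ Nat.divisors 6 := Nat.mem_divisors.2 ⟨he, by norm_num⟩
        have h2 : Nat.divisors 6 = {1, 2, 3, 6} := by decide +kernel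
        rw [h2] at this
        simp only [Finset.mem_insert, Finset.mem_singleton] at this
        rcases this with rfl | rfl | rfl | rfl <;> omega
      · right; right; right
        refine ⟨hd, rfl, Or.inr ?_⟩
        rw [hGy, hd]; decide
      · exfalso
        obtain ⟨e, l, he, hel⟩ := kill 19 2448 (by norm_num) (by norm_num) (by norm_num) (by decide) (by decide)
        have : e ∈ Nat.divisors 18 := Nat.mem_divisors.2 ⟨he, by norm_num⟩
        have h2 : Nat.divisors 18 = {1, 2, 3, 6, 9, 18} := by decide +kernel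
        rw [h2] at this
        simp only [Finset.mem_insert, Finset.mem_singleton] at this
        rcases this with rfl | rfl | rfl | rfl | rfl | rfl <;> omega
      · right; right; left
        refine ⟨hd, rfl, ?_⟩
        rw [hGy, hd]; decide
      · exfalso
        obtain ⟨e, l, he, hel⟩ := kill 7 144 (by norm_num) (by norm_num) (by norm_num) (by decide) (by decide)
        have : e ∈ Nat.divisors 6 := Nat.mem_divisors.2 ⟨he, by norm_num⟩
        have h2 : Nat.divisors 6 = {1, 2, 3, 6} := by decide +kernel
        rw [h2] at this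
        simp only [Finset.mem_insert, Finset.mem_singleton] at this
        rcases this with rfl | rfl | rfl | rfl <;> omega
      · exfalso
        obtain ⟨e, l, he, hel⟩ := kill 11 360 (by norm_num) (by norm_num) (by norm_num) (by decide) (by decide)
        have : e ∈ Nat.divisors 10 := Nat.mem_divisors.2 ⟨he, by norm_num⟩
        have h2 : Nat.divisors 10 = {1, 2, 5, 10} := by decide +kernel
        rw [h2] at this
        simp only [Finset.mem_insert, Finset.mem_singleton] at this
        rcases this with rfl | rfl | rfl | rfl <;> omega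
      · exfalso
        obtain ⟨e, l, he, hel⟩ := kill 23 3696 (by norm_num) (by norm_num) (by norm_num) (by decide) (by decide)
        have : e ∈ Nat.divisors 22 := Nat.mem_divisors.2 ⟨he, by norm_num⟩
        have h2 : Nat.divisors 22 = {1, 2, 11, 22} := by decide +kernel
        rw [h2] at this
        simp only [Finset.mem_insert, Finset.mem_singleton] at this
        rcases this with rfl | rfl | rfl | rfl <;> omega
      · exfalso
        refine H10.kill_seven hct hd ?_
        rw [hGy, hd]; decide
      · exfalso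
        obtain ⟨e, l, he, hel⟩ := kill 19 1224 (by norm_num) (by norm_num) (by norm_num) (by decide) (by decide)
        have : e ∈ Nat.divisors 18 := Nat.mem_divisors.2 ⟨he, by norm_num⟩
        have h2 : Nat.divisors 18 = {1, 2, 3, 6, 9, 18} := by decide +kernel
        rw [h2] at this
        simp only [Finset.mem_insert, Finset.mem_singleton] at this
        rcases this with rfl | rfl | rfl | rfl | rfl | rfl <;> omega
      · right; right; right
        refine ⟨hd, rfl, Or.inl ?_⟩
        rw [hGy, hd]; decide
      · exfalso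
        obtain ⟨e, l, he, hel⟩ := kill 19 612 (by norm_num) (by norm_num) (by norm_num) (by decide) (by decide)
        have : e ∈ Nat.divisors 18 := Nat.mem_divisors.2 ⟨he, by norm_num⟩
        have h2 : Nat.divisors 18 = {1, 2, 3, 6, 9, 18} := by decide +kernel
        rw [h2] at this
        simp only [Finset.mem_insert, Finset.mem_singleton] at this
        rcases this with rfl | rfl | rfl | rfl | rfl | rfl <;> omega
  · left
    obtain ⟨Δ, hΔ, hAΔ⟩ := H10.altset (Fintype.card α) rfl G (k - 2) (by omega) (by omega) ht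
    have e1 : k - 2 + 1 = k - 1 := by omega
    rw [e1] at hΔ
    have hA := H10.altOn_conj hom1 hΔ hAΔ
    have hN := H10.noSwap_of_not_trans hom1 hA hnt
    have h4 : MulAction.IsMultiplyPretransitive G α 4 :=
      MulAction.isMultiplyPretransitive_of_le' (n := k - 2) (by omega) (by
        rw [ENat.card_eq_coe_fintype_card]; norm_cast; omega)
    have := H10.exact_alt (m := k - 1) (by omega) (by omega) h4 hom1 hA hN
    have hkn' : k = Fintype.card α := by omega
    refine ⟨hkn', ?_⟩
    have hle : alternatingGroup α ≤ G := by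
      apply IsMultiplyPretransitive.alternatingGroup_le
      rw [Nat.card_eq_fintype_card, ← hkn']
      exact ht
    have hi : (alternatingGroup α).index = 2 := by
      haveI : Nontrivial α := Fintype.one_lt_card_iff_nontrivial.1 (by omega)
      exact alternatingGroup.index_eq_two
    have h5 := Subgroup.index_dvd_of_le hle
    rw [hi] at h5
    rcases (Nat.dvd_prime Nat.prime_two).1 h5 with h6 | h6
    · exact absurd (Subgroup.index_eq_one.1 h6) hne
    · exact Equiv.Perm.eq_alternatingGroup_of_index_eq_two h6

end Cfsg.Agent.S0745
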