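import Cfsg.Statements.S0746
import Cfsg.Agent.S0745
import Cfsg.Agent.S0736

set_option autoImplicit false
open Cfsg

namespace Cfsg.Agent.S0746

/-- The Livingstone–Wagner Theorem, first form: a `k`-homogeneous group of degree `n` with `4 ≤ 2k ≤ n` is `(k-1)`-transitive. -/
theorem result {α : Type*} [Fintype α] [DecidableEq α] (G : Subgroup (Equiv.Perm α)) {k : ℕ} (hk : 2 ≤ k) (hkn : 2 * k ≤ Fintype.card α) (hh : MulAction.IsPretransitive G (Set.powersetCard α k)) : MulAction.IsMultiplyPretransitive G α (k - 1) := by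
  classical
  induction k using Nat.strong_induction_on with
  | _ k ih =>
  have hq : ∀ q : ℕ, IsPrimePow q → q ∣ k → k + q - 1 ≤ Fintype.card α := by
    intro q hq hqk
    have := Nat.le_of_dvd (by omega) hqk
    omega
  have h1 := S0736.result G hk hh hq
  rcases Nat.lt_or_ge k 3 with h3 | h3
  · have : k = 2 := by omega
    subst this
    have h2 : H10.HomE G 1 := H10.homE_iff.1 h1
    show MulAction.IsMultiplyPretransitive G α 1
    rw [MulAction.is_one_pretransitive_iff]
    refine ⟨fun x y => ?_⟩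
    obtain ⟨g, hg, hgx⟩ := h2 {x} {y} (Finset.card_singleton x) (Finset.card_singleton y)
    rw [Finset.map_singleton, Finset.singleton_inj] at hgx
    exact ⟨⟨g, hg⟩, hgx⟩
  · have h2 := ih (k - 1) (by omega) (by omega) (by omega) h1
    rw [show k - 1 - 1 = k - 2 by omega] at h2
    by_contra hnt
    rcases S0745.result G h3 (by omega) h2 hnt h1 hh with ⟨h4, -⟩ | ⟨h4, h5, -⟩ | ⟨h4, h5, -⟩ | ⟨h4, h5, -⟩ <;> omega

end Cfsg.Agent.S0746
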