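import Cfsg.Statements.S0748
import Cfsg.Agent.S0746

set_option autoImplicit false
open Cfsg

namespace Cfsg.Agent.S0748

/-- The Livingstone–Wagner Theorem: a `k`-homogeneous permutation group of degree `n` with `10 ≤ 2k ≤ n` is `k`-transitive. -/
theorem result {α : Type*} [Fintype α] [DecidableEq α] (G : Subgroup (Equiv.Perm α)) {k : ℕ} (hk : 5 ≤ k) (hkn : 2 * k ≤ Fintype.card α) (hh : MulAction.IsPretransitive G (Set.powersetCard α k)) : MulAction.IsMultiplyPretransitive G α k := by
  classical
  by_contra hnt
  have hom := H10.homE_iff.1 hh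
  have h1 := S0746.result G (by omega) hkn hh
  obtain ⟨Δ, hΔ, hAΔ⟩ := H10.altset (Fintype.card α) rfl G (k - 1) (by omega) (by omega) h1
  rw [show k - 1 + 1 = k by omega] at hΔ
  have hA := H10.altOn_conj hom hΔ hAΔ
  have hN := H10.noSwap_of_not_trans hom hA hnt
  have h4 : MulAction.IsMultiplyPretransitive G α 4 :=
    MulAction.isMultiplyPretransitive_of_le' (n := k - 1) (by omega) (by
      rw [ENat.card_eq_coe_fintype_card]; norm_cast; omega)
  have := H10.exact_alt (m := k) (by omega) (by omega) h4 hom hA hN
  omega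

end Cfsg.Agent.S0748
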