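import Cfsg.Statements.S0750
import Mathlib
import Cfsg.Agent.H5.WittForms

set_option autoImplicit false
open Cfsg

namespace Cfsg.Agent.S0750

/-- Witt's Lemma for quadratic forms over a finite field, in any characteristic: if Q is a quadratic form on a finite-dimensional space V whose polar bilinear form is non-degenerate, then every linear equivalence between subspaces X, Y of V that preserves Q extends to a Q-preserving linear automorphism of V. (In odd characteristic this is the symmetric-bilinear case; in characteristic two it is the statement for non-degenerate quadratic forms.) -/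
theorem result {F V : Type*} [Field F] [Finite F] [AddCommGroup V] [Module F V] [FiniteDimensional F V] (Q : QuadraticForm F V) (hQ : (QuadraticMap.polarBilin Q).Nondegenerate) (X Y : Submodule F V) (φ : X ≃ₗ[F] Y) (hφ : ∀ x : X, Q (φ x : V) = Q (x : V)) : ∃ g : V ≃ₗ[F] V, (∀ v : V, Q (g v) = Q v) ∧ ∀ x : X, g (x : V) = (φ x : V) := by
  obtain ⟨g, _, hgN, hg⟩ := (Cfsg.Agent.H5.formData_quad Q hQ).witt X
    (Y.subtype.comp (φ : X →ₗ[F] Y)) (Y.injective_subtype.comp φ.injective) (fun x y => by
      show Q (((φ x : Y) : V) + ((φ y : Y) : V)) - Q ((φ x : Y) : V) - Q ((φ y : Y) : V) =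
        Q ((x : V) + (y : V)) - Q (x : V) - Q (y : V)
      rw [hφ, hφ]
      have : ((φ x : Y) : V) + ((φ y : Y) : V) = ((φ (x + y) : Y) : V) := by
        rw [map_add]; rfl
      rw [this, hφ]
      rfl) hφ
  exact ⟨g, hgN, hg⟩

end Cfsg.Agent.S0750
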