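import Cfsg.Statements.S0757
import Mathlib

set_option autoImplicit false
open Cfsg

namespace Cfsg.Agent.S0757

/-- The two diagonal forms Σ x_i^2 and Σ_(i<n) x_i^2 + α x_n^2 on F^(n+1), with α a non-square and 2 ≠ 0 in F, are inequivalent quadratic forms (so over a finite field of odd order there are exactly two classes of non-singular symmetric bilinear forms in each dimension). -/
theorem result {F : Type*} [Field F] (h2 : (2 : F) ≠ 0) (n : ℕ) (α : F) (hα : ¬ IsSquare α) : ¬ (QuadraticMap.weightedSumSquares F (fun _ : Fin (n + 1) => (1 : F))).Equivalent (QuadraticMap.weightedSumSquares F (fun i : Fin (n + 1) => if i = Fin.last n then α else (1 : F))) := by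
  rintro ⟨e⟩
  classical
  set w : Fin (n + 1) → F := fun i => if i = Fin.last n then α else 1 with hw
  set A : Matrix (Fin (n + 1)) (Fin (n + 1)) F :=
    LinearMap.toMatrix' (e.toLinearEquiv : (Fin (n + 1) → F) →ₗ[F] (Fin (n + 1) → F)) with hA
  have hAe : ∀ x, A.mulVec x = e x := by
    intro x
    rw [hA, LinearMap.toMatrix'_mulVec]; rfl
  have hQ : ∀ x : Fin (n + 1) → F, ∑ i, w i * (A.mulVec x i * A.mulVec x i) = ∑ i, x i * x i := by
    intro x
    have h1 := e.map_app x
    rw [QuadraticMap.weightedSumSquares_apply, QuadraticMap.weightedSumSquares_apply] at h1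
    rw [hAe]
    simpa using h1
  have hB : ∀ x y : Fin (n + 1) → F, ∑ i, w i * (A.mulVec x i * A.mulVec y i) = ∑ i, x i * y i := by
    intro x y
    have h1 := hQ (x + y)
    have h2x := hQ x
    have h3 := hQ y
    rw [Matrix.mulVec_add] at h1
    simp only [Pi.add_apply] at h1
    have e1 : ∑ i, w i * ((A.mulVec x i + A.mulVec y i) * (A.mulVec x i + A.mulVec y i)) =
      ∑ i, w i * (A.mulVec x i * A.mulVec x i) + ∑ i, w i * (A.mulVec y i * A.mulVec y i) +
      2 * ∑ i, w i * (A.mulVec x i * A.mulVec y i) := by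
      rw [Finset.mul_sum, ← Finset.sum_add_distrib, ← Finset.sum_add_distrib]
      exact Finset.sum_congr rfl (fun i _ => by ring)
    have e2 : ∑ i, ((x i + y i) * (x i + y i)) =
      ∑ i, (x i * x i) + ∑ i, (y i * y i) + 2 * ∑ i, (x i * y i) := by
      rw [Finset.mul_sum, ← Finset.sum_add_distrib, ← Finset.sum_add_distrib]
      exact Finset.sum_congr rfl (fun i _ => by ring)
    rw [e1, e2, h2x, h3] at h1
    exact mul_left_cancel₀ h2 (add_left_cancel h1)
  have hM : A.transpose * Matrix.diagonal w * A = 1 := by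
    ext i j
    have h1 := hB (Pi.single i 1) (Pi.single j 1)
    rw [Matrix.mulVec_single_one, Matrix.mulVec_single_one] at h1
    rw [Matrix.mul_assoc, Matrix.mul_apply]
    simp only [Matrix.transpose_apply, Matrix.diagonal_mul]
    simp only [Matrix.col_apply] at h1
    rw [Matrix.one_apply]
    rw [show (∑ k, A k i * (w k * A k j)) = ∑ k, w k * (A k i * A k j) from
      Finset.sum_congr rfl (fun k _ => by ring), h1]
    simp [Pi.single_apply, eq_comm]
  have hdet := congrArg Matrix.det hM
  rw [Matrix.det_mul, Matrix.det_mul, Matrix.det_transpose, Matrix.det_diagonal, Matrix.det_one,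
    hw, Finset.prod_ite_eq' Finset.univ (Fin.last n) (fun _ => α), if_pos (Finset.mem_univ _)] at hdet
  have hA0 : A.det ≠ 0 := by
    intro h; rw [h] at hdet; simp at hdet
  apply hα
  refine ⟨(A.det)⁻¹, ?_⟩
  field_simp
  linear_combination hdet

end Cfsg.Agent.S0757
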