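import Cfsg.Statements.S0759
import Mathlib
import Cfsg.Agent.H5.FormClass

set_option autoImplicit false
open Cfsg

namespace Cfsg.Agent.S0759

/-- Type of the orthonormal form: over a finite field of odd order q and for m ≥ 1, the quadratic form Σ_(i<2m) x_i² on F^(2m) admits an m-dimensional subspace on which it vanishes identically if and only if it is not the case that q ≡ 3 (mod 4) and m is odd. -/
theorem result {F : Type*} [Field F] [Fintype F] (h2 : (2 : F) ≠ 0) (m : ℕ) (hm : 1 ≤ m) : (∃ W : Submodule F (Fin (2 * m) → F), Module.finrank F W = m ∧ ∀ w ∈ W, ∑ i, w i ^ 2 = 0) ↔ ¬ (Fintype.card F % 4 = 3 ∧ Odd m) := by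
  classical
  haveI : Finite F := inferInstance
  let B : LinearMap.BilinForm F (Fin (2 * m) → F) := Matrix.toBilin' 1
  have hB : ∀ x y, B x y = ∑ i, x i * y i := by
    intro x y
    simp only [B]
    rw [Matrix.toBilin'_apply', Matrix.one_mulVec]
    rfl
  have hBS : ∀ x y, B x y = B y x := by
    intro x y
    rw [hB, hB]
    exact Finset.sum_congr rfl (fun i _ => mul_comm _ _)
  have hm1 : LinearMap.BilinForm.toMatrix (Pi.basisFun F (Fin (2 * m))) B = 1 := by
    rw [LinearMap.BilinForm.toMatrix_basisFun]
    exact LinearMap.BilinForm.toMatrix'_toBilin' 1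
  have hN : B.Nondegenerate := by
    rw [LinearMap.BilinForm.nondegenerate_iff_det_ne_zero (Pi.basisFun F (Fin (2 * m))), hm1, Matrix.det_one]
    exact one_ne_zero
  have hfr : Module.finrank F (Fin (2 * m) → F) = 2 * m := by
    rw [Module.finrank_fintype_fun_eq_card, Fintype.card_fin]
  have key : (∃ W : Submodule F (Fin (2 * m) → F), Module.finrank F W = m ∧ ∀ w ∈ W, ∑ i, w i ^ 2 = 0) ↔
      IsSquare ((-1 : F) ^ m) := by
    constructor
    · rintro ⟨W, hW, hW0⟩
      have := H5.disc_of_isotropic hBS hfr W hW (by
        intro x hx y hy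
        have hq : ∀ z ∈ W, B z z = 0 := by
          intro z hz
          rw [hB, ← hW0 z hz]
          exact Finset.sum_congr rfl (fun i _ => (sq _).symm)
        have h1 := hq _ (W.add_mem hx hy)
        rw [map_add, map_add, LinearMap.add_apply, LinearMap.add_apply, hq x hx, hq y hy, hBS y x] at h1
        have h3 : 2 * B x y = 0 := by linear_combination h1
        exact (mul_eq_zero.mp h3).resolve_left h2) (Pi.basisFun F (Fin (2 * m)))
      rwa [hm1, Matrix.det_one, mul_one] at this
    · intro h
      obtain ⟨X, hX, hX0⟩ := H5.isotropic_of_disc h2 hBS hN hfr (Pi.basisFun F (Fin (2 * m)))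
        (by rwa [hm1, Matrix.det_one, mul_one])
      refine ⟨X, hX, fun w hw => ?_⟩
      have := hX0 w hw w hw
      rw [hB] at this
      rw [← this]
      exact Finset.sum_congr rfl (fun i _ => sq _)
  rw [key]
  rcases Nat.even_or_odd m with he | ho
  · rw [he.neg_one_pow]
    constructor
    · rintro _ ⟨_, h⟩
      exact (Nat.not_odd_iff_even.mpr he) h
    · intro _
      exact IsSquare.one
  · rw [ho.neg_one_pow, FiniteField.isSquare_neg_one_iff]
    constructor
    · rintro h ⟨h', _⟩
      exact h h'
    · intro h h'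
      exact h ⟨h', ho⟩

end Cfsg.Agent.S0759
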