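import Cfsg.Statements.S0760
import Mathlib
import Cfsg.Agent.H5.WittForms

set_option autoImplicit false
open Cfsg

namespace Cfsg.Agent.S0760

/-- Witt index is well defined: if Q is a quadratic form on a finite-dimensional space V over a finite field with non-degenerate polar form, and W₁, W₂ are subspaces on which Q vanishes that are maximal with this property, then W₁ and W₂ have the same dimension, and twice this dimension is at most dim V. -/
theorem result {F V : Type*} [Field F] [Finite F] [AddCommGroup V] [Module F V] [FiniteDimensional F V] (Q : QuadraticForm F V) (hQ : (QuadraticMap.polarBilin Q).Nondegenerate) (W₁ W₂ : Submodule F V) (h₁ : ∀ w ∈ W₁, Q w = 0) (h₂ : ∀ w ∈ W₂, Q w = 0) (hmax₁ : ∀ W : Submodule F V, W₁ ≤ W → (∀ w ∈ W, Q w = 0) → W = W₁) (hmax₂ : ∀ W : Submodule F V, W₂ ≤ W → (∀ w ∈ W, Q w = 0) → W = W₂) : Module.finrank F W₁ = Module.finrank F W₂ ∧ 2 * Module.finrank F W₁ ≤ Module.finrank F V := by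
  have hfd := Cfsg.Agent.H5.formData_quad Q hQ
  have hpol : ∀ W : Submodule F V, (∀ w ∈ W, Q w = 0) → ∀ x ∈ W, ∀ y ∈ W,
      QuadraticMap.polarBilin Q x y = 0 := by
    intro W hW x hx y hy
    show Q (x + y) - Q x - Q y = 0
    rw [hW _ (W.add_mem hx hy), hW _ hx, hW _ hy]
    simp
  have key : ∀ W₁ W₂ : Submodule F V, (∀ w ∈ W₁, Q w = 0) → (∀ w ∈ W₂, Q w = 0) →
      (∀ W : Submodule F V, W₁ ≤ W → (∀ w ∈ W, Q w = 0) → W = W₁) →
      Module.finrank F W₂ ≤ Module.finrank F W₁ := by
    intro W₁ W₂ h₁ h₂ hmax₁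
    by_contra hcon
    push Not at hcon
    obtain ⟨φ, hφ⟩ : ∃ φ : W₁ →ₗ[F] W₂, Function.Injective φ := by
      let b1 := Module.finBasis F W₁
      let b2 := Module.finBasis F W₂
      refine ⟨b1.constr F (fun i => b2 (Fin.castLE hcon.le i)), ?_⟩
      rw [← LinearMap.ker_eq_bot]
      have hli : LinearIndependent F (fun i => b2 (Fin.castLE hcon.le i)) :=
        b2.linearIndependent.comp _ (Fin.castLE_injective _)
      rw [LinearMap.ker_eq_bot']
      intro x hx
      rw [Module.Basis.constr_apply_fintype] at hx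
      have := Fintype.linearIndependent_iff.mp hli _ hx
      rw [← b1.sum_repr x]
      apply Finset.sum_eq_zero
      intro i _
      have h2 := this i
      simp only [Module.Basis.equivFun_apply] at h2
      rw [h2, zero_smul]
    obtain ⟨g, hgB, hgN, hg⟩ := hfd.witt W₁ (W₂.subtype.comp φ) (W₂.injective_subtype.comp hφ)
      (fun x y => by rw [hpol W₁ h₁ _ x.2 _ y.2]; exact hpol W₂ h₂ _ (φ x).2 _ (φ y).2)
      (fun x => by
        show Q _ = Q _
        rw [h₁ _ x.2]; exact h₂ _ (φ x).2)
    have h3 : W₂.comap (g : V →ₗ[F] V) = W₁ := by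
      apply hmax₁
      · intro x hx
        rw [Submodule.mem_comap]
        have := hg ⟨x, hx⟩
        show g x ∈ W₂
        rw [this]
        exact (φ ⟨x, hx⟩).2
      · intro w hw
        rw [← hgN w]
        exact h₂ _ hw
    have h4 : Module.finrank F (W₂.comap (g : V →ₗ[F] V)) = Module.finrank F W₂ := by
      have h5 : W₂.comap (g : V →ₗ[F] V) = W₂.map (g.symm : V →ₗ[F] V) := by
        rw [Submodule.map_equiv_eq_comap_symm]; rfl
      rw [h5]
      exact LinearEquiv.finrank_map_eq g.symm W₂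
    rw [h3] at h4
    omega
  refine ⟨le_antisymm (key W₂ W₁ h₂ h₁ hmax₂) (key W₁ W₂ h₁ h₂ hmax₁), ?_⟩
  -- W ≤ W^⊥
  have hrefl : LinearMap.BilinForm.IsRefl (QuadraticMap.polarBilin Q) := by
    intro x y h
    have h' : QuadraticMap.polar Q x y = 0 := h
    show QuadraticMap.polar Q y x = 0
    rw [QuadraticMap.polar_comm]; exact h'
  have h1 : W₁ ≤ LinearMap.BilinForm.orthogonal (QuadraticMap.polarBilin Q) W₁ := by
    intro x hx
    rw [LinearMap.BilinForm.mem_orthogonal_iff]
    intro n hn
    exact hpol W₁ h₁ _ hn _ hx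
  have h2 := LinearMap.BilinForm.finrank_orthogonal hQ W₁
  have h3 := Submodule.finrank_mono h1
  have h4 := Submodule.finrank_le W₁
  omega

end Cfsg.Agent.S0760
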