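import Cfsg.Statements.S0761
import Mathlib

set_option autoImplicit false
open Cfsg

namespace Cfsg.Agent.S0761

/-- Hyperbolic partners: let B be a non-degenerate bilinear form on a finite-dimensional space, either alternating, or symmetric with 2 ≠ 0. If Z is a subspace on which B vanishes, x ∉ Z is isotropic and orthogonal to Z, then there is an isotropic y with B x y = 1 which is orthogonal to Z. -/
theorem result {F V : Type*} [Field F] [AddCommGroup V] [Module F V] [FiniteDimensional F V] (B : LinearMap.BilinForm F V) (hB : B.Nondegenerate) (hform : B.IsAlt ∨ (B.IsSymm ∧ (2 : F) ≠ 0)) (x : V) (Z : Submodule F V) (hxZ : x ∉ Z) (hx : B x x = 0) (hxz : ∀ z ∈ Z, B x z = 0) (hZ : ∀ z ∈ Z, ∀ z' ∈ Z, B z z' = 0) : ∃ y : V, B y y = 0 ∧ B x y = 1 ∧ ∀ z ∈ Z, B z y = 0 := by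
  -- functional
  obtain ⟨f, hf1, hf2⟩ := Submodule.exists_dual_map_eq_bot_of_notMem hxZ inferInstance
  have hf0 : ∀ z ∈ Z, f z = 0 := by
    intro z hz
    have : f z ∈ Z.map f := Submodule.mem_map_of_mem hz
    rw [hf2] at this
    simpa using this
  have hrefl : ∀ a b, B a b = 0 → B b a = 0 := by
    intro a b h
    rcases hform with h' | h'
    · have := LinearMap.BilinForm.IsAlt.neg_eq h' a b
      rw [h, neg_zero] at this
      exact this.symm
    · rw [← h]
      exact (h'.1.eq a b).symm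
  -- B surjects : y ↦ B · y
  obtain ⟨y0, hy0⟩ : ∃ y0, ∀ a, B a y0 = (f x)⁻¹ * f a := by
    refine ⟨(LinearMap.BilinForm.toDual (LinearMap.BilinForm.flip B) hB.flip).symm ((f x)⁻¹ • f),
      fun a => ?_⟩
    have h := LinearMap.BilinForm.apply_toDual_symm_apply (hB := hB.flip) ((f x)⁻¹ • f) a
    rw [LinearMap.smul_apply, smul_eq_mul] at h
    rw [← h]
    rfl
  have hxy0 : B x y0 = 1 := by rw [hy0, inv_mul_cancel₀ hf1]
  have hzy0 : ∀ z ∈ Z, B z y0 = 0 := by intro z hz; rw [hy0, hf0 z hz, mul_zero]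
  rcases hform with h' | ⟨hs, h2⟩
  · exact ⟨y0, h' y0, hxy0, hzy0⟩
  · refine ⟨y0 - (B y0 y0 / 2) • x, ?_, ?_, ?_⟩
    · have hs' : B y0 x = 1 := by rw [← hxy0]; exact (hs.eq x y0).symm
      simp only [map_sub, map_smul, LinearMap.sub_apply, LinearMap.smul_apply, smul_eq_mul, hxy0, hx, hs']
      field_simp
      ring
    · simp [hxy0, hx]
    · intro z hz
      simp [hzy0 z hz, hrefl _ _ (hxz z hz)]

end Cfsg.Agent.S0761
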