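import Cfsg.Statements.S0762
import Mathlib

set_option autoImplicit false
open Cfsg

namespace Cfsg.Agent.S0762

/-- In characteristic two over a finite field, a quadratic form on a space of dimension at least 3 vanishes on some non-zero vector. -/
theorem result {F V : Type*} [Field F] [Finite F] [CharP F 2] [AddCommGroup V] [Module F V] [FiniteDimensional F V] (Q : QuadraticForm F V) (h3 : 3 ≤ Module.finrank F V) : ∃ v : V, v ≠ 0 ∧ Q v = 0 := by
  by_contra hcon
  push Not at hcon
  have hnt : Nontrivial V := Module.nontrivial_of_finrank_pos (R := F) (by omega)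
  obtain ⟨u, hu⟩ := exists_ne (0 : V)
  have hQu := hcon u hu
  set f : V →ₗ[F] F := QuadraticMap.polarBilin Q u with hf
  have hdim : 2 ≤ Module.finrank F (LinearMap.ker f) := by
    have h1 := LinearMap.finrank_range_add_finrank_ker f
    have h2 : Module.finrank F (LinearMap.range f) ≤ 1 := by
      have := Submodule.finrank_le (LinearMap.range f)
      simpa using this
    omega
  obtain ⟨v, hv, hvu⟩ : ∃ v ∈ LinearMap.ker f, v ∉ Submodule.span F {u} := by
    by_contra hcon2
    push Not at hcon2
    have h1 : LinearMap.ker f ≤ Submodule.span F {u} := hcon2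
    have h2 := Submodule.finrank_mono h1
    rw [finrank_span_singleton hu] at h2
    omega
  have hv' : QuadraticMap.polar Q u v = 0 := hv
  haveI := Fintype.ofFinite F
  obtain ⟨t, ht⟩ : IsSquare (Q v / Q u) := FiniteField.isSquare_of_char_two (ringChar.eq F 2) _
  have h0 : Q (t • u + v) = 0 := by
    rw [QuadraticMap.map_add (⇑Q), QuadraticMap.map_smul, QuadraticMap.polar_smul_left, hv', smul_zero,
      add_zero, smul_eq_mul, ← ht, div_mul_cancel₀ _ hQu]
    exact CharTwo.add_self_eq_zero _
  refine hcon (t • u + v) ?_ h0
  intro h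
  apply hvu
  have : v = (-t) • u := by
    rw [neg_smul]; exact eq_neg_of_add_eq_zero_right h
  rw [this]
  exact Submodule.smul_mem _ _ (Submodule.mem_span_singleton_self u)

end Cfsg.Agent.S0762
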