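import Cfsg.Statements.S0763
import Mathlib

set_option autoImplicit false
open Cfsg

namespace Cfsg.Agent.S0763

/-- Binary quadratic forms in characteristic two over a finite field: if Q is a quadratic form on a 2-dimensional space whose polar form is non-degenerate, then either there are vectors v, w with Q v = Q w = 0 and polar value 1 (Q is xy in these coordinates), or there are v, w and μ with Q v = 1, Q w = μ, polar value 1 and x² + x + μ without roots in F (Q is x² + xy + μy²). -/
theorem result {F V : Type*} [Field F] [Finite F] [CharP F 2] [AddCommGroup V] [Module F V] (Q : QuadraticForm F V) (h2 : Module.finrank F V = 2) (hQ : (QuadraticMap.polarBilin Q).Nondegenerate) : (∃ v w : V, LinearIndependent F ![v, w] ∧ Q v = 0 ∧ Q w = 0 ∧ QuadraticMap.polar Q v w = 1) ∨ (∃ (v w : V) (μ : F), LinearIndependent F ![v, w] ∧ (∀ x : F, x ^ 2 + x + μ ≠ 0) ∧ Q v = 1 ∧ Q w = μ ∧ QuadraticMap.polar Q v w = 1) := by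
  haveI := Fintype.ofFinite F
  have hfd : FiniteDimensional F V := FiniteDimensional.of_finrank_pos (by omega)
  have hnt : Nontrivial V := Module.nontrivial_of_finrank_pos (R := F) (by omega)
  have hpart : ∀ v : V, v ≠ 0 → ∃ w, QuadraticMap.polar Q v w = 1 := by
    intro v hv
    by_contra hcon
    push Not at hcon
    apply hv
    apply hQ.1 v
    intro w
    by_contra hw
    apply hcon ((QuadraticMap.polarBilin Q v w)⁻¹ • w)
    rw [QuadraticMap.polar_smul_right]
    exact inv_mul_cancel₀ hw
  have hself : ∀ v : V, QuadraticMap.polar Q v v = 0 := by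
    intro v
    rw [QuadraticMap.polar_self, two_smul]
    exact CharTwo.add_self_eq_zero _
  have hli : ∀ v w : V, QuadraticMap.polar Q v w = 1 → LinearIndependent F ![v, w] := by
    intro v w h
    have hv : v ≠ 0 := by
      rintro rfl
      rw [QuadraticMap.polar_zero_left] at h
      exact zero_ne_one h
    rw [LinearIndependent.pair_iff' hv]
    rintro a rfl
    rw [QuadraticMap.polar_smul_right, hself, smul_zero] at h
    exact zero_ne_one h
  by_cases hiso : ∃ v : V, v ≠ 0 ∧ Q v = 0
  · left
    obtain ⟨v, hv, hv0⟩ := hiso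
    obtain ⟨w, hw⟩ := hpart v hv
    have h1 : QuadraticMap.polar Q v (w + Q w • v) = 1 := by
      rw [QuadraticMap.polar_add_right, QuadraticMap.polar_smul_right, hself, smul_zero, add_zero, hw]
    refine ⟨v, w + Q w • v, hli _ _ h1, hv0, ?_, h1⟩
    rw [QuadraticMap.map_add (⇑Q), QuadraticMap.map_smul, hv0, smul_zero, add_zero,
      QuadraticMap.polar_smul_right, QuadraticMap.polar_comm, hw, smul_eq_mul, mul_one]
    exact CharTwo.add_self_eq_zero _
  · right
    push Not at hiso
    obtain ⟨v0, hv0⟩ := exists_ne (0 : V)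
    have hQ0 := hiso v0 hv0
    obtain ⟨t, ht⟩ : IsSquare (Q v0)⁻¹ := FiniteField.isSquare_of_char_two (ringChar.eq F 2) _
    have ht0 : t ≠ 0 := by
      rintro rfl
      rw [mul_zero] at ht
      exact inv_ne_zero hQ0 ht
    set v := t • v0 with hv
    have hQv : Q v = 1 := by
      rw [hv, QuadraticMap.map_smul, ← ht, smul_eq_mul, inv_mul_cancel₀ hQ0]
    have hvne : v ≠ 0 := smul_ne_zero ht0 hv0
    obtain ⟨w, hw⟩ := hpart v hvne
    refine ⟨v, w, Q w, hli _ _ hw, ?_, hQv, rfl, hw⟩
    intro x hx
    have h1 : Q (x • v + w) = 0 := by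
      rw [QuadraticMap.map_add (⇑Q), QuadraticMap.map_smul, hQv, QuadraticMap.polar_smul_left, hw,
        smul_eq_mul, smul_eq_mul, mul_one, mul_one]
      linear_combination hx
    apply hiso (x • v + w) _ h1
    intro h0
    have h2 := hli v w hw
    rw [LinearIndependent.pair_iff' hvne] at h2
    apply h2 (-x)
    rw [neg_smul]
    exact (eq_neg_of_add_eq_zero_right h0).symm

end Cfsg.Agent.S0763
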