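import Cfsg.Statements.S0764
import Mathlib

set_option autoImplicit false
open Cfsg

namespace Cfsg.Agent.S0764

/-- Symplectic transvections are isometries: for every vector v and scalar c the matrix of x ↦ x + c f(x, v) v lies in the symplectic group. -/
theorem result {F : Type*} [Field F] (m : ℕ) (v : Fin m ⊕ Fin m → F) (c : F) : Cfsg.sympTransvection m v c ∈ Matrix.symplecticGroup (Fin m) F := by
  rw [SymplecticGroup.mem_iff]
  unfold Cfsg.sympTransvection
  have hJ : (Matrix.J (Fin m) F).transpose = - Matrix.J (Fin m) F := Matrix.J_transpose (Fin m) F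
  have hJJ : Matrix.J (Fin m) F * Matrix.J (Fin m) F = -1 := Matrix.J_squared (Fin m) F
  have hdot : v ⬝ᵥ (Matrix.mulVec (Matrix.J (Fin m) F) v) = 0 := by
    simp only [Matrix.J, Matrix.fromBlocks_mulVec, dotProduct, Fintype.sum_sum_type, Matrix.zero_mulVec,
      Matrix.neg_mulVec, Matrix.one_mulVec, Sum.elim_inl, Sum.elim_inr, zero_add, add_zero,
      Pi.neg_apply, Function.comp_apply, Pi.add_apply, Pi.zero_apply]
    rw [← Finset.sum_add_distrib]
    apply Finset.sum_eq_zero
    intro i _
    ring
  set J := Matrix.J (Fin m) F with hJdef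
  have hvJ : Matrix.vecMul (J.mulVec v) J = v := by
    rw [← Matrix.mulVec_transpose, hJ, Matrix.mulVec_mulVec, Matrix.neg_mul, hJJ, neg_neg,
      Matrix.one_mulVec]
  rw [Matrix.transpose_add, Matrix.transpose_one, Matrix.transpose_smul, Matrix.transpose_vecMulVec,
    add_mul, one_mul, mul_add, mul_one, Matrix.smul_mul, Matrix.mul_smul, Matrix.vecMulVec_mul, hvJ,
    add_mul, Matrix.smul_mul, Matrix.mul_vecMulVec, Matrix.vecMulVec_mul_vecMulVec, hdot, zero_smul,
    Matrix.vecMulVec_zero, smul_zero, Matrix.mulVec_mulVec, hJJ, Matrix.neg_mulVec, Matrix.one_mulVec]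
  simp

end Cfsg.Agent.S0764
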