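import Cfsg.Statements.S0766
import Mathlib
import Cfsg.Agent.H5.Sp

set_option autoImplicit false
open Cfsg

namespace Cfsg.Agent.S0766

/-- The subgroup generated by the symplectic transvections acts transitively on ordered pairs (u, v) with f(u, v) = 1. -/
theorem result {F : Type*} [Field F] (m : ℕ) (u v u' v' : Fin m ⊕ Fin m → F) (h : Cfsg.sympForm m F u v = 1) (h' : Cfsg.sympForm m F u' v' = 1) : ∃ A ∈ Subgroup.closure {A : Matrix.symplecticGroup (Fin m) F | ∃ (w : Fin m ⊕ Fin m → F) (c : F), (A : Matrix (Fin m ⊕ Fin m) (Fin m ⊕ Fin m) F) = Cfsg.sympTransvection m w c}, (A : Matrix (Fin m ⊕ Fin m) (Fin m ⊕ Fin m) F).mulVec u = u' ∧ (A : Matrix (Fin m ⊕ Fin m) (Fin m ⊕ Fin m) F).mulVec v = v' := by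
  rw [← Cfsg.Agent.H5.sympB_apply] at h h'
  have hne : ∀ u v : Fin m ⊕ Fin m → F, Cfsg.Agent.H5.sympB m F u v = 1 → u ≠ 0 := by
    rintro u v h rfl
    rw [map_zero, LinearMap.zero_apply] at h
    exact zero_ne_one h
  obtain ⟨t1, ht1, ht1u, -⟩ := Cfsg.Agent.H5.sp_move (⊥ : Submodule F (Fin m ⊕ Fin m → F)) u' u
    (by intro h hh; rw [Submodule.mem_bot] at hh; rw [hh]; simp)
    (by rw [Submodule.mem_bot]; exact hne _ _ h') (by rw [Submodule.mem_bot]; exact hne _ _ h)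
  set v'' := (t1 : Matrix (Fin m ⊕ Fin m) (Fin m ⊕ Fin m) F).mulVec v with hv''
  have h2 : Cfsg.Agent.H5.sympB m F u' v'' = 1 := by
    rw [← ht1u, hv'', Cfsg.Agent.H5.mem_Sp_iff.mp t1.2, h]
  have hnot : ∀ w, Cfsg.Agent.H5.sympB m F u' w = 1 → w ∉ Submodule.span F {u'} := by
    intro w hw hmem
    obtain ⟨c, rfl⟩ := Submodule.mem_span_singleton.mp hmem
    have huu : Cfsg.Agent.H5.sympB m F u' u' = 0 := Cfsg.Agent.H5.sympB_isAlt u'
    rw [map_smul, huu, smul_zero] at hw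
    exact zero_ne_one hw
  obtain ⟨t2, ht2, ht2v, ht2H⟩ := Cfsg.Agent.H5.sp_move (Submodule.span F {u'}) v' v''
    (by
      intro h hh
      obtain ⟨c, rfl⟩ := Submodule.mem_span_singleton.mp hh
      rw [map_smul, LinearMap.smul_apply, LinearMap.smul_apply, h', h2])
    (hnot _ h') (hnot _ h2)
  refine ⟨t2 * t1, mul_mem ht2 ht1, ?_, ?_⟩
  · show ((t2 : Matrix (Fin m ⊕ Fin m) (Fin m ⊕ Fin m) F) * (t1 : Matrix _ _ F)).mulVec u = u'
    rw [← Matrix.mulVec_mulVec, ht1u, ht2H _ (Submodule.mem_span_singleton_self _)]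
  · show ((t2 : Matrix (Fin m ⊕ Fin m) (Fin m ⊕ Fin m) F) * (t1 : Matrix _ _ F)).mulVec v = v'
    rw [← Matrix.mulVec_mulVec, ← hv'', ht2v]

end Cfsg.Agent.S0766
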