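import Cfsg.Statements.S0767
import Mathlib

set_option autoImplicit false
open Cfsg

namespace Cfsg.Agent.S0767

/-- The root group of a point: T_v(c) T_v(d) = T_v(c + d), and for A in the symplectic group with A v = a v, the conjugate A T_v(c) A⁻¹ is again some T_v(d). -/
theorem result {F : Type*} [Field F] (m : ℕ) (v : Fin m ⊕ Fin m → F) : (∀ c d : F, Cfsg.sympTransvection m v c * Cfsg.sympTransvection m v d = Cfsg.sympTransvection m v (c + d)) ∧ ∀ (A : Matrix (Fin m ⊕ Fin m) (Fin m ⊕ Fin m) F) (a : F), A ∈ Matrix.symplecticGroup (Fin m) F → A.mulVec v = a • v → ∀ c : F, ∃ d : F, A * Cfsg.sympTransvection m v c * A⁻¹ = Cfsg.sympTransvection m v d := by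
  have hJJ : Matrix.J (Fin m) F * Matrix.J (Fin m) F = -1 := Matrix.J_squared (Fin m) F
  have hdot : (Matrix.mulVec (Matrix.J (Fin m) F) v) ⬝ᵥ v = 0 := by
    rw [dotProduct_comm]
    simp only [Matrix.J, Matrix.fromBlocks_mulVec, dotProduct, Fintype.sum_sum_type, Matrix.zero_mulVec,
      Matrix.neg_mulVec, Matrix.one_mulVec, Sum.elim_inl, Sum.elim_inr, zero_add, add_zero,
      Pi.neg_apply, Function.comp_apply, Pi.add_apply, Pi.zero_apply]
    rw [← Finset.sum_add_distrib]
    apply Finset.sum_eq_zero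
    intro i _
    ring
  constructor
  · intro c d
    unfold Cfsg.sympTransvection
    rw [add_mul, one_mul, mul_add, mul_one, Matrix.smul_mul, Matrix.mul_smul,
      Matrix.vecMulVec_mul_vecMulVec, hdot, zero_smul, Matrix.vecMulVec_zero, smul_zero, smul_zero,
      add_zero, add_smul]
    abel
  · intro A a hA hAv c
    -- A⁻¹ = - J Aᵀ J
    have hA' := SymplecticGroup.mem_iff'.mp hA
    have hunit : IsUnit A.det := SymplecticGroup.symplectic_det hA
    set J := Matrix.J (Fin m) F with hJdef
    -- vecMul (J v) A⁻¹ = J (A v)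
    have h1 : Matrix.vecMul (J.mulVec v) A⁻¹ = J.mulVec (A.mulVec v) := by
      have h2 : J.mulVec v = Matrix.vecMul (J.mulVec (A.mulVec v)) A := by
        rw [← Matrix.mulVec_transpose, Matrix.mulVec_mulVec, Matrix.mulVec_mulVec, hA']
      rw [h2, Matrix.vecMul_vecMul, Matrix.mul_nonsing_inv _ hunit, Matrix.vecMul_one]
    refine ⟨c * a * a, ?_⟩
    unfold Cfsg.sympTransvection
    rw [← hJdef, mul_add, mul_one, add_mul, Matrix.mul_nonsing_inv _ hunit, Matrix.mul_smul,
      Matrix.smul_mul, Matrix.mul_vecMulVec, Matrix.vecMulVec_mul, h1, hAv, Matrix.mulVec_smul,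
      Matrix.vecMulVec_smul, Matrix.smul_vecMulVec, smul_smul, smul_smul]

end Cfsg.Agent.S0767
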