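import Cfsg.Statements.S0769
import Mathlib

set_option autoImplicit false
open Cfsg

namespace Cfsg.Agent.S0769

/-- Order of the Borel subgroup of GL_n(q): the invertible lower-triangular n × n matrices over a field with q elements number q^(n(n-1)/2) (q-1)^n (unitriangular part times the diagonal torus). -/
theorem result {F : Type*} [Field F] [Fintype F] {q : ℕ} (hF : Fintype.card F = q) (n : ℕ) : Nat.card {g : Matrix.GeneralLinearGroup (Fin n) F // ∀ i j : Fin n, i < j → (g : Matrix (Fin n) (Fin n) F) i j = 0} = q ^ (n * (n - 1) / 2) * (q - 1) ^ n := by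
  classical
  have hq : 1 < q := hF ▸ Fintype.one_lt_card
  -- equivalence with functions
  let P : Fin n → Fin n → F → Prop := fun i j x => (i < j → x = 0) ∧ (i = j → x ≠ 0)
  have e : {g : Matrix.GeneralLinearGroup (Fin n) F //
      ∀ i j : Fin n, i < j → (g : Matrix (Fin n) (Fin n) F) i j = 0} ≃
      ((i : Fin n) → (j : Fin n) → {x : F // P i j x}) := by
    have hdet : ∀ M : Matrix (Fin n) (Fin n) F, (∀ i j : Fin n, i < j → M i j = 0) →
        M.det = ∏ i, M i i := by
      intro M hM
      apply Matrix.det_of_lowerTriangular
      intro i j hij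
      exact hM i j hij
    refine Equiv.ofBijective (fun g i j => ⟨(g : Matrix.GeneralLinearGroup (Fin n) F).1 i j,
      fun hij => g.2 i j hij, ?_⟩) ⟨?_, ?_⟩
    · rintro rfl
      have h1 := hdet (g : Matrix.GeneralLinearGroup (Fin n) F).1 g.2
      have h2 : ((g : Matrix.GeneralLinearGroup (Fin n) F).1).det ≠ 0 := by
        have := (g : Matrix.GeneralLinearGroup (Fin n) F).isUnit.map (Matrix.detMonoidHom)
        exact this.ne_zero
      rw [h1] at h2
      exact Finset.prod_ne_zero_iff.mp h2 i (Finset.mem_univ i)
    · intro a b hab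
      apply Subtype.ext
      apply Units.ext
      ext i j
      have := congrFun (congrFun hab i) j
      exact congrArg Subtype.val this
    · intro f
      have hM : ∀ i j : Fin n, i < j → (Matrix.of (fun i j => (f i j : F))) i j = 0 :=
        fun i j hij => (f i j).2.1 hij
      have hd : (Matrix.of (fun i j => (f i j : F))).det ≠ 0 := by
        rw [hdet _ hM]
        exact Finset.prod_ne_zero_iff.mpr (fun i _ => (f i i).2.2 rfl)
      exact ⟨⟨Matrix.GeneralLinearGroup.mkOfDetNeZero _ hd, hM⟩, rfl⟩
  have hc : ∀ i j : Fin n, Nat.card {x : F // P i j x} = if i < j then 1 else if i = j then q - 1 else q := by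
    intro i j
    rcases lt_trichotomy i j with h | h | h
    · rw [if_pos h]
      have : Unique {x : F // P i j x} :=
        { default := ⟨0, fun _ => rfl, fun h' => absurd h' h.ne⟩
          uniq := fun x => Subtype.ext (x.2.1 h) }
      exact Nat.card_unique
    · subst h
      rw [if_neg (lt_irrefl _), if_pos rfl]
      have e' : {x : F // P i i x} ≃ Fˣ :=
        (Equiv.subtypeEquivRight (fun x => by simp [P])).trans unitsEquivNeZero.symm
      rw [Nat.card_congr e', Nat.card_units, Nat.card_eq_fintype_card, hF]
    · rw [if_neg h.le.not_gt, if_neg h.ne']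
      have e' : {x : F // P i j x} ≃ F :=
        (Equiv.subtypeUnivEquiv (fun x => ⟨fun h' => absurd h' h.le.not_gt, fun h' => absurd h' h.ne'⟩))
      rw [Nat.card_congr e', Nat.card_eq_fintype_card, hF]
  rw [Nat.card_congr e, Nat.card_pi]
  simp only [Nat.card_pi, hc]
  -- inner product for row i : q^i * (q-1)
  have hrow : ∀ i : Fin n, (∏ j : Fin n, if i < j then 1 else if i = j then q - 1 else q) =
      q ^ (i : ℕ) * (q - 1) := by
    intro i
    have h1 : ∀ j : Fin n, (if i < j then 1 else if i = j then q - 1 else q) =
      (if j < i then q else 1) * (if i = j then q - 1 else 1) := by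
      intro j
      rcases lt_trichotomy i j with h | h | h
      · simp [h, h.ne, h.le.not_gt]
      · simp [h]
      · simp [h, h.ne', h.le.not_gt]
    rw [Finset.prod_congr rfl (fun j _ => h1 j), Finset.prod_mul_distrib, Finset.prod_ite_eq,
      if_pos (Finset.mem_univ _)]
    congr 1
    rw [Finset.prod_ite, Finset.prod_const_one, mul_one, Finset.prod_const]
    congr 1
    have : (Finset.univ.filter (fun j : Fin n => j < i)) = Finset.Iio i := by ext; simp
    rw [this, Fin.card_Iio]
  rw [Finset.prod_congr rfl (fun i _ => hrow i), Finset.prod_mul_distrib, Finset.prod_const,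
    Finset.card_univ, Fintype.card_fin]
  congr 1
  rw [← Finset.prod_range (fun i => q ^ i), Finset.prod_pow_eq_pow_sum, Finset.sum_range_id]

end Cfsg.Agent.S0769
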