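import Cfsg.Statements.S0770
import Mathlib
import Cfsg.Agent.H5.GLStab2

set_option autoImplicit false
open Cfsg

namespace Cfsg.Agent.S0770

/-- For a field with at least 3 elements, an invertible matrix normalises the subgroup of invertible diagonal matrices of GL_n if and only if it is monomial (exactly one non-zero entry in each row). -/
theorem result {F : Type*} [Field F] (hF : ∃ a : F, a ≠ 0 ∧ a ≠ 1) (n : ℕ) (g : Matrix.GeneralLinearGroup (Fin n) F) : g ∈ Subgroup.normalizer ((Units.map (Matrix.diagonalRingHom (Fin n) F).toMonoidHom).range : Subgroup (Matrix.GeneralLinearGroup (Fin n) F)) ↔ ∀ i : Fin n, ∃! j : Fin n, (g : Matrix (Fin n) (Fin n) F) i j ≠ 0 := by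
  classical
  have hD : ∀ u : GL (Fin n) F, u ∈ (Units.map (Matrix.diagonalRingHom (Fin n) F).toMonoidHom).range ↔
      ∃ d : Fin n → F, (u : Matrix (Fin n) (Fin n) F) = Matrix.diagonal d := by
    intro u
    constructor
    · rintro ⟨d, rfl⟩
      exact ⟨(d : Fin n → F), rfl⟩
    · rintro ⟨d, hd⟩
      have hdet : (u : Matrix (Fin n) (Fin n) F).det ≠ 0 := (Matrix.GeneralLinearGroup.det u).ne_zero
      rw [hd, Matrix.det_diagonal, Finset.prod_ne_zero_iff] at hdet
      refine ⟨⟨d, fun i => (d i)⁻¹, ?_, ?_⟩, ?_⟩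
      · funext i; exact mul_inv_cancel₀ (hdet i (Finset.mem_univ i))
      · funext i; exact inv_mul_cancel₀ (hdet i (Finset.mem_univ i))
      · apply Units.ext
        exact hd.symm
  have hrow : ∀ i, ∃ j, (g : Matrix (Fin n) (Fin n) F) i j ≠ 0 := by
    intro i
    by_contra hcon
    push Not at hcon
    have hdet : (g : Matrix (Fin n) (Fin n) F).det ≠ 0 := (Matrix.GeneralLinearGroup.det g).ne_zero
    exact hdet (Matrix.det_eq_zero_of_row_eq_zero i hcon)
  constructor
  · intro hg i
    obtain ⟨j, hj⟩ := hrow i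
    refine ⟨j, hj, ?_⟩
    intro k hk
    by_contra hkj
    obtain ⟨a, ha0, ha1⟩ := hF
    have ht : ∃ t : GL (Fin n) F, (t : Matrix (Fin n) (Fin n) F) = Matrix.diagonal (Function.update 1 j a) := by
      refine ⟨Matrix.GeneralLinearGroup.mkOfDetNeZero (Matrix.diagonal (Function.update 1 j a)) ?_, rfl⟩
      rw [Matrix.det_diagonal, Finset.prod_ne_zero_iff]
      intro l _
      by_cases hl : l = j
      · rw [hl, Function.update_self]; exact ha0
      · rw [Function.update_of_ne hl]; exact one_ne_zero
    obtain ⟨t, ht⟩ := ht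
    have h1 := (Subgroup.mem_normalizer_iff.mp hg t).mp ((hD t).mpr ⟨_, ht⟩)
    obtain ⟨d, hd⟩ := (hD _).mp h1
    have h2 : (g : Matrix (Fin n) (Fin n) F) * (t : Matrix (Fin n) (Fin n) F) = Matrix.diagonal d * (g : Matrix (Fin n) (Fin n) F) := by
      rw [← hd, ← Units.val_mul, ← Units.val_mul, inv_mul_cancel_right]
    rw [ht] at h2
    have h3 := congrFun (congrFun h2 i) j
    have h4 := congrFun (congrFun h2 i) k
    rw [Matrix.mul_diagonal, Matrix.diagonal_mul, Function.update_self] at h3
    rw [Matrix.mul_diagonal, Matrix.diagonal_mul, Function.update_of_ne hkj, Pi.one_apply, mul_one] at h4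
    have h5 : d i = 1 := by
      have : (d i - 1) * (g : Matrix (Fin n) (Fin n) F) i k = 0 := by rw [sub_mul, ← h4, one_mul, sub_self]
      have := (mul_eq_zero.mp this).resolve_right hk
      exact sub_eq_zero.mp this
    rw [h5, one_mul] at h3
    apply ha1
    exact mul_left_cancel₀ hj (by rw [h3, mul_one])
  · intro hg
    choose π hπ1 hπ2 using hg
    have hinj : Function.Injective π := by
      intro i i' h
      by_contra hne
      have hdet : (g : Matrix (Fin n) (Fin n) F).det ≠ 0 := (Matrix.GeneralLinearGroup.det g).ne_zero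
      apply hdet
      have h1 : (g : Matrix (Fin n) (Fin n) F) i (π i) ≠ 0 := hπ1 i
      have h2 : (g : Matrix (Fin n) (Fin n) F) i' (π i) ≠ 0 := by rw [h]; exact hπ1 i'
      exfalso
      let c : Fin n → F := (g : Matrix (Fin n) (Fin n) F) i' (π i) • Pi.single i 1 -
        (g : Matrix (Fin n) (Fin n) F) i (π i) • Pi.single i' 1
      have hc : Matrix.vecMul c (g : Matrix (Fin n) (Fin n) F) = 0 := by
        simp only [c]
        rw [Matrix.sub_vecMul, Matrix.smul_vecMul, Matrix.smul_vecMul, Matrix.single_one_vecMul,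
          Matrix.single_one_vecMul]
        funext l
        show (g : Matrix (Fin n) (Fin n) F) i' (π i) * (g : Matrix (Fin n) (Fin n) F) i l -
          (g : Matrix (Fin n) (Fin n) F) i (π i) * (g : Matrix (Fin n) (Fin n) F) i' l = 0
        by_cases hl : l = π i
        · rw [hl]; ring
        · have e1 : (g : Matrix (Fin n) (Fin n) F) i l = 0 := by
            by_contra h'; exact hl (hπ2 i l h')
          have e2 : (g : Matrix (Fin n) (Fin n) F) i' l = 0 := by
            by_contra h'; exact hl ((hπ2 i' l h').trans h.symm)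
          rw [e1, e2]; ring
      have hc0 : c = 0 := by
        have h7 : Matrix.vecMul (Matrix.vecMul c (g : Matrix (Fin n) (Fin n) F)) ((g⁻¹ : GL (Fin n) F) : Matrix (Fin n) (Fin n) F) = c := by
          rw [Matrix.vecMul_vecMul, ← Units.val_mul, mul_inv_cancel, Units.val_one, Matrix.vecMul_one]
        rw [← h7, hc, Matrix.zero_vecMul]
      have h8 := congrFun hc0 i
      have h9 : (g : Matrix (Fin n) (Fin n) F) i' (π i) * (Pi.single i (1 : F) : Fin n → F) i -
        (g : Matrix (Fin n) (Fin n) F) i (π i) * (Pi.single i' (1 : F) : Fin n → F) i = 0 := h8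
      rw [Pi.single_eq_same, Pi.single_eq_of_ne hne, mul_one, mul_zero, sub_zero] at h9
      exact h2 h9
    let e : Fin n ≃ Fin n := Equiv.ofBijective π (Finite.injective_iff_bijective.mp hinj)
    have he : ∀ i, e i = π i := fun i => rfl
    have hcomm : ∀ d : Fin n → F, (g : Matrix (Fin n) (Fin n) F) * Matrix.diagonal d =
        Matrix.diagonal (fun i => d (π i)) * (g : Matrix (Fin n) (Fin n) F) := by
      intro d
      ext i j
      rw [Matrix.mul_diagonal, Matrix.diagonal_mul]
      by_cases hij : (g : Matrix (Fin n) (Fin n) F) i j = 0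
      · rw [hij, zero_mul, mul_zero]
      · rw [hπ2 i j hij, mul_comm]
    rw [Subgroup.mem_normalizer_iff]
    intro h
    constructor
    · intro hh
      obtain ⟨d, hd⟩ := (hD h).mp hh
      rw [hD]
      refine ⟨fun i => d (π i), ?_⟩
      rw [Units.val_mul, Units.val_mul, hd, hcomm, Matrix.mul_assoc, ← Units.val_mul, mul_inv_cancel, Units.val_one,
        Matrix.mul_one]
    · intro hh
      obtain ⟨d, hd⟩ := (hD _).mp hh
      rw [hD]
      refine ⟨fun j => d (e.symm j), ?_⟩
      have h1 := hcomm (fun j => d (e.symm j))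
      have h2 : (fun i => (fun j => d (e.symm j)) (π i)) = d := by
        funext i
        show d (e.symm (π i)) = d i
        rw [← he, Equiv.symm_apply_apply]
      rw [h2, ← hd, ← Units.val_mul, inv_mul_cancel_right, Units.val_mul] at h1
      have h3 := congrArg (fun M => ((g⁻¹ : GL (Fin n) F) : Matrix (Fin n) (Fin n) F) * M) h1
      rw [← Matrix.mul_assoc, ← Matrix.mul_assoc, ← Units.val_mul, inv_mul_cancel, Units.val_one, Matrix.one_mul,
        Matrix.one_mul] at h3
      exact h3.symm

end Cfsg.Agent.S0770
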