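import Cfsg.Statements.S0771
import Mathlib
import Cfsg.Agent.H5.GLStab

set_option autoImplicit false
open Cfsg

namespace Cfsg.Agent.S0771

/-- Maximal parabolic of GL_n(q): the stabiliser of the coordinate subspace spanned by the first k basis vectors has order q^(k(n-k)) · |GL_k(q)| · |GL_(n-k)(q)| (unipotent radical of order q^(k(n-k)) and Levi complement GL_k × GL_(n-k)). -/
theorem result {F : Type*} [Field F] [Fintype F] {q : ℕ} (hF : Fintype.card F = q) (n k : ℕ) (hk : k ≤ n) : Nat.card ↥(Cfsg.stabilizing (Cfsg.glToMat (Fin n) F) {v : Fin n → F | ∀ i : Fin n, k ≤ (i : ℕ) → v i = 0}) = q ^ (k * (n - k)) * (∏ i : Fin k, (q ^ k - q ^ (i : ℕ))) * ∏ i : Fin (n - k), (q ^ (n - k) - q ^ (i : ℕ)) := by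
  classical
  have hW := H5.finrank_Wc (F := F) hk
  have key := H5.card_stab_gl_mul (H5.Wc n F k) hW
  rw [H5.coe_Wc, hF, Fintype.card_fin] at key
  have hGL : Nat.card (GL (Fin n) F) = ∏ i : Fin n, (q ^ n - q ^ (i : ℕ)) := by
    rw [Matrix.card_GL_field, hF]
  have hq : 1 < q := by rw [← hF]; exact Fintype.one_lt_card
  have hsplit : (∏ i : Fin n, (q ^ n - q ^ (i : ℕ))) = (∏ i : Fin k, (q ^ n - q ^ (i : ℕ))) *
      (q ^ (k * (n - k)) * ∏ i : Fin (n - k), (q ^ (n - k) - q ^ (i : ℕ))) := by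
    rw [Fin.prod_univ_eq_prod_range (fun i => q ^ n - q ^ i) n,
      Fin.prod_univ_eq_prod_range (fun i => q ^ n - q ^ i) k,
      Fin.prod_univ_eq_prod_range (fun i => q ^ (n - k) - q ^ i) (n - k)]
    obtain ⟨d, rfl⟩ : ∃ d, n = k + d := ⟨n - k, by omega⟩
    rw [Finset.prod_range_add, show k + d - k = d by omega]
    congr 1
    rw [pow_mul, ← Finset.card_range d, ← Finset.prod_const, Finset.card_range, ← Finset.prod_mul_distrib]
    apply Finset.prod_congr rfl
    intro i _
    rw [pow_add, pow_add, Nat.mul_sub]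
  have hpos : 0 < ∏ i : Fin k, (q ^ n - q ^ (i : ℕ)) := by
    apply Finset.prod_pos
    intro i _
    apply Nat.sub_pos_of_lt
    exact Nat.pow_lt_pow_right hq (by omega)
  rw [hGL, hsplit] at key
  apply Nat.eq_of_mul_eq_mul_right hpos
  rw [key]
  ring

end Cfsg.Agent.S0771
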