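import Cfsg.Statements.S0773
import Mathlib
import Cfsg.Agent.H5.GLStab2

set_option autoImplicit false
open Cfsg

namespace Cfsg.Agent.S0773

/-- The stabilisers in GL_n(F), F finite, of the coordinate subspaces of dimensions k and n − k are isomorphic groups, but when 2k ≠ n (and 0 < k < n) no element of GL_n conjugates one onto the other. -/
theorem result {F : Type*} [Field F] [Finite F] (n k : ℕ) (hk0 : 0 < k) (hkn : k < n) (h2 : 2 * k ≠ n) : Nonempty (↥(Cfsg.stabilizing (Cfsg.glToMat (Fin n) F) {v : Fin n → F | ∀ i : Fin n, k ≤ (i : ℕ) → v i = 0}) ≃* ↥(Cfsg.stabilizing (Cfsg.glToMat (Fin n) F) {v : Fin n → F | ∀ i : Fin n, n - k ≤ (i : ℕ) → v i = 0})) ∧ ∀ g : Matrix.GeneralLinearGroup (Fin n) F, (Cfsg.stabilizing (Cfsg.glToMat (Fin n) F) {v : Fin n → F | ∀ i : Fin n, k ≤ (i : ℕ) → v i = 0}).map (MulAut.conj g).toMonoidHom ≠ Cfsg.stabilizing (Cfsg.glToMat (Fin n) F) {v : Fin n → F | ∀ i : Fin n, n - k ≤ (i : ℕ) → v i = 0} := by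
  rw [← H5.coe_Wc, ← H5.coe_Wc]
  constructor
  · have hnk : n - (n - k) = k := by omega
    refine ⟨{ toFun := fun g => ⟨H5.revT g.1, H5.revT_mem hkn.le g.2⟩
              invFun := fun g => ⟨H5.revT g.1, by
                have := H5.revT_mem (Nat.sub_le n k) g.2
                rw [hnk] at this
                exact this⟩
              left_inv := fun g => Subtype.ext (H5.revT_revT g.1)
              right_inv := fun g => Subtype.ext (H5.revT_revT g.1)
              map_mul' := fun g h => Subtype.ext (map_mul H5.revT g.1 h.1) }⟩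
  · intro g hg
    have hinv : ∀ p ∈ Cfsg.stabilizing (Cfsg.glToMat (Fin n) F) (H5.Wc n F (n - k) : Set (Fin n → F)),
        ∀ u ∈ (H5.Wc n F k).map (H5.glE g : (Fin n → F) →ₗ[F] (Fin n → F)),
        (p : Matrix (Fin n) (Fin n) F).mulVec u ∈ (H5.Wc n F k).map (H5.glE g : (Fin n → F) →ₗ[F] (Fin n → F)) := by
      intro p hp u hu
      rw [← hg] at hp
      obtain ⟨p', hp', rfl⟩ := hp
      obtain ⟨w, hw, rfl⟩ := hu
      refine ⟨(p' : Matrix (Fin n) (Fin n) F).mulVec w, (hp' w).mp hw, ?_⟩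
      show (g : Matrix (Fin n) (Fin n) F).mulVec ((p' : Matrix (Fin n) (Fin n) F).mulVec w) =
        ((g * p' * g⁻¹ : GL (Fin n) F) : Matrix (Fin n) (Fin n) F).mulVec ((g : Matrix (Fin n) (Fin n) F).mulVec w)
      rw [Matrix.mulVec_mulVec, Matrix.mulVec_mulVec, ← Units.val_mul, ← Units.val_mul, inv_mul_cancel_right]
    have hfr : Module.finrank F ((H5.Wc n F k).map (H5.glE g : (Fin n → F) →ₗ[F] (Fin n → F)) : Submodule F (Fin n → F)) = k := by
      rw [LinearEquiv.finrank_map_eq (H5.glE g) (H5.Wc n F k)]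
      exact H5.finrank_Wc hkn.le
    rcases H5.invariant_cases hinv with h | h | h
    · rw [h, finrank_bot] at hfr; omega
    · rw [h, H5.finrank_Wc (Nat.sub_le n k)] at hfr; omega
    · rw [h, finrank_top, Module.finrank_fintype_fun_eq_card, Fintype.card_fin] at hfr; omega

end Cfsg.Agent.S0773
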