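import Cfsg.Statements.S0774
import Mathlib
import Cfsg.Agent.H5.SpStab

set_option autoImplicit false
open Cfsg

namespace Cfsg.Agent.S0774

/-- Borel subgroup of the symplectic group: the elements of Sp_2m(q) stabilising each of the totally isotropic coordinate subspaces ⟨e_0, ..., e_k⟩ (k < m) form a subgroup of order q^(m²) (q − 1)^m. -/
theorem result {F : Type*} [Field F] [Fintype F] {q : ℕ} (hF : Fintype.card F = q) (m : ℕ) : Nat.card ↥(⨅ k : Fin m, Cfsg.stabilizing (Cfsg.spToMat m F) {v : Fin m ⊕ Fin m → F | (∀ i : Fin m, (k : ℕ) < (i : ℕ) → v (Sum.inl i) = 0) ∧ ∀ i : Fin m, v (Sum.inr i) = 0}) = q ^ (m ^ 2) * (q - 1) ^ m := by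
  classical
  have hq : Nat.card F = q := by rw [Nat.card_eq_fintype_card, hF]
  have hq1 : 1 < q := by rw [← hF]; exact Fintype.one_lt_card
  let V := Fin m ⊕ Fin m → F
  let J : (Fin m → F) →ₗ[F] V :=
    { toFun := fun x => Sum.elim x 0
      map_add' := fun x y => by
        funext i
        rcases i with i | i
        · rfl
        · exact (add_zero (0 : F)).symm
      map_smul' := fun a x => by
        funext i
        rcases i with i | i
        · rfl
        · exact (mul_zero a).symm }
  have hJ : Function.Injective J := by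
    intro x y hxy
    funext i
    exact congrFun hxy (Sum.inl i)
  have hJB : ∀ x y, H5.sympB m F (J x) (J y) = 0 := by
    intro x y
    rw [H5.sympB_apply, H5.sympForm_eq]
    apply Finset.sum_eq_zero
    intro i _
    show (0 : F) * _ - _ * (0 : F) = 0
    rw [zero_mul, mul_zero, sub_zero]
  let x₀ : H5.TIF (H5.sympB m F) (fun _ => (0 : F)) m :=
    ⟨fun i => J (Pi.single i 1), by
      have := (Pi.basisFun F (Fin m)).linearIndependent.map' J (LinearMap.ker_eq_bot_of_injective hJ)
      simpa [Function.comp_def] using this, fun i j => hJB _ _, fun i => rfl⟩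
  -- coordinate flags
  let E : Fin m → Submodule F V := fun k => (H5.Wc m F (k + 1)).map J
  have hE : ∀ k (v : V), v ∈ E k ↔ (∀ i : Fin m, (k : ℕ) < (i : ℕ) → v (Sum.inl i) = 0) ∧ ∀ i : Fin m, v (Sum.inr i) = 0 := by
    intro k v
    constructor
    · rintro ⟨w, hw, rfl⟩
      exact ⟨fun i hi => hw i (by omega), fun i => rfl⟩
    · rintro ⟨h1, h2⟩
      refine ⟨fun i => v (Sum.inl i), fun i hi => h1 i (by omega), ?_⟩
      funext i
      rcases i with i | i
      · rfl
      · exact (h2 i).symm
  have hEfr : ∀ k, Module.finrank F (E k) = k + 1 := by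
    intro k
    rw [← H5.finrank_Wc (F := F) (n := m) (k := k + 1) (by omega)]
    exact (Submodule.equivMapOfInjective J hJ _).finrank_eq.symm
  have hxE : ∀ i k : Fin m, i ≤ k → x₀.1 i ∈ E k := by
    intro i k hik
    rw [hE]
    refine ⟨fun j hj => ?_, fun j => rfl⟩
    show (Pi.single i (1 : F) : Fin m → F) j = 0
    rw [Pi.single_eq_of_ne]
    rintro rfl
    exact absurd hj (not_lt.mpr hik)
  have hmono : ∀ i k : Fin m, i ≤ k → E i ≤ E k := by
    intro i k hik v hv
    rw [hE] at hv ⊢
    exact ⟨fun j hj => hv.1 j (lt_of_le_of_lt hik hj), hv.2⟩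
  set S := ⨅ k : Fin m, Cfsg.stabilizing (Cfsg.spToMat m F) {v : Fin m ⊕ Fin m → F | (∀ i : Fin m, (k : ℕ) < (i : ℕ) → v (Sum.inl i) = 0) ∧ ∀ i : Fin m, v (Sum.inr i) = 0} with hSdef
  have hSmem : ∀ g, g ∈ S ↔ ∀ i, H5.spEhom m F g (x₀.1 i) ∈ E i := by
    intro g
    rw [hSdef, Subgroup.mem_iInf]
    constructor
    · intro h i
      rw [hE]
      exact (h i (x₀.1 i)).mp ((hE i _).mp (hxE i i le_rfl))
    · intro h k v
      have hst := H5.stab_iff_frame (hEfr k) (x := fun i : Fin (k + 1) => x₀.1 (Fin.castLE (by omega) i))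
        (x₀.2.1.comp _ (Fin.castLE_injective (by omega))) (fun i => hxE _ _ (by
          rw [Fin.le_def]
          show (i : ℕ) ≤ k
          omega)) (H5.spEhom m F g)
      have h1 := hst.mpr (fun i => hmono _ _ (by
          rw [Fin.le_def]
          show (i : ℕ) ≤ k
          omega) (h _)) v
      show v ∈ {v : Fin m ⊕ Fin m → F | _} ↔ _ ∈ {v : Fin m ⊕ Fin m → F | _}
      rw [hE, hE] at h1
      exact h1
  have key := H5.card_stab_general (H5.sp_formData (m := m) (F := F)) (H5.spEhom m F)
    (fun g x y => H5.mem_Sp_iff.mp g.2 x y) (fun g x => rfl) (fun e he _ => H5.spEhom_surj e he) x₀ S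
    {y | ∀ i, y.1 i ∈ E i} (by
      intro g y hy
      rw [hSmem]
      constructor
      · intro h i; rw [hy i]; exact h i
      · intro h i; rw [← hy i]; exact h i)
  -- triangular frames
  have hY : Nat.card ({y : H5.TIF (H5.sympB m F) (fun _ => (0 : F)) m | ∀ i, y.1 i ∈ E i} : Set _) =
      ∏ i : Fin m, (q ^ ((i : ℕ) + 1) - q ^ (i : ℕ)) := by
    have hcnt : ∀ i : Fin m, Nat.card {w : Fin m → F // w ∉ H5.Wc m F (i : ℕ) ∧ w ∈ H5.Wc m F ((i : ℕ) + 1)} =
        q ^ ((i : ℕ) + 1) - q ^ (i : ℕ) := by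
      intro i
      rw [H5.card_diff (S := H5.Wc m F (i : ℕ)) (P := H5.Wc m F ((i : ℕ) + 1)) (fun w hw j hj => hw j (by omega)),
        H5.card_submodule _ hq (H5.finrank_Wc (F := F) (n := m) (k := (i : ℕ)) (by omega)),
        H5.card_submodule _ hq (H5.finrank_Wc (F := F) (n := m) (k := (i : ℕ) + 1) (by omega))]
    rw [← Finset.prod_congr rfl (fun i _ => hcnt i), ← Nat.card_pi]
    have hdet : ∀ A : Matrix (Fin m) (Fin m) F, (∀ i : Fin m, A i ∈ H5.Wc m F ((i : ℕ) + 1)) →
        (LinearIndependent F (fun i => A i) ↔ ∀ i, A i i ≠ 0) := by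
      intro A hA
      have h1 : A.det = ∏ i, A i i := by
        apply Matrix.det_of_lowerTriangular
        intro i j hij
        exact hA i j (by
          have : i < j := hij
          rw [Fin.lt_def] at this
          omega)
      have h2 : LinearIndependent F (fun i => A i) ↔ IsUnit A := Matrix.linearIndependent_rows_iff_isUnit
      rw [h2, Matrix.isUnit_iff_isUnit_det, h1, isUnit_iff_ne_zero, Finset.prod_ne_zero_iff]
      simp
    have hWc : ∀ (i : Fin m) (w : Fin m → F), w ∈ H5.Wc m F ((i : ℕ) + 1) → (w i ≠ 0 ↔ w ∉ H5.Wc m F (i : ℕ)) := by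
      intro i w hw
      constructor
      · intro h h'
        exact h (h' i le_rfl)
      · intro h h'
        apply h
        intro j hj
        rcases Nat.eq_or_lt_of_le hj with h3 | h3
        · have : i = j := Fin.ext h3
          rw [← this]; exact h'
        · exact hw j h3
    have hJl : ∀ v ∈ ({v : V | ∀ i : Fin m, v (Sum.inr i) = 0} : Set V), J (fun i => v (Sum.inl i)) = v := by
      intro v hv
      funext i
      rcases i with i | i
      · rfl
      · exact (hv i).symm
    refine Nat.card_congr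
      { toFun := fun y i => ⟨fun j => y.1.1 i (Sum.inl j), ?_, fun j hj => ((hE i _).mp (y.2 i)).1 j (by omega)⟩
        invFun := fun w => ⟨⟨fun i => J (w i).1, ?_, fun i j => hJB _ _, fun i => rfl⟩, fun i => ⟨(w i).1, (w i).2.2, rfl⟩⟩
        left_inv := ?_
        right_inv := ?_ }
    · rw [← hWc i _ (fun j hj => ((hE i _).mp (y.2 i)).1 j (by omega))]
      have h3 : LinearIndependent F (fun i : Fin m => (fun j => y.1.1 i (Sum.inl j))) := by
        have h4 : (fun i : Fin m => y.1.1 i) = fun i => J (fun j => y.1.1 i (Sum.inl j)) := by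
          funext i
          exact (hJl _ ((hE i _).mp (y.2 i)).2).symm
        have h5 : LinearIndependent F (fun i : Fin m => y.1.1 i) := y.1.2.1
        rw [h4] at h5
        exact LinearIndependent.of_comp J h5
      exact (hdet (fun i j => y.1.1 i (Sum.inl j)) (fun i j hj => ((hE i _).mp (y.2 i)).1 j (by omega))).mp h3 i
    · have h3 : LinearIndependent F (fun i : Fin m => (w i).1) :=
        (hdet (fun i => (w i).1) (fun i => (w i).2.2)).mpr (fun i => (hWc i _ (w i).2.2).mpr (w i).2.1)
      exact h3.map' J (LinearMap.ker_eq_bot_of_injective hJ)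
    · intro y
      apply Subtype.ext
      apply Subtype.ext
      funext i
      exact hJl _ ((hE i _).mp (y.2 i)).2
    · intro w
      funext i
      apply Subtype.ext
      rfl
  rw [hY, H5.card_tif_sp hq, H5.card_Sp hF, H5.sp_arith q m m le_rfl] at key
  have hpos : 0 < ∏ i ∈ Finset.range m, (q ^ (2 * m - i) - q ^ i) := by
    apply Finset.prod_pos
    intro i hi
    rw [Finset.mem_range] at hi
    apply Nat.sub_pos_of_lt
    exact Nat.pow_lt_pow_right hq1 (by omega)
  apply Nat.eq_of_mul_eq_mul_right hpos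
  rw [key, Nat.sub_self, Finset.prod_range_zero]
  have h6 : ∏ i : Fin m, (q ^ ((i : ℕ) + 1) - q ^ (i : ℕ)) = q ^ (m * (m - 1) / 2) * (q - 1) ^ m := by
    rw [Fin.prod_univ_eq_prod_range (fun i => q ^ (i + 1) - q ^ i) m]
    have : ∀ i ∈ Finset.range m, q ^ (i + 1) - q ^ i = q ^ i * (q - 1) := by
      intro i _
      rw [Nat.mul_sub, mul_one, pow_succ]
    rw [Finset.prod_congr rfl this, Finset.prod_mul_distrib, Finset.prod_pow_eq_pow_sum, Finset.sum_range_id,
      Finset.prod_const, Finset.card_range]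
  rw [h6]
  have h7 : m * (m - 1) / 2 + (m * (m + 1) / 2 + 2 * m * 0 + 0 ^ 2) = m ^ 2 := by
    rcases m with _ | r
    · rfl
    · have e1 : (r + 1) * (r + 1 - 1) = r * (r + 1) := by rw [Nat.add_sub_cancel, mul_comm]
      have e2 : (r + 1) * (r + 1 + 1) = r * (r + 1) + (r + 1) * 2 := by ring
      obtain ⟨t, ht⟩ := Nat.even_mul_succ_self r
      rw [e1, e2, Nat.add_mul_div_right _ _ (by norm_num), ht]
      have : (t + t) / 2 = t := by omega
      rw [this]
      nlinarith
  rw [← h7, pow_add]
  ring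

end Cfsg.Agent.S0774
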