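import Cfsg.Statements.S0775
import Mathlib
import Cfsg.Agent.H5.SpStab

set_option autoImplicit false
open Cfsg

namespace Cfsg.Agent.S0775

/-- Maximal parabolics of the symplectic group: if W is a k-dimensional subspace of F^(2m) on which the symplectic form vanishes identically, its stabiliser in Sp_2m(q) has order q^(k(k+1)/2 + 2k(m−k)) · |Sp_(2m−2k)(q)| · |GL_k(q)|. -/
theorem result {F : Type*} [Field F] [Fintype F] {q : ℕ} (hF : Fintype.card F = q) (m k : ℕ) (hk : k ≤ m) (W : Submodule F (Fin m ⊕ Fin m → F)) (hWk : Module.finrank F W = k) (hW : ∀ u ∈ W, ∀ v ∈ W, Cfsg.sympForm m F u v = 0) : Nat.card ↥(Cfsg.stabilizing (Cfsg.spToMat m F) (W : Set (Fin m ⊕ Fin m → F))) = q ^ (k * (k + 1) / 2 + 2 * k * (m - k)) * (q ^ ((m - k) ^ 2) * ∏ i ∈ Finset.range (m - k), (q ^ (2 * (i + 1)) - 1)) * ∏ i : Fin k, (q ^ k - q ^ (i : ℕ)) := by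
  classical
  have hq : Nat.card F = q := by rw [Nat.card_eq_fintype_card, hF]
  have hq1 : 1 < q := by rw [← hF]; exact Fintype.one_lt_card
  have key := H5.card_stab_ti (H5.sp_formData (m := m) (F := F)) (H5.spEhom m F)
    (fun g x y => H5.mem_Sp_iff.mp g.2 x y) (fun g x => rfl) (fun e he _ => H5.spEhom_surj e he) hWk
    (fun x hx y hy => by rw [H5.sympB_apply]; exact hW x hx y hy) (fun x _ => rfl)
    (Cfsg.stabilizing (Cfsg.spToMat m F) (W : Set (Fin m ⊕ Fin m → F))) (fun g => Iff.rfl)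
  rw [H5.card_tif_sp hq, H5.card_Sp hF, H5.sp_arith q m k hk, hF] at key
  have hpos : 0 < ∏ i ∈ Finset.range k, (q ^ (2 * m - i) - q ^ i) := by
    apply Finset.prod_pos
    intro i hi
    rw [Finset.mem_range] at hi
    apply Nat.sub_pos_of_lt
    exact Nat.pow_lt_pow_right hq1 (by omega)
  apply Nat.eq_of_mul_eq_mul_right hpos
  rw [key, pow_add _ (k * (k + 1) / 2 + 2 * k * (m - k))]
  ring

end Cfsg.Agent.S0775
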