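import Cfsg.Statements.S0776
import Mathlib
import Cfsg.Agent.H5.IsoG2

set_option autoImplicit false
open Cfsg

namespace Cfsg.Agent.S0776

/-- If W ≤ F^(2m) is a 2k-dimensional subspace on which the symplectic form is non-degenerate, then the stabiliser of W in Sp_2m(F) is isomorphic to Sp_2k(F) × Sp_(2m−2k)(F). -/
theorem result {F : Type*} [Field F] (m k : ℕ) (hk : k ≤ m) (W : Submodule F (Fin m ⊕ Fin m → F)) (hWk : Module.finrank F W = 2 * k) (hW : ∀ u ∈ W, (∀ v ∈ W, Cfsg.sympForm m F u v = 0) → u = 0) : Nonempty (↥(Cfsg.stabilizing (Cfsg.spToMat m F) (W : Set (Fin m ⊕ Fin m → F))) ≃* Matrix.symplecticGroup (Fin k) F × Matrix.symplecticGroup (Fin (m - k)) F) := by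
  have hfd := H5.sp_formData (m := m) (F := F)
  have hW' : ∀ u ∈ W, (∀ v ∈ W, H5.sympB m F u v = 0) → u = 0 := fun u hu h =>
    hW u hu (fun v hv => by rw [← H5.sympB_apply]; exact h v hv)
  have hc : IsCompl W (H5.rperp (H5.sympB m F) W) := H5.rperp_isCompl hfd (fun a => rfl) hW'
  have hr : ∀ x y, H5.sympB m F x y = 0 → H5.sympB m F y x = 0 := fun x y h => by
    rw [H5.sympB_neg, h, neg_zero]
  have hV : Module.finrank F (Fin m ⊕ Fin m → F) = 2 * m := by
    rw [Module.finrank_fintype_fun_eq_card, Fintype.card_sum, Fintype.card_fin, two_mul]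
  have hfr := Submodule.finrank_add_eq_of_isCompl hc
  obtain ⟨e1, he1⟩ := H5.exists_symp_iso (B := H5.resB (H5.sympB m F) W) (fun x => H5.sympB_isAlt (x : Fin m ⊕ Fin m → F))
    (fun x hx => Subtype.ext (hW' x.1 x.2 (fun y hy => hx ⟨y, hy⟩))) hWk
  obtain ⟨e2, he2⟩ := H5.exists_symp_iso (B := H5.resB (H5.sympB m F) (H5.rperp (H5.sympB m F) W))
    (fun x => H5.sympB_isAlt (x : Fin m ⊕ Fin m → F))
    (fun x hx => Subtype.ext (H5.rperp_nd hfd hc x.1 x.2 (fun y hy => hx ⟨y, hy⟩))) (k := m - k) (by omega)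
  exact ⟨(H5.spStabIso W).trans ((H5.stabIsoEquiv hc hr).trans
    (MulEquiv.prodCongr ((H5.isoCongr e1 he1).trans (H5.spIso k F).symm)
      ((H5.isoCongr e2 he2).trans (H5.spIso (m - k) F).symm)))⟩

end Cfsg.Agent.S0776
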