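import Cfsg.Statements.S0777
import Mathlib
import Cfsg.Agent.H5.WeylC

set_option autoImplicit false
open Cfsg

namespace Cfsg.Agent.S0777

/-- Weyl group of type C_m: for q ≥ 4 the diagonal matrices of Sp_2m(q) form a torus T ≅ (C_(q−1))^m (the elements stabilising every coordinate axis), and the normaliser of T in Sp_2m(q) has order 2^m · m! · (q − 1)^m. -/
theorem result {F : Type*} [Field F] [Fintype F] {q : ℕ} (hF : Fintype.card F = q) (hq : 4 ≤ q) (m : ℕ) : Nat.card ↥(Subgroup.normalizer (⨅ i : Fin m ⊕ Fin m, Cfsg.stabilizing (Cfsg.spToMat m F) ((Submodule.span F {(Pi.single i (1 : F) : Fin m ⊕ Fin m → F)} : Submodule F (Fin m ⊕ Fin m → F)) : Set (Fin m ⊕ Fin m → F)) : Set (Matrix.symplecticGroup (Fin m) F))) = 2 ^ m * Nat.factorial m * (q - 1) ^ m := by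
  classical
  obtain ⟨a, ha0, ha1⟩ : ∃ a : F, a ≠ 0 ∧ a * a ≠ 1 := by
    obtain ⟨g, hg⟩ := IsCyclic.exists_generator (α := Fˣ)
    have hord : orderOf g = q - 1 := by
      rw [orderOf_eq_card_of_forall_mem_zpowers hg, Nat.card_eq_fintype_card, Fintype.card_units, hF]
    refine ⟨g, g.ne_zero, fun h => ?_⟩
    have h1 : g ^ 2 = 1 := by
      apply Units.ext
      rw [Units.val_pow_eq_pow_val, pow_two, h, Units.val_one]
    have h2 := Nat.le_of_dvd (by norm_num) (orderOf_dvd_of_pow_eq_one h1)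
    omega
  have hT : (⨅ i : Fin m ⊕ Fin m, ((Cfsg.stabilizing (Cfsg.spToMat m F) ((Submodule.span F {(Pi.single i (1 : F) : Fin m ⊕ Fin m → F)} : Submodule F (Fin m ⊕ Fin m → F)) : Set (Fin m ⊕ Fin m → F)) : Subgroup (Matrix.symplecticGroup (Fin m) F)) : Set (Matrix.symplecticGroup (Fin m) F))) = (H5.torus m F : Set (Matrix.symplecticGroup (Fin m) F)) := by
    rw [H5.torus, Subgroup.coe_iInf]
    rfl
  rw [← H5.card_mono hF, hT]
  exact Nat.card_congr (Equiv.subtypeEquivRight (fun g => H5.mem_normalizer_torus ha0 ha1))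

end Cfsg.Agent.S0777
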