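import Cfsg.Statements.S0779
import Mathlib
import Cfsg.Agent.H5.UnitGen

set_option autoImplicit false
open Cfsg

namespace Cfsg.Agent.S0779

/-- Unitary transvections: let |F| = q², h the standard Hermitian form Σ x_i y_i^q and v ≠ 0 with h(v, v) = 0. The linear map x ↦ x + c h(x, v) v is an isometry of h if and only if c = 0 or c^(q−1) = −1. -/
theorem result {F : Type*} [Field F] [Fintype F] {q : ℕ} (hF : Fintype.card F = q ^ 2) (n : ℕ) (v : Fin n → F) (hv : v ≠ 0) (hv0 : Cfsg.hermForm n F q v v = 0) (c : F) : (∀ x y : Fin n → F, Cfsg.hermForm n F q ((Cfsg.unitaryTransvection n q v c).mulVec x) ((Cfsg.unitaryTransvection n q v c).mulVec y) = Cfsg.hermForm n F q x y) ↔ (c = 0 ∨ c ^ (q - 1) = -1) := by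
  obtain ⟨σ, hσ, hσ2, hσ1⟩ := Cfsg.Agent.H5.exists_frob hF
  have hq := Cfsg.Agent.H5.q_pos hF
  have hS := Cfsg.Agent.H5.hB_symm (ι := Fin n) hσ2
  have hvv : Cfsg.Agent.H5.hB (Fin n) σ v v = 0 := by rw [← Cfsg.Agent.H5.hermForm_eq hσ]; exact hv0
  have hexp : ∀ x y, Cfsg.hermForm n F q ((Cfsg.unitaryTransvection n q v c).mulVec x)
      ((Cfsg.unitaryTransvection n q v c).mulVec y) = Cfsg.hermForm n F q x y +
      (c + σ c) * (Cfsg.Agent.H5.hB (Fin n) σ v x * σ (Cfsg.Agent.H5.hB (Fin n) σ v y)) := by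
    intro x y
    rw [Cfsg.Agent.H5.hermForm_eq hσ, Cfsg.Agent.H5.hermForm_eq hσ,
      Cfsg.Agent.H5.unitaryTransvection_mulVec hσ, Cfsg.Agent.H5.unitaryTransvection_mulVec hσ]
    simp only [Cfsg.Agent.H5.FormData.bl_add, Cfsg.Agent.H5.FormData.br_add,
      Cfsg.Agent.H5.FormData.bl_smul, Cfsg.Agent.H5.FormData.br_smul, hvv, map_mul]
    rw [← hS v y]
    ring
  have hiff : (∀ x y : Fin n → F, Cfsg.hermForm n F q ((Cfsg.unitaryTransvection n q v c).mulVec x)
      ((Cfsg.unitaryTransvection n q v c).mulVec y) = Cfsg.hermForm n F q x y) ↔ c + σ c = 0 := by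
    constructor
    · intro h
      obtain ⟨x, hx⟩ : ∃ x, Cfsg.Agent.H5.hB (Fin n) σ v x ≠ 0 := by
        by_contra hcon
        push Not at hcon
        exact hv (Cfsg.Agent.H5.hB_nd v hcon)
      have h1 := h x x
      rw [hexp, add_eq_left] at h1
      refine (mul_eq_zero.mp h1).resolve_right (mul_ne_zero hx ?_)
      exact fun h0 => hx ((map_eq_zero σ).mp h0)
    · intro h x y
      rw [hexp, h]; ring
  rw [hiff, hσ]
  obtain ⟨k, rfl⟩ : ∃ k, q = k + 1 := ⟨q - 1, by omega⟩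
  rw [Nat.add_sub_cancel]
  have h1 : c + c ^ (k + 1) = c * (1 + c ^ k) := by ring
  rw [h1, mul_eq_zero]
  constructor
  · rintro (h | h)
    · exact Or.inl h
    · exact Or.inr (by linear_combination h)
  · rintro (h | h)
    · exact Or.inl h
    · exact Or.inr (by linear_combination h)

end Cfsg.Agent.S0779
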