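import Cfsg.Statements.S0783
import Mathlib
import Cfsg.Agent.H5.UnitCenter

set_option autoImplicit false
open Cfsg

namespace Cfsg.Agent.S0783

/-- PGU_n(q)/PSU_n(q) is cyclic of order (n, q+1): for n ≥ 2 and |F| = q² there is a surjective homomorphism from GU_n(q) onto the cyclic group of order gcd(n, q + 1) whose kernel is generated by the determinant-one elements together with the centre. -/
theorem result {F : Type*} [Field F] [Fintype F] {q : ℕ} (hF : Fintype.card F = q ^ 2) (n : ℕ) (hn : 2 ≤ n) : ∃ φ : ↥(Cfsg.GU n F q) →* Multiplicative (ZMod (Nat.gcd n (q + 1))), Function.Surjective φ ∧ φ.ker = (Matrix.GeneralLinearGroup.det : Matrix.GeneralLinearGroup (Fin n) F →* Fˣ).ker.subgroupOf (Cfsg.GU n F q) ⊔ Subgroup.center ↥(Cfsg.GU n F q) := by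
  obtain ⟨σ, hσ, hσ2, hσ1⟩ := Cfsg.Agent.H5.exists_frob hF
  have h := Cfsg.Agent.H5.exists_hom_cyclic (Cfsg.Agent.H5.detGU n F q).range n (by omega)
  rw [Cfsg.Agent.H5.card_detGU_range hF hσ (by omega)] at h
  obtain ⟨f, hf1, hf2⟩ := h
  refine ⟨f.comp (Cfsg.Agent.H5.detGU n F q).rangeRestrict,
    hf1.comp (Cfsg.Agent.H5.detGU n F q).rangeRestrict_surjective, ?_⟩
  -- scalar elements
  have hscal : ∀ c : F, ∀ hc : σ c * c = 1, ∃ z ∈ Subgroup.center (Cfsg.GU n F q),
      ((z : Matrix.GeneralLinearGroup (Fin n) F) : Matrix (Fin n) (Fin n) F) = c • 1 := by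
    intro c hc
    have hcols := Cfsg.Agent.H5.smul_one_cols (n := n) hc
    refine ⟨⟨Matrix.GeneralLinearGroup.mkOfDetNeZero (c • 1) (Cfsg.Agent.H5.det_ne_zero_of_cols hcols),
      (Cfsg.Agent.H5.mem_GU_iff hσ).mpr (Cfsg.Agent.H5.isom_of_cols hcols)⟩, ?_, rfl⟩
    rw [Subgroup.mem_center_iff]
    intro g
    apply Subtype.ext
    apply Units.ext
    show ((g : Matrix.GeneralLinearGroup (Fin n) F) : Matrix (Fin n) (Fin n) F) * (c • 1) =
      (c • 1) * ((g : Matrix.GeneralLinearGroup (Fin n) F) : Matrix (Fin n) (Fin n) F)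
    rw [Matrix.mul_smul, Matrix.smul_mul, Matrix.mul_one, Matrix.one_mul]
  apply le_antisymm
  · intro g hg
    rw [MonoidHom.mem_ker, MonoidHom.comp_apply] at hg
    have h1 : (Cfsg.Agent.H5.detGU n F q).rangeRestrict g ∈ f.ker := hg
    rw [hf2] at h1
    obtain ⟨⟨c, hc⟩, hcg⟩ := h1
    have hc' := (Cfsg.Agent.H5.detGU_range hσ (by omega) c).mp hc
    obtain ⟨z, hz, hzc⟩ := hscal c hc'
    have hdet : Cfsg.Agent.H5.detGU n F q g = c ^ n := (congrArg Subtype.val hcg).symm
    have hdetz : Cfsg.Agent.H5.detGU n F q z = c ^ n := by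
      apply Units.ext
      rw [Cfsg.Agent.H5.detGU_apply, hzc, Matrix.det_smul, Matrix.det_one, mul_one, Fintype.card_fin,
        Units.val_pow_eq_pow_val]
    have hgz : g = (g * z⁻¹) * z := by group
    rw [hgz]
    refine mul_mem (Subgroup.mem_sup_left ?_) (Subgroup.mem_sup_right hz)
    show Cfsg.Agent.H5.detGU n F q (g * z⁻¹) = 1
    rw [map_mul, map_inv, hdet, hdetz, mul_inv_cancel]
  · rw [sup_le_iff]
    constructor
    · intro g hg
      have h1 : Cfsg.Agent.H5.detGU n F q g = 1 := hg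
      rw [MonoidHom.mem_ker, MonoidHom.comp_apply]
      have h2 : (Cfsg.Agent.H5.detGU n F q).rangeRestrict g = 1 := Subtype.ext h1
      rw [h2, map_one]
    · intro g hg
      obtain ⟨c, hc⟩ := Cfsg.Agent.H5.GU_center_scalar hF hσ hn hg
      have hnorm : σ c * c = 1 := by
        have h1 := Cfsg.Agent.H5.cols_of_isom ((Cfsg.Agent.H5.mem_GU_iff hσ).mp g.2) ⟨0, by omega⟩ ⟨0, by omega⟩
        rw [hc, if_pos rfl, Cfsg.Agent.H5.hB_apply, Finset.sum_eq_single ⟨0, by omega⟩] at h1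
        · simpa using h1
        · intro k _ hk
          simp [Matrix.one_apply_ne hk]
        · intro h; exact absurd (Finset.mem_univ _) h
      have hmem : Cfsg.Agent.H5.unitOfNorm hnorm ∈ (Cfsg.Agent.H5.detGU n F q).range :=
        (Cfsg.Agent.H5.detGU_range hσ (by omega) _).mpr hnorm
      rw [MonoidHom.mem_ker, MonoidHom.comp_apply, ← MonoidHom.mem_ker, hf2]
      refine ⟨⟨Cfsg.Agent.H5.unitOfNorm hnorm, hmem⟩, ?_⟩
      apply Subtype.ext
      apply Units.ext
      show c ^ n = ((g : Matrix.GeneralLinearGroup (Fin n) F) : Matrix (Fin n) (Fin n) F).det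
      rw [hc, Matrix.det_smul, Matrix.det_one, mul_one, Fintype.card_fin]

end Cfsg.Agent.S0783
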