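import Cfsg.Statements.S0784
import Mathlib

set_option autoImplicit false
open Cfsg

namespace Cfsg.Agent.S0784

/-- Reflections: if Q(v) ≠ 0 then the matrix R = 1 − Q(v)⁻¹ · v f(v, ·)ᵀ preserves Q, maps v to −v, fixes each x with f(v, x) = 0, and has determinant −1 (in characteristic two, −1 = 1 and R is the orthogonal transvection of v). -/
theorem result {F : Type*} [Field F] {n : ℕ} (Q : QuadraticForm F (Fin n → F)) (v : Fin n → F) (hv : Q v ≠ 0) : (∀ x, Q ((Cfsg.reflectionMatrix ⇑Q v).mulVec x) = Q x) ∧ (Cfsg.reflectionMatrix ⇑Q v).mulVec v = -v ∧ (∀ x, QuadraticMap.polar ⇑Q v x = 0 → (Cfsg.reflectionMatrix ⇑Q v).mulVec x = x) ∧ (Cfsg.reflectionMatrix ⇑Q v).det = -1 := by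
  have hpol : ∀ x : Fin n → F, (Cfsg.polarVec (⇑Q) v) ⬝ᵥ x = QuadraticMap.polar (⇑Q) v x := by
    intro x
    have h1 : QuadraticMap.polar (⇑Q) v x = QuadraticMap.polarBilin Q v x := rfl
    rw [h1]
    conv_rhs => rw [← Finset.univ_sum_single x]
    rw [map_sum, dotProduct]
    apply Finset.sum_congr rfl
    intro i _
    have : (Pi.single i (x i) : Fin n → F) = x i • Pi.single i (1 : F) := by
      rw [← Pi.single_smul, smul_eq_mul, mul_one]
    rw [this, map_smul, smul_eq_mul, mul_comm]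
    rfl
  have hmul : ∀ x, (Cfsg.reflectionMatrix (⇑Q) v).mulVec x = x - ((Q v)⁻¹ * QuadraticMap.polar (⇑Q) v x) • v := by
    intro x
    unfold Cfsg.reflectionMatrix
    rw [Matrix.sub_mulVec, Matrix.one_mulVec, Matrix.smul_mulVec, Matrix.vecMulVec_mulVec, hpol]
    simp [smul_smul]
  have hself : QuadraticMap.polar (⇑Q) v v = 2 * Q v := by
    rw [QuadraticMap.polar_self]
    simp
  refine ⟨?_, ?_, ?_, ?_⟩
  · intro x
    rw [hmul]
    have hsub : Q (x - ((Q v)⁻¹ * QuadraticMap.polar (⇑Q) v x) • v) =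
        Q x + Q (-((((Q v)⁻¹ * QuadraticMap.polar (⇑Q) v x)) • v)) +
          QuadraticMap.polar Q x (-((((Q v)⁻¹ * QuadraticMap.polar (⇑Q) v x)) • v)) := by
      rw [sub_eq_add_neg, QuadraticMap.map_add (⇑Q)]
    rw [hsub, QuadraticMap.map_neg, QuadraticMap.map_smul, QuadraticMap.polar_neg_right,
      QuadraticMap.polar_smul_right, QuadraticMap.polar_comm (⇑Q) x v]
    simp only [smul_eq_mul]
    field_simp
    ring
  · rw [hmul, hself]
    have : (Q v)⁻¹ * (2 * Q v) = 2 := by field_simp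
    rw [this, two_smul]
    abel
  · intro x hx
    rw [hmul, hx, mul_zero, zero_smul, sub_zero]
  · unfold Cfsg.reflectionMatrix
    have h1 : (1 - (Q v)⁻¹ • Matrix.vecMulVec v (Cfsg.polarVec (⇑Q) v)) =
      1 + Matrix.vecMulVec (-((Q v)⁻¹ • v)) (Cfsg.polarVec (⇑Q) v) := by
      rw [Matrix.neg_vecMulVec, Matrix.smul_vecMulVec, sub_eq_add_neg]
    rw [h1, Matrix.vecMulVec_eq Unit, Matrix.det_one_add_replicateCol_mul_replicateRow, dotProduct_neg,
      dotProduct_smul, hpol, hself, smul_eq_mul]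
    field_simp
    ring

end Cfsg.Agent.S0784
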