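import Cfsg.Statements.S0785
import Mathlib
import Cfsg.Agent.H5.Orth2
import Cfsg.Agent.S0784

set_option autoImplicit false
open Cfsg

namespace Cfsg.Agent.S0785

/-- det(I) = {±1}: for a quadratic form on F^n whose polar form is non-degenerate, every element of the isometry group has determinant 1 or −1, and as soon as Q takes a non-zero value some isometry has determinant −1. -/
theorem result {F : Type*} [Field F] {n : ℕ} (Q : QuadraticForm F (Fin n → F)) (hQ : (QuadraticMap.polarBilin Q).Nondegenerate) : (∀ g : ↥(Cfsg.isometryGroup F ⇑Q), ((g : Matrix.GeneralLinearGroup (Fin n) F) : Matrix (Fin n) (Fin n) F).det = 1 ∨ ((g : Matrix.GeneralLinearGroup (Fin n) F) : Matrix (Fin n) (Fin n) F).det = -1) ∧ ((∃ v, Q v ≠ 0) → ∃ g : ↥(Cfsg.isometryGroup F ⇑Q), ((g : Matrix.GeneralLinearGroup (Fin n) F) : Matrix (Fin n) (Fin n) F).det = -1) := by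
  constructor
  · intro g
    obtain ⟨M, hM⟩ : ∃ M : Matrix (Fin n) (Fin n) F,
      M = ((g : Matrix.GeneralLinearGroup (Fin n) F) : Matrix (Fin n) (Fin n) F) := ⟨_, rfl⟩
    rw [← hM]
    have hp : ∀ x y, Cfsg.Agent.H5.pB Q (M.mulVec x) (M.mulVec y) = Cfsg.Agent.H5.pB Q x y := by
      intro x y
      rw [hM]
      exact Cfsg.Agent.H5.og_p (Cfsg.Agent.H5.ogEquiv Q g) x y
    obtain ⟨G, hG⟩ : ∃ G : Matrix (Fin n) (Fin n) F, Matrix.toBilin' G = QuadraticMap.polarBilin Q :=
      ⟨LinearMap.BilinForm.toMatrix' (QuadraticMap.polarBilin Q), Matrix.toBilin'_toMatrix' _⟩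
    have hG0 : G.det ≠ 0 := by
      rw [← Matrix.nondegenerate_iff_det_ne_zero, ← Matrix.nondegenerate_toBilin'_iff, hG]
      exact hQ
    have h1 : M.transpose * G * M = G := by
      apply Matrix.ext
      intro i j
      have h2 := hp (Pi.single i 1) (Pi.single j 1)
      have h3 : ∀ x y, Cfsg.Agent.H5.pB Q x y = x ⬝ᵥ (G.mulVec y) := by
        intro x y
        show QuadraticMap.polarBilin Q x y = _
        rw [← hG, Matrix.toBilin'_apply']
      rw [h3, h3] at h2
      have h4 : (M.mulVec (Pi.single i 1)) ⬝ᵥ (G.mulVec (M.mulVec (Pi.single j 1))) =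
          (Pi.single i 1) ⬝ᵥ ((M.transpose * G * M).mulVec (Pi.single j 1)) := by
        rw [← Matrix.mulVec_mulVec, ← Matrix.mulVec_mulVec, Matrix.dotProduct_mulVec (Pi.single i 1),
          Matrix.vecMul_transpose]
      rw [h4] at h2
      simpa [Matrix.mulVec_single_one] using h2
    have h2 := congrArg Matrix.det h1
    rw [Matrix.det_mul, Matrix.det_mul, Matrix.det_transpose] at h2
    have h3 : M.det * M.det = 1 := by
      apply mul_left_cancel₀ hG0
      linear_combination h2
    exact mul_self_eq_one_iff.mp h3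
  · rintro ⟨v, hv⟩
    obtain ⟨h1, -, -, h4⟩ := Cfsg.Agent.S0784.result Q v hv
    refine ⟨⟨Matrix.GeneralLinearGroup.mkOfDetNeZero (Cfsg.reflectionMatrix ⇑Q v) (by
      rw [h4]; exact neg_ne_zero.mpr one_ne_zero), fun u _ => h1 u⟩, h4⟩

end Cfsg.Agent.S0785
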