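import Cfsg.Statements.S0786
import Mathlib
import Cfsg.Agent.H5.Orth4

set_option autoImplicit false
open Cfsg

namespace Cfsg.Agent.S0786

/-- Generation by reflections: if F is finite, Q is a quadratic form on F^n with non-degenerate polar form, and (|F|, n) ≠ (2, 4), then the isometry group of Q is generated by the reflections r_v, Q(v) ≠ 0. -/
theorem result {F : Type*} [Field F] [Fintype F] {n : ℕ} (Q : QuadraticForm F (Fin n → F)) (hQ : (QuadraticMap.polarBilin Q).Nondegenerate) (h : Fintype.card F ≠ 2 ∨ n ≠ 4) : Subgroup.closure {g : ↥(Cfsg.isometryGroup F ⇑Q) | ∃ v : Fin n → F, Q v ≠ 0 ∧ ((g : Matrix.GeneralLinearGroup (Fin n) F) : Matrix (Fin n) (Fin n) F) = Cfsg.reflectionMatrix ⇑Q v} = ⊤ := by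
  classical
  have hnd := Cfsg.Agent.H5.nd_of hQ
  have hrg : Cfsg.Agent.H5.RG Q = ⊤ := Cfsg.Agent.H5.rg_top hnd (by
    rw [Module.finrank_fin_fun]
    exact Cfsg.Agent.H5.card_ne_two_of h)
  rw [Cfsg.Agent.H5.closure_comap_equiv (Cfsg.Agent.H5.ogEquiv Q) _
    {g | ∃ (v : Fin n → F) (hv : Q v ≠ 0), g = Cfsg.Agent.H5.refl hv}]
  · show (Cfsg.Agent.H5.RG Q).comap _ = ⊤
    rw [hrg, Subgroup.comap_top]
  · intro g
    constructor
    · rintro ⟨v, hv, h⟩
      exact ⟨v, hv, (Cfsg.Agent.H5.ogEquiv_eq_refl hv g).mpr h⟩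
    · rintro ⟨v, hv, h⟩
      exact ⟨v, hv, (Cfsg.Agent.H5.ogEquiv_eq_refl hv g).mp h⟩

end Cfsg.Agent.S0786
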