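import Cfsg.Statements.S0787
import Mathlib
import Cfsg.Agent.H5.OrthIndex2

set_option autoImplicit false
open Cfsg

namespace Cfsg.Agent.S0787

/-- Existence and uniqueness of Ω: if F is finite, n ≥ 2, Q is a quadratic form on F^n with non-degenerate polar form and (|F|, n) ≠ (2, 4), then the group of isometries of determinant one has a unique subgroup of index 2. -/
theorem result {F : Type*} [Field F] [Fintype F] {n : ℕ} (hn : 2 ≤ n) (Q : QuadraticForm F (Fin n → F)) (hQ : (QuadraticMap.polarBilin Q).Nondegenerate) (h : Fintype.card F ≠ 2 ∨ n ≠ 4) : ∃! H : Subgroup ↥(Cfsg.specialIsometryGroup F ⇑Q), H.index = 2 := by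
  classical
  have hnd := Cfsg.Agent.H5.nd_of hQ
  have hex := Cfsg.Agent.H5.card_ne_two_of h
  have hfr : Module.finrank F (Fin n → F) = n := Module.finrank_fin_fun F
  have hrg : Cfsg.Agent.H5.RG Q = ⊤ := Cfsg.Agent.H5.rg_top hnd (by rw [hfr]; exact hex)
  haveI : (Cfsg.specialIsometryGroup F ⇑Q).Normal := by
    unfold Cfsg.specialIsometryGroup
    infer_instance
  let e := Cfsg.Agent.H5.ogEquiv Q
  let T : Set (Cfsg.Agent.H5.OG Q) := {g | ∃ (v : Fin n → F) (hv : Q v ≠ 0), g = Cfsg.Agent.H5.refl hv}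
  apply Cfsg.Agent.H5.unique_idx2 (Cfsg.specialIsometryGroup F ⇑Q) (e ⁻¹' T)
  · rw [Cfsg.Agent.H5.closure_comap_equiv e (e ⁻¹' T) T (fun g => Iff.rfl)]
    show (Cfsg.Agent.H5.RG Q).comap _ = ⊤
    rw [hrg, Subgroup.comap_top]
  · rintro r ⟨u, hu, hr⟩ s ⟨v, hv, hs⟩
    rw [Cfsg.Agent.H5.mem_SO_iff]
    change Cfsg.Agent.H5.odet Q (e (r * s)) = 1
    rw [map_mul, hr, hs, map_mul, Cfsg.Agent.H5.odet_refl, Cfsg.Agent.H5.odet_refl]
    ring
  · rintro r ⟨u, hu, hr⟩
    apply e.injective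
    rw [map_mul, hr, Cfsg.Agent.H5.refl_mul_self, map_one]
  · have hC : (commutator ↥(Cfsg.isometryGroup F ⇑Q)) ≤ Cfsg.specialIsometryGroup F ⇑Q := by
      unfold Cfsg.specialIsometryGroup
      exact Abelianization.commutator_subset_ker _
    have h1 := Subgroup.relIndex_mul_index hC
    rw [Cfsg.Agent.H5.comm_index_equiv e] at h1
    have hSO : Cfsg.specialIsometryGroup F ⇑Q = ((Cfsg.Agent.H5.odet Q).ker).comap (e : _ →* _) := by
      ext g
      rw [Cfsg.Agent.H5.mem_SO_iff]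
      rfl
    have hSOi : (Cfsg.specialIsometryGroup F ⇑Q).index = ((Cfsg.Agent.H5.odet Q).ker).index := by
      rw [hSO]
      exact Subgroup.index_comap_of_surjective _ e.surjective
    rw [hSOi] at h1
    by_cases h2 : (2 : F) = 0
    · rw [Cfsg.Agent.H5.comm_index_even h2 hnd (by rw [hfr]; omega) (by rw [hfr]; exact hex)] at h1
      have : (Cfsg.Agent.H5.odet Q).ker = ⊤ := by
        rw [eq_top_iff, ← hrg, Cfsg.Agent.H5.RG, Subgroup.closure_le]
        rintro _ ⟨v, hv, rfl⟩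
        rw [SetLike.mem_coe, MonoidHom.mem_ker, Cfsg.Agent.H5.odet_refl]
        linear_combination -h2
      rw [this, Subgroup.index_top, mul_one] at h1
      exact h1
    · rw [Cfsg.Agent.H5.comm_index_odd h2 hnd (by rw [hfr]; exact hn)] at h1
      obtain ⟨v, hv⟩ := Cfsg.Agent.H5.exists_ne_q hnd (by rw [hfr]; omega)
      have : (Cfsg.Agent.H5.odet Q).ker = Cfsg.Agent.H5.DG Q := by
        ext g
        rw [Cfsg.Agent.H5.mem_dg_iff h2 hnd, MonoidHom.mem_ker]
      rw [this, Cfsg.Agent.H5.dg_index hnd hrg hv] at h1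
      omega

end Cfsg.Agent.S0787
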