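import Cfsg.Statements.S0792
import Mathlib
import Cfsg.Agent.H5.Orth4

set_option autoImplicit false
open Cfsg

namespace Cfsg.Agent.S0792

/-- For q odd and Q with non-degenerate polar form on F^n, the determinant-one isometries form the subgroup generated by all products r_u r_v of two reflections (Q(u), Q(v) ≠ 0). -/
theorem result {F : Type*} [Field F] [Fintype F] (h2 : (2 : F) ≠ 0) {n : ℕ} (Q : QuadraticForm F (Fin n → F)) (hQ : (QuadraticMap.polarBilin Q).Nondegenerate) : Cfsg.specialIsometryGroup F ⇑Q = Subgroup.closure {g : ↥(Cfsg.isometryGroup F ⇑Q) | ∃ u v : Fin n → F, Q u ≠ 0 ∧ Q v ≠ 0 ∧ ((g : Matrix.GeneralLinearGroup (Fin n) F) : Matrix (Fin n) (Fin n) F) = Cfsg.reflectionMatrix ⇑Q u * Cfsg.reflectionMatrix ⇑Q v} := by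
  classical
  have hnd := Cfsg.Agent.H5.nd_of hQ
  ext g
  rw [Cfsg.Agent.H5.mem_SO_iff, ← Cfsg.Agent.H5.mem_dg_iff h2 hnd,
    Cfsg.Agent.H5.mem_closure_equiv (Cfsg.Agent.H5.ogEquiv Q) _
    {g | ∃ (u v : Fin n → F) (hu : Q u ≠ 0) (hv : Q v ≠ 0), g = Cfsg.Agent.H5.refl hu * Cfsg.Agent.H5.refl hv}]
  · rfl
  · intro g
    constructor
    · rintro ⟨u, v, hu, hv, h⟩
      refine ⟨u, v, hu, hv, ?_⟩
      apply Cfsg.Agent.H5.og_ext
      intro x
      rw [Cfsg.Agent.H5.ogEquiv_apply, h, ← Matrix.mulVec_mulVec, Cfsg.Agent.H5.reflectionMatrix_mulVec,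
        Cfsg.Agent.H5.reflectionMatrix_mulVec, Cfsg.Agent.H5.og_mul, Cfsg.Agent.H5.refl_apply,
        Cfsg.Agent.H5.refl_apply]
    · rintro ⟨u, v, hu, hv, h⟩
      refine ⟨u, v, hu, hv, ?_⟩
      apply Matrix.ext_of_mulVec_single
      intro i
      rw [← Matrix.mulVec_mulVec, Cfsg.Agent.H5.reflectionMatrix_mulVec,
        Cfsg.Agent.H5.reflectionMatrix_mulVec, ← Cfsg.Agent.H5.ogEquiv_apply, h, Cfsg.Agent.H5.og_mul,
        Cfsg.Agent.H5.refl_apply, Cfsg.Agent.H5.refl_apply]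

end Cfsg.Agent.S0792
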