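import Cfsg.Statements.S0793
import Mathlib

set_option autoImplicit false
open Cfsg

namespace Cfsg.Agent.S0793

/-- Root elements: if Q(u) = Q(v) = 0 and f(u, v) = 0 (f the polar form), then for every c the Siegel matrix T_(u,v)(c) preserves Q, fixes u and v, and T(c) T(d) = T(c + d). -/
theorem result {F : Type*} [Field F] {n : ℕ} (Q : QuadraticForm F (Fin n → F)) (u v : Fin n → F) (hu : Q u = 0) (hv : Q v = 0) (huv : QuadraticMap.polar ⇑Q u v = 0) : (∀ c x, Q ((Cfsg.siegelMatrix ⇑Q u v c).mulVec x) = Q x) ∧ (∀ c, (Cfsg.siegelMatrix ⇑Q u v c).mulVec u = u ∧ (Cfsg.siegelMatrix ⇑Q u v c).mulVec v = v) ∧ ∀ c d, Cfsg.siegelMatrix ⇑Q u v c * Cfsg.siegelMatrix ⇑Q u v d = Cfsg.siegelMatrix ⇑Q u v (c + d) := by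
  have hpol : ∀ v x : Fin n → F, (Cfsg.polarVec (⇑Q) v) ⬝ᵥ x = QuadraticMap.polar (⇑Q) v x := by
    intro v x
    have h1 : QuadraticMap.polar (⇑Q) v x = QuadraticMap.polarBilin Q v x := rfl
    rw [h1]
    conv_rhs => rw [← Finset.univ_sum_single x]
    rw [map_sum, dotProduct]
    apply Finset.sum_congr rfl
    intro i _
    have : (Pi.single i (x i) : Fin n → F) = x i • Pi.single i (1 : F) := by
      rw [← Pi.single_smul, smul_eq_mul, mul_one]
    rw [this, map_smul, smul_eq_mul, mul_comm]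
    rfl
  have hmul : ∀ (c : F) x, (Cfsg.siegelMatrix (⇑Q) u v c).mulVec x =
      x + c • ((QuadraticMap.polar (⇑Q) u x) • v - (QuadraticMap.polar (⇑Q) v x) • u) := by
    intro c x
    unfold Cfsg.siegelMatrix
    rw [Matrix.add_mulVec, Matrix.one_mulVec, Matrix.smul_mulVec, Matrix.sub_mulVec,
      Matrix.vecMulVec_mulVec, Matrix.vecMulVec_mulVec, hpol, hpol]
    simp
  have huu : QuadraticMap.polar (⇑Q) u u = 0 := by rw [QuadraticMap.polar_self, hu, smul_zero]
  have hvv : QuadraticMap.polar (⇑Q) v v = 0 := by rw [QuadraticMap.polar_self, hv, smul_zero]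
  have hvu : QuadraticMap.polar (⇑Q) v u = 0 := by rw [QuadraticMap.polar_comm, huv]
  refine ⟨?_, ?_, ?_⟩
  · intro c x
    rw [hmul]
    have h1 : Q (c • ((QuadraticMap.polar (⇑Q) u x) • v - (QuadraticMap.polar (⇑Q) v x) • u)) = 0 := by
      rw [QuadraticMap.map_smul, sub_eq_add_neg, QuadraticMap.map_add (⇑Q), QuadraticMap.map_neg,
        QuadraticMap.map_smul, QuadraticMap.map_smul, hu, hv, QuadraticMap.polar_neg_right,
        QuadraticMap.polar_smul_right, QuadraticMap.polar_smul_left, hvu]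
      simp
    rw [QuadraticMap.map_add (⇑Q), h1, QuadraticMap.polar_smul_right, sub_eq_add_neg,
      QuadraticMap.polar_add_right, QuadraticMap.polar_neg_right, QuadraticMap.polar_smul_right,
      QuadraticMap.polar_smul_right, QuadraticMap.polar_comm (⇑Q) x v, QuadraticMap.polar_comm (⇑Q) x u]
    simp only [smul_eq_mul]
    ring
  · intro c
    rw [hmul, hmul, huu, hvu, huv, hvv]
    simp
  · intro c d
    apply Matrix.ext_of_mulVec_single
    intro i
    rw [← Matrix.mulVec_mulVec, hmul, hmul, hmul]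
    set x : Fin n → F := Pi.single i 1
    have e1 : QuadraticMap.polar (⇑Q) u (x + d • ((QuadraticMap.polar (⇑Q) u x) • v - (QuadraticMap.polar (⇑Q) v x) • u)) = QuadraticMap.polar (⇑Q) u x := by
      rw [QuadraticMap.polar_add_right, QuadraticMap.polar_smul_right, sub_eq_add_neg,
      QuadraticMap.polar_add_right, QuadraticMap.polar_neg_right, QuadraticMap.polar_smul_right,
      QuadraticMap.polar_smul_right, huu, huv]
      simp
    have e2 : QuadraticMap.polar (⇑Q) v (x + d • ((QuadraticMap.polar (⇑Q) u x) • v - (QuadraticMap.polar (⇑Q) v x) • u)) = QuadraticMap.polar (⇑Q) v x := by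
      rw [QuadraticMap.polar_add_right, QuadraticMap.polar_smul_right, sub_eq_add_neg,
      QuadraticMap.polar_add_right, QuadraticMap.polar_neg_right, QuadraticMap.polar_smul_right,
      QuadraticMap.polar_smul_right, hvu, hvv]
      simp
    rw [e1, e2, add_smul]
    abel

end Cfsg.Agent.S0793
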