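import Cfsg.Statements.S0794
import Mathlib
import Cfsg.Agent.H5.Orth2

set_option autoImplicit false
open Cfsg

namespace Cfsg.Agent.S0794

/-- For q odd, n ≥ 5 and Q with non-degenerate polar form: an isometry whose matrix is a Siegel transformation T_(u,v)(c) (u, v singular and orthogonal) is a commutator in the isometry group, so lies in Ω. -/
theorem result {F : Type*} [Field F] [Fintype F] (h2 : (2 : F) ≠ 0) {n : ℕ} (hn : 5 ≤ n) (Q : QuadraticForm F (Fin n → F)) (hQ : (QuadraticMap.polarBilin Q).Nondegenerate) (u v : Fin n → F) (hu : Q u = 0) (hv : Q v = 0) (huv : QuadraticMap.polar ⇑Q u v = 0) (c : F) (g : ↥(Cfsg.isometryGroup F ⇑Q)) (hg : ((g : Matrix.GeneralLinearGroup (Fin n) F) : Matrix (Fin n) (Fin n) F) = Cfsg.siegelMatrix ⇑Q u v c) : g ∈ commutatorSet ↥(Cfsg.isometryGroup F ⇑Q) ∧ g ∈ Cfsg.Omega F ⇑Q := by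
  have hnd := Cfsg.Agent.H5.nd_of hQ
  have key : g ∈ commutatorSet ↥(Cfsg.isometryGroup F ⇑Q) := by
    have hp : Cfsg.Agent.H5.pB Q u v = 0 := huv
    have hpc : ∀ c : F, Cfsg.Agent.H5.pB Q u (c • v) = 0 := by
      intro c; rw [Cfsg.Agent.H5.pr_smul, hp, mul_zero]
    by_cases hli : LinearIndependent F ![u, v]
    · have hnu : Q (-u) = Q u := Cfsg.Agent.H5.q_neg Q u
      have hli' : LinearIndependent F ![-u, v] := by
        rw [LinearIndependent.pair_iff] at hli ⊢
        intro s t hst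
        have := hli (-s) t (by rw [neg_smul, ← smul_neg]; exact hst)
        exact ⟨neg_eq_zero.mp this.1, this.2⟩
      obtain ⟨h, hhu, hhv⟩ := Cfsg.Agent.H5.og_witt2 hnd hli hli' hnu rfl (by
        rw [Cfsg.Agent.H5.pl_neg, hp, neg_zero])
      obtain ⟨d, hd⟩ : ∃ d : F, d = -c / 2 := ⟨_, rfl⟩
      obtain ⟨T, hT⟩ : ∃ T : Cfsg.Agent.H5.OG Q, T = Cfsg.Agent.H5.eich hu (hpc d) := ⟨_, rfl⟩
      refine ⟨(Cfsg.Agent.H5.ogEquiv Q).symm h, (Cfsg.Agent.H5.ogEquiv Q).symm T, ?_⟩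
      apply (Cfsg.Agent.H5.ogEquiv Q).injective
      rw [commutatorElement_def, map_mul, map_mul, map_mul, map_inv, map_inv,
        MulEquiv.apply_symm_apply, MulEquiv.apply_symm_apply, mul_inv_eq_iff_eq_mul,
        mul_inv_eq_iff_eq_mul]
      have hg' := (Cfsg.Agent.H5.ogEquiv_eq_siegel hu hv hp c (hpc c) g).mpr hg
      rw [hg']
      apply Cfsg.Agent.H5.og_ext
      intro x
      have hux : Cfsg.Agent.H5.pB Q u x = -Cfsg.Agent.H5.pB Q u (h x) := by
        rw [← Cfsg.Agent.H5.og_p h u x, hhu, Cfsg.Agent.H5.pl_neg]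
      have hvx : Cfsg.Agent.H5.pB Q v x = Cfsg.Agent.H5.pB Q v (h x) := by
        rw [← Cfsg.Agent.H5.og_p h v x, hhv]
      have huu : Cfsg.Agent.H5.pB Q u u = 0 := by rw [Cfsg.Agent.H5.pB_self, hu, mul_zero]
      have hvv : Cfsg.Agent.H5.pB Q v v = 0 := by rw [Cfsg.Agent.H5.pB_self, hv, mul_zero]
      have hvu : Cfsg.Agent.H5.pB Q v u = 0 := by rw [Cfsg.Agent.H5.pB_symm, hp]
      have hcd : c = -(d + d) := by rw [hd]; field_simp; ring
      rw [hcd]
      simp only [Cfsg.Agent.H5.og_mul, hT, Cfsg.Agent.H5.eich_apply, Cfsg.Agent.H5.og_add,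
        Cfsg.Agent.H5.og_sub, Cfsg.Agent.H5.og_smul, hhu, hhv, Cfsg.Agent.H5.q_smul, hv,
        Cfsg.Agent.H5.pr_add, Cfsg.Agent.H5.pr_sub, Cfsg.Agent.H5.pr_smul, Cfsg.Agent.H5.pl_smul,
        huu, hvv, hp, hvu, hux, hvx]
      module
    · -- dependent: g = 1
      have hg1 : g = 1 := by
        apply Cfsg.Agent.H5.isoGroup_ext
        intro x
        rw [hg, Cfsg.Agent.H5.siegelMatrix_mulVec]
        show _ = (1 : Matrix (Fin n) (Fin n) F).mulVec x
        rw [Matrix.one_mulVec]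
        by_cases hu0 : u = 0
        · rw [hu0, map_zero, LinearMap.zero_apply]; simp
        · rw [LinearIndependent.pair_iff' hu0] at hli
          push Not at hli
          obtain ⟨a, ha⟩ := hli
          rw [← ha, Cfsg.Agent.H5.pl_smul]
          module
      rw [hg1]
      exact ⟨1, 1, by simp⟩
  refine ⟨key, ?_⟩
  show g ∈ commutator _
  rw [commutator_eq_closure]
  exact Subgroup.subset_closure key

end Cfsg.Agent.S0794
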