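import Cfsg.Statements.S0795
import Mathlib
import Cfsg.Agent.H5.OmegaGen2

set_option autoImplicit false
open Cfsg

namespace Cfsg.Agent.S0795

/-- Generation of Ω by root elements: for q odd, n ≥ 5 and Q with non-degenerate polar form on F^n, the commutator subgroup of the isometry group equals the subgroup generated by the isometries whose matrices are Siegel transformations T_(u,v)(c) with u, v singular and orthogonal. -/
theorem result {F : Type*} [Field F] [Fintype F] (h2 : (2 : F) ≠ 0) {n : ℕ} (hn : 5 ≤ n) (Q : QuadraticForm F (Fin n → F)) (hQ : (QuadraticMap.polarBilin Q).Nondegenerate) : Cfsg.Omega F ⇑Q = Subgroup.closure {g : ↥(Cfsg.isometryGroup F ⇑Q) | ∃ (u v : Fin n → F) (c : F), Q u = 0 ∧ Q v = 0 ∧ QuadraticMap.polar ⇑Q u v = 0 ∧ ((g : Matrix.GeneralLinearGroup (Fin n) F) : Matrix (Fin n) (Fin n) F) = Cfsg.siegelMatrix ⇑Q u v c} := by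
  classical
  have hnd := Cfsg.Agent.H5.nd_of hQ
  have hn' : 5 ≤ Module.finrank F (Fin n → F) := by rw [Module.finrank_fin_fun]; exact hn
  ext g
  rw [Cfsg.Agent.H5.mem_closure_equiv (Cfsg.Agent.H5.ogEquiv Q) _
    {g | ∃ (u w : Fin n → F) (hu : Q u = 0) (_ : Q w = 0) (huw : Cfsg.Agent.H5.pB Q u w = 0), g = Cfsg.Agent.H5.eich hu huw}]
  · change g ∈ commutator _ ↔ Cfsg.Agent.H5.ogEquiv Q g ∈ Cfsg.Agent.H5.E0G Q
    rw [Cfsg.Agent.H5.mem_comm_equiv (Cfsg.Agent.H5.ogEquiv Q), Cfsg.Agent.H5.e0_eq_comm hnd hn']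
  · intro g
    constructor
    · rintro ⟨u, v, c, hu, hv, huv, h⟩
      have hc : Cfsg.Agent.H5.pB Q u (c • v) = 0 := by
        rw [Cfsg.Agent.H5.pr_smul]
        exact mul_eq_zero_of_right _ huv
      exact ⟨u, c • v, hu, by rw [Cfsg.Agent.H5.q_smul, hv, mul_zero], hc,
        (Cfsg.Agent.H5.ogEquiv_eq_siegel hu hv huv c hc g).mpr h⟩
    · rintro ⟨u, w, hu, hw, huw, h⟩
      have hc : Cfsg.Agent.H5.pB Q u ((1 : F) • w) = 0 := by rw [one_smul]; exact huw
      refine ⟨u, w, 1, hu, hw, huw, (Cfsg.Agent.H5.ogEquiv_eq_siegel hu hw huw 1 hc g).mp ?_⟩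
      rw [h]
      congr 1
      rw [one_smul]

end Cfsg.Agent.S0795
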