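import Cfsg.Statements.S0796
import Mathlib

set_option autoImplicit false
open Cfsg

namespace Cfsg.Agent.S0796

/-- If G is finite and acts faithfully and primitively on X, H is the stabiliser of a point, A is a normal subgroup of H whose normal closure in G is G, then for every non-trivial normal subgroup K of G the quotient G ⧸ K is isomorphic to A ⧸ B for some normal subgroup B of A. -/
theorem result {G X : Type*} [Group G] [Finite G] [MulAction G X] [FaithfulSMul G X] (hprim : MulAction.IsPreprimitive G X) (x : X) (A : Subgroup G) (hA : A ≤ MulAction.stabilizer G x) (hAn : (A.subgroupOf (MulAction.stabilizer G x)).Normal) (hgen : Subgroup.normalClosure (A : Set G) = ⊤) (K : Subgroup G) [K.Normal] (hK : K ≠ ⊥) : ∃ (B : Subgroup A) (_ : B.Normal), Nonempty (G ⧸ K ≃* A ⧸ B) := by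
  -- K transitive; G = K * stabilizer ; G = K A
  have hfix : MulAction.fixedPoints K X ≠ Set.univ := by
    intro h
    apply hK
    rw [eq_bot_iff]
    intro k hk
    rw [Subgroup.mem_bot]
    apply FaithfulSMul.eq_of_smul_eq_smul (α := X)
    intro y
    rw [one_smul]
    have : y ∈ MulAction.fixedPoints K X := by rw [h]; exact Set.mem_univ _
    exact this ⟨k, hk⟩
  have htr : MulAction.IsPretransitive K X := by
    have : MulAction.IsQuasiPreprimitive G X := inferInstance
    exact MulAction.IsQuasiPreprimitive.isPretransitive_of_normal hfix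
  -- K ⊔ A = ⊤
  have hKA : K ⊔ A = ⊤ := by
    rw [eq_top_iff, ← hgen]
    -- K ⊔ A is normal
    have hnorm : (K ⊔ A).Normal := by
      refine ⟨fun a ha g => ?_⟩
      -- g = k * h
      obtain ⟨k, hk⟩ := MulAction.exists_smul_eq K x (g • x)
      have hh : (k : G)⁻¹ * g ∈ MulAction.stabilizer G x := by
        rw [MulAction.mem_stabilizer_iff, mul_smul, ← hk]
        show (k : G)⁻¹ • ((k : G) • x) = x
        rw [inv_smul_smul]
      set s := (k : G)⁻¹ * g with hs
      have hg : g = k * s := by rw [hs, mul_inv_cancel_left]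
      -- conj by s preserves K ⊔ A
      have h1 : s * a * s⁻¹ ∈ K ⊔ A := by
        have h2 : (K ⊔ A).map (MulAut.conj s).toMonoidHom ≤ K ⊔ A := by
          rw [Subgroup.map_sup]
          refine sup_le_sup ?_ ?_
          · rintro _ ⟨y, hy, rfl⟩
            exact (inferInstance : K.Normal).conj_mem y hy s
          · rintro _ ⟨y, hy, rfl⟩
            have := hAn.conj_mem ⟨y, hA hy⟩ (by simpa [Subgroup.mem_subgroupOf] using hy) ⟨s, hh⟩
            simpa [Subgroup.mem_subgroupOf] using this
        exact h2 ⟨a, ha, rfl⟩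
      have h3 : g * a * g⁻¹ = k * (s * a * s⁻¹) * (k : G)⁻¹ := by rw [hg]; group
      rw [h3]
      have hkm : (k : G) ∈ K ⊔ A := Subgroup.mem_sup_left k.2
      exact mul_mem (mul_mem hkm h1) (inv_mem hkm)
    exact Subgroup.normalClosure_le_normal (le_sup_right : A ≤ K ⊔ A)
  refine ⟨K.subgroupOf A, inferInstance, ⟨?_⟩⟩
  have e := QuotientGroup.quotientInfEquivProdNormalQuotient A K
  have e2 : (A ⊔ K : Subgroup G) = ⊤ := by rw [sup_comm]; exact hKA
  have e3 : (↥(A ⊔ K) ⧸ K.subgroupOf (A ⊔ K)) ≃* G ⧸ K := by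
    have hker : ((QuotientGroup.mk' K).comp (A ⊔ K).subtype).ker = K.subgroupOf (A ⊔ K) := by
      ext y; simp [Subgroup.mem_subgroupOf, MonoidHom.mem_ker]
    refine (QuotientGroup.quotientMulEquivOfEq hker.symm).trans
      (QuotientGroup.quotientKerEquivOfSurjective
      ((QuotientGroup.mk' K).comp (A ⊔ K).subtype) ?_)
    intro y
    obtain ⟨g, rfl⟩ := QuotientGroup.mk_surjective y
    exact ⟨⟨g, by rw [e2]; exact Subgroup.mem_top g⟩, rfl⟩
  exact (e.trans e3).symm

end Cfsg.Agent.S0796
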