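import Cfsg.Statements.S0797
import Mathlib
import Cfsg.Agent.H5.OrthIndex2

set_option autoImplicit false
open Cfsg

namespace Cfsg.Agent.S0797

/-- O^ε_2m(q) ≅ Ω.2² for q odd: if F is finite of odd characteristic, n ≥ 2 is even and Q has non-degenerate polar form on F^n, the isometry group of Q has exactly three subgroups of index 2. -/
theorem result {F : Type*} [Field F] [Fintype F] (h2 : (2 : F) ≠ 0) {n : ℕ} (hn : 2 ≤ n) (heven : Even n) (Q : QuadraticForm F (Fin n → F)) (hQ : (QuadraticMap.polarBilin Q).Nondegenerate) : Nat.card {H : Subgroup ↥(Cfsg.isometryGroup F ⇑Q) // H.index = 2} = 3 := by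
  classical
  have hnd := Cfsg.Agent.H5.nd_of hQ
  rw [Cfsg.Agent.H5.card_idx2_equiv (Cfsg.Agent.H5.ogEquiv Q)]
  have hn' : 2 ≤ Module.finrank F (Fin n → F) := by rw [Module.finrank_fin_fun]; exact hn
  obtain ⟨d, u0, v0, hd, hu0, hv0⟩ := Cfsg.Agent.H5.exists_two h2 hnd hn'
  have hd0 : d ≠ 0 := by rintro rfl; exact hd IsSquare.zero
  have hu0' : Q u0 ≠ 0 := by rw [hu0]; exact one_ne_zero
  have hv0' : Q v0 ≠ 0 := by rw [hv0]; exact hd0
  obtain ⟨p1, p2, p3, p4⟩ := Cfsg.Agent.H5.psi_vals h2 hd hu0' hv0' hu0 hv0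
  exact Cfsg.Agent.H5.three_idx2 (Cfsg.Agent.H5.psi Q 1) (Cfsg.Agent.H5.psi Q d)
    (fun g h1 h3 => (Cfsg.Agent.H5.mem_comm_iff h2 hnd hn' hd g).mpr ⟨h1, h3⟩)
    (Cfsg.Agent.H5.refl hu0') (Cfsg.Agent.H5.refl hv0') p1 p3 p2 p4

end Cfsg.Agent.S0797
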