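import Cfsg.Statements.S0798
import Mathlib
import Cfsg.Agent.H5.OrthClass

set_option autoImplicit false
open Cfsg

namespace Cfsg.Agent.S0798

/-- For q odd, n ≥ 2 even, Q with non-degenerate polar form (n, |F|) ≠ (4, 3), and a fixed c ≠ 0: the subgroup of the isometry group generated by the reflections r_v with Q(v) ∈ c·(F^×)² has index 2. -/
theorem result {F : Type*} [Field F] [Fintype F] (h2 : (2 : F) ≠ 0) {n : ℕ} (hn : 2 ≤ n) (heven : Even n) (Q : QuadraticForm F (Fin n → F)) (hQ : (QuadraticMap.polarBilin Q).Nondegenerate) (h43 : ¬ (n = 4 ∧ Fintype.card F = 3)) (c : F) (hc : c ≠ 0) : (Subgroup.closure {g : ↥(Cfsg.isometryGroup F ⇑Q) | ∃ (v : Fin n → F) (t : F), t ≠ 0 ∧ Q v = c * t ^ 2 ∧ ((g : Matrix.GeneralLinearGroup (Fin n) F) : Matrix (Fin n) (Fin n) F) = Cfsg.reflectionMatrix ⇑Q v}).index = 2 := by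
  classical
  have hnd := Cfsg.Agent.H5.nd_of hQ
  have hfr : Module.finrank F (Fin n → F) = n := Module.finrank_fin_fun F
  have hcard : Fintype.card F % 2 = 1 := Cfsg.Agent.H5.odd_card h2
  have hc1 := Fintype.one_lt_card (α := F)
  rw [Cfsg.Agent.H5.closure_comap_equiv (Cfsg.Agent.H5.ogEquiv Q) _
    {g | ∃ (v : Fin n → F) (hv : Q v ≠ 0) (t : F), t ≠ 0 ∧ Q v = c * t ^ 2 ∧ g = Cfsg.Agent.H5.refl hv}]
  · show ((Cfsg.Agent.H5.KG Q c).comap _).index = 2
    rw [Subgroup.index_comap_of_surjective _ (Cfsg.Agent.H5.ogEquiv Q).surjective]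
    apply Cfsg.Agent.H5.kg_index h2 hnd (by rw [hfr]; exact hn) hc
    intro x y hx hy hxy
    by_cases h : n = 2
    · exact Cfsg.Agent.H5.pair_mem_small h2 hnd (by rw [hfr]; exact h) hc hx hy hxy
    · have h4 : 4 ≤ n := by
        obtain ⟨k, hk⟩ := heven
        omega
      apply Cfsg.Agent.H5.pair_mem_big h2 hnd (by rw [hfr]; exact h4) hc _ hx hy hxy
      rw [hfr, Nat.card_eq_fintype_card]
      intro hn4
      have : Fintype.card F ≠ 3 := fun h => h43 ⟨hn4, h⟩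
      omega
  · intro g
    constructor
    · rintro ⟨v, t, ht, hv, h⟩
      have hv' : Q v ≠ 0 := by rw [hv]; exact mul_ne_zero hc (pow_ne_zero _ ht)
      exact ⟨v, hv', t, ht, hv, (Cfsg.Agent.H5.ogEquiv_eq_refl hv' g).mpr h⟩
    · rintro ⟨v, hv', t, ht, hv, h⟩
      exact ⟨v, t, ht, hv, (Cfsg.Agent.H5.ogEquiv_eq_refl hv' g).mp h⟩

end Cfsg.Agent.S0798
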