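import Cfsg.Statements.S0808
import Mathlib
import Cfsg.Agent.H5.KleinPSL

set_option autoImplicit false
open Cfsg

namespace Cfsg.Agent.S0808

/-- Conjugacy classes of four-groups in PSL_2(q), q odd: if q ≡ 3 or 5 (mod 8) all Klein four-subgroups are conjugate; if q ≡ 1 or 7 (mod 8) there are two Klein four-subgroups which are not conjugate, and every Klein four-subgroup is conjugate to one of them. -/
theorem result {F : Type*} [Field F] [Fintype F] {q : ℕ} (hF : Fintype.card F = q) (hodd : Odd q) : ((q % 8 = 3 ∨ q % 8 = 5) → ∀ V W : Subgroup (Matrix.ProjectiveSpecialLinearGroup (Fin 2) F), IsKleinFour V → IsKleinFour W → ∃ g : Matrix.ProjectiveSpecialLinearGroup (Fin 2) F, W = V.map (MulAut.conj g).toMonoidHom) ∧ ((q % 8 = 1 ∨ q % 8 = 7) → ∃ V₁ V₂ : Subgroup (Matrix.ProjectiveSpecialLinearGroup (Fin 2) F), IsKleinFour V₁ ∧ IsKleinFour V₂ ∧ (¬ ∃ g : Matrix.ProjectiveSpecialLinearGroup (Fin 2) F, V₂ = V₁.map (MulAut.conj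 g).toMonoidHom) ∧ ∀ W : Subgroup (Matrix.ProjectiveSpecialLinearGroup (Fin 2) F), IsKleinFour W → (∃ g : Matrix.ProjectiveSpecialLinearGroup (Fin 2) F, W = V₁.map (MulAut.conj g).toMonoidHom) ∨ (∃ g : Matrix.ProjectiveSpecialLinearGroup (Fin 2) F, W = V₂.map (MulAut.conj g).toMonoidHom)) := by
  have h2 := Cfsg.Agent.H5.two_ne_zero_of_odd (F := F) (by rw [hF]; exact hodd)
  have hall := Cfsg.Agent.H5.psl_klein_count h2
  have hcent := Cfsg.Agent.H5.psl_klein_cent h2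
  have hcard := Cfsg.Agent.H5.card_PSL2 hF
  have hq1 : 1 < q := hF ▸ Fintype.one_lt_card
  have hg : Nat.gcd 2 (q - 1) = 2 := by
    rw [Nat.gcd_eq_left_iff_dvd]
    obtain ⟨k, hk⟩ := hodd
    rw [hk]; simp
  rw [hg] at hcard
  refine ⟨?_, ?_⟩
  · intro hq V W hV hW
    apply Cfsg.Agent.H5.conj_of_not_24 hall hcent _ hV hW
    intro h24
    have h8 : 8 ∣ Nat.card (Matrix.ProjectiveSpecialLinearGroup (Fin 2) F) := (by norm_num : (8 : ℕ) ∣ 24).trans h24
    obtain ⟨c, hc⟩ := h8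
    have hsq : ∃ m, q ^ 2 - 1 = 8 * m ∧ m % 2 = 1 := by
      obtain ⟨k, hk⟩ : ∃ k, q = 8 * k + 3 ∨ q = 8 * k + 5 := ⟨q / 8, by omega⟩
      rcases hk with hk | hk
      · refine ⟨8 * k ^ 2 + 6 * k + 1, ?_, by omega⟩
        rw [hk]
        have : (8 * k + 3) ^ 2 = 8 * (8 * k ^ 2 + 6 * k + 1) + 1 := by ring
        omega
      · refine ⟨8 * k ^ 2 + 10 * k + 3, ?_, by omega⟩
        rw [hk]
        have : (8 * k + 5) ^ 2 = 8 * (8 * k ^ 2 + 10 * k + 3) + 1 := by ring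
        omega
    obtain ⟨m, hm, hm2⟩ := hsq
    rw [hc, hm] at hcard
    have h5 : q * m = 2 * c := by
      have : q * (8 * m) = 8 * (q * m) := by ring
      omega
    have h6 : (q * m) % 2 = 1 := by
      rw [Nat.mul_mod, hm2]
      obtain ⟨k, hk⟩ := hodd
      have : q % 2 = 1 := by omega
      rw [this]
    omega
  · intro hq
    apply Cfsg.Agent.H5.two_classes hall hcent
    have hsq : ∃ m, q ^ 2 - 1 = 16 * m := by
      obtain ⟨k, hk⟩ : ∃ k, q = 8 * k + 1 ∨ q = 8 * k + 7 := ⟨q / 8, by omega⟩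
      rcases hk with hk | hk
      · refine ⟨4 * k ^ 2 + k, ?_⟩
        rw [hk]
        have : (8 * k + 1) ^ 2 = 16 * (4 * k ^ 2 + k) + 1 := by ring
        omega
      · refine ⟨4 * k ^ 2 + 7 * k + 3, ?_⟩
        rw [hk]
        have : (8 * k + 7) ^ 2 = 16 * (4 * k ^ 2 + 7 * k + 3) + 1 := by ring
        omega
    obtain ⟨m, hm⟩ := hsq
    rw [hm] at hcard
    refine ⟨q * m, ?_⟩
    have : q * (16 * m) = 2 * (8 * (q * m)) := by ring
    omega

end Cfsg.Agent.S0808
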