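import Cfsg.Statements.S0809
import Mathlib
import Cfsg.Agent.H5.PSLA4

set_option autoImplicit false
open Cfsg

namespace Cfsg.Agent.S0809

/-- In SL_2(q), q odd: any two subgroups of order 4 are conjugate, and the normaliser of a subgroup of order 4 has order 2(q − 1) if q ≡ 1 (mod 4) and 2(q + 1) if q ≡ 3 (mod 4); consequently all involutions of PSL_2(q) are conjugate. -/
theorem result {F : Type*} [Field F] [Fintype F] {q : ℕ} (hF : Fintype.card F = q) (hodd : Odd q) (A : Subgroup (Matrix.SpecialLinearGroup (Fin 2) F)) (hA : Nat.card A = 4) : (∀ B : Subgroup (Matrix.SpecialLinearGroup (Fin 2) F), Nat.card B = 4 → ∃ g : Matrix.SpecialLinearGroup (Fin 2) F, B = A.map (MulAut.conj g).toMonoidHom) ∧ (q % 4 = 1 → Nat.card ↥(Subgroup.normalizer (A : Set (Matrix.SpecialLinearGroup (Fin 2) F))) = 2 * (q - 1)) ∧ (q % 4 = 3 → Nat.card ↥(Subgroup.normalizer (A : Set (Matrix.SpecialLinearGroup (Fin 2) F))) = 2 * (q + 1)) ∧ (∀ x y : Matrix.ProjectiveSpecialLinearGroup (Fin 2) F, orderOf x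 = 2 → orderOf y = 2 → IsConj x y) := by
  classical
  have h2 := Cfsg.Agent.H5.two_ne_zero_of_odd (F := F) (by rw [hF]; exact hodd)
  have key : ∀ B : Subgroup (Matrix.SpecialLinearGroup (Fin 2) F), Nat.card B = 4 →
      ∃ b : Matrix.SpecialLinearGroup (Fin 2) F, B = Subgroup.zpowers b ∧ (b : Matrix (Fin 2) (Fin 2) F).trace = 0 := by
    intro B hB
    obtain ⟨b, hbB, hb1, hb2⟩ : ∃ b ∈ B, b ≠ 1 ∧ b ≠ -1 := by
      by_contra hcon
      push Not at hcon
      have hle : (B : Set (Matrix.SpecialLinearGroup (Fin 2) F)) ⊆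
          (({1, -1} : Finset (Matrix.SpecialLinearGroup (Fin 2) F)) : Set (Matrix.SpecialLinearGroup (Fin 2) F)) := by
        intro b hb
        by_cases h : b = 1
        · simp [h]
        · simp [hcon b hb h]
      have h1 := Set.ncard_le_ncard hle (Finset.finite_toSet _)
      rw [Set.ncard_coe_finset] at h1
      have h3 : (B : Set (Matrix.SpecialLinearGroup (Fin 2) F)).ncard = 4 := hB
      have h4 : ({1, -1} : Finset (Matrix.SpecialLinearGroup (Fin 2) F)).card ≤ 2 := Finset.card_le_two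
      omega
    have hb4 : b ^ 4 = 1 := by
      have := pow_card_eq_one' (x := (⟨b, hbB⟩ : B))
      rw [hB] at this
      exact congrArg Subtype.val this
    have hsq : b * b = -1 := by
      have h1 : (b * b) * (b * b) = 1 := by
        rw [← hb4, pow_succ, pow_succ, pow_two]; simp only [mul_assoc]
      rcases Cfsg.Agent.H5.sl2_sq_one h2 h1 with h | h
      · exfalso
        rcases Cfsg.Agent.H5.sl2_sq_one h2 h with h' | h'
        · exact hb1 h'
        · exact hb2 h'
      · exact h
    have hne : (-1 : Matrix.SpecialLinearGroup (Fin 2) F) ≠ 1 := by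
      intro h
      apply hb1
      rw [h] at hsq
      rcases Cfsg.Agent.H5.sl2_sq_one h2 hsq with h' | h'
      · exact h'
      · rw [h', h]
    refine ⟨b, ?_, Cfsg.Agent.H5.trace_zero_of_sq hsq⟩
    have hord : orderOf b = 2 ^ (1 + 1) := by
      apply orderOf_eq_prime_pow
      · rw [pow_one, pow_two, hsq]; exact hne
      · exact hb4
    symm
    apply Subgroup.eq_of_le_of_card_ge
    · rw [Subgroup.zpowers_le]; exact hbB
    · rw [Nat.card_zpowers, hord, hB]
      norm_num
  have hconj : ∀ a b : Matrix.SpecialLinearGroup (Fin 2) F, (a : Matrix (Fin 2) (Fin 2) F).trace = 0 →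
      (b : Matrix (Fin 2) (Fin 2) F).trace = 0 → IsConj a b := by
    intro a b ha hb
    have ta := Cfsg.Agent.H5.trace_zero_ne h2 ha
    have tb := Cfsg.Agent.H5.trace_zero_ne h2 hb
    exact Cfsg.Agent.H16.sl2_isConj_of_universal (t := 0)
      (fun c _ => Cfsg.Agent.H16.nf_pos_universal _ (by rw [← ha]; exact ta) c)
      (Cfsg.Agent.H16.not_scal_of_trace ta) (Cfsg.Agent.H16.not_scal_of_trace tb) ha hb
  obtain ⟨a, rfl, hat⟩ := key A hA
  have ha4 := Cfsg.Agent.H5.trace_zero_ne h2 hat
  have has := Cfsg.Agent.H16.not_scal_of_trace ha4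
  have hmapz : ∀ g b : Matrix.SpecialLinearGroup (Fin 2) F,
      (Subgroup.zpowers b).map (MulAut.conj g).toMonoidHom = Subgroup.zpowers (g * b * g⁻¹) := by
    intro g b
    rw [MonoidHom.map_zpowers]
    rfl
  have hnorm : Subgroup.normalizer ((Subgroup.zpowers a : Subgroup (Matrix.SpecialLinearGroup (Fin 2) F)) : Set (Matrix.SpecialLinearGroup (Fin 2) F)) =
      Subgroup.normalizer ((Subgroup.centralizer {a} : Subgroup (Matrix.SpecialLinearGroup (Fin 2) F)) : Set (Matrix.SpecialLinearGroup (Fin 2) F)) := by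
    apply le_antisymm
    · intro g hg
      have h1 : g * a * g⁻¹ ∈ Subgroup.zpowers a := (Subgroup.mem_normalizer_iff.1 hg a).1 (Subgroup.mem_zpowers a)
      have h3 : g * a * g⁻¹ ∈ Subgroup.centralizer {a} := by
        obtain ⟨k, hk⟩ := h1
        rw [Subgroup.mem_centralizer_singleton_iff, ← hk]
        exact ((Commute.refl a).zpow_left k).eq
      have h4 : ((g * a * g⁻¹ : Matrix.SpecialLinearGroup (Fin 2) F) : Matrix (Fin 2) (Fin 2) F).trace =
          (a : Matrix (Fin 2) (Fin 2) F).trace :=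
        (Cfsg.Agent.H16.sl2_trace_conj (isConj_iff.2 ⟨g, rfl⟩)).symm
      rcases Cfsg.Agent.H16.eq_or_inv_of_trace has h2 ha4 h3 h4 with h | h
      · apply Subgroup.le_normalizer
        rw [Subgroup.mem_centralizer_singleton_iff]
        rw [mul_inv_eq_iff_eq_mul] at h
        exact h
      · exact Cfsg.Agent.H16.inverting_mem h
    · intro g hg
      rw [Cfsg.Agent.H5.mem_normalizer_iff_map, hmapz]
      by_cases hgc : g ∈ Subgroup.centralizer ({a} : Set (Matrix.SpecialLinearGroup (Fin 2) F))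
      · rw [Subgroup.mem_centralizer_singleton_iff] at hgc
        rw [hgc, mul_inv_cancel_right]
      · rw [Cfsg.Agent.H16.norm_inverts has h2 ha4 hg hgc a (by rw [Subgroup.mem_centralizer_singleton_iff]),
          Subgroup.zpowers_inv]
  refine ⟨?_, ?_, ?_, ?_⟩
  · intro B hB
    obtain ⟨b, rfl, hbt⟩ := key B hB
    obtain ⟨g, hg⟩ := isConj_iff.1 (hconj a b hat hbt)
    exact ⟨g, by rw [hmapz, hg]⟩
  · intro hq
    rw [hnorm, Cfsg.Agent.H16.card_norm_tor has h2 ha4, Cfsg.Agent.H5.card_cent_zero_split hF hq hat]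
  · intro hq
    rw [hnorm, Cfsg.Agent.H16.card_norm_tor has h2 ha4, Cfsg.Agent.H5.card_cent_zero_ell hF hq hat]
  · exact Cfsg.Agent.H5.psl_inv_conj h2

end Cfsg.Agent.S0809
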