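import Cfsg.Statements.S0813
import Cfsg.Agent.H17.FieldClass

set_option autoImplicit false
open Cfsg

namespace Cfsg.Agent.S0813

/-- |Aut(PSL_n(q))|, q = p^f: for n ≥ 3 it is 2 f |PGL_n(q)|, and for n = 2 (q ≥ 4) it is f |PGL_2(q)|. -/
theorem result {F : Type*} [Field F] [Fintype F] (p f : ℕ) [Fact p.Prime] (hf : 1 ≤ f) (hF : Fintype.card F = p ^ f) (n : ℕ) (hn : 2 ≤ n) (h2 : n = 2 → 4 ≤ p ^ f) : Nat.card (MulAut (Matrix.ProjectiveSpecialLinearGroup (Fin n) F)) = (if n = 2 then 1 else 2) * f * Nat.card (Matrix.ProjGenLinGroup (Fin n) F) := by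
  classical
  have hF' : Nat.card F = p ^ f := by rw [Nat.card_eq_fintype_card, hF]
  have hcyc := H17.ringAut_cyclic (F := F) p f (by omega) hF'
  have hker : Nat.card (H17.cPrange F n) = Nat.card (Matrix.ProjGenLinGroup (Fin n) F) := by
    rw [← H17.cPh_range, ← Nat.card_congr (QuotientGroup.quotientKerEquivRange (H17.cPh F n)).toEquiv]
    have h1 : (H17.cPh F n).ker = Subgroup.center (Matrix.GeneralLinearGroup (Fin n) F) := by
      ext g
      rw [MonoidHom.mem_ker, H17.cPh_apply, H17.cP_eq_one_iff' hn, Matrix.GeneralLinearGroup.center_eq_range_scalar]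
      constructor
      · rintro ⟨c, hc⟩
        exact ⟨c, hc.symm⟩
      · rintro ⟨c, hc⟩
        exact ⟨c, hc.symm⟩
    rw [h1]
    rfl
  by_cases h3 : n = 2
  · subst h3
    obtain ⟨Θ, hΘ⟩ := H17.exists_typeHom_two (F := F)
    have hsurj : Function.Surjective Θ := fun σ => ⟨H17.cP 1 * H17.fP 2 σ, hΘ 1 σ⟩
    have hk : Θ.ker = H17.cPrange F 2 := by
      ext α
      rw [MonoidHom.mem_ker, H17.mem_cPrange]
      constructor
      · intro h
        obtain ⟨g, σ, hα⟩ := H17.aut_PSL_two α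
        change α = H17.cP g * H17.fP 2 σ at hα
        rw [hα, hΘ] at h
        exact ⟨g, by rw [hα, h, H17.fP_one, mul_one]⟩
      · rintro ⟨g, rfl⟩
        have := hΘ g 1
        rwa [H17.fP_one, mul_one] at this
    have h4 := Subgroup.card_mul_index Θ.ker
    rw [Subgroup.index_ker, MonoidHom.range_eq_top.mpr hsurj, Subgroup.card_top, hcyc.2, hk, hker] at h4
    rw [← h4, if_pos rfl]
    ring
  · have hn3 : 3 ≤ n := by omega
    obtain ⟨Θ, hΘ⟩ := H17.exists_typeHom (F := F) hn3
    have hsurj : Function.Surjective Θ := fun σ => ⟨H17.cP 1 * H17.fP n σ.1 * H17.iPow F n (Multiplicative.toAdd σ.2), by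
      rw [hΘ]; rfl⟩
    have hk : Θ.ker = H17.cPrange F n := by
      ext α
      rw [MonoidHom.mem_ker, H17.mem_cPrange]
      constructor
      · intro h
        obtain ⟨g, σ, ε, hα⟩ := H17.aut_PSL_iPow hn3 α
        rw [hα, hΘ] at h
        have h5 : σ = 1 := congrArg Prod.fst h
        have h6 : ε = 0 := congrArg (fun z : (F ≃+* F) × Multiplicative (ZMod 2) => Multiplicative.toAdd z.2) h
        exact ⟨g, by rw [hα, h5, h6, H17.fP_one]; simp [H17.iPow]⟩
      · rintro ⟨g, rfl⟩
        have h7 := hΘ g 1 0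
        have h8 : H17.iPow F n 0 = 1 := by simp [H17.iPow]
        rw [H17.fP_one, mul_one, h8, mul_one] at h7
        exact h7
    have h4 := Subgroup.card_mul_index Θ.ker
    rw [Subgroup.index_ker, MonoidHom.range_eq_top.mpr hsurj, Subgroup.card_top, Nat.card_prod, hcyc.2, hk,
      hker, Nat.card_congr Multiplicative.toAdd, Nat.card_zmod] at h4
    rw [← h4, if_neg h3]
    ring

end Cfsg.Agent.S0813
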