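import Cfsg.Statements.S0814
import Cfsg.Agent.H17.SpOut2

set_option autoImplicit false
open Cfsg

namespace Cfsg.Agent.S0814

/-- |Aut(PSp_2m(q))| = gcd(2, q−1) · f · |PSp_2m(q)| for q = p^f, m ≥ 2, (m, q) ≠ (2, 2), with an extra factor 2 exactly when m = 2 and p = 2. -/
theorem result {F : Type*} [Field F] [Fintype F] (p f : ℕ) [Fact p.Prime] (hf : 1 ≤ f) (hF : Fintype.card F = p ^ f) (m : ℕ) (hm : 2 ≤ m) (h22 : m = 2 → 3 ≤ p ^ f) : Nat.card (MulAut (Cfsg.PSp m F)) = (if m = 2 ∧ p = 2 then 2 else 1) * Nat.gcd 2 (p ^ f - 1) * f * Nat.card (Cfsg.PSp m F) := by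
  haveI : CharP F p := charP_of_card_eq_prime_pow hF
  have hF' : Nat.card F = p ^ f := by rw [Nat.card_eq_fintype_card, hF]
  have hR := (Cfsg.Agent.H17.ringAut_cyclic (F := F) p f (by omega) hF').2
  by_cases h : m = 2 ∧ p = 2
  · obtain ⟨rfl, rfl⟩ := h
    rw [if_pos ⟨rfl, rfl⟩, Cfsg.Agent.H17.card_mulAut_Sp4, hR]
    have h1 : Nat.gcd 2 (2 ^ f - 1) = 1 := by
      rw [Nat.Coprime.gcd_eq_one]
      rw [Nat.coprime_two_left]
      obtain ⟨k, rfl⟩ : ∃ k, f = k + 1 := ⟨f - 1, by omega⟩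
      have : 0 < 2 ^ k := by positivity
      exact ⟨2 ^ k - 1, by rw [pow_succ]; omega⟩
    rw [h1]
  · rw [if_neg h, Cfsg.Agent.H17.card_mulAut_Sp hm hF' (Cfsg.Agent.H17.aut_PSp_all hm (by
      intro hm2 h2
      apply h
      refine ⟨hm2, ?_⟩
      haveI : CharP F 2 := CharTwo.of_one_ne_zero_of_two_eq_zero one_ne_zero h2
      exact CharP.eq F ‹CharP F p› this)), hR]
    ring

end Cfsg.Agent.S0814
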