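import Cfsg.Statements.S0815
import Cfsg.Agent.H17.SUAut3
set_option autoImplicit false
open Cfsg

namespace Cfsg.Agent.S0815

/-- |Aut(PSU_n(q))| = gcd(n, q+1) · 2f · |PSU_n(q)| for q = p^f, n ≥ 3, (n, q) ≠ (3, 2); the form is realised over F with |F| = q². -/
theorem result {F : Type*} [Field F] [Fintype F] (p f : ℕ) [Fact p.Prime] (hf : 1 ≤ f) {q : ℕ} (hq : q = p ^ f) (hF : Fintype.card F = q ^ 2) (n : ℕ) (hn : 3 ≤ n) (h32 : ¬ (n = 3 ∧ q = 2)) : Nat.card (MulAut (Cfsg.PSU n F q)) = Nat.gcd n (q + 1) * (2 * f) * Nat.card (Cfsg.PSU n F q) := by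
  obtain ⟨Φ, _, hker, hsurj⟩ := Cfsg.Agent.H17.exists_typeHomU hF hn h32
  have h4 := Subgroup.card_mul_index Φ.ker
  rw [Subgroup.index_ker, MonoidHom.range_eq_top.mpr hsurj, Subgroup.card_top,
    (Cfsg.Agent.H17.card_ringAut hF p f hf hq).2, hker, Cfsg.Agent.H17.card_range_cU hF hn] at h4
  rw [← h4]
  ring

end Cfsg.Agent.S0815
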