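import Cfsg.Statements.S0816
import Cfsg.Agent.H17.SSGCount2
import Cfsg.Agent.H17.OddTwo
import Cfsg.Agent.H17.AutPSL8
import Cfsg.Agent.H17.NegOdd
import Cfsg.Agent.H5.OrthForms

set_option autoImplicit false
open Cfsg

namespace Cfsg.Agent.S0816

/-- |Aut(PΩ_(2m+1)(q))| = 2 f · |PΩ_(2m+1)(q)| for q = p^f odd and m ≥ 3 (for the form quadFormOdd). -/
theorem result {F : Type*} [Field F] [Fintype F] (p f : ℕ) [Fact p.Prime] (hf : 1 ≤ f) (hF : Fintype.card F = p ^ f) (hodd : Odd p) (m : ℕ) (hm : 3 ≤ m) : Nat.card (MulAut (Cfsg.POmega F (Cfsg.quadFormOdd m F))) = 2 * f * Nat.card (Cfsg.POmega F (Cfsg.quadFormOdd m F)) := by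
  have hq : Odd (Fintype.card F) := by rw [hF]; exact hodd.pow
  have h2 : (2 : F) ≠ 0 := Cfsg.Agent.H17.two_ne_of_odd hq
  have hι : Fintype.card (Unit ⊕ (Fin m ⊕ Fin m)) = 2 * m + 1 := by simp; ring
  have hnd := Cfsg.Agent.H5.nd_odd (m := m) h2
  have hfr : Module.finrank F (Unit ⊕ (Fin m ⊕ Fin m) → F) = 2 * m + 1 := by
    rw [Module.finrank_fintype_fun_eq_card, hι]
  have hsurj := Cfsg.Agent.H17.aE_surj hnd (by omega) (Or.inl (fun R _ => by omega))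
  have h1 := Cfsg.Agent.H17.card_mulAut_odd h2 hnd (by omega) hfr hsurj
  have h3 := Cfsg.Agent.H5.card_POmega_odd1 hnd (by rw [hι]; omega) h2 (Cfsg.Agent.H17.neg_not_mem_odd h2 hnd hfr (by omega))
  rw [← h3, Nat.card_congr (MulAut.congr (Cfsg.Agent.H5.pomEquiv hnd (by rw [hι]; omega))).symm.toEquiv,
    (Cfsg.Agent.H17.ringAut_cyclic p f (by omega) (by rw [Nat.card_eq_fintype_card, hF])).2, Cfsg.Agent.H5.qOdd_coe] at h1
  apply Nat.eq_of_mul_eq_mul_left (show 0 < 2 by norm_num)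
  rw [h1]
  ring

end Cfsg.Agent.S0816
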