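import Cfsg.Statements.S0818
import Cfsg.Agent.H17.SSGCount2
import Cfsg.Agent.H17.AutPSL8
import Cfsg.Agent.H17.NegOdd
import Cfsg.Agent.H17.WittBound
import Cfsg.Agent.H5.OrthForms
import Cfsg.Agent.S0791

set_option autoImplicit false
open Cfsg

namespace Cfsg.Agent.S0818

/-- |Aut(PΩ⁻_2m(q))| for q = p^f, m ≥ 4 (form quadFormMinus (m−1) with anisotropic binary part): |PΩ⁻_2m(q)| times f, times 2 if p = 2, and times 4 or 8 if p is odd according as m(q−1)/2 is even or odd. -/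
theorem result {F : Type*} [Field F] [Fintype F] (p f : ℕ) [Fact p.Prime] (hf : 1 ≤ f) (hF : Fintype.card F = p ^ f) (m : ℕ) (hm : 4 ≤ m) (a b : F) (hab : ∀ z₁ z₂ : F, z₁ ^ 2 + a * z₁ * z₂ + b * z₂ ^ 2 = 0 → z₁ = 0 ∧ z₂ = 0) : Nat.card (MulAut (Cfsg.POmega F (Cfsg.quadFormMinus (m - 1) F a b))) = (if p = 2 then 2 else (if Even (m * (p ^ f - 1) / 2) then 4 else 8)) * f * Nat.card (Cfsg.POmega F (Cfsg.quadFormMinus (m - 1) F a b)) := by
  have hι : Fintype.card ((Fin (m - 1) ⊕ Fin (m - 1)) ⊕ Fin 2) = 2 * m := by simp; omega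
  have hnd := Cfsg.Agent.H5.nd_minus (m := m - 1) hab
  have hfr : Module.finrank F ((Fin (m - 1) ⊕ Fin (m - 1)) ⊕ Fin 2 → F) = 2 * m := by
    rw [Module.finrank_fintype_fun_eq_card, hι]
  have hsurj := Cfsg.Agent.H17.aE_surj hnd (by omega) (Or.inl (fun R hR => by
    have h1 := Cfsg.Agent.H17.finrank_le_of_ts_minus (m - 1) a b hab R (fun u hu => by
      rw [← Cfsg.Agent.H5.qMinus_coe]; exact hR u hu)
    omega))
  have h1 := Cfsg.Agent.H17.card_mulAut_even hnd (by omega) hfr hsurj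
  rw [Nat.card_congr (MulAut.congr (Cfsg.Agent.H5.pomEquiv hnd (by rw [hι]; omega))).symm.toEquiv,
    (Cfsg.Agent.H17.ringAut_cyclic p f (by omega) (by rw [Nat.card_eq_fintype_card, hF])).2] at h1
  by_cases h2 : (2 : F) = 0
  · have hp : p = 2 := by
      haveI : CharP F p := charP_of_card_eq_prime_pow hF
      have h3 : ringChar F = 2 := Cfsg.Agent.H5.ringChar_eq_two h2
      rw [← h3]
      exact (ringChar.eq F p).symm
    rw [if_pos hp]
    rw [← Cfsg.Agent.H5.card_POmega_even hnd (by rw [hι]; omega) h2, Cfsg.Agent.H5.qMinus_coe] at h1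
    rw [h1]
    ring
  · have hp : p ≠ 2 := by
      rintro rfl
      haveI : CharP F 2 := charP_of_card_eq_prime_pow hF
      exact h2 (CharTwo.two_eq_zero)
    have hpo : Odd p := (Fact.out : p.Prime).odd_of_ne_two hp
    have hq : Odd (p ^ f) := hpo.pow
    have hiff := Cfsg.Agent.S0791.result hF hq m (by omega) a b hab
    rw [← Cfsg.Agent.H5.qMinus_coe] at hiff
    have hiff' := Cfsg.Agent.H5.exists_neg_iff (Q := Cfsg.Agent.H5.qMinus (m - 1) F a b)
    have hpar := Cfsg.Agent.H17.even_iff_mod (q := p ^ f) hq m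
    rw [if_neg hp]
    by_cases h4 : (p ^ f) ^ m % 4 = 3
    · have h3 := Cfsg.Agent.H5.card_POmega_odd2 hnd (by rw [hι]; omega) h2 (hiff'.mp (hiff.mpr h4))
      rw [if_neg (fun h => (hpar.mp h) h4)]
      rw [← h3, Cfsg.Agent.H5.qMinus_coe] at h1
      rw [h1]; ring
    · have h3 := Cfsg.Agent.H5.card_POmega_odd1 hnd (by rw [hι]; omega) h2 (fun h => h4 (hiff.mp (hiff'.mpr h)))
      rw [if_pos (hpar.mpr h4)]
      rw [← h3, Cfsg.Agent.H5.qMinus_coe] at h1
      rw [h1]; ring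

end Cfsg.Agent.S0818
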