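import Cfsg.Statements.S0828
import Mathlib
import Cfsg.Agent.H5.SpStab

set_option autoImplicit false
open Cfsg

namespace Cfsg.Agent.S0828

/-- The symplectic generalised quadrangle over a field with q elements: the number of 2-dimensional subspaces of F^4 on which the symplectic form vanishes is (q + 1)(q² + 1), and every non-zero vector lies in exactly q + 1 of them. -/
theorem result {F : Type*} [Field F] [Fintype F] {q : ℕ} (hF : Fintype.card F = q) : Nat.card {W : Submodule F (Fin 2 ⊕ Fin 2 → F) // Module.finrank F W = 2 ∧ ∀ u ∈ W, ∀ v ∈ W, Cfsg.sympForm 2 F u v = 0} = (q + 1) * (q ^ 2 + 1) ∧ ∀ v : Fin 2 ⊕ Fin 2 → F, v ≠ 0 → Nat.card {W : Submodule F (Fin 2 ⊕ Fin 2 → F) // Module.finrank F W = 2 ∧ v ∈ W ∧ ∀ u ∈ W, ∀ w ∈ W, Cfsg.sympForm 2 F u w = 0} = q + 1 := by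
  classical
  have hq : Nat.card F = q := by rw [Nat.card_eq_fintype_card, hF]
  have hq1 : 1 < q := by rw [← hF]; exact Fintype.one_lt_card
  have hspan : ∀ {k : ℕ} (f : H5.TIF (H5.sympB 2 F) (fun _ => (0 : F)) k),
      ∀ x ∈ Submodule.span F (Set.range f.1), ∀ y ∈ Submodule.span F (Set.range f.1), H5.sympB 2 F x y = 0 := by
    intro k f x hx y hy
    induction hx using Submodule.span_induction with
    | mem x hx =>
      obtain ⟨i, rfl⟩ := hx
      induction hy using Submodule.span_induction with
      | mem y hy =>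
        obtain ⟨j, rfl⟩ := hy
        exact f.2.2.1 i j
      | zero => exact map_zero _
      | add y y' _ _ h h' => rw [map_add, h, h', add_zero]
      | smul a y _ h => rw [map_smul, h, smul_zero]
    | zero => rw [map_zero, LinearMap.zero_apply]
    | add x x' _ _ h h' => rw [map_add, LinearMap.add_apply, h, h', add_zero]
    | smul a x _ h => rw [map_smul, LinearMap.smul_apply, h, smul_zero]
  constructor
  · have key := H5.card_ti_subspaces (B := H5.sympB 2 F) (N := fun _ => (0 : F)) 2
    have h1 : Nat.card {f : H5.TIF (H5.sympB 2 F) (fun _ => (0 : F)) 2 //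
        (∀ x ∈ Submodule.span F (Set.range f.1), (fun _ => (0 : F)) x = 0) ∧
        ∀ x ∈ Submodule.span F (Set.range f.1), ∀ y ∈ Submodule.span F (Set.range f.1), H5.sympB 2 F x y = 0} =
        Nat.card (H5.TIF (H5.sympB 2 F) (fun _ => (0 : F)) 2) :=
      Nat.card_congr (Equiv.subtypeUnivEquiv (fun f => ⟨fun _ _ => rfl, hspan f⟩))
    rw [h1, H5.card_tif_sp hq, hF, Fin.prod_univ_two, Finset.prod_range_succ, Finset.prod_range_succ,
      Finset.prod_range_zero] at key
    have h2 : Nat.card {W : Submodule F (Fin 2 ⊕ Fin 2 → F) // Module.finrank F W = 2 ∧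
        ∀ u ∈ W, ∀ v ∈ W, Cfsg.sympForm 2 F u v = 0} =
        Nat.card {W : Submodule F (Fin 2 ⊕ Fin 2 → F) // Module.finrank F W = 2 ∧
        (∀ x ∈ W, ∀ y ∈ W, H5.sympB 2 F x y = 0) ∧ ∀ x ∈ W, (fun _ => (0 : F)) x = 0} := by
      apply Nat.card_congr
      apply Equiv.subtypeEquivRight
      intro W
      constructor
      · rintro ⟨h3, h4⟩
        exact ⟨h3, fun x hx y hy => by rw [H5.sympB_apply]; exact h4 x hx y hy, fun _ _ => rfl⟩
      · rintro ⟨h3, h4, _⟩
        exact ⟨h3, fun x hx y hy => by rw [← H5.sympB_apply]; exact h4 x hx y hy⟩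
    rw [h2]
    have e0 : ((0 : Fin 2) : ℕ) = 0 := rfl
    have e1 : ((1 : Fin 2) : ℕ) = 1 := rfl
    rw [e0, e1] at key
    have hq2 : 1 ≤ q ^ 2 := Nat.one_le_pow _ _ (by omega)
    have f1 : q ^ 2 - q ^ 1 = q * (q - 1) := by
      rw [Nat.mul_sub, mul_one, pow_one, pow_two]
    have f2 : q ^ 2 - q ^ 0 = (q - 1) * (q + 1) := by
      rw [pow_zero, Nat.sub_one_mul]
      zify [hq2, show q + 1 ≤ q * (q + 1) from Nat.le_mul_of_pos_left _ (by omega)]
      ring
    have f3 : q ^ (2 * 2 - 0) - q ^ 0 = ((q - 1) * (q + 1)) * (q ^ 2 + 1) := by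
      obtain ⟨r, rfl⟩ : ∃ r, q = r + 1 := ⟨q - 1, by omega⟩
      rw [Nat.add_sub_cancel, pow_zero]
      have : (r + 1) ^ (2 * 2 - 0) = r * (r + 1 + 1) * ((r + 1) ^ 2 + 1) + 1 := by ring
      rw [this, Nat.add_sub_cancel]
    have f4 : q ^ (2 * 2 - 1) - q ^ 1 = q * (q - 1) * (q + 1) := by
      obtain ⟨r, rfl⟩ : ∃ r, q = r + 1 := ⟨q - 1, by omega⟩
      rw [Nat.add_sub_cancel]
      have : (r + 1) ^ (2 * 2 - 1) = (r + 1) * r * (r + 1 + 1) + (r + 1) ^ 1 := by ring
      rw [this, Nat.add_sub_cancel]
    rw [f1, f2, f3, f4] at key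
    have hpos : 0 < (q - 1) * (q + 1) * (q * (q - 1)) := by
      have : 0 < q - 1 := by omega
      positivity
    apply Nat.eq_of_mul_eq_mul_right hpos
    rw [key]
    ring
  · intro v hv
    let T := {W : Submodule F (Fin 2 ⊕ Fin 2 → F) // Module.finrank F W = 2 ∧ v ∈ W ∧ ∀ u ∈ W, ∀ w ∈ W, Cfsg.sympForm 2 F u w = 0}
    show Nat.card T = q + 1
    let f0 : H5.TIF (H5.sympB 2 F) (fun _ => (0 : F)) 1 := ⟨fun _ => v, LinearIndependent.of_subsingleton 0 hv,
      fun i j => H5.sympB_isAlt v, fun i => rfl⟩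
    have hN := H5.card_nxt_sp hq f0
    haveI : Finite (Submodule F (Fin 2 ⊕ Fin 2 → F)) :=
      Finite.of_injective (fun W : Submodule F (Fin 2 ⊕ Fin 2 → F) => (W : Set (Fin 2 ⊕ Fin 2 → F))) SetLike.coe_injective
    have hspan1 : Submodule.span F (Set.range f0.1) = Submodule.span F {v} := by
      congr 1
      exact Set.range_const
    let g : H5.NXT (H5.sympB 2 F) (fun _ => (0 : F)) f0.1 → T := fun w => ⟨Submodule.span F {v, w.1}, by
        have h1 : w.1 ∉ Submodule.span F {v} := by rw [← hspan1]; exact w.2.1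
        have h2 : LinearIndependent F ![v, w.1] := by
          rw [LinearIndependent.pair_iff' hv]
          intro a ha
          exact h1 (Submodule.mem_span_singleton.mpr ⟨a, ha⟩)
        have h3 := finrank_span_eq_card h2
        rw [Matrix.range_cons, Matrix.range_cons, Matrix.range_empty, Set.union_empty] at h3
        exact h3, Submodule.subset_span (by simp), by
        have hvw : H5.sympB 2 F v w.1 = 0 := w.2.2.1 0
        intro x hx y hy
        obtain ⟨a, b, rfl⟩ := Submodule.mem_span_pair.mp hx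
        obtain ⟨c, d, rfl⟩ := Submodule.mem_span_pair.mp hy
        rw [← H5.sympB_apply]
        have hww : H5.sympB 2 F w.1 w.1 = 0 := H5.sympB_isAlt w.1
        have hvv : H5.sympB 2 F v v = 0 := H5.sympB_isAlt v
        have hwv : H5.sympB 2 F w.1 v = 0 := by rw [H5.sympB_neg, hvw, neg_zero]
        simp only [map_add, map_smul, LinearMap.add_apply, LinearMap.smul_apply, smul_eq_mul, hww, hvv, hvw, hwv]
        ring⟩
    have hfib : ∀ W : T, Nat.card {w // g w = W} = q ^ 2 - q := by
      intro W
      have hle : Submodule.span F {v} ≤ W.1 := by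
        rw [Submodule.span_singleton_le_iff_mem]; exact W.2.2.1
      have h1 := H5.card_diff hle
      rw [H5.card_submodule _ hq W.2.1, H5.card_submodule _ hq (finrank_span_singleton hv), pow_one] at h1
      rw [← h1]
      refine Nat.card_congr
        { toFun := fun w => ⟨w.1.1, by rw [← hspan1]; exact w.1.2.1, by
            have h2 : Submodule.span F {v, w.1.1} = W.1 := congrArg Subtype.val w.2
            exact h2.le (Submodule.subset_span (by simp))⟩
          invFun := fun w => ⟨⟨w.1, by rw [hspan1]; exact w.2.1, fun i => by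
              rw [H5.sympB_apply]; exact W.2.2.2 _ W.2.2.1 _ w.2.2, H5.sympB_isAlt _, rfl⟩, by
            apply Subtype.ext
            show Submodule.span F {v, w.1} = W.1
            apply Submodule.eq_of_le_of_finrank_eq
            · rw [Submodule.span_le]
              rintro x (rfl | rfl)
              · exact W.2.2.1
              · exact w.2.2
            · rw [W.2.1]
              have h2 : LinearIndependent F ![v, w.1] := by
                rw [LinearIndependent.pair_iff' hv]
                intro a ha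
                exact w.2.1 (Submodule.mem_span_singleton.mpr ⟨a, ha⟩)
              have h3 := finrank_span_eq_card h2
              rw [Matrix.range_cons, Matrix.range_cons, Matrix.range_empty, Set.union_empty] at h3
              exact h3⟩
          left_inv := fun w => rfl
          right_inv := fun w => rfl }
    have h4 := H5.card_of_fibers_univ g _ hfib
    rw [hN] at h4
    obtain ⟨r, rfl⟩ : ∃ r, q = r + 1 := ⟨q - 1, by omega⟩
    have e1 : (r + 1) ^ 2 - (r + 1) = (r + 1) * r := by
      have : (r + 1) ^ 2 = (r + 1) * r + (r + 1) := by ring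
      rw [this, Nat.add_sub_cancel]
    have e2 : (r + 1) ^ (2 * 2 - 1) - (r + 1) ^ 1 = (r + 1) * r * (r + 1 + 1) := by
      have : (r + 1) ^ (2 * 2 - 1) = (r + 1) * r * (r + 1 + 1) + (r + 1) ^ 1 := by ring
      rw [this, Nat.add_sub_cancel]
    rw [e1, e2] at h4
    have hpos : 0 < (r + 1) * r := by
      have : 0 < r := by omega
      positivity
    apply Nat.eq_of_mul_eq_mul_right hpos
    rw [← h4]
    ring

end Cfsg.Agent.S0828
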