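import Cfsg.Statements.S0829
import Mathlib
import Cfsg.Agent.H5.UnitStab

set_option autoImplicit false
open Cfsg

namespace Cfsg.Agent.S0829

/-- The unitary quadrangle of PSU_4(q): with |F| = q², the number of 2-dimensional subspaces of F^4 on which the Hermitian form Σ x_i y_i^q vanishes is (q + 1)(q³ + 1). -/
theorem result {F : Type*} [Field F] [Fintype F] {q : ℕ} (hF : Fintype.card F = q ^ 2) : Nat.card {W : Submodule F (Fin 4 → F) // Module.finrank F W = 2 ∧ ∀ u ∈ W, ∀ v ∈ W, Cfsg.hermForm 4 F q u v = 0} = (q + 1) * (q ^ 3 + 1) := by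
  classical
  obtain ⟨σ, hσ, hσ2, hσ1⟩ := H5.exists_frob hF
  have hq2 : 2 ≤ q := H5.q_pos hF
  have hS := H5.hB_symm (ι := Fin 4) hσ2
  have key := H5.card_ti_subspaces (B := H5.hB (Fin 4) σ) (N := fun v => H5.hB (Fin 4) σ v v) 2
  have hspan : ∀ {k : ℕ} (f : H5.TIF (H5.hB (Fin 4) σ) (fun v => H5.hB (Fin 4) σ v v) k),
      ∀ x ∈ Submodule.span F (Set.range f.1), ∀ y ∈ Submodule.span F (Set.range f.1), H5.hB (Fin 4) σ x y = 0 := by
    intro k f x hx y hy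
    refine H5.span_left_zero (fun i => ?_) hx
    rw [← hS, H5.span_left_zero (fun j => f.2.2.1 j i) hy, map_zero]
  have h1 : Nat.card {f : H5.TIF (H5.hB (Fin 4) σ) (fun v => H5.hB (Fin 4) σ v v) 2 //
      (∀ x ∈ Submodule.span F (Set.range f.1), (fun v => H5.hB (Fin 4) σ v v) x = 0) ∧
      ∀ x ∈ Submodule.span F (Set.range f.1), ∀ y ∈ Submodule.span F (Set.range f.1), H5.hB (Fin 4) σ x y = 0} =
      Nat.card (H5.TIF (H5.hB (Fin 4) σ) (fun v => H5.hB (Fin 4) σ v v) 2) :=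
    Nat.card_congr (Equiv.subtypeUnivEquiv (fun f => ⟨fun x hx => hspan f x hx x hx, hspan f⟩))
  rw [h1, H5.card_tif_u hF hσ1 hσ2, hF, Fin.prod_univ_two, Finset.prod_range_succ, Finset.prod_range_succ,
    Finset.prod_range_zero] at key
  have h2 : Nat.card {W : Submodule F (Fin 4 → F) // Module.finrank F W = 2 ∧ ∀ u ∈ W, ∀ v ∈ W, Cfsg.hermForm 4 F q u v = 0} =
      Nat.card {W : Submodule F (Fin 4 → F) // Module.finrank F W = 2 ∧
      (∀ x ∈ W, ∀ y ∈ W, H5.hB (Fin 4) σ x y = 0) ∧ ∀ x ∈ W, (fun v => H5.hB (Fin 4) σ v v) x = 0} := by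
    apply Nat.card_congr
    apply Equiv.subtypeEquivRight
    intro W
    constructor
    · rintro ⟨h3, h4⟩
      have h5 : ∀ x ∈ W, ∀ y ∈ W, H5.hB (Fin 4) σ x y = 0 := fun x hx y hy => by
        rw [← H5.hermForm_eq hσ]; exact h4 y hy x hx
      exact ⟨h3, h5, fun x hx => h5 x hx x hx⟩
    · rintro ⟨h3, h4, _⟩
      exact ⟨h3, fun x hx y hy => by rw [H5.hermForm_eq hσ]; exact h4 y hy x hx⟩
  rw [h2]
  have e0 : ((0 : Fin 2) : ℕ) = 0 := rfl
  have e1 : ((1 : Fin 2) : ℕ) = 1 := rfl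
  rw [e0, e1, show 4 - 2 * 0 = 3 + 1 by norm_num, show 4 - 2 * 1 = 1 + 1 by norm_num,
    H5.nvec_isotropic hF hσ hσ2, H5.nvec_isotropic hF hσ hσ2, if_neg (by decide), if_neg (by decide),
    Nat.add_sub_cancel, Nat.add_sub_cancel] at key
  obtain ⟨r, rfl⟩ : ∃ r, q = r + 1 := ⟨q - 1, by omega⟩
  have f1 : (r + 1) ^ (3 + 1) - 1 = r * (r + 2) * ((r + 1) ^ 2 + 1) := by
    have : (r + 1) ^ (3 + 1) = r * (r + 2) * ((r + 1) ^ 2 + 1) + 1 := by ring
    rw [this, Nat.add_sub_cancel]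
  have f2 : (r + 1) ^ (1 + 1) - 1 = r * (r + 2) := by
    have : (r + 1) ^ (1 + 1) = r * (r + 2) + 1 := by ring
    rw [this, Nat.add_sub_cancel]
  have f3 : ((r + 1) ^ 2) ^ 2 - ((r + 1) ^ 2) ^ 0 = r * (r + 2) * ((r + 1) ^ 2 + 1) := by
    have : ((r + 1) ^ 2) ^ 2 = r * (r + 2) * ((r + 1) ^ 2 + 1) + ((r + 1) ^ 2) ^ 0 := by ring
    rw [this, Nat.add_sub_cancel]
  have f4 : ((r + 1) ^ 2) ^ 2 - ((r + 1) ^ 2) ^ 1 = (r + 1) ^ 2 * (r * (r + 2)) := by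
    have : ((r + 1) ^ 2) ^ 2 = (r + 1) ^ 2 * (r * (r + 2)) + ((r + 1) ^ 2) ^ 1 := by ring
    rw [this, Nat.add_sub_cancel]
  rw [f1, f2, f3, f4] at key
  have hpos : 0 < r * (r + 2) * ((r + 1) ^ 2 + 1) * ((r + 1) ^ 2 * (r * (r + 2))) := by
    have : 0 < r := by omega
    positivity
  apply Nat.eq_of_mul_eq_mul_right hpos
  rw [key]
  ring

end Cfsg.Agent.S0829
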