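import Cfsg.Statements.S0831
import Mathlib
import Cfsg.Agent.H5.MaxSing

set_option autoImplicit false
open Cfsg

namespace Cfsg.Agent.S0831

/-- The two families of maximal totally singular subspaces of the hyperbolic quadric: for the form Σ x_i y_i on F^(2m), m ≥ 1, and m-dimensional subspaces U, W, X on which it vanishes, the parities of m − dim(U ∩ W), m − dim(W ∩ X) and m − dim(U ∩ X) sum to an even number (so 'even codimension of the intersection' is an equivalence relation), and there exist two such subspaces meeting in codimension 1 (so there are exactly two classes). -/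
theorem result {F : Type*} [Field F] (m : ℕ) (hm : 1 ≤ m) : (∀ U W X : Submodule F (Fin m ⊕ Fin m → F), (Module.finrank F U = m ∧ ∀ w ∈ U, Cfsg.quadFormPlus m F w = 0) → (Module.finrank F W = m ∧ ∀ w ∈ W, Cfsg.quadFormPlus m F w = 0) → (Module.finrank F X = m ∧ ∀ w ∈ X, Cfsg.quadFormPlus m F w = 0) → Even ((m - Module.finrank F ↥(U ⊓ W)) + (m - Module.finrank F ↥(W ⊓ X)) + (m - Module.finrank F ↥(U ⊓ X)))) ∧ ∃ U W : Submodule F (Fin m ⊕ Fin m → F), (Module.finrank F U = m ∧ ∀ w ∈ U, Cfsg.quadFormPlus m F w = 0) ∧ (Module.finrank F W = m ∧ ∀ w ∈ W, Cfsg.quadFormPlus m F w = 0) ∧ Module.finrank F ↥(U ⊓ W) + 1 = m := by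
  have hnd := H5.nd_plus (F := F) (m := m)
  have hV : Module.finrank F (Fin m ⊕ Fin m → F) = 2 * m := by
    rw [Module.finrank_fintype_fun_eq_card, Fintype.card_sum, Fintype.card_fin, two_mul]
  rw [← H5.qPlus_coe]
  constructor
  · intro U W X ⟨hUm, hU⟩ ⟨hWm, hW⟩ ⟨hXm, hX⟩
    have h1 := Submodule.finrank_mono (inf_le_left : U ⊓ W ≤ U)
    have h2 := Submodule.finrank_mono (inf_le_left : W ⊓ X ≤ W)
    have h3 := Submodule.finrank_mono (inf_le_left : U ⊓ X ≤ U)
    obtain ⟨r, hr⟩ := H5.TS.parity hnd hV (m - Module.finrank F (W ⊓ X : Submodule F (Fin m ⊕ Fin m → F)))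
      hU hUm hW hWm hX hXm (by omega)
    exact ⟨2 * m - r, by omega⟩
  · obtain ⟨E, hE, hEm⟩ := H5.std_max (F := F) m
    have hne : ¬ (⊤ : Submodule F (Fin m ⊕ Fin m → F)) ≤ E := by
      intro h
      have := Submodule.finrank_mono h
      rw [finrank_top, hV, hEm] at this
      omega
    have hex : ∃ w, H5.qPlus m F w = 0 ∧ w ∉ E := by
      by_contra hcon
      push Not at hcon
      apply hne
      have hb : ∀ k : Fin m ⊕ Fin m, (Pi.single k (1 : F) : Fin m ⊕ Fin m → F) ∈ E := by
        intro k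
        apply hcon
        rw [H5.qPlus_coe]
        unfold Cfsg.quadFormPlus
        apply Finset.sum_eq_zero
        intro i _
        rcases k with k | k
        · rw [Pi.single_eq_of_ne (i' := Sum.inr i) (by simp), mul_zero]
        · rw [Pi.single_eq_of_ne (i' := Sum.inl i) (by simp), zero_mul]
      intro x _
      have hx : x = ∑ k, x k • (Pi.single k (1 : F) : Fin m ⊕ Fin m → F) := by
        funext l
        simp [Finset.sum_apply, Pi.single_apply]
      rw [hx]
      exact Submodule.sum_mem _ (fun k _ => Submodule.smul_mem _ _ (hb k))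
    obtain ⟨w, hw, hwE⟩ := hex
    obtain ⟨X', Y, hX', hX'm, hwX', hY, hYX, hYX', hYc, hXX'⟩ := H5.TS.neighbor hnd hV hE hEm hw hwE
    refine ⟨E, X', ⟨hEm, hE⟩, ⟨hX'm, hX'⟩, ?_⟩
    have h1 := Submodule.finrank_mono (le_inf hYX hYX')
    have h2 : Module.finrank F (E ⊓ X' : Submodule F (Fin m ⊕ Fin m → F)) ≠ m := by
      intro h
      apply hXX'
      have h3 : E ⊓ X' = E := Submodule.eq_of_le_of_finrank_eq inf_le_left (by omega)
      exact Submodule.eq_of_le_of_finrank_eq (inf_eq_left.mp h3) (by omega)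
    have h4 := Submodule.finrank_mono (inf_le_left : E ⊓ X' ≤ E)
    omega

end Cfsg.Agent.S0831
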