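import Cfsg.Statements.S0832
import Mathlib
import Cfsg.Agent.H5.MaxSing

set_option autoImplicit false
open Cfsg

namespace Cfsg.Agent.S0832

/-- For the form Σ x_i y_i on F^(2m) over a finite field, m ≥ 1: an (m−1)-dimensional subspace on which the form vanishes is contained in exactly two m-dimensional subspaces on which it vanishes. -/
theorem result {F : Type*} [Field F] [Finite F] (m : ℕ) (hm : 1 ≤ m) (U : Submodule F (Fin m ⊕ Fin m → F)) (hU : Module.finrank F U + 1 = m ∧ ∀ u ∈ U, Cfsg.quadFormPlus m F u = 0) : Nat.card {W : Submodule F (Fin m ⊕ Fin m → F) // Module.finrank F W = m ∧ (∀ w ∈ W, Cfsg.quadFormPlus m F w = 0) ∧ U ≤ W} = 2 := by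
  have hnd := H5.nd_plus (F := F) (m := m)
  have hV : Module.finrank F (Fin m ⊕ Fin m → F) = 2 * m := by
    rw [Module.finrank_fintype_fun_eq_card, Fintype.card_sum, Fintype.card_fin, two_mul]
  rw [← H5.qPlus_coe] at hU ⊢
  obtain ⟨hUm, hU⟩ := hU
  obtain ⟨E, hE, hEm⟩ := H5.std_max (F := F) m
  obtain ⟨W, X, hW, hWm, hX, hXm, hUW, hUX, hne⟩ := H5.TS.exists_two hnd hV hE hEm hU hUm
  rw [Nat.card_eq_two_iff]
  refine ⟨⟨W, hWm, hW, hUW⟩, ⟨X, hXm, hX, hUX⟩, fun h => hne (congrArg Subtype.val h), ?_⟩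
  rw [Set.eq_univ_iff_forall]
  rintro ⟨Z, hZm, hZ, hUZ⟩
  rcases H5.TS.two hnd hV hUm hW hWm hX hXm hZ hZm hUW hUX hUZ hne with h | h
  · left; exact Subtype.ext h
  · right; exact Subtype.ext h

end Cfsg.Agent.S0832
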