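import Cfsg.Statements.S0835
import Mathlib
import Cfsg.Agent.H5.FormTensor

set_option autoImplicit false
open Cfsg

namespace Cfsg.Agent.S0835

/-- Over a finite field with 2 ≠ 0: if B₁ on U (dim 2k, k ≥ 1) is non-degenerate symmetric of minus type (no totally isotropic k-subspace) and B₂ on W (dim 2l + 1) is non-degenerate symmetric, then B₁ ⊗ B₂ (dimension 2k(2l+1)) admits no totally isotropic subspace of dimension k(2l+1) (minus type). -/
theorem result {F U W : Type*} [Field F] [Fintype F] [AddCommGroup U] [Module F U] [FiniteDimensional F U] [AddCommGroup W] [Module F W] [FiniteDimensional F W] (h2 : (2 : F) ≠ 0) (B₁ : LinearMap.BilinForm F U) (B₂ : LinearMap.BilinForm F W) (h₁ : B₁.Nondegenerate) (h₂ : B₂.Nondegenerate) (hS₁ : B₁.IsSymm) (hS₂ : B₂.IsSymm) (k l : ℕ) (hk : 1 ≤ k) (hU : Module.finrank F U = 2 * k) (hW : Module.finrank F W = 2 * l + 1) (hm₁ : ¬ (∃ X : Submodule F (U), Module.finrank F X = k ∧ ∀ x ∈ X, ∀ y ∈ X, (B₁) x y =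 0)) : ¬ (∃ X : Submodule F (TensorProduct F U W), Module.finrank F X = k * (2 * l + 1) ∧ ∀ x ∈ X, ∀ y ∈ X, (B₁.tmul B₂) x y = 0) := by
  intro hcon
  apply hm₁
  have hfr : Module.finrank F (TensorProduct F U W) = 2 * (k * (2 * l + 1)) := by
    rw [H5.tmul_finrank, hU, hW]; ring
  obtain ⟨X, hX, hX0⟩ := hcon
  have h := H5.disc_of_isotropic (B := B₁.tmul B₂) (H5.tmul_comm_of _ _ (fun a b c d => by
    rw [hS₁.eq a b, hS₂.eq c d])) hfr X hX hX0 ((Module.finBasisOfFinrankEq F U hU).tensorProduct (Module.finBasisOfFinrankEq F W hW))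
  apply H5.isotropic_of_disc h2 (fun x y => hS₁.eq x y) h₁ hU (Module.finBasisOfFinrankEq F U hU)
  rw [H5.tmul_det, Fintype.card_fin, Fintype.card_fin] at h
  have e1 : (-1 : F) ^ (k * (2 * l + 1)) = (-1) ^ k := by
    rw [mul_comm, pow_mul, Odd.neg_one_pow ⟨l, rfl⟩]
  have hd1 := H5.disc_ne_zero h₁ (Module.finBasisOfFinrankEq F U hU)
  have hd2 := H5.disc_ne_zero h₂ (Module.finBasisOfFinrankEq F W hW)
  rw [e1] at h
  obtain ⟨t, ht⟩ := h
  set D := (LinearMap.BilinForm.toMatrix (Module.finBasisOfFinrankEq F U hU) B₁).det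
  set E := (LinearMap.BilinForm.toMatrix (Module.finBasisOfFinrankEq F W hW) B₂).det
  refine ⟨t / (D ^ l * E ^ k), ?_⟩
  have h3 : D ^ (2 * l + 1) = D * (D ^ l * D ^ l) := by rw [← pow_add, ← pow_succ', two_mul]
  have h4 : E ^ (2 * k) = E ^ k * E ^ k := by rw [← pow_add, two_mul]
  rw [h3, h4] at ht
  field_simp
  linear_combination ht

end Cfsg.Agent.S0835
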