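import Cfsg.Statements.S0836
import Mathlib
import Cfsg.Agent.H5.LinBasic

set_option autoImplicit false
open Cfsg

namespace Cfsg.Agent.S0836

/-- For i ≠ j and any scalar c, the elementary transvection 1 + c E_ij is a commutator ⁅g, h⁆ of two elements of SL_n(F) provided n ≥ 3, or n = 2 and F contains x ≠ 0 with x² ≠ 1. -/
theorem result {F : Type*} [Field F] (n : ℕ) (hn : 3 ≤ n ∨ (n = 2 ∧ ∃ x : F, x ≠ 0 ∧ x ^ 2 ≠ 1)) (i j : Fin n) (hij : i ≠ j) (c : F) (t : Matrix.SpecialLinearGroup (Fin n) F) (ht : (t : Matrix (Fin n) (Fin n) F) = Matrix.transvection i j c) : t ∈ commutatorSet (Matrix.SpecialLinearGroup (Fin n) F) := by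
  have ht' : t = Matrix.SpecialLinearGroup.transvection hij c := Cfsg.Agent.H5.SL_ext ht
  rw [ht']
  rcases hn with hn | ⟨hn, x, hx0, hx2⟩
  · obtain ⟨k, hki, hkj⟩ : ∃ k : Fin n, k ≠ i ∧ k ≠ j := by
      by_contra hcon
      push Not at hcon
      have : (Finset.univ : Finset (Fin n)) ⊆ {i, j} := by
        intro k _
        simp only [Finset.mem_insert, Finset.mem_singleton]
        by_cases h : k = i
        · exact Or.inl h
        · exact Or.inr (hcon k h)
      have h2 := Finset.card_le_card this
      rw [Finset.card_univ, Fintype.card_fin] at h2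
      have := Finset.card_le_two (a := i) (b := j)
      omega
    rw [← mul_one c, ← Cfsg.Agent.H5.commutator_transvection hki.symm hkj hij c 1]
    exact ⟨_, _, rfl⟩
  · refine ⟨Matrix.SpecialLinearGroup.diag2n hij x hx0,
      Matrix.SpecialLinearGroup.transvection hij (c / (x ^ 2 - 1)), ?_⟩
    subst hn
    have hcomm : ∀ b : F, Matrix.SpecialLinearGroup.diag2n hij x hx0 *
        Matrix.SpecialLinearGroup.transvection hij b =
        Matrix.SpecialLinearGroup.transvection hij (x ^ 2 * b) *
          Matrix.SpecialLinearGroup.diag2n hij x hx0 := by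
      intro b
      apply Cfsg.Agent.H5.SL_ext
      rw [Matrix.SpecialLinearGroup.coe_mul, Matrix.SpecialLinearGroup.coe_mul]
      show Matrix.diagonal _ * Matrix.transvection i j b =
        Matrix.transvection i j (x ^ 2 * b) * Matrix.diagonal _
      rw [Matrix.transvection, Matrix.transvection, mul_add, add_mul, mul_one, one_mul]
      congr 1
      ext k l
      rw [Matrix.diagonal_mul, Matrix.mul_diagonal]
      by_cases hk : i = k ∧ j = l
      · obtain ⟨rfl, rfl⟩ := hk
        simp [hij.symm]
        field_simp
      · simp [Matrix.single_apply, hk]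
    rw [commutatorElement_def, hcomm, mul_inv_cancel_right,
      Matrix.SpecialLinearGroup.transvection_inv, ← Matrix.SpecialLinearGroup.transvection_add]
    congr 1
    have : x ^ 2 - 1 ≠ 0 := sub_ne_zero.mpr hx2
    field_simp
    ring

end Cfsg.Agent.S0836
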