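import Cfsg.Statements.S0837
import Mathlib
import Cfsg.Agent.H5.IsoG2

set_option autoImplicit false
open Cfsg

namespace Cfsg.Agent.S0837

/-- If W ≤ F^n (|F| = q²) is a k-dimensional subspace on which the Hermitian form Σ x_i y_i^q is non-degenerate, then the stabiliser of W in GU_n(q) is isomorphic to GU_k(q) × GU_(n−k)(q). -/
theorem result {F : Type*} [Field F] [Fintype F] {q : ℕ} (hF : Fintype.card F = q ^ 2) (n k : ℕ) (hk : k ≤ n) (W : Submodule F (Fin n → F)) (hWk : Module.finrank F W = k) (hW : ∀ u ∈ W, (∀ v ∈ W, Cfsg.hermForm n F q u v = 0) → u = 0) : Nonempty (↥((Cfsg.stabilizing (Cfsg.glToMat (Fin n) F) (W : Set (Fin n → F))).subgroupOf (Cfsg.GU n F q)) ≃* ↥(Cfsg.GU k F q) × ↥(Cfsg.GU (n - k) F q)) := by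
  obtain ⟨σ, hσ, hσ2, hσ1⟩ := H5.exists_frob hF
  have hS := H5.hB_symm (ι := Fin n) hσ2
  have hfd := H5.hB_formData (ι := Fin n) hσ1 hσ2
  have hr : ∀ x y, H5.hB (Fin n) σ x y = 0 → H5.hB (Fin n) σ y x = 0 := fun x y h => by
    rw [← hS, h, map_zero]
  have hW' : ∀ u ∈ W, (∀ v ∈ W, H5.hB (Fin n) σ u v = 0) → u = 0 := fun u hu h =>
    hW u hu (fun v hv => by rw [H5.hermForm_eq hσ]; exact hr _ _ (h v hv))
  have hc : IsCompl W (H5.rperp (H5.hB (Fin n) σ) W) := H5.rperp_isCompl hfd hσ2 hW'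
  have hV : Module.finrank F (Fin n → F) = n := by
    rw [Module.finrank_fintype_fun_eq_card, Fintype.card_fin]
  have hfr := Submodule.finrank_add_eq_of_isCompl hc
  obtain ⟨e1, he1⟩ := H5.exists_herm_iso hσ1 hσ2 hS W hWk hW'
  obtain ⟨e2, he2⟩ := H5.exists_herm_iso hσ1 hσ2 hS (H5.rperp (H5.hB (Fin n) σ) W) (k := n - k) (by omega)
    (H5.rperp_nd hfd hc)
  exact ⟨(H5.guStabIso hσ W).trans ((H5.stabIsoEquiv hc hr).trans
    (MulEquiv.prodCongr ((H5.isoCongr e1 he1).trans (H5.guIso hσ).symm)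
      ((H5.isoCongr e2 he2).trans (H5.guIso hσ).symm)))⟩

end Cfsg.Agent.S0837
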