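import Cfsg.Statements.S0838
import Mathlib
import Cfsg.Agent.H5.FormClass

set_option autoImplicit false
open Cfsg

namespace Cfsg.Agent.S0838

/-- Over a finite field with 2 ≠ 0 and n odd: two quadratic forms Q₁, Q₂ on F^n with non-degenerate polar forms are similar — there are an invertible linear map g and a scalar c ≠ 0 with Q₂ (g v) = c · Q₁ v for all v. -/
theorem result {F : Type*} [Field F] [Fintype F] (h2 : (2 : F) ≠ 0) {n : ℕ} (hn : Odd n) (Q₁ Q₂ : QuadraticForm F (Fin n → F)) (h₁ : (QuadraticMap.polarBilin Q₁).Nondegenerate) (h₂ : (QuadraticMap.polarBilin Q₂).Nondegenerate) : ∃ (g : (Fin n → F) ≃ₗ[F] (Fin n → F)) (c : F), c ≠ 0 ∧ ∀ v, Q₂ (g v) = c * Q₁ v := by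
  classical
  haveI : Finite F := inferInstance
  obtain ⟨n, rfl⟩ : ∃ k, n = k + 1 := ⟨n - 1, by have := hn.pos; omega⟩
  let V := Fin (n + 1) → F
  have hfr : Module.finrank F V = n + 1 := by
    rw [Module.finrank_fintype_fun_eq_card, Fintype.card_fin]
  have hsym : ∀ (Q : QuadraticForm F V) (x y : V), (QuadraticMap.polarBilin Q) x y = (QuadraticMap.polarBilin Q) y x :=
    fun Q x y => QuadraticMap.polar_comm Q x y
  have hself : ∀ (Q : QuadraticForm F V) (x : V), (QuadraticMap.polarBilin Q) x x = 2 * Q x := fun Q x => H5.pB_self Q x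
  let b := Pi.basisFun F (Fin (n + 1))
  obtain ⟨α, hα⟩ := H5.exists_nonsq (F := F) h2
  have hα0 : α ≠ 0 := by rintro rfl; exact hα IsSquare.zero
  have hd1 := H5.disc_ne_zero h₁ b
  have hd2 := H5.disc_ne_zero h₂ b
  -- the scalar
  have key : ∀ c : F, c ≠ 0 → IsSquare (c ^ (n + 1) * (LinearMap.BilinForm.toMatrix b (QuadraticMap.polarBilin Q₁)).det *
      (LinearMap.BilinForm.toMatrix b (QuadraticMap.polarBilin Q₂)).det) →
      ∃ (g : V ≃ₗ[F] V) (c : F), c ≠ 0 ∧ ∀ v, Q₂ (g v) = c * Q₁ v := by
    intro c hc hsq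
    have hnd : (c • QuadraticMap.polarBilin Q₁).Nondegenerate := by
      apply H5.nondeg_of_left
      · intro x y
        rw [LinearMap.smul_apply, LinearMap.smul_apply, LinearMap.smul_apply, LinearMap.smul_apply, hsym]
      · intro x hx
        apply h₁.1
        intro y
        have := hx y
        rw [LinearMap.smul_apply, LinearMap.smul_apply, smul_eq_mul] at this
        exact (mul_eq_zero.mp this).resolve_left hc
    obtain ⟨g, hg⟩ := H5.iso_of_disc h2 (B := c • QuadraticMap.polarBilin Q₁) (C := QuadraticMap.polarBilin Q₂)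
      (fun x y => by rw [LinearMap.smul_apply, LinearMap.smul_apply, LinearMap.smul_apply, LinearMap.smul_apply, hsym])
      hnd (hsym Q₂) h₂ rfl b b (by
        rw [map_smul, Matrix.det_smul, Fintype.card_fin]
        exact hsq)
    refine ⟨g, c, hc, fun v => ?_⟩
    have h3 := hg v v
    rw [hself, LinearMap.smul_apply, LinearMap.smul_apply, smul_eq_mul, hself] at h3
    have h4 : 2 * (Q₂ (g v) - c * Q₁ v) = 0 := by linear_combination h3
    have h5 := (mul_eq_zero.mp h4).resolve_left h2
    linear_combination h5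
  by_cases hsq : IsSquare ((LinearMap.BilinForm.toMatrix b (QuadraticMap.polarBilin Q₁)).det *
      (LinearMap.BilinForm.toMatrix b (QuadraticMap.polarBilin Q₂)).det)
  · exact key 1 one_ne_zero (by rw [one_pow, one_mul]; exact hsq)
  · refine key α hα0 ?_
    rw [mul_assoc]
    have : IsSquare (α * ((LinearMap.BilinForm.toMatrix b (QuadraticMap.polarBilin Q₁)).det *
      (LinearMap.BilinForm.toMatrix b (QuadraticMap.polarBilin Q₂)).det)) := H5.nonsq_mul h2 hα hsq
    obtain ⟨k, hk⟩ := hn
    have hpow : α ^ (n + 1) = α ^ (2 * k) * α := by rw [hk, pow_succ]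
    rw [hpow, mul_assoc]
    exact (Even.isSquare_pow (even_two_mul k) _).mul this

end Cfsg.Agent.S0838
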