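import Cfsg.Statements.S0839
import Mathlib
import Cfsg.Agent.H5.Vec

set_option autoImplicit false
open Cfsg

namespace Cfsg.Agent.S0839

/-- Every transvection t ∈ SL_(n+2)(F) (rank(t − 1) = 1, (t − 1)² = 0) is conjugate in SL_(n+2)(F) to 1 + v·e_0ᵀ for some column vector v with v_0 = 0 (the group A of matrices that are the identity except in the first column below the diagonal); the dimension is written n + 2 ≥ 2. -/
theorem result {F : Type*} [Field F] (n : ℕ) (t : Matrix.SpecialLinearGroup (Fin (n + 2)) F) (ht : Cfsg.IsTransvection (t : Matrix (Fin (n + 2)) (Fin (n + 2)) F)) : ∃ (g : Matrix.SpecialLinearGroup (Fin (n + 2)) F) (v : Fin (n + 2) → F), v 0 = 0 ∧ ((g⁻¹ * t * g : Matrix.SpecialLinearGroup (Fin (n + 2)) F) : Matrix (Fin (n + 2)) (Fin (n + 2)) F) = 1 + Matrix.vecMulVec v (Pi.single 0 1) := by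
  obtain ⟨hr, hsq⟩ := ht
  obtain ⟨u, w, hu, hw, hM⟩ := Cfsg.Agent.H5.exists_vecMulVec_of_rank_eq_one hr
  have hwu : w ⬝ᵥ u = 0 := by
    rw [hM, Matrix.vecMulVec_mul_vecMulVec] at hsq
    obtain ⟨i, hi⟩ := Function.ne_iff.mp hu
    obtain ⟨j, hj⟩ := Function.ne_iff.mp hw
    have := congrFun (congrFun hsq i) j
    rw [Matrix.vecMulVec_apply, Pi.smul_apply, smul_eq_mul, Matrix.zero_apply] at this
    rcases mul_eq_zero.mp this with h | h
    · exact absurd h hi
    · exact (mul_eq_zero.mp h).resolve_right hj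
  have he0 : (Pi.single 0 1 : Fin (n + 2) → F) ≠ 0 := Pi.single_ne_zero_iff.mpr one_ne_zero
  -- h with hᵀ... : find k ∈ SL with k.mulVec e0 = w ; take g⁻¹ = kᵀ
  obtain ⟨k, hk⟩ := Cfsg.Agent.H5.exists_SL_mulVec he0 hw
  refine ⟨(k.transpose)⁻¹, (k.transpose : Matrix (Fin (n + 2)) (Fin (n + 2)) F).mulVec u, ?_, ?_⟩
  · have h1 : ((k.transpose : Matrix (Fin (n + 2)) (Fin (n + 2)) F).mulVec u) 0 =
      (Pi.single 0 1 : Fin (n + 2) → F) ⬝ᵥ
        ((k : Matrix (Fin (n + 2)) (Fin (n + 2)) F).transpose.mulVec u) := by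
      rw [single_one_dotProduct]; rfl
    rw [h1, Matrix.dotProduct_mulVec, Matrix.vecMul_transpose, hk, hwu]
  · have ht1 : (t : Matrix (Fin (n + 2)) (Fin (n + 2)) F) = 1 + Matrix.vecMulVec u w := by
      rw [← hM]; abel
    have h2 : (1 + Matrix.vecMulVec ((k.transpose : Matrix (Fin (n + 2)) (Fin (n + 2)) F).mulVec u)
        (Pi.single 0 1)) * (k.transpose : Matrix (Fin (n + 2)) (Fin (n + 2)) F) =
        (k.transpose : Matrix (Fin (n + 2)) (Fin (n + 2)) F) * (t : Matrix _ _ F) := by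
      rw [ht1, add_mul, mul_add, one_mul, mul_one, Matrix.vecMulVec_mul, Matrix.mul_vecMulVec]
      congr 2
      rw [← hk]
      exact Matrix.vecMul_transpose _ _
    have h3 : ((k.transpose⁻¹)⁻¹ * t * (k.transpose)⁻¹ : Matrix.SpecialLinearGroup (Fin (n + 2)) F) =
      k.transpose * t * (k.transpose)⁻¹ := by rw [inv_inv]
    rw [h3, Matrix.SpecialLinearGroup.coe_mul, Matrix.SpecialLinearGroup.coe_mul, ← h2, mul_assoc,
      ← Matrix.SpecialLinearGroup.coe_mul, mul_inv_cancel, Matrix.SpecialLinearGroup.coe_one, mul_one]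

end Cfsg.Agent.S0839
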