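import Cfsg.Statements.S0840
import Cfsg.Agent.H3.Counting

set_option autoImplicit false
open scoped ComplexConjugate
open Cfsg

namespace Cfsg.Agent.S0840

/-- Class multiplication coefficients from the character table: for elements a, b, c of a finite group G, the number of ordered pairs (x, y) with x conjugate to a, y conjugate to b and x * y = c equals the product of the sizes of the conjugacy classes of a and b, divided by the order of G, times the sum over the irreducible characters χ of χ a * χ b * conj (χ c) / χ 1. -/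
theorem result {G : Type*} [Group G] [Finite G] (a b c : G) : (Nat.card {p : G × G // IsConj a p.1 ∧ IsConj b p.2 ∧ p.1 * p.2 = c} : ℂ) = (Nat.card {x : G // IsConj a x} : ℂ) * (Nat.card {x : G // IsConj b x} : ℂ) / (Nat.card G : ℂ) * ∑ᶠ χ : Cfsg.IrrCharacter G, (χ : G → ℂ) a * (χ : G → ℂ) b * conj ((χ : G → ℂ) c) / (χ : G → ℂ) 1 := by
  classical
  have := Fintype.ofFinite G
  have := Fintype.ofFinite (Cfsg.IrrCharacter G)
  rw [finsum_eq_sum_of_fintype]
  let N : G → ℂ := fun z => ((Finset.univ.filter (fun p : G × G =>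
    IsConj a p.1 ∧ IsConj b p.2 ∧ p.1 * p.2 = z)).card : ℂ)
  have hN : Cfsg.IsClassFunction G N := by
    intro x y
    simp only [N]
    norm_cast
    refine Finset.card_bij' (fun p _ => (y⁻¹ * p.1 * y, y⁻¹ * p.2 * y))
      (fun p _ => (y * p.1 * y⁻¹, y * p.2 * y⁻¹)) ?_ ?_ ?_ ?_
    · intro p hp
      obtain ⟨h1, h2, h3⟩ := (Finset.mem_filter.mp hp).2
      refine Finset.mem_filter.mpr ⟨Finset.mem_univ _, ?_, ?_, ?_⟩
      · exact h1.trans (isConj_iff.mpr ⟨y⁻¹, by simp⟩)
      · exact h2.trans (isConj_iff.mpr ⟨y⁻¹, by simp⟩)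
      · calc y⁻¹ * p.1 * y * (y⁻¹ * p.2 * y) = y⁻¹ * (p.1 * p.2) * y := by group
          _ = x := by rw [h3]; group
    · intro p hp
      obtain ⟨h1, h2, h3⟩ := (Finset.mem_filter.mp hp).2
      refine Finset.mem_filter.mpr ⟨Finset.mem_univ _, ?_, ?_, ?_⟩
      · exact h1.trans (isConj_iff.mpr ⟨y, rfl⟩)
      · exact h2.trans (isConj_iff.mpr ⟨y, rfl⟩)
      · calc y * p.1 * y⁻¹ * (y * p.2 * y⁻¹) = y * (p.1 * p.2) * y⁻¹ := by group
          _ = y * x * y⁻¹ := by rw [h3]
    · intro p _; ext <;> simp <;> group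
    · intro p _; ext <;> simp <;> group
  have hcl : ∀ h : G, (Nat.card (Subgroup.centralizer ({h} : Set G)) : ℂ) ≠ 0 := by
    intro h; exact_mod_cast Nat.card_pos.ne'
  have hcl' : ∀ h : G, (Nat.card {x : G // IsConj h x} : ℂ) *
      (Nat.card (Subgroup.centralizer ({h} : Set G)) : ℂ) = (Nat.card G : ℂ) := by
    intro h; exact_mod_cast Cfsg.Agent.H3.card_isConj_mul_card_centralizer h
  have hsum1 : ∀ (χ : Cfsg.IrrCharacter G) (y : G), ∑ x : G with IsConj a x, (χ : G → ℂ) (x * y) =
      (Nat.card {x : G // IsConj a x} : ℂ) * (χ : G → ℂ) a * (χ : G → ℂ) y / (χ : G → ℂ) 1 := by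
    intro χ y
    have h1 := Cfsg.Agent.H3.sum_irr_conj_mul χ.2 a y
    rw [Cfsg.Agent.H3.sum_conj_eq (fun x => (χ : G → ℂ) (x * y)) a, nsmul_eq_mul, ← hcl' a] at h1
    apply mul_left_cancel₀ (hcl a)
    rw [h1]; ring
  have hin : ∀ χ : Cfsg.IrrCharacter G, (starRingEnd ℂ) (Cfsg.classInner N χ) =
      (Nat.card {x : G // IsConj a x} : ℂ) * (Nat.card {x : G // IsConj b x} : ℂ) /
        (Nat.card G : ℂ) * ((χ : G → ℂ) a * (χ : G → ℂ) b / (χ : G → ℂ) 1) := by
    intro χ
    have h1 : ∑ z : G, (χ : G → ℂ) z * (starRingEnd ℂ) (N z) =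
        ∑ y : G with IsConj b y, ∑ x : G with IsConj a x, (χ : G → ℂ) (x * y) := by
      rw [Finset.sum_comm, ← Finset.sum_product', ← Finset.sum_fiberwise
        (s := Finset.univ.filter (IsConj a) ×ˢ Finset.univ.filter (IsConj b))
        (g := fun p : G × G => p.1 * p.2)]
      refine Finset.sum_congr rfl fun z _ => ?_
      rw [Finset.sum_congr rfl (g := fun _ => (χ : G → ℂ) z) (fun p hp => by
        rw [(Finset.mem_filter.mp hp).2])]
      rw [Finset.sum_const, nsmul_eq_mul, mul_comm]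
      simp only [N, Complex.conj_natCast]
      congr 3
      ext p
      simp [and_assoc]
    rw [Cfsg.Agent.H3.classInner_conj_symm, Cfsg.classInner, h1]
    simp only [hsum1]
    rw [← Finset.sum_div, ← Finset.mul_sum]
    have h2 : ∑ y : G with IsConj b y, (χ : G → ℂ) y =
        (Nat.card {x : G // IsConj b x} : ℂ) * (χ : G → ℂ) b := by
      rw [Finset.sum_congr rfl (g := fun _ => (χ : G → ℂ) b) (fun y hy =>
        (Cfsg.Agent.H3.classFun_isConj (Cfsg.Agent.H3.irr_classFun χ.2)
          (Finset.mem_filter.mp hy).2).symm)]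
      rw [Finset.sum_const, nsmul_eq_mul, Nat.card_eq_fintype_card, Fintype.card_subtype]
    rw [h2]; ring
  have hexp := Cfsg.Agent.H3.classFun_expand_apply hN c
  have h0 : (Nat.card {p : G × G // IsConj a p.1 ∧ IsConj b p.2 ∧ p.1 * p.2 = c} : ℂ) =
      (starRingEnd ℂ) (N c) := by
    simp only [N, Complex.conj_natCast]
    rw [Nat.card_eq_fintype_card, Fintype.card_subtype]
  rw [h0, hexp, map_sum, Finset.mul_sum]
  refine Finset.sum_congr rfl fun χ _ => ?_
  rw [map_mul, hin]; ring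

end Cfsg.Agent.S0840
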