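import Cfsg.Statements.S0848
import Cfsg.Agent.H9.BSWO

set_option autoImplicit false
open Cfsg

namespace Cfsg.Agent.S0848

/-- If a finite group equals its own commutator subgroup and contains an involution whose centralizer is isomorphic to the dihedral group of order 8, then the group has order 168 or 360. -/
theorem result {G : Type*} [Group G] [Finite G] (hperf : commutator G = ⊤) (t : G) (ht : orderOf t = 2) (e : Subgroup.centralizer ({t} : Set G) ≃* DihedralGroup 4) : Nat.card G = 168 ∨ Nat.card G = 360 := by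
  classical
  obtain ⟨A, s, h⟩ := Cfsg.Agent.H9.BSW.D8.of_iso ht e
  obtain ⟨P, hP, hAP, hrel⟩ := h.sylow
  have hno : ∀ M : Subgroup G, M.Normal → M.index ≠ 2 := by
    intro M hM h2
    haveI := hM
    have hc : IsMulCommutative (G ⧸ M) := by
      haveI : Fact (Nat.Prime 2) := ⟨Nat.prime_two⟩
      have h3 : IsCyclic (G ⧸ M) := isCyclic_of_prime_card (p := 2) (by rw [← h2]; rfl)
      haveI := h3
      exact ⟨⟨fun a b => (IsCyclic.commGroup (α := G ⧸ M)).mul_comm a b⟩⟩
    have h4 : commutator G ≤ M := by
      rw [commutator_def, Subgroup.commutator_le]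
      intro a _ b _
      rw [← QuotientGroup.eq_one_iff]
      have h5 := hc.is_comm.comm (QuotientGroup.mk a : G ⧸ M) (QuotientGroup.mk b)
      rw [commutatorElement_def]
      change (QuotientGroup.mk a : G ⧸ M) * QuotientGroup.mk b * (QuotientGroup.mk a)⁻¹ * (QuotientGroup.mk b)⁻¹ = 1
      rw [h5, mul_inv_cancel_right, mul_inv_cancel]
    rw [hperf, top_le_iff] at h4
    rw [h4, Subgroup.index_top] at h2
    omega
  have hone := Cfsg.Agent.H9.BSW.one_class hno P hAP hrel (fun x hx hx2 => h.uniq hx hx2)
  have hS := h.setup hone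
  letI : Fintype G := Fintype.ofFinite G
  rcases Cfsg.Agent.H9.BSW.order_cases hS (le_refl 4) with ⟨h1, -⟩ | ⟨h1, -⟩
  · right; rw [h1]
  · left; rw [h1]

end Cfsg.Agent.S0848
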