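import Cfsg.Statements.S0855
import Cfsg.Agent.H3.Thompson

set_option autoImplicit false
open Cfsg Cfsg.Agent Cfsg.Agent.H3

namespace Cfsg.Agent.S0855

/-- For a finite group G and a prime p: every irreducible character of G has degree a power of p if and only if G has an abelian normal subgroup whose order is prime to p and whose index is a power of p. -/
theorem result {G : Type*} [Group G] [Finite G] (p : ℕ) (hp : p.Prime) : (∀ χ : Cfsg.IrrCharacter G, ∃ k : ℕ, (χ : G → ℂ) 1 = (p : ℂ) ^ k) ↔ ∃ A : Subgroup G, A.Normal ∧ (∀ a ∈ A, ∀ b ∈ A, a * b = b * a) ∧ Nat.Coprime (Nat.card A) p ∧ ∃ k : ℕ, A.index = p ^ k := by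
  classical
  haveI := Fintype.ofFinite G
  constructor
  · exact degrees_ppower hp
  · rintro ⟨A, hA, hcomm, -, k, hk⟩ χ
    haveI := Fintype.ofFinite A
    haveI : IsMulCommutative A := ⟨⟨fun a b => Subtype.ext (hcomm a a.2 b b.2)⟩⟩
    have hres : IsCharacter A (fun a : A => (χ : G → ℂ) a) := isChar_restrict A (irr_isChar χ.2)
    have hne : (fun a : A => (χ : G → ℂ) a) ≠ 0 := by
      intro h0
      have h1 := congrFun h0 1
      exact irr_one_ne_zero χ.2 h1
    obtain ⟨⟨ϑ, hϑ⟩, hcon⟩ := exists_constituent hres hne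
    obtain ⟨-, h2⟩ := ratio_dvd_index hA χ.2 hϑ hcon (dg (χ : G → ℂ)) 1 (dg_eq (irr_isChar χ.2))
      (by rw [irr_degree_one_of_comm hϑ]; simp)
    rw [Nat.div_one, hk] at h2
    obtain ⟨j, -, hj⟩ := (Nat.dvd_prime_pow hp).1 h2
    exact ⟨j, by rw [dg_eq (irr_isChar χ.2), hj]; push_cast; rfl⟩

end Cfsg.Agent.S0855
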