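import Cfsg.Statements.S0856
import Cfsg.Agent.H3.Gallagher

set_option autoImplicit false
open Cfsg

namespace Cfsg.Agent.S0856

/-- Let N be a normal subgroup of the finite group G and φ, ϑ irreducible characters of N that are invariant under conjugation by G, such that the pointwise product φ * ϑ is irreducible and ϑ is the restriction of an irreducible character χ of G. Then multiplication by χ is a bijection from the set of irreducible characters of G having nonzero inner product with the function induced from φ onto the set of those having nonzero inner product with the function induced from φ * ϑ. -/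
theorem result {G : Type*} [Group G] [Fintype G] (N : Subgroup G) [hN : N.Normal] (φ ϑ : N → ℂ) (hφ : Cfsg.IsIrrCharacter N φ) (hϑ : Cfsg.IsIrrCharacter N ϑ) (hφinv : ∀ (g : G) (n : N), φ ⟨g * n * g⁻¹, hN.conj_mem (n : G) n.2 g⟩ = φ n) (hϑinv : ∀ (g : G) (n : N), ϑ ⟨g * n * g⁻¹, hN.conj_mem (n : G) n.2 g⟩ = ϑ n) (hprod : Cfsg.IsIrrCharacter N (φ * ϑ)) (χ : G → ℂ) (hχ : Cfsg.IsIrrCharacter G χ) (hext : ∀ n : N, χ n = ϑ n) : Set.BijOn (fun β : G → ℂ => β * χ) {β : G → ℂ | Cfsg.IsIrrCharacter G β ∧ Cfsg.classInner (Cfsg.indFun N φ) β ≠ 0} {ψ : G → ℂ | Cfsg.IsIrrCharacter G ψ ∧ Cfsg.classInner (Cfsg.indFun N (φ * ϑ)) ψ ≠ 0} := by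
  classical
  haveI := Fintype.ofFinite N
  obtain ⟨k1, k2, k3, k4⟩ := Cfsg.Agent.H3.gallagher_key hN hφ (fun g => funext fun n => hφinv g n)
    (fun g => funext fun n => hϑinv g n) hprod (Cfsg.Agent.H3.irr_isChar hχ) hext
  refine ⟨?_, ?_, ?_⟩
  · rintro β ⟨h1, h2⟩
    exact ⟨k2 β h1 h2, k4 β h1 h2⟩
  · rintro β ⟨h1, h2⟩ γ ⟨h3, h4⟩ h5
    rcases k1 β γ h1 h3 h2 h4 with h | h
    · exact h
    · exfalso
      have h6 := Cfsg.Agent.H3.classInner_self_of_irr (k2 β h1 h2)
      simp only at h5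
      rw [← h5, h6] at h
      exact one_ne_zero h
  · rintro ψ ⟨h1, h2⟩
    obtain ⟨β, h3, h4, h5⟩ := k3 ψ h1 h2
    exact ⟨β, ⟨h3, h4⟩, h5.symm⟩

end Cfsg.Agent.S0856
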