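import Cfsg.Statements.S0857
import Cfsg.Agent.H3.GoingDown

set_option autoImplicit false
open Cfsg

namespace Cfsg.Agent.S0857

/-- Let L < K be normal subgroups of the finite group G with no normal subgroup of G strictly between them and with K / L abelian (the commutator subgroup of K lies in L). Let ϑ be an irreducible character of K invariant under conjugation by G. Then the restriction of ϑ to L is irreducible; or it equals e times an irreducible character of L with e ^ 2 equal to the index of L in K; or it is the sum of a family of pairwise distinct irreducible characters of L indexed by a set whose size is the index of L in K. -/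
theorem result {G : Type*} [Group G] [Fintype G] (K L : Subgroup G) [hK : K.Normal] [L.Normal] (hLK : L < K) (hchief : ∀ M : Subgroup G, M.Normal → L ≤ M → M ≤ K → M = L ∨ M = K) (hab : ⁅K, K⁆ ≤ L) (ϑ : K → ℂ) (hϑ : Cfsg.IsIrrCharacter K ϑ) (hinv : ∀ (g : G) (n : K), ϑ ⟨g * n * g⁻¹, hK.conj_mem (n : G) n.2 g⟩ = ϑ n) : Cfsg.IsIrrCharacter L (fun x : L => ϑ ⟨(x : G), hLK.le x.2⟩) ∨ (∃ (φ : L → ℂ) (e : ℕ), Cfsg.IsIrrCharacter L φ ∧ (fun x : L => ϑ ⟨(x : G), hLK.le x.2⟩) = (e : ℂ) • φ ∧ e ^ 2 = L.relIndex K) ∨ (∃ F : Finset (L → ℂ), (∀ φ ∈ F, Cfsg.IsIrrCharacter L φ) ∧ F.card = L.relIndex K ∧ (fun x : L => ϑ ⟨(x : G), hLK.le x.2⟩) = ∑ φ ∈ F, φ) := by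
  classical
  have hL : L.Normal := inferInstance
  let e : L.subgroupOf K ≃* L := Subgroup.subgroupOfEquivOfLe hLK.le
  rcases Cfsg.Agent.H3.going_down hK hL hLK.le hchief hab hϑ (fun g => funext fun n => hinv g n)
    with h | ⟨-, φ, n, h1, h2, h3⟩ | ⟨F, h1, h2, h3⟩
  · left
    exact (Cfsg.Agent.H3.isIrr_comp_equiv_iff e.symm).2 h
  · right; left
    refine ⟨fun x => φ (e.symm x), n, (Cfsg.Agent.H3.isIrr_comp_equiv_iff e.symm).2 h1, ?_, h3⟩
    ext x
    exact congrFun h2 (e.symm x)
  · right; right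
    refine ⟨F.map ⟨fun φ x => φ (e.symm x), ?_⟩, ?_, ?_, ?_⟩
    · intro a b hab
      ext x
      have := congrFun hab (e x)
      simpa using this
    · intro φ hφ
      rw [Finset.mem_map] at hφ
      obtain ⟨ψ, hψ, rfl⟩ := hφ
      exact (Cfsg.Agent.H3.isIrr_comp_equiv_iff e.symm).2 (h1 ψ hψ)
    · rw [Finset.card_map]; exact h2
    · ext x
      have := congrFun h3 (e.symm x)
      rw [Finset.sum_map, Finset.sum_apply]
      rw [Finset.sum_apply] at this
      exact this

end Cfsg.Agent.S0857
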