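import Cfsg.Statements.S0859
import Cfsg.Agent.H3.PrimChar2

set_option autoImplicit false
open Cfsg Cfsg.Agent.H3

namespace Cfsg.Agent.S0859

/-- Let G be a finite solvable group and N a normal subgroup such that for every prime p every Sylow p-subgroup of N is abelian. Suppose every irreducible character of G is induced from an irreducible character of some subgroup containing N whose restriction to N is irreducible. Then every irreducible character of G is induced from a character of degree 1 of some subgroup. -/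
theorem result {G : Type*} [Group G] [Fintype G] [Group.IsSolvable G] (N : Subgroup G) [N.Normal] (hab : ∀ (p : ℕ) [Fact p.Prime] (P : Sylow p N), ∀ a ∈ P, ∀ b ∈ P, a * b = b * a) (hrel : ∀ χ : G → ℂ, Cfsg.IsIrrCharacter G χ → ∃ (H : Subgroup G) (hNH : N ≤ H) (ψ : H → ℂ), Cfsg.IsIrrCharacter H ψ ∧ Cfsg.indFun H ψ = χ ∧ Cfsg.IsIrrCharacter N (fun n : N => ψ ⟨(n : G), hNH n.2⟩)) (χ : G → ℂ) (hχ : Cfsg.IsIrrCharacter G χ) : ∃ (U : Subgroup G) (lam : U → ℂ), Cfsg.IsCharacter U lam ∧ lam 1 = 1 ∧ Cfsg.indFun U lam = χ := by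
  classical
  have hN : N.Normal := inferInstance
  have hs : Group.IsSolvable G := inferInstance
  obtain ⟨H, hNH, ψ, h1, h2, h3⟩ := hrel χ hχ
  haveI := Fintype.ofFinite H
  have hN' : (N.subgroupOf H).Normal := hN.subgroupOf H
  have h3' : IsIrrCharacter (N.subgroupOf H) (fun n : N.subgroupOf H => ψ n) := by
    have := (isIrr_comp_equiv_iff (Subgroup.subgroupOfEquivOfLe hNH)).2 h3
    exact this
  have hmon := monomial_of_restrict (G := H) inferInstance hN' (by
    intro p hp Q hQ hQp a ha b hb
    haveI : Fact p.Prime := ⟨hp⟩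
    -- `Q` inside `N`
    let R : Subgroup N := (Q.map H.subtype).subgroupOf N
    have hR : IsPGroup p R := by
      have h4 : IsPGroup p (Q.map H.subtype) := hQp.map _
      exact h4.of_injective (⟨⟨fun x => ⟨(x : N), x.2⟩, rfl⟩, fun _ _ => rfl⟩ :
        R →* Q.map H.subtype) (fun x y hxy => by
          have := congrArg Subtype.val hxy
          exact Subtype.ext (Subtype.ext this))
    obtain ⟨P, hP⟩ := hR.exists_le_sylow
    have haN : (a : G) ∈ N := hQ ha
    have hbN : (b : G) ∈ N := hQ hb
    have h5 := hab p P ⟨a, haN⟩ (hP ⟨a, ha, rfl⟩) ⟨b, hbN⟩ (hP ⟨b, hb, rfl⟩)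
    have h6 : (a : G) * b = b * a := congrArg (fun x : N => (x : G)) h5
    exact Subtype.ext h6) h1 h3'
  obtain ⟨U, lam, -, h4⟩ := monomial_ind H (P := fun _ => True) (fun _ _ => trivial) hmon
  rw [h2] at h4
  exact ⟨U, _, irr_isChar (isIrr_hf lam), hf_at_one lam, h4.symm⟩

end Cfsg.Agent.S0859
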