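import Cfsg.Statements.S0861
import Cfsg.Agent.H3.DegRatio
import Cfsg.Agent.H3.Power
import Cfsg.Agent.H3.Core4
import Cfsg.Agent.H11.Defect4
import Cfsg.Agent.H27.PMod
import Cfsg.Agent.H27.Galois
import Cfsg.Agent.H3.Basic2

set_option autoImplicit false
open Cfsg Cfsg.Agent Cfsg.Agent.H3

namespace Cfsg.Agent.S0861

theorem key {G : Type*} [Group G] [Finite G] (p : ℕ) [Fact p.Prime] (P : Sylow p G)
    (hPn : (P : Subgroup G).Normal) (hab : ∀ a ∈ P, ∀ b ∈ P, a * b = b * a) {χ : G → ℂ}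
    (hχ : IsIrrCharacter G χ) {x : G} (hx : x ∈ P) : χ x ≠ 0 := by
  classical
  haveI := Fintype.ofFinite G
  haveI := Fintype.ofFinite (P : Subgroup G)
  have hp : p.Prime := Fact.out
  obtain ⟨M, hM⟩ := H27.exists_isPModular hp
  have hpr := hM.2.1.isPrime
  -- the degree is prime to `p`
  have hres := isChar_restrict (P : Subgroup G) (irr_isChar hχ)
  have h0 : (fun k : (P : Subgroup G) => χ k) ≠ 0 := by
    intro h
    exact irr_one_ne_zero hχ (by simpa using congrFun h 1)
  obtain ⟨θ, hθ⟩ := exists_constituent hres h0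
  haveI : IsMulCommutative (P : Subgroup G) := ⟨⟨fun a b => Subtype.ext (hab a a.2 b b.2)⟩⟩
  have hθ1 := irr_degree_one_of_comm θ.2
  obtain ⟨d, hd0, hd⟩ := irr_one_eq_nat hχ
  obtain ⟨-, h2⟩ := ratio_dvd_index hPn hχ θ.2 hθ d 1 hd (by rw [hθ1]; simp)
  rw [Nat.div_one] at h2
  have hpd : ¬ p ∣ d := fun h => P.not_dvd_index (h.trans h2)
  intro hx0
  obtain ⟨k, hk⟩ := P.isPGroup' ⟨x, hx⟩
  have hxk : x ^ p ^ k = 1 := congrArg Subtype.val hk
  obtain ⟨j, -, hj⟩ := (Nat.dvd_prime_pow hp).1 (orderOf_dvd_of_pow_eq_one hxk)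
  have h3 := H11.li_char_mul_sub hM (irr_isChar hχ) (Commute.one_right x) ⟨j, hj⟩
  rw [mul_one, hx0, zero_sub, hd] at h3
  have h4 := H11.li_neg h3
  rw [neg_neg, H11.li_natCast_iff hM] at h4
  exact hpd h4

/-- Let P be a normal abelian Sylow p-subgroup of the finite group G and suppose some element g of P has centralizer exactly P. Then the number of irreducible characters of G is at most the order of P, and if equality holds then G / P is abelian (the commutator subgroup lies in P). -/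
theorem result {G : Type*} [Group G] [Finite G] (p : ℕ) [Fact p.Prime] (P : Sylow p G) [(P : Subgroup G).Normal] (hab : ∀ a ∈ P, ∀ b ∈ P, a * b = b * a) (g : G) (hg : g ∈ P) (hC : Subgroup.centralizer ({g} : Set G) = P) : Nat.card (Cfsg.IrrCharacter G) ≤ Nat.card P ∧ (Nat.card (Cfsg.IrrCharacter G) = Nat.card P → commutator G ≤ P) := by

  classical
  haveI := Fintype.ofFinite G
  haveI := Fintype.ofFinite (IrrCharacter G)
  have hPn : (P : Subgroup G).Normal := inferInstance
  let D : Finset G := Finset.univ.filter (fun x => ∃ m : ℕ, m.Coprime (Nat.card G) ∧ x = g ^ m)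
  have hgD : g ∈ D := Finset.mem_filter.2 ⟨Finset.mem_univ _, 1, Nat.coprime_one_left _, (pow_one g).symm⟩
  have hD : ∀ x ∈ D, ∀ m : ℕ, m.Coprime (Nat.card G) → x ^ m ∈ D := by
    intro x hx m hm
    obtain ⟨-, k, hk, rfl⟩ := Finset.mem_filter.1 hx
    exact Finset.mem_filter.2 ⟨Finset.mem_univ _, k * m, Nat.Coprime.mul_left hk hm, by rw [pow_mul]⟩
  have hDP : ∀ x ∈ D, x ∈ P := by
    intro x hx
    obtain ⟨-, k, hk, rfl⟩ := Finset.mem_filter.1 hx
    exact (P : Subgroup G).pow_mem hg k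
  have hDC : ∀ x ∈ D, Subgroup.centralizer ({x} : Set G) = P := by
    intro x hx
    obtain ⟨-, k, hk, rfl⟩ := Finset.mem_filter.1 hx
    rw [← hC]
    apply le_antisymm
    · intro y hy
      rw [Subgroup.mem_centralizer_singleton_iff] at hy ⊢
      have h1 : g ^ k ∈ Subgroup.centralizer ({y} : Set G) :=
        Subgroup.mem_centralizer_singleton_iff.2 hy.symm
      exact (Subgroup.mem_centralizer_singleton_iff.1 ((pow_mem_iff hk _ g).1 h1)).symm
    · intro y hy
      rw [Subgroup.mem_centralizer_singleton_iff] at hy ⊢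
      exact ((show Commute y g from hy).pow_right k).eq
  have hcol : ∀ x ∈ D, ∑ χ : IrrCharacter G, ‖(χ : G → ℂ) x‖ ^ 2 = (Nat.card P : ℝ) := by
    intro x hx
    have h1 := column_orth x x
    rw [if_pos (IsConj.refl x), hDC x hx] at h1
    have h2 : ∑ χ : IrrCharacter G, (χ : G → ℂ) x * starRingEnd ℂ ((χ : G → ℂ) x) =
        ((∑ χ : IrrCharacter G, ‖(χ : G → ℂ) x‖ ^ 2 : ℝ) : ℂ) := by
      rw [Complex.ofReal_sum]
      refine Finset.sum_congr rfl fun c _ => ?_
      rw [Complex.mul_conj, Complex.normSq_eq_norm_sq]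
    rw [h2] at h1
    exact_mod_cast h1
  have hburn : ∀ χ : IrrCharacter G, (D.card : ℝ) ≤ ∑ x ∈ D, ‖(χ : G → ℂ) x‖ ^ 2 := fun χ =>
    H27.burnside_norm_sum (irr_isChar χ.2) D hD fun x hx => key p P hPn hab χ.2 (hDP x hx)
  have htot : ∑ χ : IrrCharacter G, ∑ x ∈ D, ‖(χ : G → ℂ) x‖ ^ 2 = (D.card : ℝ) * Nat.card P := by
    rw [Finset.sum_comm, Finset.sum_congr rfl hcol, Finset.sum_const, nsmul_eq_mul]
  have hDpos : (0 : ℝ) < D.card := by exact_mod_cast Finset.card_pos.2 ⟨g, hgD⟩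
  have hk : (Nat.card (IrrCharacter G) : ℝ) * D.card = ∑ χ : IrrCharacter G, (D.card : ℝ) := by
    rw [Finset.sum_const, nsmul_eq_mul, Finset.card_univ, Nat.card_eq_fintype_card]
  constructor
  · have h1 : (Nat.card (IrrCharacter G) : ℝ) * D.card ≤ Nat.card P * D.card := by
      rw [hk, mul_comm (Nat.card P : ℝ), ← htot]
      exact Finset.sum_le_sum fun χ _ => hburn χ
    have h2 := le_of_mul_le_mul_right h1 hDpos
    exact_mod_cast h2
  · intro heq
    have h1 : ∑ χ : IrrCharacter G, (D.card : ℝ) =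
        ∑ χ : IrrCharacter G, ∑ x ∈ D, ‖(χ : G → ℂ) x‖ ^ 2 := by
      rw [htot, ← hk, heq, mul_comm]
    have h2 := (Finset.sum_eq_sum_iff_of_le (fun χ _ => hburn χ)).1 h1
    have hcomm : ∀ a b : G ⧸ (P : Subgroup G), a * b = b * a := by
      rw [comm_iff_all_linear]
      intro ψ
      have h3 := isIrr_comp_surjective ψ.2 (QuotientGroup.mk' (P : Subgroup G))
        (QuotientGroup.mk'_surjective _)
      have h4 := h2 ⟨_, h3⟩ (Finset.mem_univ _)
      obtain ⟨d, hd0, hd⟩ := irr_one_eq_nat ψ.2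
      have h5 : ∀ x ∈ D, ‖(ψ : G ⧸ (P : Subgroup G) → ℂ) (QuotientGroup.mk' (P : Subgroup G) x)‖ ^ 2
          = (d : ℝ) ^ 2 := by
        intro x hx
        have h6 : QuotientGroup.mk' (P : Subgroup G) x = 1 :=
          (QuotientGroup.eq_one_iff x).2 (hDP x hx)
        rw [h6, hd, Complex.norm_natCast]
      have h6 : (D.card : ℝ) = ∑ x ∈ D, (d : ℝ) ^ 2 := h4.trans (Finset.sum_congr rfl h5)
      rw [Finset.sum_const, nsmul_eq_mul] at h6
      have h7 : (d : ℝ) ^ 2 = 1 := by
        have : (D.card : ℝ) * 1 = D.card * (d : ℝ) ^ 2 := by rw [mul_one]; exact h6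
        exact (mul_left_cancel₀ hDpos.ne' this).symm
      have h8 : d = 1 := by
        have : d ^ 2 = 1 := by exact_mod_cast h7
        nlinarith
      rw [hd, h8]; simp
    rw [commutator_def, Subgroup.commutator_le]
    intro a _ b _
    rw [← QuotientGroup.eq_one_iff, commutatorElement_def]
    simp only [QuotientGroup.mk_mul, QuotientGroup.mk_inv]
    rw [hcomm (a : G ⧸ (P : Subgroup G)) b]; group

end Cfsg.Agent.S0861
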