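import Cfsg.Statements.S0862
import Cfsg.Agent.H3.DetExt

set_option autoImplicit false
open Cfsg

namespace Cfsg.Agent.S0862

/-- Let N be a normal subgroup of the finite group G and ϑ an irreducible character of N of degree d coprime to the index of N, which is the restriction of some irreducible character of G. Let μ be a character of G of degree 1 whose restriction to N is the determinantal character of ϑ. Then there is exactly one irreducible character χ of G restricting to ϑ whose determinantal character is μ. -/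
theorem result {G : Type*} [Group G] [Finite G] (N : Subgroup G) [N.Normal] (ϑ : N → ℂ) (hϑ : Cfsg.IsIrrCharacter N ϑ) (d : ℕ) (hd : ϑ 1 = d) (hcop : Nat.Coprime N.index d) (hext : ∃ η : G → ℂ, Cfsg.IsIrrCharacter G η ∧ (∀ n : N, η n = ϑ n)) (μ : G → ℂ) (hμ : Cfsg.IsCharacter G μ ∧ μ 1 = 1) (hμN : ∀ n : N, μ n = Cfsg.detChar ϑ n) : ∃! χ : G → ℂ, Cfsg.IsIrrCharacter G χ ∧ (∀ n : N, χ n = ϑ n) ∧ Cfsg.detChar χ = μ := by
  have hN : N.Normal := inferInstance
  obtain ⟨η, hη, hr⟩ := hext
  obtain ⟨ν, rfl⟩ := Cfsg.Agent.H3.exists_hf hμ.1 hμ.2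
  have hrf : (fun n : N => η n) = ϑ := funext hr
  have hη1 : η 1 = d := by
    have := hr 1
    rw [Subgroup.coe_one] at this
    rw [this, hd]
  obtain ⟨χ, h1, h2, h3⟩ := Cfsg.Agent.H3.det_exists hN hη hη1 hcop ν (fun n => by
    rw [hμN, ← Cfsg.Agent.H3.detChar_restrict (Cfsg.Agent.H3.irr_isChar hη) N n, hrf])
  refine ⟨χ, ⟨h1, fun n => (h2 n).trans (hr n), h3⟩, ?_⟩
  rintro χ' ⟨h4, h5, h6⟩
  have h7 : (fun n : N => χ n) = ϑ := funext fun n => (h2 n).trans (hr n)
  refine Cfsg.Agent.H3.det_unique hN h1 h4 (by rw [h7]; exact hϑ) (fun n => ?_) (d := d) ?_ hcop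
    (by rw [h6, h3])
  · rw [h5 n, h2 n, hr n]
  · have := congrFun h7 1
    simp only [Subgroup.coe_one] at this
    rw [this, hd]

end Cfsg.Agent.S0862
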