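import Cfsg.Statements.S0865
import Cfsg.Agent.H3.DetExt

set_option autoImplicit false
open Cfsg

namespace Cfsg.Agent.S0865

/-- Let N be a normal subgroup of the finite group G and λ a character of N of degree 1, invariant under conjugation by G, whose order (under pointwise multiplication) is coprime to the index of N. Then there is a character μ of G of degree 1 restricting to λ with the same order as λ, and μ is the only degree-1 character of G restricting to λ whose order is coprime to the index of N. -/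
theorem result {G : Type*} [Group G] [Finite G] (N : Subgroup G) [hN : N.Normal] (lam : N → ℂ) (hlam : Cfsg.IsCharacter N lam ∧ lam 1 = 1) (hinv : ∀ (g : G) (n : N), lam ⟨g * n * g⁻¹, hN.conj_mem (n : G) n.2 g⟩ = lam n) (hcop : Nat.Coprime N.index (orderOf lam)) : ∃ μ : G → ℂ, (Cfsg.IsCharacter G μ ∧ μ 1 = 1 ∧ (∀ n : N, μ n = lam n) ∧ orderOf μ = orderOf lam) ∧ ∀ μ' : G → ℂ, Cfsg.IsCharacter G μ' ∧ μ' 1 = 1 → (∀ n : N, μ' n = lam n) → Nat.Coprime N.index (orderOf μ') → μ' = μ := by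
  obtain ⟨l, rfl⟩ := Cfsg.Agent.H3.exists_hf hlam.1 hlam.2
  rw [Cfsg.Agent.H3.orderOf_hf] at hcop ⊢
  obtain ⟨μ, h1, h2⟩ := Cfsg.Agent.H3.lin_extends hN l (fun g => funext fun n => hinv g n) hcop
  refine ⟨Cfsg.Agent.H3.hf μ, ⟨Cfsg.Agent.H3.irr_isChar (Cfsg.Agent.H3.isIrr_hf μ),
    Cfsg.Agent.H3.hf_at_one μ, h1, by rw [Cfsg.Agent.H3.orderOf_hf, h2]⟩, ?_⟩
  rintro μ' ⟨h3, h4⟩ h5 h6
  obtain ⟨ν, rfl⟩ := Cfsg.Agent.H3.exists_hf h3 h4
  rw [Cfsg.Agent.H3.orderOf_hf] at h6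
  rw [Cfsg.Agent.H3.lin_unique hN μ ν (fun n => Units.ext ((h1 n).trans (h5 n).symm))
    (by rw [h2]; exact hcop) h6]

end Cfsg.Agent.S0865
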