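import Cfsg.Statements.S0876
import Cfsg.Agent.H3.BrauerF
import Cfsg.Agent.H11.Defect4

set_option autoImplicit false
open Cfsg Cfsg.Agent Cfsg.Agent.H3

namespace Cfsg.Agent.S0876

/-- Let G be a finite group, p a prime and M a maximal ideal of the ring of algebraic integers containing p. Let x, y be elements with p-parts a and b (so a⁻¹ * x and b⁻¹ * y are their p-regular parts). Then a⁻¹ * x and b⁻¹ * y are conjugate in G if and only if, for every irreducible character χ, the difference χ x - χ y lies in the local ideal at M. -/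
theorem result {G : Type*} [Group G] [Finite G] (p : ℕ) (M : Ideal Cfsg.AlgInt) (hM : Cfsg.IsPModular p M) (x y a b : G) (ha : Cfsg.IsPPart p x a) (hb : Cfsg.IsPPart p y b) : IsConj (a⁻¹ * x) (b⁻¹ * y) ↔ ∀ χ : Cfsg.IrrCharacter G, Cfsg.MemLocalIdeal M ((χ : G → ℂ) x - (χ : G → ℂ) y) := by
  classical
  haveI := Fintype.ofFinite G
  haveI := Fintype.ofFinite (IrrCharacter G)
  have hpr := hM.2.1.isPrime
  have hp : p.Prime := hM.1
  obtain ⟨s, hs, hcs, ⟨k, hk⟩, hs'⟩ := ha
  obtain ⟨t, ht, hct, ⟨l, hl⟩, ht'⟩ := hb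
  have e1 : a⁻¹ * x = s := by rw [← hs]; group
  have e2 : b⁻¹ * y = t := by rw [← ht]; group
  rw [e1, e2]
  have h1 : ∀ χ : IrrCharacter G, MemLocalIdeal M ((χ : G → ℂ) x - (χ : G → ℂ) s) := fun χ => by
    rw [← hs]; exact H11.li_char_mul_sub hM (irr_isChar χ.2) hcs ⟨k, hk⟩
  have h2 : ∀ χ : IrrCharacter G, MemLocalIdeal M ((χ : G → ℂ) y - (χ : G → ℂ) t) := fun χ => by
    rw [← ht]; exact H11.li_char_mul_sub hM (irr_isChar χ.2) hct ⟨l, hl⟩
  constructor
  · intro hst χ
    have h3 : (χ : G → ℂ) s = (χ : G → ℂ) t := classFun_isConj (irr_classFun χ.2) hst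
    exact H11.li_sub_trans (h1 χ) (by rw [h3]; exact H11.li_sub_comm.1 (h2 χ))
  · intro hall
    by_contra hst
    -- the section of `s`
    obtain ⟨c, m, hm, hcm⟩ := Nat.exists_eq_pow_mul_and_not_dvd (Nat.card_pos (α := G)).ne' p
      hp.ne_one
    have hcop : Nat.Coprime (p ^ c) m := ((Nat.Prime.coprime_iff_not_dvd hp).2 hm).pow_left c
    have hsp : Nat.Coprime (orderOf s) (p ^ c) :=
      (((Nat.Prime.coprime_iff_not_dvd hp).2 hs').symm).pow_right c
    have htp : Nat.Coprime (orderOf t) (p ^ c) :=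
      (((Nat.Prime.coprime_iff_not_dvd hp).2 ht').symm).pow_right c
    have hone : Nat.Coprime (orderOf (1 : G)) m := by rw [orderOf_one]; exact Nat.coprime_one_left m
    let ϑ : G → ℂ := fun z => if InSec (p ^ c) m s z then (m : ℂ) else 0
    obtain ⟨hcl, hint⟩ := section_integral (g := s) (ϑ := ϑ) hcm hcop
      (fun z hz => if_pos hz) (fun z hz => if_neg hz)
    have hs1 : ϑ s = m := if_pos ⟨s, IsConj.refl s, 1, by simp, Commute.one_left _, hone, hsp⟩
    have ht1 : ϑ t = 0 := by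
      apply if_neg
      rintro ⟨v, hv, u, huv, hcuv, hu, hv'⟩
      have h3 : t = v := part_unique hcm hcop (Commute.one_left t) hcuv hone htp hu hv' (by
        rw [one_mul]; exact huv)
      apply hst
      rw [h3]; exact hv.symm
    have h3 : MemLocalIdeal M (ϑ s - ϑ t) := by
      rw [classFun_expand_apply hcl s, classFun_expand_apply hcl t, ← Finset.sum_sub_distrib]
      apply H11.li_sum
      intro χ _
      rw [← mul_sub]
      apply H11.li_mul_left (H11.lr_int (hint χ (irr_isChar χ.2)))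
      have h4 : (χ : G → ℂ) s - (χ : G → ℂ) t = ((χ : G → ℂ) s - (χ : G → ℂ) x) +
          (((χ : G → ℂ) x - (χ : G → ℂ) y) + ((χ : G → ℂ) y - (χ : G → ℂ) t)) := by ring
      rw [h4]
      exact H11.li_add (H11.li_sub_comm.1 (h1 χ)) (H11.li_add (hall χ) (h2 χ))
    rw [hs1, ht1, sub_zero, H11.li_natCast_iff hM] at h3
    exact hm h3

end Cfsg.Agent.S0876
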