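import Cfsg.Statements.S0878
import Cfsg.Agent.H20.Zass4

set_option autoImplicit false
open Cfsg


namespace Cfsg.Agent.S0878


/-- Let G be a Zassenhaus group on the finite set Ω, a a point, and let H be the subgroup of the stabilizer of a consisting of the identity and the elements fixing no point other than a (given here as a subgroup of the stabilizer of order one less than the number of points whose non-identity elements fix only a; it is the Frobenius kernel of the stabilizer). Then an element outside the stabilizer of a conjugates no non-identity element of H into H, and the normalizer of H is exactly the stabilizer of a. -/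
theorem result {G Ω : Type*} [Group G] [Finite G] [MulAction G Ω] [Fintype Ω] (hZ : Cfsg.IsZassenhausGroup G Ω) (a : Ω) (H : Subgroup G) (hHa : H ≤ MulAction.stabilizer G a) (hHcard : Nat.card H + 1 = Fintype.card Ω) (hHfix : ∀ u ∈ H, u ≠ 1 → ∀ c : Ω, u • c = c → c = a) : (∀ g : G, g ∉ MulAction.stabilizer G a → ∀ u ∈ H, g * u * g⁻¹ ∈ H → u = 1) ∧ Subgroup.normalizer (H : Set G) = MulAction.stabilizer G a := by
  classical
  have hK : H = H20.Zass.K hZ a :=
    H20.Zass.eq_K hZ hHa hHfix (by rw [hHcard, Nat.card_eq_fintype_card])
  subst hK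
  have key : ∀ g u : G, u ∈ H20.Zass.K hZ a → u ≠ 1 → g * u * g⁻¹ ∈ H20.Zass.K hZ a →
      g • a = a := by
    intro g u hu hu1 hg
    apply H20.Zass.K_fix hZ hg (fun h => hu1 (conj_eq_one_iff.mp h))
    rw [mul_smul, inv_smul_smul, mul_smul]
    congr 1
    exact H20.Zass.K_le hZ a hu
  refine ⟨?_, ?_⟩
  · intro g hg u hu hgu
    by_contra hu1
    exact hg (key g u hu hu1 hgu)
  · ext g
    constructor
    · intro hg
      obtain ⟨b, hab⟩ := H20.Zass.exists_ne_pt hZ a
      obtain ⟨c, hca, hcb⟩ := H20.Zass.exists_third hZ hab
      obtain ⟨u, hu, hub⟩ := H20.Zass.exists_K hZ (Ne.symm hab) hca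
      have hu1 : u ≠ 1 := by
        rintro rfl
        rw [one_smul] at hub
        exact hcb hub.symm
      exact key g u hu hu1 ((Subgroup.mem_normalizer_iff.mp hg u).mp hu)
    · intro hg
      rw [Subgroup.mem_normalizer_iff]
      intro u
      refine ⟨H20.Zass.K_normal_in hZ hg, fun h => ?_⟩
      have h2 := H20.Zass.K_normal_in hZ (g := g⁻¹) (inv_smul_eq_iff.mpr
        (show a = g • a from hg.symm)) h
      simpa [mul_assoc] using h2


end Cfsg.Agent.S0878
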