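import Cfsg.Statements.S0879
import Cfsg.Agent.H20.Zass4

set_option autoImplicit false
open Cfsg


namespace Cfsg.Agent.S0879


/-- Let G be a Zassenhaus group on the finite set Ω and E the stabilizer of two distinct points a, b. Then an element outside the normalizer of E conjugates no non-identity element of E into E, and E has index 2 in its normalizer. -/
theorem result {G Ω : Type*} [Group G] [Finite G] [MulAction G Ω] [Fintype Ω] (hZ : Cfsg.IsZassenhausGroup G Ω) {a b : Ω} (hab : a ≠ b) : (∀ g : G, g ∉ Subgroup.normalizer ((MulAction.stabilizer G a ⊓ MulAction.stabilizer G b : Subgroup G) : Set G) → ∀ x ∈ (MulAction.stabilizer G a ⊓ MulAction.stabilizer G b : Subgroup G), g * x * g⁻¹ ∈ (MulAction.stabilizer G a ⊓ MulAction.stabilizer G b : Subgroup G) → x = 1) ∧ ((MulAction.stabilizer G a ⊓ MulAction.stabilizer G b : Subgroup G).subgroupOf (Subgroup.normalizer ((MulAction.stabilizer G a ⊓ MulAction.stabilizer G b : Subgroup G) : Set G))).index = 2 := by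
  refine ⟨?_, H20.Zass.index_two_pt hZ hab⟩
  intro g hg x hx hgx
  by_contra hx1
  apply hg
  rw [H20.Zass.mem_normalizer_two_pt hZ hab]
  exact H20.Zass.pair_of_conj hZ hab hx1 hx.1 hx.2 hgx.1 hgx.2


end Cfsg.Agent.S0879
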