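import Cfsg.Statements.S0880
import Cfsg.Agent.H20.Zass9

set_option autoImplicit false
open Cfsg


namespace Cfsg.Agent.S0880


open MulAction in
/-- Let G be a finite simple Zassenhaus group on Ω with n points whose two-point stabilizer E has odd order less than n - 2. Then there are two elements of G, each fixing no point of Ω, that are not conjugate. -/
theorem result {G Ω : Type*} [Group G] [Finite G] [MulAction G Ω] [Fintype Ω] (hZ : Cfsg.IsZassenhausGroup G Ω) {a b : Ω} (hab : a ≠ b) [IsSimpleGroup G] (hodd : Odd (Nat.card ↥(MulAction.stabilizer G a ⊓ MulAction.stabilizer G b : Subgroup G))) (hlt : Nat.card ↥(MulAction.stabilizer G a ⊓ MulAction.stabilizer G b : Subgroup G) < Fintype.card Ω - 2) : ∃ x y : G, (∀ c : Ω, x • c ≠ c) ∧ (∀ c : Ω, y • c ≠ c) ∧ ¬ IsConj x y := by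
  classical
  have hO := H20.Zass.oddInv_of_simple hZ hab hodd
  have hN := hO.le_card_outside hab
  haveI := H20.Zass.finite_group hZ
  haveI : Finite (ConjClasses G) := Quotient.finite _
  set E : Subgroup G := stabilizer G a ⊓ stabilizer G b with hE
  obtain ⟨x0, hx01, hx0a, hx0b⟩ := H20.Zass.exists_two_pt hZ hab
  let SE := {C : ConjClasses G // ∃ x : G, x ∈ E ∧ x ≠ 1 ∧ ConjClasses.mk x = C}
  let S := {C : ConjClasses G // ∀ g : G, ConjClasses.mk g = C → g ∉ H20.Zass.K hO.zass a}
  obtain ⟨s, hsa, hsb⟩ := H20.Zass.exists_smul hZ hab (Ne.symm hab)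
  -- count of SE
  have hSE : 2 * Nat.card SE ≤ Nat.card E - 1 := by
    have hch : ∀ C : SE, ∃ x : G, x ∈ E ∧ x ≠ 1 ∧ ConjClasses.mk x = C.1 := fun C => C.2
    choose r hr1 hr2 hr3 using hch
    have hinvc : ∀ x ∈ E, ConjClasses.mk x⁻¹ = ConjClasses.mk x := by
      intro x hx
      rw [ConjClasses.mk_eq_mk_iff_isConj]
      exact (isConj_iff.mpr ⟨s, hO.inv a b hab s hsa hsb x hx⟩).symm
    have h1 : Nat.card E - 1 = Nat.card {x : E // x ≠ 1} := by
      haveI := Fintype.ofFinite G
      rw [Nat.card_eq_fintype_card, Nat.card_eq_fintype_card, Fintype.card_subtype_compl,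
        Fintype.card_subtype_eq]
    rw [h1]
    have h2 : 2 * Nat.card SE = Nat.card (SE × Bool) := by
      rw [Nat.card_prod, mul_comm]
      congr 1
      simp
    rw [h2]
    apply Nat.card_le_card_of_injective (fun p : SE × Bool => (if p.2 then
      (⟨⟨r p.1, hr1 p.1⟩, fun h => hr2 p.1 (congrArg Subtype.val h)⟩ : {x : E // x ≠ 1}) else
      ⟨⟨(r p.1)⁻¹, E.inv_mem (hr1 p.1)⟩, fun h => hr2 p.1 (inv_eq_one.mp (congrArg Subtype.val h))⟩))
    have hcl : ∀ p : SE × Bool, ConjClasses.mk (((if p.2 then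
      (⟨⟨r p.1, hr1 p.1⟩, fun h => hr2 p.1 (congrArg Subtype.val h)⟩ : {x : E // x ≠ 1}) else
      ⟨⟨(r p.1)⁻¹, E.inv_mem (hr1 p.1)⟩, fun h => hr2 p.1 (inv_eq_one.mp (congrArg Subtype.val h))⟩) :
        {x : E // x ≠ 1}) : G) = p.1.1 := by
      intro p
      split_ifs
      · exact hr3 p.1
      · exact (hinvc _ (hr1 p.1)).trans (hr3 p.1)
    intro p p' hpp
    have h3 : p.1 = p'.1 := by
      apply Subtype.ext
      rw [← hcl p, ← hcl p']
      exact congrArg (fun x : {x : E // x ≠ 1} => ConjClasses.mk ((x : E) : G)) hpp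
    refine Prod.ext h3 ?_
    have hne : r p.1 ≠ (r p.1)⁻¹ := by
      intro h4
      have h5 : r p.1 * r p.1 = 1 := by
        nth_rw 1 [h4]
        exact inv_mul_cancel _
      have h6 : orderOf (r p.1) = 2 := orderOf_eq_prime (by rw [pow_two, h5]) (hr2 p.1)
      have h7 := Subgroup.orderOf_dvd_natCard _ (hr1 p.1)
      rw [h6] at h7
      exact (Nat.not_even_iff_odd.mpr hodd) (even_iff_two_dvd.mpr h7)
    obtain ⟨C, β⟩ := p
    obtain ⟨C', β'⟩ := p'
    simp only at h3 hne
    subst h3
    show β = β'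
    cases β <;> cases β'
    · rfl
    · exfalso
      have := congrArg (fun x : {x : E // x ≠ 1} => ((x : E) : G)) hpp
      exact hne this.symm
    · exfalso
      have := congrArg (fun x : {x : E // x ≠ 1} => ((x : E) : G)) hpp
      exact hne this
    · rfl
  have hE2 : 2 ≤ Nat.card E := by
    have : Nontrivial E := ⟨⟨⟨x0, hx0a, hx0b⟩, 1, fun h => hx01 (congrArg Subtype.val h)⟩⟩
    exact Finite.one_lt_card
  -- every class outside is either fixed point free or meets E
  have hdich : ∀ C : S, (∃ x : G, x ∈ E ∧ x ≠ 1 ∧ ConjClasses.mk x = C.1) ∨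
      (∀ x : G, ConjClasses.mk x = C.1 → ∀ c : Ω, x • c ≠ c) := by
    rintro ⟨C, hC⟩
    by_cases hfp : ∀ x : G, ConjClasses.mk x = C → ∀ c : Ω, x • c ≠ c
    · exact Or.inr hfp
    · left
      push Not at hfp
      obtain ⟨x, hx, c, hc⟩ := hfp
      have hx1 : x ≠ 1 := by
        rintro rfl
        exact hC 1 hx (one_mem _)
      by_cases h2 : ∃ d : Ω, d ≠ c ∧ x • d = d
      · obtain ⟨d, hdc, hd⟩ := h2
        obtain ⟨g, hg1, hg2⟩ := H20.Zass.exists_smul hZ (Ne.symm hdc) hab
        refine ⟨g * x * g⁻¹, ⟨?_, ?_⟩, fun h => hx1 (conj_eq_one_iff.mp h), ?_⟩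
        · show (g * x * g⁻¹) • a = a
          rw [← hg1, mul_smul, inv_smul_smul, mul_smul, hc]
        · show (g * x * g⁻¹) • b = b
          rw [← hg2, mul_smul, inv_smul_smul, mul_smul, hd]
        · show ConjClasses.mk (g * x * g⁻¹) = C
          rw [← hx, ConjClasses.mk_eq_mk_iff_isConj]
          exact (isConj_iff.mpr ⟨g, rfl⟩).symm
      · exfalso
        push Not at h2
        obtain ⟨g, hg⟩ := H20.Zass.exists_smul_one hZ c a
        have h3 : x ∈ H20.Zass.K hZ c := by
          rw [H20.Zass.mem_K]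
          right
          refine ⟨hc, fun d hd => ?_⟩
          by_contra hdc
          exact h2 d hdc hd
        refine hC (g * x * g⁻¹) ?_ (H20.Zass.conj_mem_K hZ hg h3)
        rw [← hx, ConjClasses.mk_eq_mk_iff_isConj]
        exact (isConj_iff.mpr ⟨g, rfl⟩).symm
  by_contra hcon
  push Not at hcon
  have hle : Nat.card S ≤ Nat.card (Option SE) := by
    apply Nat.card_le_card_of_injective (fun C : S =>
      if h : (∃ x : G, x ∈ E ∧ x ≠ 1 ∧ ConjClasses.mk x = C.1) then some (⟨C.1, h⟩ : SE) else none)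
    intro C C' hCC
    by_cases h1 : ∃ x : G, x ∈ E ∧ x ≠ 1 ∧ ConjClasses.mk x = C.1 <;>
    by_cases h2 : ∃ x : G, x ∈ E ∧ x ≠ 1 ∧ ConjClasses.mk x = C'.1
    · simp only [h1, h2, dif_pos] at hCC
      have h9 := Option.some_injective SE hCC
      exact Subtype.ext (congrArg (fun q : SE => q.1) h9)
    · simp only [h1, h2, dif_pos, dif_neg, not_false_iff] at hCC
      exact absurd hCC (by simp)
    · simp only [h1, h2, dif_pos, dif_neg, not_false_iff] at hCC
      exact absurd hCC (by simp)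
    · have h3 := (hdich C).resolve_left h1
      have h4 := (hdich C').resolve_left h2
      obtain ⟨x, hx⟩ := ConjClasses.exists_rep C.1
      obtain ⟨y, hy⟩ := ConjClasses.exists_rep C'.1
      have h5 := hcon x y (h3 x hx) (h4 y hy)
      apply Subtype.ext
      rw [← hx, ← hy, ConjClasses.mk_eq_mk_iff_isConj]
      exact h5
  have hopt : Nat.card (Option SE) = Nat.card SE + 1 := by
    haveI : Fintype SE := Fintype.ofFinite _
    rw [Nat.card_eq_fintype_card, Nat.card_eq_fintype_card, Fintype.card_option]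
  rw [hopt] at hle
  have hN' : Nat.card E ≤ Nat.card S := hN
  omega


end Cfsg.Agent.S0880
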