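import Cfsg.Statements.S0882
import Cfsg.Agent.H20.Zass7

set_option autoImplicit false
open Cfsg


namespace Cfsg.Agent.S0882


/-- Let G be a finite simple Zassenhaus group on Ω with n = h + 1 points whose two-point stabilizer E has odd order e with 2e < h - 1. Then any two involutions of G are conjugate, and the number of involutions is e * (h + 1) if h is even and e * h if h is odd. -/
theorem result {G Ω : Type*} [Group G] [Finite G] [MulAction G Ω] [Fintype Ω] (hZ : Cfsg.IsZassenhausGroup G Ω) {a b : Ω} (hab : a ≠ b) [IsSimpleGroup G] (h e : ℕ) (hh : Fintype.card Ω = h + 1) (he : Nat.card ↥(MulAction.stabilizer G a ⊓ MulAction.stabilizer G b : Subgroup G) = e) (hodd : Odd e) (hlt : 2 * e < h - 1) : (∀ x y : G, orderOf x = 2 → orderOf y = 2 → IsConj x y) ∧ Nat.card {x : G // orderOf x = 2} = (if Even h then e * (h + 1) else e * h) := by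
  subst he
  have hO := H20.Zass.oddInv_of_simple hZ hab hodd
  have horder : ∀ s : G, orderOf s = 2 ↔ (s ≠ 1 ∧ s * s = 1) := by
    intro s
    constructor
    · intro h
      refine ⟨?_, ?_⟩
      · rintro rfl
        rw [orderOf_one] at h
        omega
      · rw [← pow_two, ← h]
        exact pow_orderOf_eq_one s
    · rintro ⟨h1, h2⟩
      exact orderOf_eq_prime (by rw [pow_two, h2]) h1
  refine ⟨?_, ?_⟩
  · intro x y hx hy
    obtain ⟨h1, h2⟩ := (horder x).mp hx
    obtain ⟨h3, h4⟩ := (horder y).mp hy
    exact hO.isConj_of_involutions h1 h2 h3 h4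
  · rw [Nat.card_congr (Equiv.subtypeEquivRight horder)]
    split_ifs with hev
    · rw [hO.card_involutions_odd hab (by rw [Nat.card_eq_fintype_card, hh]; exact hev.add_one),
        Nat.card_eq_fintype_card (α := Ω), hh]
    · rw [hO.card_involutions_even hab (by
        rw [Nat.card_eq_fintype_card, hh]
        exact (Nat.not_even_iff_odd.mp hev).add_one), Nat.card_eq_fintype_card (α := Ω), hh,
        Nat.add_sub_cancel]


end Cfsg.Agent.S0882
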