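import Cfsg.Statements.S0883
import Cfsg.Agent.H20.Zass8

set_option autoImplicit false
open Cfsg


namespace Cfsg.Agent.S0883


/-- Let G be a finite simple Zassenhaus group on Ω with h + 1 points whose two-point stabilizer E has odd order e with 2e < h - 1, and let H be the subgroup of the stabilizer of a consisting of the identity and the elements fixing no point other than a (given here as a subgroup of the stabilizer of order one less than the number of points whose non-identity elements fix only a; it is the Frobenius kernel of the stabilizer). If a non-identity element u of H is a product of two involutions of G, then u is an involution. -/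
theorem result {G Ω : Type*} [Group G] [Finite G] [MulAction G Ω] [Fintype Ω] (hZ : Cfsg.IsZassenhausGroup G Ω) {a b : Ω} (hab : a ≠ b) [IsSimpleGroup G] (h e : ℕ) (hh : Fintype.card Ω = h + 1) (he : Nat.card ↥(MulAction.stabilizer G a ⊓ MulAction.stabilizer G b : Subgroup G) = e) (hodd : Odd e) (hlt : 2 * e < h - 1) (H : Subgroup G) (hHa : H ≤ MulAction.stabilizer G a) (hHcard : Nat.card H + 1 = Fintype.card Ω) (hHfix : ∀ u ∈ H, u ≠ 1 → ∀ c : Ω, u • c = c → c = a) (u : G) (hu : u ∈ H) (hu1 : u ≠ 1) (x y : G) (hx : orderOf x = 2) (hy : orderOf y = 2) (hxy : x * y = u) : orderOf u = 2 := by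
  subst he
  have hO := H20.Zass.oddInv_of_simple hZ hab hodd
  have horder : ∀ s : G, orderOf s = 2 ↔ (s ≠ 1 ∧ s * s = 1) := by
    intro s
    constructor
    · intro h
      refine ⟨?_, ?_⟩
      · rintro rfl
        rw [orderOf_one] at h
        omega
      · rw [← pow_two, ← h]
        exact pow_orderOf_eq_one s
    · rintro ⟨h1, h2⟩
      exact orderOf_eq_prime (by rw [pow_two, h2]) h1
  obtain ⟨h1, h2⟩ := (horder x).mp hx
  obtain ⟨h3, h4⟩ := (horder y).mp hy
  rw [horder]
  exact ⟨hu1, (hO.fix_of_mul h1 h2 h3 h4 (a := a) (fun c => ⟨hHfix u hu hu1 c, fun hc => by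
    rw [hc]; exact hHa hu⟩) hxy).2.2⟩


end Cfsg.Agent.S0883
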