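import Cfsg.Statements.S0892
import Cfsg.Agent.H3.MultD
import Cfsg.Agent.H3.MultE

set_option autoImplicit false
open Cfsg Cfsg.Agent Cfsg.Agent.H3

namespace Cfsg.Agent.S0892

theorem sq_aux {N : ℕ} (hN : N = 12 ∨ N = 60) (p : ℕ) (hp : p.Prime) (hp2 : p ≠ 2) : ¬ p ^ 2 ∣ N := by
  intro h
  have h1 : p ^ 2 ∣ 60 := by
    rcases hN with rfl | rfl
    · exact h.trans (by norm_num)
    · exact h
  have h2 : p ^ 2 ≤ 60 := Nat.le_of_dvd (by norm_num) h1
  have h3 : p < 8 := by
    by_contra h4
    have h5 : 8 ≤ p := by omega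
    nlinarith
  interval_cases p
  · exact absurd hp (by norm_num)
  · exact absurd hp (by norm_num)
  · exact hp2 rfl
  · omega
  · exact absurd hp (by norm_num)
  · omega
  · exact absurd hp (by norm_num)
  · omega

/-- Let n ≥ 4 with n ≠ 6 and n ≠ 7, and let Γ be a finite group with a subgroup Z contained in both the centre and the commutator subgroup of Γ such that Γ / Z is isomorphic to the alternating group on n letters. Then Z has order at most 2. -/
theorem result (n : ℕ) (hn : 4 ≤ n) (h6 : n ≠ 6) (h7 : n ≠ 7) {Γ : Type*} [Group Γ] [Finite Γ] (Z : Subgroup Γ) [Z.Normal] (hZc : Z ≤ Subgroup.center Γ) (hZd : Z ≤ commutator Γ) (e : Γ ⧸ Z ≃* alternatingGroup (Fin n)) : Nat.card Z ≤ 2 := by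

  classical
  let σ : Γ →* alternatingGroup (Fin n) := e.toMonoidHom.comp (QuotientGroup.mk' Z)
  have hσs : Function.Surjective σ := e.surjective.comp (QuotientGroup.mk'_surjective Z)
  have hσk : σ.ker = Z := by
    ext x
    rw [MonoidHom.mem_ker]
    show e (QuotientGroup.mk' Z x) = 1 ↔ _
    rw [MulEquiv.map_eq_one_iff, ← MonoidHom.mem_ker, QuotientGroup.ker_mk']
  have hnt : Nontrivial (Fin n) := by
    obtain ⟨m, rfl⟩ : ∃ m, n = m + 2 := ⟨n - 2, by omega⟩
    infer_instance
  have hA := two_mul_nat_card_alternatingGroup (α := Fin n)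
  rw [Nat.card_eq_fintype_card (α := Equiv.Perm (Fin n)), Fintype.card_perm, Fintype.card_fin] at hA
  rw [← hσk]
  rw [← hσk] at hZc hZd
  by_cases h8 : 8 ≤ n
  · let π : Γ →* Equiv.Perm (Fin n) := (alternatingGroup (Fin n)).subtype.comp σ
    have hπk : π.ker = σ.ker := by
      ext x
      rw [MonoidHom.mem_ker, MonoidHom.mem_ker]
      exact ⟨fun h => Subtype.ext h, fun h => congrArg Subtype.val h⟩
    rw [← hπk]
    apply card_ker_le h8 π
    · intro g hg h
      have h1 : g ∈ σ.ker := by rw [← hπk]; exact hg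
      exact (Subgroup.mem_center_iff.1 (hZc h1) h).symm
    · intro τ
      constructor
      · intro hτ
        obtain ⟨g, hg⟩ := hσs ⟨τ, hτ⟩
        exact ⟨g, congrArg Subtype.val hg⟩
      · rintro ⟨g, rfl⟩
        exact (σ g).2
    · rw [hπk]; exact hZd
  · have h45 : n = 4 ∨ n = 5 := by omega
    rcases h45 with h45 | h45
    · have hc : Nat.card (alternatingGroup (Fin n)) = 12 := by
        rw [h45] at hA ⊢
        have : Nat.factorial 4 = 24 := rfl
        omega
      exact card_ker_small σ hσs hZc hZd (m := 3) (by rw [hc]) (by norm_num)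
        (fun p hp hp2 => sq_aux (Or.inl hc) p hp hp2)
    · have hc : Nat.card (alternatingGroup (Fin n)) = 60 := by
        rw [h45] at hA ⊢
        have : Nat.factorial 5 = 120 := rfl
        omega
      exact card_ker_small σ hσs hZc hZd (m := 15) (by rw [hc]) (by norm_num)
        (fun p hp hp2 => sq_aux (Or.inr hc) p hp hp2)

end Cfsg.Agent.S0892
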