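import Cfsg.Statements.S0893
import Cfsg.Agent.H3.ExtraSp

set_option autoImplicit false
open Cfsg

namespace Cfsg.Agent.S0893

/-- Let P be an extraspecial p-group of order p ^ (2 * n + 1), A an abelian subgroup of order p ^ (n + 1), and λ a character of A of degree 1 that is not identically 1 on the elements of A lying in the centre of P. Then the function induced from λ to P is an irreducible character of P and vanishes at every element outside the centre. -/
theorem result {P : Type*} [Group P] [Fintype P] (p n : ℕ) [Fact p.Prime] (hP : Cfsg.IsExtraspecial p P) (hcard : Nat.card P = p ^ (2 * n + 1)) (A : Subgroup P) (hab : ∀ a ∈ A, ∀ b ∈ A, a * b = b * a) (hA : Nat.card A = p ^ (n + 1)) (lam : A → ℂ) (hlam : Cfsg.IsCharacter A lam ∧ lam 1 = 1) (hZ : ∃ a : A, (a : P) ∈ Subgroup.center P ∧ lam a ≠ 1) : Cfsg.IsIrrCharacter P (Cfsg.indFun A lam) ∧ ∀ x : P, x ∉ Subgroup.center P → Cfsg.indFun A lam x = 0 := by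
  obtain ⟨l, rfl⟩ := Cfsg.Agent.H3.exists_hf hlam.1 hlam.2
  obtain ⟨a, ha, hla⟩ := hZ
  exact Cfsg.Agent.H3.extraspecial_induced p n hP hcard A hab hA l
    ⟨a, ha, fun h => hla (by rw [Cfsg.Agent.H3.hf_apply, h]; rfl)⟩

end Cfsg.Agent.S0893
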