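import Cfsg.Statements.S0898
import Cfsg.Agent.H3.Gallagher2
import Cfsg.Agent.H3.BrauerC
import Cfsg.Agent.H3.Basic2

set_option autoImplicit false
open Cfsg

namespace Cfsg.Agent.S0898

open Cfsg.Agent.H3
open scoped ComplexConjugate

universe u

theorem map_conj_eq {G : Type u} [Group G] {H : Subgroup G} {a b : G}
    (h : H.map (MulAut.conj a).toMonoidHom = H.map (MulAut.conj b).toMonoidHom) :
    a⁻¹ * b ∈ Subgroup.normalizer (H : Set G) := by
  rw [Subgroup.mem_normalizer_iff]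
  intro x
  constructor
  · intro hx
    have h1 : b * x * b⁻¹ ∈ H.map (MulAut.conj b).toMonoidHom := ⟨x, hx, rfl⟩
    rw [← h] at h1
    obtain ⟨y, hy, hyx⟩ := h1
    have h2 : a * y * a⁻¹ = b * x * b⁻¹ := hyx
    have h3 : a⁻¹ * b * x * (a⁻¹ * b)⁻¹ = y := by
      calc _ = a⁻¹ * (b * x * b⁻¹) * a := by group
        _ = y := by rw [← h2]; group
    rw [h3]; exact hy
  · intro hx
    have h1 : a * (a⁻¹ * b * x * (a⁻¹ * b)⁻¹) * a⁻¹ ∈ H.map (MulAut.conj a).toMonoidHom :=
      ⟨_, hx, rfl⟩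
    rw [h] at h1
    obtain ⟨y, hy, hyx⟩ := h1
    have h2 : b * y * b⁻¹ = a * (a⁻¹ * b * x * (a⁻¹ * b)⁻¹) * a⁻¹ := hyx
    have h3 : x = y := by
      have : b * y * b⁻¹ = b * x * b⁻¹ := by rw [h2]; group
      exact (mul_left_cancel (mul_right_cancel this)).symm
    rw [h3]; exact hy

section avg

variable {G : Type u} [Group G] [Fintype G] (H : Subgroup G) [Fintype H] (χ : G → ℂ)

noncomputable def A (g : G) : ℂ := (Nat.card H : ℂ)⁻¹ * ∑ h : H, χ (h * g)

theorem A_mul (h : H) (g : G) : A H χ (h * g) = A H χ g := by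
  unfold A
  congr 1
  exact Fintype.sum_equiv (Equiv.mulRight h) _ _ (fun k => by simp [mul_assoc])

theorem card_mul_A (g : G) : (Nat.card H : ℂ) * A H χ g = ∑ h : H, χ (h * g) := by
  unfold A
  have : (Nat.card H : ℂ) ≠ 0 := card_ne_zeroC
  field_simp

theorem sum_b (g : G) : ∑ h : H, (χ (h * g) - A H χ (h * g)) = 0 := by
  simp_rw [A_mul]
  rw [Finset.sum_sub_distrib, ← card_mul_A, Finset.sum_const, Finset.card_univ, nsmul_eq_mul,
    Nat.card_eq_fintype_card, sub_self]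

theorem ortho (f : G → ℂ) (hf : ∀ (h : H) (g : G), f (h * g) = f g) :
    ∑ g : G, f g * conj (χ g - A H χ g) = 0 := by
  have h1 : ∀ h : H, ∑ g : G, f (h * g) * conj (χ (h * g) - A H χ (h * g)) =
      ∑ g : G, f g * conj (χ g - A H χ g) := fun h =>
    Fintype.sum_equiv (Equiv.mulLeft (h : G)) _ _ (fun g => rfl)
  have h2 : (Nat.card H : ℂ) * ∑ g : G, f g * conj (χ g - A H χ g) = 0 := by
    rw [Nat.card_eq_fintype_card, ← Finset.card_univ, ← nsmul_eq_mul, ← Finset.sum_const,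
      Finset.sum_congr rfl (fun h _ => (h1 h).symm), Finset.sum_comm]
    refine Finset.sum_eq_zero fun g _ => ?_
    rw [Finset.sum_congr rfl (fun h _ => by rw [hf h g]), ← Finset.mul_sum, ← map_sum, sum_b,
      map_zero, mul_zero]
  exact (mul_eq_zero.1 h2).resolve_left card_ne_zeroC

theorem split : ∑ g : G, ‖χ g‖ ^ 2 = ∑ g : G, ‖A H χ g‖ ^ 2 + ∑ g : G, ‖χ g - A H χ g‖ ^ 2 := by
  have h := congrArg Complex.re (ortho H χ (A H χ) (A_mul H χ))
  rw [Complex.re_sum, Complex.zero_re] at h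
  have h1 : ∀ g : G, ‖χ g‖ ^ 2 = ‖A H χ g‖ ^ 2 + ‖χ g - A H χ g‖ ^ 2 +
      2 * (A H χ g * conj (χ g - A H χ g)).re := by
    intro g
    have : χ g = A H χ g + (χ g - A H χ g) := by ring
    conv_lhs => rw [this]
    rw [Complex.sq_norm, Complex.normSq_add, ← Complex.sq_norm, ← Complex.sq_norm]
  rw [Finset.sum_congr rfl (fun g _ => h1 g), Finset.sum_add_distrib, Finset.sum_add_distrib,
    ← Finset.mul_sum, h]
  ring

theorem sum_sq_irr {θ : G → ℂ} (hθ : IsIrrCharacter G θ) :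
    ∑ g : G, ‖θ g‖ ^ 2 = (Nat.card G : ℝ) := by
  have h := classInner_self_of_irr hθ
  unfold classInner at h
  have h3 : (Nat.card G : ℂ) ≠ 0 := card_ne_zeroC
  have h1 : ∑ g : G, θ g * conj (θ g) = Nat.card G := by
    field_simp at h
    exact h
  have h2 : ((∑ g : G, ‖θ g‖ ^ 2 : ℝ) : ℂ) = (Nat.card G : ℝ) := by
    push_cast
    rw [← h1]
    exact Finset.sum_congr rfl fun g _ => (Complex.mul_conj' _).symm
  exact_mod_cast h2

theorem lower (hH : H.Normal) (hχ : IsCharacter G χ) (hk : ∃ h ∈ H, χ h ≠ χ 1) :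
    (Nat.card G : ℝ) ≤ ∑ g : G, ‖χ g - A H χ g‖ ^ 2 := by
  classical
  haveI := Fintype.ofFinite (IrrCharacter G)
  obtain ⟨θ, hθ1, hθ2⟩ : ∃ θ : IrrCharacter G, classInner χ θ ≠ 0 ∧
      ∃ n : H, (θ : G → ℂ) n ≠ (θ : G → ℂ) 1 := by
    by_contra hcon
    push Not at hcon
    obtain ⟨h, hh, hne⟩ := hk
    apply hne
    rw [classFun_expand_apply (char_classFun hχ) h, classFun_expand_apply (char_classFun hχ) 1]
    refine Finset.sum_congr rfl fun θ _ => ?_
    by_cases h0 : classInner χ θ = 0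
    · rw [h0, zero_mul, zero_mul]
    · rw [hcon θ h0 ⟨h, hh⟩]
  obtain ⟨c, hc⟩ := classInner_char_nat hχ (irr_isChar θ.2)
  have hc0 : 1 ≤ c := by
    rcases Nat.eq_zero_or_pos c with h | h
    · rw [hc, h] at hθ1; simp at hθ1
    · exact h
  have hAθ : ∀ g : G, A H (θ : G → ℂ) g = 0 := by
    intro g
    unfold A
    rw [sum_coset_irr hH θ.2 hθ2 g, mul_zero]
  have h1 : ∑ g : G, A H χ g * conj ((θ : G → ℂ) g) = 0 := by
    have := ortho H (θ : G → ℂ) (A H χ) (A_mul H χ)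
    rw [← this]
    exact Finset.sum_congr rfl fun g _ => by rw [hAθ, sub_zero]
  have h3 : (Nat.card G : ℂ) ≠ 0 := card_ne_zeroC
  have h2 : ∑ g : G, (χ g - A H χ g) * conj ((θ : G → ℂ) g) = Nat.card G * c := by
    simp only [sub_mul]
    rw [Finset.sum_sub_distrib, h1, sub_zero, ← hc]
    unfold classInner
    field_simp
  have h4 : ((Nat.card G : ℝ) * c) ^ 2 ≤ (∑ g : G, ‖χ g - A H χ g‖ ^ 2) * Nat.card G := by
    rw [← sum_sq_irr θ.2]
    refine le_trans ?_ (Finset.sum_mul_sq_le_sq_mul_sq _ _ _)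
    have h5 : (∑ g : G, ‖(θ : G → ℂ) g‖ ^ 2) = (Nat.card G : ℝ) := sum_sq_irr θ.2
    rw [h5]
    have h6 : (Nat.card G : ℝ) * c ≤ ∑ g : G, ‖χ g - A H χ g‖ * ‖(θ : G → ℂ) g‖ := by
      have h7 := congrArg norm h2
      rw [norm_mul, Complex.norm_natCast, Complex.norm_natCast] at h7
      rw [← h7]
      refine (norm_sum_le _ _).trans (le_of_eq ?_)
      exact Finset.sum_congr rfl fun g _ => by rw [norm_mul, RCLike.norm_conj]
    have h8 : (0 : ℝ) ≤ (Nat.card G : ℝ) * c := by positivity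
    nlinarith
  have h9 : (0 : ℝ) < Nat.card G := by exact_mod_cast Nat.card_pos
  have h10 : (1 : ℝ) ≤ c := by exact_mod_cast hc0
  have h11 : (Nat.card G : ℝ) * (c : ℝ) ^ 2 ≤ ∑ g : G, ‖χ g - A H χ g‖ ^ 2 := by
    have : (Nat.card G : ℝ) * ((Nat.card G : ℝ) * (c : ℝ) ^ 2) ≤
        (Nat.card G : ℝ) * ∑ g : G, ‖χ g - A H χ g‖ ^ 2 := by nlinarith
    exact le_of_mul_le_mul_left this h9
  have h12 : (1 : ℝ) ≤ (c : ℝ) ^ 2 := by nlinarith
  nlinarith

theorem A_eq (hab : ∀ a ∈ H, ∀ b ∈ H, a * b = b * a) (hχ : IsClassFunction G χ) {g : G}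
    (hg : ∀ h ∈ H, g * h * g⁻¹ ∈ H) (hc : ∀ h ∈ H, h * g = g * h → h = 1) : A H χ g = χ g := by
  let φ : H → H := fun x => ⟨x * (g * (x : G)⁻¹ * g⁻¹), H.mul_mem x.2 (hg _ (H.inv_mem x.2))⟩
  have hφ : Function.Injective φ := by
    intro x y hxy
    have h1 : (x : G) * (g * (x : G)⁻¹ * g⁻¹) = y * (g * (y : G)⁻¹ * g⁻¹) :=
      congrArg Subtype.val hxy
    have h2 : (y : G)⁻¹ * x = g * ((y : G)⁻¹ * x) * g⁻¹ := by
      have h3 := hab _ (hg _ (H.inv_mem y.2)) _ (hg _ x.2)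
      calc (y : G)⁻¹ * x = (y : G)⁻¹ * (x * (g * (x : G)⁻¹ * g⁻¹)) * (g * x * g⁻¹) := by group
        _ = (y : G)⁻¹ * (y * (g * (y : G)⁻¹ * g⁻¹)) * (g * x * g⁻¹) := by rw [h1]
        _ = g * ((y : G)⁻¹ * x) * g⁻¹ := by group
    have h4 := hc _ (H.mul_mem (H.inv_mem y.2) x.2) (by
      calc (y : G)⁻¹ * x * g = g * ((y : G)⁻¹ * x) * g⁻¹ * g := by rw [← h2]
        _ = g * ((y : G)⁻¹ * x) := by group)
    exact Subtype.ext (inv_mul_eq_one.1 h4).symm
  have hbij : Function.Bijective φ := (Finite.injective_iff_bijective).1 hφ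
  have h1 : ∀ h : H, χ (h * g) = χ g := by
    intro h
    obtain ⟨x, hx⟩ := hbij.2 h
    have h2 : (h : G) * g = x * g * (x : G)⁻¹ := by
      rw [← hx]
      show (x : G) * (g * (x : G)⁻¹ * g⁻¹) * g = _
      group
    rw [h2]
    exact hχ _ _
  unfold A
  rw [Finset.sum_congr rfl (fun h _ => h1 h), Finset.sum_const, Finset.card_univ, nsmul_eq_mul,
    ← Nat.card_eq_fintype_card]
  have : (Nat.card H : ℂ) ≠ 0 := card_ne_zeroC
  field_simp

end avg

theorem part1 {G : Type u} [Group G] [Fintype G] (H : Subgroup G) [Fintype H]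
    (hab : ∀ a ∈ H, ∀ b ∈ H, a * b = b * a) (hZ : H ⊓ Subgroup.center G = ⊥)
    (hone : ∀ g : G, g ∉ Subgroup.center G → ∀ a b : G,
      Subgroup.centralizer ({g} : Set G) ⊓ H.map (MulAut.conj a).toMonoidHom ≠ ⊥ →
      Subgroup.centralizer ({g} : Set G) ⊓ H.map (MulAut.conj b).toMonoidHom ≠ ⊥ →
      H.map (MulAut.conj a).toMonoidHom = H.map (MulAut.conj b).toMonoidHom)
    (χ : G → ℂ) (hχ : IsIrrCharacter G χ) (hker : ∃ h ∈ H, χ h ≠ χ 1) :
    (Nat.card H : ℝ) * ‖classInner (fun h : H => χ h) (fun _ => 1)‖ ^ 2 < ‖χ 1‖ ^ 2 := by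
  classical
  set N := Subgroup.normalizer (H : Set G) with hN
  have hHN : H ≤ N := Subgroup.le_normalizer
  have hcf := irr_classFun hχ
  obtain ⟨Q, hQdef⟩ : ∃ Q : G → G → Prop, ∀ g x, Q g x ↔
      ∃ h ∈ H, h ≠ 1 ∧ (x * h * x⁻¹) * g = g * (x * h * x⁻¹) := ⟨_, fun _ _ => Iff.rfl⟩
  have hQ : ∀ g x, Q g x →
      Subgroup.centralizer ({g} : Set G) ⊓ H.map (MulAut.conj x).toMonoidHom ≠ ⊥ := by
    intro g x hq hbot
    obtain ⟨h, hh, h1, hc⟩ := (hQdef g x).1 hq
    have : x * h * x⁻¹ ∈ (⊥ : Subgroup G) := by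
      rw [← hbot]
      refine Subgroup.mem_inf.2 ⟨Subgroup.mem_centralizer_singleton_iff.2 ?_, ⟨h, hh, rfl⟩⟩
      first | exact hc | exact hc.symm
    rw [Subgroup.mem_bot] at this
    apply h1
    have h2 : h = x⁻¹ * (x * h * x⁻¹) * x := by group
    rw [h2, this]; group
  have hQ2 : ∀ g, g ∉ Subgroup.center G → ∀ a b, Q g a → Q g b → a⁻¹ * b ∈ N :=
    fun g hg a b ha hb => map_conj_eq (hone g hg a b (hQ g a ha) (hQ g b hb))
  have hnc : ∀ h ∈ H, h ≠ 1 → h ∉ Subgroup.center G := by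
    intro h hh h1 hc
    apply h1
    have : h ∈ H ⊓ Subgroup.center G := ⟨hh, hc⟩
    rw [hZ] at this; exact this
  have hQN : ∀ g, Q g 1 → g ∈ N := by
    intro g hq
    obtain ⟨h, hh, h1, hc⟩ := (hQdef g 1).1 hq
    have hc' : h * g = g * h := by simpa using hc
    have := hQ2 h (hnc h hh h1) 1 g ((hQdef h 1).2 ⟨h, hh, h1, by simp⟩)
      ((hQdef h g).2 ⟨h, hh, h1, by
       have : g * h * g⁻¹ = h := by rw [← hc']; group
       rw [this]⟩)
    simpa using this
  have hQconj : ∀ g x, Q (x * g * x⁻¹) x ↔ Q g 1 := by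
    intro g x
    rw [hQdef, hQdef]
    refine exists_congr fun h => and_congr_right fun _ => and_congr_right fun _ => ?_
    constructor
    · intro h1
      have h2 : x * (h * g) * x⁻¹ = x * (g * h) * x⁻¹ := by
        calc x * (h * g) * x⁻¹ = x * h * x⁻¹ * (x * g * x⁻¹) := by group
          _ = x * g * x⁻¹ * (x * h * x⁻¹) := h1
          _ = x * (g * h) * x⁻¹ := by group
      have h3 := mul_left_cancel (mul_right_cancel h2)
      simpa using h3
    · intro h1
      have h3 : h * g = g * h := by simpa using h1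
      calc x * h * x⁻¹ * (x * g * x⁻¹) = x * (h * g) * x⁻¹ := by group
        _ = x * (g * h) * x⁻¹ := by rw [h3]
        _ = x * g * x⁻¹ * (x * h * x⁻¹) := by group
  have hnonneg : ∀ g, (0 : ℝ) ≤ ‖χ g‖ ^ 2 := fun g => by positivity
  -- the sets
  set E : Finset G := Finset.univ.filter (fun g => g ∈ Subgroup.center G ∨ Q g 1) with hE
  set D : Finset G := Finset.univ.filter (fun g => g ∉ Subgroup.center G ∧ Q g 1) with hD
  set Zf : Finset G := Finset.univ.filter (fun g => g ∈ Subgroup.center G) with hZf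
  set NN : Finset G := Finset.univ.filter (fun g => g ∈ N) with hNN
  have hcenN : ∀ z ∈ Subgroup.center G, z ∈ N := by
    intro z hz
    rw [hN, Subgroup.mem_normalizer_iff]
    intro x
    have : z * x * z⁻¹ = x := by
      rw [← Subgroup.mem_center_iff.1 hz x]; group
    rw [this]
  have hEN : E ⊆ NN := by
    intro g hg
    rw [hE, Finset.mem_filter] at hg
    rw [hNN, Finset.mem_filter]
    exact ⟨Finset.mem_univ _, hg.2.elim (hcenN g) (hQN g)⟩
  -- the sum over N
  have hsub : ∀ f : G → ℝ, ∑ g : N, f g = ∑ g ∈ NN, f g := by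
    intro f
    exact (Finset.sum_subtype NN (by intro x; simp [hNN]) f).symm
  have hAN : ∀ g : N, A (H.subgroupOf N) (fun n : N => χ n) g = A H χ g := by
    intro g
    unfold A
    have hc : Nat.card (H.subgroupOf N) = Nat.card H :=
      Nat.card_congr (Subgroup.subgroupOfEquivOfLe hHN).toEquiv
    rw [hc]
    congr 1
    exact Fintype.sum_equiv (Subgroup.subgroupOfEquivOfLe hHN).toEquiv _ _ (fun h => rfl)
  have hHn : (H.subgroupOf N).Normal := Subgroup.normal_in_normalizer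
  have hchN : IsCharacter N (fun n : N => χ n) := isChar_restrict N (irr_isChar hχ)
  have hL1 : (Nat.card N : ℝ) ≤ ∑ g ∈ NN, (‖χ g‖ ^ 2 - ‖A H χ g‖ ^ 2) := by
    rw [← hsub (fun g => ‖χ g‖ ^ 2 - ‖A H χ g‖ ^ 2)]
    have h1 := lower (H.subgroupOf N) (fun n : N => χ n) hHn hchN (by
      obtain ⟨h, hh, hne⟩ := hker
      exact ⟨⟨h, hHN hh⟩, hh, hne⟩)
    have h2 := split (H.subgroupOf N) (fun n : N => χ n)
    rw [Finset.sum_sub_distrib]
    simp_rw [hAN] at h1 h2
    linarith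
  have hL2 : (Nat.card N : ℝ) ≤ ∑ g ∈ E, (‖χ g‖ ^ 2 - ‖A H χ g‖ ^ 2) := by
    refine hL1.trans (le_of_eq ?_)
    symm
    apply Finset.sum_subset hEN
    intro g hg hgE
    rw [hNN, Finset.mem_filter] at hg
    have hgq : ¬ Q g 1 := fun h => hgE (by rw [hE, Finset.mem_filter]; exact ⟨Finset.mem_univ _, Or.inr h⟩)
    have h1 : A H χ g = χ g := by
      apply A_eq H χ hab hcf
      · intro h hh
        exact (Subgroup.mem_normalizer_iff.1 hg.2 h).1 hh
      · intro h hh hc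
        by_contra h1
        exact hgq ((hQdef g 1).2 ⟨h, hh, h1, by simpa using hc⟩)
    rw [h1, sub_self]
  -- central elements
  set c := ‖classInner (fun h : H => χ h) (fun _ => 1)‖ with hc
  have hχ1 : χ 1 ≠ 0 := irr_one_ne_zero hχ
  have hv : 0 < ‖χ 1‖ := norm_pos_iff.2 hχ1
  have hz1 : ∀ z ∈ Subgroup.center G, ‖χ z‖ = ‖χ 1‖ := by
    intro z hz
    have h1 := irr_central_mul hχ hz z⁻¹
    rw [mul_inv_cancel, char_inv (irr_isChar hχ)] at h1
    have h2 := congrArg norm h1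
    rw [norm_mul, norm_mul, RCLike.norm_conj] at h2
    nlinarith [norm_nonneg (χ z), norm_nonneg (χ 1)]
  have hz2 : ∀ z ∈ Subgroup.center G, ‖A H χ z‖ = c := by
    intro z hz
    have h1 : A H χ z * χ 1 = χ z * classInner (fun h : H => χ h) (fun _ => 1) := by
      unfold A classInner
      have e : (∑ h : H, χ (h * z)) * χ 1 = χ z * ∑ h : H, χ h * conj (1 : ℂ) := by
        rw [Finset.sum_mul, Finset.mul_sum]
        refine Finset.sum_congr rfl fun h _ => ?_
        rw [map_one, mul_one, ← irr_central_mul hχ hz, Subgroup.mem_center_iff.1 hz]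
      rw [mul_assoc, e]; ring
    have h2 := congrArg norm h1
    rw [norm_mul, norm_mul, hz1 z hz, ← hc] at h2
    have h3 : ‖χ 1‖ * (‖A H χ z‖ - c) = 0 := by linarith
    have h4 := (mul_eq_zero.1 h3).resolve_left hv.ne'
    linarith
  have hL3 : (Nat.card (Subgroup.center G) : ℝ) * (Nat.card H) * c ^ 2 ≤
      ∑ g ∈ E, ‖A H χ g‖ ^ 2 := by
    let ι : (Subgroup.center G) × H → G := fun x => (x.2 : G) * x.1
    have hι : Function.Injective ι := by
      rintro ⟨z, h⟩ ⟨z', h'⟩ heq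
      have h1 : (h : G) * z = h' * z' := heq
      have h2 : (h' : G)⁻¹ * h = z' * (z : G)⁻¹ := by
        calc (h' : G)⁻¹ * h = (h' : G)⁻¹ * (h * z) * (z : G)⁻¹ := by group
          _ = _ := by rw [h1]; group
      have h3 : (h' : G)⁻¹ * h ∈ H ⊓ Subgroup.center G :=
        Subgroup.mem_inf.2 ⟨H.mul_mem (H.inv_mem h'.2) h.2, by
          rw [h2]; exact Subgroup.mul_mem _ z'.2 (Subgroup.inv_mem _ z.2)⟩
      rw [hZ, Subgroup.mem_bot] at h3
      have h4 : (h : G) = h' := (inv_mul_eq_one.1 h3).symm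
      have h5 : (z : G) = z' := by
        rw [h4] at h1
        exact mul_left_cancel h1
      exact Prod.ext (Subtype.ext h5) (Subtype.ext h4)
    have h1 : ∑ g ∈ Finset.univ.map ⟨ι, hι⟩, ‖A H χ g‖ ^ 2 =
        (Nat.card (Subgroup.center G) : ℝ) * (Nat.card H) * c ^ 2 := by
      rw [Finset.sum_map, Finset.sum_congr rfl (g := fun _ => c ^ 2)]
      · rw [Finset.sum_const, Finset.card_univ, nsmul_eq_mul, Fintype.card_prod,
          Nat.card_eq_fintype_card, Nat.card_eq_fintype_card]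
        push_cast
        ring
      · rintro ⟨z, h⟩ -
        show ‖A H χ ((h : G) * z)‖ ^ 2 = c ^ 2
        rw [A_mul, hz2 z z.2]
    rw [← h1]
    apply Finset.sum_le_sum_of_subset_of_nonneg
    · intro g hg
      rw [Finset.mem_map] at hg
      obtain ⟨⟨z, h⟩, -, rfl⟩ := hg
      rw [hE, Finset.mem_filter]
      refine ⟨Finset.mem_univ _, ?_⟩
      show (h : G) * z ∈ Subgroup.center G ∨ Q ((h : G) * z) 1
      by_cases h1 : (h : G) = 1
      · left; rw [h1, one_mul]; exact z.2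
      · right
        refine (hQdef _ _).2 ⟨h, h.2, h1, ?_⟩
        have h2 := Subgroup.mem_center_iff.1 z.2 h
        simp only [one_mul, inv_one, mul_one]
        rw [mul_assoc, ← h2]
    · intro g _ _; positivity
  -- splitting E
  have hL4 : ∑ g ∈ E, ‖χ g‖ ^ 2 = ∑ g ∈ D, ‖χ g‖ ^ 2 + ∑ g ∈ Zf, ‖χ g‖ ^ 2 := by
    rw [← Finset.sum_union]
    · congr 1
      ext g
      simp only [hE, hD, hZf, Finset.mem_union, Finset.mem_filter, Finset.mem_univ, true_and]
      tauto
    · rw [Finset.disjoint_left]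
      intro g h1 h2
      rw [hD, Finset.mem_filter] at h1
      rw [hZf, Finset.mem_filter] at h2
      exact h1.2.1 h2.2
  have hL5 : ∑ g ∈ Zf, ‖χ g‖ ^ 2 = (Nat.card (Subgroup.center G) : ℝ) * ‖χ 1‖ ^ 2 := by
    rw [Finset.sum_congr rfl (g := fun _ => ‖χ 1‖ ^ 2)]
    · rw [Finset.sum_const, nsmul_eq_mul]
      congr 2
      rw [hZf, Nat.card_eq_fintype_card, Fintype.card_subtype]
    · intro g hg
      rw [hZf, Finset.mem_filter] at hg
      rw [hz1 g hg.2]
  -- counting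
  have hL6 : (Nat.card G : ℝ) * ∑ g ∈ D, ‖χ g‖ ^ 2 ≤
      (Nat.card N : ℝ) * (Nat.card G - (Nat.card (Subgroup.center G) : ℝ) * ‖χ 1‖ ^ 2) := by
    have h1 : ∀ x : G, ∑ g : G, (if g ∉ Subgroup.center G ∧ Q g x then ‖χ g‖ ^ 2 else 0) =
        ∑ g ∈ D, ‖χ g‖ ^ 2 := by
      intro x
      rw [hD, Finset.sum_filter]
      symm
      refine Fintype.sum_equiv (MulAut.conj x).toEquiv _ _ (fun g => ?_)
      show _ = if x * g * x⁻¹ ∉ Subgroup.center G ∧ Q (x * g * x⁻¹) x then ‖χ (x * g * x⁻¹)‖ ^ 2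
        else 0
      rw [hQconj, hcf]
      have h2 : x * g * x⁻¹ ∈ Subgroup.center G ↔ g ∈ Subgroup.center G :=
        (Subgroup.Normal.mem_comm_iff inferInstance).trans (by simp)
      simp only [h2]
    have h2 : (Nat.card G : ℝ) * ∑ g ∈ D, ‖χ g‖ ^ 2 =
        ∑ x : G, ∑ g : G, (if g ∉ Subgroup.center G ∧ Q g x then ‖χ g‖ ^ 2 else 0) := by
      rw [Finset.sum_congr rfl (fun x _ => h1 x), Finset.sum_const, Finset.card_univ,
        nsmul_eq_mul, Nat.card_eq_fintype_card]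
    have h3 : ∀ g : G, g ∉ Subgroup.center G →
        ((Finset.univ.filter (fun x => Q g x)).card : ℝ) ≤ Nat.card N := by
      intro g hg
      rcases (Finset.univ.filter (fun x => Q g x)).eq_empty_or_nonempty with he | ⟨a, ha⟩
      · rw [he]; simp
      · rw [Finset.mem_filter] at ha
        have h4 : (Finset.univ.filter (fun x => Q g x)).card ≤ NN.card := by
          apply Finset.card_le_card_of_injOn (fun x => a⁻¹ * x)
          · intro x hx
            rw [Finset.mem_coe, Finset.mem_filter] at hx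
            rw [Finset.mem_coe, hNN, Finset.mem_filter]
            exact ⟨Finset.mem_univ _, hQ2 g hg a x ha.2 hx.2⟩
          · intro x _ y _ h; exact mul_left_cancel h
        have h5 : NN.card = Nat.card N := by
          rw [hNN, Nat.card_eq_fintype_card, Fintype.card_subtype]
        rw [← h5]
        exact_mod_cast h4
    have h4 : ∀ g : G, ∑ x : G, (if g ∉ Subgroup.center G ∧ Q g x then ‖χ g‖ ^ 2 else 0) ≤
        (Nat.card N : ℝ) * (‖χ g‖ ^ 2 - if g ∈ Subgroup.center G then ‖χ g‖ ^ 2 else 0) := by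
      intro g
      by_cases hg : g ∈ Subgroup.center G
      · simp [hg]
      · simp only [hg, not_false_eq_true, true_and, if_false, sub_zero]
        rw [← Finset.sum_filter, Finset.sum_const, nsmul_eq_mul]
        exact mul_le_mul_of_nonneg_right (h3 g hg) (hnonneg g)
    rw [h2, Finset.sum_comm]
    refine (Finset.sum_le_sum fun g _ => h4 g).trans (le_of_eq ?_)
    rw [← Finset.mul_sum, Finset.sum_sub_distrib, sum_sq_irr hχ, ← Finset.sum_filter, ← hL5]
  rw [Finset.sum_sub_distrib, hL4, hL5] at hL2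
  have hG0 : (0 : ℝ) < Nat.card G := by exact_mod_cast Nat.card_pos
  have hN0 : (0 : ℝ) < Nat.card N := by exact_mod_cast Nat.card_pos
  have hZ0 : (0 : ℝ) < Nat.card (Subgroup.center G) := by exact_mod_cast Nat.card_pos
  have hv2 : 0 < ‖χ 1‖ ^ 2 := by positivity
  have h1 : (Nat.card G : ℝ) * (Nat.card N + (Nat.card (Subgroup.center G) : ℝ) * (Nat.card H) * c ^ 2
      - (Nat.card (Subgroup.center G) : ℝ) * ‖χ 1‖ ^ 2) ≤
      (Nat.card G : ℝ) * ∑ g ∈ D, ‖χ g‖ ^ 2 :=
    mul_le_mul_of_nonneg_left (by linarith) hG0.le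
  have h2 : ((Nat.card G : ℝ) * (Nat.card (Subgroup.center G))) * ((Nat.card H) * c ^ 2 - ‖χ 1‖ ^ 2)
      ≤ - ((Nat.card N : ℝ) * ((Nat.card (Subgroup.center G) : ℝ) * ‖χ 1‖ ^ 2)) := by nlinarith
  have h3 : 0 < (Nat.card N : ℝ) * ((Nat.card (Subgroup.center G) : ℝ) * ‖χ 1‖ ^ 2) := by positivity
  by_contra hcon
  push Not at hcon
  have h4 : 0 ≤ ((Nat.card G : ℝ) * (Nat.card (Subgroup.center G))) *
      ((Nat.card H) * c ^ 2 - ‖χ 1‖ ^ 2) := mul_nonneg (by positivity) (by linarith)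
  linarith

theorem one_of_ker {G : Type u} [Group G] [Fintype G] {H : Subgroup G}
    (hM : ∀ M : Subgroup G, M.Normal → H ≤ M → M = ⊤) {ψ : G → ℂ} (hψ : IsIrrCharacter G ψ)
    (h : ∀ h ∈ H, ψ h = ψ 1) : ψ = fun _ => 1 := by
  have hc := irr_isChar hψ
  have h1 := hM (Cfsg.Agent.H27.charKer hc) (Cfsg.Agent.H27.charKer_normal hc) (fun x hx => h x hx)
  have h2 : ∀ g, ψ g = ψ 1 := by
    intro g
    have : g ∈ Cfsg.Agent.H27.charKer hc := by rw [h1]; trivial
    exact this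
  obtain ⟨n, hn, hn1⟩ := irr_one_eq_nat hψ
  have h3 := sum_sq_irr hψ
  have h4 : ∀ g : G, ‖ψ g‖ ^ 2 = (n : ℝ) ^ 2 := by
    intro g; rw [h2 g, hn1, Complex.norm_natCast]
  rw [Finset.sum_congr rfl (fun g _ => h4 g), Finset.sum_const, Finset.card_univ, nsmul_eq_mul,
    ← Nat.card_eq_fintype_card] at h3
  have hG0 : (0 : ℝ) < Nat.card G := by exact_mod_cast Nat.card_pos
  have h5 : (n : ℝ) ^ 2 = 1 := by
    have : (Nat.card G : ℝ) * (n : ℝ) ^ 2 = Nat.card G * 1 := by rw [h3, mul_one]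
    exact mul_left_cancel₀ hG0.ne' this
  have h6 : n ^ 2 = 1 := by exact_mod_cast h5
  have h7 : n = 1 := by nlinarith
  funext g
  rw [h2 g, hn1, h7]; norm_num

theorem inner_ge {H : Type u} [Group H] [Fintype H] [IsMulCommutative H] {χ : H → ℂ}
    (hχ : IsCharacter H χ) {d t : ℕ} (hd : χ 1 = d) (ht : classInner χ χ = t) : d ≤ t := by
  classical
  haveI := Fintype.ofFinite (IrrCharacter H)
  obtain ⟨m, hm, hsum⟩ := char_expand hχ
  have h1 : (d : ℂ) = ((∑ ψ : IrrCharacter H, m ψ : ℕ) : ℂ) := by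
    rw [← hd, classFun_expand_apply (char_classFun hχ) 1]
    push_cast
    refine Finset.sum_congr rfl fun ψ _ => ?_
    rw [hm, irr_degree_one_of_comm ψ.2, mul_one]
  have h2 : (t : ℂ) = ((∑ ψ : IrrCharacter H, m ψ * m ψ : ℕ) : ℂ) := by
    rw [← ht, classInner_eq_sum (char_classFun hχ)]
    push_cast
    refine Finset.sum_congr rfl fun ψ _ => ?_
    rw [hm, Complex.conj_natCast]
  have h3 : d = ∑ ψ : IrrCharacter H, m ψ := by exact_mod_cast h1
  have h4 : t = ∑ ψ : IrrCharacter H, m ψ * m ψ := by exact_mod_cast h2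
  rw [h3, h4]
  exact Finset.sum_le_sum fun ψ _ => Nat.le_mul_self _

theorem part2 {G : Type u} [Group G] [Fintype G] (H : Subgroup G) [Fintype H]
    (hab : ∀ a ∈ H, ∀ b ∈ H, a * b = b * a) (hZ : H ⊓ Subgroup.center G = ⊥)
    (hone : ∀ g : G, g ∉ Subgroup.center G → ∀ a b : G,
      Subgroup.centralizer ({g} : Set G) ⊓ H.map (MulAut.conj a).toMonoidHom ≠ ⊥ →
      Subgroup.centralizer ({g} : Set G) ⊓ H.map (MulAut.conj b).toMonoidHom ≠ ⊥ →
      H.map (MulAut.conj a).toMonoidHom = H.map (MulAut.conj b).toMonoidHom)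
    (hM : ∀ M : Subgroup G, M.Normal → H ≤ M → M = ⊤)
    (χ : G → ℂ) (hχ : IsIrrCharacter G χ) (h1 : χ 1 ≠ 1) {d : ℕ} (hd : χ 1 = d) :
    (Nat.card H : ℝ) < (1 + d) ^ 2 := by
  classical
  haveI := Fintype.ofFinite (IrrCharacter G)
  haveI : IsMulCommutative H := ⟨⟨fun a b => Subtype.ext (hab a a.2 b b.2)⟩⟩
  have hd1 : 1 < d := by
    obtain ⟨n, hn, hn1⟩ := irr_one_eq_nat hχ
    have h2 : (d : ℂ) = n := by rw [← hd, hn1]
    have h3 : d = n := by exact_mod_cast h2
    rcases Nat.lt_or_ge 1 d with h | h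
    · exact h
    · exfalso
      apply h1
      have : d = 1 := by omega
      rw [hd, this]; norm_num
  set X : G → ℂ := χ * fun g => conj (χ g) with hX
  have hXc : IsCharacter G X := isChar_mul (irr_isChar hχ) (isChar_conj (irr_isChar hχ))
  obtain ⟨m, hm, hsum⟩ := char_expand hXc
  let e : IrrCharacter G := ⟨fun _ => 1, isIrr_one⟩
  have hme : m e = 1 := by
    have h2 : (m e : ℂ) = 1 := by
      rw [← hm e, ← classInner_self_of_irr hχ]
      unfold classInner
      congr 1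
      refine Finset.sum_congr rfl fun g _ => ?_
      show X g * conj (1 : ℂ) = _
      rw [map_one, mul_one]; rfl
    exact_mod_cast h2
  choose n hn0 hn using fun ψ : IrrCharacter G => irr_one_eq_nat ψ.2
  choose t ht using fun ψ : IrrCharacter G =>
    classInner_char_nat (isChar_restrict H (irr_isChar ψ.2)) (isChar_one (G := H))
  obtain ⟨T, hT⟩ := classInner_char_nat (isChar_restrict H (irr_isChar hχ))
    (isChar_restrict H (irr_isChar hχ))
  have hTd : d ≤ T := inner_ge (isChar_restrict H (irr_isChar hχ)) hd hT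
  -- degree
  have hA : d * d = ∑ ψ : IrrCharacter G, m ψ * n ψ := by
    have h2 : ((d * d : ℕ) : ℂ) = ((∑ ψ : IrrCharacter G, m ψ * n ψ : ℕ) : ℂ) := by
      have h3 : X 1 = d * d := by
        show χ 1 * conj (χ 1) = _
        rw [hd, Complex.conj_natCast]
      push_cast
      rw [← h3, classFun_expand_apply (char_classFun hXc) 1]
      refine Finset.sum_congr rfl fun ψ _ => ?_
      rw [hm, hn]
    exact_mod_cast h2
  have hB : T = ∑ ψ : IrrCharacter G, m ψ * t ψ := by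
    have h2 : (T : ℂ) = ((∑ ψ : IrrCharacter G, m ψ * t ψ : ℕ) : ℂ) := by
      have h3 : (T : ℂ) = classInner (fun h : H => X h) (fun _ => 1) := by
        rw [← hT]
        unfold classInner
        congr 1
        refine Finset.sum_congr rfl fun g _ => ?_
        rw [map_one, mul_one]; rfl
      have h4 : (fun h : H => X h) = ∑ ψ : IrrCharacter G, (m ψ : ℂ) • (fun h : H => (ψ : G → ℂ) h) := by
        funext h
        conv_lhs => rw [hsum]
        simp
      rw [h3, h4, classInner_sum_left]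
      push_cast
      refine Finset.sum_congr rfl fun ψ _ => ?_
      rw [classInner_smul_left, ht]
    exact_mod_cast h2
  have hlt : ∀ ψ : IrrCharacter G, ψ ≠ e → (Nat.card H : ℝ) * (t ψ : ℝ) ^ 2 < (n ψ : ℝ) ^ 2 := by
    intro ψ hψ
    have h2 : ∃ h ∈ H, (ψ : G → ℂ) h ≠ (ψ : G → ℂ) 1 := by
      by_contra hcon
      push Not at hcon
      exact hψ (Subtype.ext (one_of_ker hM ψ.2 hcon))
    have h3 := part1 H hab hZ hone ψ ψ.2 h2
    rw [ht ψ, hn ψ, Complex.norm_natCast, Complex.norm_natCast] at h3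
    exact h3
  have hH0 : (0 : ℝ) < Nat.card H := by exact_mod_cast Nat.card_pos
  set s : ℝ := Real.sqrt (Nat.card H) with hs
  have hs0 : 0 < s := Real.sqrt_pos.2 hH0
  have hs2 : s ^ 2 = Nat.card H := Real.sq_sqrt hH0.le
  have hlt2 : ∀ ψ : IrrCharacter G, ψ ≠ e → s * t ψ < n ψ := by
    intro ψ hψ
    have h2 := hlt ψ hψ
    rw [← hs2, ← mul_pow] at h2
    exact lt_of_pow_lt_pow_left₀ 2 (by positivity) h2
  have hte : t e = 1 := by
    have h2 : (t e : ℂ) = 1 := by
      rw [← ht e]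
      exact classInner_self_of_irr (isIrr_one (G := H))
    exact_mod_cast h2
  have hne : n e = 1 := by
    have h2 : (n e : ℂ) = 1 := by rw [← hn e]
    exact_mod_cast h2
  have hA' : (d : ℝ) * d = 1 + ∑ ψ ∈ Finset.univ.erase e, (m ψ : ℝ) * n ψ := by
    have h2 : ((d * d : ℕ) : ℝ) = ((∑ ψ : IrrCharacter G, m ψ * n ψ : ℕ) : ℝ) := by rw [hA]
    push_cast at h2
    rw [h2, ← Finset.add_sum_erase _ _ (Finset.mem_univ e), hme, hne]
    norm_num
  have hB' : (T : ℝ) = 1 + ∑ ψ ∈ Finset.univ.erase e, (m ψ : ℝ) * t ψ := by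
    have h2 : ((T : ℕ) : ℝ) = ((∑ ψ : IrrCharacter G, m ψ * t ψ : ℕ) : ℝ) := by rw [← hB]
    push_cast at h2
    rw [h2, ← Finset.add_sum_erase _ _ (Finset.mem_univ e), hme, hte]
    norm_num
  have hlt3 : s * ∑ ψ ∈ Finset.univ.erase e, (m ψ : ℝ) * t ψ <
      ∑ ψ ∈ Finset.univ.erase e, (m ψ : ℝ) * n ψ := by
    rw [Finset.mul_sum]
    apply Finset.sum_lt_sum
    · intro ψ hψ
      have h2 := (hlt2 ψ (Finset.ne_of_mem_erase hψ)).le
      have h3 : (0 : ℝ) ≤ m ψ := Nat.cast_nonneg _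
      nlinarith
    · by_contra hcon
      push Not at hcon
      have h2 : ∀ ψ ∈ Finset.univ.erase e, (m ψ : ℝ) * n ψ = 0 := by
        intro ψ hψ
        have h3 := hcon ψ hψ
        have h4 := hlt2 ψ (Finset.ne_of_mem_erase hψ)
        rcases Nat.eq_zero_or_pos (m ψ) with h | h
        · rw [h]; simp
        · exfalso
          have h5 : (0 : ℝ) < m ψ := by exact_mod_cast h
          nlinarith
      rw [Finset.sum_eq_zero h2] at hA'
      have h6 : (1 : ℝ) < d := by exact_mod_cast hd1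
      nlinarith
  have h6 : (1 : ℝ) < d := by exact_mod_cast hd1
  have h7 : (d : ℝ) ≤ T := by exact_mod_cast hTd
  have h8 : s * ((T : ℝ) - 1) < (d : ℝ) * d - 1 := by
    rw [hA', hB']; ring_nf; ring_nf at hlt3; linarith
  have h9 : s < d + 1 := by
    by_contra hcon
    push Not at hcon
    nlinarith
  rw [← hs2]
  nlinarith

/-- Let H be an abelian subgroup of the finite group G meeting the centre of G trivially, such that for every non-central g the centralizer of g has nontrivial intersection with at most one conjugate of H. Let χ be an irreducible character of G with χ h ≠ χ 1 for some h in H, and let c be the inner product of the restriction of χ to H with the principal character. Then χ(1)² > (order of H)·c²; and if in addition χ 1 ≠ 1 and no proper normal subgroup of G contains H, then (1 + χ 1)² > order of H (both sides read as real numbers). -/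
theorem result {G : Type*} [Group G] [Fintype G] (H : Subgroup G) [Fintype H] (hab : ∀ a ∈ H, ∀ b ∈ H, a * b = b * a) (hZ : H ⊓ Subgroup.center G = ⊥) (hone : ∀ g : G, g ∉ Subgroup.center G → ∀ a b : G, Subgroup.centralizer ({g} : Set G) ⊓ H.map (MulAut.conj a).toMonoidHom ≠ ⊥ → Subgroup.centralizer ({g} : Set G) ⊓ H.map (MulAut.conj b).toMonoidHom ≠ ⊥ → H.map (MulAut.conj a).toMonoidHom = H.map (MulAut.conj b).toMonoidHom) (χ : G → ℂ) (hχ : Cfsg.IsIrrCharacter G χ) (hker : ∃ h ∈ H, χ h ≠ χ 1) : (χ 1).re ^ 2 > (Nat.card H : ℝ) * (Cfsg.classInner (fun h : H => χ h) (fun _ => 1)).re ^ 2 ∧ (χ 1 ≠ 1 → (∀ M : Subgroup G, M.Normal → H ≤ M → M = ⊤) → (1 + (χ 1).re) ^ 2 > (Nat.card H : ℝ)) := by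
  obtain ⟨d, hd0, hd⟩ := irr_one_eq_nat hχ
  obtain ⟨c, hc⟩ := classInner_char_nat (isChar_restrict H (irr_isChar hχ)) (isChar_one (G := H))
  constructor
  · have h1 := part1 H hab hZ hone χ hχ hker
    rw [hd, hc, Complex.norm_natCast, Complex.norm_natCast] at h1
    rw [hd, hc]
    simpa using h1
  · intro h1 hM
    have h2 := part2 H hab hZ hone hM χ hχ h1 hd
    rw [hd]
    simpa using h2

end Cfsg.Agent.S0898
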