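import Cfsg.Statements.S0900
import Cfsg.Agent.H3.GoingDown

set_option autoImplicit false
open Cfsg Cfsg.Agent.H3
open scoped ComplexConjugate

namespace Cfsg.Agent.S0900

/-- Let N be a normal subgroup of the finite group G, χ an irreducible character of G and ϑ an irreducible character of N having nonzero inner product with the restriction of χ. Consider: (a) the restriction of χ to N is e • ϑ for a natural number e with e ^ 2 equal to the index of N; (b) χ vanishes outside N and ϑ is invariant under conjugation by G; (c) ϑ is invariant and every irreducible character of G having nonzero inner product with the function induced from ϑ equals χ. Then (a) ↔ (b) and (a) ↔ (c). -/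
theorem result {G : Type*} [Group G] [Fintype G] (N : Subgroup G) [hN : N.Normal] [Fintype N] (χ : G → ℂ) (hχ : Cfsg.IsIrrCharacter G χ) (ϑ : N → ℂ) (hϑ : Cfsg.IsIrrCharacter N ϑ) (hcon : Cfsg.classInner (fun n : N => χ n) ϑ ≠ 0) : ((∃ e : ℕ, (fun n : N => χ n) = (e : ℂ) • ϑ ∧ e ^ 2 = N.index) ↔ ((∀ g : G, g ∉ N → χ g = 0) ∧ ∀ (g : G) (n : N), ϑ ⟨g * n * g⁻¹, hN.conj_mem (n : G) n.2 g⟩ = ϑ n)) ∧ ((∃ e : ℕ, (fun n : N => χ n) = (e : ℂ) • ϑ ∧ e ^ 2 = N.index) ↔ (∀ (g : G) (n : N), ϑ ⟨g * n * g⁻¹, hN.conj_mem (n : G) n.2 g⟩ = ϑ n ∧ ∀ ψ : G → ℂ, Cfsg.IsIrrCharacter G ψ → Cfsg.classInner (Cfsg.indFun N ϑ) ψ ≠ 0 → ψ = χ)) := by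
  classical
  have hχc := irr_isChar hχ
  obtain ⟨e, he⟩ := classInner_char_nat (isChar_restrict N hχc) (irr_isChar hϑ)
  have he0 : (e : ℂ) ≠ 0 := by rw [← he]; exact hcon
  have hN0 : (Nat.card N : ℂ) ≠ 0 := card_ne_zeroC
  have hG0 : (Nat.card G : ℂ) ≠ 0 := card_ne_zeroC
  have hfr : classInner (indFun N ϑ) χ = e := by
    rw [frobenius_reciprocity N ϑ (irr_classFun hχ),
      classInner_char_symm (irr_isChar hϑ) (isChar_restrict N hχc), he]
  -- restriction to `N` determines `e`
  have hee : ∀ e' : ℕ, (fun n : N => χ n) = (e' : ℂ) • ϑ → e' = e := by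
    intro e' h
    rw [h, classInner_smul_left, classInner_self_of_irr hϑ, mul_one] at he
    exact_mod_cast he
  have hinv_of : (fun n : N => χ n) = (e : ℂ) • ϑ → ∀ (g : G) (n : N),
      ϑ ⟨g * n * g⁻¹, hN.conj_mem (n : G) n.2 g⟩ = ϑ n := by
    intro h g n
    have h1 := congrFun h n
    have h2 := congrFun h ⟨g * n * g⁻¹, hN.conj_mem (n : G) n.2 g⟩
    simp only [Pi.smul_apply, smul_eq_mul] at h1 h2
    have h3 : χ (g * n * g⁻¹) = χ n := irr_classFun hχ n g
    rw [h3, h1] at h2
    exact (mul_left_cancel₀ he0 h2).symm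
  refine ⟨⟨?_, ?_⟩, ⟨?_, ?_⟩⟩
  · rintro ⟨e', h1, h2⟩
    obtain rfl := hee e' h1
    refine ⟨?_, hinv_of h1⟩
    have h3 : classInner (fun n : N => χ n) (fun n : N => χ n) = N.index := by
      rw [h1, classInner_smul_left, classInner_smul_right, classInner_self_of_irr hϑ]
      simp only [Complex.conj_natCast, mul_one]
      rw [← h2]; push_cast; ring
    have h4 := classInner_self_of_irr hχ
    unfold classInner at h3 h4
    rw [sum_subgroup_eq N (fun k => χ k * conj (χ k))] at h3
    have h5 : ∑ k : G, (if k ∈ N then χ k * conj (χ k) else 0) = ∑ k : G, χ k * conj (χ k) := by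
      have h6 : ∑ k : G, χ k * conj (χ k) = Nat.card G := by
        field_simp at h4; exact h4
      have h7 : ∑ k : G, (if k ∈ N then χ k * conj (χ k) else 0) = N.index * Nat.card N := by
        field_simp at h3; rw [h3]; ring
      rw [h6, h7]
      exact_mod_cast Subgroup.index_mul_card N
    have h6 : ∑ k : G, (if k ∈ N then (0 : ℝ) else Complex.normSq (χ k)) = 0 := by
      have h7 : ((∑ k : G, (if k ∈ N then (0 : ℝ) else Complex.normSq (χ k)) : ℝ) : ℂ) = 0 := by
        push_cast
        have h8 : ∑ k : G, ((if k ∈ N then (0 : ℝ) else Complex.normSq (χ k) : ℝ) : ℂ) =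
            ∑ k : G, χ k * conj (χ k) - ∑ k : G, (if k ∈ N then χ k * conj (χ k) else 0) := by
          rw [← Finset.sum_sub_distrib]
          refine Finset.sum_congr rfl fun k _ => ?_
          split_ifs
          · rw [sub_self, Complex.ofReal_zero]
          · rw [sub_zero, Complex.mul_conj]
        rw [h8, h5, sub_self]
      exact_mod_cast h7
    intro g hg
    have h7 := (Finset.sum_eq_zero_iff_of_nonneg (fun k _ => by
      split_ifs
      · exact le_rfl
      · exact Complex.normSq_nonneg _)).1 h6 g (Finset.mem_univ _)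
    rw [if_neg hg, Complex.normSq_eq_zero] at h7
    exact h7
  · rintro ⟨h1, h2⟩
    obtain ⟨e', h3, h4⟩ := fully_ramified hN hχ h1 hϑ (fun g => funext fun n => h2 g n)
      (by intro _; convert hcon)
    exact ⟨e', h3, h4⟩
  · rintro ⟨e', h1, h2⟩
    obtain rfl := hee e' h1
    have hinv := hinv_of h1
    have h3 := norm_ind_invariant hN hϑ (fun g => funext fun n => hinv g n)
    have h4 : classInner (indFun N ϑ - (e' : ℂ) • χ) (indFun N ϑ - (e' : ℂ) • χ) = 0 := by
      rw [classInner_sub_left, classInner_sub_right, classInner_sub_right, h3,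
        classInner_smul_left, classInner_smul_right, classInner_smul_right, classInner_smul_left,
        classInner_self_of_irr hχ, hfr,
        classInner_char_symm hχc (isChar_ind N (irr_isChar hϑ)), hfr, ← h2]
      simp only [Complex.conj_natCast]
      push_cast
      ring
    have hgen : IsGeneralizedCharacter G (indFun N ϑ - (e' : ℂ) • χ) :=
      isGen_sub (isGen_of_char (isChar_ind N (irr_isChar hϑ)))
        (isGen_of_char (isChar_natCast_smul e' hχc))
    have h5 : indFun N ϑ = (e' : ℂ) • χ := by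
      haveI := Fintype.ofFinite (IrrCharacter G)
      obtain ⟨m, hm, hexp⟩ := gen_expand hgen
      rw [classInner_eq_sum (isGen_classFun hgen)] at h4
      simp only [hm, map_intCast] at h4
      have h6 : ∑ ψ : IrrCharacter G, m ψ * m ψ = 0 := by exact_mod_cast h4
      have h7 := (Finset.sum_eq_zero_iff_of_nonneg (fun ψ _ => mul_self_nonneg (m ψ))).1 h6
      have h8 : indFun N ϑ - (e' : ℂ) • χ = 0 := by
        rw [hexp]
        apply Finset.sum_eq_zero
        intro ψ hψ
        have h9 := mul_self_eq_zero.1 (h7 ψ hψ)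
        rw [h9]; simp
      exact sub_eq_zero.1 h8
    intro g n
    refine ⟨hinv g n, fun ψ hψ hne => ?_⟩
    by_contra hcon'
    apply hne
    rw [h5, classInner_smul_left, classInner_of_irr_ne hχ hψ (fun h => hcon' h.symm), mul_zero]
  · intro h
    have hinv : ∀ g : G, cj hN g ϑ = ϑ := fun g => funext fun n => (h g n).1
    have h1 := (h 1 1).2
    have h2 : indFun N ϑ = (e : ℂ) • χ := by
      haveI := Fintype.ofFinite (IrrCharacter G)
      rw [classFun_expand (indFun_classFun N ϑ)]
      rw [Finset.sum_eq_single (⟨χ, hχ⟩ : IrrCharacter G)]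
      · rw [show ((⟨χ, hχ⟩ : IrrCharacter G) : G → ℂ) = χ from rfl, hfr]
      · intro ψ _ hψ
        have h3 : classInner (indFun N ϑ) ψ = 0 := by
          by_contra hne
          exact hψ (Subtype.ext (h1 ψ ψ.2 hne))
        rw [h3, zero_smul]
      · intro h; exact absurd (Finset.mem_univ _) h
    refine ⟨e, ?_, ?_⟩
    · have h3 := clifford_invariant hN hχ hϑ hinv hcon
      rw [he] at h3
      exact h3
    · have h3 := norm_ind_invariant hN hϑ hinv
      rw [h2, classInner_smul_left, classInner_smul_right, classInner_self_of_irr hχ] at h3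
      simp only [Complex.conj_natCast, mul_one] at h3
      have h4 : ((e ^ 2 : ℕ) : ℂ) = N.index := by push_cast; rw [pow_two]; exact h3
      exact_mod_cast h4

end Cfsg.Agent.S0900
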