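import Cfsg.Statements.S0901
import Mathlib.FieldTheory.Finite.Basic
import Mathlib.RingTheory.RootsOfUnity.PrimitiveRoots
import Mathlib.RingTheory.RootsOfUnity.Complex
import Mathlib.FieldTheory.IntermediateField.Adjoin.Algebra
import Mathlib.RingTheory.RootsOfUnity.Minpoly
import Mathlib.RingTheory.Polynomial.Cyclotomic.Basic
import Mathlib.Algebra.Algebra.ZMod
-- import your own Cfsg.Agent.* helpers here

set_option autoImplicit false
open Cfsg

namespace Cfsg.Agent.S0901

/-- Let M be a maximal ideal of the ring of algebraic integers containing the prime p, and let U be the set of complex roots of unity of order prime to p. Then reduction modulo M is injective on U, and every algebraic integer not in M is congruent modulo M to an element of U (so U maps bijectively onto the nonzero residues). -/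
theorem result (p : ℕ) [Fact p.Prime] (M : Ideal Cfsg.AlgInt) (hM : Cfsg.IsPModular p M) : (∀ ε₁ ε₂ : Cfsg.AlgInt, (∃ m : ℕ, ¬ p ∣ m ∧ (ε₁ : ℂ) ^ m = 1) → (∃ m : ℕ, ¬ p ∣ m ∧ (ε₂ : ℂ) ^ m = 1) → ε₁ - ε₂ ∈ M → ε₁ = ε₂) ∧ (∀ a : Cfsg.AlgInt, a ∉ M → ∃ ε : Cfsg.AlgInt, (∃ m : ℕ, ¬ p ∣ m ∧ (ε : ℂ) ^ m = 1) ∧ a - ε ∈ M) := by
  have hp : p.Prime := Fact.out
  have hmax := hM.2.1
  have hprime : M.IsPrime := hmax.isPrime
  have hpM : (p : AlgInt) ∈ M := hM.2.2
  have hnat : ∀ m : ℕ, (m : AlgInt) ∈ M → p ∣ m := by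
    intro m hm
    by_contra h
    have hcop : Nat.Coprime p m := (Nat.Prime.coprime_iff_not_dvd hp).mpr h
    have h1 : IsCoprime (p : ℤ) (m : ℤ) := Nat.isCoprime_iff_coprime.mpr hcop
    obtain ⟨u, v, huv⟩ := h1
    apply hprime.ne_top
    rw [Ideal.eq_top_iff_one]
    have h2 : (1 : AlgInt) = (u : AlgInt) * (p : AlgInt) + (v : AlgInt) * (m : AlgInt) := by
      exact_mod_cast (congrArg (fun z : ℤ => (z : AlgInt)) huv).symm
    rw [h2]
    exact M.add_mem (M.mul_mem_left _ hpM) (M.mul_mem_left _ hm)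
  refine ⟨?_, ?_⟩
  · rintro ε₁ ε₂ ⟨m₁, hm₁, h₁⟩ ⟨m₂, hm₂, h₂⟩ hsub
    have hm : ¬ p ∣ m₁ * m₂ := fun h => (hp.dvd_mul.mp h).elim hm₁ hm₂
    have e1 : ε₁ ^ (m₁ * m₂) = 1 := by
      apply Subtype.ext
      push_cast
      rw [pow_mul, h₁, one_pow]
    have e2 : ε₂ ^ (m₁ * m₂) = 1 := by
      apply Subtype.ext
      push_cast
      rw [mul_comm, pow_mul, h₂, one_pow]
    by_contra hne
    have h3 : (∑ i ∈ Finset.range (m₁ * m₂), ε₁ ^ i * ε₂ ^ (m₁ * m₂ - 1 - i)) = 0 := by
      have := (Commute.all ε₁ ε₂).geom_sum₂_mul (m₁ * m₂)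
      rw [e1, e2, sub_self] at this
      exact (mul_eq_zero.mp this).resolve_right (sub_ne_zero.mpr hne)
    have h4 : (Ideal.Quotient.mk M) ε₁ = (Ideal.Quotient.mk M) ε₂ := Ideal.Quotient.eq.mpr hsub
    have h5 := congrArg (Ideal.Quotient.mk M) h3
    rw [map_sum, map_zero] at h5
    simp only [map_mul, map_pow, h4] at h5
    rw [geom_sum₂_self] at h5
    have h6 : ((m₁ * m₂ : ℕ) : AlgInt) ∈ M := by
      rw [← Ideal.Quotient.eq_zero_iff_mem, map_natCast]
      have h7 : (Ideal.Quotient.mk M) ε₂ ^ (m₁ * m₂ - 1) * (Ideal.Quotient.mk M) ε₂ = 1 := by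
        rw [← pow_succ, Nat.sub_add_cancel, ← map_pow, e2, map_one]
        rcases Nat.eq_zero_or_pos (m₁ * m₂) with h0 | h0
        · exact absurd (h0 ▸ dvd_zero p) hm
        · exact h0
      calc ((m₁ * m₂ : ℕ) : AlgInt ⧸ M) = ((m₁ * m₂ : ℕ) : AlgInt ⧸ M) *
          ((Ideal.Quotient.mk M) ε₂ ^ (m₁ * m₂ - 1) * (Ideal.Quotient.mk M) ε₂) := by
            rw [h7, mul_one]
        _ = 0 := by rw [← mul_assoc, h5, zero_mul]
    exact hm (hnat _ h6)
  · intro a ha
    let _ : Field (AlgInt ⧸ M) := Ideal.Quotient.field M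
    obtain ⟨x, hx⟩ : ∃ x, x = (Ideal.Quotient.mk M) a := ⟨_, rfl⟩
    have hx0 : x ≠ 0 := by
      rw [hx, Ne, Ideal.Quotient.eq_zero_iff_mem]
      exact ha
    have : CharP (AlgInt ⧸ M) p := by
      rw [CharP.charP_iff_prime_eq_zero hp]
      rw [← map_natCast (Ideal.Quotient.mk M), Ideal.Quotient.eq_zero_iff_mem]
      exact hpM
    let _ : Algebra (ZMod p) (AlgInt ⧸ M) := ZMod.algebra _ p
    have hint : IsIntegral (ZMod p) x := by
      have h1 : IsIntegral ℤ a := by
        have := a.2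
        rw [mem_integralClosure_iff] at this
        exact (isIntegral_algebraMap_iff (R := ℤ) (A := AlgInt) (B := ℂ)
          Subtype.val_injective (x := a)).mp this
      have h2 : IsIntegral ℤ x := by
        rw [hx]
        exact map_isIntegral_int (Ideal.Quotient.mk M) h1
      exact h2.tower_top
    have := IntermediateField.adjoin.finiteDimensional hint
    have : Finite (IntermediateField.adjoin (ZMod p) ({x} : Set (AlgInt ⧸ M))) :=
      Module.finite_of_finite (ZMod p)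
    let _ : Fintype (IntermediateField.adjoin (ZMod p) ({x} : Set (AlgInt ⧸ M))) :=
      Fintype.ofFinite _
    obtain ⟨K, hK⟩ : ∃ K, K = IntermediateField.adjoin (ZMod p) ({x} : Set (AlgInt ⧸ M)) :=
      ⟨_, rfl⟩
    have hmem : x ∈ IntermediateField.adjoin (ZMod p) ({x} : Set (AlgInt ⧸ M)) :=
      IntermediateField.mem_adjoin_simple_self _ _
    obtain ⟨q, hq⟩ : ∃ q, q = Fintype.card (IntermediateField.adjoin (ZMod p)
      ({x} : Set (AlgInt ⧸ M))) := ⟨_, rfl⟩
    have hpow : x ^ (q - 1) = 1 := by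
      have := FiniteField.pow_card_sub_one_eq_one
        (⟨x, hmem⟩ : IntermediateField.adjoin (ZMod p) ({x} : Set (AlgInt ⧸ M)))
        (fun h => hx0 (congrArg Subtype.val h))
      rw [hq]
      exact congrArg Subtype.val this
    have hpq : p ∣ q := by
      have h1 := FiniteField.cast_card_eq_zero (IntermediateField.adjoin (ZMod p)
        ({x} : Set (AlgInt ⧸ M)))
      rw [← hq] at h1
      have h2 : ((q : ℕ) : AlgInt ⧸ M) = 0 := by
        have := congrArg (fun z : IntermediateField.adjoin (ZMod p)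
          ({x} : Set (AlgInt ⧸ M)) => (z : AlgInt ⧸ M)) h1
        simpa using this
      exact (CharP.cast_eq_zero_iff (AlgInt ⧸ M) p q).mp h2
    have hq1 : 1 < q := by
      rw [hq]
      exact Fintype.one_lt_card
    have hpq1 : ¬ p ∣ q - 1 := by
      intro h
      have h1 := (Nat.dvd_sub hpq h)
      rw [Nat.sub_sub_self hq1.le] at h1
      exact hp.one_lt.ne' (Nat.dvd_one.mp h1)
    have hm0 : q - 1 ≠ 0 := by omega
    have hζ := Complex.isPrimitiveRoot_exp (q - 1) hm0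
    obtain ⟨ζ, hζ'⟩ : ∃ ζ : AlgInt, (ζ : ℂ) = Complex.exp (2 * Real.pi * Complex.I / ((q - 1 : ℕ) : ℂ)) :=
      ⟨⟨_, hζ.isIntegral (Nat.pos_of_ne_zero hm0)⟩, rfl⟩
    have hprim : IsPrimitiveRoot ζ (q - 1) := by
      apply IsPrimitiveRoot.of_map_of_injective (f := (AlgInt.val : AlgInt →ₐ[ℤ] ℂ))
        (hf := Subtype.val_injective)
      have : (AlgInt.val : AlgInt →ₐ[ℤ] ℂ) ζ = Complex.exp (2 * Real.pi * Complex.I / ((q - 1 : ℕ) : ℂ)) := hζ'
      rw [this]
      exact hζ
    have hprod := Polynomial.X_pow_sub_one_eq_prod (Nat.pos_of_ne_zero hm0) hprim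
    have heval := congrArg (Polynomial.eval a) hprod
    rw [Polynomial.eval_prod] at heval
    simp only [Polynomial.eval_sub, Polynomial.eval_pow, Polynomial.eval_X, Polynomial.eval_one,
      Polynomial.eval_C] at heval
    have hmemM : a ^ (q - 1) - 1 ∈ M := by
      rw [← Ideal.Quotient.eq_zero_iff_mem, map_sub, map_pow, ← hx, hpow, map_one, sub_self]
    rw [heval] at hmemM
    obtain ⟨ε, hε, hεM⟩ := (hprime.prod_mem_iff).mp hmemM
    refine ⟨ε, ⟨q - 1, hpq1, ?_⟩, hεM⟩
    have := (Polynomial.mem_nthRootsFinset (Nat.pos_of_ne_zero hm0) 1).mp hε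
    exact congrArg Subtype.val this

end Cfsg.Agent.S0901
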