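import Cfsg.Statements.S0903
-- import your own Cfsg.Agent.* helpers here

set_option autoImplicit false
open Cfsg

namespace Cfsg.Agent.S0903

/-- Let P be a p-subgroup of the finite group G, let c centralize P and let g, h ∈ G. The number of pairs (x, y) with x conjugate to g, y conjugate to h and x * y = c is congruent modulo p to the number of such pairs in which x and y both centralize P. (This is why the Brauer map on class sums is multiplicative.) -/
theorem result {G : Type*} [Group G] [Finite G] (p : ℕ) [Fact p.Prime] (P : Subgroup G) (hP : IsPGroup p P) (c : G) (hc : c ∈ Subgroup.centralizer (P : Set G)) (g h : G) : Nat.card {xy : G × G // IsConj g xy.1 ∧ IsConj h xy.2 ∧ xy.1 * xy.2 = c} ≡ Nat.card {xy : G × G // IsConj g xy.1 ∧ IsConj h xy.2 ∧ xy.1 * xy.2 = c ∧ xy.1 ∈ Subgroup.centralizer (P : Set G) ∧ xy.2 ∈ Subgroup.centralizer (P : Set G)} [MOD p] := by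
  classical
  let α := {xy : G × G // IsConj g xy.1 ∧ IsConj h xy.2 ∧ xy.1 * xy.2 = c}
  have hcu : ∀ u ∈ P, u * c * u⁻¹ = c := by
    intro u hu
    rw [Subgroup.mem_centralizer_iff] at hc
    rw [hc u hu]; group
  let act : MulAction P α :=
    { smul := fun u x => ⟨(u * x.1.1 * (u : G)⁻¹, u * x.1.2 * (u : G)⁻¹), by
        obtain ⟨h1, h2, h3⟩ := x.2
        refine ⟨h1.trans (isConj_iff.mpr ⟨u, rfl⟩), h2.trans (isConj_iff.mpr ⟨u, rfl⟩), ?_⟩
        calc (u : G) * x.1.1 * (u : G)⁻¹ * ((u : G) * x.1.2 * (u : G)⁻¹)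
            = (u : G) * (x.1.1 * x.1.2) * (u : G)⁻¹ := by group
          _ = c := by rw [h3, hcu u u.2]⟩
      one_smul := fun x => by
        apply Subtype.ext
        show ((((1 : P) : G) * x.1.1 * ((1 : P) : G)⁻¹, ((1 : P) : G) * x.1.2 * ((1 : P) : G)⁻¹) : G × G) = x.1
        simp
      mul_smul := fun u v x => by
        apply Subtype.ext
        show ((((u * v : P) : G) * x.1.1 * ((u * v : P) : G)⁻¹,
          ((u * v : P) : G) * x.1.2 * ((u * v : P) : G)⁻¹) : G × G)
          = (u * (v * x.1.1 * (v : G)⁻¹) * (u : G)⁻¹, u * (v * x.1.2 * (v : G)⁻¹) * (u : G)⁻¹)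
        simp only [Subgroup.coe_mul, mul_inv_rev, mul_assoc] }
  have key := hP.card_modEq_card_fixedPoints (α := α)
  refine key.trans ?_
  have hfix : ∀ x : α, x ∈ MulAction.fixedPoints P α ↔
      x.1.1 ∈ Subgroup.centralizer (P : Set G) ∧ x.1.2 ∈ Subgroup.centralizer (P : Set G) := by
    intro x
    rw [MulAction.mem_fixedPoints]
    constructor
    · intro hx
      constructor
      · rw [Subgroup.mem_centralizer_iff]
        intro u hu
        have h1 := congrArg (fun z : α => z.1.1) (hx ⟨u, hu⟩)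
        have h2 : u * x.1.1 * u⁻¹ = x.1.1 := h1
        calc u * x.1.1 = (u * x.1.1 * u⁻¹) * u := by group
          _ = x.1.1 * u := by rw [h2]
      · rw [Subgroup.mem_centralizer_iff]
        intro u hu
        have h1 := congrArg (fun z : α => z.1.2) (hx ⟨u, hu⟩)
        have h2 : u * x.1.2 * u⁻¹ = x.1.2 := h1
        calc u * x.1.2 = (u * x.1.2 * u⁻¹) * u := by group
          _ = x.1.2 * u := by rw [h2]
    · rintro ⟨h1, h2⟩ u
      rw [Subgroup.mem_centralizer_iff] at h1 h2
      apply Subtype.ext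
      show ((u : G) * x.1.1 * (u : G)⁻¹, (u : G) * x.1.2 * (u : G)⁻¹) = x.1
      rw [h1 u u.2, h2 u u.2]
      simp
  have hcard : Nat.card (MulAction.fixedPoints P α) =
      Nat.card {xy : G × G // IsConj g xy.1 ∧ IsConj h xy.2 ∧ xy.1 * xy.2 = c ∧
        xy.1 ∈ Subgroup.centralizer (P : Set G) ∧ xy.2 ∈ Subgroup.centralizer (P : Set G)} := by
    apply Nat.card_congr
    exact
      { toFun := fun x => ⟨x.1.1, x.1.2.1, x.1.2.2.1, x.1.2.2.2, (hfix x.1).mp x.2⟩
        invFun := fun x => ⟨⟨x.1, x.2.1, x.2.2.1, x.2.2.2.1⟩, (hfix _).mpr x.2.2.2.2⟩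
        left_inv := fun x => rfl
        right_inv := fun x => rfl }
  rw [hcard]

end Cfsg.Agent.S0903
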