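import Cfsg.Statements.S0905
import Cfsg.Agent.H11.Blk1
-- import your own Cfsg.Agent.* helpers here

set_option autoImplicit false
open Cfsg

namespace Cfsg.Agent.S0905

/-- Let F be a field of characteristic p and let g be an element of the finite group G no conjugate of which centralizes O_p(G). Then the class sum of g is a nilpotent element of the group algebra F[G]. -/
theorem result {G : Type*} [Group G] [Finite G] (p : ℕ) [Fact p.Prime] (F : Type*) [Field F] [CharP F p] (g : G) (hg : ∀ x : G, IsConj g x → x ∉ Subgroup.centralizer (Cfsg.pCore p G : Set G)) : IsNilpotent (∑ᶠ x ∈ ConjClasses.carrier (ConjClasses.mk g), MonoidAlgebra.single x (1 : F) : MonoidAlgebra F G) := by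
  classical
  have := Fintype.ofFinite G
  obtain ⟨a, ha⟩ : ∃ a : MonoidAlgebra F G, a = ∑ᶠ x ∈ ConjClasses.carrier (ConjClasses.mk g),
    MonoidAlgebra.single x (1 : F) := ⟨_, rfl⟩
  have hco : ∀ y, a.coeff y = if IsConj g y then 1 else 0 := by
    intro y
    rw [ha, finsum_mem_eq_finite_toFinset_sum _ (Set.toFinite _), MonoidAlgebra.coeff_sum]
    simp only [Finset.sum_apply', MonoidAlgebra.coeff_single, Finsupp.single_apply]
    rw [Finset.sum_ite_eq']
    simp only [Set.Finite.mem_toFinset, ConjClasses.mem_carrier_iff_mk_eq]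
    congr 1
    rw [eq_comm, ConjClasses.mk_eq_mk_iff_isConj]
    exact propext isConj_comm
  rw [← ha]
  refine Cfsg.Agent.H11.class_sum_nilpotent p (Cfsg.pCore p G) (Cfsg.Agent.H1.pCore_isPGroup p G) a ?_ ?_
  · intro x y
    rw [hco, hco]
    congr 1
    apply propext
    have : IsConj x (y * x * y⁻¹) := isConj_iff.mpr ⟨y, rfl⟩
    exact ⟨fun h => h.trans this.symm, fun h => h.trans this⟩
  · intro x hx
    rw [hco, if_neg]
    intro h
    exact hg x h hx

end Cfsg.Agent.S0905
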