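import Cfsg.Statements.S0911
import Cfsg.Agent.H11.Defect2
-- import your own Cfsg.Agent.* helpers here

set_option autoImplicit false
open Cfsg

namespace Cfsg.Agent.S0911

/-- The min–max Theorem for defect classes. Let B be a block of the finite group G relative to a maximal ideal M of the algebraic integers containing the prime p, let g represent a defect class of B and let D be a Sylow p-subgroup of the centralizer of g (viewed in G). For any h: (a) if the idempotent coefficient of B at h is a local integer outside the local ideal, then some conjugate of D contains a Sylow p-subgroup of the centralizer of h; (b) if the central character of some member of B at h is outside the local ideal, then some conjugate of D is contained in a Sylow p-subgroup of the centralizer of h. -/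
theorem result {G : Type*} [Group G] [Finite G] (p : ℕ) [Fact p.Prime] (M : Ideal Cfsg.AlgInt) (hM : Cfsg.IsPModular p M) (B : Set (Cfsg.IrrCharacter G)) (hB : Cfsg.IsPBlock M B) (g : G) (hg : Cfsg.IsDefectClass M B g) (D : Sylow p (Subgroup.centralizer ({g} : Set G))) (h : G) : (Cfsg.MemLocalRing M (Cfsg.blockCoeff B h) → ¬ Cfsg.MemLocalIdeal M (Cfsg.blockCoeff B h) → ∃ (x : G) (Q : Sylow p (Subgroup.centralizer ({h} : Set G))), (Q : Subgroup (Subgroup.centralizer ({h} : Set G))).map (Subgroup.centralizer ({h} : Set G)).subtype ≤ ((D : Subgroup (Subgroup.centralizer ({g} : Set G))).map (Subgroup.centralizer ({g} : Set G)).subtype).map (MulAut.conj x).toMonoidHom) ∧ ((∃ χ ∈ B, ¬ Cfsg.MemLocalIdeal M (Cfsg.centralChar (χ : G → ℂ) h)) → ∃ (x : G) (Q : Sylow p (Subgroup.centralizer ({h} : Set G))), ((D : Subgroup (Subgroup.centralizer ({g} : Set G))).map (Subgroup.centralizer ({g} : Set G)).subtype).map (MulAut.conj x).toMonoidHom ≤ (Q : Subgroup (Subgroup.centralizer ({h} : Set G))).map (Subgroup.centralizer ({h} : Set G)).subtype)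 := by
  classical
  have := Fintype.ofFinite G
  have hpr := hM.2.1.isPrime
  have hDS := Cfsg.Agent.L.sylIn_of_sylow D
  have hDG := Cfsg.Agent.H11.sylIn_isDefectGroup hM hg hDS
  constructor
  · intro _ h2
    obtain ⟨Q⟩ : Nonempty (Sylow p (Subgroup.centralizer ({h} : Set G))) := inferInstance
    have hQ := Cfsg.Agent.L.sylIn_of_sylow Q
    obtain ⟨c, hc⟩ := Cfsg.Agent.H11.exists_conj_le_defect hM hB hDG h2 hQ.isPGroup hQ.le
    exact ⟨c, Q, hc⟩
  · rintro ⟨χ, hχ, h2⟩
    obtain ⟨x, hx, hDx⟩ := Cfsg.Agent.H11.exists_conj_centralizes hM hB hDG hχ h2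
    obtain ⟨c, rfl⟩ := isConj_iff.mp hx
    have h3 : Cfsg.Agent.L.cj c⁻¹ ((D : Subgroup (Subgroup.centralizer ({g} : Set G))).map
        (Subgroup.centralizer ({g} : Set G)).subtype) ≤ Cfsg.Agent.H11.C1 h := by
      rw [Cfsg.Agent.L.cj_le_iff, inv_inv, Cfsg.Agent.H11.cj_C1]
      exact hDx
    obtain ⟨R, hR, hDR⟩ := Cfsg.Agent.L.exists_sylIn_ge (p := p)
      (Cfsg.Agent.L.cj_isPGroup hDS.isPGroup) h3
    refine ⟨c⁻¹, hR.toSylow, ?_⟩
    rw [hR.map_toSylow]
    exact hDR

end Cfsg.Agent.S0911
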