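import Cfsg.Statements.S0928
import Cfsg.Agent.H11.Knorr
import Cfsg.Agent.H27.PMod
-- import your own Cfsg.Agent.* helpers here

set_option autoImplicit false
open Cfsg

namespace Cfsg.Agent.S0928

/-- Let χ be an irreducible character of the finite group G and p a prime. If χ g = 0 for every element g of order p, then the exponent of p in the degree χ(1) equals the exponent of p in the order of G (χ has p-defect zero). -/
theorem result {G : Type*} [Group G] [Finite G] (p : ℕ) [Fact p.Prime] (χ : Cfsg.IrrCharacter G) (hvan : ∀ g : G, orderOf g = p → (χ : G → ℂ) g = 0) : (Cfsg.charDegree (χ : G → ℂ)).factorization p = (Nat.card G).factorization p := by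
  classical
  have hfG : Fintype G := Fintype.ofFinite G
  obtain ⟨M, hM⟩ := Cfsg.Agent.H27.exists_isPModular (p := p) Fact.out
  exact Cfsg.Agent.H11.knorr hM hvan

end Cfsg.Agent.S0928
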