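import Cfsg.Statements.S0957
-- import your own Cfsg.Agent.* helpers here

set_option autoImplicit false
open Cfsg

namespace Cfsg.Agent.S0957

/-- Let P be a Sylow p-subgroup of the finite group G, let g, h ∈ G and let p ^ d be the order of a Sylow p-subgroup of the centralizer of g. Then the number of pairs (y, z) with y conjugate to g, z conjugate to h and z * y⁻¹ ∈ P is divisible by the order of P divided by p ^ d. -/
theorem result {G : Type*} [Group G] [Finite G] (p : ℕ) [Fact p.Prime] (P : Sylow p G) (g h : G) (S : Sylow p (Subgroup.centralizer ({g} : Set G))) : Nat.card P / Nat.card S ∣ Nat.card {yz : G × G // IsConj g yz.1 ∧ IsConj h yz.2 ∧ yz.2 * yz.1⁻¹ ∈ (P : Subgroup G)} := by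
  classical
  have hfG : Fintype G := Fintype.ofFinite G
  have hp : p.Prime := Fact.out
  let X := {yz : G × G // IsConj g yz.1 ∧ IsConj h yz.2 ∧ yz.2 * yz.1⁻¹ ∈ (P : Subgroup G)}
  have hconj : ∀ (u : G) (a b : G), IsConj a b → IsConj a (u * b * u⁻¹) := by
    intro u a b hab
    exact hab.trans (isConj_iff.mpr ⟨u, rfl⟩)
  let act : MulAction P X :=
    { smul := fun u x => ⟨((u : G) * x.1.1 * (u : G)⁻¹, (u : G) * x.1.2 * (u : G)⁻¹),
        hconj _ _ _ x.2.1, hconj _ _ _ x.2.2.1, by
          have h1 : ((u : G) * x.1.2 * (u : G)⁻¹) * ((u : G) * x.1.1 * (u : G)⁻¹)⁻¹ =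
              (u : G) * (x.1.2 * x.1.1⁻¹) * (u : G)⁻¹ := by group
          show ((u : G) * x.1.2 * (u : G)⁻¹) * ((u : G) * x.1.1 * (u : G)⁻¹)⁻¹ ∈ (P : Subgroup G)
          rw [h1]
          exact mul_mem (mul_mem u.2 x.2.2.2) (inv_mem u.2)⟩
      one_smul := fun x => by
        apply Subtype.ext
        apply Prod.ext
        · show ((1 : P) : G) * x.1.1 * ((1 : P) : G)⁻¹ = x.1.1
          simp
        · show ((1 : P) : G) * x.1.2 * ((1 : P) : G)⁻¹ = x.1.2
          simp
      mul_smul := fun u v x => by
        apply Subtype.ext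
        apply Prod.ext
        · show ((u * v : P) : G) * x.1.1 * ((u * v : P) : G)⁻¹ =
            (u : G) * ((v : G) * x.1.1 * (v : G)⁻¹) * (u : G)⁻¹
          rw [Subgroup.coe_mul]; group
        · show ((u * v : P) : G) * x.1.2 * ((u * v : P) : G)⁻¹ =
            (u : G) * ((v : G) * x.1.2 * (v : G)⁻¹) * (u : G)⁻¹
          rw [Subgroup.coe_mul]; group }
  show Nat.card P / Nat.card S ∣ Nat.card X
  -- order of a Sylow subgroup of the centralizer
  obtain ⟨a, ha⟩ := IsPGroup.iff_card.mp P.isPGroup'
  have hSc : Nat.card S = p ^ (Nat.card (Subgroup.centralizer ({g} : Set G))).factorization p :=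
    S.card_eq_multiplicity
  set d := (Nat.card (Subgroup.centralizer ({g} : Set G))).factorization p with hd
  have key : ∀ x : X, Nat.card P / Nat.card S ∣ Nat.card (MulAction.orbit P x) := by
    intro x
    have h1 : Nat.card (MulAction.orbit P x) * Nat.card (MulAction.stabilizer P x) =
        Nat.card P := by
      rw [← Nat.card_prod]
      exact Nat.card_congr (MulAction.orbitProdStabilizerEquivGroup P x)
    obtain ⟨j, hj⟩ := IsPGroup.iff_card.mp
      (P.isPGroup'.to_subgroup (MulAction.stabilizer P x))
    have hjd : j ≤ d := by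
      obtain ⟨c, hc⟩ := isConj_iff.mp x.2.1
      -- the stabiliser embeds in the centraliser of g
      let f : MulAction.stabilizer P x → Subgroup.centralizer ({g} : Set G) := fun u =>
        ⟨c⁻¹ * ((u : P) : G) * c, by
          rw [Subgroup.mem_centralizer_singleton_iff]
          have h2 : ((u : P) : G) * x.1.1 * ((u : P) : G)⁻¹ = x.1.1 :=
            congrArg (fun z : X => z.1.1) u.2
          have h3 : ((u : P) : G) * x.1.1 = x.1.1 * ((u : P) : G) := mul_inv_eq_iff_eq_mul.mp h2
          rw [← hc] at h3
          calc c⁻¹ * ((u : P) : G) * c * g = c⁻¹ * (((u : P) : G) * (c * g * c⁻¹)) * c := by group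
            _ = c⁻¹ * ((c * g * c⁻¹) * ((u : P) : G)) * c := by rw [h3]
            _ = g * (c⁻¹ * ((u : P) : G) * c) := by group⟩
      let F : MulAction.stabilizer P x →* Subgroup.centralizer ({g} : Set G) :=
        { toFun := f
          map_one' := by
            apply Subtype.ext
            show c⁻¹ * (((1 : MulAction.stabilizer P x) : P) : G) * c = 1
            simp
          map_mul' := fun u v => by
            apply Subtype.ext
            show c⁻¹ * (((u * v : MulAction.stabilizer P x) : P) : G) * c =
              (c⁻¹ * ((u : P) : G) * c) * (c⁻¹ * ((v : P) : G) * c)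
            simp only [Subgroup.coe_mul]
            group }
      have hF : Function.Injective F := by
        intro u v huv
        have h2 : c⁻¹ * ((u : P) : G) * c = c⁻¹ * ((v : P) : G) * c :=
          congrArg Subtype.val huv
        have h3 := mul_right_cancel h2
        have h4 := mul_left_cancel h3
        exact Subtype.ext (Subtype.ext h4)
      have h2 : Nat.card (MulAction.stabilizer P x) ∣
          Nat.card (Subgroup.centralizer ({g} : Set G)) := by
        rw [Nat.card_congr (F.ofInjective hF).toEquiv]
        exact Subgroup.card_subgroup_dvd_card _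
      rw [hj] at h2
      rw [hd]
      exact (hp.pow_dvd_iff_le_factorization Nat.card_pos.ne').mp h2
    rw [hj, ha] at h1
    have hda : d ≤ a := by
      have h5 : Nat.card (Subgroup.centralizer ({g} : Set G)) ∣ Nat.card G :=
        Subgroup.card_subgroup_dvd_card _
      have h6 : p ^ d ∣ Nat.card G := by
        refine dvd_trans ?_ h5
        exact (hp.pow_dvd_iff_le_factorization Nat.card_pos.ne').mpr le_rfl
      have h7 : Nat.card P = p ^ (Nat.card G).factorization p := P.card_eq_multiplicity
      rw [ha] at h7
      have h8 := Nat.pow_right_injective hp.two_le h7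
      rw [h8]
      exact (hp.pow_dvd_iff_le_factorization Nat.card_pos.ne').mp h6
    rw [ha, hSc, Nat.pow_div hda hp.pos]
    have h2 : Nat.card (MulAction.orbit P x) = p ^ (a - j) := by
      have h3 : p ^ (a - j) * p ^ j = p ^ a := by rw [← pow_add]; congr 1; omega
      exact Nat.eq_of_mul_eq_mul_right (pow_pos hp.pos j) (h1.trans h3.symm)
    rw [h2]
    exact pow_dvd_pow _ (by omega)
  have hfo : Fintype (Quotient (MulAction.orbitRel P X)) := Fintype.ofFinite _
  have e := MulAction.selfEquivSigmaOrbits P X
  rw [Nat.card_congr e, Nat.card_sigma]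
  apply Finset.dvd_sum
  intro q _
  exact key _

end Cfsg.Agent.S0957
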