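import Cfsg.Statements.S0960
import Cfsg.Agent.S4441

set_option autoImplicit false
open Cfsg

namespace Cfsg.Agent.S0960

/-- Let p be an odd prime and G a finite group whose Sylow p-subgroup P has order p; let e be the index of C_G(P) in N_G(P) (a divisor of p − 1) and fix a maximal ideal M of the algebraic integers containing p. Then the principal block of G consists of exactly e + (p - 1) / e irreducible characters, and the degree d of each of them satisfies d ≡ 1, d ≡ -1, d ≡ e or d ≡ -e modulo p. -/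
theorem result {G : Type*} [Group G] [Finite G] (p : ℕ) [Fact p.Prime] (M : Ideal Cfsg.AlgInt) (hM : Cfsg.IsPModular p M) (hodd : p ≠ 2) (P : Sylow p G) (hP : Nat.card P = p) (e : ℕ) (he : (Subgroup.centralizer ((P : Subgroup G) : Set G)).relIndex (Subgroup.normalizer ((P : Subgroup G) : Set G)) = e) : Nat.card (Cfsg.principalBlock M G) = e + (p - 1) / e ∧ ∀ χ ∈ Cfsg.principalBlock M G, ((Cfsg.charDegree (χ : G → ℂ) : ℤ) ≡ 1 [ZMOD p] ∨ (Cfsg.charDegree (χ : G → ℂ) : ℤ) ≡ -1 [ZMOD p] ∨ (Cfsg.charDegree (χ : G → ℂ) : ℤ) ≡ (e : ℤ) [ZMOD p] ∨ (Cfsg.charDegree (χ : G → ℂ) : ℤ) ≡ -(e : ℤ) [ZMOD p]) := by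
  classical
  let _ : Fintype G := Fintype.ofFinite G
  obtain ⟨X, Y, hXY, hdis, hX, hY, εX, ε, h1, h2, h3, _, _⟩ :=
    Cfsg.Agent.S4441.result p M hM hodd P hP e he
  refine ⟨?_, ?_⟩
  · rw [hXY, Nat.card_coe_set_eq, Set.ncard_union_eq hdis (Set.toFinite _) (Set.toFinite _),
      ← Nat.card_coe_set_eq, ← Nat.card_coe_set_eq, hX, hY]
  · intro χ hχ
    rw [hXY] at hχ
    rcases hχ with hχ | hχ
    · obtain ⟨h4, h5, _⟩ := h1 χ hχ
      rcases h4 with h4 | h4
      · left; rw [h4] at h5; exact h5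
      · right; left; rw [h4] at h5; exact h5
    · have h5 := h3 χ hχ
      rcases h2 with h4 | h4
      · right; right; left; rw [h4, one_mul] at h5; exact h5
      · right; right; right; rw [h4, neg_one_mul] at h5; exact h5

end Cfsg.Agent.S0960
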