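import Cfsg.Statements.S0961
import Cfsg.Agent.H26.RegPart
import Cfsg.Agent.H3.Counting
-- import your own Cfsg.Agent.* helpers here

set_option autoImplicit false
open Cfsg

namespace Cfsg.Agent.S0961

/-- Let χ be an irreducible character of the finite group G and let p ^ a be the largest power of the prime p dividing the order of G. Then the function equal to p ^ a * χ x at elements x of order prime to p and to 0 elsewhere is a generalized character (a difference of characters). -/
theorem result {G : Type*} [Group G] [Finite G] (p : ℕ) [Fact p.Prime] (χ : Cfsg.IrrCharacter G) : Cfsg.IsGeneralizedCharacter G (fun x : G => if p ∣ orderOf x then 0 else ((p ^ (Nat.card G).factorization p : ℕ) : ℂ) * (χ : G → ℂ) x) := by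
  haveI := Fintype.ofFinite G
  have h := Cfsg.Agent.H26.isGen_pr (G := G) p (Cfsg.Agent.H3.isGen_of_irr χ.2)
  convert h using 1
  funext x
  rw [Pi.smul_apply, smul_eq_mul]
  split_ifs with hx
  · rw [Cfsg.Agent.H26.pr_sing hx, mul_zero]
  · rw [Cfsg.Agent.H26.pr_reg hx]

end Cfsg.Agent.S0961
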