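import Cfsg.Statements.S0986
import Cfsg.Agent.H9.Syl
import Cfsg.Agent.H4.Basic2

set_option autoImplicit false
open Cfsg

namespace Cfsg.Agent.S0986

/-- Let P and Q be distinct Sylow p-subgroups of a finite group G chosen so that the order of P ∩ Q is as large as possible among intersections of two distinct Sylow p-subgroups, and let N be the normalizer of P ∩ Q. Then N has more than one Sylow p-subgroup, any two distinct Sylow p-subgroups of N intersect exactly in P ∩ Q, and each Sylow p-subgroup of N lies in exactly one Sylow p-subgroup of G. -/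
theorem result {G : Type*} [Group G] [Finite G] (p : ℕ) [Fact p.Prime] (P Q : Sylow p G) (hPQ : P ≠ Q) (hmax : ∀ P' Q' : Sylow p G, P' ≠ Q' → Nat.card ↥((P' : Subgroup G) ⊓ (Q' : Subgroup G)) ≤ Nat.card ↥((P : Subgroup G) ⊓ (Q : Subgroup G))) : 1 < Nat.card (Sylow p ↥(Subgroup.normalizer (((P : Subgroup G) ⊓ (Q : Subgroup G) : Subgroup G) : Set G))) ∧ (∀ S T : Sylow p ↥(Subgroup.normalizer (((P : Subgroup G) ⊓ (Q : Subgroup G) : Subgroup G) : Set G)), S ≠ T → (S : Subgroup _) ⊓ (T : Subgroup _) = ((P : Subgroup G) ⊓ (Q : Subgroup G)).subgroupOf (Subgroup.normalizer (((P : Subgroup G) ⊓ (Q : Subgroup G) : Subgroup G) : Set G))) ∧ ∀ S : Sylow p ↥(Subgroup.normalizer (((P : Subgroup G) ⊓ (Q : Subgroup G) : Subgroup G) : Set G)), ∃! T : Sylow p G, (S : Subgroup _).map (Subgroup.normalizer (((P : Subgroup G) ⊓ (Q : Subgroup G) : Subgroup G) : Set G)).subtype ≤ (T : Subgroup G) := by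
  classical
  set D : Subgroup G := (P : Subgroup G) ⊓ (Q : Subgroup G) with hD
  set N : Subgroup G := Subgroup.normalizer (D : Set G) with hN
  have hDp : IsPGroup p D := P.isPGroup'.to_le inf_le_left
  have hDN : D ≤ N := Subgroup.le_normalizer
  -- uniqueness above bigger subgroups
  have huniq : ∀ (A : Subgroup G) (T₁ T₂ : Sylow p G), D ≤ A → A ≤ T₁ → A ≤ T₂ → A ≠ D → T₁ = T₂ := by
    intro A T₁ T₂ h0 h1 h2 hA
    by_contra hne
    have h3 := hmax T₁ T₂ hne
    have h4 : A ≤ (T₁ : Subgroup G) ⊓ (T₂ : Subgroup G) := le_inf h1 h2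
    have h5 := Subgroup.card_le_of_le h4
    apply hA
    exact (Subgroup.eq_of_le_of_card_ge h0 (h5.trans h3)).symm
  have hbig : ∀ R : Sylow p G, D ≤ (R : Subgroup G) → (R : Subgroup G) ≠ D → (R : Subgroup G) ⊓ N ≠ D := by
    intro R hDR hne h
    obtain ⟨g, hg1, hg2, hg3⟩ := Cfsg.Agent.H4.normalizer_lt_of_lt_sylow R.isPGroup' (lt_of_le_of_ne hDR hne.symm)
    apply hg2
    rw [← h]
    exact ⟨hg1, hg3⟩
  have hPD : (P : Subgroup G) ≠ D := by
    intro h
    apply hPQ
    apply Sylow.ext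
    have : (P : Subgroup G) ≤ Q := by rw [h]; exact inf_le_right
    exact (P.is_maximal' Q.isPGroup' this).symm
  have hQD : (Q : Subgroup G) ≠ D := by
    intro h
    apply hPQ
    apply Sylow.ext
    have : (Q : Subgroup G) ≤ P := by rw [h]; exact inf_le_left
    exact (Q.is_maximal' P.isPGroup' this)
  haveI hDnorm : (D.subgroupOf N).Normal := by rw [hN]; exact Subgroup.normal_in_normalizer
  have hDpN : IsPGroup p (D.subgroupOf N) := hDp.comap_of_injective _ N.subtype_injective
  have hDle : ∀ S : Sylow p N, D.subgroupOf N ≤ (S : Subgroup N) := fun S => hDpN.le_sylow_of_normal S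
  have hDle' : ∀ S : Sylow p N, D ≤ (S : Subgroup N).map N.subtype := by
    intro S x hx
    exact ⟨⟨x, hDN hx⟩, hDle S hx, rfl⟩
  have hext : ∀ S : Sylow p N, ∃ T : Sylow p G, (S : Subgroup N).map N.subtype ≤ (T : Subgroup G) := fun S =>
    (S.isPGroup'.map N.subtype).exists_le_sylow
  have hnot : ¬ Subsingleton (Sylow p N) := by
    intro hsub
    have h1 : ∀ R : Sylow p G, ∃ S : Sylow p N, (R : Subgroup G) ⊓ N ≤ (S : Subgroup N).map N.subtype := by
      intro R
      have h2 : IsPGroup p ((R : Subgroup G).subgroupOf N) := R.isPGroup'.comap_of_injective _ N.subtype_injective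
      obtain ⟨S, hS⟩ := h2.exists_le_sylow
      refine ⟨S, ?_⟩
      rintro x ⟨hx1, hx2⟩
      exact ⟨⟨x, hx2⟩, hS hx1, rfl⟩
    obtain ⟨S, hS⟩ := h1 P
    obtain ⟨S', hS'⟩ := h1 Q
    obtain rfl : S = S' := Subsingleton.elim _ _
    obtain ⟨T, hT⟩ := hext S
    have h3 : T = P := huniq ((P : Subgroup G) ⊓ N) T P (le_inf inf_le_left hDN) (hS.trans hT) inf_le_left
      (hbig P inf_le_left hPD)
    have h4 : T = Q := huniq ((Q : Subgroup G) ⊓ N) T Q (le_inf inf_le_right hDN) (hS'.trans hT) inf_le_left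
      (hbig Q inf_le_right hQD)
    exact hPQ (h3.symm.trans h4)
  refine ⟨?_, ?_, ?_⟩
  · rw [Finite.one_lt_card_iff_nontrivial]
    exact not_subsingleton_iff_nontrivial.mp hnot
  · intro S T hST
    obtain ⟨S', hS'⟩ := hext S
    obtain ⟨T', hT'⟩ := hext T
    have hne : S' ≠ T' := by
      rintro rfl
      apply hST
      have h1 : IsPGroup p ((S' : Subgroup G).subgroupOf N) := S'.isPGroup'.comap_of_injective _ N.subtype_injective
      have h2 : (S : Subgroup N) ≤ (S' : Subgroup G).subgroupOf N := fun x hx => hS' ⟨x, hx, rfl⟩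
      have h3 : (T : Subgroup N) ≤ (S' : Subgroup G).subgroupOf N := fun x hx => hT' ⟨x, hx, rfl⟩
      apply Sylow.ext
      rw [← S.is_maximal' h1 h2, ← T.is_maximal' h1 h3]
    have h4 : D ≤ (S' : Subgroup G) ⊓ (T' : Subgroup G) :=
      le_inf ((hDle' S).trans hS') ((hDle' T).trans hT')
    have h5 := Subgroup.eq_of_le_of_card_ge h4 (hmax S' T' hne)
    apply le_antisymm
    · rintro x ⟨hx1, hx2⟩
      rw [Subgroup.mem_subgroupOf, h5]
      exact ⟨hS' ⟨x, hx1, rfl⟩, hT' ⟨x, hx2, rfl⟩⟩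
    · exact le_inf (hDle S) (hDle T)
  · intro S
    obtain ⟨T, hT⟩ := hext S
    refine ⟨T, hT, ?_⟩
    intro T₂ hT₂
    refine huniq _ T₂ T (hDle' S) hT₂ hT ?_
    intro h
    apply hnot
    have h1 : (S : Subgroup N) = D.subgroupOf N := by
      apply le_antisymm
      · intro x hx
        rw [Subgroup.mem_subgroupOf, ← h]
        exact ⟨x, hx, rfl⟩
      · exact hDle S
    have h2 : (S : Subgroup N).Normal := by rw [h1]; exact hDnorm
    have := Sylow.unique_of_normal S h2
    infer_instance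

end Cfsg.Agent.S0986
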