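import Cfsg.Statements.S0987
import Cfsg.Agent.H9.Syl
import Cfsg.Agent.H1.Hall

set_option autoImplicit false
open Cfsg

namespace Cfsg.Agent.S0987

open Cfsg.Agent.H9 in
theorem sylow_unique_of_lt {H : Type*} [Group H] [Finite H] {r a : ℕ} [Fact r.Prime] (ha : a.Prime) (har : a < r)
    (hc : Nat.card H = a * r) (R : Sylow r H) : (R : Subgroup H).Normal := by
  have hr : r.Prime := Fact.out
  have h1 : Nat.card (Sylow r H) ≡ 1 [MOD r] := card_sylow_modEq_one r H
  have h3 : Nat.card (Sylow r H) ∣ a := Syl.card_sylow_dvd_of_card R (k := 1) (by rw [hc]; ring)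
    (fun h => by have := Nat.le_of_dvd ha.pos h; omega)
  refine Syl.normal_of_card_sylow_eq_one ?_ R
  rcases (Nat.dvd_prime ha).mp h3 with h | h
  · exact h
  · exfalso
    rw [h] at h1
    have := (Nat.modEq_iff_dvd' ha.one_lt.le).mp h1.symm
    have := Nat.le_of_dvd (by have := ha.one_lt; omega) this
    omega

/-- If a finite group has order pqr for primes p < q < r, then its Sylow r-subgroups are normal. -/
theorem result {G : Type*} [Group G] [Finite G] (p q r : ℕ) (hp : p.Prime) (hq : q.Prime) [Fact r.Prime] (hpq : p < q) (hqr : q < r) (hG : Nat.card G = p * q * r) (R : Sylow r G) : (R : Subgroup G).Normal := by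
  have hr : r.Prime := Fact.out
  have := Fact.mk hq
  have hpr : ¬ r ∣ p * q := fun h => by
    rcases hr.dvd_mul.mp h with h | h
    · have := Nat.le_of_dvd hp.pos h; omega
    · have := Nat.le_of_dvd hq.pos h; omega
  have hRcard : Nat.card (R : Subgroup G) = r := by
    rw [Cfsg.Agent.H9.Syl.card_sylow_of_card R (k := 1) (m := p * q) (by rw [hG]; ring) hpr, pow_one]
  have h1 : Nat.card (Sylow r G) ≡ 1 [MOD r] := card_sylow_modEq_one r G
  have h3 : Nat.card (Sylow r G) ∣ p * q :=
    Cfsg.Agent.H9.Syl.card_sylow_dvd_of_card R (k := 1) (m := p * q) (by rw [hG]; ring) hpr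
  by_cases h4 : Nat.card (Sylow r G) = 1
  · exact Cfsg.Agent.H9.Syl.normal_of_card_sylow_eq_one h4 R
  have h5 : Nat.card (Sylow r G) = p * q := by
    have h6 : r < Nat.card (Sylow r G) := by
      have h7 : 0 < Nat.card (Sylow r G) := Nat.card_pos
      have h8 := (Nat.modEq_iff_dvd' (by omega)).mp h1.symm
      have := Nat.le_of_dvd (by omega) h8
      omega
    obtain ⟨d, e, hd, he, hde⟩ := (Nat.dvd_mul).mp h3
    rcases (Nat.dvd_prime hp).mp hd with rfl | rfl
    · rcases (Nat.dvd_prime hq).mp he with rfl | rfl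
      · omega
      · rw [one_mul] at hde; omega
    · rcases (Nat.dvd_prime hq).mp he with rfl | rfl
      · rw [mul_one] at hde; omega
      · exact hde.symm
  have hN : Subgroup.normalizer ((R : Subgroup G) : Set G) = R := by
    symm
    apply Subgroup.eq_of_le_of_card_ge Subgroup.le_normalizer
    have h6 := Cfsg.Agent.H9.Syl.card_normalizer_mul R
    rw [h5, hG, mul_comm (p * q) r] at h6
    have := Nat.eq_of_mul_eq_mul_right (Nat.mul_pos hp.pos hq.pos) h6
    rw [this, hRcard]
  have hNC : Subgroup.normalizer ((R : Subgroup G) : Set G) ≤ Subgroup.centralizer ((R : Subgroup G) : Set G) := by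
    conv_lhs => rw [hN]
    exact Cfsg.Agent.H9.Syl.le_centralizer_of_card_prime hRcard
  set K := (MonoidHom.transferSylow R hNC).ker with hK
  have hKc : Subgroup.IsComplement' K (R : Subgroup G) := MonoidHom.ker_transferSylow_isComplement' R hNC
  have hKcard : Nat.card K = p * q := by
    have := hKc.card_mul_card
    rw [hRcard, hG] at this
    exact Nat.eq_of_mul_eq_mul_right hr.pos this
  obtain ⟨Q⟩ : Nonempty (Sylow q K) := inferInstance
  have hQn : (Q : Subgroup K).Normal := sylow_unique_of_lt hp hpq hKcard Q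
  have hQc : (Q : Subgroup K).Characteristic := Sylow.characteristic_of_normal _ hQn
  set Q0 := (Q : Subgroup K).map K.subtype with hQ0
  have hQ0n : Q0.Normal := inferInstance
  have hQcard : Nat.card Q0 = q := by
    rw [hQ0, ← Nat.card_congr ((Q : Subgroup K).equivMapOfInjective _ K.subtype_injective).toEquiv,
      Cfsg.Agent.H9.Syl.card_sylow_of_card Q (k := 1) (m := p) (by rw [hKcard]; ring)
      (fun h => by have := Nat.le_of_dvd hp.pos h; omega), pow_one]
  set M := Q0 ⊔ (R : Subgroup G) with hM
  have hMcard : Nat.card M = q * r := by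
    rw [Cfsg.Agent.H1.card_sup_of_coprime (by rw [Subgroup.normalizer_eq_top]; exact le_top), hQcard, hRcard]
    rw [hQcard, hRcard]
    exact (Nat.coprime_primes hq hr).mpr (by omega)
  have hMi : M.index = p := by
    have := M.card_mul_index
    rw [hMcard, hG, mul_assoc p q r, mul_comm p (q * r)] at this
    exact Nat.eq_of_mul_eq_mul_left (Nat.mul_pos hq.pos hr.pos) this
  have hMn : M.Normal := by
    apply Subgroup.normal_of_index_eq_minFac_card
    rw [hMi, hG]
    symm
    apply le_antisymm
    · exact Nat.minFac_le_of_dvd hp.two_le (by rw [mul_assoc]; exact dvd_mul_right _ _)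
    · have h7 := Nat.minFac_prime (n := p * q * r) (by
        intro h
        exact hp.one_lt.ne' (Nat.dvd_one.mp (h ▸ (by rw [mul_assoc]; exact dvd_mul_right _ _) : p ∣ 1)))
      have h8 := Nat.minFac_dvd (p * q * r)
      rcases h7.dvd_mul.mp h8 with h | h
      · rcases h7.dvd_mul.mp h with h | h
        · exact ((Nat.prime_dvd_prime_iff_eq h7 hp).mp h).ge
        · have := ((Nat.prime_dvd_prime_iff_eq h7 hq).mp h).ge; omega
      · have := ((Nat.prime_dvd_prime_iff_eq h7 hr).mp h).ge; omega
  exact Cfsg.Agent.H9.Syl.normal_of_subtype_normal R M le_sup_right (sylow_unique_of_lt hq hqr hMcard _)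

end Cfsg.Agent.S0987
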