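import Cfsg.Statements.S0988
import Cfsg.Agent.H9.SimplePP

set_option autoImplicit false
open Cfsg

namespace Cfsg.Agent.S0988

open Cfsg.Agent.H9.Simple in
theorem main {G : Type*} [Group G] [Finite G] [IsSimpleGroup G] (hG' : ¬ IsMulCommutative G) (p r : ℕ) (hp : p.Prime)
    (hr : r.Prime) (h2 : p = 2) (hr5 : 5 ≤ r) (hG : Nat.card G = 12 * r) : Nat.card G = 60 := by
  have := Fact.mk hr
  obtain ⟨R⟩ : Nonempty (Sylow r G) := inferInstance
  have hrd : r ∣ Nat.card G := by rw [hG]; exact dvd_mul_left _ _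
  have hnr : ¬ r ∣ 12 := by
    intro h
    have h3 : r ∣ 2 ^ 2 * 3 := by simpa using h
    rcases hr.dvd_mul.mp h3 with h | h
    · have := Nat.le_of_dvd (by norm_num) (hr.dvd_of_dvd_pow h); omega
    · have := Nat.le_of_dvd (by norm_num) h; omega
  have h1 := card_sylow_ne_one hG' hrd
  have h3 : Nat.card (Sylow r G) ∣ 12 :=
    Cfsg.Agent.H9.Syl.card_sylow_dvd_of_card R (k := 1) (by rw [hG]; ring) hnr
  have hRc : Nat.card (R : Subgroup G) = r := by
    rw [Cfsg.Agent.H9.Syl.card_sylow_of_card R (k := 1) (m := 12) (by rw [hG]; ring) hnr, pow_one]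
  have h4 : Nat.card (Sylow r G) ≠ 12 := by
    refine card_sylow_ne_of_abelian hG' hrd R ?_ (k := 1) (by rw [hG]; ring) hnr
    intro x hx y hy
    exact Cfsg.Agent.H9.Syl.commutative_of_card_prime hRc hx hy
  have h5 : Nat.card (Sylow r G) ≡ 1 [MOD r] := card_sylow_modEq_one r G
  have h6 : r ∣ Nat.card (Sylow r G) - 1 := (Nat.modEq_iff_dvd' Nat.card_pos).mp h5.symm
  have h7 : Nat.card (Sylow r G) ≤ 12 := Nat.le_of_dvd (by norm_num) h3
  have h8 : 0 < Nat.card (Sylow r G) - 1 := by
    have : 0 < Nat.card (Sylow r G) := Nat.card_pos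
    omega
  have h9 : r ≤ Nat.card (Sylow r G) - 1 := Nat.le_of_dvd h8 h6
  have h10 : Nat.card (Sylow r G) = 6 := by
    generalize Nat.card (Sylow r G) = n at *
    clear h5
    interval_cases n <;> first | rfl | (exfalso; omega)
  rw [h10] at h6
  have : r = 5 := by
    rcases (Nat.dvd_prime (by norm_num : Nat.Prime (6 - 1))).mp h6 with h | h
    · exact absurd h hr.one_lt.ne'
    · exact h
  rw [hG, this]

open Cfsg.Agent.H9.Simple in
theorem main2 {G : Type*} [Group G] [Finite G] [IsSimpleGroup G] (hG' : ¬ IsMulCommutative G) (p q r : ℕ) (hp : p.Prime)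
    (hq : q.Prime) (hr : r.Prime) (hqr : q < r) (hpq : p ≠ q) (hpr : p ≠ r) (hG : Nat.card G = p ^ 2 * q * r) :
    Nat.card G = 60 := by
  have := Fact.mk hp
  have := Fact.mk hq
  have hcard : Nat.card G ≠ 1 := by
    rw [hG]
    intro h
    have := Nat.eq_one_of_mul_eq_one_left h
    exact hr.one_lt.ne' this
  have hmp := Nat.minFac_prime hcard
  have hmd := Nat.minFac_dvd (Nat.card G)
  have hpd : p ∣ Nat.card G := by rw [hG]; exact ⟨p * q * r, by ring⟩
  have hqd : q ∣ Nat.card G := by rw [hG]; exact ⟨p ^ 2 * r, by ring⟩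
  have hmc : (Nat.card G).minFac = p ∨ (Nat.card G).minFac = q ∨ (Nat.card G).minFac = r := by
    have h3 : (Nat.card G).minFac ∣ p ^ 2 * q * r := by rw [← hG]; exact hmd
    rcases hmp.dvd_mul.mp h3 with h | h
    · rcases hmp.dvd_mul.mp h with h | h
      · left; exact (Nat.prime_dvd_prime_iff_eq hmp hp).mp (hmp.dvd_of_dvd_pow h)
      · right; left; exact (Nat.prime_dvd_prime_iff_eq hmp hq).mp h
    · right; right; exact (Nat.prime_dvd_prime_iff_eq hmp hr).mp h
  have hmq : (Nat.card G).minFac ≤ q := Nat.minFac_le_of_dvd hq.two_le hqd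
  rcases hmc with h | h | h
  · -- minFac = p
    have hplt : p < q := lt_of_le_of_ne (h ▸ hmq) hpq
    obtain ⟨P⟩ : Nonempty (Sylow p G) := inferInstance
    have hnd : ¬ p ∣ q * r := by
      intro h3
      rcases hp.dvd_mul.mp h3 with h | h
      · exact hpq ((Nat.prime_dvd_prime_iff_eq hp hq).mp h)
      · exact hpr ((Nat.prime_dvd_prime_iff_eq hp hr).mp h)
    have hPc : Nat.card (P : Subgroup G) = p ^ 2 :=
      Cfsg.Agent.H9.Syl.card_sylow_of_card P (k := 2) (m := q * r) (by rw [hG]; ring) hnd
    have hncyc := not_cyclic_minFac hG' hpd h P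
    have h3 := relIndex_dvd_of_card_sq hPc hncyc
    have hcomm := (elementary_of_not_cyclic hPc hncyc).1
    have h4 := not_dvd_relIndex P (fun x hx y hy => congrArg Subtype.val (hcomm ⟨x, hx⟩ ⟨y, hy⟩))
    have h5 : (Subgroup.centralizer ((P : Subgroup G) : Set G)).relIndex (Subgroup.normalizer ((P : Subgroup G) : Set G)) ≠ 1 :=
      fun h5 => not_normalizer_le_centralizer hG' hpd P (Subgroup.relIndex_eq_one.mp h5)
    obtain ⟨s, hs, hsd⟩ := Nat.exists_prime_and_dvd h5
    have hsG : s ∣ Nat.card G := (hsd.trans (Subgroup.relIndex_dvd_card _ _)).trans (Subgroup.card_subgroup_dvd_card _)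
    have hsp : s ≠ p := by rintro rfl; exact h4 hsd
    have hsqr : s = q ∨ s = r := by
      rw [hG] at hsG
      rcases hs.dvd_mul.mp hsG with h | h
      · rcases hs.dvd_mul.mp h with h | h
        · exact absurd ((Nat.prime_dvd_prime_iff_eq hs hp).mp (hs.dvd_of_dvd_pow h)) hsp
        · left; exact (Nat.prime_dvd_prime_iff_eq hs hq).mp h
      · right; exact (Nat.prime_dvd_prime_iff_eq hs hr).mp h
    have hsgt : p < s := by rcases hsqr with h | h <;> omega
    have h6 : s ∣ p + 1 := by
      have h7 := hsd.trans h3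
      have h8 : (p ^ 2 - 1) * (p ^ 2 - p) = (p + 1) * (p - 1) * (p * (p - 1)) := by
        have h9 : p ^ 2 - 1 = (p + 1) * (p - 1) := by
          have := Nat.sq_sub_sq p 1
          simpa using this
        have h10 : p ^ 2 - p = p * (p - 1) := by rw [pow_two, Nat.mul_sub_one]
        rw [h9, h10]
      rw [h8] at h7
      have hp1 : ¬ s ∣ p - 1 := fun h => by
        have := Nat.le_of_dvd (by have := hp.one_lt; omega) h; omega
      have hp0 : ¬ s ∣ p := fun h => by
        have := Nat.le_of_dvd hp.pos h; omega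
      rcases hs.dvd_mul.mp h7 with h | h
      · rcases hs.dvd_mul.mp h with h | h
        · exact h
        · exact absurd h hp1
      · rcases hs.dvd_mul.mp h with h | h
        · exact absurd h hp0
        · exact absurd h hp1
    have h7 : s = p + 1 := by
      have := Nat.le_of_dvd (by omega) h6
      omega
    have h8 : p = 2 := by
      by_contra hne
      have ho := hp.odd_of_ne_two hne
      have he : Even s := by rw [h7]; exact ho.add_one
      have := (Nat.Prime.even_iff hs).mp he
      have := hp.two_le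
      omega
    subst h8
    rcases hsqr with h9 | h9
    · refine main hG' 2 r hp hr rfl ?_ ?_
      · have : r ≠ 4 := by rintro rfl; revert hr; decide
        omega
      · rw [hG, ← h9, h7]; ring
    · omega
  · -- minFac = q
    exfalso
    obtain ⟨Q⟩ : Nonempty (Sylow q G) := inferInstance
    apply not_cyclic_minFac hG' hqd h Q
    have hQc : Nat.card (Q : Subgroup G) = q ^ 1 :=
      Cfsg.Agent.H9.Syl.card_sylow_of_card Q (k := 1) (m := p ^ 2 * r) (by rw [hG]; ring) (by
        intro h3
        rcases hq.dvd_mul.mp h3 with h | h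
        · exact hpq ((Nat.prime_dvd_prime_iff_eq hq hp).mp (hq.dvd_of_dvd_pow h)).symm
        · exact hqr.ne ((Nat.prime_dvd_prime_iff_eq hq hr).mp h))
    exact isCyclic_of_prime_card (by rw [hQc, pow_one])
  · omega

/-- If a finite simple group has order p^2 * q * r with p, q and r prime, then its order is 60. -/
theorem result {G : Type*} [Group G] [Finite G] [IsSimpleGroup G] (p q r : ℕ) (hp : p.Prime) (hq : q.Prime) (hr : r.Prime) (hG : Nat.card G = p ^ 2 * q * r) : Nat.card G = 60 := by
  have hcp : ¬ (Nat.card G).Prime := by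
    intro h
    have h1 : q * r ∣ Nat.card G := by rw [hG]; exact ⟨p ^ 2, by ring⟩
    rcases (Nat.dvd_prime h).mp h1 with h2 | h2
    · exact hq.one_lt.ne' (Nat.eq_one_of_mul_eq_one_right h2)
    · rw [hG, mul_assoc] at h2
      have h3 : 0 < q * r := Nat.mul_pos hq.pos hr.pos
      have h4 : p ^ 2 = 1 := by
        apply Nat.eq_of_mul_eq_mul_right h3
        rw [one_mul]; exact h2.symm
      have := hp.two_le
      nlinarith
  have hG' := Cfsg.Agent.H9.Simple.not_comm_of_not_prime hcp
  have key : ∀ s : ℕ, s.Prime → s ∣ Nat.card G → s = p ∨ s = q ∨ s = r := by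
    intro s hs hsG
    rw [hG] at hsG
    rcases hs.dvd_mul.mp hsG with h | h
    · rcases hs.dvd_mul.mp h with h | h
      · left; exact (Nat.prime_dvd_prime_iff_eq hs hp).mp (hs.dvd_of_dvd_pow h)
      · right; left; exact (Nat.prime_dvd_prime_iff_eq hs hq).mp h
    · right; right; exact (Nat.prime_dvd_prime_iff_eq hs hr).mp h
  by_cases hpq : p = q
  · exfalso
    refine Cfsg.Agent.H9.Simple.not_paqb hG' hp hr (fun s hs hsG => ?_)
    rcases key s hs hsG with h | h | h
    · exact Or.inl h
    · exact Or.inl (h.trans hpq.symm)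
    · exact Or.inr h
  by_cases hpr : p = r
  · exfalso
    refine Cfsg.Agent.H9.Simple.not_paqb hG' hp hq (fun s hs hsG => ?_)
    rcases key s hs hsG with h | h | h
    · exact Or.inl h
    · exact Or.inr h
    · exact Or.inl (h.trans hpr.symm)
  rcases lt_trichotomy q r with h | h | h
  · exact main2 hG' p q r hp hq hr h hpq hpr hG
  · exfalso
    refine Cfsg.Agent.H9.Simple.not_paqb hG' hp hq (fun s hs hsG => ?_)
    rcases key s hs hsG with h' | h' | h'
    · exact Or.inl h'
    · exact Or.inr h'
    · exact Or.inr (h'.trans h.symm)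
  · exact main2 hG' p r q hp hr hq h hpr hpq (by rw [hG]; ring)

end Cfsg.Agent.S0988
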