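import Cfsg.Statements.S0989
import Cfsg.Agent.H9.Syl

set_option autoImplicit false
open Cfsg

namespace Cfsg.Agent.S0989

open Subgroup Equiv.Perm

theorem cycleType_eq {α : Type*} [Fintype α] [DecidableEq α] {p : ℕ} (hp : p.Prime)
    (hα : Fintype.card α = p ∨ Fintype.card α = p + 1) {g : Equiv.Perm α} (hg : orderOf g = p) : g.cycleType = {p} := by
  haveI := Fact.mk hp
  obtain ⟨n, hn⟩ := Equiv.Perm.cycleType_prime_order (show (orderOf g).Prime by rw [hg]; exact hp)
  have h1 : g.cycleType.sum ≤ Fintype.card α := by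
    rw [Equiv.Perm.sum_cycleType]
    exact Finset.card_le_univ _
  rw [hn, hg, Multiset.sum_replicate, smul_eq_mul] at h1
  have h2 : n = 0 := by
    by_contra h3
    have h4 : 2 * p ≤ (n + 1) * p := Nat.mul_le_mul_right p (by omega)
    have := hp.two_le
    rcases hα with h | h <;> rw [h] at h1 <;> omega
  rw [hn, hg, h2]; rfl

/-- In the symmetric group on p or p + 1 letters, p a prime, the normalizer of a Sylow p-subgroup has order p * (p - 1). -/
theorem result {α : Type*} [Fintype α] [DecidableEq α] (p : ℕ) [Fact p.Prime] (hα : Fintype.card α = p ∨ Fintype.card α = p + 1) (P : Sylow p (Equiv.Perm α)) : Nat.card ↥(Subgroup.normalizer ((P : Subgroup (Equiv.Perm α)) : Set (Equiv.Perm α))) = p * (p - 1) := by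
  classical
  have hp : p.Prime := Fact.out
  have hcard : Nat.card (Equiv.Perm α) = (Fintype.card α).factorial := by
    rw [Nat.card_perm, Nat.card_eq_fintype_card]
  obtain ⟨q, hq⟩ : ∃ q, p = q + 1 := ⟨p - 1, by have := hp.pos; omega⟩
  have hndq : ¬ p ∣ q.factorial := by
    rw [hp.dvd_factorial]; omega
  obtain ⟨m, hm, hmp⟩ : ∃ m, Nat.card (Equiv.Perm α) = p ^ 1 * m ∧ ¬ p ∣ m := by
    rcases hα with h | h
    · refine ⟨q.factorial, ?_, hndq⟩
      rw [hcard, h, hq, Nat.factorial_succ, pow_one]
    · refine ⟨(p + 1) * q.factorial, ?_, ?_⟩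
      · rw [hcard, h, Nat.factorial_succ, pow_one]
        conv_lhs => rw [hq, Nat.factorial_succ]
        rw [← hq]; ring
      · intro h1
        rcases hp.dvd_mul.mp h1 with h2 | h2
        · have h3 : p ∣ 1 := by
            have := (Nat.dvd_add_right (dvd_refl p)).mp h2
            exact this
          exact hp.one_lt.ne' (Nat.dvd_one.mp h3)
        · exact hndq h2
  have hPc : Nat.card (P : Subgroup (Equiv.Perm α)) = p := by
    rw [Cfsg.Agent.H9.Syl.card_sylow_of_card P hm hmp, pow_one]
  haveI hcyc : IsCyclic (P : Subgroup (Equiv.Perm α)) := isCyclic_of_prime_card hPc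
  obtain ⟨g, hg⟩ := IsCyclic.exists_generator (α := (P : Subgroup (Equiv.Perm α)))
  have hgo : orderOf g = p := by
    rw [orderOf_eq_card_of_forall_mem_zpowers hg, hPc]
  have hgo' : orderOf (g : Equiv.Perm α) = p := by rw [Subgroup.orderOf_coe, hgo]
  have hct := cycleType_eq hp hα hgo'
  have hPz : (P : Subgroup (Equiv.Perm α)) = zpowers (g : Equiv.Perm α) := by
    symm
    apply eq_of_le_of_card_ge
    · rw [zpowers_le]; exact g.2
    · rw [hPc, Nat.card_zpowers, hgo']
  -- centralizer
  have hC : Nat.card (centralizer ((P : Subgroup (Equiv.Perm α)) : Set (Equiv.Perm α))) = p := by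
    have h1 : centralizer ((P : Subgroup (Equiv.Perm α)) : Set (Equiv.Perm α)) = centralizer {(g : Equiv.Perm α)} := by
      ext x
      rw [mem_centralizer_singleton_iff, mem_centralizer_iff]
      constructor
      · intro h2
        exact (h2 _ g.2).symm
      · intro h2 y hy
        have hy' : y ∈ zpowers (g : Equiv.Perm α) := by rw [← hPz]; exact hy
        obtain ⟨k, rfl⟩ := mem_zpowers_iff.mp hy'
        exact (Commute.zpow_left (show Commute (g : Equiv.Perm α) x from h2.symm) k)
    rw [h1, Equiv.Perm.nat_card_centralizer, hct]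
    simp only [Multiset.sum_singleton, Multiset.prod_singleton, Multiset.toFinset_singleton, Finset.prod_singleton,
      Multiset.count_singleton_self, Nat.factorial_one, mul_one]
    rcases hα with h | h
    · rw [h]; simp
    · rw [h]; simp
  -- automorphisms
  let N := normalizer ((P : Subgroup (Equiv.Perm α)) : Set (Equiv.Perm α))
  let F := (P : Subgroup (Equiv.Perm α)).normalizerMonoidHom
  have hsurj : Function.Surjective F := by
    intro φ
    have h1 : orderOf ((φ g : (P : Subgroup (Equiv.Perm α))) : Equiv.Perm α) = p := by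
      rw [Subgroup.orderOf_coe, MulEquiv.orderOf_eq, hgo]
    have h2 : IsConj (g : Equiv.Perm α) ((φ g : (P : Subgroup (Equiv.Perm α))) : Equiv.Perm α) := by
      apply isConj_of_cycleType_eq
      rw [hct, cycleType_eq hp hα h1]
    obtain ⟨σ, hσ⟩ := isConj_iff.mp h2
    have h3 : ∀ k : ℤ, σ * (g : Equiv.Perm α) ^ k * σ⁻¹ = (((φ g : (P : Subgroup (Equiv.Perm α))) : Equiv.Perm α)) ^ k := by
      intro k; rw [← conj_zpow, hσ]
    have h4 : (P : Subgroup (Equiv.Perm α)) = zpowers ((φ g : (P : Subgroup (Equiv.Perm α))) : Equiv.Perm α) := by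
      symm
      apply eq_of_le_of_card_ge
      · rw [zpowers_le]; exact (φ g).2
      · rw [hPc, Nat.card_zpowers, h1]
    have h5 : σ ∈ N := by
      change σ ∈ normalizer ((P : Subgroup (Equiv.Perm α)) : Set (Equiv.Perm α))
      rw [mem_normalizer_iff]
      intro y
      constructor
      · intro hy
        rw [hPz] at hy
        obtain ⟨k, rfl⟩ := mem_zpowers_iff.mp hy
        rw [h3]
        exact zpow_mem (φ g).2 k
      · intro hy
        rw [h4] at hy
        obtain ⟨k, hk⟩ := mem_zpowers_iff.mp hy
        rw [← h3] at hk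
        have h6 : y = (g : Equiv.Perm α) ^ k := by
          have := mul_right_cancel (mul_left_cancel (by rw [mul_assoc, mul_assoc] at hk; exact hk : σ * ((g : Equiv.Perm α) ^ k * σ⁻¹) = σ * (y * σ⁻¹)))
          exact this.symm
        rw [h6]
        exact zpow_mem g.2 k
    refine ⟨⟨σ, h5⟩, ?_⟩
    ext x
    obtain ⟨k, rfl⟩ := mem_zpowers_iff.mp (hg x)
    rw [map_zpow, map_zpow]
    have h6 : F ⟨σ, h5⟩ g = φ g := by
      apply Subtype.ext
      exact hσ
    rw [h6]
  have h1 := card_mul_index F.ker
  rw [index_ker, MonoidHom.range_eq_top.mpr hsurj, card_top, IsCyclic.card_mulAut, hPc, Nat.totient_prime hp] at h1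
  have h2 : Nat.card F.ker = p := by
    rw [normalizerMonoidHom_ker]
    refine Eq.trans ?_ hC
    exact Nat.card_congr (subgroupOfEquivOfLe (centralizer_le_normalizer _)).toEquiv
  rw [h2] at h1
  exact h1.symm

end Cfsg.Agent.S0989
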