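import Cfsg.Statements.S0992
import Cfsg.Agent.H9.Syl
import Cfsg.Agent.H2.AutElem
import Cfsg.Agent.H4.KleinSylow

set_option autoImplicit false
open Cfsg

namespace Cfsg.Agent.S0992

/-- Let G be a non-abelian finite simple group of even order not divisible by 8, and T a Sylow 2-subgroup. Then T is a Klein four-group and the centralizer of T has index 3 in the normalizer of T. -/
theorem result {G : Type*} [Group G] [Finite G] [IsSimpleGroup G] (hG : ¬ IsMulCommutative G) (h2 : Even (Nat.card G)) (h8 : ¬ 8 ∣ Nat.card G) (T : Sylow 2 G) : IsKleinFour ↥(T : Subgroup G) ∧ (Subgroup.centralizer ((T : Subgroup G) : Set G)).relIndex (Subgroup.normalizer ((T : Subgroup G) : Set G)) = 3 := by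
  have := Fact.mk Nat.prime_two
  have h2' : 2 ∣ Nat.card G := even_iff_two_dvd.mp h2
  have h0 : Nat.card G ≠ 0 := Nat.card_pos.ne'
  set k := (Nat.card G).factorization 2 with hk
  have hT : Nat.card (T : Subgroup G) = 2 ^ k := T.card_eq_multiplicity
  have hk1 : 1 ≤ k := (Nat.prime_two.dvd_iff_one_le_factorization h0).mp h2'
  have hk2 : ¬ 3 ≤ k := fun h => h8 ((Nat.prime_two.pow_dvd_iff_le_factorization h0).mpr h)
  have hmin : (Nat.card G).minFac = 2 := (Nat.minFac_eq_two_iff _).mpr h2'
  have hncyc : ¬ IsCyclic (T : Subgroup G) := by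
    intro hc
    exact Cfsg.Agent.H9.Simple.not_normalizer_le_centralizer hG h2' T
      (IsCyclic.normalizer_le_centralizer hmin (P := T) hc)
  have hk3 : k = 2 := by
    have : k ≠ 1 := by
      intro h
      rw [h, pow_one] at hT
      exact hncyc (isCyclic_of_prime_card hT)
    omega
  have hT4 : Nat.card (T : Subgroup G) = 4 := by rw [hT, hk3]; norm_num
  have hkl : IsKleinFour ↥(T : Subgroup G) := by
    have hex : Monoid.exponent (T : Subgroup G) ∣ 4 := by rw [← hT4]; exact Group.exponent_dvd_nat_card
    have : Nontrivial (T : Subgroup G) := by rw [← Finite.one_lt_card_iff_nontrivial, hT4]; norm_num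
    refine ⟨hT4, ?_⟩
    have h1 : Monoid.exponent (T : Subgroup G) ≤ 4 := Nat.le_of_dvd (by norm_num) hex
    have h3 : Monoid.exponent (T : Subgroup G) ≠ 1 := by
      intro h
      have := Monoid.exp_eq_one_iff.mp h
      exact not_subsingleton _ this
    have h4 : Monoid.exponent (T : Subgroup G) ≠ 4 := by
      intro h
      apply hncyc
      have h5 : ∀ g : (T : Subgroup G), orderOf g ∣ 4 := fun g => by rw [← hT4]; exact orderOf_dvd_natCard g
      by_contra hcon
      have h6 : ∀ g : (T : Subgroup G), orderOf g ∣ 2 := by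
        intro g
        have h7 := h5 g
        have h8 : orderOf g ≤ 4 := Nat.le_of_dvd (by norm_num) h7
        have h9 : orderOf g ≠ 4 := fun h9 => hcon (isCyclic_of_orderOf_eq_card g (h9.trans hT4.symm))
        generalize orderOf g = n at *
        interval_cases n <;> revert h7 h9 <;> decide
      have h7 : Monoid.exponent (T : Subgroup G) ∣ 2 := Monoid.exponent_dvd.mpr h6
      rw [h] at h7
      revert h7; decide
    generalize Monoid.exponent (T : Subgroup G) = n at *
    interval_cases n <;> revert hex h3 h4 <;> decide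
  refine ⟨hkl, ?_⟩
  have hcomm := Cfsg.Agent.H4.klein_comm hkl
  have h6 : (Subgroup.centralizer ((T : Subgroup G) : Set G)).relIndex
      (Subgroup.normalizer ((T : Subgroup G) : Set G)) ∣ 6 := by
    have h3 := Cfsg.Agent.H2.relIndex_centralizer_dvd_card_mulAut (T : Subgroup G)
    rw [Cfsg.Agent.H2.card_mulAut_elementary (p := 2) (n := 2)
      (fun a b => Subtype.ext (hcomm a a.2 b b.2))
      (fun a => by rw [pow_two]; exact Subtype.ext (Cfsg.Agent.H4.klein_mul_self hkl a.2))
      (by rw [hT4]; norm_num), Fin.prod_univ_two] at h3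
    simpa using h3
  have hTC : (T : Subgroup G) ≤ Subgroup.centralizer ((T : Subgroup G) : Set G) := by
    intro x hx
    rw [Subgroup.mem_centralizer_iff]
    intro y hy
    exact hcomm y hy x hx
  have h7 : ¬ 2 ∣ (Subgroup.centralizer ((T : Subgroup G) : Set G)).relIndex
      (Subgroup.normalizer ((T : Subgroup G) : Set G)) := by
    intro h7
    have h9 : ¬ 2 ∣ (T : Subgroup G).index := T.not_dvd_index
    apply h9
    have h10 := Subgroup.relIndex_mul_index hTC
    have h11 := Subgroup.relIndex_mul_index (Subgroup.centralizer_le_normalizer ((T : Subgroup G) : Set G))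
    rw [← h10, ← h11]
    exact Dvd.dvd.mul_left (Dvd.dvd.mul_right h7 _) _
  have h9 : (Subgroup.centralizer ((T : Subgroup G) : Set G)).relIndex
      (Subgroup.normalizer ((T : Subgroup G) : Set G)) ≠ 1 := by
    intro h9
    exact Cfsg.Agent.H9.Simple.not_normalizer_le_centralizer hG h2' T (Subgroup.relIndex_eq_one.mp h9)
  generalize (Subgroup.centralizer ((T : Subgroup G) : Set G)).relIndex
      (Subgroup.normalizer ((T : Subgroup G) : Set G)) = n at *
  have : n ≤ 6 := Nat.le_of_dvd (by norm_num) h6
  interval_cases n <;> revert h6 h7 h9 <;> decide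

end Cfsg.Agent.S0992
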