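import Cfsg.Statements.S0995
import Cfsg.Agent.H9.Syl
import Cfsg.Agent.H4.Basic2

set_option autoImplicit false
open Cfsg

namespace Cfsg.Agent.S0995

/-- Let G be a finite perfect group containing an element z of prime order p whose centralizer is the cyclic group it generates. Let t be the number of conjugacy classes of elements of order p. Then t divides p - 1, the number of Sylow p-subgroups has the form 1 + n * p, and |G| * t = (p - 1) * p * (1 + n * p). -/
theorem result {G : Type*} [Group G] [Finite G] (hperf : commutator G = ⊤) (p : ℕ) [Fact p.Prime] (z : G) (hz : orderOf z = p) (hC : Subgroup.centralizer ({z} : Set G) = Subgroup.zpowers z) : ∃ n t : ℕ, t = Nat.card {c : ConjClasses G // ∃ g : G, ConjClasses.mk g = c ∧ orderOf g = p} ∧ t ∣ p - 1 ∧ Nat.card (Sylow p G) = 1 + n * p ∧ Nat.card G * t = (p - 1) * p * (1 + n * p) := by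
  classical
  have hp : p.Prime := Fact.out
  have hz1 : z ≠ 1 := by rintro rfl; rw [orderOf_one] at hz; exact hp.one_lt.ne hz
  have hpd : p ∣ Nat.card G := by rw [← hz]; exact orderOf_dvd_natCard z
  -- the Sylow subgroup containing z
  have hzp : IsPGroup p (Subgroup.zpowers z) := Cfsg.Agent.H9.Simple.isPGroup_zpowers (k := 1) (by rw [pow_one, hz])
  obtain ⟨P, hP⟩ := hzp.exists_le_sylow
  have hzP : z ∈ (P : Subgroup G) := hP (Subgroup.mem_zpowers z)
  have hPz : (P : Subgroup G) = Subgroup.zpowers z := by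
    apply le_antisymm _ hP
    have hPnt : Nontrivial (P : Subgroup G) := (Subgroup.nontrivial_iff_exists_ne_one _).mpr ⟨z, hzP, hz1⟩
    have hcn := P.isPGroup'.center_nontrivial
    obtain ⟨⟨w, hw⟩, hw1⟩ := exists_ne (1 : Subgroup.center (P : Subgroup G))
    have hw1' : w.1 ≠ 1 := fun h => hw1 (Subtype.ext (Subtype.ext h))
    have hwc : w.1 ∈ Subgroup.centralizer ({z} : Set G) := by
      rw [Subgroup.mem_centralizer_singleton_iff]
      exact (congrArg Subtype.val (Subgroup.mem_center_iff.mp hw ⟨z, hzP⟩)).symm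
    rw [hC] at hwc
    have h1 : Subgroup.zpowers w.1 = Subgroup.zpowers z :=
      Cfsg.Agent.H9.Simple.zpowers_eq_of_card (by rw [Nat.card_zpowers, hz]) hwc hw1'
    rw [← hC]
    intro x hx
    rw [Subgroup.mem_centralizer_singleton_iff]
    have h2 : z ∈ Subgroup.zpowers w.1 := by rw [h1]; exact Subgroup.mem_zpowers z
    obtain ⟨k, hk⟩ := Subgroup.mem_zpowers_iff.mp h2
    have h3 : Commute x w.1 := congrArg Subtype.val (Subgroup.mem_center_iff.mp hw ⟨x, hx⟩)
    rw [← hk]
    exact (h3.zpow_right k).eq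
  have hPcard : Nat.card (P : Subgroup G) = p := by rw [hPz, Nat.card_zpowers, hz]
  have hall : ∀ Q : Sylow p G, Nat.card (Q : Subgroup G) = p := fun Q =>
    (Nat.card_congr (Sylow.equiv Q P).toEquiv).trans hPcard
  -- centralizers of elements of order p
  have hcent : ∀ g : G, orderOf g = p → Nat.card (Subgroup.centralizer ({g} : Set G)) = p := by
    intro g hg
    have hg1 : g ≠ 1 := by rintro rfl; rw [orderOf_one] at hg; exact hp.one_lt.ne hg
    have hgp : IsPGroup p (Subgroup.zpowers g) := Cfsg.Agent.H9.Simple.isPGroup_zpowers (k := 1) (by rw [pow_one, hg])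
    obtain ⟨Q, hQ⟩ := hgp.exists_le_sylow
    obtain ⟨c, hc⟩ := MulAction.exists_smul_eq G Q P
    have hcg : c * g * c⁻¹ ∈ (P : Subgroup G) := by
      rw [← hc]; exact Cfsg.Agent.H9.Syl.smul_mem_smul (hQ (Subgroup.mem_zpowers g))
    have hcg1 : c * g * c⁻¹ ≠ 1 := by
      intro h
      apply hg1
      calc g = c⁻¹ * (c * g * c⁻¹) * c := by group
        _ = 1 := by rw [h]; group
    rw [← Cfsg.Agent.H4.card_centralizer_conj g c]
    have h1 : Subgroup.centralizer ({c * g * c⁻¹} : Set G) = Subgroup.centralizer ({z} : Set G) := by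
      rw [← Subgroup.centralizer_closure {c * g * c⁻¹}, ← Subgroup.centralizer_closure {z},
        ← Subgroup.zpowers_eq_closure, ← Subgroup.zpowers_eq_closure,
        Cfsg.Agent.H9.Simple.zpowers_eq_of_card hPcard hcg hcg1,
        Cfsg.Agent.H9.Simple.zpowers_eq_of_card hPcard hzP hz1]
    rw [h1, hC, Nat.card_zpowers, hz]
  -- elements of order p, counted by classes
  have hA1 : Nat.card {g : G // orderOf g = p} =
      Nat.card {c : ConjClasses G // ∃ g : G, ConjClasses.mk g = c ∧ orderOf g = p} * (Nat.card G / p) := by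
    refine Cfsg.Agent.H9.Count.card_of_fibers
      (fun g : {g : G // orderOf g = p} => (⟨ConjClasses.mk g.1, g.1, rfl, g.2⟩ :
        {c : ConjClasses G // ∃ g : G, ConjClasses.mk g = c ∧ orderOf g = p})) _ ?_
    rintro ⟨c, g, rfl, hg⟩
    have h1 := Cfsg.Agent.H4.card_conj_mul_card_centralizer g
    rw [hcent g hg] at h1
    rw [← h1, Nat.mul_div_cancel _ hp.pos]
    apply Nat.card_congr
    refine
      { toFun := fun x => ⟨x.1.1, ?_⟩
        invFun := fun v => ⟨⟨v.1, ?_⟩, ?_⟩
        left_inv := fun x => rfl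
        right_inv := fun v => rfl }
    · exact (ConjClasses.mk_eq_mk_iff_isConj.mp (congrArg Subtype.val x.2)).symm
    · obtain ⟨d, hd⟩ := isConj_iff.mp v.2
      rw [← hd, ← hg]
      exact MulEquiv.orderOf_eq (MulAut.conj d) g
    · exact Subtype.ext (ConjClasses.mk_eq_mk_iff_isConj.mpr v.2.symm)
  -- elements of order p, counted by Sylow subgroups
  have hex : ∀ g : {g : G // orderOf g = p}, ∃ Q : Sylow p G, g.1 ∈ (Q : Subgroup G) := by
    intro g
    have hgp : IsPGroup p (Subgroup.zpowers g.1) :=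
      Cfsg.Agent.H9.Simple.isPGroup_zpowers (k := 1) (by rw [pow_one, g.2])
    obtain ⟨Q, hQ⟩ := hgp.exists_le_sylow
    exact ⟨Q, hQ (Subgroup.mem_zpowers _)⟩
  choose F hF using hex
  have hne1 : ∀ g : G, orderOf g = p → g ≠ 1 := by
    rintro g hg rfl; rw [orderOf_one] at hg; exact hp.one_lt.ne hg
  have hA2 : Nat.card {g : G // orderOf g = p} = Nat.card (Sylow p G) * (p - 1) := by
    refine Cfsg.Agent.H9.Count.card_of_fibers F _ ?_
    intro Q
    have h2 : Nat.card {x : (Q : Subgroup G) // x ≠ 1} = p - 1 := by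
      have h3 : Nat.card (Q : Subgroup G) = Nat.card {x : (Q : Subgroup G) // x ≠ 1} +
          Nat.card {x : (Q : Subgroup G) // ¬ x ≠ 1} := by
        rw [← Nat.card_sum]
        exact Nat.card_congr (Equiv.sumCompl (fun x : (Q : Subgroup G) => x ≠ 1)).symm
      have h4 : Nat.card {x : (Q : Subgroup G) // ¬ x ≠ 1} = 1 := by
        have : Unique {x : (Q : Subgroup G) // ¬ x ≠ 1} := ⟨⟨⟨1, by simp⟩⟩, fun b => Subtype.ext (not_not.mp b.2)⟩
        exact Nat.card_unique
      rw [hall Q, h4] at h3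
      omega
    rw [← h2]
    apply Nat.card_congr
    refine
      { toFun := fun x => ⟨⟨x.1.1, ?_⟩, ?_⟩
        invFun := fun v => ⟨⟨v.1.1, ?_⟩, ?_⟩
        left_inv := fun x => rfl
        right_inv := fun v => rfl }
    · have hx := hF x.1
      have hx2 : (F x.1 : Subgroup G) = Q := congrArg (fun R : Sylow p G => (R : Subgroup G)) x.2
      exact hx2 ▸ hx
    · intro h
      exact hne1 x.1.1 x.1.2 (congrArg Subtype.val h)
    · rw [← Nat.card_zpowers, Cfsg.Agent.H9.Simple.zpowers_eq_of_card (hall Q) v.1.2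
        (fun h => v.2 (Subtype.ext h)), hall Q]
    · have hv1 : v.1.1 ≠ 1 := fun h => v.2 (Subtype.ext h)
      apply Sylow.ext
      exact (Cfsg.Agent.H9.Simple.zpowers_eq_of_card (hall (F _)) (hF _) (x := v.1.1) hv1).symm.trans
        (Cfsg.Agent.H9.Simple.zpowers_eq_of_card (hall Q) v.1.2 hv1)
  set t := Nat.card {c : ConjClasses G // ∃ g : G, ConjClasses.mk g = c ∧ orderOf g = p} with ht
  have hn := card_sylow_modEq_one p G
  have hn0 : 0 < Nat.card (Sylow p G) := Nat.card_pos
  obtain ⟨n, hn'⟩ := (Nat.modEq_iff_dvd' (by omega)).mp hn.symm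
  have hcount : Nat.card G * t = (p - 1) * p * Nat.card (Sylow p G) := by
    obtain ⟨m, hm⟩ := hpd
    rw [hA2, hm, Nat.mul_div_cancel_left _ hp.pos] at hA1
    rw [hm]
    calc p * m * t = p * (t * m) := by ring
      _ = _ := by rw [← hA1]; ring
  refine ⟨n, t, rfl, ?_, by rw [mul_comm n p, ← hn']; omega, ?_⟩
  · have h5 := Cfsg.Agent.H9.Syl.card_normalizer_mul P
    have h6 : p ∣ Nat.card (Subgroup.normalizer ((P : Subgroup G) : Set G)) := by
      have h8 : Nat.card (P : Subgroup G) ∣ Nat.card (Subgroup.normalizer ((P : Subgroup G) : Set G)) :=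
        Subgroup.card_dvd_of_le Subgroup.le_normalizer
      rwa [hPcard] at h8
    obtain ⟨e, he⟩ := h6
    refine ⟨e, ?_⟩
    rw [← h5, he] at hcount
    have h7 : 0 < p * Nat.card (Sylow p G) := Nat.mul_pos hp.pos hn0
    apply Nat.eq_of_mul_eq_mul_right h7
    calc (p - 1) * (p * Nat.card (Sylow p G)) = (p - 1) * p * Nat.card (Sylow p G) := by ring
      _ = t * e * (p * Nat.card (Sylow p G)) := by rw [← hcount]; ring
  · rw [hcount]
    congr 1
    rw [mul_comm n p, ← hn']; omega

end Cfsg.Agent.S0995
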