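import Cfsg.Statements.S0996
import Cfsg.Agent.H9.BRL

set_option autoImplicit false
open Cfsg

namespace Cfsg.Agent.S0996

/-- Let G be a finite perfect group containing an element z of prime order p whose centralizer is the cyclic group it generates, and suppose the number 1 + n * p of Sylow p-subgroups satisfies n < (p + 3) / 2. Then p > 3 and G is isomorphic to the projective special linear group of dimension 2 over the field with p elements, or p - 1 is a power of 2 and G is isomorphic to that group over the field with p - 1 elements. -/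
theorem result {G : Type*} [Group G] [Finite G] (hperf : commutator G = ⊤) (p : ℕ) [Fact p.Prime] (z : G) (hz : orderOf z = p) (hC : Subgroup.centralizer ({z} : Set G) = Subgroup.zpowers z) (hn : 2 * Nat.card (Sylow p G) < (p + 1) * (p + 2)) : (∃ (F : Type) (_ : Field F) (_ : Fintype F), Fintype.card F = p ∧ 3 < p ∧ Nonempty (G ≃* Matrix.ProjectiveSpecialLinearGroup (Fin 2) F)) ∨ (∃ (m : ℕ) (F : Type) (_ : Field F) (_ : Fintype F), Fintype.card F = 2 ^ m ∧ p = 2 ^ m + 1 ∧ 3 < p ∧ Nonempty (G ≃* Matrix.ProjectiveSpecialLinearGroup (Fin 2) F)) := by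
  have hp : p.Prime := Fact.out
  obtain ⟨P, hPz⟩ := Cfsg.Agent.H9.SPr.exists_sylow hz hC
  have hPc : Nat.card P = p := by
    change Nat.card (P : Subgroup G) = p
    rw [hPz, Nat.card_zpowers, hz]
  have hdvd : p ∣ Nat.card G := by rw [← hz]; exact orderOf_dvd_natCard z
  obtain ⟨n, hn'⟩ := Cfsg.Agent.H9.BR.exists_n p G
  have hn0 := Cfsg.Agent.H9.BR.n_pos hperf P hPc hn'
  have hlt : 2 * n < p + 3 := by
    rw [hn'] at hn
    by_contra hcon
    push Not at hcon
    have h1 : (p + 3) * p ≤ 2 * n * p := Nat.mul_le_mul_right _ hcon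
    nlinarith
  obtain ⟨hq, h⟩ := Cfsg.Agent.H9.BR.reynolds hperf P hPc hn' (Cfsg.Agent.H9.BR.NF_of_lt' hlt)
  haveI hHn : (Cfsg.pPrimeCore p G).Normal := Cfsg.Agent.H1.pPrimeCore_normal p G
  have hnd : ¬ p ∣ Nat.card (Cfsg.pPrimeCore p G) := by
    have := Cfsg.Agent.H1.pPrimeCore_coprime p G
    exact (Nat.Prime.coprime_iff_not_dvd hp).mp this.symm
  obtain ⟨h1, h2, -, -⟩ := (Cfsg.Agent.S4496.result p hp z hz hC (Cfsg.pPrimeCore p G)).2 hnd
  obtain ⟨c1, c2, c3⟩ := Cfsg.Agent.H9.SPr.count hz hC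
    (t := Nat.card {C : ConjClasses G // ∃ g ∈ C.carrier, orderOf g = p}) rfl
  rw [c3, hn'] at h1
  have hcard := Subgroup.card_eq_card_quotient_mul_card_subgroup (Cfsg.pPrimeCore p G)
  have hH1 : Cfsg.pPrimeCore p G = ⊥ := by
    apply Subgroup.card_eq_one.mp
    by_contra hne
    set H := Nat.card (Cfsg.pPrimeCore p G) with hH
    have hHpos : 0 < H := Nat.card_pos
    have hHp : 1 + p ≤ H := by
      have h3 := Nat.div_add_mod H p
      rw [h2] at h3
      have h4 : H / p ≠ 0 := by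
        intro h5; rw [h5] at h3; omega
      have h5 : p * 1 ≤ p * (H / p) := Nat.mul_le_mul_left _ (Nat.pos_of_ne_zero h4)
      omega
    -- the order of the quotient
    have hQ : p * (1 + n * p) ≤ Nat.card (G ⧸ Cfsg.pPrimeCore p G) := by
      obtain ⟨Q, n', m, hQ1, hQ2, -⟩ := Cfsg.Agent.H9.BR.quot (Cfsg.pPrimeCore p G) hnd P hPc hn'
      rw [← hq, Q.card_eq_index_normalizer, ← Subgroup.card_mul_index (Subgroup.normalizer (Q : Set (G ⧸ Cfsg.pPrimeCore p G)))]
      apply Nat.mul_le_mul_right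
      have h3 : Nat.card (Q : Subgroup (G ⧸ Cfsg.pPrimeCore p G)) = p := hQ1
      have h4 : Nat.card (Q : Subgroup (G ⧸ Cfsg.pPrimeCore p G)) ≤
          Nat.card (Subgroup.normalizer (Q : Set (G ⧸ Cfsg.pPrimeCore p G))) :=
        Subgroup.card_le_of_le Subgroup.le_normalizer
      exact h3.symm.le.trans h4
    have hN : Nat.card (Subgroup.normalizer ((Subgroup.zpowers z : Subgroup G) : Set G)) ≤ p * (p - 1) := by
      rw [← c1]
      apply Nat.le_mul_of_pos_right
      rcases Nat.eq_zero_or_pos (Nat.card {C : ConjClasses G // ∃ g ∈ C.carrier, orderOf g = p}) with h3 | h3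
      · rw [h3, mul_zero] at c1
        have : 0 < p * (p - 1) := Nat.mul_pos hp.pos (by have := hp.one_lt; omega)
        omega
      · exact h3
    have hG : Nat.card G ≤ (1 + n * p) * (p * (p - 1)) := by
      rw [← c2, hn']; exact Nat.mul_le_mul_left _ hN
    have h5 : p * (1 + n * p) * H ≤ (1 + n * p) * (p * (p - 1)) := by
      calc p * (1 + n * p) * H ≤ Nat.card (G ⧸ Cfsg.pPrimeCore p G) * H := Nat.mul_le_mul_right _ hQ
        _ = Nat.card G := hcard.symm
        _ ≤ _ := hG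
    have h6 : (p * (1 + n * p)) * (1 + p) ≤ (p * (1 + n * p)) * (p - 1) := by
      calc (p * (1 + n * p)) * (1 + p) ≤ p * (1 + n * p) * H := Nat.mul_le_mul_left _ hHp
        _ ≤ (1 + n * p) * (p * (p - 1)) := h5
        _ = _ := by ring
    have h7 := Nat.le_of_mul_le_mul_left h6 (Nat.mul_pos hp.pos (by omega))
    omega
  obtain ⟨g⟩ : Nonempty (G ⧸ Cfsg.pPrimeCore p G ≃* G) :=
    ⟨(QuotientGroup.quotientMulEquivOfEq hH1).trans QuotientGroup.quotientBot⟩
  rcases h with ⟨F, i1, i2, hF, h3, ⟨f⟩⟩ | ⟨m, F, i1, i2, hF, hpm, h3, ⟨f⟩⟩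
  · exact Or.inl ⟨F, i1, i2, hF, h3, ⟨g.symm.trans f⟩⟩
  · exact Or.inr ⟨m, F, i1, i2, hF, hpm, h3, ⟨g.symm.trans f⟩⟩

end Cfsg.Agent.S0996
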