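import Cfsg.Statements.S1002
import Cfsg.Agent.H9.ExcC

set_option autoImplicit false
open Cfsg

namespace Cfsg.Agent.S1002

/-- No finite simple group has order 1004913 = 3^3 * 7 * 13 * 409. -/
theorem result {G : Type*} [Group G] [Finite G] [IsSimpleGroup G] : Nat.card G ≠ 1004913 := by
  intro h
  haveI := Fact.mk (show Nat.Prime 409 by norm_num)
  have hG : ¬ IsMulCommutative G := Cfsg.Agent.H9.Simple.not_comm_of_not_prime (by rw [h]; norm_num)
  have hd : 409 ∣ Nat.card G := by rw [h]; norm_num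
  obtain ⟨P⟩ : Nonempty (Sylow 409 G) := inferInstance
  have h1 : Nat.card (Sylow 409 G) ∣ 2457 :=
    Cfsg.Agent.H9.Syl.card_sylow_dvd_of_card P (k := 1) (m := 2457) (by rw [h]; norm_num) (by norm_num)
  have h2 : Nat.card (Sylow 409 G) ≡ 1 [MOD 409] := card_sylow_modEq_one 409 G
  have h3 : Nat.card (Sylow 409 G) ≠ 1 := Cfsg.Agent.H9.Simple.card_sylow_ne_one hG hd
  have h4 : Nat.card (Sylow 409 G) = 819 := by
    have key : ∀ n ∈ Nat.divisors 2457, n % 409 = 1 → n ≠ 1 → n = 819 := by decide +kernel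
    exact key _ (Nat.mem_divisors.mpr ⟨h1, by norm_num⟩) h2 h3
  refine Cfsg.Agent.H9.Exc.simple_kill hG P (m := 2457) (s := 819) (q := 3) (B := 1003) (by rw [h]) (by norm_num) h4 (by norm_num)
    ?_ (by norm_num) (by rw [h]; decide +kernel)
  intro e he _ he1
  exact ((Nat.dvd_prime (by norm_num)).mp he).resolve_left he1

end Cfsg.Agent.S1002
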