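import Cfsg.Statements.S1003
import Cfsg.Agent.H9.Ord168C

set_option autoImplicit false
open Cfsg

namespace Cfsg.Agent.S1003

/-- A simple group of order 168 has exactly 21 Sylow 2-subgroups, 28 Sylow 3-subgroups and 8 Sylow 7-subgroups. -/
theorem result {G : Type*} [Group G] [Finite G] [IsSimpleGroup G] (h : Nat.card G = 168) : Nat.card (Sylow 2 G) = 21 ∧ Nat.card (Sylow 3 G) = 28 ∧ Nat.card (Sylow 7 G) = 8 := by
  exact ⟨Cfsg.Agent.H9.O168.n2 h, Cfsg.Agent.H9.O168.n3 h, Cfsg.Agent.H9.O168.n7 h⟩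

end Cfsg.Agent.S1003
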