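import Cfsg.Statements.S1007
import Cfsg.Agent.H9.Ord168E

set_option autoImplicit false
open Cfsg

namespace Cfsg.Agent.S1007

/-- Let G be a simple group of order 168 and T a Sylow 2-subgroup. Then T contains exactly two subgroups that are Klein four-groups; they are not conjugate in G; and the normalizer of every Klein four-subgroup of G is isomorphic to the symmetric group of degree 4. -/
theorem result {G : Type*} [Group G] [Finite G] [IsSimpleGroup G] (h : Nat.card G = 168) (T : Sylow 2 G) : Nat.card {U : Subgroup G // U ≤ (T : Subgroup G) ∧ IsKleinFour ↥U} = 2 ∧ (∀ U W : Subgroup G, U ≤ (T : Subgroup G) → W ≤ (T : Subgroup G) → IsKleinFour ↥U → IsKleinFour ↥W → U ≠ W → ∀ g : G, U.map (MulAut.conj g).toMonoidHom ≠ W) ∧ ∀ U : Subgroup G, IsKleinFour ↥U → Nonempty (↥(Subgroup.normalizer (U : Set G)) ≃* Equiv.Perm (Fin 4)) := by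
  obtain ⟨a, b, d⟩ := Cfsg.Agent.H9.O168.exists_D8 h T
  refine ⟨?_, ?_, ?_⟩
  · have hset : {U : Subgroup G | U ≤ (T : Subgroup G) ∧ IsKleinFour ↥U} = {d.U1, d.U2} := by
      ext U
      constructor
      · rintro ⟨h1, h2⟩
        exact d.klein_cases h2 h1
      · rintro (rfl | rfl)
        · exact ⟨d.U1_le, d.U1_klein⟩
        · exact ⟨d.U2_le, d.U2_klein⟩
    have h1 : Nat.card {U : Subgroup G // U ≤ (T : Subgroup G) ∧ IsKleinFour ↥U} =
      {U : Subgroup G | U ≤ (T : Subgroup G) ∧ IsKleinFour ↥U}.ncard := rfl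
    rw [h1, hset, Set.ncard_pair d.U1_ne_U2]
  · intro U W hU hW hUk hWk hne g hg
    exact hne (Cfsg.Agent.H9.O168.not_conj h T hUk hWk hU hW g hg)
  · intro U hU
    exact Cfsg.Agent.H9.O168.equiv_of_card h (Cfsg.Agent.H9.O168.card_normalizer_klein h hU)

end Cfsg.Agent.S1007
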