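import Cfsg.Statements.S1009
import Cfsg.Agent.H9.Syl

set_option autoImplicit false
open Cfsg

namespace Cfsg.Agent.S1009

/-- Brodkey's Theorem: if a finite group has abelian Sylow p-subgroups, then there are two Sylow p-subgroups whose intersection equals the intersection of all Sylow p-subgroups. -/
theorem result {G : Type*} [Group G] [Finite G] (p : ℕ) [Fact p.Prime] (hab : ∀ P : Sylow p G, IsMulCommutative ↥(P : Subgroup G)) : ∃ P Q : Sylow p G, (P : Subgroup G) ⊓ (Q : Subgroup G) = ⨅ R : Sylow p G, (R : Subgroup G) := by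
  classical
  obtain ⟨⟨P, Q⟩, hPQ⟩ := Finite.exists_min (fun x : Sylow p G × Sylow p G =>
    Nat.card ((x.1 : Subgroup G) ⊓ (x.2 : Subgroup G) : Subgroup G))
  have hmin : ∀ P' Q' : Sylow p G, Nat.card ((P : Subgroup G) ⊓ (Q : Subgroup G) : Subgroup G) ≤
    Nat.card ((P' : Subgroup G) ⊓ (Q' : Subgroup G) : Subgroup G) := fun P' Q' => hPQ (P', Q')
  refine ⟨P, Q, le_antisymm (le_iInf fun R => ?_) (le_inf (iInf_le _ P) (iInf_le _ Q))⟩
  set D : Subgroup G := (P : Subgroup G) ⊓ (Q : Subgroup G) with hD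
  have hPC : (P : Subgroup G) ≤ Subgroup.centralizer (D : Set G) := by
    intro x hx
    rw [Subgroup.mem_centralizer_iff]
    intro d hd
    have := isMulCommutative_iff.mp (hab P) ⟨d, hd.1⟩ ⟨x, hx⟩
    exact congrArg Subtype.val this
  have hQC : (Q : Subgroup G) ≤ Subgroup.centralizer (D : Set G) := by
    intro x hx
    rw [Subgroup.mem_centralizer_iff]
    intro d hd
    have := isMulCommutative_iff.mp (hab Q) ⟨d, hd.2⟩ ⟨x, hx⟩
    exact congrArg Subtype.val this
  obtain ⟨c, hc, hcR⟩ := Cfsg.Agent.H9.Syl.exists_smul_ge (H := Subgroup.centralizer (D : Set G)) Q hQC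
    (A := (R : Subgroup G) ⊓ Subgroup.centralizer (D : Set G)) (R.isPGroup'.to_le inf_le_left) inf_le_right
  -- D commutes with c
  have hcomm : ∀ x : G, c⁻¹ * x * c ∈ D ↔ x ∈ D := by
    intro x
    constructor
    · intro h
      have h1 := Subgroup.mem_centralizer_iff.mp hc _ h
      have h2 : c⁻¹ * x * c * c = x * c := by
        rw [h1]; group
      have h3 : c⁻¹ * x * c = x := mul_right_cancel h2
      rwa [h3] at h
    · intro h
      have h1 := Subgroup.mem_centralizer_iff.mp hc _ h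
      have h3 : c⁻¹ * x * c = x := by rw [mul_assoc, h1, inv_mul_cancel_left]
      rwa [h3]
  have hle : ((c • P : Sylow p G) : Subgroup G) ⊓ (R : Subgroup G) ≤ D := by
    intro x ⟨hx1, hx2⟩
    have hxC : x ∈ Subgroup.centralizer (D : Set G) := by
      have h1 := Cfsg.Agent.H9.Syl.mem_smul_iff.mp hx1
      have h2 := hPC h1
      have h3 : x = c * (c⁻¹ * x * c) * c⁻¹ := by group
      rw [h3]
      exact mul_mem (mul_mem hc h2) (inv_mem hc)
    have hxQ := hcR ⟨hx2, hxC⟩
    rw [← hcomm]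
    exact ⟨Cfsg.Agent.H9.Syl.mem_smul_iff.mp hx1, Cfsg.Agent.H9.Syl.mem_smul_iff.mp hxQ⟩
  have heq := Subgroup.eq_of_le_of_card_ge hle (hmin (c • P) R)
  rw [← heq]
  exact inf_le_right

end Cfsg.Agent.S1009
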