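import Cfsg.Statements.S1010
import Cfsg.Agent.H9.TwentyOneE

set_option autoImplicit false
open Cfsg

namespace Cfsg.Agent.S1010

theorem aux.{u} : ∀ (n : ℕ) (G : Type u) [Group G] [Finite G], Nat.card G = n → Nat.card (Sylow 5 G) ≠ 21 := by
  intro n
  induction n using Nat.strong_induction_on with
  | _ n ih =>
    intro G _ _ hn h21
    exact Cfsg.Agent.H9.TO.contradiction (G := G)
      ⟨h21, fun H _ _ hH => ih (Nat.card H) (hn ▸ hH) H rfl⟩

/-- No finite group has exactly twenty-one Sylow 5-subgroups. -/
theorem result {G : Type*} [Group G] [Finite G] : Nat.card (Sylow 5 G) ≠ 21 := by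
  exact aux (Nat.card G) G rfl

end Cfsg.Agent.S1010
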