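import Cfsg.Statements.S1013
import Cfsg.Agent.H9.Syl

set_option autoImplicit false
open Cfsg

namespace Cfsg.Agent.S1013

open Subgroup MulAction

theorem main {G : Type*} [Group G] [Finite G] {α : Type*} [Finite α] [MulAction G α] [FaithfulSMul G α]
    [IsPretransitive G α] {p : ℕ} [Fact p.Prime] (hα : Nat.card α = p)
    (P : Sylow p G) (hn : 1 < Nat.card (Sylow p G))
    (ht : (((P : Subgroup G).subgroupOf (normalizer ((P : Subgroup G) : Set G))).index).Prime) : IsSimpleGroup G := by
  classical
  have hp : p.Prime := Fact.out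
  have hprim : IsPreprimitive G α := IsPreprimitive.of_prime_card (by rw [hα]; exact hp)
  haveI : Nonempty α := by
    rw [← not_isEmpty_iff]
    intro h
    rw [Nat.card_of_isEmpty] at hα
    exact hp.ne_zero hα.symm
  -- transitive subgroups have order divisible by p
  have htr : ∀ N : Subgroup G, IsPretransitive N α → p ∣ Nat.card N := by
    intro N hN
    obtain ⟨a⟩ : Nonempty α := inferInstance
    have h1 := MulAction.index_stabilizer_of_transitive N a
    rw [hα] at h1
    rw [← h1]
    exact index_dvd_card _
  have hG : p ∣ Nat.card G := by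
    obtain ⟨a⟩ : Nonempty α := inferInstance
    have h1 := MulAction.index_stabilizer_of_transitive G a
    rw [hα] at h1
    rw [← h1]
    exact index_dvd_card _
  have hG2 : ¬ p ^ 2 ∣ Nat.card G := by
    intro h
    have h1 : Nat.card G ∣ Nat.card (Equiv.Perm α) :=
      card_dvd_of_injective (MulAction.toPermHom G α) (MulAction.toPerm_injective)
    rw [Nat.card_perm, hα] at h1
    have h2 := h.trans h1
    obtain ⟨q, rfl⟩ : ∃ q, p = q + 1 := ⟨p - 1, by have := hp.pos; omega⟩
    rw [Nat.factorial_succ, pow_two] at h2
    have h3 := Nat.dvd_of_mul_dvd_mul_left hp.pos h2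
    rw [hp.dvd_factorial] at h3
    omega
  have hPc : Nat.card (P : Subgroup G) = p := Cfsg.Agent.H9.Syl.card_sylow_prime P hG hG2
  haveI : Nontrivial G := by
    rw [← Finite.one_lt_card_iff_nontrivial]
    exact lt_of_lt_of_le hp.one_lt (Nat.le_of_dvd Nat.card_pos hG)
  -- nontrivial normal subgroups are transitive
  have hnt : ∀ N : Subgroup G, N.Normal → N ≠ ⊥ → IsPretransitive N α := by
    intro N hN hne
    apply IsQuasiPreprimitive.isPretransitive_of_normal
    intro h
    apply hne
    rw [eq_bot_iff]
    intro g hg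
    rw [mem_bot]
    apply FaithfulSMul.eq_of_smul_eq_smul (α := α)
    intro a
    have h1 : a ∈ fixedPoints N α := by rw [h]; trivial
    rw [one_smul]
    exact h1 ⟨g, hg⟩
  have hle : ∀ N : Subgroup G, N.Normal → N ≠ ⊥ → (P : Subgroup G) ≤ N := by
    intro N hN hne
    have h1 := htr N (hnt N hN hne)
    -- index of N is prime to p
    have h2 : ¬ p ∣ N.index := by
      intro h
      apply hG2
      rw [← card_mul_index N, pow_two]
      exact mul_dvd_mul h1 h
    have h3 : (N.relIndex (P : Subgroup G)) = 1 := by
      have h4 : N.relIndex (P : Subgroup G) ∣ N.index := relIndex_dvd_index_of_normal N (P : Subgroup G)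
      have h5 : N.relIndex (P : Subgroup G) ∣ p := by
        have := relIndex_dvd_card N (P : Subgroup G)
        rwa [hPc] at this
      rcases (Nat.dvd_prime hp).mp h5 with h6 | h6
      · exact h6
      · rw [h6] at h4; exact absurd h4 h2
    exact relIndex_eq_one.mp h3
  refine ⟨fun N hN => ?_⟩
  by_cases hne : N = ⊥
  · left; exact hne
  right
  have hPN := hle N hN hne
  have hfr := Sylow.normalizer_sup_eq_top' P hPN
  set M := normalizer ((P : Subgroup G) : Set G) with hM
  have hPM : (P : Subgroup G) ≤ M := le_normalizer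
  -- P ≤ M ⊓ N ≤ M
  have h1 : (P : Subgroup G).relIndex (M ⊓ N) * (M ⊓ N).relIndex M = (P : Subgroup G).relIndex M :=
    relIndex_mul_relIndex _ _ _ (le_inf hPM hPN) inf_le_left
  have ht' : ((P : Subgroup G).relIndex M).Prime := ht
  rw [← h1] at ht'
  rcases (Nat.prime_mul_iff.mp ht') with ⟨_, h2⟩ | ⟨_, h2⟩
  · -- M ⊓ N = M
    have h3 := relIndex_eq_one.mp h2
    have h4 : M ≤ N := h3.trans inf_le_right
    rw [← hfr]
    exact (sup_eq_right.mpr h4).symm
  · exfalso
    have h3 : M ⊓ N ≤ (P : Subgroup G) := relIndex_eq_one.mp h2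
    -- Burnside in N
    let P' : Sylow p N := P.subtype hPN
    have hP'c : ∀ x : N, x ∈ (P' : Subgroup N) ↔ (x : G) ∈ (P : Subgroup G) := by
      intro x
      change x ∈ ((P.subtype hPN : Sylow p N) : Subgroup N) ↔ _
      rw [Sylow.coe_subtype, mem_subgroupOf]
    have hP'card : Nat.card (P' : Subgroup N) = p := by
      refine Eq.trans ?_ hPc
      change Nat.card ((P.subtype hPN : Sylow p N) : Subgroup N) = _
      rw [Sylow.coe_subtype]
      exact Nat.card_congr (subgroupOfEquivOfLe hPN).toEquiv
    have hNP : normalizer ((P' : Subgroup N) : Set N) ≤ centralizer ((P' : Subgroup N) : Set N) := by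
      have h4 : normalizer ((P' : Subgroup N) : Set N) ≤ (P' : Subgroup N) := by
        intro x hx
        rw [hP'c]
        apply h3
        refine ⟨?_, x.2⟩
        change (x : G) ∈ normalizer ((P : Subgroup G) : Set G)
        rw [mem_normalizer_iff]
        intro y
        constructor
        · intro hy
          have h5 := (mem_normalizer_iff.mp hx ⟨y, hPN hy⟩).mp ((hP'c _).mpr hy)
          exact (hP'c _).mp h5
        · intro hy
          have h6 : y ∈ N := by
            have h7 := hPN hy
            have h8 := hN.conj_mem _ h7 (x : G)⁻¹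
            have : (x : G)⁻¹ * ((x : G) * y * (x : G)⁻¹) * (x : G)⁻¹⁻¹ = y := by group
            rwa [this] at h8
          have h5 := (mem_normalizer_iff.mp hx ⟨y, h6⟩).mpr ((hP'c _).mpr hy)
          exact (hP'c _).mp h5
      exact h4.trans (Cfsg.Agent.H9.Syl.le_centralizer_of_card_prime hP'card)
    let K := (MonoidHom.transferSylow P' hNP).ker
    have hK : IsComplement' K (P' : Subgroup N) := MonoidHom.ker_transferSylow_isComplement' P' hNP
    have hKp : ¬ p ∣ Nat.card K := MonoidHom.not_dvd_card_ker_transferSylow P' hNP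
    have hKmem : ∀ x : N, x ∈ K ↔ ¬ p ∣ orderOf x := by
      intro x
      constructor
      · intro hx h4
        apply hKp
        have h5 : orderOf (⟨x, hx⟩ : K) ∣ Nat.card K := orderOf_dvd_natCard _
        rw [orderOf_mk] at h5
        exact h4.trans h5
      · intro hx
        have h4 : orderOf (MonoidHom.transferSylow P' hNP x) ∣ orderOf x := orderOf_map_dvd _ _
        have h5 : orderOf (MonoidHom.transferSylow P' hNP x) ∣ p := by
          have := orderOf_dvd_natCard (MonoidHom.transferSylow P' hNP x)
          rwa [hP'card] at this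
        rcases (Nat.dvd_prime hp).mp h5 with h6 | h6
        · exact orderOf_eq_one_iff.mp h6
        · rw [h6] at h4; exact absurd h4 hx
    let K' : Subgroup G := K.map N.subtype
    have hK'n : K'.Normal := by
      constructor
      rintro _ ⟨x, hx, rfl⟩ g
      have h4 : g * (x : G) * g⁻¹ ∈ N := hN.conj_mem _ x.2 g
      refine ⟨⟨g * (x : G) * g⁻¹, h4⟩, ?_, rfl⟩
      have hx' : x ∈ K := hx
      change _ ∈ K
      rw [hKmem] at hx' ⊢
      rw [orderOf_mk]
      have : g * (x : G) * g⁻¹ = MulAut.conj g (x : G) := by simp
      rw [this, MulEquiv.orderOf_eq, orderOf_coe]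
      exact hx'
    have hK'b : K' = ⊥ := by
      by_contra hne'
      have h4 := htr K' (hnt K' hK'n hne')
      apply hKp
      have h5 : Nat.card K' = Nat.card K := Nat.card_congr (K.equivMapOfInjective N.subtype N.subtype_injective).toEquiv.symm
      rwa [h5] at h4
    have hKb : K = ⊥ := by
      rw [eq_bot_iff]
      intro x hx
      have h4 : (x : G) ∈ K' := ⟨x, hx, rfl⟩
      rw [hK'b, mem_bot] at h4
      rw [mem_bot]
      exact Subtype.ext h4
    have hNcard : Nat.card N = p := by
      have h4 := hK.card_mul
      rw [hKb, card_bot, one_mul, hP'card] at h4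
      exact h4.symm
    have hPeq : (P : Subgroup G) = N := eq_of_le_of_card_ge hPN (by rw [hNcard, hPc])
    have hPn : (P : Subgroup G).Normal := by rw [hPeq]; exact hN
    have h4 : Nat.card (Sylow p G) = 1 := by
      rw [Cfsg.Agent.H9.Syl.card_sylow_eq_index P, index_eq_one]
      exact normalizer_eq_top_iff.mpr hPn
    omega

/-- Let G be a transitive permutation group of prime degree p having more than one Sylow p-subgroup, and suppose a Sylow p-subgroup P has prime index in its normalizer. Then G is simple. -/
theorem result {α : Type*} [Fintype α] [DecidableEq α] {p : ℕ} [Fact p.Prime] (hα : Fintype.card α = p) (G : Subgroup (Equiv.Perm α)) [MulAction.IsPretransitive ↥G α] (P : Sylow p ↥G) (hn : 1 < Nat.card (Sylow p ↥G)) (ht : (((P : Subgroup ↥G).subgroupOf (Subgroup.normalizer ((P : Subgroup ↥G) : Set ↥G))).index).Prime) : IsSimpleGroup ↥G := by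
  exact main (α := α) (by rw [Nat.card_eq_fintype_card]; exact hα) P hn ht

end Cfsg.Agent.S1013
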