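import Cfsg.Statements.S1014
import Cfsg.Agent.H9.Sieve2

set_option autoImplicit false
open Cfsg

namespace Cfsg.Agent.S1014

/-- No finite simple group has order 1104 = 2^4 * 3 * 23. -/
theorem result {G : Type*} [Group G] [Finite G] [IsSimpleGroup G] : Nat.card G ≠ 1104 := by
  intro h
  have hG : ¬ IsMulCommutative G := Cfsg.Agent.H9.Simple.not_comm_of_not_prime (by rw [h]; norm_num)
  have h1 := Cfsg.Agent.H9.Sieve.sieveC hG
  rw [h] at h1
  exact absurd h1 (by decide +kernel)

end Cfsg.Agent.S1014
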