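import Cfsg.Statements.S1016
import Cfsg.Agent.H9.ExcK

set_option autoImplicit false
open Cfsg

namespace Cfsg.Agent.S1016

/-- No finite simple group has order 1440 = 2^5 * 3^2 * 5. -/
theorem result {G : Type*} [Group G] [Finite G] [IsSimpleGroup G] : Nat.card G ≠ 1440 := by
  intro h
  have hG : ¬ IsMulCommutative G := Cfsg.Agent.H9.Simple.not_comm_of_not_prime (by rw [h]; norm_num)
  have h1 := Cfsg.Agent.H9.Exc.exKill_sound hG (p := 5) (by norm_num) (B := 38)
  rw [h] at h1
  have h2 : Cfsg.Agent.H9.Exc.exKill 1440 5 38 = true := by decide +kernel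
  rw [h1] at h2
  exact absurd h2 (by decide)

end Cfsg.Agent.S1016
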