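import Cfsg.Statements.S1018
import Cfsg.Agent.H9.Count

set_option autoImplicit false
open Cfsg

namespace Cfsg.Agent.S1018

theorem mk_eq_iff {G : Type*} [Group G] {p : ℕ} (P : Sylow p G) (g h : G) :
    (QuotientGroup.mk g : G ⧸ Subgroup.normalizer ((P : Subgroup G) : Set G)) = QuotientGroup.mk h ↔
      g • P = h • P := by
  have h1 : (g⁻¹ * h) • P = P ↔ g⁻¹ * h ∈ Subgroup.normalizer ((P : Subgroup G) : Set G) :=
    Sylow.smul_eq_iff_mem_normalizer
  rw [QuotientGroup.eq, ← h1, mul_smul, inv_smul_eq_iff, eq_comm]

theorem fixed_iff {G : Type*} [Group G] {p : ℕ} (P : Sylow p G) (x g : G) :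
    (QuotientGroup.mk g : G ⧸ Subgroup.normalizer ((P : Subgroup G) : Set G)) ∈
      MulAction.fixedBy _ x ↔ x • (g • P) = g • P := by
  rw [MulAction.mem_fixedBy, MulAction.Quotient.smul_mk, mk_eq_iff, smul_eq_mul, mul_smul]

/-- Let P be a Sylow p-subgroup of order p of a finite group G, and consider the action of G on the left cosets of the normalizer N of P. Then every element of order p fixes exactly one coset, and an element of N that does not centralize P fixes at most as many cosets as there are orbits of P. -/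
theorem result {G : Type*} [Group G] [Finite G] (p : ℕ) [Fact p.Prime] (P : Sylow p G) (hP : Nat.card ↥(P : Subgroup G) = p) : (∀ y : G, orderOf y = p → Nat.card (MulAction.fixedBy (G ⧸ Subgroup.normalizer ((P : Subgroup G) : Set G)) y) = 1) ∧ ∀ x : G, x ∈ Subgroup.normalizer ((P : Subgroup G) : Set G) → x ∉ Subgroup.centralizer ((P : Subgroup G) : Set G) → Nat.card (MulAction.fixedBy (G ⧸ Subgroup.normalizer ((P : Subgroup G) : Set G)) x) ≤ Nat.card (MulAction.orbitRel.Quotient ↥(P : Subgroup G) (G ⧸ Subgroup.normalizer ((P : Subgroup G) : Set G))) := by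
  classical
  have hmem : ∀ (g : G), Nat.card ((g • P : Sylow p G) : Subgroup G) = p := fun g =>
    (Nat.card_congr (Sylow.equiv (g • P) P).toEquiv).trans hP
  constructor
  · intro y hy
    have hy1 : y ≠ 1 := by
      rintro rfl
      rw [orderOf_one] at hy
      exact (Fact.out : p.Prime).one_lt.ne hy
    have hyp : IsPGroup p (Subgroup.zpowers y) :=
      Cfsg.Agent.H9.Simple.isPGroup_zpowers (k := 1) (by rw [pow_one, hy])
    have key : ∀ Q : Sylow p G, y • Q = Q ↔ y ∈ (Q : Subgroup G) := fun Q =>
      Cfsg.Agent.H9.Count.smul_eq_iff_of_mem hyp (Subgroup.mem_zpowers y)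
    obtain ⟨Q, hQ⟩ := hyp.exists_le_sylow
    obtain ⟨g, rfl⟩ := MulAction.exists_smul_eq G P Q
    have hyQ : y ∈ ((g • P : Sylow p G) : Subgroup G) := hQ (Subgroup.mem_zpowers y)
    rw [Nat.card_eq_one_iff_unique]
    constructor
    · constructor
      rintro ⟨a, ha⟩ ⟨b, hb⟩
      induction a using QuotientGroup.induction_on with
      | H a =>
        induction b using QuotientGroup.induction_on with
        | H b =>
          apply Subtype.ext
          rw [mk_eq_iff]
          rw [fixed_iff, key] at ha hb
          apply Sylow.ext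
          rw [← Cfsg.Agent.H9.Simple.zpowers_eq_of_card (hmem a) ha hy1,
            ← Cfsg.Agent.H9.Simple.zpowers_eq_of_card (hmem b) hb hy1]
    · exact ⟨⟨QuotientGroup.mk g, by rw [fixed_iff, key]; exact hyQ⟩⟩
  · intro x hxN hxC
    refine Nat.card_le_card_of_injective (fun q => Quotient.mk'' q.1) ?_
    rintro ⟨a, ha⟩ ⟨b, hb⟩ hab
    induction a using QuotientGroup.induction_on with
    | H a =>
      induction b using QuotientGroup.induction_on with
      | H b =>
        apply Subtype.ext
        have h1 : (MulAction.orbitRel ↥(P : Subgroup G) (G ⧸ Subgroup.normalizer ((P : Subgroup G) : Set G))).r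
            (QuotientGroup.mk a) (QuotientGroup.mk b) := Quotient.exact' hab
        obtain ⟨u, hu⟩ := h1
        have hu' : (QuotientGroup.mk (u.1 * b) : G ⧸ Subgroup.normalizer ((P : Subgroup G) : Set G)) =
          QuotientGroup.mk a := hu
        rw [mk_eq_iff, mul_smul] at hu'
        rw [fixed_iff] at ha hb
        change (QuotientGroup.mk a : G ⧸ Subgroup.normalizer ((P : Subgroup G) : Set G)) = QuotientGroup.mk b
        rw [mk_eq_iff, ← hu']
        rw [← hu'] at ha
        set Q := b • P with hQ
        have hxinv : x⁻¹ • Q = Q := by rw [inv_smul_eq_iff, hb]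
        have h2 : (x⁻¹ * (u.1⁻¹ * x * u.1)) • Q = Q := by
          rw [mul_smul, mul_smul, mul_smul, ha, inv_smul_smul, hxinv]
        have h3 : x⁻¹ * (u.1⁻¹ * x * u.1) ∈ (P : Subgroup G) := by
          have h4 : x⁻¹ * u.1⁻¹ * x ∈ (P : Subgroup G) := by
            have := (Subgroup.mem_normalizer_iff.mp (inv_mem hxN) u.1⁻¹).mp (inv_mem u.2)
            simpa using this
          have : x⁻¹ * (u.1⁻¹ * x * u.1) = (x⁻¹ * u.1⁻¹ * x) * u.1 := by group
          rw [this]; exact mul_mem h4 u.2
        by_cases h5 : x⁻¹ * (u.1⁻¹ * x * u.1) = 1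
        · have hcomm : x * u.1 = u.1 * x := by
            have h6 : u.1⁻¹ * x * u.1 = x := by
              have := congrArg (fun w => x * w) h5
              simpa using this
            calc x * u.1 = u.1 * (u.1⁻¹ * x * u.1) := by group
              _ = u.1 * x := by rw [h6]
          by_cases hu1 : u.1 = 1
          · rw [hu1, one_smul]
          · exfalso
            apply hxC
            rw [← Cfsg.Agent.H9.Simple.zpowers_eq_of_card hP u.2 hu1, Subgroup.mem_centralizer_iff]
            rintro _ ⟨k, rfl⟩
            exact ((show Commute x u.1 from hcomm).zpow_right k).eq.symm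
        · have h6 := (Cfsg.Agent.H9.Count.smul_eq_iff_of_mem P.isPGroup' h3).mp h2
          have h7 : Q = P := by
            apply Sylow.ext
            rw [← Cfsg.Agent.H9.Simple.zpowers_eq_of_card hP h3 h5,
              ← Cfsg.Agent.H9.Simple.zpowers_eq_of_card (hmem b) h6 h5]
          rw [h7]
          exact (Cfsg.Agent.H9.Count.smul_eq_iff_of_mem P.isPGroup' u.2).mpr u.2

end Cfsg.Agent.S1018
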