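import Cfsg.Statements.S1022
import Cfsg.Agent.H9.ExcR

set_option autoImplicit false
open Cfsg

namespace Cfsg.Agent.S1022

/-- possible centralizer orders -/
def Ks : List ℕ := [38, 76, 114, 152, 228, 266, 304, 342, 456, 532, 608, 684, 798, 912, 1026, 1064, 1216, 1368, 1596, 1824, 2052, 2128, 2394, 2432, 2736, 3192, 3648, 4104, 4256, 4788, 5472, 6384, 7182, 7296, 8208, 8512, 9576, 10944, 12768, 14364, 16416, 17024, 19152, 21888, 25536, 28728, 32832, 38304, 51072, 57456, 65664, 76608, 114912, 153216, 229824]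

theorem Ks_spec : ((List.range 12097).all fun j => !(decide (j ≠ 0 ∧ 12096 % j = 0 ∧ 38 * j ≤ 229824)) || Ks.contains (38 * j)) = true := by
  decide +kernel

open Cfsg.Agent.H9 Cfsg.Agent.H9.Exc in
theorem c2 : killA 459648 19 2 12 678 = true := by decide +kernel
open Cfsg.Agent.H9 Cfsg.Agent.H9.Exc in
theorem c3 : killA 459648 19 3 8 678 = true := by decide +kernel
open Cfsg.Agent.H9 Cfsg.Agent.H9.Exc in
theorem c6 : killZ 459648 19 6 4 76 678 Ks = true := by decide +kernel

open Cfsg.Agent.H9 Cfsg.Agent.H9.Exc in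
set_option maxRecDepth 100000 in
theorem syl : (List.range (24192/19+1)).filter (fun i => Sieve.possC 459648 19 1 24192 (1+i*19)) = [53] := by decide +kernel

theorem divs18 : ∀ e ∈ Nat.divisors 18, e = 1 ∨ e = 2 ∨ e = 3 ∨ e = 6 ∨ e = 9 ∨ e = 18 := by decide +kernel

/-- No finite simple group has order 459648 = 2^7 * 3^3 * 7 * 19. -/
theorem result {G : Type*} [Group G] [Finite G] [IsSimpleGroup G] : Nat.card G ≠ 459648 := by
  intro h
  haveI := Fact.mk (show Nat.Prime 19 by norm_num)
  letI : Fintype G := Fintype.ofFinite G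
  have hG : ¬ IsMulCommutative G := Cfsg.Agent.H9.Simple.not_comm_of_not_prime (by rw [h]; norm_num)
  obtain ⟨P⟩ : Nonempty (Sylow 19 G) := inferInstance
  have hc : Nat.card G = 19 ^ 1 * 24192 := by rw [h]; norm_num
  have hm : ¬ 19 ∣ 24192 := by norm_num
  have hposs := Cfsg.Agent.H9.Sieve.possC_true hG h (hc.symm.trans h).symm hm (by norm_num)
  have hs0 : 0 < Nat.card (Sylow 19 G) := Nat.card_pos
  have hmod : Nat.card (Sylow 19 G) ≡ 1 [MOD 19] := card_sylow_modEq_one 19 G
  have hdvd : Nat.card (Sylow 19 G) ∣ 24192 := Cfsg.Agent.H9.Syl.card_sylow_dvd_of_card P hc hm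
  obtain ⟨r, hr⟩ := (Nat.modEq_iff_dvd' hs0).mp hmod.symm
  have hsr : Nat.card (Sylow 19 G) = 1 + r * 19 := by omega
  have hle := Nat.le_of_dvd (by norm_num) hdvd
  have hmem : r ∈ (List.range (24192/19+1)).filter (fun i => Cfsg.Agent.H9.Sieve.possC 459648 19 1 24192 (1+i*19)) := by
    rw [List.mem_filter, List.mem_range]
    refine ⟨by omega, ?_⟩
    rw [← hsr]; exact hposs
  rw [syl, List.mem_singleton] at hmem
  subst hmem
  obtain ⟨e, L, pw, he, he1, hLe, hset⟩ := Cfsg.Agent.H9.Exc.exists_setup hG P (m := 24192) (s := 1008) (Q := 24)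
    (by rw [h]) hm (by rw [hsr]) (by norm_num)
  have h18 := divs18 e (Nat.mem_divisors.mpr ⟨he, by norm_num⟩)
  rcases h18 with rfl | rfl | rfl | rfl | rfl | rfl
  · exact he1 rfl
  · have : L = 12 := by omega
    subst this
    exact hset.killA_sound hG he (B := 678) (by rw [h]; exact c2)
  · have : L = 8 := by omega
    subst this
    exact hset.killA_sound hG he (B := 678) (by rw [h]; exact c3)
  · have : L = 4 := by omega
    subst this
    haveI : Fact (Nat.Prime 2) := ⟨Nat.prime_two⟩
    have hd : 2 ∣ Nat.card (Subgroup.centralizer ((P : Subgroup G) : Set G)) := by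
      rw [hset.hL]; norm_num
    obtain ⟨w, hw⟩ := exists_prime_orderOf_dvd_card' 2 hd
    obtain ⟨z, hz⟩ : ∃ z : G, z = (w : G) := ⟨_, rfl⟩
    have hzo : orderOf z = 2 := by rw [hz, Subgroup.orderOf_coe, hw]
    have hz1 : z ≠ 1 := by
      intro h1
      rw [h1, orderOf_one] at hzo
      omega
    have hzC : z ∈ Subgroup.centralizer ((P : Subgroup G) : Set G) := by rw [hz]; exact w.2
    have hPz : (P : Subgroup G) ≤ Subgroup.centralizer ({z} : Set G) := by
      intro x hx
      rw [Subgroup.mem_centralizer_singleton_iff]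
      exact (Subgroup.mem_centralizer_iff.mp hzC x hx)
    have hpK : 19 ∣ Nat.card (Subgroup.centralizer ({z} : Set G)) := by
      have := Subgroup.card_dvd_of_le hPz
      rwa [hset.hP] at this
    have h2K : 2 ∣ Nat.card (Subgroup.centralizer ({z} : Set G)) := by
      have hzz : z ∈ Subgroup.centralizer ({z} : Set G) := by rw [Subgroup.mem_centralizer_singleton_iff]
      have h1 : orderOf (⟨z, hzz⟩ : Subgroup.centralizer ({z} : Set G)) ∣ Nat.card (Subgroup.centralizer ({z} : Set G)) :=
        orderOf_dvd_natCard _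
      rwa [Subgroup.orderOf_mk, hzo] at h1
    have h38 : 38 ∣ Nat.card (Subgroup.centralizer ({z} : Set G)) :=
      Nat.Coprime.mul_dvd_of_dvd_of_dvd (by norm_num : Nat.Coprime 2 19) h2K hpK
    have hhalf := Cfsg.Agent.H9.Exc.card_centralizer_le_half hG hz1
    have hKn := Subgroup.card_subgroup_dvd_card (Subgroup.centralizer ({z} : Set G))
    have hK0 : 0 < Nat.card (Subgroup.centralizer ({z} : Set G)) := Nat.card_pos
    obtain ⟨j, hj⟩ := h38
    rw [hj, h] at hKn hhalf
    rw [hj] at hK0
    have hjd : j ∣ 12096 := by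
      have : 38 * j ∣ 38 * 12096 := by simpa using hKn
      exact Nat.dvd_of_mul_dvd_mul_left (by norm_num) this
    have hjle : j ≤ 12096 := Nat.le_of_dvd (by norm_num) hjd
    have hspec := List.all_eq_true.mp Ks_spec j (List.mem_range.mpr (by omega))
    have hmemK : Nat.card (Subgroup.centralizer ({z} : Set G)) ∈ Ks := by
      rw [Bool.or_eq_true, Bool.not_eq_true', decide_eq_false_iff_not, List.contains_iff_mem] at hspec
      rcases hspec with h1 | h1
      · exact absurd ⟨by omega, Nat.mod_eq_zero_of_dvd hjd, by omega⟩ h1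
      · rw [hj]; exact h1
    refine hset.killZ_sound hG he (by norm_num) hzo (st := 4 * 19) (Or.inr ⟨rfl, hzC⟩) hmemK (B := 678) ?_
    rw [h]; exact c6
  · omega
  · omega

end Cfsg.Agent.S1022
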