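import Cfsg.Statements.S1026
import Cfsg.Agent.H6.ChevTri

set_option autoImplicit false
open Cfsg

namespace Cfsg.Agent.S1026

/-- Every element of `U` has a unique expression `∏_{r ∈ Φ⁺} x_r(t_r)`, the product over the positive roots in increasing index order (the coefficient family `t`, supported on the positive roots, exists and is unique); and conversely every such ordered product is the matrix of an element of `U`. -/
theorem result {F : Type*} [Field F] (D : Cfsg.Lie.ChevalleyDatum) (hD : D ∈ [Cfsg.Lie.chevG2, Cfsg.Lie.chevB2, Cfsg.Lie.chevD4, Cfsg.Lie.chevF4, Cfsg.Lie.chevE6, Cfsg.Lie.chevE7, Cfsg.Lie.chevE8]) :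
    (∀ g : GL D.Idx F, g ∈ D.posUnipotent F →
      ∃! t : ℕ → F, (∀ r, ¬ D.IsPosRoot r → t r = 0) ∧
        (g : Matrix D.Idx D.Idx F) = D.wordMat F (D.posRoots.map fun r => (r, t r))) ∧
    (∀ t : ℕ → F, ∃ g : GL D.Idx F, g ∈ D.posUnipotent F ∧
      (g : Matrix D.Idx D.Idx F) = D.wordMat F (D.posRoots.map fun r => (r, t r))) := by
  obtain ⟨N, η, rc, hG, hE⟩ := Cfsg.Agent.H6.exists_ext hD
  refine ⟨fun g hg => ?_, fun t => ⟨_, hG.op_mem_pos t, hG.coe_op t⟩⟩
  rw [hG.posUnipotent_eq_US] at hg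
  obtain ⟨t, h1, rfl⟩ := hG.exists_op' (hG.rd hE) hG.pClo_all hg
  refine ⟨t, ⟨fun r hr => h1 r (fun h => hr (hG.isPos_iff.2 h)), hG.coe_op t⟩, ?_⟩
  rintro t' ⟨h2, h3⟩
  rw [← hG.coe_op] at h3
  have h4 := hG.op_inj hE t t' N N (by rw [hG.nroots_eq]; ring) le_rfl (Units.ext h3)
  funext r
  by_cases hr : D.IsPosRoot r
  · exact (h4 r (hG.isPos_iff.1 hr).1 (hG.isPos_iff.1 hr).2).symm
  · rw [h2 r hr, h1 r (fun h => hr (hG.isPos_iff.2 h))]

end Cfsg.Agent.S1026
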