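import Cfsg.Statements.S1034
import Cfsg.Agent.H6.ChevTorus

set_option autoImplicit false
open Cfsg

namespace Cfsg.Agent.S1034

/-- Every element of `H` is a product `h_{p_1}(c_1) ⋯ h_{p_l}(c_l)` over the fundamental roots, with non-zero `c_i`. -/
theorem result {F : Type*} [Field F] (D : Cfsg.Lie.ChevalleyDatum) (hD : D ∈ [Cfsg.Lie.chevG2, Cfsg.Lie.chevB2, Cfsg.Lie.chevD4, Cfsg.Lie.chevF4, Cfsg.Lie.chevE6, Cfsg.Lie.chevE7, Cfsg.Lie.chevE8]) (g : GL D.Idx F) (hg : g ∈ D.diagonalSubgroup F) :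
    ∃ c : ℕ → F, (∀ i < D.rank, c i ≠ 0) ∧
      (g : Matrix D.Idx D.Idx F) = D.wordMat F ((List.range D.rank).flatMap fun i => D.hWord (D.simple i) (c i)) := by
  obtain ⟨N, η, rc, hG⟩ := Cfsg.Agent.H6.exists_good hD
  rw [hG.mem_diagonal_iff] at hg
  obtain ⟨c, rfl⟩ := hg
  refine ⟨fun i => (c i : F), fun i _ => (c i).ne_zero, ?_⟩
  rw [hG.tor_eq_prod_hgr]
  have key : ∀ L : List ℕ, (((L.map fun i => Cfsg.Agent.H6.hgr D F (D.simple i) (c i : F)).prod : GL D.Idx F) :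
      Matrix D.Idx D.Idx F) = D.wordMat F (L.flatMap fun i => D.hWord (D.simple i) (c i : F)) := by
    intro L
    induction L with
    | nil => rfl
    | cons a L ih =>
      rw [List.map_cons, List.prod_cons, Units.val_mul, ih, List.flatMap_cons, hG.coe_hgr]
      unfold Cfsg.Lie.ChevalleyDatum.wordMat Cfsg.Lie.ChevalleyDatum.hMat Cfsg.Lie.ChevalleyDatum.wordMat
      rw [List.map_append, List.prod_append]
  exact key _

end Cfsg.Agent.S1034
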