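import Cfsg.Statements.S1039
import Cfsg.Agent.H6.ChevNW
import Cfsg.Agent.H6.ChevExtTab
import Cfsg.Agent.H22.WeylEquiv

set_option autoImplicit false
open Cfsg

namespace Cfsg.Agent.S1039

open Cfsg.Lie Cfsg.Agent.H6 in
theorem aux {D : ChevalleyDatum} {N : ℕ} {η : ℕ → ℕ → ℤ} {rc : ℕ → ℕ → ℤ} {F : Type*} [Field F] (hG : Good D N η rc) (hE : Ext D rc)
    {M : CoxeterMatrix (Fin D.rank)} (h : ∃ φ : M.Group ≃* hG.W, ∀ i, φ (M.simple i) = hG.s i) :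
    ∃ φ : ↥(D.monomialSubgroup F) →* M.Group, Function.Surjective φ ∧
      φ.ker = (D.diagonalSubgroup F).subgroupOf (D.monomialSubgroup F) ∧
      ∀ (i : Fin D.rank) (g : ↥(D.monomialSubgroup F)),
        ((g : GL D.Idx F) : Matrix D.Idx D.Idx F) = D.nMat F (D.simple i) 1 → φ g = M.simple i := by
  obtain ⟨φ, hφ⟩ := h
  refine ⟨φ.symm.toMonoidHom.comp (hG.toW hE F), ?_, ?_, ?_⟩
  · exact φ.symm.surjective.comp (hG.toW_surjective hE)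
  · rw [← hG.toW_ker hE]
    ext x
    rw [MonoidHom.mem_ker, MonoidHom.mem_ker]
    exact map_eq_one_iff _ φ.symm.injective
  · intro i g hg
    have h1 := hG.toW_ng hE i hg
    change φ.symm (hG.toW hE F g) = _
    rw [h1, MulEquiv.symm_apply_eq, hφ]

/-- `N/H ≅ W`: there is a surjective homomorphism from `N` onto the Coxeter group of the type (Mathlib's Coxeter matrix G₂, B₂, F₄, E₆, E₇, E₈, nodes numbered as the fundamental roots) with kernel `H`, mapping each `n_{p_i}` to the `i`-th simple reflection. -/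
theorem result {F : Type*} [Field F]
    (p : Cfsg.Lie.ChevalleyDatum × (Σ n : ℕ, CoxeterMatrix (Fin n)))
    (hp : p ∈ [(Cfsg.Lie.chevG2, ⟨2, CoxeterMatrix.G₂⟩), (Cfsg.Lie.chevB2, ⟨2, CoxeterMatrix.B 2⟩), (Cfsg.Lie.chevD4, ⟨4, Cfsg.Lie.coxeterD4⟩), (Cfsg.Lie.chevF4, ⟨4, CoxeterMatrix.F₄⟩),
      (Cfsg.Lie.chevE6, ⟨6, CoxeterMatrix.E₆⟩), (Cfsg.Lie.chevE7, ⟨7, CoxeterMatrix.E₇⟩), (Cfsg.Lie.chevE8, ⟨8, CoxeterMatrix.E₈⟩)]) :
    ∃ φ : ↥(p.1.monomialSubgroup F) →* p.2.2.Group, Function.Surjective φ ∧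
      φ.ker = (p.1.diagonalSubgroup F).subgroupOf (p.1.monomialSubgroup F) ∧
      ∀ (i : Fin p.2.1) (g : ↥(p.1.monomialSubgroup F)),
        ((g : GL p.1.Idx F) : Matrix p.1.Idx p.1.Idx F) = p.1.nMat F (p.1.simple i) 1 → φ g = p.2.2.simple i := by
  simp only [List.mem_cons, List.mem_nil_iff, or_false] at hp
  rcases hp with rfl | rfl | rfl | rfl | rfl | rfl | rfl
  · exact aux Cfsg.Agent.H6.TG2.good Cfsg.Agent.H6.TG2.ext Cfsg.Agent.H22.equivG2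
  · exact aux Cfsg.Agent.H6.TB2.good Cfsg.Agent.H6.TB2.ext Cfsg.Agent.H22.equivB2
  · exact aux Cfsg.Agent.H6.TD4.good Cfsg.Agent.H6.TD4.ext Cfsg.Agent.H22.equivD4
  · exact aux Cfsg.Agent.H6.TF4.good Cfsg.Agent.H6.TF4.ext Cfsg.Agent.H22.equivF4
  · exact aux Cfsg.Agent.H6.TE6.good Cfsg.Agent.H6.TE6.ext Cfsg.Agent.H22.equivE6
  · exact aux Cfsg.Agent.H6.TE7.good Cfsg.Agent.H6.TE7.ext Cfsg.Agent.H22.equivE7
  · exact aux Cfsg.Agent.H6.TE8.good Cfsg.Agent.H6.TE8.ext Cfsg.Agent.H22.equivE8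

end Cfsg.Agent.S1039
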