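import Cfsg.Statements.S1044
import Cfsg.Agent.H6.ChevBN
import Cfsg.Agent.H6.ChevExtTab

set_option autoImplicit false
set_option linter.all false
open Cfsg

namespace Cfsg.Agent.S1044

open Cfsg.Agent.H6

/-- For a fundamental root `p` the set `B ∪ B n_p B` is (the carrier of) a subgroup of the general linear group. -/
theorem result {F : Type*} [Field F] (D : Cfsg.Lie.ChevalleyDatum) (hD : D ∈ [Cfsg.Lie.chevG2, Cfsg.Lie.chevB2, Cfsg.Lie.chevD4, Cfsg.Lie.chevF4, Cfsg.Lie.chevE6, Cfsg.Lie.chevE7, Cfsg.Lie.chevE8]) (i : ℕ) (hi : i < D.rank) (n : GL D.Idx F)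
    (hn : (n : Matrix D.Idx D.Idx F) = D.nMat F (D.simple i) 1) :
    ∃ P : Subgroup (GL D.Idx F), (P : Set (GL D.Idx F)) =
      (D.borelSubgroup F : Set (GL D.Idx F)) ∪ DoubleCoset.doubleCoset n (D.borelSubgroup F : Set (GL D.Idx F)) (D.borelSubgroup F) := by
  obtain ⟨N, η, rc, hG, hE⟩ := exists_ext hD
  rw [hG.eq_ngr_iff] at hn
  change n = ng D F i at hn
  subst hn
  have hsq : ng D F i * ng D F i ∈ D.borelSubgroup F := Subgroup.mem_sup_right (hG.ng_sq_mem hE ⟨i, hi⟩)
  have hnm : ng D F i ∈ D.monomialSubgroup F := hG.ng_mem_monomial hi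
  -- n b n in B ∪ B n B
  have key : ∀ b ∈ D.borelSubgroup F, ng D F i * b * ng D F i ∈ (D.borelSubgroup F : Set (GL D.Idx F)) ∪
      DoubleCoset.doubleCoset (ng D F i) (D.borelSubgroup F : Set (GL D.Idx F)) (D.borelSubgroup F) := by
    intro b hb
    rcases hG.bruhat_mul' hE ⟨i, hi⟩ hnm hb with ⟨b₁, h1, b₂, h2, h3⟩ | ⟨b₁, h1, b₂, h2, h3⟩
    · left
      change ng D F i * b * ng D F i = _ at h3
      rw [h3]
      exact mul_mem (mul_mem h1 hsq) h2
    · right
      rw [DoubleCoset.mem_doubleCoset]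
      exact ⟨b₁, h1, b₂, h2, h3⟩
  refine ⟨{ carrier := (D.borelSubgroup F : Set (GL D.Idx F)) ∪
      DoubleCoset.doubleCoset (ng D F i) (D.borelSubgroup F : Set (GL D.Idx F)) (D.borelSubgroup F)
            one_mem' := Or.inl (one_mem _)
            mul_mem' := ?_
            inv_mem' := ?_ }, rfl⟩
  · rintro a b (ha | ha) (hb | hb)
    · exact Or.inl (mul_mem ha hb)
    · right
      rw [DoubleCoset.mem_doubleCoset] at hb ⊢
      obtain ⟨x, hx, y, hy, rfl⟩ := hb
      exact ⟨a * x, mul_mem ha hx, y, hy, by group⟩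
    · right
      rw [DoubleCoset.mem_doubleCoset] at ha ⊢
      obtain ⟨x, hx, y, hy, rfl⟩ := ha
      exact ⟨x, hx, y * b, mul_mem hy hb, by group⟩
    · rw [DoubleCoset.mem_doubleCoset] at ha hb
      obtain ⟨x, hx, y, hy, rfl⟩ := ha
      obtain ⟨z, hz, w, hw, rfl⟩ := hb
      have e : x * ng D F i * y * (z * ng D F i * w) = x * (ng D F i * (y * z) * ng D F i) * w := by group
      rw [e]
      rcases key (y * z) (mul_mem hy hz) with h | h
      · left; exact mul_mem (mul_mem hx h) hw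
      · right
        rw [DoubleCoset.mem_doubleCoset] at h ⊢
        obtain ⟨u, hu, v, hv, h⟩ := h
        exact ⟨x * u, mul_mem hx hu, v * w, mul_mem hv hw, by rw [h]; group⟩
  · rintro a (ha | ha)
    · exact Or.inl (inv_mem ha)
    · right
      rw [DoubleCoset.mem_doubleCoset] at ha ⊢
      obtain ⟨x, hx, y, hy, rfl⟩ := ha
      refine ⟨y⁻¹ * (ng D F i * ng D F i)⁻¹, mul_mem (inv_mem hy) (inv_mem hsq), x⁻¹, inv_mem hx, by group⟩

end Cfsg.Agent.S1044
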