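import Cfsg.Statements.S1045
import Cfsg.Agent.H22.ChevPar

set_option autoImplicit false
set_option linter.all false
open Cfsg

namespace Cfsg.Agent.S1045

open Cfsg.Agent.H6 Cfsg.Agent.H22

/-- For a fundamental root `p`, the subgroup `U_p` generated by the `X_s`, `s` positive and `s ≠ p`, is normalised by `X_p` and `X_{-p}`, and `U = U_p ⊔ X_p`. -/
theorem result {F : Type*} [Field F] (D : Cfsg.Lie.ChevalleyDatum) (hD : D ∈ [Cfsg.Lie.chevG2, Cfsg.Lie.chevB2, Cfsg.Lie.chevD4, Cfsg.Lie.chevF4, Cfsg.Lie.chevE6, Cfsg.Lie.chevE7, Cfsg.Lie.chevE8]) (i : ℕ) (hi : i < D.rank) :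
    D.rootSubgroup F (D.simple i) ⊔ D.rootSubgroup F (D.neg (D.simple i)) ≤
        Subgroup.normalizer (Subgroup.closure {g : GL D.Idx F | ∃ (s : ℕ) (t : F), D.IsPosRoot s ∧ s ≠ D.simple i ∧
          (g : Matrix D.Idx D.Idx F) = D.x F s t} : Set (GL D.Idx F)) ∧
      Subgroup.closure {g : GL D.Idx F | ∃ (s : ℕ) (t : F), D.IsPosRoot s ∧ s ≠ D.simple i ∧
          (g : Matrix D.Idx D.Idx F) = D.x F s t} ⊔ D.rootSubgroup F (D.simple i) = D.posUnipotent F := by
  obtain ⟨N, η, rc, hG, hE⟩ := exists_ext hD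
  have hset : Subgroup.closure {g : GL D.Idx F | ∃ (s : ℕ) (t : F), D.IsPosRoot s ∧ s ≠ D.simple i ∧
          (g : Matrix D.Idx D.Idx F) = D.x F s t} = US (xg D F) (posS D N \ {D.simple i}) := by
    unfold US
    congr 1
    ext g
    simp only [Set.mem_ofPred_eq]
    constructor
    · rintro ⟨s, t, h1, h2, h3⟩
      rw [hG.eq_xg_iff] at h3
      rw [hG.isPos_iff] at h1
      exact ⟨s, ⟨h1, h2⟩, t, h3⟩
    · rintro ⟨s, ⟨h1, h2⟩, t, h3⟩
      exact ⟨s, t, by rw [hG.isPos_iff]; exact h1, h2, by rw [hG.eq_xg_iff]; exact h3⟩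
  rw [hset]
  have hlt : ∀ s ∈ posS D N \ {D.simple i}, s < D.nroots := fun s hs => hs.1.2
  have hsi := hG.simple_lt i hi
  have hsp := hG.simple_pos i hi
  have hx : ∀ t : F, xg D F (D.simple i) t ∈ Subgroup.normalizer (US (xg D F) (posS D N \ {D.simple i}) : Set (GL D.Idx F)) := by
    intro t
    apply xg_norm_US hG hE hlt hsi
    right
    intro s hs
    refine ⟨hs.2, hG.ne_neg_of_pos hsi hsp hs.1.1, fun c hc => ?_⟩
    have h1 := hG.commTerms_gt hsi hs.1.2 hsp hs.1.1 hc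
    refine ⟨⟨by omega, h1.2.2⟩, fun h => ?_⟩
    rw [Set.mem_singleton_iff] at h
    omega
  have hn : ng D F i ∈ Subgroup.normalizer (US (xg D F) (posS D N \ {D.simple i}) : Set (GL D.Idx F)) := by
    apply ng_norm_US hG hE hlt hi
    intro r hr
    refine ⟨⟨hG.w_pos i hi r hr.1.2 hr.1.1 hr.2, hG.w_lt i hi r hr.1.2⟩, fun h => ?_⟩
    rw [Set.mem_singleton_iff] at h
    have h1 := hG.w_w i hi r hr.1.2
    rw [h, hG.w_simple] at h1
    have h2 := hG.neg_lt_N hsi hsp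
    have h3 := hr.1.1
    omega
  refine ⟨sup_le ?_ ?_, ?_⟩
  · rw [hG.rootSubgroup_eq_US, US_le]
    intro r hr t
    rw [Set.mem_singleton_iff] at hr
    subst hr
    exact hx t
  · rw [hG.rootSubgroup_eq_US, US_le]
    intro r hr t
    rw [Set.mem_singleton_iff] at hr
    subst hr
    obtain ⟨u, hu⟩ := xg_w hG hE hi hsi t
    rw [hG.w_simple] at hu
    rw [hu]
    exact mul_mem (mul_mem hn (hx u)) (inv_mem hn)
  · rw [hG.rootSubgroup_eq_US, ← US_union, hG.posUnipotent_eq_US]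
    congr 1
    rw [Set.union_comm]
    exact (hG.posS_split ⟨i, hi⟩).symm

end Cfsg.Agent.S1045
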