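import Cfsg.Statements.S1047
import Cfsg.Agent.H22.ChevPar

set_option autoImplicit false
set_option linter.all false
open Cfsg

namespace Cfsg.Agent.S1047

open Cfsg.Agent.H6 Cfsg.Agent.H22

/-- `P_J = ⟨H, X_r : r ∈ Φ⁺ ∪ Φ_J⟩`. -/
theorem result {F : Type*} [Field F] (D : Cfsg.Lie.ChevalleyDatum) (hD : D ∈ [Cfsg.Lie.chevG2, Cfsg.Lie.chevB2, Cfsg.Lie.chevD4, Cfsg.Lie.chevF4, Cfsg.Lie.chevE6, Cfsg.Lie.chevE7, Cfsg.Lie.chevE8]) (J : Set ℕ) :
    D.parabolicSubgroup F J = D.diagonalSubgroup F ⊔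
      Subgroup.closure {g : GL D.Idx F | ∃ (r : ℕ) (t : F), (D.IsPosRoot r ∨ D.InRootSub J r) ∧ (g : Matrix D.Idx D.Idx F) = D.x F r t} := by
  obtain ⟨N, η, rc, hG, hE⟩ := exists_ext hD
  rw [parabolic_eq hG hE]
  unfold US
  congr 2
  ext g
  simp only [Set.mem_ofPred_eq]
  constructor
  · rintro ⟨r, h1, t, h2⟩
    refine ⟨r, t, ?_, by rw [hG.eq_xg_iff]; exact h2⟩
    rcases h1 with h1 | h1
    · left; rw [hG.isPos_iff]; exact h1
    · right; rw [inRootSub_iff hG hE]; exact h1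
  · rintro ⟨r, t, h1, h2⟩
    rw [hG.eq_xg_iff] at h2
    refine ⟨r, ?_, t, h2⟩
    rcases h1 with h1 | h1
    · left; rw [hG.isPos_iff] at h1; exact h1
    · right; rw [inRootSub_iff hG hE] at h1; exact h1

end Cfsg.Agent.S1047
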