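import Cfsg.Statements.S1049
import Cfsg.Agent.H22.ChevPar

set_option autoImplicit false
set_option linter.all false
open Cfsg

namespace Cfsg.Agent.S1049

open Cfsg.Agent.H6 Cfsg.Agent.H22

/-- `N_G(U_J) = P_J`: the normaliser of `U_J` inside the Chevalley group is the standard parabolic subgroup. -/
theorem result {F : Type*} [Field F] (D : Cfsg.Lie.ChevalleyDatum) (hD : D ∈ [Cfsg.Lie.chevG2, Cfsg.Lie.chevB2, Cfsg.Lie.chevD4, Cfsg.Lie.chevF4, Cfsg.Lie.chevE6, Cfsg.Lie.chevE7, Cfsg.Lie.chevE8]) (J : Set ℕ) (hJ : ∀ j ∈ J, j < D.rank) :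
    Subgroup.normalizer (D.unipotentRadical F J : Set (GL D.Idx F)) ⊓ D.group F = D.parabolicSubgroup F J := by
  obtain ⟨N, η, rc, hG, hE⟩ := exists_ext hD
  have hPG : D.parabolicSubgroup F J ≤ D.group F := by
    rw [parabolic_gen hG]
    refine sup_le hG.borel_le ?_
    rw [Subgroup.closure_le]
    rintro g ⟨j, _, _, rfl⟩
    exact hG.ng_mem_group j
  apply le_antisymm
  · set K := Subgroup.normalizer (D.unipotentRadical F J : Set (GL D.Idx F)) ⊓ D.group F with hK
    have hPK : D.parabolicSubgroup F J ≤ K := le_inf (parabolic_le_normalizer hG hE J) hPG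
    have hBP : D.borelSubgroup F ≤ D.parabolicSubgroup F J := by
      rw [parabolic_gen hG]; exact le_sup_left
    have hM : (hG.bnPair hE F).B ≤ K.subgroupOf (D.group F) := by
      intro x hx
      change (x : GL D.Idx F) ∈ K
      have hx' : (x : GL D.Idx F) ∈ D.borelSubgroup F := hx
      exact hPK (hBP hx')
    have h1 := BN.eq_parabolic (hG.bnPair hE F) (K.subgroupOf (D.group F)) hM
    have h2 : K.subgroupOf (D.group F) ≤ (D.parabolicSubgroup F J).subgroupOf (D.group F) := by
      rw [h1]
      refine sup_le ?_ ?_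
      · intro x hx
        change (x : GL D.Idx F) ∈ D.parabolicSubgroup F J
        have hx' : (x : GL D.Idx F) ∈ D.borelSubgroup F := hx
        exact hBP hx'
      · rw [Subgroup.closure_le]
        rintro ⟨n, hn⟩ ⟨⟨i, hi, h3⟩, h4⟩
        rw [hG.eq_ngr_iff] at h3
        change n = ng D F i at h3
        subst h3
        change ng D F i ∈ D.parabolicSubgroup F J
        have h5 : ng D F i ∈ K := h4
        by_cases hiJ : i ∈ J
        · rw [parabolic_gen hG]
          exact Subgroup.mem_sup_right (Subgroup.subset_closure ⟨i, hiJ, hi, rfl⟩)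
        · exfalso
          have hs : D.simple i ∈ posS D N \ Phi D rc J :=
            ⟨⟨hG.simple_pos i hi, hG.simple_lt i hi⟩, fun h => hiJ ((simple_mem_phi_iff hG hi).1 h)⟩
          have h6 : ng D F i ∈ Subgroup.normalizer (D.unipotentRadical F J : Set (GL D.Idx F)) := h5.1
          rw [radical_eq hG hE, Subgroup.mem_normalizer_iff] at h6
          obtain ⟨χ, hm⟩ := hG.mon_ng (F := F) hE ⟨i, hi⟩
          have h7 := (h6 _).1 (mem_US (X := xg D F) hs 1)
          have h8 := hm.act (hG.sr ⟨i, hi⟩) 1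
          rw [hG.s_sr] at h8
          change ng D F i * xg D F (D.simple i) 1 * (ng D F i)⁻¹ = xg D F (D.neg (D.simple i)) _ at h8
          rw [h8] at h7
          have h9 : xg D F (D.neg (D.simple i)) ((χ (hG.sr ⟨i, hi⟩) : F) * 1) ∈ D.posUnipotent F ⊓ D.negUnipotent F := by
            refine ⟨?_, hG.xg_mem_neg (hG.neg_lt_N (hG.simple_lt i hi) (hG.simple_pos i hi)) _⟩
            rw [SetLike.mem_coe, hG.posUnipotent_eq_US]
            exact US_mono Set.sdiff_subset h7
          rw [hG.pos_inf_neg hE, Subgroup.mem_bot] at h9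
          exact hG.xg_ne_one hE (hG.neg_lt' (hG.simple_lt i hi)) (by simp) h9
    intro x hx
    exact h2 (show (⟨x, hx.2⟩ : ↥(D.group F)) ∈ K.subgroupOf (D.group F) from hx)
  · exact le_inf (parabolic_le_normalizer hG hE J) hPG

end Cfsg.Agent.S1049
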