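import Cfsg.Statements.S1058
import Mathlib
import Cfsg.Agent.H5.ChB2f

set_option autoImplicit false
open Cfsg

namespace Cfsg.Agent.S1058

/-- B₂(2) ≅ S₆. -/
theorem result {F : Type*} [Field F] [Fintype F] (hF : Fintype.card F = 2) :
    Nonempty (↥(Cfsg.Lie.chevB2.group F) ≃* Equiv.Perm (Fin 6)) := by
  exact Cfsg.Agent.H5.b2_two hF

end Cfsg.Agent.S1058
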