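import Cfsg.Statements.S1062
import Cfsg.Agent.H6.ChevOrder
import Cfsg.Agent.H6.ChevSmith
import Cfsg.Agent.H6.ChevExtTab
import Cfsg.Agent.H6.NatAux
import Cfsg.Agent.H22.PoincF4

set_option autoImplicit false
open Cfsg

namespace Cfsg.Agent.S1062

/-- `|F₄(q)| = q²⁴ (q² - 1)(q⁶ - 1)(q⁸ - 1)(q¹² - 1)`. -/
theorem result {F : Type*} [Field F] [Fintype F] {q : ℕ} (hq : Fintype.card F = q) : Nat.card ↥(Cfsg.Lie.chevF4.group F) = q ^ 24 * (q ^ 2 - 1) * (q ^ 6 - 1) * (q ^ 8 - 1) * (q ^ 12 - 1) := by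
  have hq1 : 1 ≤ q := by rw [← hq]; exact Fintype.card_pos
  have h1 := Cfsg.Agent.H6.TF4.card_diagonal hq
  have h0 : (∏ i, Nat.gcd (q - 1) (Cfsg.Agent.H6.TF4.smd i)) = 1 := by
    simp [Fin.prod_univ_succ, Cfsg.Agent.H6.TF4.smd, Nat.gcd_comm, pow_two]
  rw [h0] at h1
  have h2 := Cfsg.Agent.H6.TF4.good.card_group_of Cfsg.Agent.H6.TF4.ext hq h1 (Cfsg.Agent.H22.PF4.poincare (q : ℤ))
  have h3 := Cfsg.Agent.H6.cast_pow_sub_one hq1
  zify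
  simp only [h3]
  push_cast at h2 ⊢
  linear_combination h2

end Cfsg.Agent.S1062
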