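import Cfsg.Statements.S1063
import Cfsg.Agent.H6.ChevOrder
import Cfsg.Agent.H6.ChevSmith
import Cfsg.Agent.H6.ChevExtTab
import Cfsg.Agent.H6.NatAux
import Cfsg.Agent.H22.PoincE6

set_option autoImplicit false
open Cfsg

namespace Cfsg.Agent.S1063

/-- `gcd(3, q-1) · |E₆(q)| = q³⁶ (q² - 1)(q⁵ - 1)(q⁶ - 1)(q⁸ - 1)(q⁹ - 1)(q¹² - 1)`. -/
theorem result {F : Type*} [Field F] [Fintype F] {q : ℕ} (hq : Fintype.card F = q) : Nat.gcd 3 (q - 1) * Nat.card ↥(Cfsg.Lie.chevE6.group F) = q ^ 36 * (q ^ 2 - 1) * (q ^ 5 - 1) * (q ^ 6 - 1) * (q ^ 8 - 1) * (q ^ 9 - 1) * (q ^ 12 - 1) := by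
  have hq1 : 1 ≤ q := by rw [← hq]; exact Fintype.card_pos
  have h1 := Cfsg.Agent.H6.TE6.card_diagonal hq
  have h0 : (∏ i, Nat.gcd (q - 1) (Cfsg.Agent.H6.TE6.smd i)) = Nat.gcd 3 (q - 1) := by
    simp [Fin.prod_univ_succ, Cfsg.Agent.H6.TE6.smd, Nat.gcd_comm, pow_two]
  rw [h0] at h1
  have h2 := Cfsg.Agent.H6.TE6.good.card_group_of Cfsg.Agent.H6.TE6.ext hq h1 (Cfsg.Agent.H22.PE6.poincare (q : ℤ))
  have h3 := Cfsg.Agent.H6.cast_pow_sub_one hq1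
  zify
  simp only [h3]
  push_cast at h2 ⊢
  linear_combination h2

end Cfsg.Agent.S1063
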