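import Cfsg.Statements.S1076
import Cfsg.Agent.H6.ChevTorus

set_option autoImplicit false
open Cfsg

namespace Cfsg.Agent.S1076

/-- `h_r(t₁) h_r(t₂) = h_r(t₁ t₂)` for non-zero `t₁, t₂` (the third family of defining relations), as a matrix identity. -/
theorem result {F : Type*} [Field F] (D : Cfsg.Lie.ChevalleyDatum) (hD : D ∈ [Cfsg.Lie.chevG2, Cfsg.Lie.chevB2, Cfsg.Lie.chevD4, Cfsg.Lie.chevF4, Cfsg.Lie.chevE6, Cfsg.Lie.chevE7, Cfsg.Lie.chevE8]) (r : ℕ) (hr : r < D.nroots) (t₁ t₂ : F) (h₁ : t₁ ≠ 0) (h₂ : t₂ ≠ 0) :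
    D.hMat F r t₁ * D.hMat F r t₂ = D.hMat F r (t₁ * t₂) := by
  obtain ⟨N, η, rc, hG⟩ := Cfsg.Agent.H6.exists_good hD
  have h1 := hG.hgr_mul (F := F) hr (Units.mk0 t₁ h₁) (Units.mk0 t₂ h₂)
  have h3 := congrArg (fun g : GL D.Idx F => (g : Matrix D.Idx D.Idx F)) h1
  simpa only [Units.val_mul, hG.coe_hgr, Units.val_mk0] using h3

end Cfsg.Agent.S1076
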