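import Cfsg.Statements.S1081
import Cfsg.Agent.H6.TwAut
import Cfsg.Agent.H6.TwTab
import Cfsg.Agent.H6.ChevExtTab

set_option autoImplicit false
open Cfsg

namespace Cfsg.Agent.S1081

open Cfsg.Lie Cfsg.Agent.H6 in
/-- from the twisting data to the automorphism in the form of the statement -/
theorem aux {D : ChevalleyDatum} {N : ℕ} {η : ℕ → ℕ → ℤ} {rc : ℕ → ℕ → ℤ} {F : Type*} [Field F] (hG : Good D N η rc) (hE : Ext D rc)
    {m : ℕ} {rho inv lam pi : ℕ → ℕ} {ep : ℕ → ℤ} (hT : Tw D N η m rho inv lam pi ep) (hm : (m : F) = 0)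
    (hadd : ∀ r < D.nroots, ∀ t u : F, (t + u) ^ (lam r * 1) = t ^ (lam r * 1) + u ^ (lam r * 1))
    (hsurj : ∀ r < D.nroots, Function.Surjective fun t : F => t ^ (lam r * 1)) :
    ∃ α : ↥(D.group F) ≃* ↥(D.group F), ∀ (g : ↥(D.group F)) (i : ℕ) (t : F), i < D.rank →
      (((g : GL D.Idx F) : Matrix D.Idx D.Idx F) = D.x F (D.simple i) t →
        ((α g : GL D.Idx F) : Matrix D.Idx D.Idx F) = D.x F (D.simple (pi i)) (t ^ lam (D.simple i))) ∧
      (((g : GL D.Idx F) : Matrix D.Idx D.Idx F) = D.x F (D.neg (D.simple i)) t →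
        ((α g : GL D.Idx F) : Matrix D.Idx D.Idx F) = D.x F (D.neg (D.simple (pi i))) (t ^ lam (D.simple i))) := by
  obtain ⟨σ, hS⟩ := hT.exists_endo hG hE hm hadd hsurj
  have hb := hS.bijective hT hE hm hadd hsurj
  have key : ∀ (g : ↥(D.group F)) (r : ℕ), r < D.nroots → ∀ t : F, ep r = 1 → ((g : GL D.Idx F) : Matrix D.Idx D.Idx F) = D.x F r t →
      ((σ g : GL D.Idx F) : Matrix D.Idx D.Idx F) = D.x F (rho r) (t ^ lam r) := by
    intro g r hr t hep h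
    rw [hG.eq_xg_iff] at h ⊢
    have h1 := hS.x r hr t
    have h2 : g = ⟨xg D F r t, hG.xg_mem_group r t⟩ := Subtype.ext h
    rw [h2]
    rw [sgf_of (hG.xg_mem_group r t)] at h1
    rw [h1]
    unfold tX
    rw [hep, Int.cast_one, one_mul, mul_one]
  refine ⟨MulEquiv.ofBijective σ hb, ?_⟩
  intro g i t hi
  have hs := hG.simple_lt i hi
  constructor
  · intro h
    have := key g _ hs t (hT.ep_simple i hi) h
    rw [hT.rho_simple i hi] at this
    exact this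
  · intro h
    have h1 : ep (D.neg (D.simple i)) = 1 := by rw [hT.ep_neg _ hs, hT.ep_simple i hi]
    have := key g _ (hG.neg_lt' hs) t h1 h
    rw [hT.rho_neg _ hs, hT.rho_simple i hi, hT.lam_neg _ hs] at this
    exact this

/-- Graph automorphisms: for E₆ with ρ = (p₁ p₆)(p₃ p₅) and for D₄ with ρ the 3-cycle on the outer nodes there is a group automorphism sending `x_p(t) ↦ x_{ρ(p)}(t)` and `x_{-p}(t) ↦ x_{-ρ(p)}(t)` for every fundamental root `p`. -/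
theorem result {F : Type*} [Field F] (p : Cfsg.Lie.ChevalleyDatum × List ℕ)
    (hp : p ∈ [(Cfsg.Lie.chevE6, [5, 1, 4, 3, 2, 0]), (Cfsg.Lie.chevD4, [2, 1, 3, 0]), (Cfsg.Lie.chevD4, [3, 1, 0, 2])]) :
    ∃ α : ↥(p.1.group F) ≃* ↥(p.1.group F), ∀ (g : ↥(p.1.group F)) (i : ℕ) (t : F), i < p.1.rank →
      (((g : GL p.1.Idx F) : Matrix p.1.Idx p.1.Idx F) = p.1.x F (p.1.simple i) t →
        ((α g : GL p.1.Idx F) : Matrix p.1.Idx p.1.Idx F) = p.1.x F (p.1.simple (p.2.getD i 0)) t) ∧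
      (((g : GL p.1.Idx F) : Matrix p.1.Idx p.1.Idx F) = p.1.x F (p.1.neg (p.1.simple i)) t →
        ((α g : GL p.1.Idx F) : Matrix p.1.Idx p.1.Idx F) = p.1.x F (p.1.neg (p.1.simple (p.2.getD i 0))) t) := by
  have hz : ((0 : ℕ) : F) = 0 := Nat.cast_zero
  simp only [List.mem_cons, List.mem_nil_iff, or_false] at hp
  rcases hp with rfl | rfl | rfl
  · obtain ⟨α, h⟩ := aux (F := F) Cfsg.Agent.H6.TE6.good Cfsg.Agent.H6.TE6.ext Cfsg.Agent.H6.WE6.tw hz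
      (fun r hr t u => by
        have : Cfsg.Agent.H6.lamF 0 Cfsg.Agent.H6.WE6.LT r = 1 := by simp [Cfsg.Agent.H6.lamF, Cfsg.Agent.H6.WE6.LT]
        rw [this]; simp)
      (fun r hr => by
        have : Cfsg.Agent.H6.lamF 0 Cfsg.Agent.H6.WE6.LT r = 1 := by simp [Cfsg.Agent.H6.lamF, Cfsg.Agent.H6.WE6.LT]
        rw [this]; intro t; exact ⟨t, by simp⟩)
    refine ⟨α, fun g i t hi => ?_⟩
    have h1 := h g i t hi
    have hlam : ∀ r, Cfsg.Agent.H6.lamF 0 Cfsg.Agent.H6.WE6.LT r = 1 := by intro r; simp [Cfsg.Agent.H6.lamF, Cfsg.Agent.H6.WE6.LT]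
    rw [hlam, pow_one] at h1
    have hi' : i < 6 := hi
    interval_cases i <;> exact h1
  · obtain ⟨α, h⟩ := aux (F := F) Cfsg.Agent.H6.TD4.good Cfsg.Agent.H6.TD4.ext Cfsg.Agent.H6.WD4a.tw hz
      (fun r hr t u => by
        have : Cfsg.Agent.H6.lamF 0 Cfsg.Agent.H6.WD4a.LT r = 1 := by simp [Cfsg.Agent.H6.lamF, Cfsg.Agent.H6.WD4a.LT]
        rw [this]; simp)
      (fun r hr => by
        have : Cfsg.Agent.H6.lamF 0 Cfsg.Agent.H6.WD4a.LT r = 1 := by simp [Cfsg.Agent.H6.lamF, Cfsg.Agent.H6.WD4a.LT]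
        rw [this]; intro t; exact ⟨t, by simp⟩)
    refine ⟨α, fun g i t hi => ?_⟩
    have h1 := h g i t hi
    have hlam : ∀ r, Cfsg.Agent.H6.lamF 0 Cfsg.Agent.H6.WD4a.LT r = 1 := by intro r; simp [Cfsg.Agent.H6.lamF, Cfsg.Agent.H6.WD4a.LT]
    rw [hlam, pow_one] at h1
    have hi' : i < 4 := hi
    interval_cases i <;> exact h1
  · obtain ⟨α, h⟩ := aux (F := F) Cfsg.Agent.H6.TD4.good Cfsg.Agent.H6.TD4.ext Cfsg.Agent.H6.WD4b.tw hz
      (fun r hr t u => by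
        have : Cfsg.Agent.H6.lamF 0 Cfsg.Agent.H6.WD4b.LT r = 1 := by simp [Cfsg.Agent.H6.lamF, Cfsg.Agent.H6.WD4b.LT]
        rw [this]; simp)
      (fun r hr => by
        have : Cfsg.Agent.H6.lamF 0 Cfsg.Agent.H6.WD4b.LT r = 1 := by simp [Cfsg.Agent.H6.lamF, Cfsg.Agent.H6.WD4b.LT]
        rw [this]; intro t; exact ⟨t, by simp⟩)
    refine ⟨α, fun g i t hi => ?_⟩
    have h1 := h g i t hi
    have hlam : ∀ r, Cfsg.Agent.H6.lamF 0 Cfsg.Agent.H6.WD4b.LT r = 1 := by intro r; simp [Cfsg.Agent.H6.lamF, Cfsg.Agent.H6.WD4b.LT]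
    rw [hlam, pow_one] at h1
    have hi' : i < 4 := hi
    interval_cases i <;> exact h1

end Cfsg.Agent.S1081
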