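import Cfsg.Statements.S1095
import Cfsg.Agent.H6.ChevRoots

set_option autoImplicit false
open Cfsg

namespace Cfsg.Agent.S1095

/-- `n_p` (p = p_{i+1} fundamental) is the signed monomial matrix `h_{p_j} ↦ h_{p_j} - A_{p_j,p} h_p`, `e_s ↦ η_s e_{w_p(s)}`, with `η_s = ±1`, `η_p = η_{-p} = -1`, `η_s η_{w_p(s)} = (-1)^{A_{p,s}}`, `η_s η_{-s} = 1`. -/
theorem result {F : Type*} [Field F] (D : Cfsg.Lie.ChevalleyDatum) (hD : D ∈ [Cfsg.Lie.chevG2, Cfsg.Lie.chevB2, Cfsg.Lie.chevD4, Cfsg.Lie.chevF4, Cfsg.Lie.chevE6, Cfsg.Lie.chevE7, Cfsg.Lie.chevE8]) (i : ℕ) (hi : i < D.rank) :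
    ∃ η : ℕ → ℤ, (∀ s < D.nroots, η s = 1 ∨ η s = -1) ∧ η (D.simple i) = -1 ∧ η (D.neg (D.simple i)) = -1 ∧
      (∀ s < D.nroots, η s * η (D.reflectRoot i s) = (-1) ^ (D.cartan i s).natAbs ∧ η s * η (D.neg s) = 1) ∧
      D.nMat F (D.simple i) 1 = Matrix.of (fun (row col : D.Idx) =>
        Sum.elim
          (fun j' : Fin D.rank => Sum.elim
            (fun j : Fin D.rank => (if j' = j then (1 : F) else 0) - (if (j' : ℕ) = i then ((D.cartan j (D.simple i) : ℤ) : F) else 0))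
            (fun _ => (0 : F)) col)
          (fun s' : Fin D.nroots => Sum.elim
            (fun _ => (0 : F))
            (fun s : Fin D.nroots => if (s' : ℕ) = D.reflectRoot i s then ((η s : ℤ) : F) else 0) col)
          row) := by
  obtain ⟨N, η, rc, hG⟩ := Cfsg.Agent.H6.exists_good hD
  refine ⟨η i, hG.eta i hi, hG.eta_simple i hi, ?_, ?_, ?_⟩
  · rw [hG.eta_neg i hi _ (hG.simple_lt i hi), hG.eta_simple i hi]
  · intro s hs
    refine ⟨hG.eta_w i hi s hs, ?_⟩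
    rw [hG.eta_neg i hi s hs]
    exact hG.eta_sq hi hs
  · apply Cfsg.Agent.H6.mat_ext
    · intro j hj
      rw [hG.nMat_bh hi hj]
      ext a
      rw [Cfsg.Agent.H6.bh_of_lt hj, Matrix.mulVec_single_one, Matrix.col_apply, Matrix.of_apply,
        ← Cfsg.Agent.H6.bh_of_lt (F := F) hj]
      rcases a with a | a
      · simp only [Pi.sub_apply, Pi.smul_apply, Cfsg.Agent.H6.bh_inl, Sum.elim_inl, smul_eq_mul, mul_ite, mul_one, mul_zero,
          Fin.ext_iff, eq_comm (a := j), eq_comm (a := i)]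
      · simp only [Pi.sub_apply, Pi.smul_apply, Cfsg.Agent.H6.bh_inr, Sum.elim_inr, Sum.elim_inl, smul_zero, sub_zero]
    · intro s hs
      rw [hG.nMat_be hi hs]
      ext a
      rw [Cfsg.Agent.H6.be_of_lt hs, Matrix.mulVec_single_one, Matrix.col_apply, Matrix.of_apply]
      rcases a with a | a
      · simp only [Pi.smul_apply, Cfsg.Agent.H6.be_inl, Sum.elim_inl, Sum.elim_inr, smul_zero]
      · simp only [Pi.smul_apply, Cfsg.Agent.H6.be_inr, Sum.elim_inr, smul_eq_mul, mul_ite, mul_one, mul_zero,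
          eq_comm (a := D.reflectRoot i s)]

end Cfsg.Agent.S1095
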