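import Cfsg.Statements.S1097
import Cfsg.Agent.H6.StD

set_option autoImplicit false
open Cfsg

namespace Cfsg.Agent.S1097

/-- Any homomorphism from the presented group to the Chevalley group with `x̄_r(t) ↦ x_r(t)` has kernel contained in `H̄ = ⟨h̄_p(t) : p fundamental, t ≠ 0⟩`. -/
theorem result {K : Type*} [Field K] (D : Cfsg.Lie.ChevalleyDatum) (hD : D ∈ [Cfsg.Lie.chevG2, Cfsg.Lie.chevB2, Cfsg.Lie.chevD4, Cfsg.Lie.chevF4, Cfsg.Lie.chevE6, Cfsg.Lie.chevE7, Cfsg.Lie.chevE8]) (θ : D.SteinbergGroup K →* ↥(D.group K))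
    (hθ : ∀ (r : ℕ) (t : K), r < D.nroots → ((θ (D.stGen K r t) : GL D.Idx K) : Matrix D.Idx D.Idx K) = D.x K r t) :
    θ.ker ≤ Subgroup.closure {h | ∃ (i : ℕ) (t : K), i < D.rank ∧ t ≠ 0 ∧ h = PresentedGroup.mk (D.steinbergRels K) (D.stH (D.simple i) t)} := by
  simp only [List.mem_cons, List.not_mem_nil, or_false] at hD
  rcases hD with rfl | rfl | rfl | rfl | rfl | rfl | rfl
  · exact Cfsg.Agent.H6.st_ker_le H6.TG2.good H6.TG2.ext H6.TG2.cw H6.TG2.pairs θ hθ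
  · exact Cfsg.Agent.H6.st_ker_le H6.TB2.good H6.TB2.ext H6.TB2.cw H6.TB2.pairs θ hθ
  · exact Cfsg.Agent.H6.st_ker_le H6.TD4.good H6.TD4.ext H6.TD4.cw H6.TD4.pairs θ hθ
  · exact Cfsg.Agent.H6.st_ker_le H6.TF4.good H6.TF4.ext H6.TF4.cw H6.TF4.pairs θ hθ
  · exact Cfsg.Agent.H6.st_ker_le H6.TE6.good H6.TE6.ext H6.TE6.cw H6.TE6.pairs θ hθ
  · exact Cfsg.Agent.H6.st_ker_le H6.TE7.good H6.TE7.ext H6.TE7.cw H6.TE7.pairs θ hθ
  · exact Cfsg.Agent.H6.st_ker_le H6.TE8.good H6.TE8.ext H6.TE8.cw H6.TE8.pairs θ hθ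

end Cfsg.Agent.S1097
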