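import Cfsg.Statements.S1098
import Cfsg.Agent.H6.TwAut
import Cfsg.Agent.H6.TwTab
import Cfsg.Agent.H6.ChevExtTab

set_option autoImplicit false
open Cfsg

namespace Cfsg.Agent.S1098

open Cfsg.Lie Cfsg.Agent.H6 in
/-- from the twisting data to the automorphism in the form of the statement -/
theorem aux {D : ChevalleyDatum} {N : ℕ} {η : ℕ → ℕ → ℤ} {rc : ℕ → ℕ → ℤ} {F : Type*} [Field F] (hG : Good D N η rc) (hE : Ext D rc)
    {m : ℕ} {rho inv lam pi : ℕ → ℕ} {ep : ℕ → ℤ} (hT : Tw D N η m rho inv lam pi ep) (hm : (m : F) = 0)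
    (hadd : ∀ r < D.nroots, ∀ t u : F, (t + u) ^ (lam r * 1) = t ^ (lam r * 1) + u ^ (lam r * 1))
    (hsurj : ∀ r < D.nroots, Function.Surjective fun t : F => t ^ (lam r * 1)) :
    ∃ α : ↥(D.group F) ≃* ↥(D.group F), ∀ (g : ↥(D.group F)) (i : ℕ) (t : F), i < D.rank →
      (((g : GL D.Idx F) : Matrix D.Idx D.Idx F) = D.x F (D.simple i) t →
        ((α g : GL D.Idx F) : Matrix D.Idx D.Idx F) = D.x F (D.simple (pi i)) (t ^ lam (D.simple i))) ∧
      (((g : GL D.Idx F) : Matrix D.Idx D.Idx F) = D.x F (D.neg (D.simple i)) t →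
        ((α g : GL D.Idx F) : Matrix D.Idx D.Idx F) = D.x F (D.neg (D.simple (pi i))) (t ^ lam (D.simple i))) := by
  obtain ⟨σ, hS⟩ := hT.exists_endo hG hE hm hadd hsurj
  have hb := hS.bijective hT hE hm hadd hsurj
  have key : ∀ (g : ↥(D.group F)) (r : ℕ), r < D.nroots → ∀ t : F, ep r = 1 → ((g : GL D.Idx F) : Matrix D.Idx D.Idx F) = D.x F r t →
      ((σ g : GL D.Idx F) : Matrix D.Idx D.Idx F) = D.x F (rho r) (t ^ lam r) := by
    intro g r hr t hep h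
    rw [hG.eq_xg_iff] at h ⊢
    have h1 := hS.x r hr t
    have h2 : g = ⟨xg D F r t, hG.xg_mem_group r t⟩ := Subtype.ext h
    rw [h2]
    rw [sgf_of (hG.xg_mem_group r t)] at h1
    rw [h1]
    unfold tX
    rw [hep, Int.cast_one, one_mul, mul_one]
  refine ⟨MulEquiv.ofBijective σ hb, ?_⟩
  intro g i t hi
  have hs := hG.simple_lt i hi
  constructor
  · intro h
    have := key g _ hs t (hT.ep_simple i hi) h
    rw [hT.rho_simple i hi] at this
    exact this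
  · intro h
    have h1 : ep (D.neg (D.simple i)) = 1 := by rw [hT.ep_neg _ hs, hT.ep_simple i hi]
    have := key g _ (hG.neg_lt' hs) t h1 h
    rw [hT.rho_neg _ hs, hT.rho_simple i hi, hT.lam_neg _ hs] at this
    exact this

open Cfsg.Agent.H6 in
theorem lam_or (m LT r : ℕ) : lamF m LT r = 1 ∨ lamF m LT r = m := by
  unfold lamF
  cases Nat.beq (Nat.land (Nat.shiftRight LT r) (nat_lit 1)) (nat_lit 0)
  · right; rfl
  · left; rfl

/-- Graph automorphisms in characteristic 2 (K perfect): for B₂ (a short, b long) `x_a(t) ↦ x_b(t²)`, `x_b(t) ↦ x_a(t)`, and for F₄ (p₁, p₂ short, p₃, p₄ long) `x_{p₁}(t) ↦ x_{p₄}(t²)`, `x_{p₂}(t) ↦ x_{p₃}(t²)`, `x_{p₃}(t) ↦ x_{p₂}(t)`, `x_{p₄}(t) ↦ x_{p₁}(t)`, likewise on the negatives, extend to an automorphism of the group. -/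
theorem result {K : Type*} [Field K] [CharP K 2] (hperf : ∀ x : K, ∃ y : K, y ^ 2 = x)
    (p : Cfsg.Lie.ChevalleyDatum × List (ℕ × ℕ))
    (hp : p ∈ [(Cfsg.Lie.chevB2, [(1, 2), (0, 1)]), (Cfsg.Lie.chevF4, [(3, 2), (2, 2), (1, 1), (0, 1)])]) :
    ∃ α : ↥(p.1.group K) ≃* ↥(p.1.group K), ∀ (g : ↥(p.1.group K)) (i : ℕ) (t : K), i < p.1.rank →
      (((g : GL p.1.Idx K) : Matrix p.1.Idx p.1.Idx K) = p.1.x K (p.1.simple i) t →
        ((α g : GL p.1.Idx K) : Matrix p.1.Idx p.1.Idx K) = p.1.x K (p.1.simple (p.2.getD i (0, 1)).1) (t ^ (p.2.getD i (0, 1)).2)) ∧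
      (((g : GL p.1.Idx K) : Matrix p.1.Idx p.1.Idx K) = p.1.x K (p.1.neg (p.1.simple i)) t →
        ((α g : GL p.1.Idx K) : Matrix p.1.Idx p.1.Idx K) = p.1.x K (p.1.neg (p.1.simple (p.2.getD i (0, 1)).1)) (t ^ (p.2.getD i (0, 1)).2)) := by
  have hz : ((2 : ℕ) : K) = 0 := CharP.cast_eq_zero K 2
  have hadd : ∀ (LT r : ℕ) (t u : K), (t + u) ^ (Cfsg.Agent.H6.lamF 2 LT r * 1) =
      t ^ (Cfsg.Agent.H6.lamF 2 LT r * 1) + u ^ (Cfsg.Agent.H6.lamF 2 LT r * 1) := by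
    intro LT r t u
    have : Fact (Nat.Prime 2) := ⟨Nat.prime_two⟩
    rcases lam_or 2 LT r with h | h <;> rw [h]
    · simp
    · rw [mul_one]; exact add_pow_char (p := 2) t u
  have hsurj : ∀ (LT r : ℕ), Function.Surjective fun t : K => t ^ (Cfsg.Agent.H6.lamF 2 LT r * 1) := by
    intro LT r x
    rcases lam_or 2 LT r with h | h <;> rw [h]
    · exact ⟨x, by simp⟩
    · obtain ⟨y, hy⟩ := hperf x
      exact ⟨y, by simpa using hy⟩
  simp only [List.mem_cons, List.mem_nil_iff, or_false] at hp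
  rcases hp with rfl | rfl
  · obtain ⟨α, h⟩ := aux (F := K) Cfsg.Agent.H6.TB2.good Cfsg.Agent.H6.TB2.ext Cfsg.Agent.H6.WB2.tw hz
      (fun r _ => hadd _ r) (fun r _ => hsurj _ r)
    refine ⟨α, fun g i t hi => ?_⟩
    have h1 := h g i t hi
    have hi' : i < 2 := hi
    interval_cases i <;> exact h1
  · obtain ⟨α, h⟩ := aux (F := K) Cfsg.Agent.H6.TF4.good Cfsg.Agent.H6.TF4.ext Cfsg.Agent.H6.WF4.tw hz
      (fun r _ => hadd _ r) (fun r _ => hsurj _ r)
    refine ⟨α, fun g i t hi => ?_⟩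
    have h1 := h g i t hi
    have hi' : i < 4 := hi
    interval_cases i <;> exact h1

end Cfsg.Agent.S1098
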