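import Cfsg.Statements.S1100
import Cfsg.Agent.H6.ChevBr

set_option autoImplicit false
open Cfsg

namespace Cfsg.Agent.S1100

/-- Canonical form `g = b n_w u` (`b ∈ B`, `u ∈ U_w⁻ = ⟨X_r : r > 0, n_w X_r n_w⁻¹ ≤ V⟩`): such a decomposition exists for every element of the group; the coset `n_w H` is determined by `g`; and for a fixed representative `n_w` the factors `b`, `u` are unique. -/
theorem result {F : Type*} [Field F] (D : Cfsg.Lie.ChevalleyDatum) (hD : D ∈ [Cfsg.Lie.chevG2, Cfsg.Lie.chevB2, Cfsg.Lie.chevD4, Cfsg.Lie.chevF4, Cfsg.Lie.chevE6, Cfsg.Lie.chevE7, Cfsg.Lie.chevE8]) :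
    (∀ g ∈ D.group F, ∃ b ∈ D.borelSubgroup F, ∃ n ∈ D.monomialSubgroup F,
      ∃ u ∈ Subgroup.closure {x : GL D.Idx F | ∃ (r : ℕ) (t : F), D.IsPosRoot r ∧
            (D.rootSubgroup F r).map (MulAut.conj n).toMonoidHom ≤ D.negUnipotent F ∧ (x : Matrix D.Idx D.Idx F) = D.x F r t},
        g = b * n * u) ∧
    (∀ (b b' n n' u u' : GL D.Idx F), b ∈ D.borelSubgroup F → b' ∈ D.borelSubgroup F →
      n ∈ D.monomialSubgroup F → n' ∈ D.monomialSubgroup F →
      u ∈ Subgroup.closure {x : GL D.Idx F | ∃ (r : ℕ) (t : F), D.IsPosRoot r ∧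
            (D.rootSubgroup F r).map (MulAut.conj n).toMonoidHom ≤ D.negUnipotent F ∧ (x : Matrix D.Idx D.Idx F) = D.x F r t} →
      u' ∈ Subgroup.closure {x : GL D.Idx F | ∃ (r : ℕ) (t : F), D.IsPosRoot r ∧
            (D.rootSubgroup F r).map (MulAut.conj n').toMonoidHom ≤ D.negUnipotent F ∧ (x : Matrix D.Idx D.Idx F) = D.x F r t} →
      b * n * u = b' * n' * u' → n⁻¹ * n' ∈ D.diagonalSubgroup F ∧ (n = n' → b = b' ∧ u = u')) := by
  obtain ⟨N, η, rc, hG, hE⟩ := Cfsg.Agent.H6.exists_ext hD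
  constructor
  · intro g hg
    obtain ⟨b, hb, n, hn, w, χ, hm, u, hu, he⟩ := hG.canon hE hg
    refine ⟨b, hb, n, hn, u, ?_, he⟩
    rw [hG.closure_eq_Um hE hm]
    exact hu
  · intro b b' n n' u u' hb hb' hn hn' hu hu' he
    obtain ⟨w, χ, hm⟩ := hG.exists_mon hE hn
    obtain ⟨w', χ', hm'⟩ := hG.exists_mon hE hn'
    rw [hG.closure_eq_Um hE hm] at hu
    rw [hG.closure_eq_Um hE hm'] at hu'
    have hUB : ∀ (w : hG.W) (v : GL D.Idx F), v ∈ Cfsg.Agent.H6.US (Cfsg.Agent.H6.xg D F) (hG.Um w) → v ∈ D.borelSubgroup F := by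
      intro w v hv
      apply Subgroup.mem_sup_left
      rw [hG.posUnipotent_eq_US]
      exact Cfsg.Agent.H6.US_mono (hG.Um_sub w) hv
    refine ⟨hG.bruhat_unique hE hb hn (hUB w u hu) hb' hn' (hUB w' u' hu') he, ?_⟩
    rintro rfl
    have h1 := hG.mon_unique hE hm hm'
    subst h1
    exact hG.canon_unique hE hb hb' hm hu hu' he

end Cfsg.Agent.S1100
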