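import Cfsg.Statements.S1118
import Cfsg.Agent.H9.RankOneC

set_option autoImplicit false
open Cfsg

namespace Cfsg.Agent.S1118

/-- In the rank-one set-up (`G` finite and doubly transitive on `Ω`, `t` an involution moving `a`, `Q` normal in `G_a` with `G_a = Q D`, `Q ⊓ D = 1` for the two-point stabiliser `D = G_a ⊓ G_{t • a}`, `|Q|` even, `|D|` odd), the normaliser of a subset of `Q` containing a non-identity element lies in `G_a`; consequently `N_G(Q) = N_G(G_a) = G_a`. -/
theorem result {G Ω : Type*} [Group G] [Finite G] [MulAction G Ω] {a : Ω} {t : G} {Q : Subgroup G}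
    (hS : Cfsg.IsRankOneSetup G Ω a t Q) :
    (∀ X : Set G, X ⊆ (Q : Set G) → (∃ x ∈ X, x ≠ 1) → Subgroup.normalizer X ≤ MulAction.stabilizer G a) ∧
      Subgroup.normalizer (Q : Set G) = MulAction.stabilizer G a ∧
      Subgroup.normalizer (MulAction.stabilizer G a : Set G) = MulAction.stabilizer G a := by
  have key : ∀ X : Set G, X ⊆ (Q : Set G) → (∃ x ∈ X, x ≠ 1) →
      Subgroup.normalizer X ≤ MulAction.stabilizer G a := by
    rintro X hX ⟨x, hx, hx1⟩ g hg
    have h1 : g * x * g⁻¹ ∈ X := (Subgroup.mem_set_normalizer_iff.mp hg x).mp hx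
    have h2 : g * x * g⁻¹ ∈ Q := hX h1
    by_contra hga
    have hga' : g⁻¹ • a ≠ a := by
      intro h
      apply hga
      have : g⁻¹ ∈ MulAction.stabilizer G a := h
      simpa using inv_mem this
    have h3 : x • (g⁻¹ • a) = g⁻¹ • a := by
      have h4 : (g * x * g⁻¹) • a = a := hS.le h2
      rw [mul_smul, mul_smul] at h4
      rw [eq_inv_smul_iff, h4]
    exact hx1 (H9.RankOne.Q_free hS (hX hx) hga' h3)
  have hQ1 : ∃ x ∈ (Q : Set G), x ≠ 1 := by
    obtain ⟨s, hsQ, hs1, hs⟩ := H9.RankOne.exists_inv_Q hS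
    exact ⟨s, hsQ, hs1⟩
  refine ⟨key, le_antisymm (key _ subset_rfl hQ1) ?_, le_antisymm ?_ Subgroup.le_normalizer⟩
  · intro h hh
    rw [Subgroup.mem_normalizer_iff]
    intro q
    constructor
    · exact fun hq => hS.conj_mem h hh q hq
    · intro hq
      have := hS.conj_mem h⁻¹ (inv_mem hh) _ hq
      simpa [mul_assoc] using this
  · intro g hg
    obtain ⟨s, hsQ, hs1, hs⟩ := H9.RankOne.exists_inv_Q hS
    have h1 : g⁻¹ * s * g ∈ MulAction.stabilizer G a := by
      have := (Subgroup.mem_normalizer_iff.mp (inv_mem hg) s).mp (hS.le hsQ)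
      simpa using this
    have h2 : s • (g • a) = g • a := by
      have h3 : (g⁻¹ * s * g) • a = a := h1
      rw [mul_smul, mul_smul, inv_smul_eq_iff] at h3
      exact h3
    exact H9.RankOne.inv_fix_unique hS hs1 hs h2 (hS.le hsQ)

end Cfsg.Agent.S1118
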