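import Cfsg.Statements.S1120
import Cfsg.Agent.H9.RankOneC

set_option autoImplicit false
open Cfsg

namespace Cfsg.Agent.S1120

open MulAction

/-- if an involution `s` normalises an odd order subgroup `H` and fixes the coset `z H`, then it
centralises an element of it -/
theorem exists_fixed_in_coset {G : Type*} [Group G] {H : Subgroup G} (hH : Odd (Nat.card H)) {s z : G}
    (hs : s * s = 1) (hz : z⁻¹ * (s * z * s) ∈ H) :
    ∃ h ∈ H, (z * h) * s = s * (z * h) := by
  have hs' : s⁻¹ = s := inv_eq_of_mul_eq_one_right hs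
  set h₁ := z⁻¹ * (s * z * s) with hh₁
  have e1 : s * h₁ * s = h₁⁻¹ := by
    rw [hh₁]; simp only [mul_inv_rev, hs']
    calc s * (z⁻¹ * (s * z * s)) * s = s * z⁻¹ * s * z * (s * s) := by group
      _ = s * (z⁻¹ * s) * z := by rw [hs]; group
      _ = s * (z⁻¹ * s) * z⁻¹⁻¹ := by group
  obtain ⟨k, hk⟩ := H9.RankOne.exists_sqrt (H9.RankOne.odd_orderOf_mem hH hz)
  refine ⟨h₁ ^ k, pow_mem hz k, ?_⟩
  set h := h₁ ^ k with hh
  have e2 : s * h * s = h⁻¹ := by
    have : s * h₁ ^ k * s⁻¹ = (h₁ ^ k)⁻¹ := by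
      rw [← conj_pow, hs', e1, inv_pow]
    rwa [hs'] at this
  have e3 : s * z * s = z * h₁ := by rw [hh₁]; group
  have e4 : s * (z * h) * s = z * h := by
    calc s * (z * h) * s = (s * z * (s * s)) * h * s := by rw [hs]; group
      _ = (s * z * s) * (s * h * s) := by group
      _ = z * h := by rw [e3, e2, ← hk, pow_two]; group
  calc z * h * s = (s * (z * h) * s) * s := by rw [e4]
    _ = s * (z * h) := by rw [mul_assoc _ s s, hs, mul_one]

open scoped Pointwise in
theorem mem_of_smul_eq {N : Type*} [Group N] {p : ℕ} [Fact p.Prime] (P : Sylow p N) (φ : MulAut N)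
    (h : φ • P = P) {x : N} (hx : x ∈ (P : Subgroup N)) : φ x ∈ (P : Subgroup N) := by
  have h2 : φ x ∈ φ • (P : Subgroup N) := Subgroup.smul_mem_pointwise_smul _ _ _ hx
  have h3 : φ • (P : Subgroup N) = (φ • P : Sylow p N) := rfl
  rwa [h3, h] at h2

/-- key step: a `p`-group `P` of odd order normalised by commuting involutions `s`, `s'` of which all the
fixed points (also of `s s'`) lie in `H`, where `H ≤ P` is normalised by `s`, `s'`, equals `H`. -/
theorem key {G : Type*} [Group G] [Finite G] {p : ℕ} [Fact p.Prime] {P H : Subgroup G} (hP : IsPGroup p P)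
    (hodd : Odd (Nat.card P)) (hHP : H ≤ P) {s s' : G} (hs : s * s = 1) (hs' : s' * s' = 1)
    (hss : s * s' = s' * s)
    (hPs : ∀ x ∈ P, s * x * s ∈ P) (hPs' : ∀ x ∈ P, s' * x * s' ∈ P)
    (hHs : ∀ x ∈ H, s * x * s ∈ H) (hHs' : ∀ x ∈ H, s' * x * s' ∈ H)
    (h1 : ∀ x ∈ P, x * s = s * x → x ∈ H) (h2 : ∀ x ∈ P, x * s' = s' * x → x ∈ H)
    (h3 : ∀ x ∈ P, x * (s * s') = (s * s') * x → x ∈ H) : P ≤ H := by
  by_contra hne
  have hHodd : Odd (Nat.card H) := hodd.of_dvd_nat (Subgroup.card_dvd_of_le hHP)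
  have cos : ∀ {v z : G}, v * v = 1 → z ∈ P → (∀ x ∈ P, v * x * v ∈ P) →
      (∀ x ∈ P, x * v = v * x → x ∈ H) → z⁻¹ * (v * z * v) ∈ H → z ∈ H := by
    intro v z hv hz hPv hC hzH
    obtain ⟨h, hh, hc⟩ := exists_fixed_in_coset hHodd hv hzH
    have := hC _ (mul_mem hz (hHP hh)) hc
    have h4 := mul_mem this (inv_mem hh)
    simpa using h4
  -- R = normaliser of H in P, R/H nontrivial p-group
  haveI hPn : Group.IsNilpotent P := hP.isNilpotent
  have hlt : H.subgroupOf P < ⊤ := by
    rw [lt_top_iff_ne_top]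
    intro h
    exact hne (Subgroup.subgroupOf_eq_top.mp h)
  set N := Subgroup.normalizer ((H.subgroupOf P : Subgroup P) : Set P) with hN
  have hNlt : H.subgroupOf P < N := Group.normalizerCondition_of_isNilpotent _ hlt
  haveI hnorm : ((H.subgroupOf P).subgroupOf N).Normal := Subgroup.normal_in_normalizer
  let B := N ⧸ ((H.subgroupOf P).subgroupOf N)
  haveI : Nontrivial B := by
    rw [← not_subsingleton_iff_nontrivial]
    intro hsub
    have : (H.subgroupOf P).subgroupOf N = ⊤ := QuotientGroup.subgroup_eq_top_of_subsingleton _ hsub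
    rw [Subgroup.subgroupOf_eq_top] at this
    exact absurd this (not_le_of_gt hNlt)
  have hBp : IsPGroup p B := (hP.to_subgroup N).to_quotient _
  haveI := hBp.center_nontrivial
  obtain ⟨⟨zb, hzb⟩, hzb1⟩ := exists_ne (1 : Subgroup.center B)
  obtain ⟨z, rfl⟩ := QuotientGroup.mk_surjective zb
  -- z : N
  have hzH : ((z : P) : G) ∉ H := by
    intro h
    apply hzb1
    apply Subtype.ext
    rw [Subgroup.coe_one, QuotientGroup.eq_one_iff]
    exact h
  -- the set Z of elements of P normalising H and central mod H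
  let Z : Set G := {x | x ∈ P ∧ (∀ h ∈ H, x * h * x⁻¹ ∈ H) ∧ (∀ h ∈ H, x⁻¹ * h * x ∈ H) ∧
    ∀ r ∈ P, (∀ h ∈ H, r * h * r⁻¹ ∈ H) → (∀ h ∈ H, r⁻¹ * h * r ∈ H) → x⁻¹ * r⁻¹ * x * r ∈ H}
  have memN : ∀ r : P, (∀ h ∈ H, (r : G) * h * (r : G)⁻¹ ∈ H) → (∀ h ∈ H, (r : G)⁻¹ * h * (r : G) ∈ H) → r ∈ N := by
    intro r hr1 hr2
    rw [hN, Subgroup.mem_normalizer_iff]
    rintro ⟨h, hhP⟩
    simp only [Subgroup.mem_subgroupOf]
    constructor
    · intro hh; exact hr1 h hh
    · intro hh
      have := hr2 _ hh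
      simpa [mul_assoc] using this
  have hzN1 : ∀ r ∈ N, ∀ h ∈ H, (r : G) * h * (r : G)⁻¹ ∈ H := by
    intro r hr h hh
    have := (Subgroup.mem_normalizer_iff.mp hr ⟨h, hHP hh⟩).mp hh
    exact this
  have hzZ : ((z : P) : G) ∈ Z := by
    refine ⟨(z : P).2, fun h hh => hzN1 z z.2 h hh, fun h hh => ?_, ?_⟩
    · have := hzN1 (z : P)⁻¹ (inv_mem z.2) h hh
      simpa using this
    · intro r hr hr1 hr2
      have hrN : (⟨r, hr⟩ : P) ∈ N := memN ⟨r, hr⟩ hr1 hr2
      have := (Subgroup.mem_center_iff.mp hzb) (QuotientGroup.mk ⟨⟨r, hr⟩, hrN⟩)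
      rw [← QuotientGroup.mk_mul, ← QuotientGroup.mk_mul, QuotientGroup.eq] at this
      have h4 : (r * (z : P))⁻¹ * ((z : P) * r) ∈ H := this
      simpa [mul_assoc] using h4
  -- Z is stable under the involutions
  have stab : ∀ {v : G}, v * v = 1 → (∀ x ∈ P, v * x * v ∈ P) → (∀ x ∈ H, v * x * v ∈ H) →
      ∀ x ∈ Z, v * x * v ∈ Z := by
    rintro v hv hPv hHv x ⟨hx1, hx2, hx3, hx4⟩
    have hv' : v⁻¹ = v := inv_eq_of_mul_eq_one_right hv
    have e0 : ∀ y : G, v * (v * y) = y := fun y => by rw [← mul_assoc, hv, one_mul]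
    refine ⟨hPv x hx1, ?_, ?_, ?_⟩
    · intro h hh
      have := hHv _ (hx2 _ (hHv h hh))
      simp only [mul_inv_rev, hv', mul_assoc] at this ⊢
      exact this
    · intro h hh
      have := hHv _ (hx3 _ (hHv h hh))
      simp only [mul_inv_rev, hv', mul_assoc] at this ⊢
      exact this
    · intro r hr hr1 hr2
      have h5 := hx4 (v * r * v) (hPv r hr) (fun h hh => by
          have := hHv _ (hr1 _ (hHv h hh))
          simp only [mul_inv_rev, hv', mul_assoc] at this ⊢
          exact this) (fun h hh => by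
          have := hHv _ (hr2 _ (hHv h hh))
          simp only [mul_inv_rev, hv', mul_assoc] at this ⊢
          exact this)
      have h6 := hHv _ h5
      simp only [mul_inv_rev, hv', mul_assoc, e0] at h6 ⊢
      rw [hv, mul_one] at h6
      exact h6
  have Zmul : ∀ {x y : G}, x ∈ Z → y ∈ Z → x * y ∈ Z := by
    rintro x y ⟨hx1, hx2, hx3, hx4⟩ ⟨hy1, hy2, hy3, hy4⟩
    refine ⟨mul_mem hx1 hy1, ?_, ?_, ?_⟩
    · intro h hh
      have := hx2 _ (hy2 h hh)
      simpa [mul_assoc] using this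
    · intro h hh
      have := hy3 _ (hx3 h hh)
      simpa [mul_assoc] using this
    · intro r hr hr1 hr2
      have h5 := hx4 r hr hr1 hr2
      have h6 := hy4 r hr hr1 hr2
      have e : (x * y)⁻¹ * r⁻¹ * (x * y) * r = (y⁻¹ * (x⁻¹ * r⁻¹ * x * r) * y) * (y⁻¹ * r⁻¹ * y * r) := by group
      rw [e]
      exact mul_mem (hy3 _ h5) h6
  -- inversion mod H
  have invH : ∀ {v : G}, v * v = 1 → (∀ x ∈ P, v * x * v ∈ P) → (∀ x ∈ H, v * x * v ∈ H) →
      (∀ x ∈ P, x * v = v * x → x ∈ H) → ∀ x ∈ Z, x * (v * x * v) ∈ H := by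
    intro v hv hPv hHv hC x hx
    have hy := stab hv hPv hHv x hx
    have hxy := Zmul hx hy
    refine cos hv hxy.1 hPv hC ?_
    have e : (x * (v * x * v))⁻¹ * (v * (x * (v * x * v)) * v) =
        (v * x * v)⁻¹ * x⁻¹ * (v * x * v) * x := by
      have : v * (x * (v * x * v)) * v = (v * x * v) * x := by
        calc v * (x * (v * x * v)) * v = (v * x * v) * x * (v * v) := by group
          _ = (v * x * v) * x := by rw [hv, mul_one]
      rw [this]; group
    rw [e]
    exact hy.2.2.2 x hx.1 hx.2.1 hx.2.2.1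
  have hvv : (s * s') * (s * s') = 1 := by
    calc (s * s') * (s * s') = s * (s' * s) * s' := by group
      _ = (s * s) * (s' * s') := by rw [← hss]; group
      _ = 1 := by rw [hs, hs', one_mul]
  have conj3 : ∀ x : G, (s * s') * x * (s * s') = s * (s' * x * s') * s := by
    intro x
    calc (s * s') * x * (s * s') = s * (s' * x * s') * (s * (s' * s')) * 1 := by
          rw [hs', mul_one, mul_one, hss]
          calc s' * s * x * (s' * s) = (s' * s) * x * s' * s := by group
            _ = (s * s') * x * s' * s := by rw [hss]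
            _ = s * (s' * x * s') * s := by group
      _ = s * (s' * x * s') * s := by rw [hs']; group
  set zz : G := ((z : P) : G) with hzz
  have i1 := invH hs hPs hHs h1 zz hzZ
  have i2 := invH hs' hPs' hHs' h2 (s * zz * s) (stab hs hPs hHs zz hzZ)
  have i3 := invH hvv (fun x hx => by rw [conj3]; exact hPs _ (hPs' x hx))
    (fun x hx => by rw [conj3]; exact hHs _ (hHs' x hx)) h3 zz hzZ
  -- zz * szzs ∈ H, szzs * s'(szzs)s' ∈ H, zz * (ss' zz ss') ∈ H
  have e5 : s' * (s * zz * s) * s' = (s * s') * zz * (s * s') := by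
    calc s' * (s * zz * s) * s' = (s' * s) * zz * (s * s') := by group
      _ = _ := by rw [← hss]
  rw [e5] at i2
  -- zz * y ∈ H, y * w ∈ H, zz * w ∈ H  → zz * zz ∈ H
  set y := s * zz * s with hy
  set w := (s * s') * zz * (s * s') with hw
  have j1 : zz * w ∈ H := i3
  have j2 : zz * zz ∈ H := by
    -- zz = (zz y) (y w)⁻¹ w y ... ; zz * zz = (zz * y) * (y⁻¹ * w⁻¹) * w * zz
    have k1 : (zz * y) * (y * w)⁻¹⁻¹⁻¹ = zz * y * w⁻¹ * y⁻¹ := by group
    have k2 : w * zz ∈ H := by
      have := hzZ.2.2.1 _ j1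
      simpa [mul_assoc] using this
    -- zz y w⁻¹ y⁻¹ ∈ H ; conj by y : y⁻¹ zz y w⁻¹ ∈ H
    have k3 : zz * y * w⁻¹ * y⁻¹ ∈ H := by
      rw [← k1, inv_inv]; exact mul_mem i1 (inv_mem i2)
    have hyZ := stab hs hPs hHs zz hzZ
    have k4 : y⁻¹ * (zz * y * w⁻¹ * y⁻¹) * y ∈ H := hyZ.2.2.1 _ k3
    have k5 : y⁻¹ * zz * y * zz⁻¹ * (zz * w⁻¹) ∈ H := by
      have : y⁻¹ * (zz * y * w⁻¹ * y⁻¹) * y = y⁻¹ * zz * y * zz⁻¹ * (zz * w⁻¹) := by group
      rw [← this]; exact k4
    have hz' : zz⁻¹ ∈ P := inv_mem hzZ.1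
    have k6 : y⁻¹ * zz * y * zz⁻¹ ∈ H := by
      have := hyZ.2.2.2 zz⁻¹ hz' (fun h hh => by simpa using hzZ.2.2.1 h hh) (fun h hh => by simpa using hzZ.2.1 h hh)
      rwa [inv_inv] at this
    have k7 : zz * w⁻¹ ∈ H := by
      have := mul_mem (inv_mem k6) k5
      simpa [mul_assoc] using this
    have := mul_mem k7 k2
    simpa [mul_assoc] using this
  -- odd order
  have hzodd : Odd (orderOf zz) := H9.RankOne.odd_orderOf_mem hodd hzZ.1
  obtain ⟨k, hk⟩ := H9.RankOne.exists_sqrt hzodd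
  apply hzH
  rw [← hk, ← pow_mul, mul_comm, pow_mul, pow_two]
  exact pow_mem j2 k

/-- In the rank-one set-up (`G` finite and doubly transitive on `Ω`, `t` an involution moving `a`, `Q` normal in `G_a` with `G_a = Q D`, `Q ⊓ D = 1` for the two-point stabiliser `D = G_a ⊓ G_{t • a}`, `|Q|` even, `|D|` odd), if `G` has 2-rank at least 2 then `O_{2'}(G)` equals the normal core of `G_a`. -/
theorem result {G Ω : Type*} [Group G] [Finite G] [MulAction G Ω] {a : Ω} {t : G} {Q : Subgroup G}
    (hS : Cfsg.IsRankOneSetup G Ω a t Q)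
    (h2 : ∃ x y : G, x ≠ 1 ∧ y ≠ 1 ∧ x ≠ y ∧ x * x = 1 ∧ y * y = 1 ∧ x * y = y * x) :
    Cfsg.pPrimeCore 2 G = (MulAction.stabilizer G a).normalCore := by
  haveI : Finite Ω := H9.RankOne.finite_Ω hS
  apply le_antisymm
  · refine sSup_le ?_
    rintro N ⟨hN, hcop⟩
    haveI := hN
    rw [Subgroup.normal_le_normalCore]
    have hodd : Odd (Nat.card N) := (Nat.coprime_two_right.mp hcop)
    -- commuting involutions in G_a
    obtain ⟨s, s', hs1, hs1', hne, hs, hs', hss, hsa, hsa'⟩ : ∃ s s' : G, s ≠ 1 ∧ s' ≠ 1 ∧ s ≠ s' ∧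
        s * s = 1 ∧ s' * s' = 1 ∧ s * s' = s' * s ∧ s • a = a ∧ s' • a = a := by
      obtain ⟨x, y, hx1, hy1, hxy, hx, hy, hc⟩ := h2
      obtain ⟨q, hq⟩ := H9.RankOne.exists_fix hS hx1 hx
      have hyq : y • q = q := by
        refine H9.RankOne.inv_fix_unique hS hx1 hx ?_ hq
        rw [← mul_smul, hc, mul_smul, hq]
      haveI := hS.two_transitive
      haveI : MulAction.IsPretransitive G Ω := MulAction.isPretransitive_of_is_two_pretransitive
      obtain ⟨g, hg⟩ := MulAction.exists_smul_eq G q a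
      have c1 : ∀ {z : G}, z ≠ 1 → g * z * g⁻¹ ≠ 1 := by
        intro z hz h; apply hz
        calc z = g⁻¹ * (g * z * g⁻¹) * g := by group
          _ = 1 := by rw [h]; group
      have c2 : ∀ {z : G}, z • q = q → (g * z * g⁻¹) • a = a := by
        intro z hz
        rw [mul_smul, mul_smul, ← hg, inv_smul_smul, hz]
      refine ⟨g * x * g⁻¹, g * y * g⁻¹, c1 hx1, c1 hy1, ?_, ?_, ?_, ?_, c2 hq, c2 hyq⟩
      · intro h; apply hxy
        exact mul_left_cancel (mul_right_cancel h)
      · calc g * x * g⁻¹ * (g * x * g⁻¹) = g * (x * x) * g⁻¹ := by group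
          _ = 1 := by rw [hx]; group
      · calc g * y * g⁻¹ * (g * y * g⁻¹) = g * (y * y) * g⁻¹ := by group
          _ = 1 := by rw [hy]; group
      · calc g * x * g⁻¹ * (g * y * g⁻¹) = g * (x * y) * g⁻¹ := by group
          _ = g * y * g⁻¹ * (g * x * g⁻¹) := by rw [hc]; group
    have hss1 : s * s' ≠ 1 := by
      intro h; apply hne
      calc s = s * (s' * s') := by rw [hs', mul_one]
        _ = s' := by rw [← mul_assoc, h, one_mul]
    have hvv : (s * s') * (s * s') = 1 := by
      calc (s * s') * (s * s') = s * (s' * s) * s' := by group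
        _ = (s * s) * (s' * s') := by rw [← hss]; group
        _ = 1 := by rw [hs, hs', one_mul]
    have cfix : ∀ {v : G}, v ≠ 1 → v * v = 1 → v • a = a → ∀ x : G, x * v = v * x → x • a = a := by
      intro v hv1 hv hva x hx
      refine H9.RankOne.inv_fix_unique hS hv1 hv ?_ hva
      rw [← mul_smul, ← hx, mul_smul, hva]
    -- the four-group
    set V : Subgroup G := Subgroup.zpowers s ⊔ Subgroup.zpowers s' with hV
    have hVp : IsPGroup 2 V := by
      have h1 : ∀ {z : G}, z * z = 1 → IsPGroup 2 (Subgroup.zpowers z) := by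
        intro z hz
        rw [IsPGroup.iff_card]
        rw [Nat.card_zpowers]
        have : orderOf z ∣ 2 := orderOf_dvd_of_pow_eq_one (by rw [pow_two, hz])
        exact ((Nat.dvd_prime_pow Nat.prime_two).mp (by simpa using this : orderOf z ∣ 2 ^ 1)).imp (fun k hk => hk.2)
      refine IsPGroup.to_sup_of_normal_right' (h1 hs) (h1 hs') ?_
      rw [Subgroup.zpowers_le, Subgroup.mem_normalizer_iff]
      intro x
      have : ∀ x ∈ Subgroup.zpowers s', s * x * s⁻¹ = x := by
        rintro _ ⟨k, rfl⟩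
        have : Commute s (s' ^ k) := Commute.zpow_right hss k
        change s * s' ^ k * s⁻¹ = s' ^ k
        rw [this.eq]; group
      constructor
      · intro hx; rw [this x hx]; exact hx
      · intro hx
        have h5 := this _ hx
        have : s * x * s⁻¹ = x := by
          have h6 : s * x * s⁻¹ = s⁻¹ * (s * (s * x * s⁻¹) * s⁻¹) * s := by group
          rw [h5] at h6
          calc s * x * s⁻¹ = s⁻¹ * (s * x * s⁻¹) * s := h6
            _ = x := by group
        rw [← this]; exact hx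
    have hsV : s ∈ V := Subgroup.mem_sup_left (Subgroup.mem_zpowers s)
    have hsV' : s' ∈ V := Subgroup.mem_sup_right (Subgroup.mem_zpowers s')
    have hmain : ∀ p : ℕ, p.Prime → (Nat.card N).factorization p ≤
        (Nat.card ↥(N ⊓ MulAction.stabilizer G a)).factorization p := by
      intro p hp
      haveI := Fact.mk hp
      letI act : MulAction V (Sylow p N) :=
        MulAction.compHom (Sylow p N) ((MulAut.conjNormal (H := N)).comp V.subtype)
      have hns : ¬ 2 ∣ Nat.card (Sylow p N) := by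
        rw [← even_iff_two_dvd, Nat.not_even_iff_odd]
        obtain ⟨P0⟩ : Nonempty (Sylow p N) := inferInstance
        refine hodd.of_dvd_nat ?_
        rw [Sylow.card_eq_index_normalizer P0]
        exact Subgroup.index_dvd_card _
      obtain ⟨P, hPfix⟩ := hVp.nonempty_fixed_point_of_prime_not_dvd_card (Sylow p N) hns
      set P' : Subgroup G := (P : Subgroup N).map N.subtype with hP'
      have hP'p : IsPGroup p P' := P.isPGroup'.map _
      have hP'N : P' ≤ N := Subgroup.map_subtype_le _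
      have hP'odd : Odd (Nat.card P') := hodd.of_dvd_nat (Subgroup.card_dvd_of_le hP'N)
      have hP'V : ∀ v ∈ V, ∀ x ∈ P', v * x * v⁻¹ ∈ P' := by
        rintro v hv _ ⟨x, hx, rfl⟩
        have h1 : (MulAut.conjNormal (H := N) v) • P = P := hPfix ⟨v, hv⟩
        have h2 := mem_of_smul_eq P _ h1 hx
        exact ⟨_, h2, by simp⟩
      have hP's : ∀ {v : G}, v ∈ V → v * v = 1 → ∀ x ∈ P', v * x * v ∈ P' := by
        intro v hv hvv x hx
        have := hP'V v hv x hx
        rwa [inv_eq_of_mul_eq_one_right hvv] at this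
      have hle : P' ≤ P' ⊓ MulAction.stabilizer G a := by
        have hGa : ∀ {v : G}, v • a = a → v ∈ MulAction.stabilizer G a := fun h => h
        refine key hP'p hP'odd inf_le_left hs hs' hss (hP's hsV hs) (hP's hsV' hs') ?_ ?_ ?_ ?_ ?_
        · rintro x ⟨hx1, hx2⟩
          exact Subgroup.mem_inf.mpr ⟨hP's hsV hs x hx1, mul_mem (mul_mem (hGa hsa) hx2) (hGa hsa)⟩
        · rintro x ⟨hx1, hx2⟩
          exact Subgroup.mem_inf.mpr ⟨hP's hsV' hs' x hx1, mul_mem (mul_mem (hGa hsa') hx2) (hGa hsa')⟩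
        · intro x hx hc
          exact Subgroup.mem_inf.mpr ⟨hx, cfix hs1 hs hsa x hc⟩
        · intro x hx hc
          exact Subgroup.mem_inf.mpr ⟨hx, cfix hs1' hs' hsa' x hc⟩
        · intro x hx hc
          exact Subgroup.mem_inf.mpr ⟨hx, cfix hss1 hvv (by rw [mul_smul, hsa', hsa]) x hc⟩
      have hcard : Nat.card P' = p ^ (Nat.card N).factorization p := by
        rw [hP', Nat.card_congr ((P : Subgroup N).equivMapOfInjective _ N.subtype_injective).toEquiv.symm]
        exact P.card_eq_multiplicity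
      have hdvd : p ^ (Nat.card N).factorization p ∣ Nat.card ↥(N ⊓ MulAction.stabilizer G a) := by
        rw [← hcard]
        exact Subgroup.card_dvd_of_le (hle.trans (inf_le_inf_right _ hP'N))
      exact (hp.pow_dvd_iff_le_factorization Nat.card_pos.ne').mp hdvd
    have hdvd : Nat.card N ∣ Nat.card ↥(N ⊓ MulAction.stabilizer G a) :=
      (Nat.factorization_prime_le_iff_dvd Nat.card_pos.ne' Nat.card_pos.ne').mp hmain
    have heq : N ⊓ MulAction.stabilizer G a = N :=
      Subgroup.eq_of_le_of_card_ge inf_le_left (Nat.le_of_dvd Nat.card_pos hdvd)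
    rw [← heq]; exact inf_le_right
  · refine le_sSup ⟨inferInstance, ?_⟩
    have hle : (MulAction.stabilizer G a).normalCore ≤ H9.RankOne.D G a t := by
      intro g hg
      refine (H9.RankOne.mem_D hS).mpr ⟨(Subgroup.normalCore_le _) hg, ?_⟩
      have h1 : t⁻¹ * g * t ∈ (MulAction.stabilizer G a).normalCore := by
        have := (inferInstance : ((MulAction.stabilizer G a).normalCore).Normal).conj_mem g hg t⁻¹
        simpa using this
      have h3 : (t⁻¹ * g * t) • a = a := (Subgroup.normalCore_le _) h1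
      rw [mul_smul, mul_smul, inv_smul_eq_iff] at h3
      exact h3
    have := hS.odd_card.of_dvd_nat (Subgroup.card_dvd_of_le hle)
    exact Nat.coprime_two_right.mpr this

end Cfsg.Agent.S1120
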