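import Cfsg.Statements.S1124
import Cfsg.Agent.H9.RankOneC

set_option autoImplicit false
open scoped Pointwise
open Cfsg

namespace Cfsg.Agent.S1124

/-- Let `t` be an element of order 2 of a finite group normalising a subgroup `X` of odd order, `Y = C_X(t)` and `Z` the set of elements of `X` inverted by `t`. Then `(y, z) ↦ y z` is a bijection `Y × Z → X`, so `|X| = |Y| |Z|`, and the subgroup generated by `Z` is normal in `X`. -/
theorem result {M : Type*} [Group M] [Finite M]
    (t : M) (ht : orderOf t = 2) (X : Subgroup M) (hodd : Odd (Nat.card X))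
    (hnorm : ∀ x ∈ X, t * x * t⁻¹ ∈ X) :
    (∀ x ∈ X, ∃! p : M × M, p.1 ∈ X ⊓ Subgroup.centralizer {t} ∧ p.2 ∈ Cfsg.invertedBy X t ∧ x = p.1 * p.2) ∧
      Nat.card X = Nat.card ↥(X ⊓ Subgroup.centralizer {t}) * Nat.card (Cfsg.invertedBy X t) ∧
      ∀ x ∈ X, MulAut.conj x • Subgroup.closure (Cfsg.invertedBy X t) = Subgroup.closure (Cfsg.invertedBy X t) := by
  have ht' : t * t = 1 := by
    have := pow_orderOf_eq_one t
    rwa [ht, pow_two] at this
  refine ⟨?_, H9.RankOne.odd_fact_card ht' hodd hnorm, ?_⟩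
  · intro x hx
    obtain ⟨y, hy, hyt, z, hz, hxyz⟩ := H9.RankOne.odd_fact_exists ht' hodd hnorm hx
    refine ⟨(y, z), ⟨Subgroup.mem_inf.mpr ⟨hy, Subgroup.mem_centralizer_singleton_iff.mpr hyt⟩, hz, hxyz⟩, ?_⟩
    rintro ⟨y', z'⟩ ⟨hy', hz', h'⟩
    simp only at hy' hz' h'
    have hyt' := Subgroup.mem_centralizer_singleton_iff.mp hy'.2
    obtain ⟨h1, h2⟩ := H9.RankOne.odd_fact_unique ht' hodd hnorm hyt' hyt hz' hz (h'.symm.trans hxyz)
    exact Prod.ext h1 h2
  · intro x hx
    have key : ∀ x ∈ X, MulAut.conj x • Subgroup.closure (Cfsg.invertedBy X t) ≤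
        Subgroup.closure (Cfsg.invertedBy X t) := by
      intro x hx
      obtain ⟨y, hy, hyt, z, hz, rfl⟩ := H9.RankOne.odd_fact_exists ht' hodd hnorm hx
      rw [Subgroup.pointwise_smul_def]
      intro w hw
      obtain ⟨w', hw', rfl⟩ := hw
      have h1 : z * w' * z⁻¹ ∈ Subgroup.closure (Cfsg.invertedBy X t) :=
        mul_mem (mul_mem (Subgroup.subset_closure hz) hw') (inv_mem (Subgroup.subset_closure hz))
      have h2 : ∀ u ∈ Subgroup.closure (Cfsg.invertedBy X t), y * u * y⁻¹ ∈ Subgroup.closure (Cfsg.invertedBy X t) := by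
        intro u hu
        induction hu using Subgroup.closure_induction with
        | mem u hu =>
          refine Subgroup.subset_closure ⟨mul_mem (mul_mem hy hu.1) (inv_mem hy), ?_⟩
          have e1 : t * y * t⁻¹ = y := by rw [← hyt]; group
          calc t * (y * u * y⁻¹) * t⁻¹ = (t * y * t⁻¹) * (t * u * t⁻¹) * (t * y * t⁻¹)⁻¹ := by group
            _ = (y * u * y⁻¹)⁻¹ := by rw [e1, hu.2]; group
        | one => simp
        | mul u v _ _ h1 h2 =>
          have : y * (u * v) * y⁻¹ = (y * u * y⁻¹) * (y * v * y⁻¹) := by group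
          rw [this]; exact mul_mem h1 h2
        | inv u _ h1 =>
          have : y * u⁻¹ * y⁻¹ = (y * u * y⁻¹)⁻¹ := by group
          rw [this]; exact inv_mem h1
      have h3 := h2 _ h1
      change MulAut.conj (y * z) w' ∈ _
      rw [MulAut.conj_apply]
      have : y * z * w' * (y * z)⁻¹ = y * (z * w' * z⁻¹) * y⁻¹ := by group
      rw [this]; exact h3
    refine le_antisymm (key x hx) ?_
    have h1 := key x⁻¹ (inv_mem hx)
    rw [map_inv, Subgroup.pointwise_smul_subset_iff, inv_inv] at h1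
    exact h1

end Cfsg.Agent.S1124
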