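import Cfsg.Statements.S1125
import Cfsg.Agent.H9.RankOneC

set_option autoImplicit false
open Cfsg

namespace Cfsg.Agent.S1125

/-- In the rank-one set-up (`G` finite and doubly transitive on `Ω`, `t` an involution moving `a`, `Q` normal in `G_a` with `G_a = Q D`, `Q ⊓ D = 1` for the two-point stabiliser `D = G_a ⊓ G_{t • a}`, `|Q|` even, `|D|` odd), let `X ⊆ D` fix at least three points of `Ω`. Then `C_G(X)` is doubly transitive on the fixed-point set of `X`, `|C_Q(X)|` is even, and `C_{G_a}(X) = C_Q(X) C_D(X)`. -/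
theorem result {G Ω : Type*} [Group G] [Finite G] [MulAction G Ω] {a : Ω} {t : G} {Q : Subgroup G}
    (hS : Cfsg.IsRankOneSetup G Ω a t Q)
    (X : Set G) (hX : X ⊆ ((MulAction.stabilizer G a ⊓ MulAction.stabilizer G (t • a)) : Set G))
    (h3 : ∃ b c d : Ω, b ≠ c ∧ b ≠ d ∧ c ≠ d ∧ ∀ x ∈ X, x • b = b ∧ x • c = c ∧ x • d = d) :
    (∀ b₁ b₂ c₁ c₂ : Ω, (∀ x ∈ X, x • b₁ = b₁ ∧ x • b₂ = b₂ ∧ x • c₁ = c₁ ∧ x • c₂ = c₂) →
        b₁ ≠ b₂ → c₁ ≠ c₂ → ∃ g ∈ Subgroup.centralizer X, g • b₁ = c₁ ∧ g • b₂ = c₂) ∧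
      Even (Nat.card ↥(Subgroup.centralizer X ⊓ Q)) ∧
      (Subgroup.centralizer X ⊓ Q) ⊔ (Subgroup.centralizer X ⊓ (MulAction.stabilizer G a ⊓ MulAction.stabilizer G (t • a))) = Subgroup.centralizer X ⊓ MulAction.stabilizer G a := by
  refine ⟨fun b₁ b₂ c₁ c₂ h hb hc => H9.RankOne.CX_two_trans hS hX h3 h hb hc, ?_, ?_⟩
  · obtain ⟨u, hu, hu1, hu2⟩ := H9.RankOne.CQ_even hS hX h3
    have h1 : orderOf (⟨u, hu⟩ : ↥(Subgroup.centralizer X ⊓ Q)) = 2 := by
      refine orderOf_eq_prime ?_ ?_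
      · apply Subtype.ext; rw [pow_two]; exact hu2
      · intro h; exact hu1 (congrArg Subtype.val h)
    rw [even_iff_two_dvd, ← h1]
    exact orderOf_dvd_natCard _
  · apply le_antisymm
    · refine sup_le (inf_le_inf_left _ hS.le) (inf_le_inf_left _ inf_le_left)
    · rintro g ⟨hgX, hga⟩
      have hXta : ∀ x ∈ X, x • (t • a) = t • a := fun x hx => (hX hx).2
      have hga' : g • a = a := hga
      have hXg : ∀ x ∈ X, x • (g • (t • a)) = g • (t • a) := by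
        intro x hx
        have := (Subgroup.mem_centralizer_iff.mp hgX) x hx
        rw [← mul_smul, this, mul_smul, hXta x hx]
      obtain ⟨x, hxX, hxQ, hxt⟩ := H9.RankOne.CQ_trans hS hX (H9.RankOne.ta_ne hS)
        (H9.RankOne.smul_ne_a hS hga (H9.RankOne.ta_ne hS)) hXta hXg
      have h1 : g = x * (x⁻¹ * g) := by group
      rw [h1]
      refine Subgroup.mul_mem_sup ⟨hxX, hxQ⟩ ?_
      refine Subgroup.mem_inf.mpr ⟨mul_mem (inv_mem hxX) hgX, Subgroup.mem_inf.mpr ⟨?_, ?_⟩⟩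
      · exact mul_mem (inv_mem (hS.le hxQ)) hga
      · change (x⁻¹ * g) • (t • a) = t • a
        rw [mul_smul, ← hxt, inv_smul_smul]

end Cfsg.Agent.S1125
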