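import Cfsg.Statements.S1127
import Cfsg.Agent.H9.RankOneC

set_option autoImplicit false
open Cfsg

namespace Cfsg.Agent.S1127

/-- In the rank-one set-up (`G` finite and doubly transitive on `Ω`, `t` an involution moving `a`, `Q` normal in `G_a` with `G_a = Q D`, `Q ⊓ D = 1` for the two-point stabiliser `D = G_a ⊓ G_{t • a}`, `|Q|` even, `|D|` odd): if `s` is an involution of `G_a` and `r ∈ Q` satisfy `t s t = r⁻¹ t r`, then `C_D(t) = C_D(s)`; moreover `C_D(t) ⊓ C_D(K) = C_D(I ∩ G_a)`, where `K` is the set of elements of `D` inverted by `t` and `I ∩ G_a` the set of involutions of `G_a`. -/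
theorem result {G Ω : Type*} [Group G] [Finite G] [MulAction G Ω] {a : Ω} {t : G} {Q : Subgroup G}
    (hS : Cfsg.IsRankOneSetup G Ω a t Q) :
    (∀ s r : G, s ∈ Cfsg.involutionsIn (MulAction.stabilizer G a : Set G) → r ∈ Q → t * s * t = r⁻¹ * t * r →
        (MulAction.stabilizer G a ⊓ MulAction.stabilizer G (t • a)) ⊓ Subgroup.centralizer {t} = (MulAction.stabilizer G a ⊓ MulAction.stabilizer G (t • a)) ⊓ Subgroup.centralizer {s}) ∧
      (MulAction.stabilizer G a ⊓ MulAction.stabilizer G (t • a)) ⊓ Subgroup.centralizer {t} ⊓ Subgroup.centralizer (Cfsg.invertedBy (MulAction.stabilizer G a ⊓ MulAction.stabilizer G (t • a)) t) =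
        (MulAction.stabilizer G a ⊓ MulAction.stabilizer G (t • a)) ⊓ Subgroup.centralizer (Cfsg.involutionsIn (MulAction.stabilizer G a : Set G)) := by
  refine ⟨fun s r hs hr h => H9.RankOne.centralizer_distinguished hS hs hr h, ?_⟩
  obtain ⟨⟨s₀, r₀⟩, ⟨hs₀, hr₀, h₀⟩, -⟩ := H9.RankOne.structure_equation hS
  simp only at hs₀ hr₀ h₀
  have hC := H9.RankOne.centralizer_distinguished hS hs₀ hr₀ h₀
  apply le_antisymm
  · rintro d ⟨⟨hd, hdt⟩, hdK⟩
    refine Subgroup.mem_inf.mpr ⟨hd, ?_⟩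
    rw [Subgroup.mem_centralizer_iff]
    intro s hs
    obtain ⟨y, hy, rfl⟩ := H9.RankOne.conj_distinguished hS hs₀ hr₀ h₀ hs
    have h1 : d * s₀ = s₀ * d := by
      have : d ∈ H9.RankOne.D G a t ⊓ Subgroup.centralizer {s₀} := by
        rw [← hC]; exact ⟨hd, hdt⟩
      exact Subgroup.mem_centralizer_singleton_iff.mp this.2
    have h2 : y * d = d * y := (Subgroup.mem_centralizer_iff.mp hdK) y hy
    have h3 : y⁻¹ * d = d * y⁻¹ := (Subgroup.mem_centralizer_iff.mp hdK) y⁻¹ (H9.RankOne.inv_mem_invertedBy hy)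
    calc y * s₀ * y⁻¹ * d = y * s₀ * (y⁻¹ * d) := by group
      _ = y * (s₀ * d) * y⁻¹ := by rw [h3]; group
      _ = (y * d) * s₀ * y⁻¹ := by rw [← h1]; group
      _ = d * (y * s₀ * y⁻¹) := by rw [h2]; group
  · rintro d ⟨hd, hdI⟩
    have hdI' := Subgroup.mem_centralizer_iff.mp hdI
    have key : ∀ {c : G}, c ∈ H9.RankOne.D G a t → c * s₀ = s₀ * c → c * t = t * c := by
      intro c hc hcs
      have : c ∈ H9.RankOne.D G a t ⊓ Subgroup.centralizer {t} := by
        rw [hC]; exact ⟨hc, Subgroup.mem_centralizer_singleton_iff.mpr hcs⟩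
      exact Subgroup.mem_centralizer_singleton_iff.mp this.2
    have hdt : d * t = t * d := key hd (hdI' s₀ hs₀).symm
    refine Subgroup.mem_inf.mpr ⟨Subgroup.mem_inf.mpr ⟨hd, Subgroup.mem_centralizer_singleton_iff.mpr hdt⟩, ?_⟩
    rw [Subgroup.mem_centralizer_iff]
    intro k hk
    have hks : k⁻¹ * s₀ * k ∈ Cfsg.involutionsIn (MulAction.stabilizer G a : Set G) := by
      have := H9.RankOne.conj_D_invol hS (inv_mem hk.1.1) hs₀
      simpa using this
    have h1 := hdI' _ hks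
    have h2 : (k * d * k⁻¹) * t = t * (k * d * k⁻¹) := by
      refine key (mul_mem (mul_mem hk.1 hd) (inv_mem hk.1)) ?_
      calc k * d * k⁻¹ * s₀ = k * (d * (k⁻¹ * s₀ * k)) * k⁻¹ := by group
        _ = s₀ * (k * d * k⁻¹) := by rw [← h1]; group
    have h3 : t * (k * d * k⁻¹) * t = k⁻¹ * d * k := by
      calc t * (k * d * k⁻¹) * t = (t * k) * d * (k⁻¹ * t) := by group
        _ = (k⁻¹ * t) * d * (t * k) := by rw [H9.RankOne.t_K hS hk]
        _ = k⁻¹ * (t * d * t) * k := by group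
        _ = k⁻¹ * d * k := by rw [← hdt, mul_assoc d t t, hS.mul_self, mul_one]
    have h4 : t * (k * d * k⁻¹) * t = k * d * k⁻¹ := by
      rw [← h2, mul_assoc _ t t, hS.mul_self, mul_one]
    rw [h4] at h3
    have h5 : k ^ 2 * d = d * k ^ 2 := by
      calc k ^ 2 * d = k * (k * d * k⁻¹) * k := by rw [pow_two]; group
        _ = d * k ^ 2 := by rw [h3, pow_two]; group
    exact H9.RankOne.commute_of_sq (H9.RankOne.odd_orderOf_mem hS.odd_card hk.1) h5

end Cfsg.Agent.S1127
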