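import Cfsg.Statements.S1131
import Cfsg.Agent.H9.RankOneH

set_option autoImplicit false
open Cfsg

namespace Cfsg.Agent.S1131

/-- In the rank-one set-up (`G` finite and doubly transitive on `Ω`, `t` an involution moving `a`, `Q` normal in `G_a` with `G_a = Q D`, `Q ⊓ D = 1` for the two-point stabiliser `D = G_a ⊓ G_{t • a}`, `|Q|` even, `|D|` odd), with the action faithful and `G` containing two distinct commuting involutions: the set `K` of elements of `D` inverted by `t` is (the underlying set of) a cyclic subgroup normal in `D`. -/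
theorem result {G Ω : Type*} [Group G] [Finite G] [MulAction G Ω] [FaithfulSMul G Ω] {a : Ω} {t : G} {Q : Subgroup G}
    (hS : Cfsg.IsRankOneSetup G Ω a t Q)
    (h2 : ∃ x y : G, x ≠ 1 ∧ y ≠ 1 ∧ x ≠ y ∧ x * x = 1 ∧ y * y = 1 ∧ x * y = y * x) :
    ∃ C : Subgroup G, (C : Set G) = Cfsg.invertedBy (MulAction.stabilizer G a ⊓ MulAction.stabilizer G (t • a)) t ∧ IsCyclic C ∧
      ∀ d ∈ (MulAction.stabilizer G a ⊓ MulAction.stabilizer G (t • a)), ∀ c ∈ C, d * c * d⁻¹ ∈ C := by
  obtain ⟨k₀, hk₀, hK⟩ := Cfsg.Agent.H9.RankOne.K_cyclic hS h2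
  refine ⟨Subgroup.zpowers k₀, Set.ext fun k => (hK k).symm, inferInstance, ?_⟩
  intro d hd c hc
  exact (hK _).mp (Cfsg.Agent.H9.RankOne.K_normal hS h2 hd ((hK c).mpr hc))

end Cfsg.Agent.S1131
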