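import Cfsg.Statements.S1132
import Cfsg.Agent.H9.RankOneH

set_option autoImplicit false
open Cfsg

namespace Cfsg.Agent.S1132

open MulAction Cfsg.Agent.H9.RankOne in
/-- conjugation by an element of the point stabilizer on `Q` -/
def conjQ {G Ω : Type*} [Group G] [Finite G] [MulAction G Ω] [FaithfulSMul G Ω] {a : Ω} {t : G} {Q : Subgroup G}
    (hS : Cfsg.IsRankOneSetup G Ω a t Q) (d : G) (hd : d ∈ stabilizer G a) : Q ≃* Q where
  toFun q := ⟨d * (q : G) * d⁻¹, hS.conj_mem d hd q q.2⟩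
  invFun q := ⟨d⁻¹ * (q : G) * d, conj_Q hS hd q.2⟩
  left_inv := by intro q; apply Subtype.ext; change d⁻¹ * (d * (q : G) * d⁻¹) * d = q; group
  right_inv := by intro q; apply Subtype.ext; change d * (d⁻¹ * (q : G) * d) * d⁻¹ = q; group
  map_mul' := by
    intro q q'; apply Subtype.ext
    change d * ((q : G) * q') * d⁻¹ = (d * q * d⁻¹) * (d * q' * d⁻¹); group

/-- In the rank-one set-up (`G` finite and doubly transitive on `Ω`, `t` an involution moving `a`, `Q` normal in `G_a` with `G_a = Q D`, `Q ⊓ D = 1` for the two-point stabiliser `D = G_a ⊓ G_{t • a}`, `|Q|` even, `|D|` odd), with the action faithful and `G` containing two distinct commuting involutions: a Sylow 2-subgroup of `Q` is abelian or a Suzuki 2-group. -/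
theorem result {G Ω : Type*} [Group G] [Finite G] [MulAction G Ω] [FaithfulSMul G Ω] {a : Ω} {t : G} {Q : Subgroup G}
    (hS : Cfsg.IsRankOneSetup G Ω a t Q)
    (h2 : ∃ x y : G, x ≠ 1 ∧ y ≠ 1 ∧ x ≠ y ∧ x * x = 1 ∧ y * y = 1 ∧ x * y = y * x)
    (S : Sylow 2 ↥Q) : IsMulCommutative (S : Subgroup ↥Q) ∨ Cfsg.IsSuzukiTwoGroup ↥(S : Subgroup ↥Q) := by
  classical
  haveI := Cfsg.Agent.H9.RankOne.Q_nilpotent hS h2
  haveI : Fact (Nat.Prime 2) := ⟨Nat.prime_two⟩
  haveI hTn : (S : Subgroup Q).Normal := by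
    have h := (Group.isNilpotent_of_finite_tfae (G := Q)).out 0 3
    exact (h.mp inferInstance) 2 inferInstance S
  haveI hTc : (S : Subgroup Q).Characteristic := Sylow.characteristic_of_normal S hTn
  by_cases hab : IsMulCommutative (S : Subgroup ↥Q)
  · exact Or.inl hab
  refine Or.inr ⟨inferInstance, S.isPGroup', ?_, ?_, ?_⟩
  · by_contra hcon
    push Not at hcon
    exact hab ⟨⟨fun x y => hcon x y⟩⟩
  · obtain ⟨s, hs⟩ := Cfsg.Agent.H9.RankOne.exists_involution hS
    obtain ⟨k, hk, hk1⟩ := Cfsg.Agent.H9.RankOne.exists_K hS h2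
    have hs' := Cfsg.Agent.H9.RankOne.conj_D_invol hS hk.1.1 hs
    have hmem : ∀ u : G, u ∈ Cfsg.involutionsIn (MulAction.stabilizer G a : Set G) →
        ∃ x : (S : Subgroup ↥Q), ((x : Q) : G) = u ∧ x ≠ 1 ∧ x * x = 1 := by
      intro u hu
      have huQ := (Cfsg.Agent.H9.RankOne.invol_central hS h2 hu).1
      have h3 : IsPGroup 2 (Subgroup.zpowers (⟨u, huQ⟩ : Q)) := by
        apply IsPGroup.of_card (n := 1)
        rw [Nat.card_zpowers, pow_one]
        refine orderOf_eq_prime ?_ ?_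
        · apply Subtype.ext
          change u ^ 2 = 1
          rw [pow_two]; exact hu.2.2
        · intro h; exact hu.2.1 (congrArg Subtype.val h)
      obtain ⟨T, hT⟩ := h3.exists_le_sylow
      haveI : Subsingleton (Sylow 2 Q) := by
        have h := Sylow.unique_of_normal S hTn
        exact @Unique.instSubsingleton _ h
      rw [Subsingleton.elim T S] at hT
      refine ⟨⟨⟨u, huQ⟩, hT (Subgroup.mem_zpowers _)⟩, rfl, ?_, ?_⟩
      · intro h; exact hu.2.1 (congrArg (fun z : (S : Subgroup ↥Q) => ((z : Q) : G)) h)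
      · apply Subtype.ext; apply Subtype.ext; exact hu.2.2
    obtain ⟨x, hx, hx1, hxx⟩ := hmem _ hs
    obtain ⟨y, hy, hy1, hyy⟩ := hmem _ hs'
    refine ⟨x, y, ?_, hx1, hxx, hy1, hyy⟩
    intro hxy
    rw [hxy, hy] at hx
    have h1K : (1 : G) ∈ Cfsg.invertedBy (MulAction.stabilizer G a ⊓ MulAction.stabilizer G (t • a)) t :=
      ⟨one_mem _, by group⟩
    exact hk1 ((Cfsg.Agent.H9.RankOne.K_regular hS h2 hs hs).2 k hk 1 h1K (by rw [hx]; group))
  · obtain ⟨k₀, hk₀, hK⟩ := Cfsg.Agent.H9.RankOne.K_cyclic hS h2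
    have hst : ∀ k ∈ Subgroup.zpowers k₀, k ∈ MulAction.stabilizer G a := fun k hk => ((hK k).mpr hk).1.1
    have hSm : ∀ k (hk : k ∈ MulAction.stabilizer G a) (s : (S : Subgroup ↥Q)), conjQ hS k hk (s : Q) ∈ (S : Subgroup ↥Q) := by
      intro k hk s
      have h3 := hTc.fixed (conjQ hS k hk)
      have h4 : (s : Q) ∈ (S : Subgroup ↥Q).comap (conjQ hS k hk).toMonoidHom := by rw [h3]; exact s.2
      exact h4
    letI act : MulDistribMulAction (Subgroup.zpowers k₀) (S : Subgroup ↥Q) :=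
      { smul := fun k s => ⟨conjQ hS k (hst k k.2) (s : Q), hSm k (hst k k.2) s⟩
        one_smul := by
          intro s
          apply Subtype.ext
          apply Subtype.ext
          change (1 : G) * ((s : Q) : G) * (1 : G)⁻¹ = ((s : Q) : G)
          group
        mul_smul := by
          intro k k' s
          apply Subtype.ext
          apply Subtype.ext
          change ((k : G) * k') * ((s : Q) : G) * ((k : G) * k')⁻¹ = (k : G) * (k' * ((s : Q) : G) * (k' : G)⁻¹) * (k : G)⁻¹
          group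
        smul_one := by
          intro k
          apply Subtype.ext
          apply Subtype.ext
          change (k : G) * 1 * (k : G)⁻¹ = 1
          group
        smul_mul := by
          intro k s s'
          apply Subtype.ext
          apply Subtype.ext
          change (k : G) * (((s : Q) : G) * ((s' : Q) : G)) * (k : G)⁻¹ = ((k : G) * ((s : Q) : G) * (k : G)⁻¹) * (k * ((s' : Q) : G) * (k : G)⁻¹)
          group }
    have hval : ∀ (k : Subgroup.zpowers k₀) (s : (S : Subgroup ↥Q)), ((((MulDistribMulAction.toMulAut (Subgroup.zpowers k₀) (S : Subgroup ↥Q)) k s : (S : Subgroup ↥Q)) : Q) : G) =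
        (k : G) * ((s : Q) : G) * (k : G)⁻¹ := fun k s => rfl
    have hinv : ∀ x : (S : Subgroup ↥Q), x ≠ 1 → x * x = 1 → ((x : Q) : G) ∈ Cfsg.involutionsIn (MulAction.stabilizer G a : Set G) := by
      intro x hx1 hx
      refine ⟨hS.le (x : Q).2, ?_, ?_⟩
      · intro h; apply hx1; apply Subtype.ext; apply Subtype.ext; exact h
      · exact congrArg (fun z : (S : Subgroup ↥Q) => ((z : Q) : G)) hx
    refine ⟨(MulDistribMulAction.toMulAut (Subgroup.zpowers k₀) (S : Subgroup ↥Q)).range,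
      isCyclic_of_surjective _ (MonoidHom.rangeRestrict_surjective _), ?_⟩
    intro x y hx1 hx hy1 hy
    obtain ⟨⟨k, hk, hkx⟩, hu⟩ := Cfsg.Agent.H9.RankOne.K_regular hS h2 (hinv x hx1 hx) (hinv y hy1 hy)
    refine ⟨⟨_, ⟨⟨k, (hK k).mp hk⟩, rfl⟩⟩, ?_, ?_⟩
    · apply Subtype.ext
      apply Subtype.ext
      exact hkx
    · rintro ⟨_, ⟨k', rfl⟩⟩ hk'
      have h5 : (k' : G) * ((x : Q) : G) * (k' : G)⁻¹ = ((y : Q) : G) := by
        rw [← hval]
        exact congrArg (fun z : (S : Subgroup ↥Q) => ((z : Q) : G)) hk'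
      have h6 := hu k' ((hK _).mpr k'.2) k hk (h5.trans hkx.symm)
      apply Subtype.ext
      have h7 : k' = ⟨k, (hK k).mp hk⟩ := Subtype.ext h6
      rw [h7]

end Cfsg.Agent.S1132
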