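import Cfsg.Statements.S1141
import Cfsg.Agent.H22.USyl

set_option autoImplicit false
set_option linter.all false
open Cfsg

namespace Cfsg.Agent.S1141

open Cfsg.Agent.H22 Cfsg

theorem suz_congr {G H : Type*} [Group G] [Group H] (e : G ≃* H) (h : IsSuzukiTwoGroup G) : IsSuzukiTwoGroup H := by
  obtain ⟨h1, h2, ⟨x, y, hxy⟩, ⟨u, v, huv, hu1, huu, hv1, hvv⟩, K, hK, hreg⟩ := h
  haveI := h1
  refine ⟨Finite.of_equiv G e.toEquiv, h2.of_equiv e, ⟨e x, e y, ?_⟩, ⟨e u, e v, ?_, ?_, ?_, ?_, ?_⟩, K.map (MulAut.congr e).toMonoidHom, ?_, ?_⟩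
  · intro h3
    rw [← map_mul, ← map_mul] at h3
    exact hxy (e.injective h3)
  · exact fun h3 => huv (e.injective h3)
  · intro h3; exact hu1 (e.injective (by rw [h3, map_one]))
  · rw [← map_mul, huu, map_one]
  · intro h3; exact hv1 (e.injective (by rw [h3, map_one]))
  · rw [← map_mul, hvv, map_one]
  · haveI := hK
    exact isCyclic_of_surjective ((MulAut.congr e).toMonoidHom.subgroupMap K) ((MulAut.congr e).toMonoidHom.subgroupMap_surjective K)
  · intro a b ha1 haa hb1 hbb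
    obtain ⟨k, hk, huniq⟩ := hreg (e.symm a) (e.symm b) (by
      intro h3; exact ha1 (e.symm.injective (by rw [h3, map_one]))) (by rw [← map_mul, haa, map_one]) (by
      intro h3; exact hb1 (e.symm.injective (by rw [h3, map_one]))) (by rw [← map_mul, hbb, map_one])
    refine ⟨⟨MulAut.congr e k, ⟨k, k.2, rfl⟩⟩, ?_, ?_⟩
    · show e ((k : MulAut G) (e.symm a)) = b
      rw [hk, e.apply_symm_apply]
    · rintro ⟨_, ⟨k', hk', rfl⟩⟩ h3
      have h4 : e (k' (e.symm a)) = b := h3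
      have h5 : k' (e.symm a) = e.symm b := by rw [← h4, e.symm_apply_apply]
      have h6 := huniq ⟨k', hk'⟩ h5
      apply Subtype.ext
      show MulAut.congr e k' = MulAut.congr e k
      rw [← h6]

variable {F : Type*} [Field F] {σ : F →+* F} [h2 : Fact ((2 : F) = 0)] [hs : Fact (∀ a : F, σ (σ a) = a)]

/-- scalars -/
def scal (l : F) (hl : σ l = l) (hl0 : l ≠ 0) : MulAut (UG F σ) where
  toFun x := ⟨l * x.a, l ^ 2 * x.b, by
    have h1 := x.rel
    simp only [map_mul, map_pow, hl]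
    linear_combination l ^ 2 * h1⟩
  invFun x := ⟨l⁻¹ * x.a, (l⁻¹) ^ 2 * x.b, by
    have h1 := x.rel
    simp only [map_mul, map_pow, map_inv₀, hl]
    linear_combination (l⁻¹) ^ 2 * h1⟩
  left_inv x := by
    apply UG.ext'
    · show l⁻¹ * (l * x.a) = x.a
      field_simp
    · show (l⁻¹) ^ 2 * (l ^ 2 * x.b) = x.b
      field_simp
  right_inv x := by
    apply UG.ext'
    · show l * (l⁻¹ * x.a) = x.a
      field_simp
    · show l ^ 2 * ((l⁻¹) ^ 2 * x.b) = x.b
      field_simp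
  map_mul' x y := by
    apply UG.ext'
    · show l * (x.a + y.a) = l * x.a + l * y.a
      ring
    · show l ^ 2 * (x.b + y.b + x.a * σ y.a) = l ^ 2 * x.b + l ^ 2 * y.b + l * x.a * σ (l * y.a)
      rw [map_mul, hl]; ring

/-- the fixed units -/
def Lam (σ : F →+* F) : Subgroup Fˣ where
  carrier := {u | σ u = u}
  one_mem' := by simp
  mul_mem' := fun {a b} ha hb => by
    show σ ((a * b : Fˣ) : F) = _
    rw [Units.val_mul, map_mul]
    have h1 : σ a = a := ha
    have h2 : σ b = b := hb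
    rw [h1, h2]
  inv_mem' := fun {a} ha => by
    show σ ((a⁻¹ : Fˣ) : F) = _
    have h1 : σ a = a := ha
    rw [Units.val_inv_eq_inv_val, map_inv₀, h1]

/-- the hom -/
def scalHom : Lam σ →* MulAut (UG F σ) where
  toFun u := scal (u.1 : F) u.2 u.1.ne_zero
  map_one' := by
    apply MulEquiv.ext
    intro x
    apply UG.ext'
    · show ((1 : Fˣ) : F) * x.a = x.a
      rw [Units.val_one, one_mul]
    · show ((1 : Fˣ) : F) ^ 2 * x.b = x.b
      rw [Units.val_one, one_pow, one_mul]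
  map_mul' u v := by
    apply MulEquiv.ext
    intro x
    apply UG.ext'
    · show ((u.1 * v.1 : Fˣ) : F) * x.a = (u.1 : F) * ((v.1 : F) * x.a)
      rw [Units.val_mul, mul_assoc]
    · show ((u.1 * v.1 : Fˣ) : F) ^ 2 * x.b = (u.1 : F) ^ 2 * ((v.1 : F) ^ 2 * x.b)
      rw [Units.val_mul]; ring

theorem suz [Fintype F] {n : ℕ} (hn : 2 ≤ n) (hF : Fintype.card F = (2 ^ n) ^ 2) (hσ : ∀ x, σ x = x ^ (2 ^ n))
    (hσ1 : σ ≠ RingHom.id F) : IsSuzukiTwoGroup (UG F σ) := by
  have hq4 : 4 ≤ 2 ^ n := by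
    calc 4 = 2 ^ 2 := by norm_num
      _ ≤ 2 ^ n := Nat.pow_le_pow_right (by norm_num) hn
  have hq : 2 ≤ 2 ^ n := by omega
  have hcard := UG.card_UG hq hF hσ
  haveI : Finite (UG F σ) := Nat.finite_of_card_ne_zero (by rw [hcard]; positivity)
  have hcen := UG.mem_center hq hF hσ hσ1
  have hsq : ∀ t : F, ∃ l : F, l ^ 2 = t := by
    intro t
    haveI : CharP F 2 := by
      rw [CharP.charP_iff_prime_eq_zero Nat.prime_two]
      exact_mod_cast h2.out
    haveI : Fact (Nat.Prime 2) := ⟨Nat.prime_two⟩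
    have := (Finite.injective_iff_surjective.1 (frobenius_inj F 2)) t
    obtain ⟨l, hl⟩ := this
    exact ⟨l, hl⟩
  have hsqi : ∀ s t : F, s ^ 2 = t ^ 2 → s = t := by
    intro s t h
    have : (s - t) ^ 2 = 0 := by linear_combination h - (s * t - t ^ 2) * h2.out
    exact sub_eq_zero.1 (pow_eq_zero_iff (by norm_num) |>.1 this)
  refine ⟨inferInstance, ?_, ?_, ?_, ?_⟩
  · apply IsPGroup.of_card (n := n * 3)
    rw [hcard, pow_mul]
  · by_contra hcon
    push Not at hcon
    obtain ⟨d, hd⟩ := UG.exists_phi hq hF hσ (UG.norm_fix (σ := σ) (1 : F))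
    have h1 := (hcen ⟨1, d, hd⟩).1 (Subgroup.mem_center_iff.2 (fun y => hcon y _))
    exact one_ne_zero h1
  · have hk := (UG.phi_ker hq hF hσ).1
    have h1 : ∃ t : F, t ∈ (UG.phi σ).ker ∧ t ≠ 0 ∧ t ≠ 1 := by
      by_contra hcon
      push Not at hcon
      have h3 : ((UG.phi σ).ker : Set F) ⊆ {0, 1} := by
        intro t ht
        by_cases h0 : t = 0
        · exact Or.inl h0
        · exact Or.inr (hcon t ht h0)
      have h4 := Set.ncard_le_ncard h3 (Set.toFinite _)
      have h5 : ((UG.phi σ).ker : Set F).ncard = Nat.card (UG.phi σ).ker := rfl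
      rw [h5, hk] at h4
      have h6 := Set.ncard_insert_le (0 : F) {1}
      rw [Set.ncard_singleton] at h6
      omega
    obtain ⟨t, ht, ht0, ht1⟩ := h1
    have hr : ∀ s ∈ (UG.phi σ).ker, s + σ s = (0 : F) * σ 0 := by
      intro s hs'
      rw [AddMonoidHom.mem_ker, UG.phi_apply] at hs'
      rw [hs']; ring
    have h1k : (1 : F) ∈ (UG.phi σ).ker := by rw [UG.mem_ker]; simp
    refine ⟨⟨0, 1, hr 1 h1k⟩, ⟨0, t, hr t ht⟩, ?_, ?_, ?_, ?_, ?_⟩
    · intro h
      exact ht1 (congrArg UG.b h).symm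
    · intro h
      exact one_ne_zero (congrArg UG.b h)
    · rw [UG.mul_self_iff]
    · intro h
      exact ht0 (congrArg UG.b h)
    · rw [UG.mul_self_iff]
  · refine ⟨(scalHom (F := F) (σ := σ)).range, ?_, ?_⟩
    · haveI : IsCyclic Fˣ := inferInstance
      haveI : IsCyclic (Lam σ) := Subgroup.isCyclic _
      exact isCyclic_of_surjective (scalHom (F := F) (σ := σ)).rangeRestrict (MonoidHom.rangeRestrict_surjective _)
    · intro x y hx1 hxx hy1 hyy
      rw [UG.mul_self_iff] at hxx hyy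
      have hfix : ∀ z : UG F σ, z.a = 0 → σ z.b = z.b := by
        intro z hz
        have h1 := z.rel
        rw [hz, zero_mul] at h1
        linear_combination h1 - z.b * h2.out
      have hxb : x.b ≠ 0 := fun h => hx1 (UG.ext' hxx h)
      have hyb : y.b ≠ 0 := fun h => hy1 (UG.ext' hyy h)
      obtain ⟨l, hl⟩ := hsq (y.b / x.b)
      have hl0 : l ≠ 0 := by
        rintro rfl
        rw [zero_pow (by norm_num), eq_comm, div_eq_zero_iff] at hl
        exact hl.elim hyb hxb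
      have hlf : σ l = l := by
        apply hsqi
        rw [← map_pow, hl, map_div₀, hfix x hxx, hfix y hyy]
      refine ⟨⟨scalHom ⟨Units.mk0 l hl0, hlf⟩, ⟨_, rfl⟩⟩, ?_, ?_⟩
      · apply UG.ext'
        · show l * x.a = y.a
          rw [hxx, hyy, mul_zero]
        · show l ^ 2 * x.b = y.b
          rw [hl]; field_simp
      · rintro ⟨_, ⟨u, rfl⟩⟩ hu
        have h1 : (u.1 : F) ^ 2 * x.b = y.b := congrArg UG.b hu
        have h3 : (u.1 : F) = l := by
          apply hsqi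
          rw [hl, ← h1]; field_simp
        apply Subtype.ext
        show scalHom u = scalHom _
        congr 1
        apply Subtype.ext
        apply Units.ext
        exact h3


/-- Let `q = 2^n ≥ 4` and `|F| = q²`. A Sylow 2-subgroup `S` of `PSU₃(q)` has order `q³`, its centre has order `q`, and `S` is a Suzuki 2-group. -/
theorem result {F : Type*} [Field F] [Fintype F] {n : ℕ} (hn : 2 ≤ n)
    (hF : Fintype.card F = (2 ^ n) ^ 2) (S : Sylow 2 (Cfsg.PSU 3 F (2 ^ n))) :
    Nat.card S = (2 ^ n) ^ 3 ∧ Nat.card (Subgroup.center ↥(S : Subgroup (Cfsg.PSU 3 F (2 ^ n)))) = 2 ^ n ∧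
      Cfsg.IsSuzukiTwoGroup ↥(S : Subgroup (Cfsg.PSU 3 F (2 ^ n))) := by
  obtain ⟨σ, hσ, hσ2, hσ1⟩ := Cfsg.Agent.H5.exists_frob (q := 2 ^ n) (F := F) hF
  haveI : Fact ((2 : F) = 0) := ⟨fact_two (by omega) hF⟩
  haveI : Fact (∀ a : F, σ (σ a) = a) := ⟨hσ2⟩
  have hq : 2 ≤ 2 ^ n := by
    calc 2 = 2 ^ 1 := by norm_num
      _ ≤ 2 ^ n := Nat.pow_le_pow_right (by norm_num) (by omega)
  obtain ⟨e⟩ := sylow_equiv (by omega) hF σ hσ S
  refine ⟨?_, ?_, suz_congr e (suz hn hF hσ hσ1)⟩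
  · rw [← UG.card_UG hq hF hσ]
    exact (Nat.card_congr e.toEquiv).symm
  · exact (Nat.card_congr (Subgroup.centerCongr e).toEquiv).symm.trans (UG.card_center hq hF hσ hσ1)

end Cfsg.Agent.S1141
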