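import Cfsg.Statements.S1142
import Cfsg.Agent.H9.FHF

set_option autoImplicit false
open Cfsg

namespace Cfsg.Agent.S1142

/-- Feit–Higman: if a finite group has a (B,N)-pair of rank 2, its Weyl group `N/(B ⊓ N)` has order 4, 6, 8, 12 or 16. -/
theorem result {G : Type*} [Group G] [Finite G] (P : Cfsg.BNPair G)
    (h2 : P.rank = 2) :
    ((P.B ⊓ P.N).subgroupOf P.N).index ∈ ({4, 6, 8, 12, 16} : Set ℕ) := by
  classical
  obtain ⟨x, y, hxy, huniv⟩ := Nat.card_eq_two_iff.mp h2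
  have hR : Cfsg.Agent.H9.FH.Rk2 P x y := ⟨hxy, fun z => by
    have : z ∈ ({x, y} : Set P.S) := by rw [huniv]; trivial
    exact this⟩
  have hcard : ((P.B ⊓ P.N).subgroupOf P.N).index = Nat.card (Cfsg.Agent.H6.BN.Wl P) := rfl
  rw [hcard, Cfsg.Agent.H9.FH.card_Wl P hR]
  have h := Cfsg.Agent.H9.FH.m_values (Cfsg.Agent.H9.FH.poly P hR) (natCast_mem _ _) (natCast_mem _ _) (natCast_mem _ _)
  simp only [Set.mem_insert_iff, Set.mem_singleton_iff]
  omega

end Cfsg.Agent.S1142
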