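import Cfsg.Statements.S1151
import Mathlib
import Cfsg.Agent.H5.Ree2

set_option autoImplicit false
open Cfsg

namespace Cfsg.Agent.S1151

/-- In the small Ree group ²G₂(q), q = 3^(2m+1), realised as G¹ inside the Chevalley group G₂ over the field with q elements (θ the 3^m-th power map), with H¹ = G¹ ∩ H and U¹ = G¹ ∩ U the intersections with the ambient diagonal and positive unipotent subgroups: `H¹` has exactly `(q - 1)/2` elements of odd order, and each non-identity one centralises no non-identity element of `U¹`. -/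
theorem result {K : Type*} [Field K] [Fintype K] {m : ℕ} (hK : Fintype.card K = 3 ^ (2 * m + 1)) :
    2 * Nat.card {h : ↥(Cfsg.Lie.chevG2.diagonalSubgroup K ⊓ Cfsg.Lie.twistedG2 K (3 ^ m)) // Odd (orderOf h)} = 3 ^ (2 * m + 1) - 1 ∧
      ∀ h ∈ (Cfsg.Lie.chevG2.diagonalSubgroup K ⊓ Cfsg.Lie.twistedG2 K (3 ^ m)), h ≠ 1 → Odd (orderOf h) →
        (Cfsg.Lie.chevG2.posUnipotent K ⊓ Cfsg.Lie.twistedG2 K (3 ^ m)) ⊓ Subgroup.centralizer {h} = ⊥ := by
  obtain ⟨σ, h⟩ := Cfsg.Agent.H6.WG2.exists_ctx hK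
  have hf := Cfsg.Agent.H6.WG2.fl_of_card hK
  let f : Kˣ →* ↥(Cfsg.Lie.chevG2.diagonalSubgroup K ⊓ Cfsg.Lie.twistedG2 K (3 ^ m)) :=
    (Cfsg.Agent.H5.Ree.hhHom K (3 ^ m)).codRestrict _ (fun x => (Cfsg.Agent.H6.WG2.diag_iff h hf hK).2 ⟨x, rfl⟩)
  have hs : Function.Surjective f := by
    rintro ⟨g, hg⟩
    obtain ⟨x, rfl⟩ := (Cfsg.Agent.H6.WG2.diag_iff h hf hK).1 hg
    exact ⟨x, rfl⟩
  have hinj : Function.Injective f := by
    intro x y hxy
    exact Cfsg.Agent.H5.Ree.hh_inj (congrArg Subtype.val hxy)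
  let E : Kˣ ≃* ↥(Cfsg.Lie.chevG2.diagonalSubgroup K ⊓ Cfsg.Lie.twistedG2 K (3 ^ m)) := MulEquiv.ofBijective f ⟨hinj, hs⟩
  obtain ⟨k, hk⟩ : ∃ k, 3 ^ (2 * m + 1) - 1 = 2 * (2 * k + 1) := by
    refine ⟨(3 ^ (2 * m + 1) - 3) / 4, ?_⟩
    have h1 : 3 ^ (2 * m + 1) % 4 = 3 := by
      rw [pow_succ, pow_mul, Nat.mul_mod, Nat.pow_mod]; norm_num
    have h2 : 3 ≤ 3 ^ (2 * m + 1) := by
      calc 3 = 3 ^ 1 := rfl
        _ ≤ _ := Nat.pow_le_pow_right (by norm_num) (by omega)
    omega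
  have hcard : Nat.card Kˣ = 2 * (2 * k + 1) := by rw [Nat.card_units, Nat.card_eq_fintype_card, hK, hk]
  have hodd : ∀ x : Kˣ, Odd (orderOf x) ↔ x ^ (2 * k + 1) = 1 := by
    intro x
    constructor
    · intro ho
      rw [← orderOf_dvd_iff_pow_eq_one]
      have h1 : orderOf x ∣ 2 * (2 * k + 1) := by rw [← hcard]; exact orderOf_dvd_natCard x
      exact (Nat.Coprime.dvd_of_dvd_mul_left (Nat.Coprime.symm (Nat.coprime_two_left.2 ho)) h1)
    · intro hx
      exact Odd.of_dvd_nat ⟨k, rfl⟩ (orderOf_dvd_of_pow_eq_one hx)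
  have hcount : Nat.card {x : Kˣ // Odd (orderOf x)} = 2 * k + 1 := by
    have h1 : Nat.card {x : Kˣ // Odd (orderOf x)} = Nat.card (powMonoidHom 2 : Kˣ →* Kˣ).range := by
      apply Nat.card_congr
      refine Equiv.subtypeEquivRight ?_
      intro x
      rw [hodd]
      constructor
      · intro hx
        refine ⟨x ^ (k + 1), ?_⟩
        show (x ^ (k + 1)) ^ 2 = x
        rw [← pow_mul, show (k + 1) * 2 = (2 * k + 1) + 1 by ring, pow_succ, hx, one_mul]
      · rintro ⟨y, rfl⟩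
        show (y ^ 2) ^ (2 * k + 1) = 1
        rw [← pow_mul, ← hcard]
        exact pow_card_eq_one'
    have h2 : Nat.card (powMonoidHom 2 : Kˣ →* Kˣ).ker = 2 := by
      have h3 : (2 : K) ≠ 0 := by
        intro h4
        have : (1 : K) = 0 := by linear_combination hf.three - h4
        exact one_ne_zero this
      rw [Nat.card_eq_two_iff]
      refine ⟨1, ⟨-1, by rw [MonoidHom.mem_ker]; show (-1 : Kˣ) ^ 2 = 1; rw [neg_one_sq]⟩, ?_, ?_⟩
      · intro h5
        have h6 := congrArg (fun z => ((z : Kˣ) : K)) (congrArg Subtype.val h5)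
        simp only [OneMemClass.coe_one, Units.val_one, Units.val_neg] at h6
        exact h3 (by linear_combination h6)
      · ext x
        simp only [Set.mem_insert_iff, Set.mem_singleton_iff, Set.mem_univ, iff_true]
        have h5 : (x : Kˣ) ^ 2 = 1 := x.2
        have h6 : ((x : Kˣ) : K) ^ 2 = 1 := by rw [← Units.val_pow_eq_pow_val, h5, Units.val_one]
        rcases mul_self_eq_one_iff.1 ((pow_two _).symm.trans h6) with h7 | h7
        · left; exact Subtype.ext (Units.ext h7)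
        · right; exact Subtype.ext (Units.ext h7)
    have h3 := Subgroup.card_mul_index (powMonoidHom 2 : Kˣ →* Kˣ).ker
    rw [Subgroup.index_ker, h2, hcard] at h3
    rw [h1]
    omega
  constructor
  · have h1 : Nat.card {x : ↥(Cfsg.Lie.chevG2.diagonalSubgroup K ⊓ Cfsg.Lie.twistedG2 K (3 ^ m)) // Odd (orderOf x)} =
        Nat.card {x : Kˣ // Odd (orderOf x)} := by
      apply Nat.card_congr
      refine (E.toEquiv.subtypeEquiv ?_).symm
      intro x
      show Odd (orderOf x) ↔ Odd (orderOf (E x))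
      rw [MulEquiv.orderOf_eq]
    rw [h1, hcount, hk]
  · intro g hg hne ho
    obtain ⟨c, rfl⟩ := (Cfsg.Agent.H6.WG2.diag_iff h hf hK).1 hg
    rw [eq_bot_iff]
    rintro u ⟨hu1, hu2⟩
    rw [Subgroup.mem_bot]
    obtain ⟨a, b, d, rfl⟩ := (Cfsg.Agent.H6.WG2.pos_iff h hf).1 hu1
    by_contra hcon
    have hcm := Subgroup.mem_centralizer_iff.1 hu2 _ (Set.mem_singleton _)
    rcases Cfsg.Agent.H5.Ree.comm_cases hf hcm hcon with h1 | ⟨h1, -, -⟩
    · rw [h1, Cfsg.Agent.H5.Ree.hh_one] at hne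
      exact hne rfl
    · have h2 : orderOf (Cfsg.Agent.H6.WG2.hh K (3 ^ m) c) ∣ 2 := by
        apply orderOf_dvd_of_pow_eq_one
        rw [pow_two, ← Cfsg.Agent.H6.WG2.hh_mul, ← pow_two, h1, Cfsg.Agent.H5.Ree.hh_one]
      have h3 : orderOf (Cfsg.Agent.H6.WG2.hh K (3 ^ m) c) = 1 := by
        rcases (Nat.dvd_prime Nat.prime_two).1 h2 with h4 | h4
        · exact h4
        · rw [h4] at ho
          exact absurd ho (by decide)
      exact hne (orderOf_eq_one_iff.1 h3)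

end Cfsg.Agent.S1151
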