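import Cfsg.Statements.S1165
import Cfsg.Agent.H9.RankOneC

set_option autoImplicit false
open Cfsg

namespace Cfsg.Agent.S1165

/-- In the rank-one set-up (`G` finite and doubly transitive on `Ω`, `t` an involution moving `a`, `Q` normal in `G_a` with `G_a = Q D`, `Q ⊓ D = 1` for the two-point stabiliser `D = G_a ⊓ G_{t • a}`, `|Q|` even, `|D|` odd): every `x ∈ Q`, `x ≠ 1`, determines unique `g, f ∈ Q`, `h ∈ D` with `t x t = g h t f` (a consequence of the canonical form). For these: (H1) the `f`-part of `x⁻¹` is `g⁻¹`; (H2) the `f`-part of `f` is `x`; (H3) for `a ∈ D` the `f`-part of `a⁻¹ x a` is `(t a t)⁻¹ f (t a t)`; (H4) the `h`-part of `a⁻¹ x a` is `(t a t)⁻¹ h a`, that of `x⁻¹` is `t h⁻¹ t`, and that of `f` is `h⁻¹`. -/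
theorem result {G Ω : Type*} [Group G] [Finite G] [MulAction G Ω] {a : Ω} {t : G} {Q : Subgroup G}
    (hS : Cfsg.IsRankOneSetup G Ω a t Q)
    (x g h f : G) (hx : x ∈ Q) (hx1 : x ≠ 1) (hg : g ∈ Q) (hh : h ∈ (MulAction.stabilizer G a ⊓ MulAction.stabilizer G (t • a))) (hf : f ∈ Q)
    (heq : t * x * t = g * h * t * f) :
    (∀ g₁ h₁ f₁ : G, g₁ ∈ Q → h₁ ∈ (MulAction.stabilizer G a ⊓ MulAction.stabilizer G (t • a)) → f₁ ∈ Q → t * x⁻¹ * t = g₁ * h₁ * t * f₁ →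
        f₁ = g⁻¹ ∧ h₁ = t * h⁻¹ * t) ∧
      (∀ g₂ h₂ f₂ : G, g₂ ∈ Q → h₂ ∈ (MulAction.stabilizer G a ⊓ MulAction.stabilizer G (t • a)) → f₂ ∈ Q → t * f * t = g₂ * h₂ * t * f₂ →
        f₂ = x ∧ h₂ = h⁻¹) ∧
      ∀ c ∈ (MulAction.stabilizer G a ⊓ MulAction.stabilizer G (t • a)), ∀ g₃ h₃ f₃ : G, g₃ ∈ Q → h₃ ∈ (MulAction.stabilizer G a ⊓ MulAction.stabilizer G (t • a)) → f₃ ∈ Q →
        t * (c⁻¹ * x * c) * t = g₃ * h₃ * t * f₃ →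
          f₃ = (t * c * t)⁻¹ * f * (t * c * t) ∧ h₃ = (t * c * t)⁻¹ * h * c := by
  have htt := hS.mul_self
  have ti := H9.RankOne.t_inv hS
  have cong : ∀ {g h f g' h' f' : G}, g ∈ Q → g' ∈ Q →
      h ∈ (MulAction.stabilizer G a ⊓ MulAction.stabilizer G (t • a)) →
      h' ∈ (MulAction.stabilizer G a ⊓ MulAction.stabilizer G (t • a)) → f ∈ Q → f' ∈ Q →
      g * h * t * f = g' * h' * t * f' → g = g' ∧ h = h' ∧ f = f' := by
    intro g h f g' h' f' hg hg' hh hh' hf hf' e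
    obtain ⟨h1, h2⟩ := H9.RankOne.canonical_unique hS (mul_mem (hS.le hg) hh.1) (mul_mem (hS.le hg') hh'.1) hf hf' e
    obtain ⟨h3, h4⟩ := H9.RankOne.QD_unique hS hg hg' hh hh' h1
    exact ⟨h3, h4, h2⟩
  have tD : ∀ {c : G}, c ∈ (MulAction.stabilizer G a ⊓ MulAction.stabilizer G (t • a)) →
      t * c * t ∈ (MulAction.stabilizer G a ⊓ MulAction.stabilizer G (t • a)) := fun hc => H9.RankOne.t_conj_D hS hc
  refine ⟨?_, ?_, ?_⟩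
  · intro g₁ h₁ f₁ hg₁ hh₁ hf₁ e₁
    -- t x⁻¹ t = f⁻¹ t h⁻¹ g⁻¹ = f⁻¹ (t h⁻¹ t) t g⁻¹
    have e2 : t * x⁻¹ * t = f⁻¹ * (t * h⁻¹ * t) * t * g⁻¹ := by
      have : t * x⁻¹ * t = (t * x * t)⁻¹ := by simp only [mul_inv_rev, ti]; group
      rw [this, heq]
      simp only [mul_inv_rev, ti]
      calc f⁻¹ * (t * (h⁻¹ * g⁻¹)) = f⁻¹ * (t * h⁻¹ * 1) * g⁻¹ := by group
        _ = f⁻¹ * (t * h⁻¹ * (t * t)) * g⁻¹ := by rw [htt]
        _ = f⁻¹ * (t * h⁻¹ * t) * t * g⁻¹ := by group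
    obtain ⟨-, h2, h3⟩ := cong hg₁ (inv_mem hf) hh₁ (tD (inv_mem hh)) hf₁ (inv_mem hg) (e₁.symm.trans e2)
    exact ⟨h3, h2⟩
  · intro g₂ h₂ f₂ hg₂ hh₂ hf₂ e₂
    -- t f t = (from t x t = g h t f) f = t h⁻¹ g⁻¹ t x t ; t f t = h⁻¹ g⁻¹ t x = (h⁻¹ g⁻¹ h) h⁻¹ t x
    have e3 : t * f * t = (h⁻¹ * g⁻¹ * h) * h⁻¹ * t * x := by
      have : f = t * h⁻¹ * g⁻¹ * (g * h * t * f) := by
        calc f = (t * t) * f := by rw [htt, one_mul]
          _ = t * h⁻¹ * g⁻¹ * (g * h * t * f) := by group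
      rw [this, ← heq]
      calc t * (t * h⁻¹ * g⁻¹ * (t * x * t)) * t = (t * t) * h⁻¹ * g⁻¹ * t * x * (t * t) := by group
        _ = (h⁻¹ * g⁻¹ * h) * h⁻¹ * t * x := by rw [htt]; group
    have m : h⁻¹ * g⁻¹ * h ∈ Q := H9.RankOne.conj_Q hS hh.1 (inv_mem hg)
    obtain ⟨-, h2, h3⟩ := cong hg₂ m hh₂ (inv_mem hh) hf₂ hx (e₂.symm.trans e3)
    exact ⟨h3, h2⟩
  · intro c hc g₃ h₃ f₃ hg₃ hh₃ hf₃ e₃
    set c' := t * c * t with hc'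
    have hc'D := tD hc
    have e4 : t * (c⁻¹ * x * c) * t = (c'⁻¹ * g * c') * (c'⁻¹ * h * c) * t * (c'⁻¹ * f * c') := by
      have i1 : c'⁻¹ = t * c⁻¹ * t := by rw [hc']; simp only [mul_inv_rev, ti]; group
      have i2 : c = t * c' * t := by
        rw [hc']
        calc c = (t * t) * c * (t * t) := by rw [htt]; group
          _ = t * (t * c * t) * t := by group
      calc t * (c⁻¹ * x * c) * t = t * c⁻¹ * (t * t) * x * (t * t) * c * t := by rw [htt]; group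
        _ = (t * c⁻¹ * t) * (t * x * t) * (t * c * t) := by group
        _ = c'⁻¹ * (g * h * t * f) * c' := by rw [← i1, heq]
        _ = (c'⁻¹ * g * c') * (c'⁻¹ * h * (c * c⁻¹) * t) * f * c' := by group
        _ = (c'⁻¹ * g * c') * (c'⁻¹ * h * c) * (c⁻¹ * t) * f * c' := by group
        _ = (c'⁻¹ * g * c') * (c'⁻¹ * h * c) * ((t * t) * c⁻¹ * t) * f * c' := by rw [htt]; group
        _ = (c'⁻¹ * g * c') * (c'⁻¹ * h * c) * (t * (t * c⁻¹ * t)) * f * c' := by group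
        _ = (c'⁻¹ * g * c') * (c'⁻¹ * h * c) * t * (c'⁻¹ * f * c') := by rw [← i1]; group
    have m1 : c'⁻¹ * g * c' ∈ Q := H9.RankOne.conj_Q hS hc'D.1 hg
    have m2 : c'⁻¹ * f * c' ∈ Q := H9.RankOne.conj_Q hS hc'D.1 hf
    obtain ⟨-, h2, h3⟩ := cong hg₃ m1 hh₃ (mul_mem (mul_mem (inv_mem hc'D) hh) hc) hf₃ m2 (e₃.symm.trans e4)
    exact ⟨h3, h2⟩

end Cfsg.Agent.S1165
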