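import Cfsg.Statements.S1166
import Cfsg.Agent.H9.RankOneC

set_option autoImplicit false
open Cfsg

namespace Cfsg.Agent.S1166

/-- In the rank-one set-up (`G` finite and doubly transitive on `Ω`, `t` an involution moving `a`, `Q` normal in `G_a` with `G_a = Q D`, `Q ⊓ D = 1` for the two-point stabiliser `D = G_a ⊓ G_{t • a}`, `|Q|` even, `|D|` odd), with `t x t = g_x h_x t f_x` and `t y t = g_y h_y t f_y` (`g, f ∈ Q`, `h ∈ D`) for `x, y ∈ Q ∖ 1` with `x y ≠ 1`: then `z = f_x g_y ≠ 1`, and if `t z t = g_z h_z t f_z` and `t (x y) t = g' h' t f'` then `f' = (t h_y t)⁻¹ f_z (t h_y t) f_y` and `h' = h_x h_z h_y` (H6). -/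
theorem result {G Ω : Type*} [Group G] [Finite G] [MulAction G Ω] {a : Ω} {t : G} {Q : Subgroup G}
    (hS : Cfsg.IsRankOneSetup G Ω a t Q)
    (x y gx hx fx gy hy fy : G) (hxQ : x ∈ Q) (hx1 : x ≠ 1) (hyQ : y ∈ Q) (hy1 : y ≠ 1) (hxy : x * y ≠ 1)
    (hgx : gx ∈ Q) (hhx : hx ∈ (MulAction.stabilizer G a ⊓ MulAction.stabilizer G (t • a))) (hfx : fx ∈ Q) (ex : t * x * t = gx * hx * t * fx)
    (hgy : gy ∈ Q) (hhy : hy ∈ (MulAction.stabilizer G a ⊓ MulAction.stabilizer G (t • a))) (hfy : fy ∈ Q) (ey : t * y * t = gy * hy * t * fy) :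
    fx * gy ≠ 1 ∧
      ∀ gz hz fz g' h' f' : G, gz ∈ Q → hz ∈ (MulAction.stabilizer G a ⊓ MulAction.stabilizer G (t • a)) → fz ∈ Q → t * (fx * gy) * t = gz * hz * t * fz →
        g' ∈ Q → h' ∈ (MulAction.stabilizer G a ⊓ MulAction.stabilizer G (t • a)) → f' ∈ Q → t * (x * y) * t = g' * h' * t * f' →
          f' = (t * hy * t)⁻¹ * fz * (t * hy * t) * fy ∧ h' = hx * hz * hy := by
  have htt := hS.mul_self
  have ti := H9.RankOne.t_inv hS
  have cong : ∀ {g h f g' h' f' : G}, g ∈ Q → g' ∈ Q →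
      h ∈ (MulAction.stabilizer G a ⊓ MulAction.stabilizer G (t • a)) →
      h' ∈ (MulAction.stabilizer G a ⊓ MulAction.stabilizer G (t • a)) → f ∈ Q → f' ∈ Q →
      g * h * t * f = g' * h' * t * f' → g = g' ∧ h = h' ∧ f = f' := by
    intro g h f g' h' f' hg hg' hh hh' hf hf' e
    obtain ⟨h1, h2⟩ := H9.RankOne.canonical_unique hS (mul_mem (hS.le hg) hh.1) (mul_mem (hS.le hg') hh'.1) hf hf' e
    obtain ⟨h3, h4⟩ := H9.RankOne.QD_unique hS hg hg' hh hh' h1
    exact ⟨h3, h4, h2⟩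
  have tD : ∀ {c : G}, c ∈ (MulAction.stabilizer G a ⊓ MulAction.stabilizer G (t • a)) →
      t * c * t ∈ (MulAction.stabilizer G a ⊓ MulAction.stabilizer G (t • a)) := fun hc => H9.RankOne.t_conj_D hS hc
  refine ⟨?_, ?_⟩
  · intro h1
    -- t x y t = gx hx t fx gy hy t fy
    have e1 : t * (x * y) * t = gx * hx * t * (fx * gy) * hy * t * fy := by
      calc t * (x * y) * t = (t * x * t) * (t * y * t) := by
            calc t * (x * y) * t = t * x * (t * t) * y * t := by rw [htt]; group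
              _ = _ := by group
        _ = gx * hx * t * (fx * gy) * hy * t * fy := by rw [ex, ey]; group
    rw [h1] at e1
    have e2 : x * y = t * (gx * hx * (t * hy * t) * fy) * t := by
      calc x * y = (t * t) * (x * y) * (t * t) := by rw [htt]; group
        _ = t * (t * (x * y) * t) * t := by group
        _ = t * (gx * hx * (t * hy * t) * fy) * t := by rw [e1]; group
    -- x * y ∈ Q fixes a;  gx hx (t hy t) fy ∈ G_a fixes t • a?
    have hm : gx * hx * (t * hy * t) * fy ∈ MulAction.stabilizer G a :=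
      mul_mem (mul_mem (mul_mem (hS.le hgx) hhx.1) (tD hhy).1) (hS.le hfy)
    have hxyt : (x * y) • (t • a) = t • a := by
      rw [e2, ← mul_smul]
      have : t * (gx * hx * (t * hy * t) * fy) * t * t = t * (gx * hx * (t * hy * t) * fy) := by
        rw [mul_assoc _ t t, htt, mul_one]
      rw [this, mul_smul, show (gx * hx * (t * hy * t) * fy) • a = a from hm]
    exact hxy (H9.RankOne.Q_free hS (mul_mem hxQ hyQ) (H9.RankOne.ta_ne hS) hxyt)
  · intro gz hz fz g' h' f' hgz hhz hfz ez hg' hh' hf' e'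
    have e1 : t * (x * y) * t = gx * hx * (t * (fx * gy) * t) * (t * hy * t) * fy := by
      calc t * (x * y) * t = (t * x * t) * (t * y * t) := by
            calc t * (x * y) * t = t * x * (t * t) * y * t := by rw [htt]; group
              _ = _ := by group
        _ = gx * hx * t * (fx * gy) * 1 * hy * t * fy := by rw [ex, ey]; group
        _ = gx * hx * t * (fx * gy) * (t * t) * hy * t * fy := by rw [htt]
        _ = gx * hx * (t * (fx * gy) * t) * (t * hy * t) * fy := by group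
    rw [ez] at e1
    set c := t * hy * t with hc
    have hcD := tD hhy
    have htc : t * c = hy * t := by
      rw [hc, ← mul_assoc, ← mul_assoc, htt, one_mul]
    have e2 : t * (x * y) * t = (gx * (hx * gz * hx⁻¹)) * (hx * hz * hy) * t * (c⁻¹ * fz * c * fy) := by
      rw [e1]
      calc gx * hx * (gz * hz * t * fz) * c * fy = gx * (hx * gz * hx⁻¹) * hx * hz * (t * c) * (c⁻¹ * fz * c * fy) := by group
        _ = (gx * (hx * gz * hx⁻¹)) * (hx * hz * hy) * t * (c⁻¹ * fz * c * fy) := by rw [htc]; group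
    have m1 : gx * (hx * gz * hx⁻¹) ∈ Q := mul_mem hgx (hS.conj_mem hx hhx.1 gz hgz)
    have m2 : c⁻¹ * fz * c * fy ∈ Q := mul_mem (H9.RankOne.conj_Q hS hcD.1 hfz) hfy
    obtain ⟨-, h2, h3⟩ := cong hg' m1 hh' (mul_mem (mul_mem hhx hhz) hhy) hf' m2 (e'.symm.trans e2)
    exact ⟨h3, h2⟩

end Cfsg.Agent.S1166
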