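import Cfsg.Statements.S1167
import Cfsg.Agent.H20.ZChar8

set_option autoImplicit false
open Cfsg


namespace Cfsg.Agent.S1167

open Cfsg.Agent.H20.Zass MulAction in
/-- Let `G` be a finite simple Zassenhaus group on `Ω`, `U` a normal subgroup of `G_a` regular on `Ω` minus `a` which is an abelian 2-group, and `v` an involution with `v • a ≠ a`. Then there is a unique `u₀ ∈ U`, `u₀ ≠ 1`, with `v u₀ v = u₀ v u₀`. -/
theorem result {G Ω : Type*} [Group G] [Finite G] [MulAction G Ω] [Finite Ω]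
    (hZ : Cfsg.IsZassenhausGroup G Ω) [IsSimpleGroup G] {a : Ω}
    (U : Subgroup G) (hUle : U ≤ MulAction.stabilizer G a)
    (hUn : ∀ h ∈ MulAction.stabilizer G a, ∀ u ∈ U, h * u * h⁻¹ ∈ U)
    (hreg : ∀ c d : Ω, c ≠ a → d ≠ a → ∃! u : U, (u : G) • c = d)
    (hU2 : IsPGroup 2 U) (hUab : ∀ u ∈ U, ∀ u' ∈ U, u * u' = u' * u)
    (v : G) (hv1 : v ≠ 1) (hv2 : v * v = 1) (hva : v • a ≠ a) :
    ∃! u₀ : G, u₀ ∈ U ∧ u₀ ≠ 1 ∧ v * u₀ * v = u₀ * v * u₀ := by
  classical
  haveI := finite_group hZ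
  haveI : Fintype G := Fintype.ofFinite G
  have hUK : U = K hZ a := eq_K_of_regular hZ hUle hreg
  subst hUK
  set b := v • a with hb
  have hab : a ≠ b := Ne.symm hva
  have hvb : v • b = a := by rw [hb, ← mul_smul, hv2, one_smul]
  have hcardK := card_K hZ a
  have hK1 : 1 < Nat.card (K hZ a) := by
    rw [Finite.one_lt_card_iff_nontrivial]
    exact (Subgroup.nontrivial_iff_ne_bot _).mpr (K_ne_bot hZ a)
  have hevenK : Even (Nat.card (K hZ a)) := by
    obtain ⟨n, hn⟩ := hU2.exists_card_eq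
    rw [hn]
    have : n ≠ 0 := by rintro rfl; rw [hn] at hK1; norm_num at hK1
    exact (Nat.even_pow.mpr ⟨even_two, this⟩)
  have hodd : Odd (Nat.card Ω) := by
    rw [← hcardK]; exact hevenK.add_one
  have hodd2 := two_pt_odd_of_odd hZ hodd hab
  have h := oddInv_of_simple hZ hab hodd2
  have hle := h.card_le_of_abelian hab (fun x hx y hy => hUab x hx y hy)
  obtain ⟨-, p, f, hp, hexp, hcard⟩ := K_elementary hZ hab hle
  have hp2 : p = 2 := by
    have h1 : 2 ∣ Nat.card (K hZ a) := hevenK.two_dvd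
    rw [hcard] at h1
    exact ((Nat.prime_dvd_prime_iff_eq Nat.prime_two hp).mp (Nat.prime_two.dvd_of_dvd_pow h1)).symm
  subst hp2
  obtain ⟨c, hc, hcu⟩ := involution_fix_odd hZ hodd hv1 hv2
  have hca : c ≠ a := by
    rintro rfl
    exact hva hc
  have hcb : c ≠ b := by
    rintro hcb
    rw [hcb, hvb] at hc
    exact hab hc
  obtain ⟨u, hu, huc⟩ := exists_K hZ (Ne.symm hab) hca
  have hua : u • a = a := K_le hZ a hu
  have huu : u * u = 1 := by rw [← pow_two]; exact hexp u hu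
  have hucb : u • c = b := by rw [← huc, ← mul_smul, huu, one_smul]
  have hu1 : u ≠ 1 := by
    rintro rfl
    rw [one_smul] at huc
    exact hcb huc.symm
  refine ⟨u, ⟨hu, hu1, ?_⟩, ?_⟩
  · have e1 : (v * u) * (v * u) * (v * u) = 1 := by
      apply eq_one_of_fix3 hZ hab (Ne.symm hcb) (Ne.symm hca)
      · simp only [mul_smul]; rw [hua, ← hb, huc, hc, hucb, hvb]
      · simp only [mul_smul]; rw [huc, hc, hucb, hvb, hua]
      · simp only [mul_smul]; rw [hucb, hvb, hua, ← hb, huc, hc]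
    have hui : u⁻¹ = u := inv_eq_of_mul_eq_one_right huu
    have hvi : v⁻¹ = v := inv_eq_of_mul_eq_one_right hv2
    have e2 : v * u * v = (u * v * u)⁻¹ := by
      rw [eq_inv_iff_mul_eq_one]
      rw [← e1]; group
    rw [e2]
    rw [mul_inv_rev, mul_inv_rev, hui, hvi]; group
  · rintro w ⟨hw, hw1, hw2⟩
    have hwa : w • a = a := K_le hZ a hw
    have e1 := congrArg (fun g : G => g • a) hw2
    simp only [mul_smul] at e1
    rw [hwa, ← hb] at e1
    have e2 := hcu _ e1
    exact K_inj hZ (Ne.symm hab) hw hu (e2.trans huc.symm)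


end Cfsg.Agent.S1167
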