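import Cfsg.Statements.S1168
import Cfsg.Agent.H9.AddEnd

set_option autoImplicit false
open Cfsg

namespace Cfsg.Agent.S1168

/-- For a finite field `F` of characteristic 2: if `q : F → F` is quadratic over the prime field, i.e. `(x, y) ↦ q (x + y) + q x + q y` is additive in each variable, then `q x = Σ c_{σ,τ} σ(x) τ(x)` for some coefficients indexed by pairs of field automorphisms. -/
theorem result {F : Type*} [Field F] [Fintype F] [CharP F 2]
    (q : F → F)
    (hq : ∀ x y z : F, q (x + y + z) + q (x + y) + q (x + z) + q (y + z) + q x + q y + q z = 0) :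
    ∃ (s : Finset ((F ≃+* F) × (F ≃+* F))) (c : (F ≃+* F) × (F ≃+* F) → F),
      ∀ x : F, q x = ∑ p ∈ s, c p * (p.1 x * p.2 x) := by
  classical
  have := Fact.mk Nat.prime_two
  have := Cfsg.Agent.H9.AddEnd.finite_ringAut F
  letI : Fintype (F ≃+* F) := Fintype.ofFinite _
  letI : Algebra (ZMod 2) F := ZMod.algebra F 2
  have h2 : ∀ x : F, x + x = 0 := fun x => CharTwo.add_self_eq_zero x
  have hneg : ∀ x : F, -x = x := fun x => CharTwo.neg_eq x
  have hq0 : q 0 = 0 := by
    have h := hq 0 0 0
    simp only [add_zero] at h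
    have e := h2 (q 0)
    linear_combination h - 3 * e
  have hadd1 : ∀ x y z : F, q (x + (y + z)) + q x + q (y + z) =
      (q (x + y) + q x + q y) + (q (x + z) + q x + q z) := by
    intro x y z
    have h := hq x y z
    rw [← add_assoc x y z]
    linear_combination h - h2 (q (x + y)) - h2 (q (x + z)) - h2 (q y) - h2 (q z) - h2 (q x)
  let B : F →+ F →+ F := AddMonoidHom.mk' (fun x => AddMonoidHom.mk' (fun y => q (x + y) + q x + q y)
    (fun y z => by simpa using hadd1 x y z)) (fun x x' => by
      ext y
      have h := hadd1 y x x'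
      change q (x + x' + y) + q (x + x') + q y = (q (x + y) + q x + q y) + (q (x' + y) + q x' + q y)
      rw [add_comm (x + x') y, add_comm x y, add_comm x' y]
      linear_combination h)
  let BL : LinearMap.BilinMap (ZMod 2) F F := LinearMap.mk₂ (ZMod 2) (fun x y => B x y)
    (fun x x' y => by simp) (fun c x y => by
      obtain ⟨n, rfl⟩ := ZMod.natCast_zmod_surjective c
      rw [Nat.cast_smul_eq_nsmul, Nat.cast_smul_eq_nsmul, map_nsmul]; rfl)
    (fun x y y' => by simp) (fun c x y => by
      obtain ⟨n, rfl⟩ := ZMod.natCast_zmod_surjective c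
      rw [Nat.cast_smul_eq_nsmul, Nat.cast_smul_eq_nsmul, map_nsmul])
  let Q : QuadraticMap (ZMod 2) F F :=
    { toFun := q
      toFun_smul := by
        intro a x
        fin_cases a
        · change q ((0 : ZMod 2) • x) = ((0 : ZMod 2) * 0) • q x
          rw [zero_smul, mul_zero, zero_smul, hq0]
        · change q ((1 : ZMod 2) • x) = ((1 : ZMod 2) * 1) • q x
          rw [one_smul, mul_one, one_smul]
      exists_companion' := ⟨BL, fun x y => by
        change q (x + y) = q x + q y + (q (x + y) + q x + q y)
        linear_combination - h2 (q x) - h2 (q y)⟩ }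
  obtain ⟨C, hC⟩ := LinearMap.BilinMap.toQuadraticMap_surjective (R := ZMod 2) (M := F) (N := F) Q
  let C' : F →+ F →+ F := AddMonoidHom.mk' (fun x => (C x).toAddMonoidHom) (fun x x' => by ext y; simp)
  obtain ⟨c, hc⟩ := Cfsg.Agent.H9.AddEnd.exists_sum₂ 2 C'
  refine ⟨Finset.univ, c, fun x => ?_⟩
  rw [← hc x x]
  have h3 := congrArg (fun R : QuadraticMap (ZMod 2) F F => R x) hC
  exact h3.symm

end Cfsg.Agent.S1168
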