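import Cfsg.Statements.S1176
import Cfsg.Agent.H4.Isolated

set_option autoImplicit false
open Cfsg

namespace Cfsg.Agent.S1176

/-- Let x₀ be an involution of the finite group G and D its conjugacy class. Assume (a) for each x ∈ D the subgroup W(x) generated by the members of D commuting with x is a 2-group of nilpotency class at most 2, and (b) the product of two distinct commuting members of D again lies in D. Then for all x, y ∈ D, if xy has even order greater than 2, its order is 4. -/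
theorem result {G : Type*} [Group G] [Finite G] (x₀ : G) (hx₀ : orderOf x₀ = 2) (ha : ∀ x : G, IsConj x₀ x → IsPGroup 2 ↥(Subgroup.closure {y : G | IsConj x₀ y ∧ Commute y x}) ∧ ⁅⁅Subgroup.closure {y : G | IsConj x₀ y ∧ Commute y x}, Subgroup.closure {y : G | IsConj x₀ y ∧ Commute y x}⁆, Subgroup.closure {y : G | IsConj x₀ y ∧ Commute y x}⁆ = ⊥) (hb : ∀ x y : G, IsConj x₀ x → IsConj x₀ y → x ≠ y → Commute x y → IsConj x₀ (x * y)) (x y : G) (hx : IsConj x₀ x) (hy : IsConj x₀ y) (heven : Even (orderOf (x * y))) (hgt : 2 < orderOf (x * y)) : orderOf (x * y) = 4 := by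
  have ord2 : ∀ w, IsConj x₀ w → orderOf w = 2 := by
    intro w hw
    obtain ⟨c, hc⟩ := isConj_iff.1 hw
    rw [← hc, H4.orderOf_conj, hx₀]
  have hxx := H4.mul_self_of_orderOf_two (ord2 x hx)
  have hyy := H4.mul_self_of_orderOf_two (ord2 y hy)
  have h0 : orderOf (x * y) ≠ 0 := (orderOf_pos _).ne'
  have hord := H4.even_pow_half h0 heven
  obtain ⟨hcx, hcy⟩ := H4.commute_pow_half hxx hyy h0 heven
  set z := (x * y) ^ (orderOf (x * y) / 2) with hz
  have hxz : IsConj x₀ (x * z) := by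
    rcases Nat.even_or_odd' (orderOf (x * y) / 2) with ⟨k, hk | hk⟩
    · have := H4.isConj_refl_even hxx hyy (k : ℤ)
      rw [hz, hk]
      exact hx.trans (by exact_mod_cast this)
    · have := H4.isConj_refl_odd hxx hyy (k : ℤ)
      rw [hz, hk]
      exact hy.trans (by exact_mod_cast this)
  have hzD : IsConj x₀ z := by
    have h1 := hb x (x * z) hx hxz (by
      intro h
      have h2 : x * 1 = x * z := by rw [mul_one]; exact h
      have h3 := mul_left_cancel h2
      rw [← h3] at hord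
      simp at hord) ((Commute.refl x).mul_right hcx.symm)
    rwa [← mul_assoc, hxx, one_mul] at h1
  obtain ⟨-, h2⟩ := ha z hzD
  set W := Subgroup.closure {y : G | IsConj x₀ y ∧ Commute y z} with hW
  have hxW : x ∈ W := Subgroup.subset_closure ⟨hx, hcx.symm⟩
  have hyW : y ∈ W := Subgroup.subset_closure ⟨hy, hcy.symm⟩
  have hxi := H4.inv_eq_self_of_mul_self hxx
  have hyi := H4.inv_eq_self_of_mul_self hyy
  have h3 : x * y * x⁻¹ * y⁻¹ ∈ ⁅W, W⁆ := Subgroup.commutator_mem_commutator hxW hyW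
  have h5 : x * y * x⁻¹ * y⁻¹ = (x * y) ^ 2 := by
    rw [hxi, hyi, pow_two]; simp only [mul_assoc]
  rw [h5] at h3
  have h4 : (x * y) ^ 2 * x * ((x * y) ^ 2)⁻¹ * x⁻¹ ∈ ⁅⁅W, W⁆, W⁆ := Subgroup.commutator_mem_commutator h3 hxW
  rw [h2, Subgroup.mem_bot, mul_inv_eq_one, mul_inv_eq_iff_eq_mul] at h4
  have h6 := H4.conj_pow_inv (H4.inv_conj_mul hxx hyy) 2
  rw [← h4, mul_inv_cancel_right] at h6
  have h7 : (x * y) ^ 4 = 1 := by
    have : (x * y) ^ 4 = (x * y) ^ 2 * (x * y) ^ 2 := by rw [← pow_add]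
    rw [this]
    nth_rewrite 1 [h6]
    exact inv_mul_cancel _
  have h8 : orderOf (x * y) ∣ 4 := orderOf_dvd_of_pow_eq_one h7
  have h9 := Nat.le_of_dvd (by norm_num) h8
  obtain ⟨j, hj⟩ := heven
  obtain ⟨l, hl⟩ := h8
  interval_cases h : orderOf (x * y)
  · omega
  · rfl

end Cfsg.Agent.S1176
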