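import Cfsg.Statements.S1177
import Cfsg.Agent.H4.Basic2

set_option autoImplicit false
open Cfsg

namespace Cfsg.Agent.S1177

/-- Let A be a nontrivial elementary abelian 2-subgroup of a finite group G which is a T.I. set (each conjugate of A meets A trivially or equals A) and which does not commute elementwise with any conjugate of A other than A itself. Then for every a ∈ A, a ≠ 1, every conjugate of A contained in C_G(a) is equal to A (A is weakly closed in C_G(a)). -/
theorem result {G : Type*} [Group G] [Finite G] (A : Subgroup G) (hA : Cfsg.IsElementaryAbelian 2 A) (hA1 : A ≠ ⊥) (hTI : ∀ g : G, A.map (MulAut.conj g).toMonoidHom ⊓ A = ⊥ ∨ A.map (MulAut.conj g).toMonoidHom = A) (hb : ∀ g : G, (∀ a ∈ A, ∀ b ∈ A.map (MulAut.conj g).toMonoidHom, a * b = b * a) → A.map (MulAut.conj g).toMonoidHom = A) (a : G) (ha : a ∈ A) (ha1 : a ≠ 1) (g : G) (hg : A.map (MulAut.conj g).toMonoidHom ≤ Subgroup.centralizer ({a} : Set G)) : A.map (MulAut.conj g).toMonoidHom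 = A := by
  haveI : Fact (Nat.Prime 2) := ⟨Nat.prime_two⟩
  set B := A.map (MulAut.conj g).toMonoidHom with hB
  by_contra hne
  have hdisj : B ⊓ A = ⊥ := (hTI g).resolve_right hne
  have hAcomm : ∀ x ∈ A, ∀ y ∈ A, x * y = y * x := by
    intro x hx y hy
    exact congrArg Subtype.val (hA.1.is_comm.comm (⟨x, hx⟩ : A) ⟨y, hy⟩)
  have hBcomm : ∀ x ∈ B, ∀ y ∈ B, x * y = y * x := by
    rintro _ ⟨x, hx, rfl⟩ _ ⟨y, hy, rfl⟩
    rw [← map_mul, ← map_mul, hAcomm x hx y hy]
  have hAp : IsPGroup 2 A := by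
    rintro ⟨x, hx⟩
    exact ⟨1, Subtype.ext (by simpa using hA.2 x hx)⟩
  have hBp : IsPGroup 2 B := H4.isPGroup_map_conj hAp g
  -- B normalizes A
  have hBN : B ≤ Subgroup.normalizer (A : Set G) := by
    intro x hx
    rw [← H4.map_conj_eq_iff_mem_normalizer]
    rcases hTI x with h | h
    · exfalso
      apply ha1
      have : a ∈ A.map (MulAut.conj x).toMonoidHom ⊓ A := by
        refine Subgroup.mem_inf.2 ⟨?_, ha⟩
        rw [H4.mem_map_conj]
        have h1 := Subgroup.mem_centralizer_singleton_iff.1 (hg hx)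
        rw [mul_assoc, ← h1]
        simpa using ha
      rw [h] at this
      exact this
    · exact h
  have hPp : IsPGroup 2 (B ⊔ A : Subgroup G) := H4.isPGroup_sup hBp hAp hBN
  set Z := A ⊓ Subgroup.centralizer (B : Set G) with hZ
  have hZB : ∀ z ∈ Z, ∀ b ∈ B, z * b = b * z := by
    intro z hz b hb'
    exact (Subgroup.mem_centralizer_iff.1 (Subgroup.mem_inf.1 hz).2 b hb').symm
  -- elements of B ⊔ Z commute with B
  have hsupcomm : ∀ x ∈ B ⊔ Z, ∀ b ∈ B, x * b = b * x := by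
    intro x hx b hb'
    have : B ⊔ Z ≤ Subgroup.centralizer (B : Set G) := by
      apply sup_le
      · intro y hy
        rw [Subgroup.mem_centralizer_iff]
        intro w hw
        exact hBcomm w hw y hy
      · exact inf_le_right
    exact (Subgroup.mem_centralizer_iff.1 (this hx) b hb').symm
  have hnotle : ¬ A ≤ Subgroup.centralizer (B : Set G) := by
    intro h
    apply hne
    apply hb g
    intro x hx b hb'
    exact (Subgroup.mem_centralizer_iff.1 (h hx) b hb').symm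
  have hlt : B ⊔ Z < B ⊔ A := by
    refine lt_of_le_of_ne (sup_le le_sup_left (inf_le_left.trans le_sup_right)) ?_
    intro heq
    apply hnotle
    intro x hx
    have hx1 : x ∈ B ⊔ Z := by rw [heq]; exact (le_sup_right : A ≤ B ⊔ A) hx
    rw [Subgroup.mem_centralizer_iff]
    intro w hw
    exact (hsupcomm x hx1 w hw).symm
  obtain ⟨n, hn, hn1, hn2⟩ := H4.normalizer_lt_of_lt_sylow hPp hlt
  -- n = b' * a'
  obtain ⟨b', hb', a', ha', hba⟩ := H4.exists_mul_of_mem_sup hBN hn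
  have hb'm : b' ∈ Subgroup.normalizer ((B ⊔ Z : Subgroup G) : Set G) :=
    Subgroup.le_normalizer ((le_sup_left : B ≤ B ⊔ Z) hb')
  have ha'N : a' ∈ Subgroup.normalizer ((B ⊔ Z : Subgroup G) : Set G) := by
    have := mul_mem (inv_mem hb'm) hn2
    rw [← hba] at this
    simpa using this
  have ha'1 : a' ∉ B ⊔ Z := by
    intro h
    apply hn1
    rw [← hba]
    exact mul_mem ((le_sup_left : B ≤ B ⊔ Z) hb') h
  -- B^{a'} commutes with B
  have hcc : ∀ b ∈ B, ∀ c ∈ B, (a' * b * a'⁻¹) * c = c * (a' * b * a'⁻¹) := by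
    intro b hb1 c hc1
    apply hsupcomm _ _ c hc1
    exact (Subgroup.mem_normalizer_iff.1 ha'N b).1 ((le_sup_left : B ≤ B ⊔ Z) hb1)
  have hkey := hb (g⁻¹ * a' * g) (by
    intro x hx y hy
    rw [H4.mem_map_conj] at hy
    have h1 : g * x * g⁻¹ ∈ B := H4.conj_mem_map_conj g hx
    have h2 : g * ((g⁻¹ * a' * g)⁻¹ * y * (g⁻¹ * a' * g)) * g⁻¹ ∈ B := H4.conj_mem_map_conj g hy
    have h3 := hcc _ h2 _ h1
    have e1 : a' * (g * ((g⁻¹ * a' * g)⁻¹ * y * (g⁻¹ * a' * g)) * g⁻¹) * a'⁻¹ = g * y * g⁻¹ := by group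
    rw [e1] at h3
    have e2 : g * y * g⁻¹ * (g * x * g⁻¹) = g * (y * x) * g⁻¹ := by group
    have e3 : g * x * g⁻¹ * (g * y * g⁻¹) = g * (x * y) * g⁻¹ := by group
    rw [e2, e3] at h3
    exact (mul_left_cancel (mul_right_cancel h3)).symm)
  have hBa' : B.map (MulAut.conj a').toMonoidHom = B := by
    rw [hB, H4.map_conj_mul]
    have : A.map (MulAut.conj (g * (g⁻¹ * a' * g))).toMonoidHom = A.map (MulAut.conj g).toMonoidHom := by
      rw [← H4.map_conj_mul, hkey]
    have e : g * (g⁻¹ * a' * g) = a' * g := by group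
    rwa [e] at this
  rw [H4.map_conj_eq_iff_mem_normalizer] at hBa'
  apply ha'1
  apply (le_sup_right : Z ≤ B ⊔ Z)
  refine Subgroup.mem_inf.2 ⟨ha', ?_⟩
  rw [Subgroup.mem_centralizer_iff]
  intro b hb1
  have h1 : a' * b * a'⁻¹ * b⁻¹ ∈ B ⊓ A := by
    refine Subgroup.mem_inf.2 ⟨mul_mem ((Subgroup.mem_normalizer_iff.1 hBa' b).1 hb1) (inv_mem hb1), ?_⟩
    have h2 := (Subgroup.mem_normalizer_iff.1 (hBN hb1) a'⁻¹).1 (inv_mem ha')
    have h3 := mul_mem ha' h2
    have e : a' * (b * a'⁻¹ * b⁻¹) = a' * b * a'⁻¹ * b⁻¹ := by group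
    rwa [e] at h3
  rw [hdisj, Subgroup.mem_bot] at h1
  have h2 : a' * b * a'⁻¹ = b := mul_inv_eq_one.1 h1
  exact (mul_inv_eq_iff_eq_mul.mp h2).symm

end Cfsg.Agent.S1177
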