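import Cfsg.Statements.S1178
import Cfsg.Agent.H4.Basic2

set_option autoImplicit false
open Cfsg

namespace Cfsg.Agent.S1178

/-- Let A be a subgroup of a Sylow 2-subgroup S of the finite group G which is weakly closed in S. If a conjugate g A g⁻¹ commutes elementwise with A, then g A g⁻¹ = A. -/
theorem result {G : Type*} [Group G] [Finite G] (S : Sylow 2 G) (A : Subgroup G) (hW : Cfsg.IsWeaklyClosed A (S : Subgroup G)) (g : G) (hc : ∀ a ∈ A, ∀ b ∈ A.map (MulAut.conj g).toMonoidHom, a * b = b * a) : A.map (MulAut.conj g).toMonoidHom = A := by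
  obtain ⟨hAS, hW⟩ := hW
  have hAp : IsPGroup 2 A := S.2.to_le hAS
  have hp := H4.isPGroup_sup hAp (H4.isPGroup_map_conj hAp g) (H4.le_normalizer_of_commute hc)
  obtain ⟨h, hh⟩ := H4.exists_map_conj_le_sylow S _ hp
  rw [Subgroup.map_sup, sup_le_iff, H4.map_conj_mul] at hh
  have h1 := hW h hh.1
  have h2 := hW (h * g) hh.2
  rw [H4.map_conj_eq_iff_mem_normalizer] at h1 h2 ⊢
  have := mul_mem (inv_mem h1) h2
  simpa using this

end Cfsg.Agent.S1178
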