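import Cfsg.Statements.S1183
import Cfsg.Agent.H4.ZStarF
import Cfsg.Agent.H2.Residual

set_option autoImplicit false
open Cfsg

namespace Cfsg.Agent.S1183

/-- Let z be an isolated involution of the finite group G and C = C_G(z). Then the subgroup of G generated by its elements of odd order is all of G if and only if the subgroup of C generated by its elements of odd order is all of C. -/
theorem result {G : Type*} [Group G] [Finite G] (z : G) (hz : Cfsg.IsIsolatedInvolution z) : Cfsg.pResidual 2 G = ⊤ ↔ Cfsg.pResidual 2 ↥(Subgroup.centralizer ({z} : Set G)) = ⊤ := by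
  have hOn : (oddCore G).Normal := Cfsg.Agent.H1.pPrimeCore_normal 2 G
  set C := Subgroup.centralizer ({z} : Set G) with hC
  have hOmem : ∀ k ∈ oddCore G, Odd (orderOf k) := by
    intro k hk
    have h1 : orderOf (⟨k, hk⟩ : oddCore G) ∣ Nat.card (oddCore G) := orderOf_dvd_natCard _
    rw [Subgroup.orderOf_mk] at h1
    exact Odd.of_dvd_nat (H4.oddCore_odd G) h1
  constructor
  · intro h
    set R := pResidual 2 C with hR
    have hHtop : oddCore G ⊔ R.map C.subtype = ⊤ := by
      rw [eq_top_iff, ← h]
      unfold pResidual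
      rw [Subgroup.closure_le]
      intro g hg
      have hg' : Odd (orderOf g) := Nat.coprime_two_right.1 hg
      obtain ⟨k, hk, c, hc, rfl⟩ := H4.zstar_factor hz g
      apply mul_mem (Subgroup.mem_sup_left hk)
      apply Subgroup.mem_sup_right
      refine ⟨⟨c, hc⟩, Subgroup.subset_closure ?_, rfl⟩
      show Nat.Coprime (orderOf (⟨c, hc⟩ : C)) 2
      rw [Nat.coprime_two_right, Subgroup.orderOf_mk]
      -- c has odd order
      have h1 : c ^ orderOf (k * c) ∈ oddCore G := by
        have h2 : (QuotientGroup.mk' (oddCore G)) (c ^ orderOf (k * c)) = 1 := by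
          have h3 : (QuotientGroup.mk' (oddCore G)) c = (QuotientGroup.mk' (oddCore G)) (k * c) := by
            have h4 : (QuotientGroup.mk' (oddCore G)) k = 1 := (QuotientGroup.eq_one_iff k).2 hk
            rw [map_mul, h4, one_mul]
          rw [map_pow, h3, ← map_pow, pow_orderOf_eq_one, map_one]
        exact (QuotientGroup.eq_one_iff _).1 h2
      have h2 := hOmem _ h1
      have h3 : orderOf c ∣ orderOf (k * c) * orderOf (c ^ orderOf (k * c)) := by
        apply orderOf_dvd_of_pow_eq_one
        rw [pow_mul, pow_orderOf_eq_one]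
      exact Odd.of_dvd_nat (hg'.mul h2) h3
    rw [eq_top_iff]
    rintro ⟨c, hc⟩ -
    have h1 : c ∈ oddCore G ⊔ R.map C.subtype := by rw [hHtop]; exact Subgroup.mem_top c
    rw [Subgroup.mem_sup_of_normal_left] at h1
    obtain ⟨k, hk, _, ⟨r, hr, rfl⟩, hkr⟩ := h1
    have hkC : k ∈ C := by
      have : k = c * (r : G)⁻¹ := by rw [← hkr]; exact (mul_inv_cancel_right k (r : G)).symm
      rw [this]; exact mul_mem hc (inv_mem r.2)
    have hkR : (⟨k, hkC⟩ : C) ∈ R := by
      apply Subgroup.subset_closure
      show Nat.Coprime (orderOf (⟨k, hkC⟩ : C)) 2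
      rw [Nat.coprime_two_right, Subgroup.orderOf_mk]
      exact hOmem k hk
    have : (⟨c, hc⟩ : C) = ⟨k, hkC⟩ * r := Subtype.ext hkr.symm
    rw [this]; exact mul_mem hkR hr
  · intro h
    rw [eq_top_iff]
    intro g _
    obtain ⟨k, hk, c, hc, rfl⟩ := H4.zstar_factor hz g
    apply mul_mem
    · exact Subgroup.subset_closure (Nat.coprime_two_right.2 (hOmem k hk))
    · have h1 : (⟨c, hc⟩ : C) ∈ pResidual 2 C := by rw [h]; exact Subgroup.mem_top _
      have h2 : (pResidual 2 C).map C.subtype ≤ pResidual 2 G := by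
        unfold pResidual
        rw [MonoidHom.map_closure, Subgroup.closure_le]
        rintro _ ⟨y, hy, rfl⟩
        apply Subgroup.subset_closure
        have hy' : Nat.Coprime (orderOf y) 2 := hy
        show Nat.Coprime (orderOf (y : G)) 2
        rwa [Subgroup.orderOf_coe]
      exact h2 ⟨_, h1, rfl⟩

end Cfsg.Agent.S1183
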