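import Cfsg.Statements.S1184
import Cfsg.Agent.H4.Basic2

set_option autoImplicit false
open Cfsg

namespace Cfsg.Agent.S1184

/-- Let z be an isolated involution of the finite group G. If s and t are distinct conjugates of z, then st does not commute with z. -/
theorem result {G : Type*} [Group G] [Finite G] (z : G) (hz : Cfsg.IsIsolatedInvolution z) (g h : G) (hne : g * z * g⁻¹ ≠ h * z * h⁻¹) : ¬ Commute (g * z * g⁻¹ * (h * z * h⁻¹)) z := by
  intro hc
  have hzz := H4.mul_self_of_orderOf_two hz.1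
  set s := g * z * g⁻¹ with hs
  set t := h * z * h⁻¹ with ht
  have hss : s * s = 1 := H4.conj_mul_self hzz
  have htt : t * t = 1 := H4.conj_mul_self hzz
  have hs' := H4.inv_eq_self_of_mul_self hss
  -- a = s * t has odd order
  have haodd : Odd (orderOf (s * t)) := by
    have h1 := H4.odd_of_isolated hz (g⁻¹ * h)
    have h2 : orderOf (s * t) = orderOf (z * (g⁻¹ * h * z * (g⁻¹ * h)⁻¹)) := by
      rw [← H4.orderOf_conj (z * (g⁻¹ * h * z * (g⁻¹ * h)⁻¹)) g]
      congr 1
      rw [hs, ht]; group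
    rw [h2]; exact h1
  -- z*s has odd order and its square centralizes a
  have hzs := H4.odd_of_isolated hz g
  rw [← hs] at hzs
  have hsa : s * (s * t) * s⁻¹ = (s * t)⁻¹ := H4.inv_conj_mul hss htt
  have hzsa : (z * s) * (s * t) * (z * s)⁻¹ = (s * t)⁻¹ := by
    have hc' : Commute (s * t)⁻¹ z := hc.inv_left
    calc (z * s) * (s * t) * (z * s)⁻¹ = z * (s * (s * t) * s⁻¹) * z⁻¹ := by group
      _ = (s * t)⁻¹ * z * z⁻¹ := by rw [hsa, hc'.eq]
      _ = (s * t)⁻¹ := by group
  have h3 := H4.sq_mul_comm_of_inverts hzsa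
  have h4 := H4.commute_of_sq_commute_of_odd hzs h3
  rw [h4.eq, mul_assoc, mul_inv_cancel, mul_one] at hzsa
  have h5 : (s * t) ^ 2 ^ 1 = 1 := by
    rw [pow_one, pow_two]; nth_rewrite 2 [hzsa]; exact mul_inv_cancel _
  have h6 := H4.isPGroup_odd_eq_one h5 haodd
  apply hne
  calc s = s * (t * t) := by rw [htt, mul_one]
    _ = (s * t) * t := (mul_assoc s t t).symm
    _ = t := by rw [h6, one_mul]

end Cfsg.Agent.S1184
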