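import Cfsg.Statements.S1185
import Cfsg.Agent.H4.Basic2

set_option autoImplicit false
open Cfsg

namespace Cfsg.Agent.S1185

theorem half_pow {G : Type*} [Group G] {b : G} {m : ℕ} (hm : orderOf b = 2 * m + 1) : (b ^ (m + 1)) ^ 2 = b := by
  rw [← pow_mul, show (m + 1) * 2 = (2 * m + 1) + 1 by ring, pow_succ, ← hm, pow_orderOf_eq_one, one_mul]

theorem root_unique {G : Type*} [Group G] [Finite G] {k l : G} (hk : Odd (orderOf k)) (hl : Odd (orderOf l)) (h : k ^ 2 = l ^ 2) :
    k = l := by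
  obtain ⟨m, hm⟩ := hk
  obtain ⟨n, hn⟩ := hl
  -- both orders equal the order of the square
  have h1 : ∀ x : G, ∀ r : ℕ, orderOf x = 2 * r + 1 → orderOf (x ^ 2) = 2 * r + 1 := by
    intro x r hr
    rw [Nat.Coprime.orderOf_pow]
    · exact hr
    · rw [hr]; exact (Nat.coprime_two_right.2 (by simp [parity_simps]))
  have h2 := h1 k m hm
  have h3 := h1 l n hn
  rw [h, h3] at h2
  have h4 : m = n := by omega
  subst h4
  calc k = (k ^ 2) ^ (m + 1) := by
        rw [← pow_mul, show 2 * (m + 1) = (2 * m + 1) + 1 by ring, pow_succ, ← hm, pow_orderOf_eq_one, one_mul]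
    _ = (l ^ 2) ^ (m + 1) := by rw [h]
    _ = l := by rw [← pow_mul, show 2 * (m + 1) = (2 * m + 1) + 1 by ring, pow_succ, ← hn, pow_orderOf_eq_one, one_mul]

/-- Let z be an isolated involution of the finite group G with centralizer C. Then for every g ∈ G there is exactly one element k in the coset gC that has odd order and is inverted by z. -/
theorem result {G : Type*} [Group G] [Finite G] (z : G) (hz : Cfsg.IsIsolatedInvolution z) (g : G) : ∃! k : G, (Odd (orderOf k) ∧ z * k * z⁻¹ = k⁻¹) ∧ g⁻¹ * k ∈ Subgroup.centralizer ({z} : Set G) := by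
  have hzz := H4.mul_self_of_orderOf_two hz.1
  have hz' := H4.inv_eq_self_of_mul_self hzz
  set y := g * z * g⁻¹ with hy
  have hyy : y * y = 1 := H4.conj_mul_self hzz
  have hy' := H4.inv_eq_self_of_mul_self hyy
  -- b = y * z
  have hodd0 := H4.odd_of_isolated hz g
  rw [← hy] at hodd0
  have hodd : Odd (orderOf (y * z)) := by
    have : (z * y)⁻¹ = y * z := by rw [mul_inv_rev, hz', hy']
    rw [← this, orderOf_inv]; exact hodd0
  obtain ⟨m, hm⟩ := hodd
  have hinv : z * (y * z) * z⁻¹ = (y * z)⁻¹ := H4.inv_conj_mul' hyy hzz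
  have keyeq : ∀ k : G, z * k * z⁻¹ = k⁻¹ → (g⁻¹ * k ∈ Subgroup.centralizer ({z} : Set G) ↔ k ^ 2 = y * z) := by
    intro k hk
    rw [Subgroup.mem_centralizer_singleton_iff]
    have h1 : k * z * k⁻¹ = k ^ 2 * z := by
      have h2 : z * k⁻¹ = k * z := by
        have : z * k = k⁻¹ * z := mul_inv_eq_iff_eq_mul.mp hk
        calc z * k⁻¹ = k * (k⁻¹ * z) * k⁻¹ := by group
          _ = k * z := by rw [← this]; group
      rw [mul_assoc, h2, pow_two, mul_assoc]
    constructor
    · intro h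
      have h3 : k * z * k⁻¹ = y := by
        rw [hy]
        calc k * z * k⁻¹ = g * (g⁻¹ * k * z) * k⁻¹ := by group
          _ = g * z * g⁻¹ := by rw [h]; group
      rw [h1] at h3
      rw [← h3, mul_assoc, hzz, mul_one]
    · intro h
      have h3 : k * z * k⁻¹ = y := by rw [h1, h, mul_assoc, hzz, mul_one]
      calc g⁻¹ * k * z = g⁻¹ * (k * z * k⁻¹) * k := by group
        _ = z * (g⁻¹ * k) := by rw [h3, hy]; group
  refine ⟨(y * z) ^ (m + 1), ⟨⟨?_, ?_⟩, ?_⟩, ?_⟩
  · have h1 : orderOf ((y * z) ^ (m + 1)) ∣ orderOf (y * z) := orderOf_pow_dvd _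
    exact Odd.of_dvd_nat ⟨m, hm⟩ h1
  · exact H4.conj_pow_inv hinv _
  · rw [keyeq _ (H4.conj_pow_inv hinv _)]
    exact half_pow hm
  · rintro k ⟨⟨hk1, hk2⟩, hk3⟩
    rw [keyeq _ hk2] at hk3
    apply root_unique hk1
    · have h1 : orderOf ((y * z) ^ (m + 1)) ∣ orderOf (y * z) := orderOf_pow_dvd _
      exact Odd.of_dvd_nat ⟨m, hm⟩ h1
    · rw [hk3, half_pow hm]

end Cfsg.Agent.S1185
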