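import Cfsg.Statements.S1186
import Cfsg.Agent.H4.Isolated
import Cfsg.Agent.H4.Basic2

set_option autoImplicit false
open Cfsg

namespace Cfsg.Agent.S1186

theorem exists_pi {G : Type*} [Group G] [Finite G] {z : G} (hz : IsIsolatedInvolution z) {s : G} (hs : orderOf s = 2)
    (hsz : Commute s z) (hne : s ≠ z) {y : G} (hy : IsConj z y) :
    ∃ x, IsConj z x ∧ Commute x s ∧ Commute y (s * x) := by
  obtain ⟨g, hg⟩ := isConj_iff.1 hy
  have hzz := H4.mul_self_of_orderOf_two hz.1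
  have hss := H4.mul_self_of_orderOf_two hs
  have hyy : y * y = 1 := by rw [← hg]; exact H4.conj_mul_self hzz
  have h0 : orderOf (s * y) ≠ 0 := (orderOf_pos _).ne'
  have hev : Even (orderOf (s * y)) := by
    rw [← Nat.not_odd_iff_even]
    intro hodd
    obtain ⟨k, hk⟩ := H4.conj_of_odd hss hyy hodd
    -- s conj to y, hence to z; commutes with z
    have h1 : IsConj z s := hy.trans (isConj_iff.2 ⟨_, hk⟩).symm
    obtain ⟨c, hc⟩ := isConj_iff.1 h1
    have h2 := hz.2 c (by rw [hc]; exact hsz.symm)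
    rw [hc] at h2
    exact hne h2
  set n := orderOf (s * y) with hn
  set w := (s * y) ^ (n / 2) with hw
  have hw2 := H4.even_pow_half h0 hev
  obtain ⟨hws, hwy⟩ := H4.commute_pow_half hss hyy h0 hev
  rw [← hn, ← hw] at hws hwy hw2
  have hww := H4.mul_self_of_orderOf_two hw2
  have hwinv : (y * s) ^ (n / 2) = w := by
    have h1 : y * s = (s * y)⁻¹ := by
      rw [mul_inv_rev, H4.inv_eq_self_of_mul_self hss, H4.inv_eq_self_of_mul_self hyy]
    rw [h1, inv_pow, ← hw, H4.inv_eq_self_of_mul_self hww]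
  rcases Nat.even_or_odd' (n / 2) with ⟨k, hk | hk⟩
  · -- impossible case
    exfalso
    have h1 := H4.isConj_refl_even hyy hss (k : ℤ)
    have h2 : (y * s) ^ (2 * (k : ℤ)) = w := by
      rw [← hwinv, hk, ← zpow_natCast]; push_cast; rfl
    rw [h2] at h1
    obtain ⟨c, hc⟩ := isConj_iff.1 (hy.trans h1)
    -- y w commutes with y, both conjugates of z
    have h3 : Commute y (y * w) := (Commute.refl y).mul_right hwy.symm
    have h4 : Commute z ((g⁻¹ * c) * z * (g⁻¹ * c)⁻¹) := by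
      have e1 : (g⁻¹ * c) * z * (g⁻¹ * c)⁻¹ = g⁻¹ * (y * w) * g := by rw [← hc]; group
      have e2 : z = g⁻¹ * y * g := by rw [← hg]; group
      show z * ((g⁻¹ * c) * z * (g⁻¹ * c)⁻¹) = ((g⁻¹ * c) * z * (g⁻¹ * c)⁻¹) * z
      rw [e1, e2]
      calc g⁻¹ * y * g * (g⁻¹ * (y * w) * g) = g⁻¹ * (y * (y * w)) * g := by group
        _ = g⁻¹ * ((y * w) * y) * g := by rw [h3.eq]
        _ = _ := by group
    have h5 := hz.2 _ h4
    have e1 : (g⁻¹ * c) * z * (g⁻¹ * c)⁻¹ = g⁻¹ * (y * w) * g := by rw [← hc]; group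
    rw [e1] at h5
    have h6 : y * w = y := by
      have : y * w = g * (g⁻¹ * (y * w) * g) * g⁻¹ := by group
      rw [this, h5, hg]
    exact H4.ne_one_of_orderOf_two hw2 (mul_eq_left.1 h6)
  · refine ⟨s * w, ?_, ?_, ?_⟩
    · have h1 := H4.isConj_refl_odd hss hyy (k : ℤ)
      have h2 : (s * y) ^ (2 * (k : ℤ) + 1) = w := by
        rw [hw, hk, ← zpow_natCast]; push_cast; rfl
      rw [h2] at h1
      exact hy.trans h1
    · exact (Commute.refl s).mul_left hws
    · rw [← mul_assoc, hss, one_mul]; exact hwy.symm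

theorem conj_prod_odd {G : Type*} [Group G] [Finite G] {z : G} (hz : IsIsolatedInvolution z) {x y : G}
    (hx : IsConj z x) (hy : IsConj z y) : Odd (orderOf (x * y)) := by
  obtain ⟨c, rfl⟩ := isConj_iff.1 hx
  obtain ⟨d, rfl⟩ := isConj_iff.1 hy
  have h1 := H4.odd_of_isolated hz (c⁻¹ * d)
  have h2 : c * z * c⁻¹ * (d * z * d⁻¹) = c * (z * ((c⁻¹ * d) * z * (c⁻¹ * d)⁻¹)) * c⁻¹ := by group
  rw [h2, H4.orderOf_conj]; exact h1

theorem pow_eq {G : Type*} [Group G] [Finite G] {z : G} (hz : IsIsolatedInvolution z) {s x y : G} (hs : orderOf s = 2)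
    (hx : IsConj z x) (hy : IsConj z y) (hxs : Commute x s) (hys : Commute y (s * x)) {M : ℕ} (hM : Odd M)
    (hd : orderOf (x * y) ∣ M) : (s * y) ^ M = s * x := by
  have hzz := H4.mul_self_of_orderOf_two hz.1
  have hxx : x * x = 1 := by obtain ⟨c, rfl⟩ := isConj_iff.1 hx; exact H4.conj_mul_self hzz
  have hss := H4.mul_self_of_orderOf_two hs
  have h1 : s * y = (s * x) * (x * y) := by
    rw [mul_assoc s x, ← mul_assoc x x, hxx, one_mul]
  have h2 : Commute (s * x) (x * y) := by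
    apply Commute.mul_right
    · exact (hxs.symm.mul_left (Commute.refl x))
    · exact hys.symm
  rw [h1, h2.mul_pow, orderOf_dvd_iff_pow_eq_one.1 hd, mul_one]
  obtain ⟨m, rfl⟩ := hM
  have h3 : (s * x) * (s * x) = 1 := by
    rw [mul_assoc, ← mul_assoc x, hxs.eq, mul_assoc s x, hxx, mul_one, hss]
  rw [pow_succ, pow_mul, pow_two, h3, one_pow, one_mul]

noncomputable def cEquiv {G : Type*} [Group G] [Finite G] {z : G} (hz : IsIsolatedInvolution z) {u : G} (hu : Commute u z) :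
    {y : G // IsConj z y ∧ Commute y u} ≃ {k : G // Odd (orderOf k) ∧ z * k * z⁻¹ = k⁻¹ ∧ Commute k u} where
  toFun y := ⟨z * y, by
    obtain ⟨y, hy, hyu⟩ := y
    have hzz := H4.mul_self_of_orderOf_two hz.1
    have hyy : y * y = 1 := by obtain ⟨c, rfl⟩ := isConj_iff.1 hy; exact H4.conj_mul_self hzz
    refine ⟨conj_prod_odd hz (IsConj.refl z) hy, ?_, hu.symm.mul_left hyu⟩
    exact H4.inv_conj_mul hzz hyy⟩
  invFun k := ⟨z * k, by
    obtain ⟨k, hk, hzk, hku⟩ := k
    have hzz := H4.mul_self_of_orderOf_two hz.1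
    have hzi := H4.inv_eq_self_of_mul_self hzz
    have h1 : (z * k) * (z * k) = 1 := by
      rw [hzi] at hzk
      calc z * k * (z * k) = (z * k * z) * k := by group
        _ = 1 := by rw [hzk]; group
    have h2 : z * (z * k) = k := by rw [← mul_assoc, hzz, one_mul]
    obtain ⟨j, hj⟩ := H4.conj_of_odd hzz h1 (by rw [h2]; exact hk)
    exact ⟨isConj_iff.2 ⟨_, hj⟩, hu.symm.mul_left hku⟩⟩
  left_inv y := by
    apply Subtype.ext
    show z * (z * (y : G)) = y
    rw [← mul_assoc, H4.mul_self_of_orderOf_two hz.1, one_mul]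
  right_inv k := by
    apply Subtype.ext
    show z * (z * (k : G)) = k
    rw [← mul_assoc, H4.mul_self_of_orderOf_two hz.1, one_mul]

theorem card_fiber {G : Type*} [Group G] [Finite G] {z : G} (hz : IsIsolatedInvolution z) {s : G} (hsz : Commute s z)
    {x : G} (hx : IsConj z x) (hxs : Commute x s) :
    Nat.card {y : G // IsConj z y ∧ Commute y (s * x)} = Nat.card {y : G // IsConj z y ∧ Commute y (s * z)} := by
  have hzz := H4.mul_self_of_orderOf_two hz.1
  have hxx : x * x = 1 := by obtain ⟨c, rfl⟩ := isConj_iff.1 hx; exact H4.conj_mul_self hzz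
  obtain ⟨k, hk⟩ := H4.conj_of_odd hxx hzz (conj_prod_odd hz hx (IsConj.refl z))
  set c := (x * z) ^ k with hc
  have hcs : Commute c s := (hxs.mul_left hsz.symm).pow_left k
  have hcx : c * (s * x) * c⁻¹ = s * z := by
    rw [← mul_assoc, hcs.eq, mul_assoc s, mul_assoc s, ← hk]
  apply Nat.card_congr
  refine ⟨fun y => ⟨c * y * c⁻¹, ?_, ?_⟩, fun y => ⟨c⁻¹ * y * c, ?_, ?_⟩, fun y => ?_, fun y => ?_⟩
  · exact y.2.1.trans (isConj_iff.2 ⟨c, rfl⟩)
  · rw [← hcx]
    have h1 := y.2.2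
    show c * (y : G) * c⁻¹ * (c * (s * x) * c⁻¹) = c * (s * x) * c⁻¹ * (c * (y : G) * c⁻¹)
    calc c * (y : G) * c⁻¹ * (c * (s * x) * c⁻¹) = c * ((y : G) * (s * x)) * c⁻¹ := by group
      _ = c * ((s * x) * (y : G)) * c⁻¹ := by rw [h1.eq]
      _ = _ := by group
  · exact y.2.1.trans (isConj_iff.2 ⟨c⁻¹, by group⟩)
  · have h1 := y.2.2
    have h2 : s * x = c⁻¹ * (s * z) * c := by rw [← hcx]; group
    rw [h2]
    show c⁻¹ * (y : G) * c * (c⁻¹ * (s * z) * c) = c⁻¹ * (s * z) * c * (c⁻¹ * (y : G) * c)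
    calc c⁻¹ * (y : G) * c * (c⁻¹ * (s * z) * c) = c⁻¹ * ((y : G) * (s * z)) * c := by group
      _ = c⁻¹ * ((s * z) * (y : G)) * c := by rw [h1.eq]
      _ = _ := by group
  · apply Subtype.ext
    show c⁻¹ * (c * (y : G) * c⁻¹) * c = y
    group
  · apply Subtype.ext
    show c * (c⁻¹ * (y : G) * c) * c⁻¹ = y
    group

/-- Let z be an isolated involution of the finite group G, C = C_G(z), K the set of elements of odd order inverted by z, and s an involution of C. Then |G| = |C| · |C_K(sz)| · |C_K(s)|. -/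
theorem result {G : Type*} [Group G] [Finite G] (z : G) (hz : Cfsg.IsIsolatedInvolution z) (s : G) (hs : orderOf s = 2) (hsz : Commute s z) : Nat.card G = Nat.card (Subgroup.centralizer ({z} : Set G)) * Nat.card {k : G // Odd (orderOf k) ∧ z * k * z⁻¹ = k⁻¹ ∧ Commute k (s * z)} * Nat.card {k : G // Odd (orderOf k) ∧ z * k * z⁻¹ = k⁻¹ ∧ Commute k s} := by
  have hcard := H4.card_conj_mul_card_centralizer z
  rw [← hcard, mul_comm, mul_assoc]
  congr 1
  rw [← Nat.card_congr (cEquiv hz hsz), ← Nat.card_congr (cEquiv hz (hsz.mul_left (Commute.refl z)))]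
  by_cases hne : s = z
  · subst hne
    have hss := H4.mul_self_of_orderOf_two hs
    rw [hss]
    have h1 : Nat.card {y : G // IsConj s y ∧ Commute y s} = 1 := by
      rw [Nat.card_eq_one_iff_exists]
      refine ⟨⟨s, IsConj.refl s, Commute.refl s⟩, ?_⟩
      rintro ⟨y, hy, hys⟩
      obtain ⟨c, rfl⟩ := isConj_iff.1 hy
      exact Subtype.ext (hz.2 c hys.symm)
    rw [h1, mul_one]
    apply Nat.card_congr
    exact Equiv.subtypeEquivRight (fun y => by simp)
  · have h1 : Nat.card {v : G // IsConj z v} =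
        Nat.card (Σ x : {x : G // IsConj z x ∧ Commute x s}, {y : G // IsConj z y ∧ Commute y (s * x)}) := by
      symm
      apply Nat.card_congr
      refine Equiv.ofBijective (fun p => ⟨p.2.1, p.2.2.1⟩) ⟨?_, ?_⟩
      · rintro ⟨⟨x, hx, hxs⟩, ⟨y, hy, hys⟩⟩ ⟨⟨x', hx', hxs'⟩, ⟨y', hy', hys'⟩⟩ h
        have hyy : y = y' := congrArg Subtype.val h
        subst hyy
        have o1 := conj_prod_odd hz hx hy
        have o2 := conj_prod_odd hz hx' hy
        have e1 := pow_eq hz hs hx hy hxs hys (o1.mul o2) (dvd_mul_right _ _)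
        have e2 := pow_eq hz hs hx' hy hxs' hys' (o1.mul o2) (dvd_mul_left _ _)
        have hxx : x = x' := mul_left_cancel (e1.symm.trans e2)
        subst hxx
        rfl
      · rintro ⟨y, hy⟩
        obtain ⟨x, hx, hxs, hys⟩ := exists_pi hz hs hsz hne hy
        exact ⟨⟨⟨x, hx, hxs⟩, ⟨y, hy, hys⟩⟩, rfl⟩
    rw [h1]
    classical
    haveI := Fintype.ofFinite {x : G // IsConj z x ∧ Commute x s}
    rw [Nat.card_sigma, Finset.sum_congr rfl (fun x _ => card_fiber hz hsz x.2.1 x.2.2), Finset.sum_const,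
      Finset.card_univ, ← Nat.card_eq_fintype_card, smul_eq_mul, mul_comm]

end Cfsg.Agent.S1186
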