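import Cfsg.Statements.S1225
import Cfsg.Agent.H4.SEmb

set_option autoImplicit false
open Cfsg

namespace Cfsg.Agent.S1225

/-- Let H be a strongly embedded subgroup of the finite group G, u an involution outside H and D = H ∩ uHu⁻¹. Then any two involutions of H are conjugate by an element of D, and any two involutions of G are conjugate in G. -/
theorem result {G : Type*} [Group G] [Finite G] (H : Subgroup G) (hH : Cfsg.IsStronglyEmbedded H) (u : G) (hu : orderOf u = 2) (huH : u ∉ H) (s t : G) (hs : orderOf s = 2) (hsH : s ∈ H) (ht : orderOf t = 2) (htH : t ∈ H) : (∃ d ∈ (H ⊓ H.map (MulAut.conj u).toMonoidHom), d * s * d⁻¹ = t) ∧ ∀ a b : G, orderOf a = 2 → orderOf b = 2 → IsConj a b := by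
  refine ⟨?_, fun a b ha hb => H4.semb_isConj hH ha hb⟩
  have hne : (QuotientGroup.mk 1 : G ⧸ H) ≠ QuotientGroup.mk u := by
    intro h
    apply huH
    simpa using QuotientGroup.eq.1 h
  have hux : u • (QuotientGroup.mk 1 : G ⧸ H) = QuotientGroup.mk u := by
    show (QuotientGroup.mk (u * 1) : G ⧸ H) = QuotientGroup.mk u
    rw [mul_one]
  have huy : u • (QuotientGroup.mk u : G ⧸ H) = QuotientGroup.mk 1 := by
    show (QuotientGroup.mk (u * u) : G ⧸ H) = QuotientGroup.mk 1
    rw [H4.mul_self_of_orderOf_two hu]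
  obtain ⟨d, h1, h2, h3⟩ := H4.semb_conj_in_two_point hH hux huy hne hs ((H4.smul_mk_eq_iff H s 1).2 (by simpa using hsH)) ht ((H4.smul_mk_eq_iff H t 1).2 (by simpa using htH))
  exact ⟨d, (H4.mem_inf_conj_iff H u d).2 ⟨h1, h2⟩, h3⟩

end Cfsg.Agent.S1225
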