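import Cfsg.Statements.S1227
import Cfsg.Agent.H4.ElemCent

set_option autoImplicit false
open Cfsg

namespace Cfsg.Agent.S1227

/-- Let G be a finite group with a Sylow 2-subgroup T that is neither cyclic nor normal, such that the centralizer of every involution is an elementary abelian 2-group; put H = N_G(T), let u be an involution outside H and D = H ∩ uHu⁻¹. Then u inverts every element of D, |H| = |T|·(|T| − 1), and D is a complement to T in H. -/
theorem result {G : Type*} [Group G] [Finite G] (T : Sylow 2 G) (hnc : ¬ IsCyclic (T : Subgroup G)) (hnn : ¬ (T : Subgroup G).Normal) (hC : ∀ t : G, orderOf t = 2 → IsMulCommutative (Subgroup.centralizer ({t} : Set G)) ∧ ∀ c ∈ Subgroup.centralizer ({t} : Set G), c ^ 2 = 1) (u : G) (hu : orderOf u = 2) (huH : u ∉ Subgroup.normalizer ((T : Subgroup G) : Set G)) : (∀ d ∈ Subgroup.normalizer ((T : Subgroup G) : Set G) ⊓ (Subgroup.normalizer ((T : Subgroup G) : Set G)).map (MulAut.conj u).toMonoidHom, u * d * u⁻¹ = d⁻¹) ∧ Nat.card (Subgroup.normalizer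 ((T : Subgroup G) : Set G)) = Nat.card T * (Nat.card T - 1) ∧ Subgroup.IsComplement' ((Subgroup.normalizer ((T : Subgroup G) : Set G) ⊓ (Subgroup.normalizer ((T : Subgroup G) : Set G)).map (MulAut.conj u).toMonoidHom).subgroupOf (Subgroup.normalizer ((T : Subgroup G) : Set G))) ((T : Subgroup G).subgroupOf (Subgroup.normalizer ((T : Subgroup G) : Set G))) := by
  have h : H4.EC T := ⟨hnc, hnn, hC⟩
  set H := Subgroup.normalizer ((T : Subgroup G) : Set G) with hH
  have hne : (QuotientGroup.mk u : G ⧸ H) ≠ QuotientGroup.mk 1 := by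
    intro h
    apply huH
    simpa using QuotientGroup.eq.1 h.symm
  have hux : u • (QuotientGroup.mk 1 : G ⧸ H) = QuotientGroup.mk u := by
    show (QuotientGroup.mk (u * 1) : G ⧸ H) = QuotientGroup.mk u
    rw [mul_one]
  have hD : (H ⊓ H.map (MulAut.conj u).toMonoidHom) = H4.twoPt G (QuotientGroup.mk 1 : G ⧸ H) (QuotientGroup.mk u) := by
    ext d
    rw [H4.mem_inf_conj_iff, H4.mem_twoPt]
  rw [hD]
  refine ⟨fun d hd => H4.ec_inverts h (Ne.symm hne) hu hux hd, H4.ec_card_normalizer h, ?_⟩
  apply Subgroup.isComplement'_of_card_mul_and_disjoint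
  · have h1 : Nat.card ((H4.twoPt G (QuotientGroup.mk 1 : G ⧸ H) (QuotientGroup.mk u)).subgroupOf H) = Nat.card T - 1 := by
      rw [← H4.ec_card_twoPt h (Ne.symm hne)]
      exact Nat.card_congr (Subgroup.subgroupOfEquivOfLe (by
        intro d hd
        exact H4.mem_normalizer_iff_fix.2 (H4.mem_twoPt.1 hd).1)).toEquiv
    have h2 : Nat.card ((T : Subgroup G).subgroupOf H) = Nat.card T :=
      Nat.card_congr (Subgroup.subgroupOfEquivOfLe Subgroup.le_normalizer).toEquiv
    rw [h1, h2, H4.ec_card_normalizer h, mul_comm]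
  · rw [Subgroup.disjoint_def]
    rintro ⟨x, hx⟩ hxD hxT
    rw [Subgroup.mem_subgroupOf] at hxD hxT
    exact Subtype.ext (H4.ec_twoPt_inf h hne hxD hxT)

end Cfsg.Agent.S1227
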