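import Cfsg.Statements.S1228
import Cfsg.Agent.H4.ElemCent

set_option autoImplicit false
open Cfsg

namespace Cfsg.Agent.S1228

/-- Let G be a finite group with a Sylow 2-subgroup T that is neither cyclic nor normal, such that the centralizer of every involution is an elementary abelian 2-group; put H = N_G(T), let u be an involution outside H and D = H ∩ uHu⁻¹. Then N_G(D) = D ⊔ ⟨u⟩, and a coset gH is fixed by every element of D exactly when gH = H or gH = uH. -/
theorem result {G : Type*} [Group G] [Finite G] (T : Sylow 2 G) (hnc : ¬ IsCyclic (T : Subgroup G)) (hnn : ¬ (T : Subgroup G).Normal) (hC : ∀ t : G, orderOf t = 2 → IsMulCommutative (Subgroup.centralizer ({t} : Set G)) ∧ ∀ c ∈ Subgroup.centralizer ({t} : Set G), c ^ 2 = 1) (u : G) (hu : orderOf u = 2) (huH : u ∉ Subgroup.normalizer ((T : Subgroup G) : Set G)) : Subgroup.normalizer ((Subgroup.normalizer ((T : Subgroup G) : Set G) ⊓ (Subgroup.normalizer ((T : Subgroup G) : Set G)).map (MulAut.conj u).toMonoidHom : Subgroup G) : Set G) = (Subgroup.normalizer ((T : Subgroup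 G) : Set G) ⊓ (Subgroup.normalizer ((T : Subgroup G) : Set G)).map (MulAut.conj u).toMonoidHom) ⊔ Subgroup.zpowers u ∧ ∀ g : G, ((∀ d ∈ Subgroup.normalizer ((T : Subgroup G) : Set G) ⊓ (Subgroup.normalizer ((T : Subgroup G) : Set G)).map (MulAut.conj u).toMonoidHom, d • (QuotientGroup.mk g : G ⧸ Subgroup.normalizer ((T : Subgroup G) : Set G)) = QuotientGroup.mk g) ↔ (QuotientGroup.mk g : G ⧸ Subgroup.normalizer ((T : Subgroup G) : Set G)) = QuotientGroup.mk 1 ∨ (QuotientGroup.mk g : G ⧸ Subgroup.normalizer ((T : Subgroup G) : Set G)) = QuotientGroup.mk u) := by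
  have h : H4.EC T := ⟨hnc, hnn, hC⟩
  set H := Subgroup.normalizer ((T : Subgroup G) : Set G) with hH
  have hne : (QuotientGroup.mk u : G ⧸ H) ≠ QuotientGroup.mk 1 := by
    intro h
    apply huH
    simpa using QuotientGroup.eq.1 h.symm
  have hux : u • (QuotientGroup.mk 1 : G ⧸ H) = QuotientGroup.mk u := by
    show (QuotientGroup.mk (u * 1) : G ⧸ H) = QuotientGroup.mk u
    rw [mul_one]
  have hD : (H ⊓ H.map (MulAut.conj u).toMonoidHom) = H4.twoPt G (QuotientGroup.mk 1 : G ⧸ H) (QuotientGroup.mk u) := by
    ext d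
    rw [H4.mem_inf_conj_iff, H4.mem_twoPt]
  rw [hD]
  constructor
  · apply le_antisymm
    · intro g hg
      rw [Subgroup.mem_normalizer_iff] at hg
      rcases H4.ec_normalizer_twoPt h hne hu hux (fun d hd => (hg d).1 hd) with h1 | h1
      · exact Subgroup.mem_sup_left h1
      · have : g = u⁻¹ * (u * g) := by group
        rw [this]
        exact mul_mem (inv_mem (Subgroup.mem_sup_right (Subgroup.mem_zpowers u))) (Subgroup.mem_sup_left h1)
    · apply sup_le Subgroup.le_normalizer
      rw [Subgroup.zpowers_le, Subgroup.mem_normalizer_iff]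
      intro d
      constructor
      · intro hd
        rw [H4.ec_inverts h (Ne.symm hne) hu hux hd]
        exact inv_mem hd
      · intro hd
        have h1 := H4.ec_inverts h (Ne.symm hne) hu hux hd
        have hu' := H4.inv_eq_self_of_mul_self (H4.mul_self_of_orderOf_two hu)
        have h2 : u * (u * d * u⁻¹) * u⁻¹ = d := by
          rw [hu']
          calc u * (u * d * u) * u = (u * u) * d * (u * u) := by group
            _ = d := by rw [H4.mul_self_of_orderOf_two hu, one_mul, mul_one]
        rw [h2] at h1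
        rw [h1]; exact inv_mem hd
  · intro g
    constructor
    · intro hg
      exact H4.ec_fixed_twoPt h hne hg
    · rintro (h1 | h1) d hd
      · rw [h1]; exact (H4.mem_twoPt.1 hd).1
      · rw [h1]; exact (H4.mem_twoPt.1 hd).2

end Cfsg.Agent.S1228
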