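import Cfsg.Statements.S1231
import Cfsg.Agent.H4.Basic2

set_option autoImplicit false
open Cfsg

namespace Cfsg.Agent.S1231

theorem prank_inj {A B : Type*} [Group A] [Group B] {p k : ℕ} (f : A →* B) (hf : Function.Injective f)
    (h : PRankLE p k B) : PRankLE p k A := by
  intro A0 hA0 hexp
  have h1 : Nat.card (A0.map f) = Nat.card A0 := Subgroup.card_map_of_injective hf
  rw [← h1]
  apply h
  · constructor
    constructor
    rintro ⟨_, a, ha, rfl⟩ ⟨_, b, hb, rfl⟩
    apply Subtype.ext
    show f a * f b = f b * f a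
    have := hA0.is_comm.comm ⟨a, ha⟩ ⟨b, hb⟩
    have h2 : a * b = b * a := congrArg Subtype.val this
    rw [← map_mul, ← map_mul, h2]
  · rintro _ ⟨a, ha, rfl⟩
    rw [← map_pow, hexp a ha, map_one]

theorem prank_le {G : Type*} [Group G] {p k : ℕ} {X Y : Subgroup G} (hXY : X ≤ Y)
    (h : PRankLE p k Y) : PRankLE p k X := prank_inj (Subgroup.inclusion hXY) (Subgroup.inclusion_injective hXY) h

theorem prank_conj {G : Type*} [Group G] {p k : ℕ} {X : Subgroup G} (g : G)
    (h : PRankLE p k (X.map (MulAut.conj g).toMonoidHom)) : PRankLE p k X :=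
  prank_inj (X.equivMapOfInjective _ (MulAut.conj g).injective).toMonoidHom (X.equivMapOfInjective _ (MulAut.conj g).injective).injective h

theorem not_prank_sylow {D : Type*} [Group D] [Finite D] {p k : ℕ} [Fact p.Prime] (Q : Sylow p D)
    (h : PRankLE p k (Q : Subgroup D)) : PRankLE p k D := by
  intro A hA hexp
  have hAp : IsPGroup p A := fun a => ⟨1, by
    apply Subtype.ext
    rw [pow_one]
    exact hexp a a.2⟩
  obtain ⟨c, hc⟩ := H4.exists_map_conj_le_sylow Q A hAp
  have h1 := prank_conj c (prank_le hc h)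
  have h2 := h1 ⊤ (by
    constructor
    constructor
    rintro ⟨a, -⟩ ⟨b, -⟩
    exact Subtype.ext (hA.is_comm.comm a b)) (by
    rintro a -
    exact Subtype.ext (hexp a a.2))
  rwa [Subgroup.card_top] at h2

/-- Let H be a subgroup of the finite group G, p a prime, k ≥ 1, and P a Sylow p-subgroup of H whose p-rank is at least k. Then N_G(X) ≤ H for every subgroup X of P of p-rank at least k if and only if H ∩ gHg⁻¹ has p-rank less than k for every g ∉ H. -/
theorem result {G : Type*} [Group G] [Finite G] {p : ℕ} [Fact p.Prime] (k : ℕ) (hk : 1 ≤ k) (H : Subgroup G) (P : Sylow p ↥H) (hP : ¬ Cfsg.PRankLE p (k - 1) ↥(P : Subgroup ↥H)) : (∀ X : Subgroup G, X ≤ (P : Subgroup ↥H).map H.subtype → ¬ Cfsg.PRankLE p (k - 1) ↥X → Subgroup.normalizer (X : Set G) ≤ H) ↔ (∀ g : G, g ∉ H → Cfsg.PRankLE p (k - 1) ↥(H ⊓ H.map (MulAut.conj g).toMonoidHom)) := by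
  constructor
  · intro h
    have hN : ∀ Q : Subgroup G, IsPGroup p Q → ¬ PRankLE p (k - 1) Q → Q ≤ H → Subgroup.normalizer (Q : Set G) ≤ H := by
      intro Q hQ hne hQH
      obtain ⟨c, hc⟩ := H4.exists_map_conj_le_sylow P (Q.subgroupOf H) hQ.comap_subtype
      have hmap : ((Q.subgroupOf H).map (MulAut.conj c).toMonoidHom).map H.subtype = Q.map (MulAut.conj c.1).toMonoidHom := by
        ext x
        rw [H4.mem_map_conj]
        constructor
        · rintro ⟨y, hy, rfl⟩
          rw [SetLike.mem_coe, H4.mem_map_conj] at hy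
          exact hy
        · intro hx
          have hxH : x ∈ H := by
            have h1 := mul_mem (mul_mem c.2 (hQH hx)) (inv_mem c.2)
            have : c.1 * ((c.1)⁻¹ * x * c.1) * (c.1)⁻¹ = x := by group
            rwa [this] at h1
          refine ⟨⟨x, hxH⟩, ?_, rfl⟩
          rw [SetLike.mem_coe, H4.mem_map_conj]
          exact hx
      have h1 := h (Q.map (MulAut.conj c.1).toMonoidHom) (by rw [← hmap]; exact Subgroup.map_mono hc)
        (fun h0 => hne (prank_conj _ h0))
      intro n hn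
      have h2 : c.1 * n * (c.1)⁻¹ ∈ Subgroup.normalizer ((Q.map (MulAut.conj c.1).toMonoidHom : Subgroup G) : Set G) := by
        rw [← H4.map_conj_eq_iff_mem_normalizer, H4.map_conj_mul]
        have e : c.1 * n * (c.1)⁻¹ * c.1 = c.1 * n := by group
        rw [e, ← H4.map_conj_mul, (H4.map_conj_eq_iff_mem_normalizer Q n).2 hn]
      have h3 := h1 h2
      have h4 := mul_mem (mul_mem (inv_mem c.2) h3) c.2
      have e : (c.1)⁻¹ * (c.1 * n * (c.1)⁻¹) * c.1 = n := by group
      rwa [e] at h4
    intro g hg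
    by_contra hodd
    set D := H ⊓ H.map (MulAut.conj g).toMonoidHom with hD
    obtain ⟨Q0⟩ := (inferInstance : Nonempty (Sylow p D))
    set Q : Subgroup G := (Q0 : Subgroup D).map D.subtype with hQ
    have hQp : IsPGroup p Q := Q0.2.map _
    have hQD : Q ≤ D := by rintro _ ⟨y, _, rfl⟩; exact y.2
    have hQmax : ∀ R : Subgroup G, IsPGroup p R → R ≤ D → Q ≤ R → R = Q := by
      intro R hR hRD hQR
      have h1 : IsPGroup p (R.subgroupOf D) := hR.comap_subtype
      have h2 : (Q0 : Subgroup D) ≤ R.subgroupOf D := by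
        intro y hy
        rw [Subgroup.mem_subgroupOf]
        exact hQR ⟨y, hy, rfl⟩
      have h3 := Q0.3 h1 h2
      apply le_antisymm _ hQR
      intro y hy
      have : (⟨y, hRD hy⟩ : D) ∈ R.subgroupOf D := hy
      rw [h3] at this
      exact ⟨_, this, rfl⟩
    have hQne : ¬ PRankLE p (k - 1) Q := by
      intro h0
      apply hodd
      apply not_prank_sylow Q0
      exact prank_inj ((Q0 : Subgroup D).equivMapOfInjective _ D.subtype_injective).toMonoidHom
        ((Q0 : Subgroup D).equivMapOfInjective _ D.subtype_injective).injective h0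
    have hNQ : Subgroup.normalizer (Q : Set G) ≤ D := by
      apply le_inf
      · exact hN Q hQp hQne (hQD.trans inf_le_left)
      · intro n hn
        rw [H4.mem_map_conj]
        have hQg : Q.map (MulAut.conj g⁻¹).toMonoidHom ≤ H := by
          intro x hx
          rw [H4.mem_map_conj, inv_inv] at hx
          have := (Subgroup.mem_inf.1 (hQD hx)).2
          rw [H4.mem_map_conj] at this
          have e : g⁻¹ * (g * x * g⁻¹) * g = x := by group
          rwa [e] at this
        apply hN _ (H4.isPGroup_map_conj hQp _) (fun h0 => hQne (prank_conj _ h0)) hQg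
        rw [← H4.map_conj_eq_iff_mem_normalizer, H4.map_conj_mul]
        have e : g⁻¹ * n * g * g⁻¹ = g⁻¹ * n := by group
        rw [e, ← H4.map_conj_mul, (H4.map_conj_eq_iff_mem_normalizer Q n).2 hn]
    obtain ⟨T, hT⟩ := hQp.exists_le_sylow
    have hTQ : (T : Subgroup G) = Q := by
      by_contra hne
      have hlt : Q < (T : Subgroup G) := lt_of_le_of_ne hT (fun h => hne h.symm)
      obtain ⟨n, hnT, hnQ, hnN⟩ := H4.normalizer_lt_of_lt_sylow T.2 hlt
      have h1 : IsPGroup p ((T : Subgroup G) ⊓ D : Subgroup G) := T.2.to_inf_left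
      have := hQmax _ h1 inf_le_right (le_inf hT hQD)
      apply hnQ
      rw [← this]
      exact Subgroup.mem_inf.2 ⟨hnT, hNQ hnN⟩
    have hTH : (T : Subgroup G) ≤ H := by rw [hTQ]; exact hQD.trans inf_le_left
    have hgTH : ((g⁻¹ • T : Sylow p G) : Subgroup G) ≤ H := by
      intro x hx
      have h1 := (H4.mem_sylow_smul_iff T g⁻¹ x).1 hx
      rw [inv_inv] at h1
      have h2 : g * x * g⁻¹ ∈ D := by
        apply hQD; rw [← hTQ]; exact h1
      have := (Subgroup.mem_inf.1 h2).2
      rw [H4.mem_map_conj] at this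
      have e : g⁻¹ * (g * x * g⁻¹) * g = x := by group
      rwa [e] at this
    obtain ⟨c, hc⟩ := MulAction.exists_smul_eq H ((g⁻¹ • T).subtype hgTH) (T.subtype hTH)
    have hcg : c.1 * g⁻¹ ∈ Subgroup.normalizer ((T : Subgroup G) : Set G) := by
      rw [← H4.map_conj_eq_iff_mem_normalizer, H4.map_conj_eq_iff]
      intro x hx
      rw [H4.mem_map_conj] at hx
      have h1 : (c.1)⁻¹ * x * c.1 ∈ (g⁻¹ • T : Sylow p G) := by
        rw [H4.mem_sylow_smul_iff, inv_inv]
        have e : g * ((c.1)⁻¹ * x * c.1) * g⁻¹ = (c.1 * g⁻¹)⁻¹ * x * (c.1 * g⁻¹) := by group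
        rw [e]; exact hx
      have hxH : x ∈ H := by
        have h2 := mul_mem (mul_mem c.2 (hgTH h1)) (inv_mem c.2)
        have e : c.1 * ((c.1)⁻¹ * x * c.1) * (c.1)⁻¹ = x := by group
        rwa [e] at h2
      have h3 : (⟨x, hxH⟩ : H) ∈ c • ((g⁻¹ • T).subtype hgTH) := by
        rw [H4.mem_sylow_smul_iff]
        exact h1
      rw [hc] at h3
      exact h3
    have h5 := hNQ (by rw [← hTQ]; exact hcg)
    have h6 := (Subgroup.mem_inf.1 h5).1
    apply hg
    have h7 := mul_mem (inv_mem h6) c.2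
    have e : (c.1 * g⁻¹)⁻¹ * c.1 = g := by group
    rwa [e] at h7
  · intro h X hXP hXr n hn
    by_contra hnH
    apply hXr
    have hXH : X ≤ H := hXP.trans (by rintro _ ⟨y, _, rfl⟩; exact y.2)
    refine prank_le ?_ (h n hnH)
    intro x hx
    refine Subgroup.mem_inf.2 ⟨hXH hx, (H4.mem_map_conj H n x).2 ?_⟩
    apply hXH
    have := (Subgroup.mem_normalizer_iff.1 (inv_mem hn) x).1 hx
    simpa using this

end Cfsg.Agent.S1231
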