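import Cfsg.Statements.S1236
import Cfsg.Agent.H4.KleinCent
import Cfsg.Agent.H2.Basic

set_option autoImplicit false
open Cfsg

namespace Cfsg.Agent.S1236

/-- Let R be a finite group, t a central involution of R such that R ⧸ ⟨t⟩ is dihedral (of order ≥ 4) or quasi-dihedral, and A ≤ R an elementary abelian subgroup of order 8 containing t. Then C_R(A) = A. -/
theorem result {R : Type*} [Group R] [Finite R] (t : R) (ht : orderOf t = 2) (htz : t ∈ Subgroup.center R) [(Subgroup.zpowers t).Normal] (hq : (∃ m : ℕ, 2 ≤ m ∧ Nonempty (R ⧸ Subgroup.zpowers t ≃* DihedralGroup m)) ∨ Cfsg.IsQuasiDihedral (R ⧸ Subgroup.zpowers t)) (A : Subgroup R) (hA : Cfsg.IsElementaryAbelian 2 A) (hA8 : Nat.card A = 8) (htA : t ∈ A) : Subgroup.centralizer (A : Set R) = A := by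
  set π := QuotientGroup.mk' (Subgroup.zpowers t) with hπ
  have hker : π.ker = Subgroup.zpowers t := QuotientGroup.ker_mk' _
  have hle : Subgroup.zpowers t ≤ A := by rw [Subgroup.zpowers_le]; exact htA
  have hcard : Nat.card (A.map π) = 4 := by
    have h1 := H2.card_map_mul_card_inf_ker π A
    rw [hker, inf_of_le_right hle, hA8, Nat.card_zpowers, ht] at h1
    omega
  have hK : IsKleinFour (A.map π) := by
    refine ⟨hcard, ?_⟩
    have h2 : Monoid.exponent (A.map π) ∣ 2 := by
      apply Monoid.exponent_dvd_of_forall_pow_eq_one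
      rintro ⟨_, a, ha, rfl⟩
      apply Subtype.ext
      show (π a) ^ 2 = 1
      rw [← map_pow, hA.2 a ha, map_one]
    rcases (Nat.dvd_prime Nat.prime_two).1 h2 with h3 | h3
    · rw [Monoid.exp_eq_one_iff] at h3
      have := Nat.card_of_subsingleton (1 : A.map π)
      omega
    · exact h3
  have hself := H4.klein_self_centralizing hq hK
  apply le_antisymm
  · intro c hc
    have h1 : π c ∈ Subgroup.centralizer (A.map π : Set (R ⧸ Subgroup.zpowers t)) := by
      rw [Subgroup.mem_centralizer_iff]
      rintro _ ⟨a, ha, rfl⟩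
      rw [← map_mul, ← map_mul, Subgroup.mem_centralizer_iff.1 hc a ha]
    obtain ⟨a, ha, hac⟩ := hself h1
    have h2 : a⁻¹ * c ∈ π.ker := by rw [MonoidHom.mem_ker, map_mul, map_inv, hac, inv_mul_cancel]
    rw [hker] at h2
    have := mul_mem ha (hle h2)
    rwa [mul_inv_cancel_left] at this
  · have := hA.1
    intro a ha
    rw [Subgroup.mem_centralizer_iff]
    intro b hb
    exact congrArg Subtype.val (this.is_comm.comm (⟨b, hb⟩ : A) ⟨a, ha⟩)

end Cfsg.Agent.S1236
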