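import Cfsg.Statements.S1239
import Cfsg.Agent.H4.QW

set_option autoImplicit false
open Cfsg

namespace Cfsg.Agent.S1239

/-- Let X be a finite group whose Sylow 2-subgroup S is quasi-dihedral or wreathed, and suppose some involution of S is isolated in X. Then the product of the largest normal odd-order subgroup O(X) with the centre of S is normal in X. -/
theorem result {X : Type*} [Group X] [Finite X] (S : Sylow 2 X) (hS : Cfsg.IsQuasiDihedral (S : Subgroup X) ∨ Cfsg.IsWreathed (S : Subgroup X)) (z : X) (hzS : z ∈ S) (hz : Cfsg.IsIsolatedInvolution z) : (Cfsg.oddCore X ⊔ (Subgroup.center (S : Subgroup X)).map (S : Subgroup X).subtype).Normal := by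
  haveI hnorm : (Cfsg.oddCore X).Normal := Cfsg.Agent.H1.pPrimeCore_normal 2 X
  have hzc : (⟨z, hzS⟩ : (S : Subgroup X)) ∈ Subgroup.center (S : Subgroup X) := by
    rw [Subgroup.mem_center_iff]
    intro g
    exact Subtype.ext (H4.isolated_comm_sylow S hz hzS g g.2).eq
  have hzz := H4.mul_self_of_orderOf_two hz.1
  have hz1 := H4.ne_one_of_orderOf_two hz.1
  have key : ∀ b ∈ H4.ZP S, ∀ g : X, b * g * b⁻¹ * g⁻¹ ∈ Cfsg.oddCore X := by
    rcases hS with hS | hS
    · obtain ⟨k, x, y, w, h⟩ := H4.exists_QD hS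
      have hzw : (⟨z, hzS⟩ : (S : Subgroup X)) = w := by
        rw [h.center_eq] at hzc
        refine ((H4.mem_zpowers_invol h.zz).1 hzc).resolve_left (fun h1 => hz1 (congrArg Subtype.val h1))
      have hZ : H4.ZP S = Subgroup.zpowers z := by
        unfold H4.ZP
        rw [h.center_eq, ← hzw, MonoidHom.map_zpowers]; rfl
      rw [hZ]
      exact H4.comm_mod_of_zpowers (H4.zstar hz)
    · obtain ⟨k, x, y, t, h⟩ := H4.exists_WR hS
      have hzw : (⟨z, hzS⟩ : (S : Subgroup X)) = H4.W x y (2 * (2 ^ k : ℕ)) (2 * (2 ^ k : ℕ)) :=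
        (h.central_inv hzc (Subtype.ext hzz)).resolve_left (fun h1 => hz1 (congrArg Subtype.val h1))
      have hzw' : z = ((H4.W x y (2 * (2 ^ k : ℕ)) (2 * (2 ^ k : ℕ)) : (S : Subgroup X)) : X) := congrArg Subtype.val hzw
      obtain ⟨U, hUdef⟩ : ∃ U : Subgroup X, U = h.base.map (S : Subgroup X).subtype := ⟨_, rfl⟩
      have hUS : U ≤ S := by rw [hUdef]; exact Subgroup.map_subtype_le _
      have hU : U.subgroupOf (S : Subgroup X) = h.base := by
        rw [hUdef, Subgroup.subgroupOf, Subgroup.comap_map_eq_self_of_injective (S : Subgroup X).subtype_injective]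
      have h2 : (Subgroup.centralizer (U : Set X)).relIndex (Subgroup.normalizer (U : Set X)) = 2 := by
        obtain ⟨j, hj⟩ := H4.two_pow_of_mem S t.2
        refine ((h.U_perm3 hUS hU).two_or_six (h.U_norm hUS hU t.2) (h.U_t hUS hU) hj).resolve_right (fun h6 => ?_)
        obtain ⟨g, hg⟩ := isConj_iff.1 (h.U6 hUS hU h6)
        rw [← hzw'] at hg
        have h3 := H4.eq_of_isolated_mem_sylow S hz hzS g (by rw [hg]; exact Subtype.mem _)
        rw [hg, hzw'] at h3
        exact h.c_ne_d (Subtype.ext h3.symm)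
      have hQ0 : (h.Q0.map (S : Subgroup X).subtype) ≤ (S : Subgroup X) := Subgroup.map_subtype_le _
      obtain ⟨f0⟩ := h.Q0_qsyl.equiv
      have f : (h.Q0.map (S : Subgroup X).subtype : Subgroup X) ≃* QuaternionGroup 2 :=
        (h.Q0.equivMapOfInjective _ (S : Subgroup X).subtype_injective).symm.trans f0
      obtain ⟨a, b, hQ, ha, hb, hqz, hsq, m, hm⟩ := h.exists_QZ f hQ0
      have hcent : ∀ z ∈ H4.ZP S, ∀ g : X, g * z * g⁻¹ ∈ (S : Subgroup X) → g * z * g⁻¹ = z := by
        intro z hz g hg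
        refine h.fusion hUS hU (sup_le hQ0 (H4.ZP_le S)) hm (fun a b => a ∈ H4.ZP S → b = a) (fun _ _ => rfl)
          ?_ ?_ ?_ ?_ (H4.ZP_le S hz) hg hz
        · intro a b c h1 h2 h3
          have h4 := h1 h3
          rw [h2 (by rw [h4]; exact h3), h4]
        · intro s hs a _ ha
          rw [H4.ZP_comm hs ha, mul_inv_cancel_right]
        · intro n hn a haU ha
          obtain ⟨s, hs, h3⟩ := h.U2 hUS hU h2 hn
          rw [h3 a haU, H4.ZP_comm hs ha, mul_inv_cancel_right]
        · intro n hn a _ ha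
          rw [h.norm_Z (hqz.mem_norm_Z hn) a ha, mul_inv_cancel_right]
      exact fun b hb => H4.zstar_elt S (H4.ZP_le S hb) (hcent b hb)
  constructor
  intro w hw g
  have hN : H4.ZP S ≤ Subgroup.normalizer (Cfsg.oddCore X : Set X) := by
    rw [Subgroup.normalizer_eq_top_iff.2 hnorm]; exact le_top
  obtain ⟨o, ho, b, hb, rfl⟩ := Subgroup.mem_sup_of_normal_left.1 hw
  have h1 := key b hb g
  have h2 : g * (o * b) * g⁻¹ = (g * o * g⁻¹) * ((b * g * b⁻¹ * g⁻¹)⁻¹ * b) := by group
  rw [h2]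
  exact mul_mem (Subgroup.mem_sup_left (hnorm.conj_mem o ho g))
    (mul_mem (Subgroup.mem_sup_left (inv_mem h1)) (Subgroup.mem_sup_right hb))

end Cfsg.Agent.S1239
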