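import Cfsg.Statements.S1242
import Cfsg.Agent.H4.TransQ

set_option autoImplicit false
open Cfsg

namespace Cfsg.Agent.S1242

/-- Let G be a finite group, p a prime and H a subgroup of index prime to p such that any two elements of H of p-power order that are conjugate in G are conjugate in H. Then (O^p(G)·G') ∩ H = O^p(H)·H', where O^p denotes the subgroup generated by the elements of order prime to p. -/
theorem result {G : Type*} [Group G] [Finite G] {p : ℕ} [Fact p.Prime] (H : Subgroup G) (hidx : Nat.Coprime p H.index) (hfus : ∀ g ∈ H, (∃ k : ℕ, orderOf g = p ^ k) → ∀ a : G, a * g * a⁻¹ ∈ H → ∃ h ∈ H, h * g * h⁻¹ = a * g * a⁻¹) : (Cfsg.pResidual p G ⊔ commutator G) ⊓ H = (Cfsg.pResidual p ↥H ⊔ commutator ↥H).map H.subtype := by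
  have hp : p.Prime := Fact.out
  haveI hRn : (Cfsg.pResidual p H).Normal := H2.pResidual_normal
  obtain ⟨K, hK⟩ : ∃ K : Subgroup G, K = (Cfsg.pResidual p ↥H ⊔ commutator ↥H).map H.subtype := ⟨_, rfl⟩
  have hKH : K.subgroupOf H = Cfsg.pResidual p ↥H ⊔ commutator ↥H := by
    rw [hK, Subgroup.subgroupOf, Subgroup.comap_map_eq_self_of_injective H.subtype_injective]
  have hmK : ∀ x : H, (x : G) ∈ K ↔ x ∈ Cfsg.pResidual p ↥H ⊔ commutator ↥H := by
    intro x; rw [← hKH, Subgroup.mem_subgroupOf]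
  obtain ⟨A, _, ϕ, hsurj, hϕ⟩ := H4.exists_abelian_quotient H K (by rw [hKH]; infer_instance) (by
    intro x hx y hy
    have h1 : (⟨x, hx⟩ * ⟨y, hy⟩ * ⟨x, hx⟩⁻¹ * ⟨y, hy⟩⁻¹ : H) ∈ Cfsg.pResidual p ↥H ⊔ commutator ↥H :=
      Subgroup.mem_sup_right (Subgroup.commutator_mem_commutator (Subgroup.mem_top _) (Subgroup.mem_top _))
    exact (hmK _).2 h1)
  have hA : ∀ a : A, ∃ k : ℕ, a ^ p ^ k = 1 := by
    intro a
    obtain ⟨x, rfl⟩ := hsurj a
    obtain ⟨k, hk⟩ := H2.exists_pow_mem_pResidual (p := p) x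
    refine ⟨k, ?_⟩
    rw [← map_pow, hϕ, hmK]
    exact Subgroup.mem_sup_left hk
  have hle : Cfsg.pResidual p G ⊔ commutator G ≤ (MonoidHom.transfer ϕ).ker := by
    rw [sup_le_iff]
    refine ⟨?_, Abelianization.commutator_subset_ker _⟩
    rw [Cfsg.pResidual, Subgroup.closure_le]
    intro g hg
    obtain ⟨k, hk⟩ := hA (MonoidHom.transfer ϕ g)
    have h1 : orderOf (MonoidHom.transfer ϕ g) ∣ orderOf g := orderOf_map_dvd _ _
    have h2 : orderOf (MonoidHom.transfer ϕ g) ∣ p ^ k := orderOf_dvd_of_pow_eq_one hk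
    have h3 : (orderOf g).Coprime (p ^ k) := Nat.Coprime.pow_right k hg
    exact orderOf_eq_one_iff.1 (Nat.eq_one_of_dvd_coprimes h3 h1 h2)
  apply le_antisymm
  · rintro x ⟨hx, hxH⟩
    rw [← hK]
    obtain ⟨a, b, hab, ha, hb, ⟨j, hj⟩, hbp⟩ := H4.exists_split_prime (p := p) x
    have haH : a ∈ H := (Subgroup.zpowers_le.2 hxH) ha
    have hbH : b ∈ H := (Subgroup.zpowers_le.2 hxH) hb
    have haX : a ∈ Cfsg.pResidual p G ⊔ commutator G := (Subgroup.zpowers_le.2 hx) ha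
    have hbK : b ∈ K := by
      have h1 : (⟨b, hbH⟩ : H) ∈ Cfsg.pResidual p ↥H ⊔ commutator ↥H :=
        Subgroup.mem_sup_left (H2.mem_pResidual_of_coprime (by rw [Subgroup.orderOf_mk]; exact hbp))
      exact (hmK _).2 h1
    have haK : a ∈ K := by
      refine H4.mem_of_transfer ϕ hϕ hidx haH ⟨j, hj⟩ ?_ (hle haX)
      intro m c hc
      have hpm : ∃ k : ℕ, orderOf (a ^ m) = p ^ k := by
        have h1 : orderOf (a ^ m) ∣ p ^ j := by rw [← hj]; exact orderOf_pow_dvd m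
        obtain ⟨k, -, hk⟩ := (Nat.dvd_prime_pow hp).1 h1
        exact ⟨k, hk⟩
      obtain ⟨h, hh, hh2⟩ := hfus (a ^ m) (pow_mem haH m) hpm c hc
      rw [← hh2]
      have h1 : (⟨h, hh⟩ * ⟨a ^ m, pow_mem haH m⟩ * ⟨h, hh⟩⁻¹ * ⟨a ^ m, pow_mem haH m⟩⁻¹ : H) ∈
          Cfsg.pResidual p ↥H ⊔ commutator ↥H :=
        Subgroup.mem_sup_right (Subgroup.commutator_mem_commutator (Subgroup.mem_top _) (Subgroup.mem_top _))
      exact (hmK _).2 h1
    rw [hab]; exact mul_mem haK hbK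
  · refine le_inf ?_ (Subgroup.map_subtype_le _)
    rw [Subgroup.map_sup]
    refine sup_le_sup (H2.map_pResidual_le H.subtype) ?_
    rw [commutator_def, commutator_def, Subgroup.map_commutator]
    exact Subgroup.commutator_mono le_top le_top

end Cfsg.Agent.S1242
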