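import Cfsg.Statements.S1243
import Cfsg.Agent.H4.Basic2

set_option autoImplicit false
open Cfsg

namespace Cfsg.Agent.S1243

/-- Let T be a Sylow p-subgroup of the finite group G and W ≤ T a subgroup weakly closed in T. If d and g d g⁻¹ both centralize W, then g d g⁻¹ = h d h⁻¹ for some h ∈ N_G(W). -/
theorem result {G : Type*} [Group G] [Finite G] {p : ℕ} [Fact p.Prime] (T : Sylow p G) (W : Subgroup G) (hW : Cfsg.IsWeaklyClosed W (T : Subgroup G)) (d g : G) (hd : d ∈ Subgroup.centralizer (W : Set G)) (hgd : g * d * g⁻¹ ∈ Subgroup.centralizer (W : Set G)) : ∃ h ∈ Subgroup.normalizer (W : Set G), h * d * h⁻¹ = g * d * g⁻¹ := by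
  obtain ⟨hWT, hwc⟩ := hW
  set d' := g * d * g⁻¹ with hd'
  set C := Subgroup.centralizer ({d'} : Set G) with hC
  have hWp : IsPGroup p W := T.2.to_le hWT
  have hWC : W ≤ C := by
    intro w hw
    rw [hC, Subgroup.mem_centralizer_singleton_iff]
    exact (Subgroup.mem_centralizer_iff.1 hgd w hw)
  have hWgC : W.map (MulAut.conj g).toMonoidHom ≤ C := by
    intro w hw
    rw [H4.mem_map_conj] at hw
    rw [hC, Subgroup.mem_centralizer_singleton_iff, hd']
    have := Subgroup.mem_centralizer_iff.1 hd _ hw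
    calc w * (g * d * g⁻¹) = g * ((g⁻¹ * w * g) * d) * g⁻¹ := by group
      _ = g * d * g⁻¹ * w := by rw [this]; group
  obtain ⟨R, hR⟩ := (show IsPGroup p (W.subgroupOf C) from hWp.comap_subtype).exists_le_sylow
  obtain ⟨c, hc⟩ := H4.exists_map_conj_le_sylow R ((W.map (MulAut.conj g).toMonoidHom).subgroupOf C)
    ((H4.isPGroup_map_conj hWp g).comap_subtype)
  -- push R to G
  have hRp : IsPGroup p ((R : Subgroup C).map C.subtype) := R.2.map _
  obtain ⟨x, hx⟩ := H4.exists_map_conj_le_sylow T _ hRp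
  have h1 : W ≤ (R : Subgroup C).map C.subtype := by
    intro w hw
    exact ⟨⟨w, hWC hw⟩, hR (Subgroup.mem_subgroupOf.2 hw), rfl⟩
  have h2 : W.map (MulAut.conj (c.1 * g)).toMonoidHom ≤ (R : Subgroup C).map C.subtype := by
    intro w hw
    rw [H4.mem_map_conj] at hw
    have hw' : (c.1)⁻¹ * w * c.1 ∈ W.map (MulAut.conj g).toMonoidHom := by
      rw [H4.mem_map_conj]
      have : g⁻¹ * ((c.1)⁻¹ * w * c.1) * g = (c.1 * g)⁻¹ * w * (c.1 * g) := by group
      rw [this]; exact hw
    have hwC : w ∈ C := by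
      have h3 := hWgC hw'
      have h4 := mul_mem (mul_mem c.2 h3) (inv_mem c.2)
      have : c.1 * ((c.1)⁻¹ * w * c.1) * (c.1)⁻¹ = w := by group
      rwa [this] at h4
    refine ⟨⟨w, hwC⟩, hc ?_, rfl⟩
    rw [H4.mem_map_conj, Subgroup.mem_subgroupOf]
    exact hw'
  have h3 := hwc x ((Subgroup.map_mono h1).trans hx)
  have h4 := hwc (x * (c.1 * g)) (by
    have := (Subgroup.map_mono (f := (MulAut.conj x).toMonoidHom) h2).trans hx
    rwa [H4.map_conj_mul] at this)
  rw [H4.map_conj_eq_iff_mem_normalizer] at h3 h4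
  refine ⟨c.1 * g, ?_, ?_⟩
  · have := mul_mem (inv_mem h3) h4
    simpa using this
  · have h5 := Subgroup.mem_centralizer_singleton_iff.1 c.2
    calc c.1 * g * d * (c.1 * g)⁻¹ = c.1 * (g * d * g⁻¹) * (c.1)⁻¹ := by group
      _ = d' := by rw [← hd', h5]; group

end Cfsg.Agent.S1243
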