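import Cfsg.Statements.S1244
import Cfsg.Agent.H4.NormMap

set_option autoImplicit false
open Cfsg

namespace Cfsg.Agent.S1244

theorem aux_two {A : Type*} [Group A] [Finite A] {Ω Ω₀ : Subgroup A} (hle : Ω₀ ≤ Ω)
    (h : Nat.card Ω ≤ 2 * Nat.card Ω₀) : ∀ a ∈ Ω, ∀ b ∈ Ω, a ∉ Ω₀ → b ∉ Ω₀ → a * b ∈ Ω₀ := by
  intro a ha b hb ha0 hb0
  have h1 : Ω₀.relIndex Ω * Nat.card Ω₀ = Nat.card Ω := by
    rw [Subgroup.relIndex, mul_comm, ← (Ω₀.subgroupOf Ω).card_mul_index]
    congr 1
    exact Nat.card_congr (Subgroup.subgroupOfEquivOfLe hle).symm.toEquiv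
  have hpos : 0 < Nat.card Ω₀ := Nat.card_pos
  have h2 : Ω₀.relIndex Ω ≤ 2 := by
    by_contra hcon
    push Not at hcon
    have : 3 * Nat.card Ω₀ ≤ Ω₀.relIndex Ω * Nat.card Ω₀ := Nat.mul_le_mul_right _ hcon
    omega
  have h3 : Ω₀.relIndex Ω ≠ 0 := by
    intro h0
    rw [h0, zero_mul] at h1
    have : 0 < Nat.card Ω := Nat.card_pos
    omega
  have h4 : Ω₀.relIndex Ω ≠ 1 := by
    intro h0
    rw [Subgroup.relIndex_eq_one] at h0
    exact ha0 (h0 ha)
  have h5 : (Ω₀.subgroupOf Ω).index = 2 := by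
    have : Ω₀.relIndex Ω = 2 := by omega
    exact this
  have h6 := (Subgroup.mul_mem_iff_of_index_two h5 (a := ⟨a, ha⟩) (b := ⟨b, hb⟩)).2 (by
    simp only [Subgroup.mem_subgroupOf, ha0, hb0])
  exact h6

/-- Let G be a finite group with no subgroup of index 2 whose Sylow 2-subgroup S is commutative, and let R ≤ S be a subgroup whose 2-rank is exactly one less than the 2-rank r of S. Then every involution of S is conjugate, by an element of N_G(S), to an element of R. -/
theorem result {G : Type*} [Group G] [Finite G] (hG : ∀ H : Subgroup G, H.index ≠ 2) (S : Sylow 2 G) (hS : IsMulCommutative (S : Subgroup G)) (r : ℕ) (hr1 : 1 ≤ r) (hSr : Cfsg.PRankLE 2 r (S : Subgroup G) ∧ ¬ Cfsg.PRankLE 2 (r - 1) (S : Subgroup G)) (R : Subgroup G) (hRS : R ≤ S) (hRr : Cfsg.PRankLE 2 (r - 1) R ∧ (r = 1 ∨ ¬ Cfsg.PRankLE 2 (r - 2) R)) (t : G) (ht : orderOf t = 2) (htS : t ∈ S) : ∃ n ∈ Subgroup.normalizer ((S : Subgroup G) : Set G), n * t * n⁻¹ ∈ R := by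
  haveI : Fact (Nat.Prime 2) := ⟨Nat.prime_two⟩
  have hab : ∀ a b : (S : Subgroup G), a * b = b * a := fun a b => hS.is_comm.comm a b
  letI := H4.commGroupOf hab
  by_contra hcon
  push Not at hcon
  let Ω : Subgroup (S : Subgroup G) :=
    { carrier := {s | s * s = 1}
      one_mem' := one_mul 1
      mul_mem' := by
        intro a b ha hb
        show a * b * (a * b) = 1
        have ha' : a * a = 1 := ha
        have hb' : b * b = 1 := hb
        rw [mul_mul_mul_comm, ha', hb', one_mul]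
      inv_mem' := by
        intro a ha
        show a⁻¹ * a⁻¹ = 1
        have ha' : a * a = 1 := ha
        rw [← mul_inv_rev, ha', inv_one] }
  have hΩ : ∀ s, s ∈ Ω ↔ s * s = 1 := fun s => Iff.rfl
  let Ω₀ : Subgroup (S : Subgroup G) := Ω ⊓ R.subgroupOf (S : Subgroup G)
  have hle : Ω₀ ≤ Ω := inf_le_left
  have hpg : IsPGroup 2 Ω₀ := S.isPGroup'.to_subgroup Ω₀
  have hcΩ : Nat.card Ω ≤ 2 ^ r := by
    apply hSr.1 Ω ⟨⟨fun a b => mul_comm a b⟩⟩
    intro a ha
    rw [pow_two]; exact ha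
  have hcΩ₀ : 2 ^ (r - 1) ≤ Nat.card Ω₀ := by
    rcases hRr.2 with h1 | h1
    · rw [h1]; exact Nat.card_pos
    · unfold Cfsg.PRankLE at h1
      push Not at h1
      obtain ⟨A, hA, hA2, hAc⟩ := h1
      have h2 : Nat.card A ≤ Nat.card Ω₀ := by
        refine Nat.card_le_card_of_injective (fun a : A => (⟨⟨((a : R) : G), hRS (a : R).2⟩, ?_, (a : R).2⟩ : Ω₀)) ?_
        · show _ * _ = (1 : (S : Subgroup G))
          have := hA2 (a : R) a.2
          rw [pow_two] at this
          have h3 : ((a : R) : G) * ((a : R) : G) = 1 := congrArg Subtype.val this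
          exact Subtype.ext h3
        · intro a b h
          have h3 := congrArg (fun w : Ω₀ => ((w : (S : Subgroup G)) : G)) h
          exact Subtype.ext (Subtype.ext h3)
      obtain ⟨j, hj⟩ := IsPGroup.iff_card.1 hpg
      rw [hj] at h2 ⊢
      have h3 : 2 ^ (r - 2) < 2 ^ j := lt_of_lt_of_le hAc h2
      have h4 := (Nat.pow_lt_pow_iff_right (by norm_num : 1 < 2)).1 h3
      exact Nat.pow_le_pow_right (by norm_num) (by omega)
  have hle2 : Nat.card Ω ≤ 2 * Nat.card Ω₀ := by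
    have : 2 ^ r = 2 * 2 ^ (r - 1) := by rw [← pow_succ']; congr 1; omega
    omega
  have h2 := aux_two hle hle2
  have htt : t * t = 1 := by
    rw [← pow_two, ← ht]; exact pow_orderOf_eq_one t
  have hodd : Odd (Nat.card (S : Subgroup G).normalizerMonoidHom.range) := by
    rw [← Nat.not_even_iff_odd, even_iff_two_dvd]
    exact H4.not_dvd_card_range S hab
  have hν := H4.normMap_notMem (S : Subgroup G).normalizerMonoidHom.range h2 hodd (t := ⟨t, htS⟩) (by
    rintro _ ⟨n, rfl⟩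
    constructor
    · rw [hΩ, ← map_mul]
      have : (⟨t, htS⟩ * ⟨t, htS⟩ : (S : Subgroup G)) = 1 := Subtype.ext htt
      rw [this, map_one]
    · intro h3
      exact hcon n n.2 h3.2)
  obtain ⟨K, k, hK, hk, hKi⟩ := H4.exists_normal_of_norm S hab ⟨t, htS⟩ (by
    intro h3
    apply hν
    rw [h3]; exact one_mem _)
  haveI := hK
  obtain ⟨H, -, hH⟩ := H4.exists_index_two_ge K hk hKi
  exact hG H hH

end Cfsg.Agent.S1244
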