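import Cfsg.Statements.S1246
import Cfsg.Agent.H10.CharP
import Cfsg.Agent.H4.Basic2
import Cfsg.Agent.H14.Conj

set_option autoImplicit false
open Cfsg

namespace Cfsg.Agent.S1246

open Cfsg.Agent.H10 in
theorem charP_of_equiv {G G' : Type*} [Group G] [Group G'] [Finite G] [Finite G'] {p : ℕ} [Fact p.Prime] (e : G ≃* G')
    (h : Subgroup.centralizer (Cfsg.pCore p G : Set G) ≤ Cfsg.pCore p G) :
    Subgroup.centralizer (Cfsg.pCore p G' : Set G') ≤ Cfsg.pCore p G' := by
  intro x hx
  have h3 : e.symm x ∈ Cfsg.pCore p G := by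
    apply h
    rw [Subgroup.mem_centralizer_iff]
    intro y hy
    have h4 := Subgroup.mem_centralizer_iff.1 hx (e y) (by
      have h2 : (Cfsg.pCore p G).map e.toMonoidHom ≤ Cfsg.pCore p G' :=
        le_pCore (normal_map_equiv inferInstance e) ((pCore_isPGroup p G).map _)
      exact h2 ⟨y, hy, rfl⟩)
    apply e.injective
    rw [map_mul, map_mul, e.apply_symm_apply, h4]
  have h2 : (Cfsg.pCore p G).map e.toMonoidHom ≤ Cfsg.pCore p G' :=
    le_pCore (normal_map_equiv inferInstance e) ((pCore_isPGroup p G).map _)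
  have h5 : e (e.symm x) ∈ Cfsg.pCore p G' := h2 ⟨_, h3, rfl⟩
  rwa [e.apply_symm_apply] at h5

theorem centralizer_subgroupOf {G : Type*} [Group G] {X V : Subgroup G} (hV : V ≤ X) :
    Subgroup.centralizer (V.subgroupOf X : Set X) = (Subgroup.centralizer (V : Set G)).subgroupOf X := by
  ext x
  rw [Subgroup.mem_subgroupOf, Subgroup.mem_centralizer_iff, Subgroup.mem_centralizer_iff]
  constructor
  · intro h y hy
    exact congrArg Subtype.val (h ⟨y, hV hy⟩ hy)
  · intro h y hy
    exact Subtype.ext (h y hy)

open Cfsg.Agent.H10 in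
theorem charP_step {G : Type*} [Group G] [Finite G] {p : ℕ} [Fact p.Prime] {V W : Subgroup G} (hVW : V ≤ W)
    (hW : IsPGroup p W) (hn : W ≤ Subgroup.normalizer (V : Set G))
    (h : Subgroup.centralizer (Cfsg.pCore p ↥(Subgroup.centralizer (V : Set G)) : Set _) ≤
      Cfsg.pCore p ↥(Subgroup.centralizer (V : Set G))) :
    Subgroup.centralizer (Cfsg.pCore p ↥(Subgroup.centralizer (W : Set G)) : Set _) ≤
      Cfsg.pCore p ↥(Subgroup.centralizer (W : Set G)) := by
  set X := Subgroup.normalizer (V : Set G) with hX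
  have hVX : V ≤ X := Subgroup.le_normalizer
  have hCV : Subgroup.centralizer (V : Set G) ≤ X := Subgroup.centralizer_le_normalizer _
  have hCW : Subgroup.centralizer (W : Set G) ≤ X := (Subgroup.centralizer_le hVW).trans hCV
  have hV : IsPGroup p V := hW.to_le hVW
  have hTn : (V.subgroupOf X).Normal := Subgroup.normal_in_normalizer
  have hT : V.subgroupOf X ≤ Cfsg.pCore p X := le_pCore hTn (isPGroup_subgroupOf hV)
  have e1 : ↥(Subgroup.centralizer (V : Set G)) ≃* ↥(Subgroup.centralizer (V.subgroupOf X : Set X)) := by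
    rw [centralizer_subgroupOf hVX]
    exact (Subgroup.subgroupOfEquivOfLe hCV).symm
  have hchX := charP_of_centralizer hT hTn (charP_of_equiv e1 h)
  have hPp : IsPGroup p (W.subgroupOf X) := isPGroup_subgroupOf hW
  have h1 := charP_normalizer hchX hPp
  have hle : Subgroup.centralizer (W.subgroupOf X : Set X) ≤ Subgroup.normalizer (W.subgroupOf X : Set X) :=
    Subgroup.centralizer_le_normalizer _
  have hnorm : ((Subgroup.centralizer (W.subgroupOf X : Set X)).subgroupOf (Subgroup.normalizer (W.subgroupOf X : Set X))).Normal := inferInstance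
  have h2 := charP_subnormal h1 (H := (Subgroup.centralizer (W.subgroupOf X : Set X)).subgroupOf (Subgroup.normalizer (W.subgroupOf X : Set X))) hnorm.isSubnormal
  have e2 : ↥((Subgroup.centralizer (W.subgroupOf X : Set X)).subgroupOf (Subgroup.normalizer (W.subgroupOf X : Set X))) ≃*
      ↥(Subgroup.centralizer (W : Set G)) := by
    refine (Subgroup.subgroupOfEquivOfLe hle).trans ?_
    rw [centralizer_subgroupOf hn]
    exact Subgroup.subgroupOfEquivOfLe hCW
  exact charP_of_equiv e2 h2

/-- Let V ≤ U be p-subgroups of the finite group G. If the generalized Fitting subgroup of C_G(V) is a p-group, then so is that of C_G(U). -/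
theorem result {G : Type*} [Group G] [Finite G] {p : ℕ} [Fact p.Prime] (U V : Subgroup G) (hVU : V ≤ U) (hU : IsPGroup p U) (hV : IsPGroup p ↥(Cfsg.generalizedFittingSubgroup ↥(Subgroup.centralizer (V : Set G)))) : IsPGroup p ↥(Cfsg.generalizedFittingSubgroup ↥(Subgroup.centralizer (U : Set G))) := by
  have key : ∀ (n : ℕ) (V : Subgroup G), V ≤ U → Nat.card U - Nat.card V = n →
      (Subgroup.centralizer (Cfsg.pCore p ↥(Subgroup.centralizer (V : Set G)) : Set _) ≤
      Cfsg.pCore p ↥(Subgroup.centralizer (V : Set G))) →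
      (Subgroup.centralizer (Cfsg.pCore p ↥(Subgroup.centralizer (U : Set G)) : Set _) ≤
      Cfsg.pCore p ↥(Subgroup.centralizer (U : Set G))) := by
    intro n
    induction n using Nat.strong_induction_on with
    | _ n ih =>
      intro V hVU hn h
      by_cases hEq : V = U
      · rw [← hEq]; exact h
      · have hlt : V < U := lt_of_le_of_ne hVU hEq
        have h1 := H14.lt_inf_normalizer_of_lt hU hlt
        set W := U ⊓ Subgroup.normalizer (V : Set G) with hW
        have hWU : W ≤ U := inf_le_left
        have h2 := charP_step h1.le (hU.to_le hWU) inf_le_right h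
        refine ih (Nat.card U - Nat.card W) ?_ W hWU rfl h2
        have h3 : Nat.card V < Nat.card W := by
          apply lt_of_le_of_ne (Subgroup.card_le_of_le h1.le)
          intro h4
          exact h1.ne (Subgroup.eq_of_le_of_card_ge h1.le h4.ge)
        have h5 : Nat.card W ≤ Nat.card U := Subgroup.card_le_of_le hWU
        omega
  have h1 := H10.genFitting_isPGroup_of hV
  have h2 := key _ V hVU rfl (H10.genFitting_eq_pCore_iff.1 h1)
  rw [H10.genFitting_eq_pCore_iff.2 h2]
  exact H10.pCore_isPGroup p _

end Cfsg.Agent.S1246
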