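import Cfsg.Statements.S1247
import Cfsg.Agent.H4.FStarSub
import Cfsg.Agent.H4.Basic2

set_option autoImplicit false
open Cfsg

namespace Cfsg.Agent.S1247

open Cfsg.Agent

theorem normalizer_eq {G : Type*} [Group G] [IsSimpleGroup G] {A : Subgroup G} (hA : IsCoatom A) {Z : Subgroup ↥A}
    (hZ : Z.Normal) (hZ1 : Z ≠ ⊥) : Subgroup.normalizer ((Z.map A.subtype : Subgroup G) : Set G) = A := by
  have h1 : A ≤ Subgroup.normalizer ((Z.map A.subtype : Subgroup G) : Set G) := by
    intro a ha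
    rw [Subgroup.mem_normalizer_iff]
    intro z
    constructor
    · rintro ⟨w, hw, rfl⟩
      exact ⟨⟨a, ha⟩ * w * ⟨a, ha⟩⁻¹, hZ.conj_mem _ hw _, rfl⟩
    · rintro ⟨w, hw, hwz⟩
      refine ⟨⟨a, ha⟩⁻¹ * w * ⟨a, ha⟩, ?_, ?_⟩
      · have := hZ.conj_mem _ hw (⟨a, ha⟩⁻¹)
        rwa [inv_inv] at this
      · have hwz' : (w : G) = a * z * a⁻¹ := hwz
        show a⁻¹ * (w : G) * a = z
        rw [hwz']; simp only [mul_assoc, inv_mul_cancel_left, inv_mul_cancel, mul_one]
  rcases hA.le_iff.1 h1 with h2 | h2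
  · exfalso
    have h3 : (Z.map A.subtype).Normal := Subgroup.normalizer_eq_top_iff.1 h2
    rcases h3.eq_bot_or_eq_top with h4 | h4
    · rw [Subgroup.map_eq_bot_iff_of_injective _ A.subtype_injective] at h4
      exact hZ1 h4
    · apply hA.1
      rw [eq_top_iff, ← h4]
      exact Subgroup.map_subtype_le Z
  · exact h2

theorem center_normal {K : Type*} [Group K] [Finite K] (p : ℕ) :
    ((Subgroup.center (Cfsg.pCore p K)).map (Cfsg.pCore p K).subtype).Normal := by
  rw [H10.center_map_eq_inf_centralizer]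
  have : (Cfsg.pCore p K).Normal := inferInstance
  infer_instance

theorem center_ne_bot {K : Type*} [Group K] [Finite K] (p : ℕ) [Fact p.Prime] (h : Cfsg.pCore p K ≠ ⊥) :
    (Subgroup.center (Cfsg.pCore p K)).map (Cfsg.pCore p K).subtype ≠ ⊥ := by
  intro h1
  rw [Subgroup.map_eq_bot_iff_of_injective _ (Subgroup.subtype_injective _)] at h1
  haveI : Nontrivial (Cfsg.pCore p K) := (Subgroup.nontrivial_iff_ne_bot _).2 h
  have h2 := (H10.pCore_isPGroup p K).center_nontrivial
  exact (Subgroup.nontrivial_iff_ne_bot _).1 h2 h1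

section
variable {G : Type*} [Group G] [Finite G] [IsSimpleGroup G] {A : Subgroup G} (hA : IsCoatom A)
  {S : Subgroup ↥A} (hS : S.IsSubnormal) (hSF : S ≤ Cfsg.generalizedFittingSubgroup ↥A)
  (hSC : Cfsg.generalizedFittingSubgroup ↥A ⊓ Subgroup.centralizer (S : Set ↥A) ≤ S)
  {p : ℕ} [Fact p.Prime] {B : Subgroup G} (hSB : S.map A.subtype ≤ B)
include hA hS hSF hSC hSB

theorem center_le (r : ℕ) [Fact r.Prime] : (Subgroup.center (Cfsg.pCore r ↥A)).map (Cfsg.pCore r ↥A).subtype ≤ S ⊓ Cfsg.pCore r ↥A := by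
  rw [H10.center_map_eq_inf_centralizer]
  refine le_inf ?_ inf_le_left
  refine le_trans ?_ (H4.pCore_centralizer_le hS hSF hSC r)
  exact le_inf inf_le_left (inf_le_right.trans (Subgroup.centralizer_le inf_le_right))

theorem norm_Y : S.map A.subtype ≤ Subgroup.normalizer (((Cfsg.pCore p ↥B).map B.subtype : Subgroup G) : Set G) := by
  refine hSB.trans ?_
  intro a ha
  have hZ : (Cfsg.pCore p ↥B).Normal := inferInstance
  rw [Subgroup.mem_normalizer_iff]
  intro z
  constructor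
  · rintro ⟨w, hw, rfl⟩
    exact ⟨⟨a, ha⟩ * w * ⟨a, ha⟩⁻¹, hZ.conj_mem _ hw _, rfl⟩
  · rintro ⟨w, hw, hwz⟩
    refine ⟨⟨a, ha⟩⁻¹ * w * ⟨a, ha⟩, ?_, ?_⟩
    · have := hZ.conj_mem _ hw (⟨a, ha⟩⁻¹)
      rwa [inv_inv] at this
    · have hwz' : (w : G) = a * z * a⁻¹ := hwz
      show a⁻¹ * (w : G) * a = z
      rw [hwz']; simp only [mul_assoc, inv_mul_cancel_left, inv_mul_cancel, mul_one]

/-- the key commutator computation -/
theorem key_comm (hp1 : Cfsg.pCore p ↥A ≠ ⊥) {D : Subgroup ↥A} (hDS : D ≤ S) (hDR : D ≤ Subgroup.centralizer (Cfsg.pCore p ↥A : Set ↥A)) :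
    let Y := (Cfsg.pCore p ↥B).map B.subtype
    let Sp := (S ⊓ Cfsg.pCore p ↥A).map A.subtype
    ⁅Y ⊓ Subgroup.centralizer (Sp : Set G), D.map A.subtype⁆ ≤ (Cfsg.pCore p ↥A).map A.subtype := by
  intro Y Sp
  have hYp : IsPGroup p Y := (H10.pCore_isPGroup p ↥B).map _
  have hYn := norm_Y (p := p) hA hS hSF hSC hSB
  set X := Y ⊓ Subgroup.centralizer (Sp : Set G) with hX
  have hXA : X ≤ A := by
    refine inf_le_right.trans ?_
    have h1 := normalizer_eq hA (center_normal p) (center_ne_bot p hp1)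
    rw [← h1]
    refine le_trans (Subgroup.centralizer_le ?_) (Subgroup.centralizer_le_normalizer _)
    exact Subgroup.map_mono (center_le hA hS hSF hSC hSB p)
  have hE := H4.layer_le_of_large hS hSC
  -- things centralizing `O_p(A)` and lying in `S` normalize `X`
  have hnorm : ∀ d ∈ S, d ∈ Subgroup.centralizer (Cfsg.pCore p ↥A : Set ↥A) → (d : G) ∈ Subgroup.normalizer (X : Set G) := by
    intro d hd hdc
    have h1 := hYn ⟨d, hd, rfl⟩
    have h2 : (d : G) ∈ Subgroup.centralizer (Sp : Set G) := by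
      rw [Subgroup.mem_centralizer_iff]
      rintro _ ⟨w, hw, rfl⟩
      exact congrArg Subtype.val (Subgroup.mem_centralizer_iff.1 hdc w hw.2)
    have h3 : (d : G) ∈ Subgroup.normalizer (Subgroup.centralizer (Sp : Set G) : Set G) := Subgroup.le_normalizer h2
    rw [Subgroup.mem_normalizer_iff] at h1 h3 ⊢
    intro w
    rw [Subgroup.mem_inf, Subgroup.mem_inf]
    exact and_congr (h1 w) (h3 w)
  have hW : X.subgroupOf A ⊓ Cfsg.generalizedFittingSubgroup ↥A ≤ Cfsg.pCore p ↥A := by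
    have hWp : IsPGroup p ↥(X.subgroupOf A ⊓ Cfsg.generalizedFittingSubgroup ↥A) :=
      (H10.isPGroup_subgroupOf (hYp.to_le inf_le_left)).to_le inf_le_left
    have h1 : X.subgroupOf A ⊓ Cfsg.generalizedFittingSubgroup ↥A ≤ Cfsg.fittingSubgroup ↥A := by
      apply H4.le_fitting_of_solvable inf_le_right
      · haveI := hWp.isNilpotent
        infer_instance
      · intro e he
        have h2 := hnorm e (hE he) (H4.fsp_le_centralizer p (H4.layer_le_fsp p he))
        have hFn := H10.genFitting_normal ↥A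
        have h3 : e ∈ Subgroup.normalizer (Cfsg.generalizedFittingSubgroup ↥A : Set ↥A) :=
          Subgroup.le_normalizer_of_normal (Subgroup.mem_top e)
        rw [Subgroup.mem_normalizer_iff] at h2 h3 ⊢
        intro w
        rw [Subgroup.mem_inf, Subgroup.mem_inf, h3 w, Subgroup.mem_subgroupOf, Subgroup.mem_subgroupOf, h2 w]
        rfl
    intro w hw
    apply H23.mem_pCore_of_mem_fitting (h1 hw)
    exact hWp.to_le (Subgroup.zpowers_le.2 hw)
  rw [Subgroup.commutator_le]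
  rintro x hx _ ⟨d, hd, rfl⟩
  have hxA := hXA hx
  have h1 : (⟨x, hxA⟩ : ↥A) * d * (⟨x, hxA⟩ : ↥A)⁻¹ * d⁻¹ ∈ X.subgroupOf A ⊓ Cfsg.generalizedFittingSubgroup ↥A := by
    refine Subgroup.mem_inf.2 ⟨?_, ?_⟩
    · rw [Subgroup.mem_subgroupOf]
      have h2 : (d : G) * x⁻¹ * (d : G)⁻¹ ∈ X := (Subgroup.mem_normalizer_iff.1 (hnorm d (hDS hd) (hDR hd)) _).1 (inv_mem hx)
      have h3 : x * ((d : G) * x⁻¹ * (d : G)⁻¹) ∈ X := mul_mem hx h2
      have h4 : x * ((d : G) * x⁻¹ * (d : G)⁻¹) = x * d * x⁻¹ * (d : G)⁻¹ := by simp only [mul_assoc]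
      rw [h4] at h3
      exact h3
    · have hFn := H10.genFitting_normal ↥A
      exact mul_mem (hFn.conj_mem _ (hSF (hDS hd)) _) (inv_mem (hSF (hDS hd)))
  exact ⟨_, hW h1, rfl⟩

theorem comm_Y (hp1 : Cfsg.pCore p ↥A ≠ ⊥) {D : Subgroup ↥A} (hDS : D ≤ S) (hDR : D ≤ Subgroup.centralizer (Cfsg.pCore p ↥A : Set ↥A))
    (hD : ⁅D, D⁆ = D ∨ D ≤ Subgroup.closure {x : ↥A | x ∈ D ∧ (orderOf x).Coprime p}) :
    ⁅(Cfsg.pCore p ↥B).map B.subtype, D.map A.subtype⁆ = ⊥ := by
  set Y := (Cfsg.pCore p ↥B).map B.subtype with hY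
  set Sp := (S ⊓ Cfsg.pCore p ↥A).map A.subtype with hSp
  have hYp : IsPGroup p Y := (H10.pCore_isPGroup p ↥B).map _
  have hYn := norm_Y (p := p) hA hS hSF hSC hSB
  have hkey : ⁅Y ⊓ Subgroup.centralizer (Sp : Set G), D.map A.subtype⁆ ≤ (Cfsg.pCore p ↥A).map A.subtype :=
    key_comm hA hS hSF hSC hSB hp1 hDS hDR
  set X := Y ⊓ Subgroup.centralizer (Sp : Set G) with hX
  have hRD : ⁅(Cfsg.pCore p ↥A).map A.subtype, D.map A.subtype⁆ = ⊥ := by
    rw [← Subgroup.map_commutator, Subgroup.commutator_comm, Subgroup.commutator_eq_bot_iff_le_centralizer.2 hDR, Subgroup.map_bot]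
  have h2 : ⁅⁅X, D.map A.subtype⁆, D.map A.subtype⁆ = ⊥ := by
    rw [eq_bot_iff, ← hRD]
    exact Subgroup.commutator_mono hkey le_rfl
  have hDSp : ⁅D.map A.subtype, Sp⁆ = ⊥ := by
    rw [eq_bot_iff, ← hRD, Subgroup.commutator_comm]
    exact Subgroup.commutator_mono (Subgroup.map_mono inf_le_right) le_rfl
  have hDn : D.map A.subtype ≤ Subgroup.normalizer (Y : Set G) := (Subgroup.map_mono hDS).trans hYn
  have hSpn : Sp ≤ Subgroup.normalizer (Y : Set G) := (Subgroup.map_mono inf_le_left).trans hYn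
  have hSpp : IsPGroup p Sp := ((H10.pCore_isPGroup p ↥A).to_le inf_le_right).map _
  rcases hD with hD | hD
  · have hD' : ⁅D.map A.subtype, D.map A.subtype⁆ = D.map A.subtype := by
      rw [← Subgroup.map_commutator, hD]
    have h3 : ⁅X, D.map A.subtype⁆ = ⊥ := H10.commutator_eq_bot_of_perfect hD' h2
    exact H10.axb_perfect hDSp hSpp hD' hYp hDn hSpn h3
  · have hgen : D.map A.subtype ≤ Subgroup.closure {x : G | x ∈ D.map A.subtype ∧ (orderOf x).Coprime p} := by
      rintro _ ⟨d, hd, rfl⟩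
      have h4 := hD hd
      have h5 : Subgroup.closure {x : ↥A | x ∈ D ∧ (orderOf x).Coprime p} ≤
          (Subgroup.closure {x : G | x ∈ D.map A.subtype ∧ (orderOf x).Coprime p}).comap A.subtype := by
        rw [Subgroup.closure_le]
        rintro x ⟨hx, hxo⟩
        apply Subgroup.subset_closure
        exact ⟨⟨x, hx, rfl⟩, by rw [Subgroup.subtype_apply, Subgroup.orderOf_coe]; exact hxo⟩
      exact h5 h4
    have hDX : D.map A.subtype ≤ Subgroup.normalizer (X : Set G) := by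
      intro d hd
      have h1 := hDn hd
      have h2 : d ∈ Subgroup.centralizer (Sp : Set G) := (Subgroup.commutator_eq_bot_iff_le_centralizer.1 hDSp) hd
      have h3 : d ∈ Subgroup.normalizer (Subgroup.centralizer (Sp : Set G) : Set G) := Subgroup.le_normalizer h2
      rw [Subgroup.mem_normalizer_iff] at h1 h3 ⊢
      intro w
      rw [Subgroup.mem_inf, Subgroup.mem_inf]
      exact and_congr (h1 w) (h3 w)
    have h3 : ⁅X, D.map A.subtype⁆ = ⊥ := H10.stab_of_generated (hYp.to_le inf_le_left) hDX hgen h2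
    exact H10.axb_generated hDSp hSpp hgen hYp hDn hSpn h3

theorem partb (hp1 : Cfsg.pCore p ↥A ≠ ⊥) {x : G} (hx : x ∈ (Cfsg.pCore p ↥B).map B.subtype) {v : ↥A}
    (hv : v ∈ Cfsg.generalizedFittingSubgroup ↥A) (hc : (orderOf v).Coprime p) : x * v = v * x := by
  set Y := (Cfsg.pCore p ↥B).map B.subtype with hY
  have hYp : IsPGroup p Y := (H10.pCore_isPGroup p ↥B).map _
  have hE := H4.layer_le_of_large hS hSC
  -- the two subgroups
  have hYE : ⁅Y, (Cfsg.layer ↥A).map A.subtype⁆ = ⊥ :=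
    comm_Y hA hS hSF hSC hSB hp1 hE ((H4.layer_le_fsp p).trans (H4.fsp_le_centralizer p)) (Or.inl (H10.layer_perfect _))
  set T : Subgroup ↥A := Subgroup.closure {x : ↥A | x ∈ S ∧ (orderOf x).Coprime p} with hT
  have hTS : T ≤ S := by rw [hT, Subgroup.closure_le]; exact fun x hx => hx.1
  have hYT : ⁅Y, T.map A.subtype⁆ = ⊥ := by
    refine comm_Y hA hS hSF hSC hSB hp1 hTS ?_ (Or.inr ?_)
    · rw [hT, Subgroup.closure_le]
      rintro x ⟨hx, hxo⟩
      rw [SetLike.mem_coe, Subgroup.mem_centralizer_iff]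
      intro b hb
      exact (H4.coprime_commute_pCore p (hSF hx) hxo hb).eq.symm
    · rw [hT, Subgroup.closure_le]
      rintro x ⟨hx, hxo⟩
      exact Subgroup.subset_closure ⟨Subgroup.subset_closure ⟨hx, hxo⟩, hxo⟩
  have hcoreT : ∀ (r : ℕ) [Fact r.Prime], r ≠ p → S ⊓ Cfsg.pCore r ↥A ≤ T := by
    intro r _ hr w hw
    apply Subgroup.subset_closure
    refine ⟨hw.1, ?_⟩
    obtain ⟨k, hk⟩ := (H10.pCore_isPGroup r ↥A) ⟨w, hw.2⟩
    have hk' : w ^ r ^ k = 1 := congrArg Subtype.val hk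
    exact Nat.Coprime.coprime_dvd_left (orderOf_dvd_of_pow_eq_one hk')
      (Nat.Coprime.pow_left k ((Nat.coprime_primes Fact.out Fact.out).2 hr))
  by_cases hcase : Cfsg.layer ↥A = ⊥ ∧ ∀ (r : ℕ) [Fact r.Prime], r ≠ p → Cfsg.pCore r ↥A = ⊥
  · have h1 : H4.fsp p ↥A ≤ ⊥ := H4.fsp_le hcase.1.le (fun r _ hr => (hcase.2 r hr).le)
    have h2 := h1 (H4.mem_fsp_of_coprime p hv hc)
    rw [Subgroup.mem_bot] at h2
    rw [h2]; simp
  · have hYA : Y ≤ A := by
      by_cases hl : Cfsg.layer ↥A = ⊥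
      · have h1 : ∃ r : ℕ, ∃ _ : Fact r.Prime, r ≠ p ∧ Cfsg.pCore r ↥A ≠ ⊥ := by
          by_contra hcon
          push Not at hcon
          exact hcase ⟨hl, fun r hr hrp => hcon r hr hrp⟩
        obtain ⟨r, hr, hrp, hr1⟩ := h1
        have h2 := normalizer_eq hA (center_normal r) (center_ne_bot r hr1)
        rw [← h2]
        refine le_trans ?_ (Subgroup.centralizer_le_normalizer _)
        rw [← Subgroup.commutator_eq_bot_iff_le_centralizer, eq_bot_iff, ← hYT]
        exact Subgroup.commutator_mono le_rfl (Subgroup.map_mono ((center_le hA hS hSF hSC hSB r).trans (hcoreT r hrp)))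
      · have h2 := normalizer_eq hA (H10.layer_normal ↥A) hl
        rw [← h2]
        refine le_trans ?_ (Subgroup.centralizer_le_normalizer _)
        rw [← Subgroup.commutator_eq_bot_iff_le_centralizer]
        exact hYE
    have hmapY : (Y.subgroupOf A).map A.subtype = Y := Subgroup.map_subgroupOf_eq_of_le hYA
    have hinj : ∀ D : Subgroup ↥A, ⁅Y, D.map A.subtype⁆ = ⊥ → ⁅Y.subgroupOf A, D⁆ = ⊥ := by
      intro D hD
      rw [← hmapY, ← Subgroup.map_commutator, Subgroup.map_eq_bot_iff_of_injective _ A.subtype_injective] at hD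
      exact hD
    have hfsp : H4.fsp p ↥A ≤ Subgroup.centralizer ((Y.subgroupOf A : Subgroup ↥A) : Set ↥A) := by
      apply H4.fsp_le
      · rw [← Subgroup.commutator_eq_bot_iff_le_centralizer, Subgroup.commutator_comm]
        exact hinj _ hYE
      · intro r _ hr
        rw [← Subgroup.commutator_eq_bot_iff_le_centralizer]
        apply H4.pCore_comm_of_coprime hS hSF hSC
        · have h3 : IsPGroup p (Y.subgroupOf A) := H10.isPGroup_subgroupOf hYp
          obtain ⟨k, hk⟩ := IsPGroup.iff_card.1 h3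
          rw [hk]
          exact Nat.Coprime.pow_left k ((Nat.coprime_primes Fact.out Fact.out).2 (Ne.symm hr))
        · rw [eq_bot_iff, ← hinj _ hYT]
          exact Subgroup.commutator_mono le_rfl (hcoreT r hr)
    have h4 := Subgroup.mem_centralizer_iff.1 (hfsp (H4.mem_fsp_of_coprime p hv hc)) ⟨x, hYA hx⟩ hx
    exact congrArg Subtype.val h4

end

/-- Let G be a non-abelian finite simple group, A a maximal subgroup, F = F*(A) its generalized Fitting subgroup (viewed in G), and S ≤ F a subgroup subnormal in F with C_F(S) ≤ S. Let B be any subgroup of G containing S. Then (a) for every prime q not dividing |F(A)|, O_q(B) ∩ A = 1; and (b) for every prime p dividing |F(A)|, O_p(B) commutes elementwise with the subgroup of F generated by its elements of order prime to p. -/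
theorem result {G : Type*} [Group G] [Finite G] [IsSimpleGroup G] (hna : ¬ IsMulCommutative G) (A : Subgroup G) (hA : IsCoatom A) (S : Subgroup G) (hSF : S ≤ (Cfsg.generalizedFittingSubgroup ↥A).map A.subtype) (hSsn : (S.subgroupOf ((Cfsg.generalizedFittingSubgroup ↥A).map A.subtype)).IsSubnormal) (hSC : (Cfsg.generalizedFittingSubgroup ↥A).map A.subtype ⊓ Subgroup.centralizer (S : Set G) ≤ S) (B : Subgroup G) (hSB : S ≤ B) : (∀ q : ℕ, q.Prime → ¬ q ∣ Nat.card (Cfsg.fittingSubgroup ↥A) → (Cfsg.pCore q ↥B).map B.subtype ⊓ A = ⊥) ∧ (∀ p : ℕ, p.Prime → p ∣ Nat.card (Cfsg.fittingSubgroup ↥A) → ∀ x ∈ (Cfsg.pCore p ↥B).map B.subtype, ∀ y ∈ (Cfsg.pResidual p ↥(Cfsg.generalizedFittingSubgroup ↥A)).map ((Cfsg.generalizedFittingSubgroup ↥A).subtype) , x * (A.subtype y) = (A.subtype y) * x) := by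
  set Φ := Cfsg.generalizedFittingSubgroup ↥A with hΦ
  have hΦn : Φ.Normal := H10.genFitting_normal ↥A
  have hSA : S ≤ A := hSF.trans (Subgroup.map_subtype_le _)
  have hSF' : S.subgroupOf A ≤ Φ := by
    intro s hs
    obtain ⟨w, hw, hws⟩ := hSF hs
    have : w = s := Subtype.ext hws
    rwa [← this]
  have hS' : (S.subgroupOf A).IsSubnormal := by
    refine Subgroup.IsSubnormal.trans hSF' ?_ hΦn.isSubnormal
    let g : ↥Φ →* ↥(Φ.map A.subtype) := (A.subtype.comp Φ.subtype).codRestrict _ (fun x => ⟨x, x.2, rfl⟩)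
    have h1 := hSsn.comap g
    exact h1
  have hSC' : Φ ⊓ Subgroup.centralizer ((S.subgroupOf A : Subgroup ↥A) : Set ↥A) ≤ S.subgroupOf A := by
    rintro x ⟨hx, hxc⟩
    apply hSC
    refine Subgroup.mem_inf.2 ⟨⟨x, hx, rfl⟩, ?_⟩
    rw [Subgroup.mem_centralizer_iff]
    intro s hs
    exact congrArg Subtype.val (Subgroup.mem_centralizer_iff.1 hxc ⟨s, hSA hs⟩ hs)
  have hSB' : (S.subgroupOf A).map A.subtype ≤ B := by rw [Subgroup.map_subgroupOf_eq_of_le hSA]; exact hSB
  constructor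
  · intro q hq hqF
    haveI : Fact q.Prime := ⟨hq⟩
    have hYn := norm_Y (p := q) hA hS' hSF' hSC' hSB'
    have h1 := H4.eq_bot_of_normalized hS' hSF' hSC' hqF (X := ((Cfsg.pCore q ↥B).map B.subtype).subgroupOf A)
      (H10.isPGroup_subgroupOf ((H10.pCore_isPGroup q ↥B).map _)) (by
        intro s hs
        have h2 := hYn ⟨s, hs, rfl⟩
        rw [Subgroup.mem_normalizer_iff] at h2 ⊢
        intro w
        exact h2 w)
    rw [Subgroup.subgroupOf_eq_bot] at h1
    exact h1.eq_bot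
  · intro p hp hpF x hx y hy
    haveI : Fact p.Prime := ⟨hp⟩
    have hp1 : Cfsg.pCore p ↥A ≠ ⊥ := by
      intro h0
      obtain ⟨w, hw⟩ := exists_prime_orderOf_dvd_card' (G := Cfsg.fittingSubgroup ↥A) p hpF
      have h1 : (w : ↥A) ∈ Cfsg.pCore p ↥A := by
        apply H23.mem_pCore_of_mem_fitting w.2
        apply IsPGroup.of_card (n := 1)
        rw [Nat.card_zpowers, Subgroup.orderOf_coe, hw, pow_one]
      rw [h0, Subgroup.mem_bot] at h1
      have h2 : w = 1 := Subtype.ext h1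
      rw [h2, orderOf_one] at hw
      exact hp.one_lt.ne hw
    obtain ⟨g, hg, rfl⟩ := hy
    have h3 : Cfsg.pResidual p ↥Φ ≤ (Subgroup.centralizer ({x} : Set G)).comap (A.subtype.comp Φ.subtype) := by
      rw [Cfsg.pResidual, Subgroup.closure_le]
      intro u hu
      rw [SetLike.mem_coe, Subgroup.mem_comap, Subgroup.mem_centralizer_singleton_iff]
      have hu' : (orderOf (u : ↥A)).Coprime p := by rw [Subgroup.orderOf_coe]; exact hu
      exact (partb hA hS' hSF' hSC' hSB' hp1 hx u.2 hu').symm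
    have h4 := h3 hg
    rw [Subgroup.mem_comap, Subgroup.mem_centralizer_singleton_iff] at h4
    exact h4.symm

end Cfsg.Agent.S1247
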