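import Cfsg.Statements.S1248
import Cfsg.Agent.H4.U34

set_option autoImplicit false
open Cfsg

namespace Cfsg.Agent.S1248

open scoped commutatorElement in
theorem claims {G : Type*} [Group G] (h : H4.GoodU G) :
    Nat.card G = 64 ∧ IsKleinFour (Subgroup.center G) ∧
      Subgroup.center G = Subgroup.closure {x : G | orderOf x = 2} ∧
      Subgroup.center G = commutator G ∧ Nat.card (G ⧸ Subgroup.center G) = 16 ∧
      ∀ x : G ⧸ Subgroup.center G, x ^ 2 = 1 := by
  obtain ⟨h1, h2, h3, h4, h5, h6⟩ := h
  haveI : Finite G := Nat.finite_of_card_ne_zero (by omega)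
  have hq : ∀ x : G ⧸ Subgroup.center G, x ^ 2 = 1 := by
    intro x
    obtain ⟨x, rfl⟩ := QuotientGroup.mk_surjective x
    rw [← QuotientGroup.mk_pow, QuotientGroup.eq_one_iff, pow_two]
    exact h3 x
  refine ⟨h1, ?_, ?_, ?_, ?_, hq⟩
  · refine ⟨h2, ?_⟩
    have hd : Monoid.exponent (Subgroup.center G) ∣ 2 := by
      rw [Monoid.exponent_dvd_iff_forall_pow_eq_one]
      intro z
      apply Subtype.ext
      rw [Subgroup.coe_pow, pow_two]
      exact h5 _ z.2
    rcases (Nat.dvd_prime Nat.prime_two).mp hd with h | h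
    · exfalso
      have h7 : ∀ z : Subgroup.center G, z = 1 := fun z => by
        have := Monoid.pow_exponent_eq_one z
        rwa [h, pow_one] at this
      haveI : Subsingleton (Subgroup.center G) := ⟨fun a b => by rw [h7 a, h7 b]⟩
      have := Nat.card_unique (α := Subgroup.center G)
      omega
    · exact h
  · apply le_antisymm
    · intro z hz
      by_cases h : z = 1
      · subst h; exact Subgroup.one_mem _
      · exact Subgroup.subset_closure (orderOf_eq_prime (by rw [pow_two]; exact h5 z hz) h)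
    · rw [Subgroup.closure_le]
      intro x hx
      apply h4
      rw [← pow_two]
      have : orderOf x = 2 := hx
      rw [← this, pow_orderOf_eq_one]
  · apply le_antisymm
    · intro z hz
      obtain ⟨x, y, rfl⟩ := h6 z hz
      exact Subgroup.commutator_mem_commutator (Subgroup.mem_top _) (Subgroup.mem_top _)
    · rw [commutator_def, Subgroup.commutator_le]
      intro x _ y _
      have hab : ∀ a b : G ⧸ Subgroup.center G, a * b = b * a := by
        intro a b
        have ha := hq a
        have hb := hq b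
        have hc := hq (a * b)
        rw [pow_two] at ha hb hc
        have ha' : a⁻¹ = a := inv_eq_of_mul_eq_one_right ha
        have hb' : b⁻¹ = b := inv_eq_of_mul_eq_one_right hb
        have hc' : (a * b)⁻¹ = a * b := inv_eq_of_mul_eq_one_right hc
        rw [← hc', mul_inv_rev, ha', hb']
      rw [← QuotientGroup.eq_one_iff, commutatorElement_def]
      simp only [QuotientGroup.mk_mul, QuotientGroup.mk_inv]
      rw [hab x y]
      group
  · have := Subgroup.card_eq_card_quotient_mul_card_subgroup (Subgroup.center G)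
    rw [h1, h2] at this
    omega

/-- Let F be a field with 16 elements and S a Sylow 2-subgroup of PSU(3) over F (the unitary group U₃(4)). Then |S| = 64; the centre Z(S) is a Klein four-group and coincides with the subgroup generated by the involutions of S and with the derived subgroup; and every element of S ⧸ Z(S) squares to the identity, S ⧸ Z(S) having order 16. -/
theorem result {F : Type*} [Field F] [Fintype F] (hF : Fintype.card F = 16) (S : Sylow 2 (Cfsg.PSU 3 F 4)) : Nat.card S = 64 ∧ IsKleinFour (Subgroup.center (S : Subgroup (Cfsg.PSU 3 F 4))) ∧ Subgroup.center (S : Subgroup (Cfsg.PSU 3 F 4)) = Subgroup.closure {x : (S : Subgroup (Cfsg.PSU 3 F 4)) | orderOf x = 2} ∧ Subgroup.center (S : Subgroup (Cfsg.PSU 3 F 4)) = commutator (S : Subgroup (Cfsg.PSU 3 F 4)) ∧ Nat.card ((S : Subgroup (Cfsg.PSU 3 F 4)) ⧸ Subgroup.center (S : Subgroup (Cfsg.PSU 3 F 4))) = 16 ∧ ∀ x : (S : Subgroup (Cfsg.PSU 3 F 4)) ⧸ Subgroup.center (S : Subgroup (Cfsg.PSU 3 F 4)), x ^ 2 = 1 := by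
  obtain ⟨σ, hσ, _, _⟩ := H5.exists_frob (q := 4) (F := F) (by rw [hF]; norm_num)
  haveI hF' : Fact (Fintype.card F = 16) := ⟨hF⟩
  apply claims
  have hcen : Nat.card (Subgroup.center (SU 3 F 4)) = 1 := by
    rw [H5.card_center_SU (q := 4) (F := F) (by rw [hF]; norm_num) (by norm_num)]
    norm_num
  have hP : Nat.card (Cfsg.PSU 3 F 4) = 64 * 975 := by
    have h := H5.card_PSU_mul (q := 4) (n := 3) (F := F) (by rw [hF]; norm_num) (by norm_num)
    have h2 : H5.ordU 4 3 = 5 * (64 * 975) := by
      unfold H5.ordU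
      simp [Finset.prod_range_succ]
    rw [h2] at h
    norm_num at h
    omega
  haveI : Finite (Cfsg.PSU 3 F 4) := Nat.finite_of_card_ne_zero (by rw [hP]; norm_num)
  let f : H4.UU F →* Cfsg.PSU 3 F 4 := (QuotientGroup.mk' (Subgroup.center (SU 3 F 4))).comp (H4.UU.toSU hσ)
  have hf : Function.Injective f := by
    intro x y hxy
    apply H4.UU.toSU_inj hσ
    have h1 : (QuotientGroup.mk' (Subgroup.center (SU 3 F 4))) (H4.UU.toSU hσ x) =
      (QuotientGroup.mk' (Subgroup.center (SU 3 F 4))) (H4.UU.toSU hσ y) := hxy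
    rw [QuotientGroup.mk'_apply, QuotientGroup.mk'_apply, QuotientGroup.eq] at h1
    rw [Subgroup.card_eq_one] at hcen
    rw [hcen, Subgroup.mem_bot] at h1
    exact inv_mul_eq_one.mp h1
  have hU := H4.goodU_UU (F := F)
  have e : H4.UU F ≃* f.range := MonoidHom.ofInjective hf
  have hcard : Nat.card f.range = 2 ^ (Nat.card (Cfsg.PSU 3 F 4)).factorization 2 := by
    rw [← Nat.card_congr e.toEquiv, H4.UU.card_UU hF, hP]
    have h1 : (64 * 975).factorization 2 = 6 := by
      have h2 : 64 * 975 = 2 ^ 6 * 975 := by norm_num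
      rw [h2, Nat.factorization_mul (by norm_num) (by norm_num), Nat.Prime.factorization_pow Nat.prime_two]
      simp [Nat.factorization_eq_zero_of_not_dvd (show ¬ 2 ∣ 975 by norm_num)]
    rw [h1]
    norm_num
  haveI : Fact (Nat.Prime 2) := ⟨Nat.prime_two⟩
  let T : Sylow 2 (Cfsg.PSU 3 F 4) := Sylow.ofCard f.range hcard
  have e2 : (T : Subgroup (Cfsg.PSU 3 F 4)) ≃* (S : Subgroup (Cfsg.PSU 3 F 4)) := Sylow.equiv T S
  exact (hU.congr e).congr e2

end Cfsg.Agent.S1248
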