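import Cfsg.Statements.S1253
import Cfsg.Agent.H4.ZStar2

set_option autoImplicit false
open Cfsg

namespace Cfsg.Agent.S1253

/-- Let z be an isolated involution of the finite group G with centralizer C, p an odd prime and P a Sylow p-subgroup of G normalized by z. Then P ∩ C has p-power-free index in C (it is a Sylow p-subgroup of C), and |P : C_P(z)| equals the number of elements x ∈ P with z x z⁻¹ = x⁻¹. -/
theorem result {G : Type*} [Group G] [Finite G] (z : G) (hz : Cfsg.IsIsolatedInvolution z) {p : ℕ} [Fact p.Prime] (hp : p ≠ 2) (P : Sylow p G) (hzP : z ∈ Subgroup.normalizer ((P : Subgroup G) : Set G)) : ¬ p ∣ ((P : Subgroup G) ⊓ Subgroup.centralizer ({z} : Set G)).relIndex (Subgroup.centralizer ({z} : Set G)) ∧ ((P : Subgroup G) ⊓ Subgroup.centralizer ({z} : Set G)).relIndex (P : Subgroup G) = Nat.card {x : G // x ∈ P ∧ z * x * z⁻¹ = x⁻¹} := by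
  have hodd : Odd (Nat.card (P : Subgroup G)) := by
    obtain ⟨k, hk⟩ := IsPGroup.iff_card.1 P.2
    rw [hk]
    exact ((Nat.Prime.odd_of_ne_two (Fact.out : p.Prime)) hp).pow
  refine ⟨(H4.isSylowOf_inf_centralizer hz (H4.isSylowOf_sylow P) hzP).not_dvd, ?_⟩
  rw [inf_comm, inf_comm]
  exact H4.relIndex_centralizer_eq_card_inverted (H4.mul_self_of_orderOf_two hz.1) hodd hzP

end Cfsg.Agent.S1253
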