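import Cfsg.Statements.S1254
import Cfsg.Agent.H4.DihFus3
import Cfsg.Agent.H2.NComp

set_option autoImplicit false
open Cfsg

namespace Cfsg.Agent.S1254

/-- Let X be a finite group whose Sylow 2-subgroup S is dihedral (of order at least 4). Then X has a normal 2-complement if and only if, for every Klein four-subgroup U ≤ S, the normalizer N_X(U) is generated by C_X(U) and N_S(U). -/
theorem result {X : Type*} [Group X] [Finite X] (S : Sylow 2 X) (m : ℕ) (hm : 2 ≤ m) (eS : (S : Subgroup X) ≃* DihedralGroup m) : Cfsg.HasNormalPComplement 2 X ↔ ∀ U : Subgroup X, U ≤ S → IsKleinFour U → Subgroup.normalizer (U : Set X) = Subgroup.centralizer (U : Set X) ⊔ ((S : Subgroup X) ⊓ Subgroup.normalizer (U : Set X)) := by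
  haveI : Fact (Nat.Prime 2) := ⟨Nat.prime_two⟩
  obtain ⟨x, y, h⟩ := H4.exists_DR hm eS
  constructor
  · intro hc U hUS hU
    obtain ⟨K, hK, hK2, k, hk⟩ := H2.hasNormalPComplement_iff.1 hc
    haveI := hK
    have hKS : K ⊓ (S : Subgroup X) = ⊥ := by
      rw [eq_bot_iff]
      intro g hg
      obtain ⟨j, hj⟩ := S.isPGroup' ⟨g, hg.2⟩
      have hj' : g ^ 2 ^ j = 1 := congrArg Subtype.val hj
      have h1 : orderOf g ∣ 2 ^ j := orderOf_dvd_of_pow_eq_one hj'
      have h2 : orderOf g ∣ Nat.card K := Subgroup.orderOf_dvd_natCard K hg.1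
      have hcop : Nat.Coprime (2 ^ j) (Nat.card K) :=
        Nat.Coprime.pow_left j ((Nat.Prime.coprime_iff_not_dvd Nat.prime_two).2 hK2)
      have h3 := Nat.dvd_gcd h1 h2
      rw [hcop] at h3
      rw [Subgroup.mem_bot]
      exact orderOf_eq_one_iff.1 (Nat.dvd_one.1 h3)
    have htop : K ⊔ (S : Subgroup X) = ⊤ := by
      rw [← Subgroup.index_eq_one]
      have h1 : (K ⊔ (S : Subgroup X)).index ∣ 2 ^ k := hk ▸ Subgroup.index_dvd_of_le le_sup_left
      have h2 : (K ⊔ (S : Subgroup X)).index ∣ (S : Subgroup X).index := Subgroup.index_dvd_of_le le_sup_right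
      have hcop : Nat.Coprime (2 ^ k) (S : Subgroup X).index :=
        Nat.Coprime.pow_left k ((Nat.Prime.coprime_iff_not_dvd Nat.prime_two).2 S.not_dvd_index)
      have h3 := Nat.dvd_gcd h1 h2
      rw [hcop] at h3
      exact Nat.dvd_one.1 h3
    apply le_antisymm
    · intro n hn
      have hn1 : n ∈ (S : Subgroup X) ⊔ K := by rw [sup_comm, htop]; exact Subgroup.mem_top _
      obtain ⟨s, hs, c, hc, rfl⟩ := H4.exists_mul_of_mem_sup_normal hn1
      -- s * c
      have key : ∀ u ∈ U, c * u * c⁻¹ = u := by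
        intro u hu
        have h1 : s * c * u * (s * c)⁻¹ ∈ U := (Subgroup.mem_normalizer_iff.1 hn u).1 hu
        have h2 : c * u * c⁻¹ ∈ (S : Subgroup X) := by
          have : c * u * c⁻¹ = s⁻¹ * (s * c * u * (s * c)⁻¹) * s := by
            simp only [mul_inv_rev, mul_assoc, inv_mul_cancel_left, inv_mul_cancel, mul_one]
          rw [this]
          exact mul_mem (mul_mem (inv_mem hs) (hUS h1)) hs
        have h3 : c * u * c⁻¹ * u⁻¹ ∈ K ⊓ (S : Subgroup X) := by
          refine Subgroup.mem_inf.2 ⟨?_, mul_mem h2 (inv_mem (hUS hu))⟩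
          have : c * u * c⁻¹ * u⁻¹ = c * (u * c⁻¹ * u⁻¹) := by simp only [mul_assoc]
          rw [this]
          exact mul_mem hc (hK.conj_mem _ (inv_mem hc) u)
        rw [hKS, Subgroup.mem_bot, mul_inv_eq_one] at h3
        exact h3
      have hcC : c ∈ Subgroup.centralizer (U : Set X) := by
        rw [Subgroup.mem_centralizer_iff]
        intro u hu
        have := key u hu
        rw [mul_inv_eq_iff_eq_mul] at this
        exact this.symm
      have hcN : c ∈ Subgroup.normalizer (U : Set X) := Subgroup.centralizer_le_normalizer _ hcC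
      have hsN : s ∈ Subgroup.normalizer (U : Set X) := by
        have := mul_mem hn (inv_mem hcN)
        rwa [mul_inv_cancel_right] at this
      exact mul_mem (Subgroup.mem_sup_right (Subgroup.mem_inf.2 ⟨hs, hsN⟩)) (Subgroup.mem_sup_left hcC)
    · exact sup_le (Subgroup.centralizer_le_normalizer _) inf_le_right
  · intro hN
    apply H2.hasNormalPComplement_of_control S
    intro a ha g hg
    refine h.fusion (fun a b => ∃ s ∈ (S : Subgroup X), s * a * s⁻¹ = b) (fun a => ⟨1, one_mem _, by simp⟩) ?_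
      (fun s hs a _ => ⟨s, hs, rfl⟩) ?_ ha hg
    · rintro a b c ⟨s, hs, rfl⟩ ⟨s', hs', rfl⟩
      exact ⟨s' * s, mul_mem hs' hs, by simp only [mul_inv_rev, mul_assoc]⟩
    · intro U hU hUk n hn a ha
      rw [hN U hU hUk, sup_comm] at hn
      have hle : ((S : Subgroup X) ⊓ Subgroup.normalizer (U : Set X)) ≤
          Subgroup.normalizer (Subgroup.centralizer (U : Set X) : Set X) := by
        intro s hs
        have hs' := (Subgroup.mem_inf.1 hs).2
        rw [H14.mem_normalizer_cj, ← H14.centralizer_cj]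
        rw [H14.mem_normalizer_cj] at hs'
        rw [hs']
      obtain ⟨s, hs, c, hc, rfl⟩ := H4.exists_mul_of_mem_sup hle hn
      refine ⟨s, (Subgroup.mem_inf.1 hs).1, ?_⟩
      have h1 : c * a * c⁻¹ = a := by
        have := Subgroup.mem_centralizer_iff.1 hc a ha
        rw [← this, mul_inv_cancel_right]
      have h2 : s * c * a * (s * c)⁻¹ = s * (c * a * c⁻¹) * s⁻¹ := by simp only [mul_inv_rev, mul_assoc]
      rw [h2, h1]

end Cfsg.Agent.S1254
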