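import Cfsg.Statements.S1255
import Cfsg.Agent.H4.DihFus4

set_option autoImplicit false
open Cfsg

namespace Cfsg.Agent.S1255

open H4 in
theorem aux_all {G : Type*} [Group G] [Finite G] {P : Sylow 2 G} {n : ℕ} {x y : (P : Subgroup G)}
    (h : H4.DR (P : Subgroup G) (2 * n) x y) (hA : ∀ a b : G, orderOf a = 2 → orderOf b = 2 → IsConj a b) :
    (∀ H : Subgroup G, H.index ≠ 2) ∧ (∀ z : G, ¬ Cfsg.IsIsolatedInvolution z) := by
  haveI : Fact (Nat.Prime 2) := ⟨Nat.prime_two⟩
  have ord : ∀ a : (P : Subgroup G), a * a = 1 → a ≠ 1 → orderOf (a : G) = 2 := by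
    intro a ha ha1
    rw [Subgroup.orderOf_coe]
    exact H4.orderOf_two_of ha ha1
  have oz := ord _ h.z_sq h.z_ne
  have orf : ∀ k : ℤ, orderOf ((x ^ k * y : (P : Subgroup G)) : G) = 2 := fun k => ord _ (h.refl_sq k) (h.refl_ne_one k)
  constructor
  · intro H hH
    have hHn : H.Normal := Subgroup.normal_of_index_eq_two hH
    have h1 : ∃ t ∈ H, orderOf t = 2 := by
      by_cases c1 : ((x ^ (n : ℤ) : (P : Subgroup G)) : G) ∈ H
      · exact ⟨_, c1, oz⟩
      by_cases c2 : ((x ^ (0 : ℤ) * y : (P : Subgroup G)) : G) ∈ H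
      · exact ⟨_, c2, orf 0⟩
      refine ⟨((x ^ (n + 0 : ℤ) * y : (P : Subgroup G)) : G), ?_, orf _⟩
      rw [← h.zpow_mul_refl, Subgroup.coe_mul]
      exact (Subgroup.mul_mem_iff_of_index_two hH).2 (by simp only [c1, c2])
    obtain ⟨t, ht, ht2⟩ := h1
    have h2 : ∀ a : G, orderOf a = 2 → a ∈ H := by
      intro a ha
      obtain ⟨c, hc⟩ := isConj_iff.1 (hA t a ht2 ha)
      rw [← hc]; exact hHn.conj_mem _ ht c
    have hy : ((x ^ (0 : ℤ) * y : (P : Subgroup G)) : G) ∈ H := h2 _ (orf 0)
    have hxy : ((x ^ (1 : ℤ) * y : (P : Subgroup G)) : G) ∈ H := h2 _ (orf 1)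
    have hx : ((x : (P : Subgroup G)) : G) ∈ H := by
      have := mul_mem hxy hy
      rw [← Subgroup.coe_mul, h.refl_mul_refl, sub_zero, zpow_one] at this
      exact this
    have hP : (P : Subgroup G) ≤ H := by
      intro g hg
      have hy' : ((y : (P : Subgroup G)) : G) ∈ H := by simpa using hy
      rcases h.cov ⟨g, hg⟩ with ⟨k, hk⟩ | ⟨k, hk⟩
      · have := congrArg Subtype.val hk
        change g = _ at this
        rw [this, Subgroup.coe_zpow]
        exact zpow_mem hx k
      · have := congrArg Subtype.val hk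
        change g = _ at this
        rw [this, Subgroup.coe_mul, Subgroup.coe_zpow]
        exact mul_mem (zpow_mem hx k) hy'
    have hd : H.index ∣ (P : Subgroup G).index := Subgroup.index_dvd_of_le hP
    exact P.not_dvd_index (dvd_trans (dvd_of_eq hH.symm) hd)
  · rintro z ⟨hz, hiso⟩
    obtain ⟨c, hc⟩ := isConj_iff.1 (hA _ z oz hz)
    set w := c * ((x ^ (0 : ℤ) * y : (P : Subgroup G)) : G) * c⁻¹ with hw
    have hw2 : orderOf w = 2 := by rw [hw, H4.orderOf_conj]; exact orf 0
    obtain ⟨g, hg⟩ := isConj_iff.1 (hA z w hz hw2)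
    have hcomm : Commute z w := by
      rw [← hc, hw]
      have h3 : ((x ^ (n : ℤ) : (P : Subgroup G)) : G) * ((x ^ (0 : ℤ) * y : (P : Subgroup G)) : G) =
          ((x ^ (0 : ℤ) * y : (P : Subgroup G)) : G) * ((x ^ (n : ℤ) : (P : Subgroup G)) : G) := by
        rw [← Subgroup.coe_mul, ← Subgroup.coe_mul, h.z_comm]
      exact (show Commute _ _ from h3).map (MulAut.conj c)
    have h4 := hiso g (by rw [hg]; exact hcomm)
    rw [hg, hw, ← hc] at h4
    have h5 := mul_left_cancel (mul_right_cancel h4)
    exact h.z_ne_refl 0 (Subtype.ext h5).symm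

/-- Let X be a finite group whose Sylow 2-subgroup S is dihedral of order 2m ≥ 4. Then X has no subgroup of index 2 and no isolated involution if and only if either all involutions of X are conjugate, or for every Klein four-subgroup U ≤ S the index |N_X(U) : C_X(U)| equals 3 when |S| = 4 and equals 6 when |S| > 4. -/
theorem result {X : Type*} [Group X] [Finite X] (S : Sylow 2 X) (m : ℕ) (hm : 2 ≤ m) (eS : (S : Subgroup X) ≃* DihedralGroup m) : ((∀ H : Subgroup X, H.index ≠ 2) ∧ (∀ z : X, ¬ Cfsg.IsIsolatedInvolution z)) ↔ ((∀ a b : X, orderOf a = 2 → orderOf b = 2 → IsConj a b) ∨ (∀ U : Subgroup X, U ≤ S → IsKleinFour U → (Subgroup.centralizer (U : Set X)).relIndex (Subgroup.normalizer (U : Set X)) = (if Nat.card S = 4 then 3 else 6))) := by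
  haveI : Fact (Nat.Prime 2) := ⟨Nat.prime_two⟩
  obtain ⟨x, y, h⟩ := H4.exists_DR hm eS
  obtain ⟨k, hk⟩ := H4.dih_sylow h
  obtain _ | k := k
  · -- the four-group case
    have hk' : m = 2 * 1 := by rw [hk]; rfl
    subst hk'
    have h4 : Nat.card S = 4 := h.card
    rw [if_pos h4]
    have hK : h.K 0 = ⊤ := by
      haveI := h.finite
      apply Subgroup.eq_top_of_card_eq
      rw [(h.K_klein 0).card_four]
      exact h4.symm
    have hP : IsKleinFour (S : Subgroup X) := by
      have := H4.isKleinFour_map (h.K_klein 0)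
      rwa [hK, ← MonoidHom.range_eq_map, Subgroup.range_subtype] at this
    have hcase := H4.klein_cases S hP
    have hall : (∀ x ∈ S, ∀ y ∈ S, x ≠ 1 → y ≠ 1 → IsConj x y) → (∀ a b : X, orderOf a = 2 → orderOf b = 2 → IsConj a b) := by
      intro hc a b ha hb
      obtain ⟨s, hs, hsa⟩ := H4.exists_conj_in_sylow S (t := a) (k := 1) (by rw [ha]; norm_num)
      obtain ⟨s', hs', hsb⟩ := H4.exists_conj_in_sylow S (t := b) (k := 1) (by rw [hb]; norm_num)
      rw [pow_one] at hs hs'
      exact (hsa.symm.trans (hc s s.2 s' s'.2 (H4.coe_ne_one (H4.ne_one_of_orderOf_two hs))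
        (H4.coe_ne_one (H4.ne_one_of_orderOf_two hs')))).trans hsb
    constructor
    · rintro ⟨h1, h2⟩
      left
      apply hall
      refine hcase.resolve_left fun hN => ?_
      have hfus := H4.isConj_imp_eq_of_central_normalizer S (H4.klein_comm hP) hN
      have hle : (h.M 0).map (S : Subgroup X).subtype ≤ (S : Subgroup X) := Subgroup.map_subtype_le _
      obtain ⟨K, -, hK, -⟩ := H4.exists_index_two_of_fusion S hle (by
        rw [Subgroup.relIndex, Subgroup.subgroupOf, Subgroup.comap_map_eq_self_of_injective (S : Subgroup X).subtype_injective,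
          h.M_index]) (by
        intro a ha b hb hab haM
        rw [← hfus a ha b hb hab]; exact haM)
      exact h1 K hK
    · rintro (hA | hB)
      · exact aux_all h hA
      · apply aux_all h
        apply hall
        refine hcase.resolve_left fun hN => ?_
        have h3 := hB S le_rfl hP
        have h5 : Subgroup.normalizer ((S : Subgroup X) : Set X) ≤ Subgroup.centralizer ((S : Subgroup X) : Set X) := by
          intro g hg
          rw [Subgroup.mem_centralizer_iff]
          intro a ha
          exact (hN g hg a ha).eq.symm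
        rw [Subgroup.relIndex_eq_one.2 h5] at h3
        omega
  · have hk' : m = 2 * (2 * 2 ^ k) := by rw [hk]; ring
    subst hk'
    have hcard : Nat.card S = 2 * (2 * (2 * 2 ^ k)) := h.card
    have hpos : 0 < 2 ^ k := by positivity
    rw [if_neg (by omega)]
    have hall : IsConj ((x ^ ((2 * 2 ^ k : ℕ) : ℤ) : (S : Subgroup X)) : X) ((x ^ (0 : ℤ) * y : (S : Subgroup X)) : X) →
        IsConj ((x ^ ((2 * 2 ^ k : ℕ) : ℤ) : (S : Subgroup X)) : X) ((x ^ (1 : ℤ) * y : (S : Subgroup X)) : X) →
        (∀ a b : X, orderOf a = 2 → orderOf b = 2 → IsConj a b) := by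
      intro c0 c1 a b ha hb
      have key : ∀ a : X, orderOf a = 2 → IsConj ((x ^ ((2 * 2 ^ k : ℕ) : ℤ) : (S : Subgroup X)) : X) a := by
        intro a ha
        rcases h.inv_all ha with h1 | h1 | h1
        · exact h1
        · exact c0.trans h1
        · exact c1.trans h1
      exact (key a ha).symm.trans (key b hb)
    have hrefl : ∀ j : ℤ, IsConj ((x ^ (0 : ℤ) * y : (S : Subgroup X)) : X) ((x ^ (2 * j : ℤ) * y : (S : Subgroup X)) : X) := by
      intro j
      refine H4.isConj_coe (isConj_iff.2 ⟨x ^ j, ?_⟩)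
      rw [h.conj_refl]; congr 2; ring
    have hrefl1 : ∀ j : ℤ, IsConj ((x ^ (1 : ℤ) * y : (S : Subgroup X)) : X) ((x ^ (2 * j + 1 : ℤ) * y : (S : Subgroup X)) : X) := by
      intro j
      refine H4.isConj_coe (isConj_iff.2 ⟨x ^ j, ?_⟩)
      rw [h.conj_refl]; congr 2; ring
    constructor
    · rintro ⟨h1, -⟩
      left
      apply hall
      · by_contra hc
        obtain ⟨K, hK⟩ := h.exists_index_two 1 (by
          intro l hl hcon
          obtain ⟨j, hj⟩ := hl
          have : l = 2 * (j + 1) := by omega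
          rw [this] at hcon
          exact hc (hcon.trans (hrefl _).symm))
        exact h1 K hK
      · by_contra hc
        obtain ⟨K, hK⟩ := h.exists_index_two 0 (by
          intro l hl hcon
          obtain ⟨j, hj⟩ := hl
          have : l = 2 * j + 1 := by omega
          rw [this] at hcon
          exact hc (hcon.trans (hrefl1 _).symm))
        exact h1 K hK
    · rintro (hA | hB)
      · exact aux_all h hA
      · apply aux_all h
        apply hall
        · exact h.klein6 (hB _ (Subgroup.map_subtype_le _) (H4.isKleinFour_map (h.K_klein 0)))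
        · exact h.klein6 (hB _ (Subgroup.map_subtype_le _) (H4.isKleinFour_map (h.K_klein 1)))

end Cfsg.Agent.S1255
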