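import Cfsg.Statements.S1256
import Cfsg.Agent.H4.DihFus3

set_option autoImplicit false
open Cfsg

namespace Cfsg.Agent.S1256

/-- Let X be a finite group whose Sylow 2-subgroup S is dihedral of order 2m ≥ 4. If |S| = 4, any two Klein four-subgroups of X are conjugate; if |S| > 4, there are Klein four-subgroups U₁, U₂ of X that are not conjugate, and every Klein four-subgroup of X is conjugate to U₁ or to U₂. -/
theorem result {X : Type*} [Group X] [Finite X] (S : Sylow 2 X) (m : ℕ) (hm : 2 ≤ m) (eS : (S : Subgroup X) ≃* DihedralGroup m) : (Nat.card S = 4 → ∀ U V : Subgroup X, IsKleinFour U → IsKleinFour V → (∃ x : X, U.map (MulAut.conj x).toMonoidHom = V)) ∧ (4 < Nat.card S → ∃ U₁ U₂ : Subgroup X, IsKleinFour U₁ ∧ IsKleinFour U₂ ∧ ¬ (∃ x : X, U₁.map (MulAut.conj x).toMonoidHom = U₂) ∧ ∀ V : Subgroup X, IsKleinFour V → (∃ x : X, V.map (MulAut.conj x).toMonoidHom = U₁) ∨ (∃ x : X, V.map (MulAut.conj x).toMonoidHom = U₂)) := by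
  obtain ⟨x, y, h⟩ := H4.exists_DR hm eS
  obtain ⟨k, hk⟩ := H4.dih_sylow h
  constructor
  · intro h4 U V hU hV
    obtain ⟨g, hg⟩ := H4.klein_conj_of_card h4 hU
    obtain ⟨g', hg'⟩ := H4.klein_conj_of_card h4 hV
    refine ⟨g'⁻¹ * g, ?_⟩
    show H14.cj (g'⁻¹ * g) U = V
    rw [← H14.cj_cj, hg, ← hg', H14.cj_cj, inv_mul_cancel, H14.cj_one]
  · intro h4
    rw [h.card, hk] at h4
    obtain _ | k := k
    · norm_num at h4
    · have hk' : m = 2 * (2 * 2 ^ k) := by rw [hk]; ring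
      subst hk'
      refine ⟨_, _, H4.isKleinFour_map (h.K_klein 0), H4.isKleinFour_map (h.K_klein 1), ?_, ?_⟩
      · rintro ⟨g, hg⟩
        exact h.not_conj g hg
      · intro V hV
        obtain ⟨g, hg | hg⟩ := h.klein_conj_two hV
        · exact Or.inl ⟨g, hg⟩
        · exact Or.inr ⟨g, hg⟩

end Cfsg.Agent.S1256
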