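import Cfsg.Statements.S1258
import Cfsg.Agent.H10.Comp

set_option autoImplicit false
open Cfsg

namespace Cfsg.Agent.S1258

open scoped commutatorElement in
theorem commutator_le_of_sup_center {X : Type*} [Group X] {H : Subgroup X}
    (h : H ⊔ Subgroup.center X = ⊤) : commutator X ≤ ⁅H, H⁆ := by
  rw [commutator_def, ← h, Subgroup.commutator_le]
  intro a ha b hb
  rw [Subgroup.mem_sup_of_normal_right] at ha hb
  obtain ⟨a1, ha1, a2, ha2, rfl⟩ := ha
  obtain ⟨b1, hb1, b2, hb2, rfl⟩ := hb
  rw [Subgroup.mem_center_iff] at ha2 hb2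
  have : ⁅a1 * a2, b1 * b2⁆ = ⁅a1, b1⁆ := by
    simp only [commutatorElement_def, mul_inv_rev]
    have e1 : a1 * a2 * (b1 * b2) * (a2⁻¹ * a1⁻¹) * (b2⁻¹ * b1⁻¹) =
      a1 * (a2 * (b1 * b2)) * (a2⁻¹ * a1⁻¹) * (b2⁻¹ * b1⁻¹) := by group
    rw [e1, ← ha2 (b1 * b2)]
    have e2 : a1 * (b1 * b2 * a2) * (a2⁻¹ * a1⁻¹) * (b2⁻¹ * b1⁻¹) =
      a1 * b1 * (b2 * a1⁻¹) * (b2⁻¹ * b1⁻¹) := by group
    rw [e2, ← hb2 a1⁻¹]
    group
  rw [this]
  exact Subgroup.commutator_mem_commutator ha1 hb1

/-- If the central quotient of a finite group X is non-abelian simple, then X = X' Z(X) and the commutator subgroup X' is quasisimple. -/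
theorem result {X : Type*} [Group X] [Finite X] (hs : IsSimpleGroup (X ⧸ Subgroup.center X)) (hna : ¬ IsMulCommutative (X ⧸ Subgroup.center X)) : commutator X ⊔ Subgroup.center X = ⊤ ∧ Cfsg.IsQuasisimple ↥(commutator X) := by
  have h1 : (commutator X ⊔ Subgroup.center X : Subgroup X) = ⊤ := by
    have hn : ((commutator X).map (QuotientGroup.mk' (Subgroup.center X))).Normal :=
      Subgroup.Normal.map inferInstance _ (QuotientGroup.mk'_surjective _)
    rcases hn.eq_bot_or_eq_top with h2 | h2
    · exfalso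
      apply hna
      rw [Subgroup.map_eq_bot_iff, QuotientGroup.ker_mk'] at h2
      exact Subgroup.Normal.quotient_commutative_iff_commutator_le.mpr h2
    · have := congrArg (Subgroup.comap (QuotientGroup.mk' (Subgroup.center X))) h2
      rwa [Subgroup.comap_map_eq, QuotientGroup.ker_mk', Subgroup.comap_top] at this
  -- the commutator subgroup is perfect
  have hperf : ⁅commutator X, commutator X⁆ = commutator X :=
    le_antisymm (Subgroup.commutator_le_self _) (commutator_le_of_sup_center h1)
  refine ⟨h1, ?_⟩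
  have hnt : Nontrivial ↥(commutator X) := by
    rw [Subgroup.nontrivial_iff_ne_bot]
    intro hb
    rw [hb, bot_sup_eq] at h1
    have := hs.exists_pair_ne
    obtain ⟨x, y, hxy⟩ := this
    obtain ⟨a, rfl⟩ := QuotientGroup.mk_surjective x
    obtain ⟨b, rfl⟩ := QuotientGroup.mk_surjective y
    apply hxy
    rw [QuotientGroup.eq, h1]
    trivial
  refine H10.qs_of_normal ?_ ?_
  · rw [← Subgroup.map_subtype_inj, Subgroup.map_subtype_commutator, ← MonoidHom.range_eq_map,
      Subgroup.range_subtype]
    exact hperf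
  · intro N hN
    -- image of `N` in `X` is normal in `X`
    have hNn : (N.map (commutator X).subtype).Normal := by
      refine ⟨fun n hn g => ?_⟩
      obtain ⟨m, hm, rfl⟩ := hn
      have hg : g ∈ (commutator X ⊔ Subgroup.center X : Subgroup X) := by rw [h1]; trivial
      rw [Subgroup.mem_sup_of_normal_right] at hg
      obtain ⟨c, hc, z, hz, rfl⟩ := hg
      refine ⟨⟨c, hc⟩ * m * ⟨c, hc⟩⁻¹, hN.conj_mem m hm ⟨c, hc⟩, ?_⟩
      simp only [Subgroup.subtype_apply, Subgroup.coe_mul, Subgroup.coe_inv, mul_inv_rev]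
      have := (Subgroup.mem_center_iff.mp hz (m : X)).symm
      have e : c * z * (m : X) * (z⁻¹ * c⁻¹) = c * (z * (m : X)) * z⁻¹ * c⁻¹ := by group
      rw [e, this]
      group
    have hn : ((N.map (commutator X).subtype).map (QuotientGroup.mk' (Subgroup.center X))).Normal :=
      hNn.map _ (QuotientGroup.mk'_surjective _)
    rcases hn.eq_bot_or_eq_top with h2 | h2
    · right
      rw [Subgroup.map_eq_bot_iff, QuotientGroup.ker_mk'] at h2
      intro x hx
      rw [Subgroup.mem_center_iff]
      intro g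
      have := h2 (Subgroup.mem_map_of_mem _ hx)
      exact Subtype.ext (Subgroup.mem_center_iff.mp this g)
    · left
      have h3 := congrArg (Subgroup.comap (QuotientGroup.mk' (Subgroup.center X))) h2
      rw [Subgroup.comap_map_eq, QuotientGroup.ker_mk', Subgroup.comap_top] at h3
      have h4 : commutator X ≤ N.map (commutator X).subtype :=
        (commutator_le_of_sup_center h3).trans (Subgroup.commutator_le_self _)
      rw [← Subgroup.map_subtype_inj, ← MonoidHom.range_eq_map, Subgroup.range_subtype]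
      exact le_antisymm (Subgroup.map_subtype_le _) h4

end Cfsg.Agent.S1258
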