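import Cfsg.Statements.S1263
import Cfsg.Agent.H10.Comp2

set_option autoImplicit false
open Cfsg

namespace Cfsg.Agent.S1263

theorem key {G : Type*} [Group G] (Z : Subgroup G)
    (hZ : ∀ L : Subgroup G, Cfsg.IsComponent L →
      (Subgroup.center ↥L).map L.subtype ≤ Z) (S : Finset (Subgroup G))
    (hS : ∀ L ∈ S, Cfsg.IsComponent L) :
    ∀ x ∈ S.sup id, (∀ L ∈ S, ∀ y ∈ L, y * x = x * y) → x ∈ Z := by
  classical
  induction S using Finset.induction_on with
  | empty =>
    intro x hx _
    rw [Finset.sup_empty, Subgroup.mem_bot] at hx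
    rw [hx]; exact Z.one_mem
  | insert L S hLS ih =>
    intro x hx hc
    have hL := hS L (Finset.mem_insert_self _ _)
    have hcomm : ⁅L, S.sup id⁆ = ⊥ := by
      rw [Finset.sup_id_eq_sSup]
      apply H10.commutator_sSup_eq_bot
      intro K hK
      apply H10.comp_commutes hL (hS K (Finset.mem_insert_of_mem hK))
      rintro rfl
      exact hLS hK
    rw [Finset.sup_insert, id, H10.mem_sup_iff_of_commutes hcomm] at hx
    obtain ⟨l, hl, e, he, rfl⟩ := hx
    rw [Subgroup.commutator_comm, Subgroup.commutator_eq_bot_iff_le_centralizer] at hcomm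
    have hcom : ∀ y ∈ L, ∀ f ∈ S.sup id, y * f = f * y := fun y hy f hf =>
      Subgroup.mem_centralizer_iff.mp (hcomm hf) y hy
    have hlZ : l ∈ (Subgroup.center ↥L).map L.subtype := by
      rw [H10.mem_center_map_iff]
      refine ⟨hl, fun y hy => ?_⟩
      have h1 := hc L (Finset.mem_insert_self _ _) y hy
      have h2 : y * l * e = l * y * e := by
        rw [mul_assoc, h1, mul_assoc, ← hcom y hy e he, mul_assoc]
      exact mul_right_cancel h2
    refine Z.mul_mem (hZ L hL hlZ) (ih (fun K hK => hS K (Finset.mem_insert_of_mem hK)) e he ?_)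
    intro K hK y hy
    have h1 := hc K (Finset.mem_insert_of_mem hK) y hy
    have hyS : y ∈ S.sup id := (Finset.le_sup (f := id) hK : K ≤ S.sup id) hy
    have h3 := hcom l hl y hyS
    have h2 : l * (y * e) = l * (e * y) := by
      rw [← mul_assoc, h3, mul_assoc, h1, mul_assoc]
    exact mul_left_cancel h2

/-- For a finite group G, Z(E(G)) is the subgroup generated by the centres Z(L) of the components L of G (all viewed as subgroups of G). -/
theorem result {G : Type*} [Group G] [Finite G] : (Subgroup.center ↥(Cfsg.layer G)).map (Cfsg.layer G).subtype = ⨆ L : {K : Subgroup G // Cfsg.IsComponent K}, (Subgroup.center ↥(L : Subgroup G)).map (L : Subgroup G).subtype := by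
  apply le_antisymm
  · intro x hx
    rw [H10.mem_center_map_iff] at hx
    obtain ⟨hxE, hxc⟩ := hx
    have hfin : ({K : Subgroup G | Cfsg.IsComponent K} : Set (Subgroup G)).Finite :=
      Set.toFinite _
    apply key _ _ hfin.toFinset (fun L hL => by simpa using hL) x
    · rw [Finset.sup_id_eq_sSup]
      simpa [Cfsg.layer] using hxE
    · intro L hL y hy
      exact hxc y (H10.le_layer (by simpa using hL) hy)
    · intro L hL
      exact le_iSup (fun L : {K : Subgroup G // Cfsg.IsComponent K} =>
        (Subgroup.center ↥(L : Subgroup G)).map (L : Subgroup G).subtype) ⟨L, hL⟩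
  · apply iSup_le
    rintro ⟨L, hL⟩ x hx
    rw [H10.mem_center_map_iff] at hx ⊢
    refine ⟨H10.le_layer hL hx.1, fun y hy => ?_⟩
    have h0 : Cfsg.layer G ≤ Subgroup.centralizer ({x} : Set G) := by
      apply sSup_le
      intro K hK
      by_cases h : K = L
      · subst h
        intro z hz
        rw [Subgroup.mem_centralizer_iff]
        rintro _ rfl
        exact (hx.2 z hz).symm
      · have h2 := H10.comp_commutes hK hL h
        rw [Subgroup.commutator_eq_bot_iff_le_centralizer] at h2
        refine h2.trans (Subgroup.centralizer_le ?_)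
        rintro _ rfl
        exact hx.1
    exact (Subgroup.mem_centralizer_iff.mp (h0 hy) x rfl).symm

end Cfsg.Agent.S1263
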