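import Cfsg.Statements.S1273
import Cfsg.Agent.H10.PComp

set_option autoImplicit false
open Cfsg

namespace Cfsg.Agent.S1273

/-- Let K be a p-component of the finite group X and N a normal subgroup of K whose index in K is prime to p. Then N = K. -/
theorem result {X : Type*} [Group X] [Finite X] (p : ℕ) [Fact p.Prime] (K : Subgroup X) (hK : Cfsg.IsPComponent p K) (N : Subgroup ↥K) [N.Normal] (hidx : (N.index).Coprime p) : N = ⊤ := by
  have h1 : ¬ p ∣ (N.map K.subtype).relIndex K := by
    intro hd
    rw [Subgroup.relIndex, Subgroup.subgroupOf,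
      Subgroup.comap_map_eq_self_of_injective K.subtype_injective] at hd
    exact (Nat.Prime.coprime_iff_not_dvd Fact.out).mp hidx.symm hd
  have h2 := H10.opp_le_of_isSubnormal (H10.isSubnormal_map_of_normal hK.1 (K := N) inferInstance) h1
  rw [H10.opp_pComponent hK] at h2
  rw [← Subgroup.map_subtype_inj, ← MonoidHom.range_eq_map, Subgroup.range_subtype]
  exact le_antisymm (Subgroup.map_subtype_le _) h2

end Cfsg.Agent.S1273
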