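import Cfsg.Statements.S1276
import Cfsg.Agent.H10.PComp

set_option autoImplicit false
open Cfsg

namespace Cfsg.Agent.S1276

/-- Let K be a 2-component of the finite group X. Then K is quasisimple if and only if ⁅K, O(K)⁆ = 1. -/
theorem result {X : Type*} [Group X] [Finite X] (K : Subgroup X) (hK : Cfsg.IsPComponent 2 K) : Cfsg.IsQuasisimple ↥K ↔ ⁅K, ((Cfsg.oddCore ↥K).map K.subtype)⁆ = ⊥ := by
  have hq : Cfsg.IsQuasisimple (↥K ⧸ Cfsg.oddCore ↥K) :=
    H10.qs_of_mulEquiv (H10.quotientPPrimeCoreEquiv 2 hK.1).symm hK.2.1.2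
  have hbr : ⁅K, ((Cfsg.oddCore ↥K).map K.subtype)⁆ = ⊥ ↔
      Cfsg.oddCore ↥K ≤ Subgroup.center ↥K := by
    rw [Subgroup.commutator_comm, Subgroup.commutator_eq_bot_iff_le_centralizer,
      Subgroup.map_le_iff_le_comap]
    constructor
    · intro h x hx
      rw [Subgroup.mem_center_iff]
      intro g
      exact Subtype.ext (Subgroup.mem_centralizer_iff.mp (h hx) g g.2)
    · intro h x hx
      rw [Subgroup.mem_comap, Subgroup.mem_centralizer_iff]
      intro g hg
      exact congrArg Subtype.val (Subgroup.mem_center_iff.mp (h hx) ⟨g, hg⟩)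
  rw [hbr]
  constructor
  · intro h
    rcases H10.qs_normal_eq_top_or_le_center h (N := Cfsg.oddCore ↥K) inferInstance with h1 | h1
    · exfalso
      have := H10.qs_nontrivial hq
      rw [QuotientGroup.nontrivial_iff] at this
      exact this h1
    · exact h1
  · intro h
    have hperf : commutator K = ⊤ := by
      have := H10.pComponent_perfect hK
      exact (Subgroup.isPerfect_iff.mpr this).commutator_eq_top
    have hnt : Nontrivial K := by
      have := H10.qs_nontrivial hq
      exact (QuotientGroup.mk_surjective (s := Cfsg.oddCore ↥K)).nontrivial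
    apply H10.qs_of_normal hperf
    intro N hN
    have hNn : (N.map (QuotientGroup.mk' (Cfsg.oddCore ↥K))).Normal :=
      hN.map _ (QuotientGroup.mk'_surjective _)
    rcases H10.qs_normal_eq_top_or_le_center hq hNn with h1 | h1
    · left
      have h2 := congrArg (Subgroup.comap (QuotientGroup.mk' (Cfsg.oddCore ↥K))) h1
      rw [H10.comap_map_mk_eq, Subgroup.comap_top] at h2
      -- `K = N O`, with `O` central, so `K = K' ≤ N`
      have h3 : N ⊔ Subgroup.center K = ⊤ := by
        rw [eq_top_iff, ← h2]
        exact sup_le_sup_left h N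
      have h4 : commutator K ≤ N := by
        have hcc : IsMulCommutative (K ⧸ N) := by
          refine ⟨⟨fun a b => ?_⟩⟩
          obtain ⟨a, rfl⟩ := QuotientGroup.mk_surjective a
          obtain ⟨b, rfl⟩ := QuotientGroup.mk_surjective b
          have ha : a ∈ N ⊔ Subgroup.center K := by rw [h3]; trivial
          rw [Subgroup.mem_sup_of_normal_right] at ha
          obtain ⟨n, hn, z, hz, rfl⟩ := ha
          have e1 : ((n * z : K) : K ⧸ N) = (z : K ⧸ N) := by
            rw [QuotientGroup.mk_mul, (QuotientGroup.eq_one_iff n).mpr hn, one_mul]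
          rw [e1, ← QuotientGroup.mk_mul, ← QuotientGroup.mk_mul, Subgroup.mem_center_iff.mp hz b]
        exact Subgroup.Normal.quotient_commutative_iff_commutator_le.mp hcc
      rw [hperf] at h4
      exact top_le_iff.mp h4
    · right
      -- `[K, N] ≤ O ≤ Z(K)`, so `N ≤ Z(K)` by three subgroups
      have h5 : ⁅N, (⊤ : Subgroup K)⁆ ≤ Subgroup.center K := by
        refine le_trans ?_ h
        rw [Subgroup.commutator_le]
        intro a ha b _
        have h6 := h1 (Subgroup.mem_map_of_mem _ ha)
        rw [Subgroup.mem_center_iff] at h6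
        have h7 := h6 (QuotientGroup.mk' (Cfsg.oddCore ↥K) b)
        rw [← QuotientGroup.eq_one_iff, commutatorElement_def]
        simp only [QuotientGroup.mk'_apply] at h7
        rw [QuotientGroup.mk_mul, QuotientGroup.mk_mul, QuotientGroup.mk_mul,
          QuotientGroup.mk_inv, QuotientGroup.mk_inv, ← h7]
        group
      have h8 : ⁅N, (⊤ : Subgroup K)⁆ = ⊥ := by
        apply H10.commutator_eq_bot_of_perfect
        · exact hperf
        · exact Subgroup.commutator_top_right_eq_bot_iff_le_center.mpr h5
      exact Subgroup.commutator_top_right_eq_bot_iff_le_center.mp h8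

end Cfsg.Agent.S1276
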