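import Cfsg.Statements.S1277
import Cfsg.Agent.H10.PComp

set_option autoImplicit false
open Cfsg

namespace Cfsg.Agent.S1277

/-- For a finite group X with core O(X): the image of E(X) in X / O(X) is all of E(X / O(X)) if and only if every 2-component of X is a component, i.e. L_{2'}(X) ≤ E(X). -/
theorem result {X : Type*} [Group X] [Finite X] : (Cfsg.layer X).map (QuotientGroup.mk' (Cfsg.oddCore X)) = Cfsg.layer (X ⧸ Cfsg.oddCore X) ↔ Cfsg.pLayer 2 X ≤ Cfsg.layer X := by
  set q := QuotientGroup.mk' (Cfsg.oddCore X) with hq
  constructor
  · intro h
    apply sSup_le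
    intro K hK
    have hKb : K.map q ≤ Cfsg.layer (X ⧸ Cfsg.oddCore X) := H10.le_layer hK.2.1
    have hKeq := H10.eq_opp_of_isPComponent hK
    rw [hKeq]
    have h1 : (K.map q).comap q ≤ ((Cfsg.layer X).map q).comap q :=
      Subgroup.comap_mono (hKb.trans h.ge)
    exact (H10.opp_mono h1).trans (H10.opp_comap_map_le (H10.layer_normal X).isSubnormal)
  · intro h
    apply le_antisymm
    · rw [Subgroup.map_le_iff_le_comap]
      apply sSup_le
      intro K hK
      rw [← Subgroup.map_le_iff_le_comap]
      by_cases hKO : K ≤ Cfsg.oddCore X
      · have : K.map q = ⊥ := by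
          rw [Subgroup.map_eq_bot_iff, hq, QuotientGroup.ker_mk']; exact hKO
        rw [this]; exact bot_le
      · -- the image of `K` is a component
        apply H10.le_layer
        refine ⟨hK.1.map (QuotientGroup.mk'_surjective _), ?_⟩
        have hcen : (Cfsg.oddCore X).subgroupOf K ≤ Subgroup.center K := by
          rcases H10.qs_normal_eq_top_or_le_center hK.2
            (N := (Cfsg.oddCore X).subgroupOf K) inferInstance with h1 | h1
          · exact absurd (Subgroup.subgroupOf_eq_top.mp h1) hKO
          · exact h1
        have hp := hK.2.1
        have hnt : Nontrivial (K.map q) := by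
          rw [Subgroup.nontrivial_iff_ne_bot]
          intro hb
          rw [Subgroup.map_eq_bot_iff, hq, QuotientGroup.ker_mk'] at hb
          exact hKO hb
        have hsurj : Function.Surjective (q.subgroupMap K) := MonoidHom.subgroupMap_surjective _ _
        have hp2 : Group.IsPerfect (K.map q) := Group.IsPerfect.ofSurjective hsurj
        apply H10.qs_of_normal hp2.commutator_eq_top
        intro N hN
        have hN2 : (N.comap (q.subgroupMap K)).Normal := hN.comap _
        rcases H10.qs_normal_eq_top_or_le_center hK.2 hN2 with h1 | h1
        · left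
          have := congrArg (Subgroup.map (q.subgroupMap K)) h1
          rwa [Subgroup.map_comap_eq_self_of_surjective hsurj,
            Subgroup.map_top_of_surjective _ hsurj] at this
        · right
          intro y hy
          obtain ⟨x, rfl⟩ := hsurj y
          have hx : x ∈ Subgroup.center K := h1 hy
          rw [Subgroup.mem_center_iff]
          intro z
          obtain ⟨w, rfl⟩ := hsurj z
          rw [← map_mul, ← map_mul, Subgroup.mem_center_iff.mp hx w]
    · rw [← H10.pLayer_map]
      exact Subgroup.map_mono h

end Cfsg.Agent.S1277
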