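import Cfsg.Statements.S1278
import Cfsg.Agent.H10.PComp

set_option autoImplicit false
open Cfsg

namespace Cfsg.Agent.S1278

/-- Let K ≠ L be 2-components of the finite group X. Then ⁅K, L⁆ ≤ O(K) ⊓ O(L), and if K is quasisimple then ⁅K, L⁆ = 1. -/
theorem result {X : Type*} [Group X] [Finite X] (K L : Subgroup X) (hK : Cfsg.IsPComponent 2 K) (hL : Cfsg.IsPComponent 2 L) (hne : K ≠ L) : ⁅K, L⁆ ≤ ((Cfsg.oddCore ↥K).map K.subtype) ⊓ ((Cfsg.oddCore ↥L).map L.subtype) ∧ (Cfsg.IsQuasisimple ↥K → ⁅K, L⁆ = ⊥) := by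
  have hmap : ∀ K : Subgroup X, Cfsg.IsPComponent 2 K →
      (Cfsg.oddCore ↥K).map K.subtype = Cfsg.oddCore X ⊓ K := fun K hK =>
    H10.pPrimeCore_map_subtype 2 hK.1
  have hKb := hK.2.1
  have hLb := hL.2.1
  have hneb : K.map (QuotientGroup.mk' (Cfsg.pPrimeCore 2 X)) ≠
      L.map (QuotientGroup.mk' (Cfsg.pPrimeCore 2 X)) := fun h =>
    hne (H10.pComponent_eq_of_map_eq hK hL h)
  have h1 : ⁅K, L⁆ ≤ Cfsg.oddCore X := by
    have := H10.comp_commutes hKb hLb hneb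
    rw [← Subgroup.map_commutator, Subgroup.map_eq_bot_iff, QuotientGroup.ker_mk'] at this
    exact this
  have h2 : ⁅K, L⁆ ≤ K := Subgroup.le_normalizer_iff_commutator_le_left.mp
    ((H10.le_pLayer hL).trans (H10.pLayer_le_normalizer_pComponent hK))
  have h3 : ⁅K, L⁆ ≤ L := Subgroup.le_normalizer_iff_commutator_le_right.mp
    ((H10.le_pLayer hK).trans (H10.pLayer_le_normalizer_pComponent hL))
  refine ⟨?_, fun hqs => ?_⟩
  · rw [hmap K hK, hmap L hL]
    exact le_inf (le_inf h1 h2) (le_inf h1 h3)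
  · rcases H10.comp_le_or_commutes (K := K) ⟨hK.1, hqs⟩ hL.1 with h | h
    · exfalso
      exact hneb (H10.comp_eq_of_le hKb hLb (Subgroup.map_mono h))
    · rwa [Subgroup.commutator_comm]

end Cfsg.Agent.S1278
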