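import Cfsg.Statements.S1279
import Cfsg.Agent.H10.Sig4

set_option autoImplicit false
open Cfsg

namespace Cfsg.Agent.S1279

/-- Let A be a noncyclic elementary abelian p-subgroup of the finite group G such that C_G(a) is solvable for every non-identity a ∈ A. Then a ↦ O_{p'}(C_G(a)) is a solvable A-signalizer functor on G. -/
theorem result {G : Type*} [Group G] [Finite G] (p : ℕ) [Fact p.Prime] (A : Subgroup G) (hA : Cfsg.IsElementaryAbelian p A) (hA2 : p ^ 2 ≤ Nat.card ↥A) (hsolv : ∀ a ∈ A, a ≠ 1 → Group.IsSolvable ↥(Subgroup.centralizer ({a} : Set G))) : Cfsg.IsSolvableSignalizerFunctor p A (fun a => Cfsg.centralizerPPrimeCore p a) := by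
  have hpel : ∀ a ∈ A, H10.IsPElt p a := fun a ha => ⟨1, by rw [pow_one]; exact hA.2 a ha⟩
  have hcomm : ∀ a ∈ A, ∀ b ∈ A, b ∈ Subgroup.centralizer ({a} : Set G) := fun a ha b hb =>
    H10.mem_centralizer_singleton.mpr (H10.elab_comm hA ha hb)
  refine ⟨⟨?_, ?_, ?_, ?_⟩, ?_⟩
  · intro a ha ha1
    exact H10.cppc_le_centralizer p a
  · intro a ha ha1 h
    exact (Nat.Prime.coprime_iff_not_dvd Fact.out).mp (H10.cppc_coprime p a).symm h
  · intro a ha ha1 b hb x hx
    exact (Subgroup.mem_normalizer_iff.mp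
      (H10.centralizer_le_normalizer_cppc p a (hcomm a ha b hb)) x).mp hx
  · intro a ha ha1 b hb hb1
    exact H10.cppc_inf_le_of_solvable (hsolv b hb hb1) (hpel a ha) (hcomm b hb a ha)
  · intro a ha ha1
    have := hsolv a ha ha1
    exact H10.isSolvable_map_subtype inferInstance

end Cfsg.Agent.S1279
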