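import Cfsg.Statements.S1281
import Cfsg.Agent.H10.Sig3

set_option autoImplicit false
open Cfsg

namespace Cfsg.Agent.S1281

/-- Let θ be a solvable A-signalizer functor on the finite group G (A a noncyclic elementary abelian p-subgroup) and N a normal subgroup of order prime to p. Then for all non-identity a, b ∈ A, the image of θ a in G / N meets the centralizer of the image of b inside the image of θ b. -/
theorem result {G : Type*} [Group G] [Finite G] (p : ℕ) [Fact p.Prime] (A : Subgroup G) (hA : Cfsg.IsElementaryAbelian p A) (hA2 : p ^ 2 ≤ Nat.card ↥A) (θ : G → Subgroup G) (hθ : Cfsg.IsSolvableSignalizerFunctor p A θ) (N : Subgroup G) [N.Normal] (hN : ¬ p ∣ Nat.card ↥N) (a b : G) (ha : a ∈ A) (ha1 : a ≠ 1) (hb : b ∈ A) (hb1 : b ≠ 1) : (θ a).map (QuotientGroup.mk' N) ⊓ Subgroup.centralizer {QuotientGroup.mk' N b} ≤ (θ b).map (QuotientGroup.mk' N) := by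
  obtain ⟨⟨h1, h2, h3, h4⟩, h5⟩ := hθ
  rintro _ ⟨⟨x, hx, rfl⟩, hxb⟩
  have hxb' := H10.mem_centralizer_singleton.mp hxb
  have hbZ : Subgroup.zpowers b ≤ A := Subgroup.zpowers_le.mpr hb
  have hn : Subgroup.zpowers b ≤ Subgroup.normalizer ((N ⊓ θ a : Subgroup G) : Set G) := by
    intro c hc
    apply H10.mem_normalizer_of_conj_le
    intro y hy
    exact ⟨‹N.Normal›.conj_mem y hy.1 c, h3 a ha ha1 c (hbZ hc) y hy.2⟩
  have hcop : (Nat.card (Subgroup.zpowers b)).Coprime (Nat.card (N ⊓ θ a : Subgroup G)) :=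
    H10.card_coprime_of_not_dvd (H10.elab_isPGroup (H10.elab_mono hA hbZ))
      (fun h => hN (h.trans (Subgroup.card_dvd_of_le inf_le_left)))
  obtain ⟨n, hn', hxn⟩ := H23.exists_mem_coset_centralizer hn hcop
    (Or.inr (H10.isSolvable_of_le inf_le_right (h5 a ha ha1))) (g := x) (by
      rintro _ ⟨i, rfl⟩
      simp only
      constructor
      · refine (QuotientGroup.eq_one_iff _).mp ?_
        change QuotientGroup.mk' N _ = 1
        have h6 : Commute (QuotientGroup.mk' N b ^ i) (QuotientGroup.mk' N x) :=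
          Commute.zpow_left hxb' i
        rw [map_mul, map_mul, map_mul, map_inv, map_inv, map_zpow, mul_assoc _ _ (QuotientGroup.mk' N x),
          h6.eq, inv_mul_cancel_left, mul_inv_cancel]
      · have h7 : x⁻¹ * b ^ i * x * (b ^ i)⁻¹ = x⁻¹ * (b ^ i * x * (b ^ i)⁻¹) := by group
        rw [h7]
        exact (θ a).mul_mem ((θ a).inv_mem hx) (h3 a ha ha1 _ (A.zpow_mem hb i) x hx))
  refine ⟨x * n, h4 a ha ha1 b hb hb1 ⟨(θ a).mul_mem hx hn'.2, ?_⟩, ?_⟩
  · rw [← H10.centralizer_zpowers_eq]; exact hxn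
  · have h8 : QuotientGroup.mk' N n = 1 := (QuotientGroup.eq_one_iff n).mpr hn'.1
    rw [map_mul, h8, mul_one]

end Cfsg.Agent.S1281
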