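import Cfsg.Statements.S1282
import Cfsg.Agent.H10.Sig3

set_option autoImplicit false
open Cfsg

namespace Cfsg.Agent.S1282

/-- Let A be an elementary abelian p-subgroup of rank at least 3 of the finite group G, q ≠ p a prime, and Q₁, Q₂ q-subgroups normalized by A with D = Q₁ ∩ Q₂ different from both. Then there is a non-identity a ∈ A such that, for i = 1 and i = 2, N_{Q_i}(D) ∩ C_G(a) is not contained in D. -/
theorem result {G : Type*} [Group G] [Finite G] (p : ℕ) [Fact p.Prime] (A : Subgroup G) (hA : Cfsg.IsElementaryAbelian p A) (hA3 : p ^ 3 ≤ Nat.card ↥A) (q : ℕ) [Fact q.Prime] (hqp : q ≠ p) (Q₁ Q₂ : Subgroup G) (h₁ : IsPGroup q ↥Q₁) (h₂ : IsPGroup q ↥Q₂) (hA₁ : A ≤ Subgroup.normalizer (Q₁ : Set G)) (hA₂ : A ≤ Subgroup.normalizer (Q₂ : Set G)) (hD₁ : Q₁ ⊓ Q₂ ≠ Q₁) (hD₂ : Q₁ ⊓ Q₂ ≠ Q₂) : ∃ a ∈ A, a ≠ 1 ∧ ¬ (Subgroup.normalizer ((Q₁ ⊓ Q₂ : Subgroup G)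 : Set G) ⊓ Q₁ ⊓ Subgroup.centralizer {a} ≤ Q₁ ⊓ Q₂) ∧ ¬ (Subgroup.normalizer ((Q₁ ⊓ Q₂ : Subgroup G) : Set G) ⊓ Q₂ ⊓ Subgroup.centralizer {a} ≤ Q₁ ⊓ Q₂) := by
  have hAD : A ≤ Subgroup.normalizer ((Q₁ ⊓ Q₂ : Subgroup G) : Set G) := by
    intro a ha
    apply H10.mem_normalizer_of_conj_le
    intro x hx
    exact ⟨(Subgroup.mem_normalizer_iff.mp (hA₁ ha) x).mp hx.1,
      (Subgroup.mem_normalizer_iff.mp (hA₂ ha) x).mp hx.2⟩
  obtain ⟨D, hD, hDk, h1, h2⟩ := H10.exists_common_cent (k := 1) hqp hA hA3 h₁ h₂ hA₁ hA₂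
    (lt_of_le_of_ne inf_le_left hD₁) (lt_of_le_of_ne inf_le_right hD₂) hAD
  obtain ⟨d, hd, hd1⟩ := H10.exists_ne_one_of_card le_rfl hDk
  have h3 : Subgroup.centralizer (D : Set G) ≤ Subgroup.centralizer {d} :=
    Subgroup.centralizer_le (Set.singleton_subset_iff.mpr hd)
  exact ⟨d, hD hd, hd1, fun h => h1 ((inf_le_inf_left _ (Subgroup.centralizer_le
    (Set.singleton_subset_iff.mpr hd))).trans h), fun h => h2 ((inf_le_inf_left _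
      (Subgroup.centralizer_le (Set.singleton_subset_iff.mpr hd))).trans h)⟩

end Cfsg.Agent.S1282
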