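import Cfsg.Statements.S1284
import Cfsg.Agent.H10.Sig3

set_option autoImplicit false
open Cfsg

namespace Cfsg.Agent.S1284

/-- Let θ be a solvable A-signalizer functor on the finite group G, A elementary abelian of rank at least 3, q a prime dividing some |θ a|, and Q maximal among the q-subgroups in the family of θ. Then (a) for every member H of the family, some c in the intersection of the θ a (a ∈ A non-identity) makes c Q c⁻¹ ∩ H a Sylow q-subgroup of H; and (b) for every nontrivial subgroup B ≤ A, C_Q(B) is a Sylow q-subgroup of the intersection of the θ b over the non-identity b ∈ B. -/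
theorem result {G : Type*} [Group G] [Finite G] (p : ℕ) [Fact p.Prime] (A : Subgroup G) (hA : Cfsg.IsElementaryAbelian p A) (hA3 : p ^ 3 ≤ Nat.card ↥A) (θ : G → Subgroup G) (hθ : Cfsg.IsSolvableSignalizerFunctor p A θ) (q : ℕ) [Fact q.Prime] (hq : ∃ a ∈ A, a ≠ 1 ∧ q ∣ Nat.card ↥(θ a)) (Q : Subgroup G) (hQW : Q ∈ Cfsg.signalizerFamily p A θ) (hQq : IsPGroup q ↥Q) (hQmax : ∀ R ∈ Cfsg.signalizerFamily p A θ, IsPGroup q ↥R → Q ≤ R → R = Q) : (∀ H : Subgroup G, H ∈ Cfsg.signalizerFamily p A θ → ∃ c ∈ Cfsg.signalizerInf A θ, ∃ S : Sylow q ↥H, (S : Subgroup ↥H).map H.subtype = Q.map (MulAut.conj c).toMonoidHom ⊓ H) ∧ (∀ B : Subgroup G, B ≤ A → B ≠ ⊥ → ∃ S : Sylow q ↥(Cfsg.signalizerInf B θ), (S : Subgroup ↥(Cfsg.signalizerInf B θ)).map (Cfsg.signalizerInf B θ).subtype = Q ⊓ Subgroup.centralizer (B : Set G)) := by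
  have hK := H10.isKFun_of_sig hA hθ (k := 1) le_rfl
  have hm : H10.MaxQ q p 1 A (fun D => Cfsg.signalizerInf D θ) Q :=
    ⟨(H10.mem_family_iff hA hθ).mp hQW, hQq,
      fun R hR => hQmax R ((H10.mem_family_iff hA hθ).mpr hR)⟩
  constructor
  · intro H hH
    obtain ⟨c, hc, S, hS⟩ := H10.sig_sylow_a hA le_rfl hA3 hK hm ((H10.mem_family_iff hA hθ).mp hH)
    rw [H10.kInf_eq hA] at hc
    exact ⟨c, hc, S, hS⟩
  · intro B hB hB1
    obtain ⟨b, hb, hb1⟩ := (Subgroup.bot_or_exists_ne_one B).resolve_left hB1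
    refine H10.sig_sylow_b hA le_rfl hA3 hK hm (B := B) ?_ ?_ ?_ ?_
    · refine H10.fam_of_le (hK.mem_fam (Subgroup.zpowers_le.mpr (hB hb))
        (H10.card_zpowers_elab hA (hB hb) hb1)) ?_ ?_
      · intro x hx
        rw [H10.mem_signalizerInf] at hx ⊢
        intro a ha ha1
        exact hx a ((Subgroup.zpowers_le.mpr hb) ha) ha1
      · rw [← H10.mem_normalizer_of_forall]
        intro a ha u hu
        rw [H10.mem_signalizerInf] at hu ⊢
        intro c hc hc1
        exact hθ.1.2.2.1 c (hB hc) hc1 a ha u (hu c hc hc1)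
    · intro x hx
      rw [Subgroup.mem_centralizer_iff]
      intro d hd
      by_cases hd1 : d = 1
      · rw [hd1, one_mul, mul_one]
      · exact H10.mem_centralizer_singleton.mp (hθ.1.1 d (hB hd) hd1
          (H10.mem_signalizerInf.mp hx d hd hd1))
    · rw [H10.kInf_eq hA]
      intro x hx
      rw [H10.mem_signalizerInf] at hx ⊢
      intro a ha ha1
      exact hx a (hB ha) ha1
    · intro x hx
      rw [H10.mem_signalizerInf]
      intro a ha ha1
      exact hQW.2.2.2 a (hB ha) ha1 ⟨hx.1, H10.mem_centralizer_singleton.mpr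
        (Subgroup.mem_centralizer_iff.mp hx.2 a ha)⟩

end Cfsg.Agent.S1284
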