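import Cfsg.Statements.S1286
import Cfsg.Agent.H10.Sig4

set_option autoImplicit false
open Cfsg

namespace Cfsg.Agent.S1286

open Equiv in
/-- a subgroup from a finset -/
def mkS (S : Finset (Perm (Fin 5))) (h1 : 1 ∈ S) (hm : ∀ x ∈ S, ∀ y ∈ S, x * y ∈ S)
    (hi : ∀ x ∈ S, x⁻¹ ∈ S) : Subgroup (Perm (Fin 5)) where
  carrier := {x | x ∈ S}
  mul_mem' := fun {x y} hx hy => hm x hx y hy
  one_mem' := h1
  inv_mem' := fun {x} hx => hi x hx

open Equiv in
theorem card_mkS (S : Finset (Perm (Fin 5))) (h1 : 1 ∈ S) (hm : ∀ x ∈ S, ∀ y ∈ S, x * y ∈ S)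
    (hi : ∀ x ∈ S, x⁻¹ ∈ S) : Nat.card (mkS S h1 hm hi) = S.card := by
  have h2 : Nat.card (mkS S h1 hm hi) = Nat.card S := rfl
  rw [h2, Nat.card_eq_fintype_card, Fintype.card_coe]

def pa : Equiv.Perm (Fin 5) := Equiv.swap 0 1
def pb : Equiv.Perm (Fin 5) := Equiv.swap 2 3
def pu : Equiv.Perm (Fin 5) := Equiv.swap 2 3 * Equiv.swap 3 4
def pv : Equiv.Perm (Fin 5) := Equiv.swap 0 1 * Equiv.swap 1 4

def sA : Finset (Equiv.Perm (Fin 5)) := {1, pa, pb, pa * pb}
def sU : Finset (Equiv.Perm (Fin 5)) := {1, pu, pu * pu}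
def sV : Finset (Equiv.Perm (Fin 5)) := {1, pv, pv * pv}

def gA : Subgroup (Equiv.Perm (Fin 5)) := mkS sA (by decide +kernel) (by decide +kernel) (by decide +kernel)
def gU : Subgroup (Equiv.Perm (Fin 5)) := mkS sU (by decide +kernel) (by decide +kernel) (by decide +kernel)
def gV : Subgroup (Equiv.Perm (Fin 5)) := mkS sV (by decide +kernel) (by decide +kernel) (by decide +kernel)

def th (x : Equiv.Perm (Fin 5)) : Subgroup (Equiv.Perm (Fin 5)) :=
  if x = pa then gU else if x = pb then gV else ⊥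

def sth (x : Equiv.Perm (Fin 5)) : Finset (Equiv.Perm (Fin 5)) :=
  if x = pa then sU else if x = pb then sV else {1}

theorem mem_th (x y : Equiv.Perm (Fin 5)) : y ∈ th x ↔ y ∈ sth x := by
  unfold th sth
  split_ifs
  · rfl
  · rfl
  · simp

theorem mem_gA (y : Equiv.Perm (Fin 5)) : y ∈ gA ↔ y ∈ sA := Iff.rfl

theorem card_th (x : Equiv.Perm (Fin 5)) : Nat.card (th x) = (sth x).card := by
  unfold th sth
  split_ifs
  · exact card_mkS _ _ _ _
  · exact card_mkS _ _ _ _
  · rw [Subgroup.card_bot]; rfl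

/-- There exist a finite group X, an elementary abelian subgroup A of order 4 and a solvable A-signalizer functor θ on X for the prime 2 which is not complete. -/
theorem result : ∃ (X : Type) (_ : Group X) (_ : Finite X) (A : Subgroup X) (θ : X → Subgroup X), Cfsg.IsElementaryAbelian 2 A ∧ Nat.card ↥A = 4 ∧ Cfsg.IsSolvableSignalizerFunctor 2 A θ ∧ ¬ Cfsg.IsCompleteSignalizerFunctor 2 A θ := by
  refine ⟨Equiv.Perm (Fin 5), inferInstance, inferInstance, gA, th, ?_, ?_, ⟨⟨?_, ?_, ?_, ?_⟩, ?_⟩, ?_⟩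
  · apply H10.elab_of_comm
    · intro a ha b hb
      rw [mem_gA] at ha hb
      revert a b; decide +kernel
    · intro a ha
      rw [mem_gA] at ha
      revert a; decide +kernel
  · exact card_mkS _ _ _ _
  · intro a ha ha1 x hx
    rw [mem_gA] at ha
    rw [mem_th] at hx
    rw [H10.mem_centralizer_singleton]
    revert a x; decide +kernel
  · intro a ha ha1
    rw [mem_gA] at ha
    rw [card_th]
    revert a; decide +kernel
  · intro a ha ha1 b hb x hx
    rw [mem_gA] at ha hb
    rw [mem_th] at hx ⊢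
    revert a b x; decide +kernel
  · intro a ha ha1 b hb hb1 x hx
    rw [mem_gA] at ha hb
    have h1 : x ∈ sth a := (mem_th a x).mp hx.1
    have h2 := H10.mem_centralizer_singleton.mp hx.2
    clear hx
    rw [mem_th]
    revert a b x; decide +kernel
  · intro a ha ha1
    rw [mem_gA] at ha
    apply Group.isSolvable_of_comm
    intro x' y'
    apply Subtype.ext
    change (x' : Equiv.Perm (Fin 5)) * y' = y' * x'
    obtain ⟨x, hx⟩ := x'
    obtain ⟨y, hy⟩ := y'
    simp only
    rw [mem_th] at hx hy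
    revert a x y; decide +kernel
  · rintro ⟨-, X, hinv, hodd, hX⟩
    have hu : pu ∈ X := by
      have h1 := hX pa (by rw [mem_gA]; decide) (by decide)
      have h2 : pu ∈ th pa := by rw [mem_th]; decide
      rw [← h1] at h2
      exact h2.1
    have hv : pv ∈ X := by
      have h1 := hX pb (by rw [mem_gA]; decide) (by decide)
      have h2 : pv ∈ th pb := by rw [mem_th]; decide
      rw [← h1] at h2
      exact h2.1
    have hw : pu * pv * pu * pv⁻¹ ∈ X :=
      X.mul_mem (X.mul_mem (X.mul_mem hu hv) hu) (X.inv_mem hv)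
    have ho : orderOf (pu * pv * pu * pv⁻¹) = 2 := by
      apply orderOf_eq_prime
      · decide +kernel
      · decide +kernel
    apply hodd
    rw [← ho]
    exact Subgroup.orderOf_dvd_natCard X hw

end Cfsg.Agent.S1286
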