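import Cfsg.Statements.S1287
import Cfsg.Agent.H10.Factor

set_option autoImplicit false
open scoped Pointwise
open Cfsg

namespace Cfsg.Agent.S1287

/-- Let A be a noncyclic elementary abelian p-subgroup of a finite group H normalizing a subgroup K of order prime to p, and X, Y ≤ K subgroups normalized by A with C_K(a) = C_X(a) C_Y(a) (as sets) for every non-identity a ∈ A, where X is also normalized by C_K(A). Then K = XY as sets. -/
theorem result {H : Type*} [Group H] [Finite H] (p : ℕ) [Fact p.Prime] (A K X Y : Subgroup H) (hA : Cfsg.IsElementaryAbelian p A) (hA2 : p ^ 2 ≤ Nat.card ↥A) (hK : ¬ p ∣ Nat.card ↥K) (hAK : A ≤ Subgroup.normalizer (K : Set H)) (hX : X ≤ K) (hY : Y ≤ K) (hAX : A ≤ Subgroup.normalizer (X : Set H)) (hAY : A ≤ Subgroup.normalizer (Y : Set H)) (hCX : K ⊓ Subgroup.centralizer (A : Set H) ≤ Subgroup.normalizer (X : Set H)) (hfac : ∀ a ∈ A, a ≠ 1 → ((K ⊓ Subgroup.centralizer {a} : Subgroup H) : Set H) = ((X ⊓ Subgroup.centralizer {a}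 : Subgroup H) : Set H) * ((Y ⊓ Subgroup.centralizer {a} : Subgroup H) : Set H)) : (K : Set H) = (X : Set H) * (Y : Set H) := by
  have h1 : H10.Fac K X Y := by
    apply H10.fac_of_centralizers hA hA2 hK hAK hX hY hAX hAY hCX
    intro a ha ha1 g hg
    have h2 : g ∈ ((K ⊓ Subgroup.centralizer {a} : Subgroup H) : Set H) := hg
    rw [hfac a ha ha1] at h2
    obtain ⟨x, hx, y, hy, hxy⟩ := h2
    exact ⟨x, hx, y, hy, hxy.symm⟩
  apply Set.Subset.antisymm
  · intro g hg
    obtain ⟨x, hx, y, hy, rfl⟩ := h1 g hg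
    exact ⟨x, hx, y, hy, rfl⟩
  · rintro _ ⟨x, hx, y, hy, rfl⟩
    exact K.mul_mem (hX hx) (hY hy)

end Cfsg.Agent.S1287
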