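import Cfsg.Statements.S1289
import Cfsg.Agent.H10.PComp

set_option autoImplicit false
open Cfsg

namespace Cfsg.Agent.S1289

/-- A p-component K of the finite group X is subnormal, perfect, of order divisible by p, and minimal among the subnormal perfect subgroups of X of order divisible by p. -/
theorem result {X : Type*} [Group X] [Finite X] (p : ℕ) [Fact p.Prime] (K : Subgroup X) (hK : Cfsg.IsPComponent p K) : K.IsSubnormal ∧ ⁅K, K⁆ = K ∧ p ∣ Nat.card ↥K ∧ ∀ H : Subgroup X, H ≤ K → H.IsSubnormal → ⁅H, H⁆ = H → p ∣ Nat.card ↥H → H = K := by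
  refine ⟨hK.1, H10.pComponent_perfect hK, ?_, ?_⟩
  · have h1 := H10.prime_dvd_card_of_component (H10.pPrimeCore_quotient_eq_bot p) hK.2.1
    exact h1.trans (Subgroup.card_map_dvd _ _)
  · intro H hHK hH hperf hp
    have hHb : (H.map (QuotientGroup.mk' (Cfsg.pPrimeCore p X))).IsSubnormal :=
      hH.map (QuotientGroup.mk'_surjective _)
    set Kb := K.map (QuotientGroup.mk' (Cfsg.pPrimeCore p X)) with hKb
    set Hb := H.map (QuotientGroup.mk' (Cfsg.pPrimeCore p X)) with hHbdef
    have hle : Hb ≤ Kb := Subgroup.map_mono hHK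
    rcases H10.qs_subnormal_eq_top_or_le_center hK.2.1.2 (N := Hb.subgroupOf Kb)
      hHb.subgroupOf with h1 | h1
    · apply hK.2.2 H hH hHK
      exact le_antisymm hle (Subgroup.subgroupOf_eq_top.mp h1)
    · exfalso
      have hperfb : ⁅Hb, Hb⁆ = Hb := by rw [hHbdef, ← Subgroup.map_commutator, hperf]
      have hcomm : ⁅Hb, Hb⁆ = ⊥ := by
        rw [Subgroup.commutator_eq_bot_iff_le_centralizer]
        intro x hx
        rw [Subgroup.mem_centralizer_iff]
        intro y hy
        have := h1 (show (⟨x, hle hx⟩ : Kb) ∈ Hb.subgroupOf Kb from hx)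
        exact congrArg Subtype.val (Subgroup.mem_center_iff.mp this ⟨y, hle hy⟩)
      rw [hperfb, hHbdef, Subgroup.map_eq_bot_iff, QuotientGroup.ker_mk'] at hcomm
      have h2 := Subgroup.card_dvd_of_le hcomm
      have h3 := H10.pPrimeCore_coprime p X
      exact (Nat.Prime.coprime_iff_not_dvd Fact.out).mp h3.symm (hp.trans h2)

end Cfsg.Agent.S1289
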