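import Cfsg.Statements.S1299
import Cfsg.Agent.H10.Sig5

set_option autoImplicit false
open Cfsg

namespace Cfsg.Agent.S1299

open Cfsg in
theorem delta_le {G : Type*} [Group G] {p k : ℕ} [Fact p.Prime] (hk : 1 ≤ k) {D : Subgroup G}
    (hD : Nat.card D = p ^ k) : ∃ d ∈ D, d ≠ 1 ∧ signalizerDelta p D ≤ centralizerPPrimeCore p d := by
  obtain ⟨d, hd, hd1⟩ := H10.exists_ne_one_of_card hk hD
  exact ⟨d, hd, hd1, fun x hx => H10.mem_signalizerDelta.mp hx d hd hd1⟩

/-- Let G be finite and k-balanced for the prime p (k ≥ 1), A an elementary abelian p-subgroup of order at least p^(k+2) such that O_{p'}(C_G(a)) is solvable for every non-identity a ∈ A. For a ∈ A put θ a = the subgroup generated by the Δ_G(D) ∩ C_G(a) over the subgroups D ≤ A of order p^k. Then θ is an A-signalizer functor. -/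
theorem result {G : Type*} [Group G] [Finite G] (p k : ℕ) [Fact p.Prime] (hk : 1 ≤ k) (hbal : Cfsg.IsKBalanced p k G) (A : Subgroup G) (hA : Cfsg.IsElementaryAbelian p A) (hAk : p ^ (k + 2) ≤ Nat.card ↥A) (hsolv : ∀ a ∈ A, a ≠ 1 → Group.IsSolvable ↥(Cfsg.centralizerPPrimeCore p a)) : Cfsg.IsSignalizerFunctor p A (fun a => ⨆ D : {D : Subgroup G // D ≤ A ∧ Nat.card ↥D = p ^ k}, Cfsg.signalizerDelta p (D : Subgroup G) ⊓ Subgroup.centralizer {a}) := by
  have hpp : p.Prime := Fact.out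
  have hord : ∀ a ∈ A, a ≠ 1 → orderOf a = p := fun a ha ha1 => orderOf_eq_prime (hA.2 a ha) ha1
  have hAC : ∀ a ∈ A, A ≤ Subgroup.centralizer ({a} : Set G) := fun a ha b hb =>
    H10.mem_centralizer_singleton.mpr (H10.elab_comm hA ha hb)
  have hle : ∀ a ∈ A, a ≠ 1 → ∀ D ≤ A, Nat.card D = p ^ k →
      Cfsg.signalizerDelta p D ⊓ Subgroup.centralizer {a} ≤ Cfsg.centralizerPPrimeCore p a :=
    fun a ha ha1 D hD hDk => hbal D (H10.elab_mono hA hD) hDk a (hord a ha ha1)
      (fun d hd => H10.elab_comm hA (hD hd) ha)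
  have hinvD : ∀ D ≤ A, A ≤ Subgroup.normalizer ((Cfsg.signalizerDelta p D : Subgroup G) : Set G) := by
    intro D hD b hb
    apply H10.mem_normalizer_of_conj_le
    intro x hx
    rw [H10.mem_signalizerDelta] at hx ⊢
    intro d hd hd1
    exact (Subgroup.mem_normalizer_iff.mp
      (H10.centralizer_le_normalizer_cppc p d (hAC d (hD hd) hb)) x).mp (hx d hd hd1)
  have hinvC : ∀ a ∈ A, A ≤ Subgroup.normalizer ((Subgroup.centralizer ({a} : Set G) : Subgroup G) : Set G) :=
    fun a ha => (hAC a ha).trans Subgroup.le_normalizer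
  have hinvI : ∀ a ∈ A, ∀ D ≤ A, A ≤ Subgroup.normalizer
      ((Cfsg.signalizerDelta p D ⊓ Subgroup.centralizer {a} : Subgroup G) : Set G) := by
    intro a ha D hD b hb
    apply H10.mem_normalizer_of_conj_le
    intro x hx
    exact ⟨(Subgroup.mem_normalizer_iff.mp (hinvD D hD hb) x).mp hx.1,
      (Subgroup.mem_normalizer_iff.mp (hinvC a ha hb) x).mp hx.2⟩
  have hK : ∀ a ∈ A, a ≠ 1 → H10.IsKFun p k A
      (fun D => Cfsg.signalizerDelta p D ⊓ Subgroup.centralizer {a}) := by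
    intro a ha ha1
    refine ⟨?_, ?_, ?_, ?_, ?_⟩
    · intro D hD hDk x hx
      rw [Subgroup.mem_centralizer_iff]
      intro d hd
      by_cases hd1 : d = 1
      · rw [hd1, one_mul, mul_one]
      · exact H10.mem_centralizer_singleton.mp (H10.cppc_le_centralizer p d
          (H10.mem_signalizerDelta.mp hx.1 d hd hd1))
    · intro D hD hDk h
      have h1 := h.trans (Subgroup.card_dvd_of_le (hle a ha ha1 D hD hDk))
      exact (Nat.Prime.coprime_iff_not_dvd hpp).mp (H10.cppc_coprime p a).symm h1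
    · intro D hD hDk
      exact hinvI a ha D hD
    · intro D hD hDk D' hD' hDk' x hx
      refine ⟨?_, hx.1.2⟩
      change x ∈ Cfsg.signalizerDelta p D'
      rw [H10.mem_signalizerDelta]
      intro d hd hd1
      exact hle d (hD' hd) hd1 D hD hDk ⟨hx.1.1, H10.mem_centralizer_singleton.mpr
        (Subgroup.mem_centralizer_iff.mp hx.2 d hd)⟩
    · intro D hD hDk
      exact H10.isSolvable_of_le (hle a ha ha1 D hD hDk) (hsolv a ha ha1)
  have hθle : ∀ a ∈ A, a ≠ 1 → (⨆ D : {D : Subgroup G // D ≤ A ∧ Nat.card ↥D = p ^ k},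
      Cfsg.signalizerDelta p (D : Subgroup G) ⊓ Subgroup.centralizer {a}) ≤
        Cfsg.centralizerPPrimeCore p a := fun a ha ha1 =>
    iSup_le fun D => hle a ha ha1 D D.2.1 D.2.2
  have hθp : ∀ a ∈ A, a ≠ 1 → ¬ p ∣ Nat.card ↥(⨆ D : {D : Subgroup G // D ≤ A ∧ Nat.card ↥D = p ^ k},
      Cfsg.signalizerDelta p (D : Subgroup G) ⊓ Subgroup.centralizer {a}) := by
    intro a ha ha1 h
    have h1 := h.trans (Subgroup.card_dvd_of_le (hθle a ha ha1))
    exact (Nat.Prime.coprime_iff_not_dvd hpp).mp (H10.cppc_coprime p a).symm h1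
  have hθA : ∀ a ∈ A, a ≠ 1 → A ≤ Subgroup.normalizer
      ((⨆ D : {D : Subgroup G // D ≤ A ∧ Nat.card ↥D = p ^ k},
        Cfsg.signalizerDelta p (D : Subgroup G) ⊓ Subgroup.centralizer {a} : Subgroup G) : Set G) := by
    intro a ha ha1 b hb
    rw [H10.mem_normalizer_iff_map, Subgroup.map_iSup]
    congr 1
    ext1 D
    exact H10.mem_normalizer_iff_map.mp (hinvI a ha D D.2.1 hb)
  refine ⟨?_, hθp, ?_, ?_⟩
  · intro a ha ha1
    exact (hθle a ha ha1).trans (H10.cppc_le_centralizer p a)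
  · intro a ha ha1
    exact H10.mem_normalizer_of_forall.mpr (hθA a ha ha1)
  · intro a ha ha1 b hb hb1
    have hcl := H10.sig_closure hk hA hAk (hK a ha ha1) (hθp a ha ha1)
      (H10.isSolvable_of_le (hθle a ha ha1) (hsolv a ha ha1))
      (fun D hD hDk => le_iSup_of_le ⟨D, hD, hDk⟩ le_rfl)
      (fun L hL => iSup_le fun D => hL D D.2.1 D.2.2)
    refine H10.le_of_cent_le (k := k) hA ((Nat.pow_le_pow_right hpp.pos (by omega)).trans hAk)
      (fun h => hθp a ha ha1 (h.trans (Subgroup.card_dvd_of_le inf_le_left))) ?_ ?_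
    · intro c hc
      apply H10.mem_normalizer_of_conj_le
      intro x hx
      exact ⟨(Subgroup.mem_normalizer_iff.mp (hθA a ha ha1 hc) x).mp hx.1,
        (Subgroup.mem_normalizer_iff.mp (hinvC b hb hc) x).mp hx.2⟩
    · intro D hD hDk x hx
      have h1 := hcl D hD hDk ⟨hx.1.1, hx.2⟩
      exact (le_iSup_of_le (f := fun D : {D : Subgroup G // D ≤ A ∧ Nat.card ↥D = p ^ k} =>
        Cfsg.signalizerDelta p (D : Subgroup G) ⊓ Subgroup.centralizer {b}) ⟨D, hD, hDk⟩ le_rfl)
        ⟨h1.1, hx.1.2⟩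

end Cfsg.Agent.S1299
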