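import Cfsg.Statements.S1300

set_option autoImplicit false
open Cfsg

namespace Cfsg.Agent.S1300

theorem le_cent {G : Type*} [Group G] (p : ℕ) (x : G) :
    Cfsg.centralizerPPrimeCore p x ≤ Subgroup.centralizer {x} := by
  rw [Cfsg.centralizerPPrimeCore]
  exact Subgroup.map_subtype_le _

/-- For a finite group G, balance in the sense of commuting involutions is the same as 1-balance for the prime 2. -/
theorem result {G : Type*} [Group G] [Finite G] : Cfsg.IsBalanced G ↔ Cfsg.IsKBalanced 2 1 G := by
  constructor
  · intro h A hA hcard b hb hcomm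
    rw [pow_one] at hcard
    have hne : A ≠ ⊥ := by
      rintro rfl
      rw [Subgroup.card_bot] at hcard
      omega
    obtain ⟨a, haA, ha1⟩ := (Subgroup.ne_bot_iff_exists_ne_one).mp hne |>.imp (fun a ha => ha) |>.elim
      (fun a ha => (⟨(a : G), a.2, fun h => ha (Subtype.ext h)⟩ : ∃ a : G, a ∈ A ∧ a ≠ 1))
    have ha2 : orderOf a = 2 := by
      apply orderOf_eq_prime _ ha1
      exact hA.2 a haA
    have h1 : Cfsg.signalizerDelta 2 A ≤ Cfsg.centralizerPPrimeCore 2 a :=
      iInf_le (fun a : {a : G // a ∈ A ∧ a ≠ 1} => Cfsg.centralizerPPrimeCore 2 (a : G))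
        ⟨a, haA, ha1⟩
    refine (inf_le_inf_right _ h1).trans ?_
    rw [h a b ha2 hb (hcomm a haA)]
    exact inf_le_left
  · intro h
    have key : ∀ x y : G, orderOf x = 2 → orderOf y = 2 → x * y = y * x →
        Cfsg.centralizerPPrimeCore 2 x ⊓ Subgroup.centralizer {y} ≤
          Cfsg.centralizerPPrimeCore 2 y ⊓ Subgroup.centralizer {x} := by
      intro x y hx hy hxy
      refine le_inf ?_ (inf_le_left.trans (le_cent 2 x))
      have hmem : ∀ a ∈ Subgroup.zpowers x, a = 1 ∨ a = x := by
        intro a ha
        obtain ⟨n, rfl⟩ := ha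
        rcases Int.emod_two_eq_zero_or_one n with hn | hn
        · left
          have : x ^ (n % 2) = x ^ n := by
            have := zpow_mod_orderOf x n
            rwa [hx] at this
          change x ^ n = 1
          rw [← this, hn, zpow_zero]
        · right
          have : x ^ (n % 2) = x ^ n := by
            have := zpow_mod_orderOf x n
            rwa [hx] at this
          change x ^ n = x
          rw [← this, hn, zpow_one]
      have hx2 : x ^ 2 = 1 := by rw [← hx]; exact pow_orderOf_eq_one x
      have h1 := h (Subgroup.zpowers x) ⟨inferInstance, ?_⟩ ?_ y hy ?_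
      · refine le_trans (inf_le_inf_right _ ?_) h1
        apply le_iInf
        rintro ⟨a, haA, ha1⟩
        rcases hmem a haA with h2 | h2
        · exact absurd h2 ha1
        · simp only [h2]; exact le_rfl
      · intro a ha
        rcases hmem a ha with h2 | h2
        · rw [h2, one_pow]
        · rw [h2]; exact hx2
      · rw [Nat.card_zpowers, hx, pow_one]
      · intro a ha
        rcases hmem a ha with h2 | h2
        · rw [h2, one_mul, mul_one]
        · rw [h2]; exact hxy
    intro x y hx hy hxy
    exact le_antisymm (key x y hx hy hxy) (key y x hy hx hxy.symm)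

end Cfsg.Agent.S1300
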