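import Cfsg.Statements.S1303
import Cfsg.Agent.H10.Sig4
import Cfsg.Agent.H3.BurnsidePQ

set_option autoImplicit false
open Cfsg

namespace Cfsg.Agent.S1303

abbrev SL23 := Matrix.SpecialLinearGroup (Fin 2) (ZMod 3)

set_option maxRecDepth 100000 in
theorem card_sl23 : Nat.card SL23 = 24 := by
  rw [Nat.card_eq_fintype_card]; decide +kernel

set_option maxRecDepth 100000 in
theorem cube_sl23 : ∀ x : SL23, x ≠ 1 → x ^ 3 = 1 → ∃ g : SL23, (x * (g * x * g⁻¹)) ^ 3 ≠ 1 := by
  decide +kernel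

set_option maxRecDepth 100000 in
theorem sq_sl23 : ∀ t : SL23, t ^ 2 = 1 → ∀ g, g * t = t * g := by decide +kernel

/-- The group X = SL(2, 3): it is 2-constrained, O_{2'}(X) = 1, its centre A = Z(X) contains every involution of X = C_X(A), and X has a subgroup of order 3 (normalized by A) not contained in O_{2'}(X). -/
theorem result : Cfsg.IsPConstrained 2 (Matrix.SpecialLinearGroup (Fin 2) (ZMod 3)) ∧ Cfsg.pPrimeCore 2 (Matrix.SpecialLinearGroup (Fin 2) (ZMod 3)) = ⊥ ∧ (∀ t : Matrix.SpecialLinearGroup (Fin 2) (ZMod 3), orderOf t = 2 → t ∈ Subgroup.center (Matrix.SpecialLinearGroup (Fin 2) (ZMod 3))) ∧ ∃ Q : Subgroup (Matrix.SpecialLinearGroup (Fin 2) (ZMod 3)), Nat.card ↥Q = 3 ∧ ¬ (Q ≤ Cfsg.pPrimeCore 2 (Matrix.SpecialLinearGroup (Fin 2) (ZMod 3))) := by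
  have h24 := card_sl23
  have hO : Cfsg.pPrimeCore 2 SL23 = ⊥ := by
    rw [eq_bot_iff]
    intro x hx
    have hn := Cfsg.Agent.H10.pPrimeCore_coprime 2 SL23
    have hcube : ∀ y ∈ Cfsg.pPrimeCore 2 SL23, y ^ 3 = 1 := by
      intro y hy
      have h1 : orderOf y ∣ Nat.card (Cfsg.pPrimeCore 2 SL23) := Subgroup.orderOf_dvd_natCard _ hy
      have h2 : (orderOf y).Coprime 2 := Nat.Coprime.coprime_dvd_left h1 hn
      have h3 : orderOf y ∣ 24 := by rw [← h24]; exact orderOf_dvd_natCard y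
      have h4 : orderOf y ∣ 3 := by
        have h5 : (24 : ℕ) = 2 ^ 3 * 3 := by norm_num
        rw [h5] at h3
        exact Nat.Coprime.dvd_of_dvd_mul_left (Nat.Coprime.pow_right 3 h2) h3
      exact orderOf_dvd_iff_pow_eq_one.mp h4
    rw [Subgroup.mem_bot]
    by_contra hx1
    obtain ⟨g, hg⟩ := cube_sl23 x hx1 (hcube x hx)
    have hnn := Cfsg.pPrimeCore_normal 2 SL23
    exact hg (hcube _ (Subgroup.mul_mem _ hx (hnn.conj_mem x hx g)))
  have hsolv : Group.IsSolvable SL23 := by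
    refine H3.burnside_paqb 2 3 Nat.prime_two Nat.prime_three 24 SL23 h24 ?_
    intro r hr hrd
    rw [h24, show (24 : ℕ) = 2 ^ 3 * 3 by norm_num, Nat.Prime.dvd_mul hr] at hrd
    rcases hrd with h | h
    · left; exact (Nat.prime_dvd_prime_iff_eq hr Nat.prime_two).mp (hr.dvd_of_dvd_pow h)
    · right; exact (Nat.prime_dvd_prime_iff_eq hr Nat.prime_three).mp h
  refine ⟨?_, hO, ?_, ?_⟩
  · rw [H10.isPConstrained_iff_pLayer, H10.pLayer_eq_bot_iff]
    apply H10.layer_eq_bot_of_isSolvable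
    exact Group.isSolvable_of_surjective (QuotientGroup.mk'_surjective _)
  · intro t ht
    rw [Subgroup.mem_center_iff]
    exact sq_sl23 t (orderOf_dvd_iff_pow_eq_one.mp ht.dvd)
  · obtain ⟨x, hx⟩ := exists_prime_orderOf_dvd_card' (G := SL23) 3 (by rw [h24]; norm_num)
    refine ⟨Subgroup.zpowers x, by rw [Nat.card_zpowers, hx], ?_⟩
    rw [hO]
    intro h
    have : x = 1 := h (Subgroup.mem_zpowers x)
    rw [this, orderOf_one] at hx
    omega

end Cfsg.Agent.S1303
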