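import Cfsg.Statements.S1304
import Cfsg.Agent.H10.Comp

set_option autoImplicit false
open Cfsg

namespace Cfsg.Agent.S1304

/-- Let X be a perfect group and α an automorphism of X with α(x) x⁻¹ central for every x. Then α is the identity. -/
theorem result {X : Type*} [Group X] (hperf : commutator X = ⊤) (α : X ≃* X) (h : ∀ x : X, α x * x⁻¹ ∈ Subgroup.center X) : ∀ x : X, α x = x := by
  -- `c x = α x * x⁻¹` is a homomorphism to the centre
  let c : X →* Subgroup.center X :=
    { toFun := fun x => ⟨α x * x⁻¹, h x⟩
      map_one' := by simp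
      map_mul' := fun x y => by
        apply Subtype.ext
        have hy := Subgroup.mem_center_iff.mp (h y) x⁻¹
        simp only [map_mul, mul_inv_rev, Subgroup.coe_mul]
        calc α x * α y * (y⁻¹ * x⁻¹) = α x * ((α y * y⁻¹) * x⁻¹) := by group
          _ = α x * (x⁻¹ * (α y * y⁻¹)) := by rw [hy]
          _ = α x * x⁻¹ * (α y * y⁻¹) := by group }
  have hker : commutator X ≤ c.ker := by
    rw [commutator_def, Subgroup.commutator_le]
    intro a _ b _
    rw [MonoidHom.mem_ker]
    have : ∀ u v : Subgroup.center X, u * v = v * u := fun u v =>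
      Subtype.ext ((Subgroup.mem_center_iff.mp v.2 u))
    rw [commutatorElement_def]
    simp only [map_mul, map_inv]
    rw [this (c a) (c b)]
    group
  intro x
  have hx : x ∈ c.ker := hker (by rw [hperf]; trivial)
  have h2 := congrArg Subtype.val (MonoidHom.mem_ker.mp hx)
  have h3 : α x * x⁻¹ = 1 := h2
  exact mul_inv_eq_one.mp h3

end Cfsg.Agent.S1304
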