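import Cfsg.Statements.S1306
import Cfsg.Agent.H10.CompConj

set_option autoImplicit false
open Cfsg

namespace Cfsg.Agent.S1306

/-- Let G be finite, x an involution and L ≤ C_G(x) a component of C_G(x). Suppose L is a component of C_G(y) for every involution y ∈ C_G(L), and ⁅L, g L g⁻¹⁆ ≠ 1 whenever g L g⁻¹ ≠ L. Then L is a standard subgroup of G. -/
theorem result {G : Type*} [Group G] [Finite G] (x : G) (hx : orderOf x = 2) (L : Subgroup G) (hLx : L ≤ Subgroup.centralizer ({x} : Set G)) (hL : Cfsg.IsComponent (L.subgroupOf (Subgroup.centralizer ({x} : Set G)))) (hne : ∀ y : G, orderOf y = 2 → y ∈ Subgroup.centralizer (L : Set G) → L ≤ Subgroup.centralizer ({y} : Set G) ∧ Cfsg.IsComponent (L.subgroupOf (Subgroup.centralizer ({y} : Set G)))) (hnc : ∀ g : G, L.map (MulAut.conj g).toMonoidHom ≠ L → ⁅L, L.map (MulAut.conj g).toMonoidHom⁆ ≠ ⊥) : Cfsg.IsStandardSubgroup L := by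
  open Cfsg.Agent.H10 in
  have key : ∀ g y : G, orderOf y = 2 → y ∈ Subgroup.centralizer (L : Set G) →
      y ∈ Subgroup.centralizer ((L.map (MulAut.conj g).toMonoidHom : Subgroup G) : Set G) →
      L.map (MulAut.conj g).toMonoidHom = L := by
    intro g y hy h1 h2
    rcases conj_eq_or_commutes hne hy h1 h2 with h | h
    · exact h
    · by_contra hcon
      exact hnc g hcon h
  have hxC : x ∈ Subgroup.centralizer (L : Set G) := by
    rw [Subgroup.mem_centralizer_iff]
    intro l hl
    exact (mem_centralizer_singleton.mp (hLx hl)).symm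
  have heven : Even (Nat.card ↥(Subgroup.centralizer (L : Set G))) := by
    rw [even_iff_two_dvd, ← hx]
    exact Subgroup.orderOf_dvd_natCard _ hxC
  refine ⟨IsCompOf.quasisimple ⟨hLx, hL⟩, ⟨heven, ?_⟩, hnc, ?_⟩
  · intro g hg
    by_contra hodd
    rw [Nat.not_odd_iff_even, even_iff_two_dvd] at hodd
    obtain ⟨y, hy⟩ := exists_prime_orderOf_dvd_card' 2 hodd
    have hy1 : orderOf (y : G) = 2 := by rw [orderOf_submonoid, hy]
    have h2 : (y : G) ∈ Subgroup.centralizer
        ((L.map (MulAut.conj g).toMonoidHom : Subgroup G) : Set G) := by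
      rw [← map_conj_centralizer]; exact y.2.2
    have h3 := key g y hy1 y.2.1 h2
    apply hg
    rw [← map_conj_eq_iff_mem_normalizer, map_conj_centralizer, h3]
  · apply le_antisymm
    · exact normalizer_le_normalizer_centralizer L
    · intro g hg
      rw [← map_conj_eq_iff_mem_normalizer]
      refine key g x hx hxC ?_
      rw [← map_conj_centralizer, map_conj_eq_iff_mem_normalizer.mpr hg]
      exact hxC

end Cfsg.Agent.S1306
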