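import Cfsg.Statements.S1314
import Cfsg.Agent.H10.Comp2

set_option autoImplicit false
open Cfsg

open scoped commutatorElement

namespace Cfsg.Agent.S1314

/-- Let x be an involution of a group G and L a perfect subgroup with ⁅L, x L x⁻¹⁆ = 1. Then l ↦ l (x l x⁻¹) is a group homomorphism π from L to G whose kernel is central in L and whose image lies in C_G(x); and the commutator subgroup of C_{L ⊔ xLx⁻¹}(x) equals the image of π. -/
theorem result {G : Type*} [Group G] [Finite G] (x : G) (hx : orderOf x = 2) (L : Subgroup G) (hperf : ⁅L, L⁆ = L) (hcomm : ⁅L, L.map (MulAut.conj x).toMonoidHom⁆ = ⊥) : ∃ π : ↥L →* G, (∀ l : ↥L, π l = (l : G) * (x * (l : G) * x⁻¹)) ∧ π.ker ≤ Subgroup.center ↥L ∧ π.range ≤ Subgroup.centralizer ({x} : Set G) ∧ ⁅(L ⊔ L.map (MulAut.conj x).toMonoidHom) ⊓ Subgroup.centralizer ({x} : Set G), (L ⊔ L.map (MulAut.conj x).toMonoidHom) ⊓ Subgroup.centralizer ({x} : Set G)⁆ = π.range := by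
  set Lx := L.map (MulAut.conj x).toMonoidHom with hLx
  have hx2 : x * x = 1 := by
    have := pow_orderOf_eq_one x
    rwa [hx, pow_two] at this
  have hxinv : x⁻¹ = x := inv_eq_of_mul_eq_one_left hx2
  have hmemLx : ∀ l ∈ L, x * l * x⁻¹ ∈ Lx := fun l hl => ⟨l, hl, rfl⟩
  have hcom : ∀ a ∈ L, ∀ b ∈ Lx, a * b = b * a := by
    intro a ha b hb
    rw [Subgroup.commutator_eq_bot_iff_le_centralizer] at hcomm
    exact (Subgroup.mem_centralizer_iff.mp (hcomm ha) b hb).symm
  let π : ↥L →* G :=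
    { toFun := fun l => (l : G) * (x * (l : G) * x⁻¹)
      map_one' := by simp
      map_mul' := fun l m => by
        have h1 := hcom m m.2 _ (hmemLx l l.2)
        simp only [Subgroup.coe_mul]
        calc (l : G) * m * (x * (l * m) * x⁻¹)
            = l * (m * (x * l * x⁻¹)) * (x * m * x⁻¹) := by group
          _ = l * ((x * l * x⁻¹) * m) * (x * m * x⁻¹) := by rw [h1]
          _ = l * (x * l * x⁻¹) * (m * (x * m * x⁻¹)) := by group }
  have hπ : ∀ l : ↥L, π l = (l : G) * (x * (l : G) * x⁻¹) := fun l => rfl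
  have hcx : ∀ l : G, x * (x * l * x⁻¹) * x⁻¹ = l := by
    intro l
    rw [hxinv]
    calc x * (x * l * x) * x = (x * x) * l * (x * x) := by group
      _ = l := by rw [hx2, one_mul, mul_one]
  have hrange : π.range ≤ Subgroup.centralizer ({x} : Set G) := by
    rintro _ ⟨l, rfl⟩
    rw [Subgroup.mem_centralizer_iff]
    intro y hy
    rw [Set.mem_singleton_iff.mp hy, hπ]
    have h1 := hcom l l.2 _ (hmemLx l l.2)
    calc x * ((l : G) * (x * l * x⁻¹)) = (x * l * x⁻¹) * (x * (x * l * x⁻¹) * x⁻¹) * x := by group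
      _ = (x * l * x⁻¹) * l * x := by rw [hcx]
      _ = (l : G) * (x * l * x⁻¹) * x := by rw [h1]
  refine ⟨π, hπ, ?_, hrange, ?_⟩
  · intro l hl
    rw [MonoidHom.mem_ker, hπ] at hl
    rw [Subgroup.mem_center_iff]
    intro m
    apply Subtype.ext
    have h1 : (x * (l : G) * x⁻¹) = (l : G)⁻¹ := (eq_inv_of_mul_eq_one_right hl)
    have h2 := hcom m m.2 _ (hmemLx l l.2)
    rw [h1] at h2
    have h3 : (m : G) * (l : G)⁻¹ = (l : G)⁻¹ * m := h2
    have : (l : G) * m = m * l := by
      calc (l : G) * m = l * (m * (l : G)⁻¹) * l := by group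
        _ = l * ((l : G)⁻¹ * m) * l := by rw [h3]
        _ = m * l := by group
    exact this.symm
  · -- the commutator subgroup
    have hRL : π.range ≤ L ⊔ Lx := by
      rintro _ ⟨l, rfl⟩
      exact Subgroup.mul_mem_sup l.2 (hmemLx l l.2)
    have hRp : ⁅π.range, π.range⁆ = π.range := by
      have hL : ⁅(⊤ : Subgroup L), (⊤ : Subgroup L)⁆ = (⊤ : Subgroup L) := by
        rw [← Subgroup.map_subtype_inj, Subgroup.map_commutator, ← MonoidHom.range_eq_map,
          Subgroup.range_subtype]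
        exact hperf
      rw [MonoidHom.range_eq_map, ← Subgroup.map_commutator, hL]
    apply le_antisymm
    · -- each element of `C` is `π l * z` with `z` central in `L ⊔ Lx`
      have hdec : ∀ c ∈ (L ⊔ Lx) ⊓ Subgroup.centralizer ({x} : Set G),
          ∃ l : L, ∃ z ∈ L ⊓ Lx, c = π l * z := by
        intro c hc
        have hc1 : c ∈ L ⊔ Lx := hc.1
        have hc2 : c ∈ Subgroup.centralizer ({x} : Set G) := hc.2
        rw [H10.mem_sup_iff_of_commutes hcomm] at hc1
        obtain ⟨l, hl, _, ⟨m, hm, rfl⟩, rfl⟩ := hc1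
        have hconj : (MulAut.conj x).toMonoidHom m = x * m * x⁻¹ := rfl
        rw [hconj] at hc2 ⊢
        rw [Subgroup.mem_centralizer_iff] at hc2
        have h0 := hc2 x rfl
        -- x * (l * (x m x⁻¹)) = l * (x m x⁻¹) * x
        have h1 : (x * l * x⁻¹) * m = l * (x * m * x⁻¹) := by
          calc (x * l * x⁻¹) * m = (x * l * x⁻¹) * (x * (x * m * x⁻¹) * x⁻¹) := by rw [hcx]
            _ = x * (l * (x * m * x⁻¹)) * x⁻¹ := by group
            _ = l * (x * m * x⁻¹) * x * x⁻¹ := by rw [h0]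
            _ = l * (x * m * x⁻¹) := by group
        have h2 : l⁻¹ * m = x * (l⁻¹ * m) * x⁻¹ := by
          have h3 := hcom l⁻¹ (L.inv_mem hl) _ (hmemLx l hl)
          calc l⁻¹ * m = l⁻¹ * ((x * l * x⁻¹)⁻¹ * ((x * l * x⁻¹) * m)) := by group
            _ = l⁻¹ * (x * l * x⁻¹)⁻¹ * (l * (x * m * x⁻¹)) := by rw [h1]; group
            _ = ((x * l * x⁻¹) * l)⁻¹ * (l * (x * m * x⁻¹)) := by group
            _ = (l * (x * l * x⁻¹))⁻¹ * (l * (x * m * x⁻¹)) := by
                rw [hcom l hl _ (hmemLx l hl)]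
            _ = x * (l⁻¹ * m) * x⁻¹ := by group
        refine ⟨⟨l, hl⟩, l⁻¹ * m, ⟨L.mul_mem (L.inv_mem hl) hm, ?_⟩, ?_⟩
        · rw [SetLike.mem_coe, h2]
          exact hmemLx _ (L.mul_mem (L.inv_mem hl) hm)
        · rw [hπ, h2]
          simp only
          group
      have hzc : ∀ z ∈ L ⊓ Lx, ∀ r ∈ π.range, z * r = r * z := by
        rintro z ⟨hz1, hz2⟩ _ ⟨l, rfl⟩
        rw [hπ]
        have h1 := hcom l l.2 z hz2
        have h2 := hcom z hz1 _ (hmemLx l l.2)
        calc z * ((l : G) * (x * l * x⁻¹)) = (z * l) * (x * l * x⁻¹) := by group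
          _ = l * (z * (x * l * x⁻¹)) := by rw [← h1]; group
          _ = l * (x * l * x⁻¹) * z := by rw [h2]; group
      rw [Subgroup.commutator_le]
      intro a ha b hb
      obtain ⟨l, z, hz, rfl⟩ := hdec a ha
      obtain ⟨m, w, hw, rfl⟩ := hdec b hb
      have hzw : z * w = w * z := hcom z hz.1 w hw.2
      have h1 := hzc z hz (π m) ⟨m, rfl⟩
      have h2 := hzc w hw (π l) ⟨l, rfl⟩
      have h3 := hzc z hz (π l) ⟨l, rfl⟩
      have h4 := hzc w hw (π m) ⟨m, rfl⟩
      have : ⁅π l * z, π m * w⁆ = ⁅π l, π m⁆ := by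
        simp only [commutatorElement_def, mul_inv_rev]
        calc π l * z * (π m * w) * (z⁻¹ * (π l)⁻¹) * (w⁻¹ * (π m)⁻¹)
            = π l * (z * π m) * w * z⁻¹ * (π l)⁻¹ * w⁻¹ * (π m)⁻¹ := by group
          _ = π l * π m * (z * w) * z⁻¹ * (π l)⁻¹ * w⁻¹ * (π m)⁻¹ := by rw [h1]; group
          _ = π l * π m * (w * (π l)⁻¹) * w⁻¹ * (π m)⁻¹ := by rw [hzw]; group
          _ = π l * π m * ((π l)⁻¹ * w) * w⁻¹ * (π m)⁻¹ := by
              have : w * (π l)⁻¹ = (π l)⁻¹ * w := by
                rw [← mul_left_inj (π l), ← mul_right_inj (π l)]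
                calc π l * (w * (π l)⁻¹ * π l) = π l * w := by group
                  _ = w * π l := h2.symm
                  _ = π l * ((π l)⁻¹ * w * π l) := by group
              rw [this]
          _ = π l * π m * (π l)⁻¹ * (π m)⁻¹ := by group
      rw [this, ← hRp]
      exact Subgroup.commutator_mem_commutator ⟨l, rfl⟩ ⟨m, rfl⟩
    · conv_lhs => rw [← hRp]
      exact Subgroup.commutator_mono (le_inf hRL hrange) (le_inf hRL hrange)

end Cfsg.Agent.S1314
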