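import Cfsg.Statements.S1316
import Cfsg.Agent.H10.Comp2

set_option autoImplicit false
open Cfsg

namespace Cfsg.Agent.S1316

/-- For a finite group X, E(X) equals the intersection of the derived series of F*(X) (its last term). -/
theorem result {X : Type*} [Group X] [Finite X] : (⨅ n : ℕ, (derivedSeries ↥(Cfsg.generalizedFittingSubgroup X) n).map (Cfsg.generalizedFittingSubgroup X).subtype) = Cfsg.layer X := by
  set Fs := Cfsg.generalizedFittingSubgroup X with hFs
  have hE := H10.layer_normal X
  have hEF : Cfsg.layer X ≤ Fs := H10.layer_le_genFitting X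
  have hFF : Cfsg.fittingSubgroup X ≤ Fs := H10.fitting_le_genFitting X
  apply le_antisymm
  · -- the quotient of `F*` by `E` is solvable
    set E1 := (Cfsg.layer X).subgroupOf Fs with hE1
    have hsolv : Group.IsSolvable (Fs ⧸ E1) := by
      have hF := H10.fitting_isNilpotent X
      let f : Cfsg.fittingSubgroup X →* Fs ⧸ E1 :=
        (QuotientGroup.mk' E1).comp (Subgroup.inclusion hFF)
      apply Group.isSolvable_of_surjective (f := f)
      intro y
      obtain ⟨z, rfl⟩ := QuotientGroup.mk'_surjective E1 y
      obtain ⟨z, hz⟩ := z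
      have hz' : z ∈ Cfsg.layer X ⊔ Cfsg.fittingSubgroup X := hz
      rw [Subgroup.mem_sup_of_normal_left] at hz'
      obtain ⟨e, he, g, hg, rfl⟩ := hz'
      refine ⟨⟨g, hg⟩, ?_⟩
      change (QuotientGroup.mk' E1) (Subgroup.inclusion hFF ⟨g, hg⟩) = _
      rw [QuotientGroup.mk'_apply, QuotientGroup.mk'_apply, QuotientGroup.eq]
      rw [hE1, Subgroup.mem_subgroupOf]
      have : g⁻¹ * (e * g) ∈ Cfsg.layer X := by
        have := hE.conj_mem e he g⁻¹
        rwa [inv_inv, mul_assoc] at this
      exact this
    obtain ⟨n, hn⟩ := (Group.isSolvable_def _).mp hsolv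
    refine (iInf_le _ n).trans ?_
    rw [← map_derivedSeries_eq (QuotientGroup.mk'_surjective E1), Subgroup.map_eq_bot_iff,
      QuotientGroup.ker_mk'] at hn
    refine (Subgroup.map_mono hn).trans ?_
    rw [hE1, Subgroup.map_subgroupOf_eq_of_le hEF]
  · apply le_iInf
    intro n
    induction n with
    | zero =>
      rw [derivedSeries_zero, ← MonoidHom.range_eq_map, Subgroup.range_subtype]
      exact hEF
    | succ n ih =>
      rw [derivedSeries_succ, Subgroup.map_commutator, ← H10.layer_perfect X]
      exact Subgroup.commutator_mono ih ih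

end Cfsg.Agent.S1316
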