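import Cfsg.Statements.S1321
import Cfsg.Agent.H10.Comp2

set_option autoImplicit false
open Cfsg

namespace Cfsg.Agent.S1321

/-- Let X be finite and U ≤ X. Then E(X) is generated by C_{E(X)}(U) together with ⁅E(X), U⁆ (indeed it is their product, ⁅E(X), U⁆ being normal in E(X)). -/
theorem result {X : Type*} [Group X] [Finite X] (U : Subgroup X) : Cfsg.layer X = (Cfsg.layer X ⊓ Subgroup.centralizer (U : Set X)) ⊔ ⁅Cfsg.layer X, U⁆ ∧ ⁅Cfsg.layer X, U⁆ ≤ Cfsg.layer X := by
  have hE := H10.layer_normal X
  have hle : ⁅Cfsg.layer X, U⁆ ≤ Cfsg.layer X := Subgroup.commutator_le_left _ _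
  refine ⟨?_, hle⟩
  apply le_antisymm _ (sup_le inf_le_left hle)
  have hn : (⁅Cfsg.layer X, U⁆).IsSubnormal := by
    apply Subgroup.IsSubnormal.trans hle _ hE.isSubnormal
    exact Subgroup.Normal.isSubnormal
      (H10.normal_subgroupOf_of_le (Subgroup.normalizer_commutator_ge_left _ _))
  apply sSup_le
  intro L hL
  rcases H10.comp_le_or_commutes hL hn with h | h
  · exact h.trans le_sup_right
  · refine le_trans ?_ le_sup_left
    refine le_inf (H10.le_layer hL) ?_
    rw [← Subgroup.commutator_eq_bot_iff_le_centralizer, Subgroup.commutator_comm]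
    apply H10.commutator_eq_bot_of_perfect (H10.comp_commutator_self hL)
    rw [← le_bot_iff, ← h]
    apply Subgroup.commutator_mono _ le_rfl
    rw [Subgroup.commutator_comm]
    exact Subgroup.commutator_mono (H10.le_layer hL) le_rfl

end Cfsg.Agent.S1321
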