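import Cfsg.Statements.S1329
import Cfsg.Agent.H10.CG4
import Cfsg.Agent.FT

set_option autoImplicit false
open Cfsg

namespace Cfsg.Agent.S1329

theorem cyc_of_cocyclic {X : Type*} [Group X] {B B₀ : Subgroup X} (hB : IsMulCommutative B) (h : B₀ ∈ Cfsg.Agent.H23.cocyclic B)
    [hn : (B₀.subgroupOf B).Normal] : IsCyclic (B ⧸ B₀.subgroupOf B) := by
  obtain ⟨hB₀, a, ha, hgen⟩ := h
  refine ⟨⟨QuotientGroup.mk' _ (⟨a, ha⟩ : B), ?_⟩⟩
  intro y
  obtain ⟨x, rfl⟩ := QuotientGroup.mk'_surjective (B₀.subgroupOf B) y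
  have h1 : (x : X) ∈ Subgroup.zpowers a ⊔ B₀ := by rw [sup_comm, hgen]; exact x.2
  have h2 : B₀ ≤ Subgroup.normalizer (Subgroup.zpowers a : Set X) := by
    intro z hz
    apply Subgroup.centralizer_le_normalizer
    rw [Subgroup.mem_centralizer_iff]
    rintro _ ⟨k, rfl⟩
    exact congrArg Subtype.val (hB.is_comm.comm (⟨a ^ k, Subgroup.zpow_mem _ ha k⟩ : B) ⟨z, hB₀ hz⟩)
  obtain ⟨_, ⟨k, rfl⟩, z, hz, hzx⟩ := (Cfsg.Agent.H23.mem_sup_iff_of_le_normalizer h2).1 h1
  refine ⟨k, ?_⟩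
  show (QuotientGroup.mk' (B₀.subgroupOf B) (⟨a, ha⟩ : B)) ^ k = _
  rw [← map_zpow]
  show QuotientGroup.mk _ = QuotientGroup.mk _
  rw [QuotientGroup.eq]
  show (((⟨a, ha⟩ : B) ^ k)⁻¹ * x : B) ∈ B₀.subgroupOf B
  rw [Subgroup.mem_subgroupOf]
  have : ((((⟨a, ha⟩ : B) ^ k)⁻¹ * x : B) : X) = (a ^ k)⁻¹ * (x : X) := rfl
  rw [this, ← hzx]
  show (a ^ k)⁻¹ * (a ^ k * z) ∈ B₀
  rw [inv_mul_cancel_left]; exact hz

/-- Let A be an abelian 2-subgroup of the finite group G, B ≤ A, and Y a subgroup of odd order normalized by A with ⁅Y, A⁆ = Y. Then Y ∩ C_G(B) is generated by the subgroups Y ∩ C_G(B) ∩ ⁅Y ∩ C_G(B₀), A⁆, B₀ ranging over the subgroups of B with B / B₀ cyclic. -/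
theorem result {G : Type*} [Group G] [Finite G] (A B Y : Subgroup G) (hA2 : IsPGroup 2 ↥A) (hAc : IsMulCommutative ↥A) (hB : B ≤ A) (hYodd : Odd (Nat.card ↥Y)) (hAY : A ≤ Subgroup.normalizer (Y : Set G)) (hYA : ⁅Y, A⁆ = Y) : Y ⊓ Subgroup.centralizer (B : Set G) = ⨆ B₀ : {B₀ : Subgroup G // B₀ ≤ B ∧ ∀ [(B₀.subgroupOf B).Normal], IsCyclic (↥B ⧸ B₀.subgroupOf B)}, Y ⊓ Subgroup.centralizer (B : Set G) ⊓ ⁅Y ⊓ Subgroup.centralizer ((B₀ : Subgroup G) : Set G), A⁆ := by
  classical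
  haveI : Fact (Nat.Prime 2) := ⟨Nat.prime_two⟩
  apply le_antisymm
  · set H : Subgroup G := Y ⊔ A with hH
    have hYH : Y ≤ H := le_sup_left
    have hAH : A ≤ H := le_sup_right
    have hBH : B ≤ H := hB.trans hAH
    have hinj : Function.Injective (Subgroup.map H.subtype) := Subgroup.map_injective H.subtype_injective
    have e1 : (Y.subgroupOf H).map H.subtype = Y := Subgroup.map_subgroupOf_eq_of_le hYH
    have e2 : (A.subgroupOf H).map H.subtype = A := Subgroup.map_subgroupOf_eq_of_le hAH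
    have e3 : (B.subgroupOf H).map H.subtype = B := Subgroup.map_subgroupOf_eq_of_le hBH
    have c1 : Nat.card (Y.subgroupOf H) = Nat.card Y := Nat.card_congr (Subgroup.subgroupOfEquivOfLe hYH).toEquiv
    have c2 : Nat.card (A.subgroupOf H) = Nat.card A := Nat.card_congr (Subgroup.subgroupOfEquivOfLe hAH).toEquiv
    have hAc' : IsMulCommutative (A.subgroupOf H) := by
      refine ⟨⟨fun a b => Subtype.ext (Subtype.ext ?_)⟩⟩
      have h := congrArg Subtype.val (hAc.is_comm.comm (⟨((a : H) : G), a.2⟩ : A) ⟨((b : H) : G), b.2⟩)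
      exact (show ((a : H) : G) * ((b : H) : G) = ((b : H) : G) * ((a : H) : G) from h)
    have hBc' : IsMulCommutative B := by
      refine ⟨⟨fun a b => Subtype.ext ?_⟩⟩
      have h := congrArg Subtype.val (hAc.is_comm.comm (⟨(a : G), hB a.2⟩ : A) ⟨(b : G), hB b.2⟩)
      exact (show (a : G) * (b : G) = (b : G) * (a : G) from h)
    have hs : Group.IsSolvable Y := FT.odd_order hYodd
    have key := H10.gold_gen (Nat.card (Y.subgroupOf H)) (X := H) (A := A.subgroupOf H) (B := B.subgroupOf H) (Y := Y.subgroupOf H) rfl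
      ((Subgroup.normal_subgroupOf_iff_le_normalizer hYH).2 (sup_le Subgroup.le_normalizer hAY))
      (by
        apply hinj
        rw [Subgroup.map_sup, e1, e2, ← MonoidHom.range_eq_map, Subgroup.range_subtype])
      hAc' (fun x hx => hB hx)
      (by
        rw [c1, c2]
        obtain ⟨k, hk⟩ := IsPGroup.iff_card.1 hA2
        rw [hk]
        exact Nat.Coprime.pow_left k (Nat.coprime_two_left.2 hYodd))
      (Group.isSolvable_of_surjective (f := (Subgroup.subgroupOfEquivOfLe hYH).symm.toMonoidHom) (Subgroup.subgroupOfEquivOfLe hYH).symm.surjective)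
      (by
        apply hinj
        rw [Subgroup.map_commutator, e1, e2, hYA])
    intro y hy
    obtain ⟨hy1, hy2⟩ := Subgroup.mem_inf.1 hy
    have hy' : (⟨y, hYH hy1⟩ : H) ∈ H10.WW (Y.subgroupOf H) (A.subgroupOf H) (B.subgroupOf H) := by
      apply key
      refine Subgroup.mem_inf.2 ⟨hy1, ?_⟩
      rw [Subgroup.mem_centralizer_iff]
      intro b hb
      exact Subtype.ext (Subgroup.mem_centralizer_iff.1 hy2 _ hb)
    have hy'' : y ∈ (H10.WW (Y.subgroupOf H) (A.subgroupOf H) (B.subgroupOf H)).map H.subtype := ⟨_, hy', rfl⟩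
    revert hy''
    apply SetLike.le_def.1
    rw [H10.WW, Subgroup.map_iSup]
    refine iSup_le fun B₀ => ?_
    rw [Subgroup.map_iSup]
    refine iSup_le fun hB₀ => ?_
    have hcoc : B₀.map H.subtype ∈ H23.cocyclic B := by
      obtain ⟨h1, b, hb, h2⟩ := hB₀
      refine ⟨?_, (b : G), hb, ?_⟩
      · rw [← e3]; exact Subgroup.map_mono h1
      · have h3 : Subgroup.zpowers (b : G) = (Subgroup.zpowers b).map H.subtype := by
          rw [MonoidHom.map_zpowers]; rfl
        rw [h3, ← Subgroup.map_sup, h2, e3]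
    refine le_trans ?_ (le_iSup (fun B₀ : {B₀ : Subgroup G // B₀ ≤ B ∧ ∀ [(B₀.subgroupOf B).Normal], IsCyclic (↥B ⧸ B₀.subgroupOf B)} =>
      Y ⊓ Subgroup.centralizer (B : Set G) ⊓ ⁅Y ⊓ Subgroup.centralizer ((B₀ : Subgroup G) : Set G), A⁆) ⟨B₀.map H.subtype, hcoc.1, by
        intro hn
        exact cyc_of_cocyclic hBc' hcoc⟩)
    have hcen : ∀ K : Subgroup H, (Subgroup.centralizer (K : Set H)).map H.subtype ≤ Subgroup.centralizer ((K.map H.subtype : Subgroup G) : Set G) := by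
      intro K
      rintro _ ⟨x, hx, rfl⟩
      rw [Subgroup.mem_centralizer_iff]
      rintro _ ⟨k, hk, rfl⟩
      exact congrArg Subtype.val (Subgroup.mem_centralizer_iff.1 hx k hk)
    refine le_inf (le_inf ?_ ?_) ?_
    · refine (Subgroup.map_mono (inf_le_left.trans inf_le_left)).trans e1.le
    · refine (Subgroup.map_mono (inf_le_left.trans inf_le_right)).trans ((hcen _).trans ?_)
      rw [e3]
    · refine (Subgroup.map_mono inf_le_right).trans ?_
      rw [Subgroup.map_commutator, e2]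
      apply Subgroup.commutator_mono _ le_rfl
      refine le_inf ((Subgroup.map_mono inf_le_left).trans e1.le) ((Subgroup.map_mono inf_le_right).trans (hcen _))
  · exact iSup_le fun B₀ => inf_le_left

end Cfsg.Agent.S1329
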