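import Cfsg.Statements.S1331
import Cfsg.Agent.H10.Sig4

set_option autoImplicit false
open Cfsg

namespace Cfsg.Agent.S1331

/-- Let θ be a solvable A-signalizer functor on the finite group G for the prime p, A elementary abelian of rank at least 3, X a member of the family of θ, and B ≤ A with |B| ≥ p². Then X is generated by the subgroups X ∩ ⋂_{d ∈ D, d ≠ 1} θ d, D ranging over the subgroups of index p in B. -/
theorem result {G : Type*} [Group G] [Finite G] (p : ℕ) [Fact p.Prime] (A : Subgroup G) (hA : Cfsg.IsElementaryAbelian p A) (hA3 : p ^ 3 ≤ Nat.card ↥A) (θ : G → Subgroup G) (hθ : Cfsg.IsSolvableSignalizerFunctor p A θ) (X : Subgroup G) (hX : X ∈ Cfsg.signalizerFamily p A θ) (B : Subgroup G) (hB : B ≤ A) (hB2 : p ^ 2 ≤ Nat.card ↥B) : X = ⨆ D : {D : Subgroup G // D ≤ B ∧ D.relIndex B = p}, X ⊓ Cfsg.signalizerInf (D : Subgroup G) θ := by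
  apply le_antisymm _ (iSup_le fun B => inf_le_left)
  have hX' := (H10.mem_family_iff hA hθ).mp hX
  have hBel := H10.elab_mono hA hB
  have hBX : B ≤ Subgroup.normalizer (X : Set G) := hB.trans hX'.2.2.1
  obtain ⟨m, hm⟩ := IsPGroup.iff_card.mp (H10.elab_isPGroup hBel)
  have hm2 : 2 ≤ m := by
    rw [hm] at hB2
    exact (Nat.pow_le_pow_iff_right (Fact.out : p.Prime).one_lt).mp hB2
  refine H10.le_of_cent_le (k := m - 1) hBel ?_ hX'.2.1 hBX ?_
  · rw [hm, Nat.sub_add_cancel (by omega)]
  · intro D hD hDk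
    refine le_iSup_of_le ⟨D, hD, ?_⟩ (le_inf inf_le_left ?_)
    · have h3 := H10.relIndex_mul_card hD
      rw [hDk, hm] at h3
      have h4 : p ^ m = p * p ^ (m - 1) := by
        rw [← pow_succ', Nat.sub_add_cancel (by omega)]
      rw [h4] at h3
      exact Nat.eq_of_mul_eq_mul_right (pow_pos (Fact.out : p.Prime).pos _) h3
    · intro x hx
      rw [H10.mem_signalizerInf]
      intro a ha ha1
      exact hX.2.2.2 a (hB (hD ha)) ha1 ⟨hx.1, H10.mem_centralizer_singleton.mpr
        (Subgroup.mem_centralizer_iff.mp hx.2 a ha)⟩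

end Cfsg.Agent.S1331
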