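import Cfsg.Statements.S1336
import Cfsg.Agent.H10.Rank
import Cfsg.Agent.H19.Sylow2

set_option autoImplicit false
open Cfsg

namespace Cfsg.Agent.S1336

open Cfsg.Agent.H10 Cfsg.Agent.H23 in
/-- a vertex of the rank-one commuting graph -/
def V {G : Type*} [Group G] (p : ℕ) (A : Subgroup G) : Prop :=
  IsElementaryAbelian p A ∧ p ^ 1 ≤ Nat.card A

/-- adjacency in the rank-one commuting graph -/
def R {G : Type*} [Group G] (p : ℕ) (A B : Subgroup G) : Prop :=
  IsElementaryAbelian p A ∧ p ^ 1 ≤ Nat.card ↥A ∧ IsElementaryAbelian p B ∧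
        p ^ 1 ≤ Nat.card ↥B ∧ ∀ a ∈ A, ∀ b ∈ B, a * b = b * a

section
open Cfsg.Agent.H10 Cfsg.Agent.H23 Relation
open scoped Pointwise

variable {G : Type*} [Group G] {p : ℕ}

theorem R.symm {A B : Subgroup G} (h : R p A B) : R p B A :=
  ⟨h.2.2.1, h.2.2.2.1, h.1, h.2.1, fun b hb a ha => (h.2.2.2.2 a ha b hb).symm⟩

theorem V.smul {A : Subgroup G} (h : V p A) (g : G) : V p (MulAut.conj g • A) := by
  refine ⟨elab_map _ h.1, ?_⟩
  rw [H1.card_conj_smul]; exact h.2

theorem R.smul {A B : Subgroup G} (h : R p A B) (g : G) :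
    R p (MulAut.conj g • A) (MulAut.conj g • B) := by
  have h1 := V.smul (g := g) ⟨h.1, h.2.1⟩
  have h2 := V.smul (g := g) ⟨h.2.2.1, h.2.2.2.1⟩
  refine ⟨h1.1, h1.2, h2.1, h2.2, ?_⟩
  intro a ha b hb
  rw [H1.mem_conj_smul] at ha hb
  have h3 := h.2.2.2.2 _ ha _ hb
  have h4 : g⁻¹ * (a * b) * g = g⁻¹ * (b * a) * g := by
    calc g⁻¹ * (a * b) * g = (g⁻¹ * a * g) * (g⁻¹ * b * g) := by group
      _ = (g⁻¹ * b * g) * (g⁻¹ * a * g) := h3
      _ = _ := by group
  exact mul_left_cancel (mul_right_cancel h4)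

theorem rt_symm {A B : Subgroup G} (h : ReflTransGen (R p) A B) : ReflTransGen (R p) B A := by
  induction h with
  | refl => exact ReflTransGen.refl
  | tail _ h ih => exact ReflTransGen.head h.symm ih

theorem rt_smul {A B : Subgroup G} (h : ReflTransGen (R p) A B) (g : G) :
    ReflTransGen (R p) (MulAut.conj g • A) (MulAut.conj g • B) := by
  induction h with
  | refl => exact ReflTransGen.refl
  | tail _ h ih => exact ReflTransGen.tail ih (h.smul g)

theorem V.dvd [Finite G] [hp : Fact p.Prime] {A : Subgroup G} (h : V p A) : p ∣ Nat.card A := by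
  obtain ⟨n, hn⟩ := IsPGroup.iff_card.mp (elab_isPGroup h.1)
  rw [hn]
  refine dvd_pow_self p ?_
  rintro rfl
  have := h.2
  rw [hn, pow_one, pow_zero] at this
  exact absurd this (by have := hp.out.one_lt; omega)

theorem V_zpowers [hp : Fact p.Prime] {x : G} (hx : orderOf x = p) :
    V p (Subgroup.zpowers x) := by
  refine ⟨elab_of_comm ?_ ?_, ?_⟩
  · intro a ha b hb
    obtain ⟨i, rfl⟩ := Subgroup.mem_zpowers_iff.mp ha
    obtain ⟨j, rfl⟩ := Subgroup.mem_zpowers_iff.mp hb
    rw [← zpow_add, ← zpow_add, add_comm]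
  · intro a ha
    obtain ⟨i, rfl⟩ := Subgroup.mem_zpowers_iff.mp ha
    rw [← zpow_natCast, ← zpow_mul, mul_comm, zpow_mul, zpow_natCast, ← hx, pow_orderOf_eq_one,
      one_zpow]
  · rw [Nat.card_zpowers, hx, pow_one]

theorem rt_of_le [Finite G] [hp : Fact p.Prime] {A B P : Subgroup G} (hP : IsPGroup p P)
    (hA : V p A) (hB : V p B) (hAP : A ≤ P) (hBP : B ≤ P) : ReflTransGen (R p) A B := by
  have hne : Nontrivial P := by
    rw [Subgroup.nontrivial_iff_ne_bot]
    rintro rfl
    have := hA.2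
    rw [le_bot_iff.mp hAP, Subgroup.card_bot, pow_one] at this
    exact absurd this (by have := hp.out.one_lt; omega)
  have h1 : Nontrivial (Subgroup.center P) := hP.center_nontrivial
  have h2 : p ∣ Nat.card (Subgroup.center P) := by
    obtain ⟨n, hn0, hn⟩ := (hP.to_subgroup _).nontrivial_iff_card.mp h1
    rw [hn]; exact dvd_pow_self p (by omega)
  obtain ⟨z, hz⟩ := exists_prime_orderOf_dvd_card' p h2
  have hz1 : orderOf ((z : P) : G) = p := by rw [orderOf_submonoid, orderOf_submonoid, hz]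
  have hV := V_zpowers hz1
  have hc : ∀ x ∈ P, ∀ y ∈ Subgroup.zpowers ((z : P) : G), x * y = y * x := by
    intro x hx y hy
    obtain ⟨i, rfl⟩ := Subgroup.mem_zpowers_iff.mp hy
    have h3 : (⟨x, hx⟩ : P) * z = z * ⟨x, hx⟩ := Subgroup.mem_center_iff.mp z.2 ⟨x, hx⟩
    have h4 : Commute x ((z : P) : G) := congrArg Subtype.val h3
    exact (h4.zpow_right i)
  refine ReflTransGen.head ⟨hA.1, hA.2, hV.1, hV.2, fun a ha => hc a (hAP ha)⟩
    (ReflTransGen.single ⟨hV.1, hV.2, hB.1, hB.2, fun a ha b hb => (hc b (hBP hb) a ha).symm⟩)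

end

/-- Let G be finite and p prime. Then G has a proper subgroup H with p ∣ |H| and p ∤ |H ∩ gHg⁻¹| for every g ∉ H (a strongly p-embedded subgroup) if and only if G is not 1-connected for p. -/
theorem result {G : Type*} [Group G] [Finite G] (p : ℕ) [Fact p.Prime] : (∃ H : Subgroup G, H ≠ ⊤ ∧ p ∣ Nat.card ↥H ∧ ∀ g : G, g ∉ H → ¬ p ∣ Nat.card ↥(H ⊓ H.map (MulAut.conj g).toMonoidHom)) ↔ ¬ Cfsg.IsKConnected p 1 G := by
  open Cfsg.Agent.H10 Cfsg.Agent.H23 Relation in
  open scoped Pointwise in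
  change _ ↔ ¬ ∀ E E' : Subgroup G, IsElementaryAbelian p E → p ^ 1 ≤ Nat.card ↥E →
    IsElementaryAbelian p E' → p ^ 1 ≤ Nat.card ↥E' → ReflTransGen (R p) E E'
  have hp : p.Prime := Fact.out
  constructor
  · rintro ⟨H, hH, hpH, hse⟩ hconn
    obtain ⟨x, hx⟩ := exists_prime_orderOf_dvd_card' (G := H) p hpH
    have hx1 : orderOf (x : G) = p := by rw [orderOf_submonoid, hx]
    have hV := V_zpowers hx1
    have hEH : Subgroup.zpowers (x : G) ≤ H := by
      rw [Subgroup.zpowers_le]; exact x.2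
    obtain ⟨g, hg⟩ : ∃ g, g ∉ H := by
      by_contra hcon; push Not at hcon
      exact hH (eq_top_iff.mpr fun g _ => hcon g)
    have key : ∀ B, ReflTransGen (R p) (Subgroup.zpowers (x : G)) B → B ≤ H := by
      intro B hB
      induction hB with
      | refl => exact hEH
      | tail h1 h2 ih =>
        rename_i B C
        intro c hc
        by_contra hcH
        apply hse c hcH
        refine (V.dvd ⟨h2.1, h2.2.1⟩).trans (Subgroup.card_dvd_of_le (le_inf ih ?_))
        intro b hb
        refine ⟨b, ih hb, ?_⟩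
        have := h2.2.2.2.2 b hb c hc
        simp only [MulEquiv.coe_toMonoidHom, MulAut.conj_apply]
        rw [← this]; group
    have hV' := V.smul hV g
    have h1 := key _ (hconn _ _ hV.1 hV.2 hV'.1 hV'.2)
    exact hse g hg ((V.dvd hV').trans (Subgroup.card_dvd_of_le (le_inf h1 (Subgroup.map_mono hEH))))
  · intro hcon
    push Not at hcon
    obtain ⟨E, E', hE1, hE2, hE1', hE2', hn⟩ := hcon
    have hE : V p E := ⟨hE1, hE2⟩
    have hE' : V p E' := ⟨hE1', hE2'⟩
    let H : Subgroup G :=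
      { carrier := {g | ReflTransGen (R p) E (MulAut.conj g • E)}
        one_mem' := by
          change ReflTransGen (R p) E (MulAut.conj 1 • E)
          rw [H1.conj_one_smul]
        mul_mem' := by
          intro a b ha hb
          change ReflTransGen (R p) E (MulAut.conj (a * b) • E)
          rw [← H1.conj_smul_smul]
          exact ReflTransGen.trans ha (rt_smul hb a)
        inv_mem' := by
          intro a ha
          change ReflTransGen (R p) E (MulAut.conj a⁻¹ • E)
          have h1 := rt_smul (rt_symm ha) a⁻¹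
          rwa [H1.conj_smul_smul, inv_mul_cancel, H1.conj_one_smul] at h1 }
    have hmem : ∀ g, g ∈ H ↔ ReflTransGen (R p) E (MulAut.conj g • E) := fun g => Iff.rfl
    obtain ⟨P, hP, hEP⟩ := exists_isSylowOf_ge (p := p) (le_top : E ≤ ⊤) (elab_isPGroup hE.1)
    have hPH : P ≤ H := by
      intro x hx
      rw [hmem]
      refine rt_of_le hP.isPGroup hE (hE.smul x) hEP ?_
      rw [← H1.conj_smul_self_of_mem hx]
      exact H1.conj_smul_le_conj_smul_iff.mpr hEP
    have hPH' : IsSylowOf p P H := H19.IsSylowOf.mono hP hPH le_top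
    have key : ∀ X ≤ H, V p X → ReflTransGen (R p) E X := by
      intro X hX hXV
      obtain ⟨Q, hQ, hXQ⟩ := exists_isSylowOf_ge (p := p) hX (elab_isPGroup hXV.1)
      obtain ⟨h, hh, rfl⟩ := hPH'.exists_conj hQ
      refine ReflTransGen.trans ((hmem h).mp hh) ?_
      exact rt_of_le hQ.isPGroup (hE.smul h) hXV (H1.conj_smul_le_conj_smul_iff.mpr hEP) hXQ
    refine ⟨H, ?_, ?_, ?_⟩
    · intro htop
      obtain ⟨Q, hQ, hE'Q⟩ := exists_isSylowOf_ge (p := p) (le_top : E' ≤ ⊤) (elab_isPGroup hE'.1)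
      exact hn (key E' (by rw [htop]; exact le_top) hE')
    · exact (V.dvd hE).trans (Subgroup.card_dvd_of_le (hEP.trans hPH))
    · intro g hg hdvd
      obtain ⟨x, hx⟩ := exists_prime_orderOf_dvd_card' p hdvd
      have hx1 : orderOf (x : G) = p := by rw [orderOf_submonoid, hx]
      have hXV := V_zpowers hx1
      have h1 : Subgroup.zpowers (x : G) ≤ H := by
        rw [Subgroup.zpowers_le]; exact x.2.1
      have h2 : Subgroup.zpowers (x : G) ≤ MulAut.conj g • H := by
        rw [Subgroup.zpowers_le]; exact x.2.2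
      have h3 : MulAut.conj g⁻¹ • Subgroup.zpowers (x : G) ≤ H := by
        have := H1.conj_smul_le_conj_smul_iff (g := g⁻¹).mpr h2
        rwa [H1.conj_smul_smul, inv_mul_cancel, H1.conj_one_smul] at this
      have h4 := key _ h1 hXV
      have h5 := key _ h3 (hXV.smul g⁻¹)
      have h6 := rt_smul h5 g
      rw [H1.conj_smul_smul, mul_inv_cancel, H1.conj_one_smul] at h6
      exact hg ((hmem g).mpr (h4.trans (rt_symm h6)))

end Cfsg.Agent.S1336
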