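import Cfsg.Statements.S1337
import Cfsg.Agent.H10.RankP

set_option autoImplicit false
open Cfsg

namespace Cfsg.Agent.S1337



/-- Let P be a finite p-group of p-rank greater than 2. Then P has a normal elementary abelian subgroup U of order p², and for every elementary abelian X ≤ P with |X| ≥ p²: X is joined to U by a chain of pairwise commuting elementary abelian subgroups of order ≥ p² if and only if C_P(X) has p-rank greater than 2. -/
theorem result {P : Type*} [Group P] [Finite P] (p : ℕ) [Fact p.Prime] (hP : IsPGroup p P) (hrk : ¬ Cfsg.PRankLE p 2 P) : ∃ U : Subgroup P, U.Normal ∧ Cfsg.IsElementaryAbelian p U ∧ Nat.card ↥U = p ^ 2 ∧ ∀ X : Subgroup P, Cfsg.IsElementaryAbelian p X → p ^ 2 ≤ Nat.card ↥X → (Relation.ReflTransGen (fun A B : Subgroup P => Cfsg.IsElementaryAbelian p A ∧ p ^ 2 ≤ Nat.card ↥A ∧ Cfsg.IsElementaryAbelian p B ∧ p ^ 2 ≤ Nat.card ↥B ∧ ∀ a ∈ A, ∀ b ∈ B, a * b = b * a) X U ↔ ¬ Cfsg.PRankLE p 2 ↥(Subgroup.centralizer (X : Set P))) := by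
  obtain ⟨U, hUn, hU, hUc⟩ := H10.exists_normal_sq_of_rank hP hrk
  have hpp : p.Prime := Fact.out
  refine ⟨U, hUn, hU, hUc, ?_⟩
  intro X hX hXc
  have hself : ∀ Y : Subgroup P, Cfsg.IsElementaryAbelian p Y → Y ≤ Subgroup.centralizer (Y : Set P) := by
    intro Y hY a ha
    rw [Subgroup.mem_centralizer_iff]
    intro b hb; exact H10.elab_comm hY hb ha
  have hcU : ¬ Cfsg.PRankLE p 2 ↥(Subgroup.centralizer (U : Set P)) := by
    unfold Cfsg.PRankLE at hrk
    push Not at hrk
    obtain ⟨E, h1, h2, h3⟩ := hrk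
    exact (H10.cent_normal_sq hP hUn hU hUc (E := E) ⟨h1, h2⟩ h3).2
  constructor
  · intro h
    induction h using Relation.ReflTransGen.head_induction_on with
    | refl => exact hcU
    | head hac hcb ih =>
      rename_i A B
      obtain ⟨hA, hAc, hB, hBc, hAB⟩ := hac
      by_cases hBA : B ≤ A
      · by_cases hAcard : Nat.card A ≤ p ^ 2
        · have : B = A := Subgroup.eq_of_le_of_card_ge hBA (hAcard.trans hBc)
          rw [← this]; exact ih hB hBc
        · rw [H10.not_pRankLE_iff]
          exact ⟨A, hself A hA, hA, not_le.1 hAcard⟩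
      · rw [H10.not_pRankLE_iff]
        refine ⟨A ⊔ B, sup_le (hself A hA) ?_, H10.elab_sup hA hB hAB, ?_⟩
        · intro b hb
          rw [Subgroup.mem_centralizer_iff]
          intro a ha; exact hAB a ha b hb
        · have hlt : A < A ⊔ B := lt_of_le_of_ne le_sup_left (fun h => hBA (h ▸ le_sup_right))
          exact lt_of_le_of_lt hAc (Set.ncard_lt_ncard (s := (A : Set P)) hlt (Set.toFinite _))
  · intro h
    rw [H10.not_pRankLE_iff] at h
    obtain ⟨E, hEX, hE, hE2⟩ := h
    have h1 := (H10.cent_normal_sq hP hUn hU hUc hE hE2).1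
    have hF : Cfsg.IsElementaryAbelian p (Subgroup.centralizer (U : Set P) ⊓ E) := H10.elab_mono hE inf_le_right
    refine Relation.ReflTransGen.head (b := E) ⟨hX, hXc, hE, hE2.le, ?_⟩ ?_
    · intro a ha b hb
      exact (Subgroup.mem_centralizer_iff.1 (hEX hb)) a ha
    refine Relation.ReflTransGen.head (b := Subgroup.centralizer (U : Set P) ⊓ E) ⟨hE, hE2.le, hF, h1, ?_⟩ ?_
    · intro a ha b hb
      exact H10.elab_comm hE ha hb.2
    refine Relation.ReflTransGen.single ⟨hF, h1, hU, hUc.ge, ?_⟩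
    intro a ha b hb
    exact ((Subgroup.mem_centralizer_iff.1 ha.1) b hb).symm

end Cfsg.Agent.S1337
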