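import Cfsg.Statements.S1338
import Cfsg.Agent.H10.Jon2

set_option autoImplicit false
open Cfsg

namespace Cfsg.Agent.S1338

theorem card_le_cube {M : Type*} [AddCommGroup M] [Finite M] (h3 : ∀ m : M, m + m + m = 0) (β : M →+ M)
    (hβ : ∀ m, β (β (β m)) = m) : Nat.card M ≤ Nat.card (β - AddMonoidHom.id M).ker ^ 3 := by
  obtain ⟨φ, hφ⟩ : ∃ φ : M →+ M, φ = β - AddMonoidHom.id M := ⟨_, rfl⟩
  rw [← hφ]
  have hφa : ∀ m, φ m = β m - m := fun m => by rw [hφ]; rfl
  have hφ3 : ∀ m, φ (φ (φ m)) = 0 := by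
    intro m
    simp only [hφa, map_sub, hβ]
    have h1 := h3 (β m)
    have h2 := h3 (β (β m))
    have : m - β (β m) - (β (β m) - β m) - (β (β m) - β m - (β m - m)) =
      (β m + β m + β m) - (β (β m) + β (β m) + β (β m)) := by abel
    rw [this, h1, h2, sub_zero]
  have key : ∀ R : AddSubgroup M, Nat.card R ≤ Nat.card φ.ker * Nat.card (R.map φ) := by
    intro R
    have h1 : Nat.card (φ.comp R.subtype).ker * Nat.card (φ.comp R.subtype).range = Nat.card R := by
      rw [← AddSubgroup.index_ker (φ.comp R.subtype), AddSubgroup.card_mul_index]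
    rw [← h1]
    refine Nat.mul_le_mul ?_ ?_
    · refine Nat.card_le_card_of_injective (fun x : (φ.comp R.subtype).ker => (⟨(x : R), ?_⟩ : φ.ker)) ?_
      · have := x.2
        rw [AddMonoidHom.mem_ker] at this ⊢
        exact this
      · intro x y hxy
        have := congrArg Subtype.val hxy
        exact Subtype.ext (Subtype.ext this)
    · refine Nat.card_le_card_of_injective (fun x : (φ.comp R.subtype).range => (⟨(x : M), ?_⟩ : R.map φ)) ?_
      · obtain ⟨y, hy⟩ := x.2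
        exact ⟨y, y.2, hy⟩
      · intro x y hxy
        have := congrArg Subtype.val hxy
        exact Subtype.ext this
  have h1 := key ⊤
  have h2 := key ((⊤ : AddSubgroup M).map φ)
  have h3' : Nat.card (((⊤ : AddSubgroup M).map φ).map φ) ≤ Nat.card φ.ker := by
    refine Nat.card_le_card_of_injective (fun x : ((⊤ : AddSubgroup M).map φ).map φ => (⟨(x : M), ?_⟩ : φ.ker)) ?_
    · obtain ⟨y, ⟨w, -, rfl⟩, hy⟩ := x.2
      rw [AddMonoidHom.mem_ker, ← hy]
      exact hφ3 w
    · intro x y hxy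
      have := congrArg Subtype.val hxy
      exact Subtype.ext this
  rw [AddSubgroup.card_top] at h1
  calc Nat.card M ≤ _ := h1
    _ ≤ Nat.card φ.ker * (Nat.card φ.ker * Nat.card φ.ker) :=
        Nat.mul_le_mul_left _ (h2.trans (Nat.mul_le_mul_left _ h3'))
    _ = _ := by ring

/-- In a group, for `b ^ 3 = 1` normalizing the elementary abelian `3`-subgroup `E`. -/
theorem card_cent {P : Type*} [Group P] [Finite P] (E : Subgroup P) [E.Normal] (hc : ∀ u ∈ E, ∀ v ∈ E, u * v = v * u)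
    (he : ∀ u ∈ E, u ^ 3 = 1) (b : P) (hb : b ^ 3 = 1) :
    Nat.card E ≤ Nat.card (E ⊓ Subgroup.centralizer ({b} : Set P) : Subgroup P) ^ 3 := by
  letI : CommGroup E := { (inferInstance : Group E) with mul_comm := fun a b => Subtype.ext (hc a a.2 b b.2) }
  let β : E →* E := MonoidHom.mk' (fun u => ⟨b * u * b⁻¹, Subgroup.Normal.conj_mem inferInstance _ u.2 b⟩) (by
    intro u v
    apply Subtype.ext
    show b * (u * v : P) * b⁻¹ = (b * u * b⁻¹) * (b * v * b⁻¹)
    group)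
  have h := card_le_cube (M := Additive E) (by
    intro m
    have h1 : (m : Additive E).toMul * m.toMul * m.toMul = 1 := by
      apply Subtype.ext
      have := he _ (m.toMul : E).2
      rw [pow_succ, pow_two] at this
      exact this
    exact h1) (MonoidHom.toAdditive β) (by
    intro m
    have h1 : β (β (β m.toMul)) = m.toMul := by
      apply Subtype.ext
      show b * (b * (b * (m.toMul : E) * b⁻¹) * b⁻¹) * b⁻¹ = (m.toMul : E)
      have hb' : b * b * b = 1 := by rw [← hb, pow_succ, pow_two]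
      have h2 : b * (b * (b * ((m.toMul : E) : P) * b⁻¹) * b⁻¹) * b⁻¹ = (b * b * b) * (m.toMul : E) * (b * b * b)⁻¹ := by
        simp only [mul_inv_rev, mul_assoc]
      rw [h2, hb']; simp
    exact h1)
  refine h.trans (Nat.pow_le_pow_left ?_ 3)
  refine Nat.card_le_card_of_injective (fun x : (MonoidHom.toAdditive β - AddMonoidHom.id (Additive E)).ker =>
    (⟨(((x : Additive E).toMul : E) : P), ?_⟩ : (E ⊓ Subgroup.centralizer ({b} : Set P) : Subgroup P))) ?_
  · refine Subgroup.mem_inf.2 ⟨((x : Additive E).toMul : E).2, ?_⟩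
    rw [Subgroup.mem_centralizer_singleton_iff]
    have h1 := x.2
    rw [AddMonoidHom.mem_ker] at h1
    have h2a : (MonoidHom.toAdditive β (x : Additive E) : Additive E) = (x : Additive E) := by
      have h3 : (MonoidHom.toAdditive β (x : Additive E) : Additive E) - (x : Additive E) = 0 := h1
      exact sub_eq_zero.1 h3
    have h2 : β ((x : Additive E).toMul) = (x : Additive E).toMul := h2a
    have h3 : b * (((x : Additive E).toMul : E) : P) * b⁻¹ = (((x : Additive E).toMul : E) : P) :=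
      congrArg Subtype.val h2
    calc (((x : Additive E).toMul : E) : P) * b = (b * (((x : Additive E).toMul : E) : P) * b⁻¹) * b := by rw [h3]
      _ = b * _ := by group
  · intro x y hxy
    have h1 := congrArg Subtype.val hxy
    have h2 : ((x : Additive E).toMul : E) = (y : Additive E).toMul := Subtype.ext h1
    exact Subtype.ext h2

/-- A finite 3-group of 3-rank at least 4 is 2-connected for the prime 3: its commuting graph on elementary abelian subgroups of order ≥ 9 is connected. -/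
theorem result {P : Type*} [Group P] [Finite P] (hP : IsPGroup 3 P) (hrk : ¬ Cfsg.PRankLE 3 3 P) : Cfsg.IsKConnected 3 2 P := by
  haveI : Fact (Nat.Prime 3) := ⟨Nat.prime_three⟩
  -- a normal elementary abelian subgroup of order 81
  obtain ⟨A, hAc, hAe, hA⟩ : ∃ A : Subgroup P, IsMulCommutative A ∧ (∀ a ∈ A, a ^ 3 = 1) ∧ 3 ^ 3 < Nat.card A := by
    unfold Cfsg.PRankLE at hrk
    push Not at hrk
    obtain ⟨A, h1, h2, h3⟩ := hrk
    exact ⟨A, h1, h2, h3⟩
  have hAc' : ∀ u ∈ A, ∀ v ∈ A, u * v = v * u := fun u hu v hv =>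
    congrArg Subtype.val (hAc.is_comm.comm (⟨u, hu⟩ : A) ⟨v, hv⟩)
  obtain ⟨A', hA'A, hA'c⟩ : ∃ A' : Subgroup P, A' ≤ A ∧ Nat.card A' = 3 ^ 4 := by
    obtain ⟨k, hk⟩ := H10.Jon.card_isPow hP A
    rw [hk] at hA
    have hk3 : 3 < k := (Nat.pow_lt_pow_iff_right (by norm_num)).1 hA
    obtain ⟨B, hB⟩ := Sylow.exists_subgroup_card_pow_prime (G := A) 3 (n := 4) (by
      rw [hk]; exact pow_dvd_pow 3 hk3)
    refine ⟨B.map A.subtype, Subgroup.map_subtype_le B, ?_⟩
    rw [Subgroup.card_map_of_injective A.subtype_injective, hB]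
  obtain ⟨E, hEn, hEe, hEc, hE4⟩ := H10.Jon.main (by norm_num) hP A' (fun u hu => hAe u (hA'A hu))
    (fun u hu v hv => hAc' u (hA'A hu) v (hA'A hv)) hA'c
  have hEE : Cfsg.IsElementaryAbelian 3 E := ⟨⟨⟨fun a b => Subtype.ext (hEc a a.2 b b.2)⟩⟩, hEe⟩
  have hE9 : 3 ^ 2 ≤ Nat.card E := by rw [hE4]; norm_num
  -- central element
  have hE1 : E ≠ ⊥ := by
    rintro rfl
    rw [Subgroup.card_bot] at hE4
    norm_num at hE4
  obtain ⟨z, hz, hz1⟩ : ∃ z : P, z ∈ E ⊓ Subgroup.center P ∧ z ≠ 1 := by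
    obtain ⟨a, ha⟩ := Subgroup.ne_bot_iff_exists_ne_one.1 (H2.inf_center_ne_bot_of_normal hP E hE1)
    exact ⟨a.1, a.2, fun h => ha (Subtype.ext h)⟩
  obtain ⟨hzE, hzZ⟩ := Subgroup.mem_inf.1 hz
  have hzc : ∀ g : P, g * z = z * g := fun g => Subgroup.mem_center_iff.1 hzZ g
  have hoz : orderOf z = 3 := orderOf_eq_prime (hEe z hzE) hz1
  -- connection to `E`
  have hsymm : ∀ X Y : Subgroup P, (Cfsg.IsElementaryAbelian 3 X ∧ 3 ^ 2 ≤ Nat.card ↥X ∧ Cfsg.IsElementaryAbelian 3 Y ∧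
        3 ^ 2 ≤ Nat.card ↥Y ∧ ∀ a ∈ X, ∀ b ∈ Y, a * b = b * a) →
      (Cfsg.IsElementaryAbelian 3 Y ∧ 3 ^ 2 ≤ Nat.card ↥Y ∧ Cfsg.IsElementaryAbelian 3 X ∧
        3 ^ 2 ≤ Nat.card ↥X ∧ ∀ a ∈ Y, ∀ b ∈ X, a * b = b * a) := fun X Y h =>
    ⟨h.2.2.1, h.2.2.2.1, h.1, h.2.1, fun a ha b hb => (h.2.2.2.2 b hb a ha).symm⟩
  have key : ∀ B : Subgroup P, Cfsg.IsElementaryAbelian 3 B → 3 ^ 2 ≤ Nat.card ↥B →
      Relation.ReflTransGen (fun A B : Subgroup P => Cfsg.IsElementaryAbelian 3 A ∧ 3 ^ 2 ≤ Nat.card ↥A ∧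
        Cfsg.IsElementaryAbelian 3 B ∧ 3 ^ 2 ≤ Nat.card ↥B ∧ ∀ a ∈ A, ∀ b ∈ B, a * b = b * a) B E := by
    intro B hBE hB9
    have hBc : ∀ u ∈ B, ∀ v ∈ B, u * v = v * u := fun u hu v hv =>
      congrArg Subtype.val (hBE.1.is_comm.comm (⟨u, hu⟩ : B) ⟨v, hv⟩)
    obtain ⟨b, hbB, hbz⟩ : ∃ b ∈ B, b ∉ Subgroup.zpowers z := by
      by_contra hcon
      push Not at hcon
      have h1 : Nat.card B ≤ Nat.card (Subgroup.zpowers z) := H10.Jon.card_mono' hcon
      rw [Nat.card_zpowers, hoz] at h1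
      omega
    have hb3 : b ^ 3 = 1 := hBE.2 b hbB
    obtain ⟨V, hV⟩ : ∃ V : Subgroup P, V = Subgroup.zpowers b ⊔ Subgroup.zpowers z := ⟨_, rfl⟩
    have hzn : Subgroup.zpowers z ≤ Subgroup.normalizer ((Subgroup.zpowers b : Subgroup P) : Set P) := by
      rw [Subgroup.zpowers_le, Subgroup.mem_normalizer_iff]
      intro h
      rw [← hzc h, mul_inv_cancel_right]
    have hVm : ∀ v ∈ V, ∃ i j : ℤ, v = b ^ i * z ^ j := by
      intro v hv
      rw [hV] at hv
      obtain ⟨s, hs, t, ht, rfl⟩ := (H1.mem_sup_iff_of_le_normalizer hzn).1 hv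
      obtain ⟨i, rfl⟩ := Subgroup.mem_zpowers_iff.1 hs
      obtain ⟨j, rfl⟩ := Subgroup.mem_zpowers_iff.1 ht
      exact ⟨i, j, rfl⟩
    have hzz : ∀ (g : P) (j : ℤ), g * z ^ j = z ^ j * g := fun g j => ((show Commute g z from hzc g).zpow_right j).eq
    -- anything commuting with b commutes with V
    have hVcomm : ∀ g : P, g * b = b * g → ∀ v ∈ V, g * v = v * g := by
      intro g hg v hv
      obtain ⟨i, j, rfl⟩ := hVm v hv
      have h1 : g * b ^ i = b ^ i * g := ((show Commute g b from hg).zpow_right i).eq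
      rw [← mul_assoc, h1, mul_assoc, hzz g j, mul_assoc]
    have hVE : Cfsg.IsElementaryAbelian 3 V := by
      refine ⟨⟨⟨fun x y => Subtype.ext ?_⟩⟩, ?_⟩
      · show (x : P) * y = y * x
        apply hVcomm _ _ _ y.2
        exact (hVcomm b rfl x x.2).symm
      · intro v hv
        obtain ⟨i, j, rfl⟩ := hVm v hv
        have h1 : Commute (b ^ i) (z ^ j) := hzz _ j
        rw [h1.mul_pow, ← zpow_natCast, ← zpow_natCast, ← zpow_mul, ← zpow_mul, mul_comm i, mul_comm j, zpow_mul,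
          zpow_mul, zpow_natCast, zpow_natCast, hb3, hEe z hzE, one_zpow, one_zpow, one_mul]
    have hV9 : 3 ^ 2 ≤ Nat.card V := by
      obtain ⟨k, hk⟩ := H10.Jon.card_isPow hP V
      have h1 : Subgroup.zpowers z < V := by
        refine lt_of_le_of_ne (by rw [hV]; exact le_sup_right) ?_
        intro h
        apply hbz
        rw [h, hV]
        exact Subgroup.mem_sup_left (Subgroup.mem_zpowers b)
      have h2 : Nat.card (Subgroup.zpowers z) < Nat.card V := Set.Finite.card_lt_card (Set.toFinite _) h1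
      rw [Nat.card_zpowers, hoz, hk] at h2
      rw [hk]
      have h3 : 1 < k := by
        apply (Nat.pow_lt_pow_iff_right (a := 3) (by norm_num)).1
        rw [pow_one]; exact h2
      exact Nat.pow_le_pow_right (by norm_num) h3
    obtain ⟨W, hW⟩ : ∃ W : Subgroup P, W = E ⊓ Subgroup.centralizer ({b} : Set P) := ⟨_, rfl⟩
    have hWE : W ≤ E := by rw [hW]; exact inf_le_left
    have hWel : Cfsg.IsElementaryAbelian 3 W :=
      ⟨⟨⟨fun a b => Subtype.ext (hEc a (hWE a.2) b (hWE b.2))⟩⟩, fun u hu => hEe u (hWE hu)⟩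
    have hW9 : 3 ^ 2 ≤ Nat.card W := by
      have h1 := card_cent E hEc hEe b hb3
      rw [← hW, hE4] at h1
      obtain ⟨k, hk⟩ := H10.Jon.card_isPow hP W
      rw [hk] at h1 ⊢
      rw [← pow_mul] at h1
      have h2 := (Nat.pow_le_pow_iff_right (a := 3) (by norm_num)).1 h1
      exact Nat.pow_le_pow_right (by norm_num) (by omega)
    refine Relation.ReflTransGen.trans (Relation.ReflTransGen.single (b := V) ⟨hBE, hB9, hVE, hV9, ?_⟩)
      (Relation.ReflTransGen.trans (Relation.ReflTransGen.single (b := W) ⟨hVE, hV9, hWel, hW9, ?_⟩)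
      (Relation.ReflTransGen.single ⟨hWel, hW9, hEE, hE9, ?_⟩))
    · intro u hu v hv
      exact hVcomm u (hBc u hu b hbB) v hv
    · intro v hv w hw
      rw [hW] at hw
      exact (hVcomm w (Subgroup.mem_centralizer_singleton_iff.1 (Subgroup.mem_inf.1 hw).2) v hv).symm
    · intro w hw e he
      exact hEc w (hWE hw) e he
  intro X Y hX hX9 hY hY9
  refine (key X hX hX9).trans ?_
  have h1 := key Y hY hY9
  clear hE1 hrk
  have h2 : ∀ Z, Relation.ReflTransGen (fun A B : Subgroup P => Cfsg.IsElementaryAbelian 3 A ∧ 3 ^ 2 ≤ Nat.card ↥A ∧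
        Cfsg.IsElementaryAbelian 3 B ∧ 3 ^ 2 ≤ Nat.card ↥B ∧ ∀ a ∈ A, ∀ b ∈ B, a * b = b * a) Y Z →
      Relation.ReflTransGen (fun A B : Subgroup P => Cfsg.IsElementaryAbelian 3 A ∧ 3 ^ 2 ≤ Nat.card ↥A ∧
        Cfsg.IsElementaryAbelian 3 B ∧ 3 ^ 2 ≤ Nat.card ↥B ∧ ∀ a ∈ A, ∀ b ∈ B, a * b = b * a) Z Y := by
    intro Z hZ
    induction hZ with
    | refl => exact Relation.ReflTransGen.refl
    | tail _ hbc ih => exact Relation.ReflTransGen.trans (Relation.ReflTransGen.single (hsymm _ _ hbc)) ih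
  exact h2 E h1

end Cfsg.Agent.S1338
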