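import Cfsg.Statements.S1348
import Cfsg.Agent.H10.SLStd

set_option autoImplicit false
open Cfsg

namespace Cfsg.Agent.S1348

/-- Let F be a finite field of odd order, n ≥ 7 odd, and t ∈ SL(n, F) the diagonal matrix with entries −1, …, −1, 1. Then E(C(t)) is a standard subgroup of SL(n, F). -/
theorem result {F : Type*} [Field F] [Fintype F] [DecidableEq F] (hF : Odd (Fintype.card F)) (n : ℕ) (hn : 7 ≤ n) (hodd : Odd n) (t : Matrix.SpecialLinearGroup (Fin n) F) (ht : (t : Matrix (Fin n) (Fin n) F) = Matrix.diagonal (fun i : Fin n => if (i : ℕ) + 1 = n then (1 : F) else -1)) : Cfsg.IsStandardSubgroup ((Cfsg.layer ↥(Subgroup.centralizer ({t} : Set (Matrix.SpecialLinearGroup (Fin n) F)))).map (Subgroup.centralizer ({t} : Set (Matrix.SpecialLinearGroup (Fin n) F))).subtype) := by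
  classical
  obtain ⟨m, rfl⟩ : ∃ m, n = m + 1 := ⟨n - 1, by omega⟩
  have hmeven : Even m := by
    rcases Nat.even_or_odd m with h | h
    · exact h
    · exfalso
      rw [Nat.odd_iff] at hodd h
      omega
  have h2 : (2 : F) ≠ 0 := by
    intro h
    have h1 : ringChar F = 2 := by
      haveI : CharP F 2 := CharTwo.of_one_ne_zero_of_two_eq_zero one_ne_zero h
      exact ringChar.eq F 2
    have := FiniteField.even_card_iff_char_two.1 h1
    rw [Nat.odd_iff] at hF
    omega
  have h1m1 : (1 : F) ≠ -1 := by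
    intro h
    apply h2
    have : (1 : F) + 1 = 0 := by nth_rw 2 [h]; ring
    rw [← this]; ring
  have ht' : (t : Matrix (Fin (m + 1)) (Fin (m + 1)) F) = Matrix.diagonal (fun i : Fin (m + 1) => if i = Fin.last m then (1 : F) else -1) := by
    rw [ht]
    congr 1
    funext i
    by_cases hi : i = Fin.last m
    · rw [if_pos hi, if_pos (by rw [hi]; rfl)]
    · rw [if_neg hi, if_neg (show ¬ ((i : ℕ) + 1 = m + 1) from fun e => hi (Fin.ext (Nat.succ.inj e)))]
  have hC : ∀ g : Matrix.SpecialLinearGroup (Fin (m + 1)) F, g ∈ Subgroup.centralizer ({t} : Set (Matrix.SpecialLinearGroup (Fin (m + 1)) F)) ↔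
      (∀ i, i ≠ Fin.last m → (g : Matrix (Fin (m + 1)) (Fin (m + 1)) F) i (Fin.last m) = 0) ∧
      (∀ i, i ≠ Fin.last m → (g : Matrix (Fin (m + 1)) (Fin (m + 1)) F) (Fin.last m) i = 0) := by
    intro g
    rw [Subgroup.mem_centralizer_singleton_iff, ← H10.comm_diag h2 (g : Matrix (Fin (m + 1)) (Fin (m + 1)) F), ← ht']
    constructor
    · intro h
      exact congrArg (fun x : Matrix.SpecialLinearGroup (Fin (m + 1)) F => (x : Matrix (Fin (m + 1)) (Fin (m + 1)) F)) h
    · intro h
      exact Subtype.ext h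
  set K := (H10.slBlk (F := F) m).range with hK
  have hKC : K ≤ Subgroup.centralizer ({t} : Set (Matrix.SpecialLinearGroup (Fin (m + 1)) F)) := by
    intro k hk
    rw [hC]
    have := H10.mem_slBlk_range.1 hk
    exact ⟨this.1, this.2.1⟩
  have hconj : ∀ g ∈ Subgroup.centralizer ({t} : Set (Matrix.SpecialLinearGroup (Fin (m + 1)) F)), ∀ k ∈ K, g * k * g⁻¹ ∈ K := by
    intro g hg k hk
    apply H10.slBlk_conj _ hk
    intro g' hg'
    rw [← hC]
    rcases hg' with rfl | rfl | rfl | rfl
    · exact hg
    · exact Subgroup.inv_mem _ hg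
    · exact hKC hk
    · exact Subgroup.mul_mem _ (Subgroup.mul_mem _ hg (hKC hk)) (Subgroup.inv_mem _ hg)
  have hnorm : Subgroup.centralizer ({t} : Set (Matrix.SpecialLinearGroup (Fin (m + 1)) F)) ≤ Subgroup.normalizer (K : Set (Matrix.SpecialLinearGroup (Fin (m + 1)) F)) := by
    intro g hg
    rw [Subgroup.mem_normalizer_iff]
    intro k
    constructor
    · exact hconj g hg k
    · intro h
      have := hconj _ (Subgroup.inv_mem _ hg) _ h
      rw [inv_inv] at this
      have e : g⁻¹ * (g * k * g⁻¹) * g = k := by group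
      rwa [e] at this
  have hqs : Cfsg.IsQuasisimple K := H10.qs_of_mulEquiv (MonoidHom.ofInjective (H10.slBlk_inj m)) (H10.sl_qs_three (by omega))
  have hab : ∀ a ∈ Subgroup.centralizer (K : Set (Matrix.SpecialLinearGroup (Fin (m + 1)) F)), ∀ b ∈ Subgroup.centralizer (K : Set (Matrix.SpecialLinearGroup (Fin (m + 1)) F)), a * b = b * a := by
    intro a ha b hb
    have ha' := (H10.centralizer_slBlk (by omega) ha).1
    have hb' := (H10.centralizer_slBlk (by omega) hb).1
    have e1 : (a : Matrix (Fin (m + 1)) (Fin (m + 1)) F) = Matrix.diagonal (fun i => (a : Matrix (Fin (m + 1)) (Fin (m + 1)) F) i i) := by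
      ext i j
      by_cases hij : i = j
      · rw [hij, Matrix.diagonal_apply_eq]
      · rw [Matrix.diagonal_apply_ne _ hij, ha' i j hij]
    have e2 : (b : Matrix (Fin (m + 1)) (Fin (m + 1)) F) = Matrix.diagonal (fun i => (b : Matrix (Fin (m + 1)) (Fin (m + 1)) F) i i) := by
      ext i j
      by_cases hij : i = j
      · rw [hij, Matrix.diagonal_apply_eq]
      · rw [Matrix.diagonal_apply_ne _ hij, hb' i j hij]
    apply Subtype.ext
    show (a : Matrix (Fin (m + 1)) (Fin (m + 1)) F) * (b : Matrix (Fin (m + 1)) (Fin (m + 1)) F) = (b : Matrix (Fin (m + 1)) (Fin (m + 1)) F) * (a : Matrix (Fin (m + 1)) (Fin (m + 1)) F)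
    rw [e1, e2, Matrix.diagonal_mul_diagonal, Matrix.diagonal_mul_diagonal]
    congr 1
    funext i
    exact mul_comm _ _
  have htZ : t ∈ Subgroup.centralizer (K : Set (Matrix.SpecialLinearGroup (Fin (m + 1)) F)) := by
    rw [Subgroup.mem_centralizer_iff]
    intro k hk
    exact Subgroup.mem_centralizer_singleton_iff.1 (hKC hk)
  have ht1 : t ≠ 1 := by
    intro e
    have h3 : (t : Matrix (Fin (m + 1)) (Fin (m + 1)) F) = 1 := congrArg (fun x : Matrix.SpecialLinearGroup (Fin (m + 1)) F => (x : Matrix (Fin (m + 1)) (Fin (m + 1)) F)) e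
    have h4 := congrFun (congrFun (ht'.symm.trans h3) 0) 0
    rw [Matrix.diagonal_apply_eq, Matrix.one_apply_eq, if_neg] at h4
    · exact h1m1 h4.symm
    · intro e
      have := congrArg Fin.val e
      simp at this
      omega
  have ht2 : orderOf t = 2 := by
    haveI : Fact (Nat.Prime 2) := ⟨Nat.prime_two⟩
    apply orderOf_eq_prime _ ht1
    rw [pow_two]
    apply Subtype.ext
    show (t : Matrix (Fin (m + 1)) (Fin (m + 1)) F) * (t : Matrix (Fin (m + 1)) (Fin (m + 1)) F) = 1
    rw [ht', Matrix.diagonal_mul_diagonal, ← Matrix.diagonal_one]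
    congr 1
    funext i
    by_cases hi : i = Fin.last m
    · rw [if_pos hi, mul_one]
    · rw [if_neg hi]; ring
  have huniq : ∀ u ∈ Subgroup.centralizer (K : Set (Matrix.SpecialLinearGroup (Fin (m + 1)) F)), orderOf u = 2 → u = t := by
    intro u hu hu2
    obtain ⟨hu1, c, hc⟩ := H10.centralizer_slBlk (by omega) hu
    have e1 : (u : Matrix (Fin (m + 1)) (Fin (m + 1)) F) = Matrix.diagonal (fun i => (u : Matrix (Fin (m + 1)) (Fin (m + 1)) F) i i) := by
      ext i j
      by_cases hij : i = j
      · rw [hij, Matrix.diagonal_apply_eq]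
      · rw [Matrix.diagonal_apply_ne _ hij, hu1 i j hij]
    have husq : (u : Matrix (Fin (m + 1)) (Fin (m + 1)) F) * (u : Matrix (Fin (m + 1)) (Fin (m + 1)) F) = 1 := by
      have h3 : u * u = 1 := by rw [← pow_two, ← hu2, pow_orderOf_eq_one]
      exact congrArg (fun x : Matrix.SpecialLinearGroup (Fin (m + 1)) F => (x : Matrix (Fin (m + 1)) (Fin (m + 1)) F)) h3
    have hsq : ∀ i, (u : Matrix (Fin (m + 1)) (Fin (m + 1)) F) i i * (u : Matrix (Fin (m + 1)) (Fin (m + 1)) F) i i = 1 := by
      intro i
      rw [e1, Matrix.diagonal_mul_diagonal] at husq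
      have := congrFun (congrFun husq i) i
      rw [Matrix.diagonal_apply_eq, Matrix.one_apply_eq] at this
      exact this
    have h00 : (0 : Fin (m + 1)) ≠ Fin.last m := by
      intro e
      have := congrArg Fin.val e
      simp at this
      omega
    have hcc : c * c = 1 := by
      have := hsq 0
      rw [hc 0 h00] at this
      exact this
    have hdet : (u : Matrix (Fin (m + 1)) (Fin (m + 1)) F).det = 1 := u.2
    have hcm : c ^ m = 1 := by
      obtain ⟨r, hr⟩ := hmeven
      rw [hr, pow_add, ← mul_pow, hcc, one_pow]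
    rw [e1, Matrix.det_diagonal, Fin.prod_univ_castSucc] at hdet
    have h5 : ∏ i : Fin m, (u : Matrix (Fin (m + 1)) (Fin (m + 1)) F) i.castSucc i.castSucc = c ^ m := by
      rw [Finset.prod_congr rfl (fun i _ => hc i.castSucc (Fin.castSucc_lt_last i).ne), Finset.prod_const, Finset.card_univ, Fintype.card_fin]
    rw [h5, hcm, one_mul] at hdet
    have hcv : c = 1 ∨ c = -1 := mul_self_eq_one_iff.1 hcc
    rcases hcv with rfl | rfl
    · exfalso
      have : u = 1 := by
        apply Subtype.ext
        show (u : Matrix (Fin (m + 1)) (Fin (m + 1)) F) = 1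
        rw [e1, ← Matrix.diagonal_one]
        congr 1
        funext i
        by_cases hi : i = Fin.last m
        · rw [hi]; exact hdet
        · exact hc i hi
      rw [this, orderOf_one] at hu2
      omega
    · apply Subtype.ext
      show (u : Matrix (Fin (m + 1)) (Fin (m + 1)) F) = (t : Matrix (Fin (m + 1)) (Fin (m + 1)) F)
      rw [e1, ht']
      congr 1
      funext i
      by_cases hi : i = Fin.last m
      · rw [hi, if_pos rfl]; exact hdet
      · rw [if_neg hi]; exact hc i hi
  have hlayer : (Cfsg.layer ↥(Subgroup.centralizer ({t} : Set (Matrix.SpecialLinearGroup (Fin (m + 1)) F)))).map (Subgroup.centralizer ({t} : Set (Matrix.SpecialLinearGroup (Fin (m + 1)) F))).subtype = K := by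
    have h6 : Cfsg.layer ↥(Subgroup.centralizer ({t} : Set (Matrix.SpecialLinearGroup (Fin (m + 1)) F))) = K.subgroupOf (Subgroup.centralizer ({t} : Set (Matrix.SpecialLinearGroup (Fin (m + 1)) F))) := by
      apply H10.layer_eq_of_normal_qs
      · exact (Subgroup.normal_subgroupOf_iff_le_normalizer hKC).2 hnorm
      · exact H10.qs_of_mulEquiv (Subgroup.subgroupOfEquivOfLe hKC).symm hqs
      · intro a ha b hb
        apply Subtype.ext
        refine hab _ ?_ _ ?_
        · rw [Subgroup.mem_centralizer_iff]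
          intro k hk
          exact congrArg Subtype.val (Subgroup.mem_centralizer_iff.1 ha ⟨k, hKC hk⟩ hk)
        · rw [Subgroup.mem_centralizer_iff]
          intro k hk
          exact congrArg Subtype.val (Subgroup.mem_centralizer_iff.1 hb ⟨k, hKC hk⟩ hk)
    rw [h6, Subgroup.map_subgroupOf_eq_of_le hKC]
  rw [hlayer]
  apply H10.standard_of_unique_invol hqs ht2 htZ huniq hab
  intro g hg
  apply hnorm
  rw [Subgroup.mem_centralizer_singleton_iff]
  exact mul_inv_eq_iff_eq_mul.1 hg

end Cfsg.Agent.S1348
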