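import Cfsg.Statements.S1353
import Cfsg.Agent.H21.OT14r

set_option autoImplicit false
set_option linter.unusedVariables false
open Cfsg

namespace Cfsg.Agent.S1353

/-- Let G be a minimal simple group of odd order, M a maximal subgroup with standard factorisation M = K U M_σ. Then C_U(k) = 1 for every non-identity element k of K. -/
theorem result {G : Type*} [Group G] [Finite G] (hG : Cfsg.IsMinSimpleOddOrder G)
    (M : Subgroup G) (hM : IsCoatom M) (K U : Subgroup G) (hKU : Cfsg.IsSigmaDecomposition M K U) :
    ∀ k ∈ K, k ≠ 1 → U ⊓ Subgroup.centralizer ({k} : Set G) = ⊥ := by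
  exact fun k hk hk1 => H21.dec_free hG hM hKU hk hk1

end Cfsg.Agent.S1353
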