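import Cfsg.Statements.S1354
import Cfsg.Agent.H21.OT14r

set_option autoImplicit false
set_option linter.unusedVariables false
open Cfsg

namespace Cfsg.Agent.S1354

/-- Let G be a minimal simple group of odd order, M a maximal subgroup and K a cyclic Hall κ(M)-subgroup of M, and put K* = M_σ ∩ C_G(K). Then K* ≠ 1, and if K ≠ 1 then for every non-identity k ∈ K the centralizer C_M(k) is the subgroup generated by K and K* (an internal direct product, as K ∩ M_σ = 1 and K* centralizes K). -/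
theorem result {G : Type*} [Group G] [Finite G] (hG : Cfsg.IsMinSimpleOddOrder G)
    (M : Subgroup G) (hM : IsCoatom M) (K : Subgroup G)
    (hKc : IsCyclic K) (hK : Cfsg.IsPiHallOf (Cfsg.kappa M) K M) :
    Cfsg.sigmaCore M ⊓ Subgroup.centralizer (K : Set G) ≠ ⊥ ∧
      (K ≠ ⊥ → ∀ k ∈ K, k ≠ 1 →
        M ⊓ Subgroup.centralizer ({k} : Set G) = K ⊔ (Cfsg.sigmaCore M ⊓ Subgroup.centralizer (K : Set G))) := by
  obtain ⟨U, hU⟩ := H21.exists_dec hG hM hK
  refine ⟨?_, fun hK1 k hk hk1 => H21.dec_cent hG hM hU hk hk1⟩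
  by_cases hK1 : K = ⊥
  · rw [hK1]
    intro h
    apply OOT.sigmaCore_ne_bot hG hM
    rw [eq_bot_iff, ← h]
    refine le_inf le_rfl ?_
    intro g hg
    rw [H21.mem_cent_iff]
    intro x hx
    rw [Subgroup.mem_bot] at hx
    rw [hx]; simp
  · exact (H21.dec_PM hM hU hK1).kst_ne hG

end Cfsg.Agent.S1354
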