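import Cfsg.Statements.S1362
import Cfsg.Agent.H21.OT14r

set_option autoImplicit false
set_option linter.unusedVariables false
open Cfsg

namespace Cfsg.Agent.S1362

/-- Let G be a minimal simple group of odd order and M a maximal subgroup with standard factorisation M = K U M_σ, and let A(M) be the set of elements of U M_σ centralizing some non-identity element of M_σ. Then A(M) with M_σ removed is a TI-subset of G. -/
theorem result {G : Type*} [Group G] [Finite G] (hG : Cfsg.IsMinSimpleOddOrder G)
    (M : Subgroup G) (hM : IsCoatom M) (K U : Subgroup G) (hKU : Cfsg.IsSigmaDecomposition M K U) :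
    Cfsg.IsTISubset (Cfsg.sigmaA M U \ (Cfsg.sigmaCore M : Set G)) := by
  exact H21.sigmaA_TI hG hM hKU

end Cfsg.Agent.S1362
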