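import Cfsg.Statements.S1363
import Cfsg.Agent.H21.OT14t

set_option autoImplicit false
set_option linter.unusedVariables false
open Cfsg

namespace Cfsg.Agent.S1363

/-- Let G be a minimal simple group of odd order and M a maximal subgroup with standard factorisation M = K U M_σ and K ≠ 1. Then U is abelian and the normalizer of U in G is not contained in M. -/
theorem result {G : Type*} [Group G] [Finite G] (hG : Cfsg.IsMinSimpleOddOrder G)
    (M : Subgroup G) (hM : IsCoatom M) (K U : Subgroup G) (hKU : Cfsg.IsSigmaDecomposition M K U) (hK1 : K ≠ ⊥) :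
    IsMulCommutative U ∧ ¬ Subgroup.normalizer (U : Set G) ≤ M := by
  refine ⟨H21.dec_U_comm hG hM hKU hK1, ?_⟩
  intro hc
  by_cases hU : U = ⊥
  · rw [hU] at hc
    have h1 : Subgroup.normalizer ((⊥ : Subgroup G) : Set G) = ⊤ := Subgroup.normalizer_eq_top _
    rw [h1, top_le_iff] at hc
    exact hM.1 hc
  obtain ⟨r, hr, hrU⟩ := Nat.exists_prime_and_dvd (fun h => hU (Subgroup.card_eq_one.1 h))
  have hrF : Fact r.Prime := ⟨hr⟩
  obtain ⟨M', hD, -⟩ := (H21.dec_PM hM hKU hK1).exists_dual hG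
  obtain ⟨R, hR⟩ := L.exists_sylIn (p := r) U
  have hR1 : R ≠ ⊥ := by
    intro h
    have := hR.3
    rw [h, Subgroup.relIndex_bot_left] at this
    exact this hrU
  obtain ⟨H, hH, hNH⟩ := H21.exists_coatom_of_nz hG hR1
    (fun h => hM.1 (top_le_iff.1 (h ▸ hR.le.trans (H21.dec_U_le hKU))))
  exact (H21.thm_14_12 hG hM hKU hK1 hU hD hr hrU hR hH hNH).2.2.2.1 (inf_le_right.trans hc)

end Cfsg.Agent.S1363
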