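import Cfsg.Statements.S1386
import Cfsg.Agent.H21.OBasic
import Cfsg.Agent.H2.Cyc

set_option autoImplicit false
open Cfsg

namespace Cfsg.Agent.S1386

open Subgroup
open Cfsg.Agent.L (cj nz SylIn)
open Cfsg.Agent.H21

/-- Let G be a finite group, W₁, W₂ subgroups forming a self-normalizing cyclic pair, S a subgroup with W₂ ≤ S and W₁ a complement to S' in S, and (W₁, U, W₂') type-P data for S. Then W₂' = W₂ (that is, C_{S'}(W₁) = W₂). -/
theorem result {G : Type*} [Group G] [Finite G] (W₁ W₂ S U W₂' : Subgroup G) (hW : Cfsg.IsSelfNormalizingCyclic W₁ W₂)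
    (hSW : Cfsg.IsComplIn ⁅S, S⁆ W₁ S) (hW₂S : W₂ ≤ S) (hP : Cfsg.IsTypePWith S W₁ U W₂') :
    W₂' = W₂ := by
  obtain ⟨hW1, hW2, hWi, hWc, hWcyc, hWn⟩ := hW
  obtain ⟨hV1, hV2, hVi, hVc, hVcyc, hVn⟩ := hP.selfNormalizing
  obtain ⟨x, hx, hx1⟩ := (Subgroup.bot_or_exists_ne_one W₁).resolve_left hW1
  obtain ⟨y, hy, hy1⟩ := (Subgroup.bot_or_exists_ne_one W₂).resolve_left hW2
  have hcx := hP.W₂_centralizer x hx hx1
  have hc1 := comm_of_cyclic hP.W₁_cyclic
  have le1 : W₂ ≤ W₁ ⊔ W₂' := by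
    intro w hw
    obtain ⟨a, ha, b, hb, e⟩ := hSW.2.2.2 w (hW₂S hw)
    have h1 : a ∈ W₂' := by
      rw [← hcx]
      refine ⟨ha, ?_⟩
      rw [eq_mul_inv_of_mul_eq e.symm]
      refine Subgroup.mul_mem _ ?_ (Subgroup.inv_mem _ ?_)
      · rw [mem_cent_singleton]; exact (hWc x hx w hw).symm
      · rw [mem_cent_singleton]; exact hc1 b hb x hx
    rw [e]
    exact mul_mem (mem_sup_right h1) (mem_sup_left hb)
  have hWV : W₁ ⊔ W₂ ≤ W₁ ⊔ W₂' := sup_le le_sup_left le1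
  have hxy : x * y ∉ W₁ ∧ x * y ∉ W₂ := by
    constructor
    · intro h
      have : y ∈ W₁ ⊓ W₂ := ⟨(W₁.mul_mem_cancel_left hx).1 h, hy⟩
      rw [hWi] at this; exact hy1 this
    · intro h
      have : x ∈ W₁ ⊓ W₂ := ⟨hx, (W₂.mul_mem_cancel_right hy).1 h⟩
      rw [hWi] at this; exact hx1 this
  have hVcomm := comm_of_cyclic hVcyc
  have hn := hWn {x * y} (by
    rw [Set.singleton_subset_iff]
    refine ⟨mul_mem (mem_sup_left hx) (mem_sup_right hy), ?_⟩
    rintro (h | h)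
    · exact hxy.1 h
    · exact hxy.2 h) (Set.singleton_nonempty _)
  have hVW : W₁ ⊔ W₂' ≤ W₁ ⊔ W₂ := by
    rw [← hn]
    refine le_trans ?_ (Subgroup.centralizer_le_normalizer _)
    intro v hv
    rw [mem_cent_singleton]
    exact hVcomm v hv _ (hWV (mul_mem (mem_sup_left hx) (mem_sup_right hy)))
  have hE : W₁ ⊔ W₂ = W₁ ⊔ W₂' := le_antisymm hWV hVW
  refine (eq_of_card_of_cyclic hVcyc (hE ▸ le_sup_right) le_sup_right ?_).symm
  have e1 := H1.card_sup_mul_card_inf_of_le_normalizer (H := W₁) (K := W₂) (by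
    refine le_trans ?_ (Subgroup.centralizer_le_normalizer _)
    intro b hb; rw [mem_cent_iff]; intro a ha; exact (hWc a ha b hb).symm)
  have e2 := H1.card_sup_mul_card_inf_of_le_normalizer (H := W₁) (K := W₂') (by
    refine le_trans ?_ (Subgroup.centralizer_le_normalizer _)
    intro b hb; rw [mem_cent_iff]; intro a ha; exact (hVc a ha b hb).symm)
  rw [hWi, Subgroup.card_bot, mul_one, hE] at e1
  rw [hVi, Subgroup.card_bot, mul_one] at e2
  exact Nat.eq_of_mul_eq_mul_left Nat.card_pos (e1.symm.trans e2)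

end Cfsg.Agent.S1386
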