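import Cfsg.Statements.S1390
import Cfsg.Agent.H21.OT16e

set_option autoImplicit false
set_option linter.unusedVariables false
open Cfsg

namespace Cfsg.Agent.S1390

/-- Let G be a minimal simple group of odd order, M a maximal subgroup and H = M_F; suppose M is of Type I and U is a complement to H in M, or M is of Type II and U is a complement to H in M'. Then every Sylow subgroup of U is abelian with no elementary abelian subgroup of order p ^ 3; for every nonempty set X of non-identity elements of U centralizing a non-identity element of H, C_G(X) ≤ M and M is the unique maximal subgroup containing C_G(X); and A(M) with A₁(M) removed is a TI-subset of G. -/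
theorem result {G : Type*} [Group G] [Finite G] (hG : Cfsg.IsMinSimpleOddOrder G)
    (M : Subgroup G) (hM : IsCoatom M) (U : Subgroup G)
    (hU : (Cfsg.IsOfTypeI M ∧ Cfsg.IsComplIn (Cfsg.fittingHallOf M) U M) ∨ (Cfsg.IsOfTypeII M ∧ Cfsg.IsComplIn (Cfsg.fittingHallOf M) U ⁅M, M⁆)) :
    (∀ (p : ℕ), p.Prime → ∀ P : Sylow p U, IsMulCommutative (P : Subgroup U) ∧ Cfsg.PRankLE p 2 (P : Subgroup U)) ∧
      (∀ X : Set G, X ⊆ (U : Set G) \ {1} → X.Nonempty → Cfsg.fittingHallOf M ⊓ Subgroup.centralizer X ≠ ⊥ →
        Subgroup.centralizer X ≤ M ∧ ∀ L : Subgroup G, IsCoatom L → Subgroup.centralizer X ≤ L → L = M) ∧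
      Cfsg.IsTISubset (Cfsg.typeA M \ Cfsg.typeA1 M) := by
  exact Cfsg.Agent.H21.row1390 hG hM hU

end Cfsg.Agent.S1390
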