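import Cfsg.Statements.S1397
import Cfsg.Agent.H10.OE7

set_option autoImplicit false
open Cfsg

namespace Cfsg.Agent.S1397

/-- Let G be a minimal simple group of odd order, M a maximal subgroup, p a prime and A₀ an elementary abelian p-subgroup of F(M) of order at least p ^ 3 that is maximal among elementary abelian p-subgroups of F(M). (a) If F(M) is not a p-group, then F(M) ∩ C_G(A₀) lies in exactly one maximal subgroup of G. (b) If F(M) is a p-group and P is a Sylow p-subgroup of M, then p does not divide the index of P in G, and every normal self-centralizing subgroup A of P containing an elementary abelian subgroup of order p ^ 3 is contained in F(M) and lies in exactly one maximal subgroup of G. -/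
theorem result {G : Type*} [Group G] [Finite G] (hG : Cfsg.IsMinSimpleOddOrder G)
    (M : Subgroup G) (hM : IsCoatom M) (p : ℕ) [Fact p.Prime] (A₀ : Subgroup G)
    (hA₀ : A₀ ≤ Cfsg.fittingOf M) (hA₀e : Cfsg.IsElementaryAbelian p A₀) (hA₀3 : p ^ 3 ≤ Nat.card A₀)
    (hA₀max : ∀ B : Subgroup G, B ≤ Cfsg.fittingOf M → Cfsg.IsElementaryAbelian p B → A₀ ≤ B → B = A₀) :
    (¬ IsPGroup p ↥(Cfsg.fittingOf M) → Cfsg.InUniqueMaximal (Cfsg.fittingOf M ⊓ Subgroup.centralizer (A₀ : Set G))) ∧
      (IsPGroup p ↥(Cfsg.fittingOf M) → ∀ P : Sylow p M,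
        ¬ p ∣ ((P : Subgroup M).map M.subtype).index ∧
        ∀ A : Subgroup G, Cfsg.IsSCN ((P : Subgroup M).map M.subtype) A → ¬ Cfsg.PRankLE p 2 ↥A →
          A ≤ Cfsg.fittingOf M ∧ Cfsg.InUniqueMaximal A) := by
  have hA₀1 : A₀ ≠ ⊥ := by
    rintro rfl
    rw [Subgroup.card_bot] at hA₀3
    exact absurd hA₀3 (not_le_of_gt (Nat.one_lt_pow (by norm_num) (Fact.out : p.Prime).one_lt))
  refine ⟨fun h => H10.uniq_of_not_pgroup hG hM hA₀ hA₀e hA₀3 h, fun hF P => ?_⟩
  obtain ⟨h1, h2⟩ := H10.uniq_of_pgroup hG hM hF (ne_bot_of_le_ne_bot hA₀1 hA₀) (L.sylIn_of_sylow P)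
  refine ⟨?_, h2⟩
  have := h1.not_dvd
  rwa [Subgroup.relIndex_top_right] at this

end Cfsg.Agent.S1397
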