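import Cfsg.Statements.S1407
import Cfsg.Agent.OOT.TenC

set_option autoImplicit false
open Cfsg

namespace Cfsg.Agent.S1407

/-- Let G be a minimal simple group of odd order, M a maximal subgroup with M_α ≠ 1, p a prime dividing the order of M but not in σ(M), and P a Sylow p-subgroup of M. Then there is an element x of order p in the centre of P such that M_α ∩ C_G(x) has all Sylow subgroups cyclic and M is not the unique maximal subgroup of G containing C_G(x). -/
theorem result {G : Type*} [Group G] [Finite G] (hG : Cfsg.IsMinSimpleOddOrder G)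
    (M : Subgroup G) (hM : IsCoatom M) (hMα : Cfsg.alphaCore M ≠ ⊥) (p : ℕ) [Fact p.Prime] (hpM : p ∣ Nat.card M) (hp : p ∉ Cfsg.sigma M) (P : Sylow p M) :
    ∃ x : G, x ∈ ((Subgroup.center ↥(P : Subgroup M)).map (P : Subgroup M).subtype).map M.subtype ∧ orderOf x = p ∧
        IsZGroup ↥(Cfsg.alphaCore M ⊓ Subgroup.centralizer ({x} : Set G)) ∧
        ¬ (Subgroup.centralizer ({x} : Set G) ≤ M ∧ ∀ L : Subgroup G, IsCoatom L → Subgroup.centralizer ({x} : Set G) ≤ L → L = M) := by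
  have hPS := L.sylIn_of_sylow P
  obtain ⟨x, hx, hx1, hxn⟩ := OOT.exists_omZ_not_uniq hG hM hpM hp hPS
  have hxo : orderOf x = p := orderOf_eq_prime hx.2 hx1
  have hpα : p ∉ Cfsg.alpha M := fun h => hp (OOT.alpha_subset_sigma hG hM h)
  refine ⟨x, ?_, hxo, ?_, hxn⟩
  · obtain ⟨⟨hx2, hx3⟩, -⟩ := hx
    obtain ⟨y, hy, rfl⟩ := hx2
    refine ⟨y, ⟨⟨y, hy⟩, Subgroup.mem_center_iff.2 fun z => ?_, rfl⟩, rfl⟩
    apply Subtype.ext
    apply Subtype.ext
    exact Subgroup.mem_centralizer_iff.1 hx3 _ ⟨z, z.2, rfl⟩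
  · by_contra hZ
    exact hxn (OOT.cent_alpha_only hG hM (hPS.le hx.1.1) hx1 (by
      intro r hr hd
      rw [hxo] at hd
      rwa [(Nat.prime_dvd_prime_iff_eq hr Fact.out).1 hd]) hZ)

end Cfsg.Agent.S1407
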