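import Cfsg.Statements.S1427
import Cfsg.Agent.H14.OThirt

set_option autoImplicit false
open Cfsg

namespace Cfsg.Agent.S1427

open Subgroup H14.O

/-- Let G be a minimal simple group of odd order, M a maximal subgroup, E a complement to M_σ in M, and S a nontrivial cyclic Sylow subgroup of E (for some prime). Then M_σ ∩ C_G(x) = M_σ ∩ C_G(S) for every non-identity x ∈ S. -/
theorem result {G : Type*} [Group G] [Finite G] (hG : Cfsg.IsMinSimpleOddOrder G)
    (M : Subgroup G) (hM : IsCoatom M) (E : Subgroup G) (hE : Cfsg.IsComplIn E (Cfsg.sigmaCore M) M) (p : ℕ) [Fact p.Prime] (S : Sylow p E) (hS1 : (S : Subgroup E) ≠ ⊥) (hSc : IsCyclic (S : Subgroup E)) :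
    ∀ x ∈ (S : Subgroup E).map E.subtype, x ≠ 1 →
        Cfsg.sigmaCore M ⊓ Subgroup.centralizer ({x} : Set G) = Cfsg.sigmaCore M ⊓ Subgroup.centralizer (((S : Subgroup E).map E.subtype : Subgroup G) : Set G) := by
  have hE' := (compl_sig_iff hG hM).1 hE
  have hS : L.SylIn p ((S : Subgroup E).map E.subtype) E := L.sylIn_of_sylow S
  have hSM : (S : Subgroup E).map E.subtype ≤ M := hS.le.trans hE'.1
  have hS1' : (S : Subgroup E).map E.subtype ≠ ⊥ := fun h =>
    hS1 ((Subgroup.map_eq_bot_iff_of_injective _ E.subtype_injective).1 h)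
  have hpE : p ∣ Nat.card E := (dvd_card_of_ne_bot hS.isPGroup hS1').trans
    (Subgroup.card_dvd_of_le hS.le)
  have hpσ : p ∈ sc M := (OOT.IsPiHallOf.isPi hE') p Fact.out hpE
  have hSM' : L.SylIn p ((S : Subgroup E).map E.subtype) M := by
    rw [OOT.sylIn_iff_hallOf] at hS ⊢
    exact OOT.IsPiHallOf.trans (Set.singleton_subset_iff.2 hpσ) hS hE'
  have hc : IsCyclic ((S : Subgroup E).map E.subtype : Subgroup G) := by
    haveI := hSc
    exact isCyclic_of_surjective (E.subtype.subgroupMap (S : Subgroup E))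
      (E.subtype.subgroupMap_surjective (S : Subgroup E))
  intro x hx hx1
  apply le_antisymm
  · refine le_inf inf_le_left ?_
    have := bg133a hG hM (P := (S : Subgroup E).map E.subtype) (P₀ := zpowers x) hpσ.2
      (pRankLE_of_cyclic_syl hSM' hc) hSM hS.isPGroup (Subgroup.zpowers_le.2 hx)
      (fun h => hx1 (Subgroup.zpowers_eq_bot.1 h))
    rwa [OOT.centralizer_zpowers] at this
  · exact inf_le_inf_left _ (Subgroup.centralizer_le (Set.singleton_subset_iff.2 hx))

end Cfsg.Agent.S1427
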