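import Cfsg.Statements.S1434
import Cfsg.Agent.H21.OT14r

set_option autoImplicit false
set_option linter.unusedVariables false
open Cfsg

namespace Cfsg.Agent.S1434

/-- Let G be a minimal simple group of odd order, M a maximal subgroup with standard factorisation M = K U M_σ, K ≠ 1, K* = M_σ ∩ C_G(K), and M* a maximal subgroup with K = M*_σ ∩ C_G(K*) and K* a Hall κ(M*)-subgroup of M*. Then κ(M) = τ₁(M); K* is a Hall σ(M)-subgroup of M*; for non-identity x ∈ K and y ∈ K*, C_M(x), C_{M*}(y) and C_G(xy) all equal K K*; the set Ẑ of elements of K K* outside K ∪ K* meets no gMg⁻¹ with g ∉ M; and with k = #K, k* = #K*, the union of the conjugates of Ẑ has k·k*·(number of elements) = (k k* − k − k* + 1)·#G and more than #G / 2 elements. -/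
theorem result {G : Type*} [Group G] [Finite G] (hG : Cfsg.IsMinSimpleOddOrder G)
    (M : Subgroup G) (hM : IsCoatom M) (K U : Subgroup G) (hKU : Cfsg.IsSigmaDecomposition M K U) (hK1 : K ≠ ⊥) (Mstar : Subgroup G) (hMstar : IsCoatom Mstar)
    (hKst : K = Cfsg.sigmaCore Mstar ⊓ Subgroup.centralizer ((Cfsg.sigmaCore M ⊓ Subgroup.centralizer (K : Set G)) : Set G))
    (hKstH : Cfsg.IsPiHallOf (Cfsg.kappa Mstar) (Cfsg.sigmaCore M ⊓ Subgroup.centralizer (K : Set G)) Mstar) :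
    Cfsg.kappa M = Cfsg.tau1 M ∧ Cfsg.IsPiHallOf (Cfsg.sigma M) (Cfsg.sigmaCore M ⊓ Subgroup.centralizer (K : Set G)) Mstar ∧
      (∀ x ∈ K, x ≠ 1 → ∀ y ∈ (Cfsg.sigmaCore M ⊓ Subgroup.centralizer (K : Set G)), y ≠ 1 →
        M ⊓ Subgroup.centralizer ({x} : Set G) = K ⊔ (Cfsg.sigmaCore M ⊓ Subgroup.centralizer (K : Set G)) ∧ Mstar ⊓ Subgroup.centralizer ({y} : Set G) = K ⊔ (Cfsg.sigmaCore M ⊓ Subgroup.centralizer (K : Set G)) ∧
        Subgroup.centralizer ({x * y} : Set G) = K ⊔ (Cfsg.sigmaCore M ⊓ Subgroup.centralizer (K : Set G))) ∧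
      (∀ g : G, g ∉ M → ∀ z ∈ ((↑(K ⊔ (Cfsg.sigmaCore M ⊓ Subgroup.centralizer (K : Set G))) : Set G) \ ((K : Set G) ∪ ↑(Cfsg.sigmaCore M ⊓ Subgroup.centralizer (K : Set G)))), z ∉ M.map (MulAut.conj g).toMonoidHom) ∧
      Nat.card K * Nat.card ↥(Cfsg.sigmaCore M ⊓ Subgroup.centralizer (K : Set G)) * Set.ncard {a : G | ∃ g : G, ∃ z ∈ ((↑(K ⊔ (Cfsg.sigmaCore M ⊓ Subgroup.centralizer (K : Set G))) : Set G) \ ((K : Set G) ∪ ↑(Cfsg.sigmaCore M ⊓ Subgroup.centralizer (K : Set G)))), a = g * z * g⁻¹} =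
        (Nat.card K * Nat.card ↥(Cfsg.sigmaCore M ⊓ Subgroup.centralizer (K : Set G)) - Nat.card K - Nat.card ↥(Cfsg.sigmaCore M ⊓ Subgroup.centralizer (K : Set G)) + 1) * Nat.card G ∧
      Nat.card G < 2 * Set.ncard {a : G | ∃ g : G, ∃ z ∈ ((↑(K ⊔ (Cfsg.sigmaCore M ⊓ Subgroup.centralizer (K : Set G))) : Set G) \ ((K : Set G) ∪ ↑(Cfsg.sigmaCore M ⊓ Subgroup.centralizer (K : Set G)))), a = g * z * g⁻¹} := by
  have hP := H21.dec_PM hM hKU hK1
  have hD : H21.Dual M K Mstar (H21.Kst M K) :=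
    ⟨hP, ⟨hMstar, hKstH, hP.kst_ne hG⟩, rfl, hKst.symm⟩
  refine ⟨H21.dec_kappa_eq hG hM hKU hK1, hD.hall' hG, ?_, ?_, hP.count hG, hD.big hG⟩
  · intro x hx hx1 y hy hy1
    exact ⟨hD.cent_K hG hx hx1, hD.cent_K' hG hy hy1, hD.cent_mul hG hx hx1 hy hy1⟩
  · intro g hg z hz hzg
    obtain ⟨k, hk, y, hy, hk1, hy1, rfl⟩ := H21.mem_Zhat hz
    apply hg
    apply hP.kst_mem hG hy hy1
    have h1 : y ∈ Subgroup.zpowers (k * y) := by
      rw [H21.kst_comm hk hy]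
      exact H21.mem_zpowers_of_coprime (H21.kst_comm hk hy).symm
        (H21.coprime_orderOf (hP.kst_pi hG hy) (hP.K_pi hk))
    exact (by rwa [Subgroup.zpowers_le] : Subgroup.zpowers (k * y) ≤ L.cj g M) h1

end Cfsg.Agent.S1434
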