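import Cfsg.Statements.S1441
import Cfsg.Agent.H1.BG6

set_option autoImplicit false
open Cfsg
open scoped Pointwise commutatorElement

namespace Cfsg.Agent.S1441

/-- Let G be a finite group, H a solvable subgroup and A a subgroup normalizing H. Suppose there is a chain H = H₀ ≥ H₁ ≥ ⋯ ≥ H_n = 1 of subgroups normal in H and normalized by A such that A acts trivially on each factor H_{i-1}/H_i (that is, [H_{i-1}, A] ≤ H_i). Then every prime dividing the index of C_A(H) in A divides the order of H. -/
theorem result {G : Type*} [Group G] [Finite G] (H A : Subgroup G) (hH : Group.IsSolvable H) (hA : (A ≤ Subgroup.normalizer (H : Set G)))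
    (n : ℕ) (c : Fin (n + 1) → Subgroup G) (hc0 : c 0 = H) (hcn : c (Fin.last n) = ⊥) (hanti : Antitone c)
    (hcN : ∀ i, H ≤ Subgroup.normalizer ((c i : Subgroup G) : Set G)) (hcA : ∀ i, A ≤ Subgroup.normalizer ((c i : Subgroup G) : Set G))
    (htriv : ∀ i : Fin n, ⁅c i.castSucc, A⁆ ≤ c i.succ) :
    ∀ p : ℕ, p.Prime → p ∣ (A ⊓ Subgroup.centralizer (H : Set G)).relIndex A → p ∣ Nat.card H := by
  intro p hp hdvd
  haveI : Fact p.Prime := ⟨hp⟩
  by_contra hnd
  obtain ⟨P, hP⟩ := Cfsg.Agent.H23.exists_isSylowOf p A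
  have hcop : (Nat.card P).Coprime (Nat.card H) := by
    obtain ⟨k, hk⟩ := (IsPGroup.iff_card).mp hP.isPGroup
    rw [hk]
    exact Nat.Coprime.pow_left _ ((Nat.Prime.coprime_iff_not_dvd hp).mpr hnd)
  have hcent : H ≤ Subgroup.centralizer (P : Set G) := by
    have h0 : c ⟨n - n, by omega⟩ = H := by
      rw [← hc0]; congr 1; ext; simp
    have key := Cfsg.Agent.H23.stability_chain (A := P) (fun i : ℕ => c ⟨n - i, by omega⟩) n
      (by
        show c ⟨n - 0, _⟩ = ⊥
        rw [← hcn]; congr 1)
      (by
        intro i j hij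
        apply hanti
        rw [Fin.le_def]
        show n - j ≤ n - i
        omega)
      (by
        intro i hi
        have h1 := htriv ⟨n - (i + 1), by omega⟩
        have h2 : (⟨n - (i + 1), by omega⟩ : Fin n).succ = ⟨n - i, by omega⟩ := by
          ext; simp only [Fin.val_succ]; omega
        rw [h2] at h1
        exact (Subgroup.commutator_mono le_rfl hP.le).trans h1)
      (by
        show (Nat.card P).Coprime (Nat.card (c ⟨n - n, _⟩ : Subgroup G))
        rw [h0]; exact hcop)
    have key' : c ⟨n - n, by omega⟩ ≤ Subgroup.centralizer (P : Set G) := key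
    rwa [h0] at key'
  have hPle : P ≤ A ⊓ Subgroup.centralizer (H : Set G) :=
    le_inf hP.le (Subgroup.le_centralizer_iff.mp hcent)
  have := hP.not_dvd
  apply this
  rw [← Subgroup.relIndex_mul_relIndex P _ A hPle inf_le_left]
  exact Dvd.dvd.mul_left hdvd _

end Cfsg.Agent.S1441
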