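import Cfsg.Prelude.Def_OddOrderLocal
import Cfsg.Agent.OOT.RankTwo

set_option autoImplicit false

namespace Cfsg.Agent.S1449
open Cfsg
open scoped commutatorElement

open Subgroup in
/-- the action on the abelianization -/
def abMap (D : Type*) [Group D] : MulAut D →* MulAut (Abelianization D) where
  toFun f := MulEquiv.abelianizationCongr f
  map_one' := by
    ext x
    induction x using QuotientGroup.induction_on with
    | H z => rfl
  map_mul' f g := by
    ext x
    induction x using QuotientGroup.induction_on with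
    | H z => rfl

open Subgroup in
theorem main {G : Type*} [Group G] [Finite G] (p : ℕ) [hp' : Fact p.Prime] (hp : p ≠ 2) (R A : Subgroup G) (hR : IsPGroup p R) (hr : Cfsg.PRankLE p 2 R)
    (hA : (A ≤ Subgroup.normalizer (R : Set G))) (hAs : Group.IsSolvable A) (hAodd : Odd (Nat.card A)) (hfaith : A ⊓ Subgroup.centralizer (R : Set G) = ⊥) :
    IsPGroup p ↥⁅A, A⁆ := by
  obtain ⟨D, hDR, hDn, hDexp, hRD, hDcl, hdet⟩ := OOT.exists_omega_critical hp hR
  have hAD : A ≤ normalizer (D : Set G) := hA.trans hDn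
  let ρ : A →* MulAut (Abelianization D) :=
    (abMap D).comp ((Subgroup.normalizerMonoidHom D).comp (Subgroup.inclusion hAD))
  have hexpD : ∀ d : D, d ^ p = 1 := fun d => Subtype.ext (hDexp d d.2)
  have hexp : ∀ v : Abelianization D, v ^ p = 1 := by
    intro v
    induction v using QuotientGroup.induction_on with
    | H z =>
      show ((z ^ p : D) : D ⧸ commutator D) = 1
      rw [hexpD]; rfl
  have hrD : Cfsg.PRankLE p 2 D := by
    intro E hE hE2
    have hmap : E.map (Subgroup.inclusion hDR) = E.map (Subgroup.inclusion hDR) := rfl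
    have h1 := hr (E.map (Subgroup.inclusion hDR)) (by
      haveI := hE
      constructor
      constructor
      rintro ⟨_, a, ha, rfl⟩ ⟨_, b, hb, rfl⟩
      have := hE.is_comm.comm ⟨a, ha⟩ ⟨b, hb⟩
      have h2 : a * b = b * a := congrArg Subtype.val this
      apply Subtype.ext
      show Subgroup.inclusion hDR a * Subgroup.inclusion hDR b = Subgroup.inclusion hDR b * Subgroup.inclusion hDR a
      rw [← map_mul, h2, map_mul]) (by
      rintro _ ⟨a, ha, rfl⟩
      rw [← map_pow, hE2 a ha, map_one])
    rwa [Nat.card_congr (E.equivMapOfInjective _ (Subgroup.inclusion_injective hDR)).toEquiv.symm] at h1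
  have hcl : commutator D ≤ Subgroup.center D := by
    rw [_root_.commutator_def, Subgroup.commutator_le]
    intro a _ b _
    rw [Subgroup.mem_center_iff]
    intro z
    have h1 : ⁅D, D⁆ ≤ centralizer (D : Set G) :=
      Subgroup.commutator_eq_bot_iff_le_centralizer.1 hDcl
    exact Subtype.ext (Subgroup.mem_centralizer_iff.1
      (h1 (Subgroup.commutator_mem_commutator a.2 b.2)) z z.2)
  have hcard := OOT.card_abelianization_dvd hexpD hcl hrD
  have hρ := OOT.mulAut_derived p hexp hcard hAodd hAs ρ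
  -- the kernel is a `p`-group
  have hker : IsPGroup p ρ.ker := by
    have hpr : ∀ {q : ℕ}, q.Prime → q ∣ Nat.card ρ.ker → q = p := by
      intro q hq hqd
      by_contra hne
      haveI : Fact q.Prime := ⟨hq⟩
      obtain ⟨x, hx⟩ := exists_prime_orderOf_dvd_card' q hqd
      set a : A := (x : A) with ha
      have hao : orderOf (a : G) = q := by
        rw [Subgroup.orderOf_coe, ha, Subgroup.orderOf_coe, hx]
      have haker : ρ a = 1 := x.2
      set Q := zpowers (a : G) with hQ
      have hQA : Q ≤ A := by rw [hQ, Subgroup.zpowers_le]; exact a.2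
      have hQc : (Nat.card Q).Coprime p := by
        rw [hQ, Nat.card_zpowers, hao]
        exact (Nat.coprime_primes hq hp'.out).2 hne
      have hact : ∀ b : A, ρ b = 1 → ∀ d ∈ D, ⁅(b : G), d⁆ ∈ ⁅D, D⁆ := by
        intro b hb d hd
        have h1 := congrArg (fun f : MulAut (Abelianization D) =>
          f (Abelianization.of (⟨d, hd⟩ : D))) hb
        have h2 : Abelianization.of (⟨(b : G) * d * (b : G)⁻¹,
            (mem_normalizer_iff.1 (hAD b.2) d).1 hd⟩ : D) = Abelianization.of (⟨d, hd⟩ : D) := h1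
        have h3 : (⟨(b : G) * d * (b : G)⁻¹,
            (mem_normalizer_iff.1 (hAD b.2) d).1 hd⟩ : D) * (⟨d, hd⟩ : D)⁻¹ ∈ commutator D := by
          rw [← Abelianization.ker_of, MonoidHom.mem_ker, map_mul, h2, map_inv, mul_inv_cancel]
        have h4 := Subgroup.mem_map_of_mem D.subtype h3
        rw [_root_.commutator_def, Subgroup.map_commutator, ← MonoidHom.range_eq_map,
          Subgroup.range_subtype] at h4
        exact h4
      have hDQ : ⁅D, Q⁆ ≤ ⁅D, D⁆ := by
        rw [Subgroup.commutator_comm, Subgroup.commutator_le]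
        intro y hy d hd
        have hyA : y ∈ A := hQA hy
        obtain ⟨n, hn⟩ := hy
        have hn' : (⟨y, hyA⟩ : A) = a ^ n := by
          apply Subtype.ext
          rw [SubgroupClass.coe_zpow]
          exact hn.symm
        exact hact ⟨y, hyA⟩ (by rw [hn', map_zpow, haker, one_zpow]) d hd
      have h1 := OOT.centralizes_of_centralizes_quotient (hR.to_le hDR) (hQA.trans hAD) hQc hDcl hDQ
      have h2 := hdet Q (hQA.trans hA) hQc h1
      have h3 : Q ≤ A ⊓ centralizer (R : Set G) :=
        le_inf hQA ((Subgroup.le_centralizer_iff).1 h2)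
      rw [hfaith, le_bot_iff, hQ, Subgroup.zpowers_eq_bot] at h3
      rw [h3, orderOf_one] at hao
      exact hq.one_lt.ne hao
    have h0 : Nat.card ρ.ker ≠ 0 := Nat.card_pos.ne'
    exact IsPGroup.of_card (Nat.eq_prime_pow_of_unique_prime_dvd h0 hpr)
  rintro ⟨a, ha⟩
  have haA : a ∈ A := (Subgroup.commutator_le_self A) ha
  have h1 : (⟨a, haA⟩ : A) ∈ commutator A := by
    have : a ∈ (commutator A).map A.subtype := by
      rw [_root_.commutator_def, Subgroup.map_commutator, ← MonoidHom.range_eq_map,
          Subgroup.range_subtype]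
      exact ha
    obtain ⟨y, hy, hy2⟩ := this
    have : y = ⟨a, haA⟩ := Subtype.ext hy2
    rwa [← this]
  have h2 := hρ _ h1
  have h3 : (⟨a, haA⟩ : A) ^ p ∈ ρ.ker := by
    rw [MonoidHom.mem_ker, map_pow, h2]
  obtain ⟨n, hn⟩ := hker ⟨_, h3⟩
  refine ⟨n + 1, ?_⟩
  have h4 : ((⟨a, haA⟩ : A) ^ p) ^ p ^ n = 1 := congrArg Subtype.val hn
  have h5 : (a ^ p) ^ p ^ n = 1 := congrArg Subtype.val h4
  apply Subtype.ext
  show a ^ p ^ (n + 1) = 1
  rw [pow_succ', pow_mul]
  exact h5

theorem result {G : Type*} [Group G] [Finite G] (p : ℕ) [Fact p.Prime] (hp : p ≠ 2) (R A : Subgroup G) (hR : IsPGroup p R) (hr : Cfsg.PRankLE p 2 R)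
    (hA : (A ≤ Subgroup.normalizer (R : Set G))) (hAs : Group.IsSolvable A) (hAodd : Odd (Nat.card A)) (hfaith : A ⊓ Subgroup.centralizer (R : Set G) = ⊥) :
    IsPGroup p ↥⁅A, A⁆ := by
  exact main p hp R A hR hr hA hAs hAodd hfaith

end Cfsg.Agent.S1449
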