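import Cfsg.Statements.S1463
import Cfsg.Agent.H2.Dick5

set_option autoImplicit false
open scoped MatrixGroups
open Cfsg
open scoped Pointwise commutatorElement

namespace Cfsg.Agent.S1463

open Matrix in
theorem mem_span_of_ker {F : Type*} [Field F] {N : Matrix (Fin 2) (Fin 2) F} (hN : N ≠ 0)
    {v w : Fin 2 → F} (hv : v ≠ 0) (h1 : N *ᵥ v = 0) (h2 : N *ᵥ w = 0) :
    w ∈ Submodule.span F {v} := by
  have e : ∀ i, N i 0 * v 0 + N i 1 * v 1 = 0 := by
    intro i
    have := congrFun h1 i
    simpa [Matrix.mulVec, dotProduct, Fin.sum_univ_two] using this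
  have e' : ∀ i, N i 0 * w 0 + N i 1 * w 1 = 0 := by
    intro i
    have := congrFun h2 i
    simpa [Matrix.mulVec, dotProduct, Fin.sum_univ_two] using this
  have hdet : v 0 * w 1 - v 1 * w 0 = 0 := by
    by_contra hd
    apply hN
    ext i j
    fin_cases j
    · have : N i 0 * (v 0 * w 1 - v 1 * w 0) = 0 := by linear_combination w 1 * e i - v 1 * e' i
      simpa [hd] using this
    · have : N i 1 * (v 0 * w 1 - v 1 * w 0) = 0 := by linear_combination v 0 * e' i - w 0 * e i
      simpa [hd] using this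
  rw [Submodule.mem_span_singleton]
  by_cases hv0 : v 0 = 0
  · have hv1 : v 1 ≠ 0 := by
      intro hv1
      apply hv
      ext i; fin_cases i
      · exact hv0
      · exact hv1
    refine ⟨w 1 / v 1, ?_⟩
    ext i; fin_cases i
    · simp only [Fin.zero_eta, Pi.smul_apply, smul_eq_mul]
      field_simp
      linear_combination hdet
    · simp only [Fin.mk_one, Pi.smul_apply, smul_eq_mul]
      field_simp
  · refine ⟨w 0 / v 0, ?_⟩
    ext i; fin_cases i
    · simp only [Fin.zero_eta, Pi.smul_apply, smul_eq_mul]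
      field_simp
    · simp only [Fin.mk_one, Pi.smul_apply, smul_eq_mul]
      field_simp
      linear_combination -hdet

/-- Let F be a field of odd characteristic p and H a finite subgroup of odd order of GL(2, F) that leaves no 1-dimensional subspace of F² invariant. Then p does not divide the order of H. -/
theorem result {F : Type*} [Field F] (p : ℕ) [Fact p.Prime] [CharP F p] (hp : p ≠ 2)
    (H : Subgroup (GL (Fin 2) F)) [Finite H] (hodd : Odd (Nat.card H))
    (hirr : ∀ v : Fin 2 → F, v ≠ 0 → ∃ g ∈ H, (g : Matrix (Fin 2) (Fin 2) F).mulVec v ∉ Submodule.span F {v}) :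
    ¬ p ∣ Nat.card H := by
  intro hpd
  classical
  haveI : Fact p.Prime := inferInstance
  obtain ⟨x0, hx0⟩ := exists_prime_orderOf_dvd_card' p hpd
  set x : GL (Fin 2) F := (x0 : GL (Fin 2) F) with hx
  have hxH : x ∈ H := x0.2
  have hox : orderOf x = p := by rw [hx, Subgroup.orderOf_coe, hx0]
  have hxp : x ^ p = 1 := by rw [← hox]; exact pow_orderOf_eq_one x
  have hx1 : x ≠ 1 := by
    intro h; rw [h, orderOf_one] at hox
    exact (Fact.out : p.Prime).one_lt.ne hox
  have key : ∀ z : GL (Fin 2) F, z ^ p = 1 → z ≠ 1 →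
      ((z : Matrix (Fin 2) (Fin 2) F) - 1 ≠ 0) ∧
      ((z : Matrix (Fin 2) (Fin 2) F) - 1).det = 0 ∧ (z : Matrix (Fin 2) (Fin 2) F).det = 1 := by
    intro z hz hz1
    have hzp : (z : Matrix (Fin 2) (Fin 2) F) ^ p = 1 := by
      rw [← Units.val_pow_eq_pow_val, hz, Units.val_one]
    refine ⟨fun h => hz1 (Units.ext (sub_eq_zero.mp h)), ?_, ?_⟩
    · have h1 : ((z : Matrix (Fin 2) (Fin 2) F) - 1) ^ p = 0 := by
        rw [sub_pow_char_of_commute p (Commute.one_right _), hzp, one_pow, sub_self]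
      have h2 : ((z : Matrix (Fin 2) (Fin 2) F) - 1).det ^ p = 0 := by
        rw [← Matrix.det_pow, h1, Matrix.det_zero]
      exact pow_eq_zero_iff (Fact.out : p.Prime).ne_zero |>.mp h2
    · have h2 : (z : Matrix (Fin 2) (Fin 2) F).det ^ p = 1 := by
        rw [← Matrix.det_pow, hzp, Matrix.det_one]
      have h3 : ((z : Matrix (Fin 2) (Fin 2) F).det - 1) ^ p = 0 := by
        rw [sub_pow_char, h2, one_pow, sub_self]
      exact sub_eq_zero.mp (pow_eq_zero_iff (Fact.out : p.Prime).ne_zero |>.mp h3)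
  obtain ⟨hN, hNd, hxd⟩ := key x hxp hx1
  obtain ⟨v, hv, hNv⟩ := Matrix.exists_mulVec_eq_zero_iff.mpr hNd
  obtain ⟨g, hg, hgv⟩ := hirr v hv
  set y : GL (Fin 2) F := g * x * g⁻¹ with hy
  have hyH : y ∈ H := mul_mem (mul_mem hg hxH) (inv_mem hg)
  have hyp : y ^ p = 1 := by rw [hy, conj_pow, hxp]; group
  have hy1 : y ≠ 1 := by
    intro h; apply hx1
    have : x = g⁻¹ * y * g := by rw [hy]; group
    rw [this, h]; group
  obtain ⟨hM, hMd, hyd⟩ := key y hyp hy1
  have hxv : (x : Matrix (Fin 2) (Fin 2) F).mulVec v = v := by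
    rw [Matrix.sub_mulVec, Matrix.one_mulVec, sub_eq_zero] at hNv
    exact hNv
  set w : Fin 2 → F := (g : Matrix (Fin 2) (Fin 2) F).mulVec v with hw
  have hw0 : w ≠ 0 := by
    intro h; exact hgv (by rw [h]; exact zero_mem _)
  have hyw : (y : Matrix (Fin 2) (Fin 2) F).mulVec w = w := by
    have h1 : y * g = g * x := by rw [hy]; group
    have h2 := congrArg (fun z : GL (Fin 2) F => (z : Matrix (Fin 2) (Fin 2) F)) h1
    simp only [Units.val_mul] at h2
    rw [hw, Matrix.mulVec_mulVec, h2, ← Matrix.mulVec_mulVec, hxv]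
  have hncomm : x * y ≠ y * x := by
    intro hc
    have h1 : (y : Matrix (Fin 2) (Fin 2) F).mulVec ((x : Matrix (Fin 2) (Fin 2) F).mulVec w) =
        (x : Matrix (Fin 2) (Fin 2) F).mulVec w := by
      have h2 := congrArg (fun z : GL (Fin 2) F => (z : Matrix (Fin 2) (Fin 2) F)) hc
      simp only [Units.val_mul] at h2
      rw [Matrix.mulVec_mulVec, ← h2, ← Matrix.mulVec_mulVec, hyw]
    have h3 := mem_span_of_ker hM hw0 (w := (x : Matrix (Fin 2) (Fin 2) F).mulVec w)
      (by rw [Matrix.sub_mulVec, Matrix.one_mulVec, hyw, sub_self])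
      (by rw [Matrix.sub_mulVec, Matrix.one_mulVec, h1, sub_self])
    obtain ⟨c, hc'⟩ := Submodule.mem_span_singleton.mp h3
    have h4 : ∀ n : ℕ, ((x : Matrix (Fin 2) (Fin 2) F) ^ n).mulVec w = c ^ n • w := by
      intro n
      induction n with
      | zero => simp
      | succ n ih => rw [pow_succ, ← Matrix.mulVec_mulVec, ← hc', Matrix.mulVec_smul, ih, smul_smul,
          pow_succ']
    have h5 : c ^ p = 1 := by
      have h6 := h4 p
      rw [← Units.val_pow_eq_pow_val, hxp, Units.val_one, Matrix.one_mulVec] at h6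
      by_contra hne
      have h7 : (1 - c ^ p) • w = 0 := by rw [sub_smul, one_smul, ← h6, sub_self]
      rcases smul_eq_zero.mp h7 with h | h
      · exact hne (sub_eq_zero.mp h).symm
      · exact hw0 h
    have h8 : (c - 1) ^ p = 0 := by rw [sub_pow_char, h5, one_pow, sub_self]
    have h9 : c = 1 := sub_eq_zero.mp (pow_eq_zero_iff (Fact.out : p.Prime).ne_zero |>.mp h8)
    rw [h9, one_smul] at hc'
    exact hgv (mem_span_of_ker hN hv hNv (by
      rw [Matrix.sub_mulVec, Matrix.one_mulVec, ← hc', sub_self]))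
  -- lift to `SL`
  let f : Matrix.SpecialLinearGroup (Fin 2) F →* GL (Fin 2) F := Matrix.SpecialLinearGroup.toGL
  have hf : Function.Injective f := by
    intro a b hab
    apply Subtype.ext
    exact congrArg (fun z : GL (Fin 2) F => (z : Matrix (Fin 2) (Fin 2) F)) hab
  let X : Matrix.SpecialLinearGroup (Fin 2) F := ⟨(x : Matrix (Fin 2) (Fin 2) F), hxd⟩
  let Y : Matrix.SpecialLinearGroup (Fin 2) F := ⟨(y : Matrix (Fin 2) (Fin 2) F), hyd⟩
  have hfX : f X = x := Units.ext rfl
  have hfY : f Y = y := Units.ext rfl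
  let g' : (H.comap f) → H := fun z => ⟨f z.1, z.2⟩
  have hg' : Function.Injective g' := by
    intro a b hab
    exact Subtype.ext (hf (congrArg Subtype.val hab))
  haveI : Finite (H.comap f) := Finite.of_injective g' hg'
  obtain ⟨L, hLH, ⟨e⟩⟩ := Cfsg.Agent.H2.dickson_pair hp (H.comap f) (A := X) (B := Y)
    (by show f X ∈ H; rw [hfX]; exact hxH) (by show f Y ∈ H; rw [hfY]; exact hyH)
    (hf (by rw [map_pow, hfX, hxp, map_one])) (hf (by rw [map_pow, hfY, hyp, map_one]))
    (fun h => hncomm (by rw [← hfX, ← hfY, ← map_mul, h, map_mul]))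
  have hcard1 : Nat.card L ∣ Nat.card (H.comap f) := Subgroup.card_dvd_of_le hLH
  have hcard2 : Nat.card (H.comap f) ∣ Nat.card H := by
    have h1 : Nat.card ((H.comap f).map f) = Nat.card (H.comap f) :=
      Subgroup.card_map_of_injective hf
    rw [← h1]
    exact Subgroup.card_dvd_of_le (Subgroup.map_comap_le _ _)
  have h2 : 2 ∣ Nat.card (Matrix.SpecialLinearGroup (Fin 2) (ZMod p)) := by
    have ho : orderOf (-1 : Matrix.SpecialLinearGroup (Fin 2) (ZMod p)) = 2 := by
      apply orderOf_eq_prime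
      · rw [neg_one_sq]
      · intro h
        have h3 := congrArg (fun z : Matrix.SpecialLinearGroup (Fin 2) (ZMod p) => z.1 0 0) h
        simp at h3
        have h4 : (2 : ZMod p) = 0 := by linear_combination -h3
        have h5 : ((2 : ℕ) : ZMod p) = 0 := by exact_mod_cast h4
        rw [ZMod.natCast_eq_zero_iff] at h5
        exact hp ((Nat.prime_dvd_prime_iff_eq Fact.out Nat.prime_two).mp h5)
    have h6 := orderOf_dvd_natCard (-1 : Matrix.SpecialLinearGroup (Fin 2) (ZMod p))
    rwa [ho] at h6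
  rw [← Nat.card_congr e.toEquiv] at h2
  exact (Nat.not_even_iff_odd.mpr hodd) (even_iff_two_dvd.mpr (h2.trans (hcard1.trans hcard2)))

end Cfsg.Agent.S1463
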