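import Cfsg.Statements.S1466
import Cfsg.Agent.H2.Puig

set_option autoImplicit false
set_option linter.style.haveILetI false
set_option linter.unusedVariables false
set_option linter.unusedSectionVars false
open Cfsg

namespace Cfsg.Agent.S1466

/-- Let p be a prime and R a nontrivial finite p-group. Then for every i > 0, Z(R) ≤ C_R(L_i(R)) ≤ L_i(R); likewise Z(R) ≤ C_R(L_*(R)) ≤ L_*(R) and Z(R) ≤ C_R(L(R)) ≤ L(R); and L(R) ≠ 1, L_*(R) ≠ 1. -/
theorem result {R : Type*} [Group R] [Finite R] (p : ℕ) [Fact p.Prime] (hR : IsPGroup p R) [Nontrivial R] :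
    (∀ i : ℕ, 0 < i → Subgroup.center R ≤ Subgroup.centralizer ((Cfsg.puigSeq R i : Subgroup R) : Set R) ∧
        Subgroup.centralizer ((Cfsg.puigSeq R i : Subgroup R) : Set R) ≤ Cfsg.puigSeq R i) ∧
      (Subgroup.center R ≤ Subgroup.centralizer ((Cfsg.puigLower R : Subgroup R) : Set R) ∧ Subgroup.centralizer ((Cfsg.puigLower R : Subgroup R) : Set R) ≤ Cfsg.puigLower R) ∧
      (Subgroup.center R ≤ Subgroup.centralizer ((Cfsg.puigSubgroup R : Subgroup R) : Set R) ∧ Subgroup.centralizer ((Cfsg.puigSubgroup R : Subgroup R) : Set R) ≤ Cfsg.puigSubgroup R) ∧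
      Cfsg.puigSubgroup R ≠ ⊥ ∧ Cfsg.puigLower R ≠ ⊥ := by
  have hf := H2.puigStep_antitone (G := R)
  have h0 : Cfsg.puigSeq R 0 = ⊥ := rfl
  have hs : ∀ n, Cfsg.puigSeq R (n + 1) = Cfsg.puigStep (Cfsg.puigSeq R n) := fun _ => rfl
  have hlu := H2.seq_low_up hf h0 hs
  have hlow : Cfsg.puigLower R = Cfsg.puigStep (Cfsg.puigSubgroup R) := hlu.2.2.symm
  have hup : Cfsg.puigSubgroup R = Cfsg.puigStep (Cfsg.puigLower R) := hlu.2.1.symm
  have hcen : ∀ X : Subgroup R, Subgroup.center R ≤ Subgroup.centralizer (X : Set R) :=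
    fun X => Subgroup.center_le_centralizer _
  have hC : ∀ X : Subgroup R, Subgroup.centralizer ((Cfsg.puigStep X : Subgroup R) : Set R) ≤
      Cfsg.puigStep X := fun X => H2.centralizer_puigStep_le hR X
  have hZ : Subgroup.center R ≠ ⊥ := by
    intro h
    haveI := hR.center_nontrivial
    exact (Subgroup.nontrivial_iff_ne_bot _).1 inferInstance h
  refine ⟨?_, ⟨hcen _, ?_⟩, ⟨hcen _, ?_⟩, ?_, ?_⟩
  · intro i hi
    obtain ⟨j, rfl⟩ : ∃ j, i = j + 1 := ⟨i - 1, by omega⟩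
    exact ⟨hcen _, hC _⟩
  · rw [hlow]; exact hC _
  · rw [hup]; exact hC _
  · intro h
    apply hZ
    rw [eq_bot_iff, ← h, hup]
    exact (hcen _).trans (hC _)
  · intro h
    apply hZ
    rw [eq_bot_iff, ← h, hlow]
    exact (hcen _).trans (hC _)

end Cfsg.Agent.S1466
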