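import Cfsg.Statements.S1469
import Cfsg.Agent.H2.Puig2

set_option autoImplicit false
set_option linter.style.haveILetI false
set_option linter.unusedVariables false
set_option linter.unusedSectionVars false
open Cfsg

namespace Cfsg.Agent.S1469

/-- Let p be an odd prime, G a solvable group of odd order and S a Sylow p-subgroup, and let Z be the centre of the Puig subgroup L(S), viewed inside G. Then G is generated by O_{p'}(G) and N_G(Z); and if O_{p'}(G) = 1 then Z is normal in G. -/
theorem result {G : Type*} [Group G] [Finite G] [Group.IsSolvable G] (hodd : Odd (Nat.card G)) (p : ℕ) [Fact p.Prime] (hp : p ≠ 2) (S : Sylow p G) :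
    Cfsg.pPrimeCore p G ⊔ Subgroup.normalizer ((((Subgroup.center ↥(Cfsg.puigSubgroup ↥(S : Subgroup G))).map (Cfsg.puigSubgroup ↥(S : Subgroup G)).subtype).map (S : Subgroup G).subtype : Subgroup G) : Set G) = ⊤ ∧
      (Cfsg.pPrimeCore p G = ⊥ → (((Subgroup.center ↥(Cfsg.puigSubgroup ↥(S : Subgroup G))).map (Cfsg.puigSubgroup ↥(S : Subgroup G)).subtype).map (S : Subgroup G).subtype).Normal) := by
  rw [H2.map_center_puigSubgroup]
  refine ⟨?_, fun hO => H2.ZU_sylow_normal hodd hp hO S⟩
  apply H2.sup_normalizer_of_map_normal (p := p) (H1.pPrimeCore_coprime p G) (S.2.to_le (H2.ZU_le _))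
  have hinj := H2.mk'_comp_subtype_injective (P := (S : Subgroup G)) S.2
    (H1.pPrimeCore_coprime p G)
  rw [← H2.ZU_map_of_injOn hinj]
  have h1 := Sylow.coe_mapSurjective (QuotientGroup.mk'_surjective (Cfsg.pPrimeCore p G)) S
  rw [← h1]
  exact H2.ZU_sylow_normal (H2.odd_quotient hodd _) hp (H1.pPrimeCore_quotient_eq_bot p) _

end Cfsg.Agent.S1469
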