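import Cfsg.Statements.S1470
import Cfsg.Agent.H13.NormAP

set_option autoImplicit false
open Cfsg

namespace Cfsg.Agent.S1470

/-- Let p and q be odd primes with (p^q − 1)/(p − 1) coprime to p − 1, and let E be the set of elements a of the field with p ^ q elements whose norm to the prime field is 1 and for which 2 − a also has norm 1. If a⁻¹ ∈ E for every a ∈ E and E has at least two elements, then p ≤ q. -/
theorem result (p q : ℕ) [Fact p.Prime] [Fact q.Prime] (hp : p ≠ 2) (hq : q ≠ 2) (hA : Nat.Coprime ((p ^ q - 1) / (p - 1)) (p - 1))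
    (hinv : ∀ a ∈ {a : GaloisField p q | Algebra.norm (ZMod p) a = 1 ∧ Algebra.norm (ZMod p) (2 - a) = 1}, a⁻¹ ∈ {a : GaloisField p q | Algebra.norm (ZMod p) a = 1 ∧ Algebra.norm (ZMod p) (2 - a) = 1})
    (h2 : 2 ≤ Set.ncard {a : GaloisField p q | Algebra.norm (ZMod p) a = 1 ∧ Algebra.norm (ZMod p) (2 - a) = 1}) :
    p ≤ q := by
  classical
  have hq0 : q ≠ 0 := (Fact.out : q.Prime).ne_zero
  set E := {a : GaloisField p q | Algebra.norm (ZMod p) a = 1 ∧ Algebra.norm (ZMod p) (2 - a) = 1}
  -- an element of `E` other than 1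
  obtain ⟨a, ha, ha1⟩ : ∃ a ∈ E, a ≠ 1 := by
    have hfin : E.Finite := Set.toFinite E
    by_contra hn
    push Not at hn
    have h3 : E ⊆ {1} := fun x hx => hn x hx
    have h4 := Set.ncard_le_ncard h3 (Set.finite_singleton 1)
    rw [Set.ncard_singleton] at h4
    omega
  have hprog : ∀ k : ℕ, Algebra.norm (ZMod p) (1 + (k : GaloisField p q) * (1 - a)) = 1 := by
    intro k
    apply Cfsg.Agent.H13.norm_progression (Algebra.norm (ZMod p)) _ _ a ha.1 ha.2 k
    · rintro x hx rfl
      rw [Algebra.norm_zero] at hx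
      exact zero_ne_one hx
    · intro b hb1 hb2
      exact (hinv b ⟨hb1, hb2⟩).2
  apply Cfsg.Agent.H13.le_of_prod_eq_one p q (F := GaloisField p q) (1 - a)
    (sub_ne_zero.2 (Ne.symm ha1)) (Nat.pos_of_ne_zero hq0)
  intro x
  obtain ⟨k, rfl⟩ := ZMod.natCast_zmod_surjective x
  rw [map_natCast]
  have h1 := FiniteField.algebraMap_norm_eq_prod_pow (ZMod p) (GaloisField p q)
    (1 + (k : GaloisField p q) * (1 - a))
  rw [hprog k, map_one, GaloisField.finrank p hq0, Nat.card_zmod] at h1
  refine Eq.trans ?_ h1.symm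
  apply Finset.prod_congr rfl
  intro i _
  have : ExpChar (GaloisField p q) p := inferInstance
  rw [add_pow_char_pow, one_pow, mul_pow]
  congr 2
  have h2 : ((k : ZMod p)) ^ (p ^ i) = (k : ZMod p) := ZMod.pow_card_pow _
  have h3 := congrArg (algebraMap (ZMod p) (GaloisField p q)) h2
  rw [map_pow, map_natCast] at h3
  exact h3.symm

end Cfsg.Agent.S1470
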