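import Cfsg.Statements.S1475
import Cfsg.Agent.H18.CN3

set_option autoImplicit false
open Cfsg
open Cfsg.Agent Cfsg.Agent.H18

namespace Cfsg.Agent.S1475

universe u

theorem not_pp {G : Type u} [Group G] [Finite G] (h : ∀ g : G, IsPrimePow (orderOf g) ∨ g = 1)
    {p q : ℕ} (hp : p.Prime) (hq : q.Prime) (hpq : p ≠ q) {x y : G} (hx : orderOf x = p)
    (hy : orderOf y = q) (hxy : x * y = y * x) : False := by
  have h1 : orderOf (x * y) = p * q := by
    have := (show Commute x y from hxy).orderOf_mul_eq_mul_orderOf_of_coprime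
      (by rw [hx, hy]; exact (Nat.coprime_primes hp hq).2 hpq)
    rw [this, hx, hy]
  rcases h (x * y) with h2 | h2
  · rw [h1] at h2
    obtain ⟨r, k, hr, hk, hrk⟩ := h2
    have hr' : r.Prime := Nat.prime_iff.2 hr
    have e1 : p = r := (Nat.prime_dvd_prime_iff_eq hp hr').1 (hp.dvd_of_dvd_pow (hrk ▸ Dvd.intro _ rfl))
    have e2 : q = r := (Nat.prime_dvd_prime_iff_eq hq hr').1 (hq.dvd_of_dvd_pow (hrk ▸ Dvd.intro_left _ rfl))
    exact hpq (e1.trans e2.symm)
  · rw [h2, orderOf_one] at h1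
    have := hp.two_le
    have := hq.two_le
    nlinarith

theorem fpf_of {G : Type u} [Group G] [Finite G] (h : ∀ g : G, IsPrimePow (orderOf g) ∨ g = 1)
    {p : ℕ} [hp : Fact p.Prime] {N : Subgroup G} (hN : IsPGroup p N) {H : Subgroup G}
    (hH : ¬ p ∣ Nat.card H) : ∀ e ∈ H, e ≠ 1 → ∀ u ∈ N, e * u = u * e → u = 1 := by
  intro e he he1 u hu heu
  by_contra hu1
  obtain ⟨s, k, hs, hk⟩ := exists_prime_power_ne_one he1
  haveI : Fact s.Prime := ⟨hs⟩
  have he'1 : e ^ k ≠ 1 := fun h => by rw [h, orderOf_one] at hk; exact hs.ne_one hk.symm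
  have hsH : s ∣ Nat.card H := by rw [← hk]; exact Subgroup.orderOf_dvd_natCard _ (pow_mem he k)
  have hsp : s ≠ p := by rintro rfl; exact hH hsH
  obtain ⟨t, l, ht, hl⟩ := exists_prime_power_ne_one hu1
  have hul : u ^ l ≠ 1 := fun h => by rw [h, orderOf_one] at hl; exact ht.ne_one hl.symm
  have htp : t = p := by
    haveI : Fact t.Prime := ⟨ht⟩
    obtain ⟨n, hn⟩ := IsPGroup.iff_card.1 hN
    have h1 : t ∣ Nat.card N := by rw [← hl]; exact Subgroup.orderOf_dvd_natCard _ (pow_mem hu l)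
    rw [hn] at h1
    exact (Nat.prime_dvd_prime_iff_eq ht hp.out).1 (ht.dvd_of_dvd_pow h1)
  subst htp
  exact not_pp h hs ht hsp hk hl ((show Commute e u from heu).pow_pow k l).eq

theorem main {G : Type u} [Group G] [Finite G] [Group.IsSolvable G]
    (h : ∀ g : G, IsPrimePow (orderOf g) ∨ g = 1) {p q r : ℕ} (hp : p.Prime) {N : Subgroup G}
    (hN : N.Normal) (hNc : IsMulCommutative N) (hN1 : N ≠ ⊥) (hNp : IsPGroup p N)
    (hq : q.Prime) (hr : r.Prime) (hqp : q ≠ p) (hrp : r ≠ p) (hqr : q ≠ r) (hqG : q ∣ Nat.card G)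
    (hrG : r ∣ Nat.card G) : False := by
  haveI : Fact p.Prime := ⟨hp⟩
  have hsol : Group.IsSolvable (⊤ : Subgroup G) := inferInstance
  obtain ⟨H, hH⟩ := OOT.hallOf_exists hsol ({q, r} : Set ℕ)
  have hdvd : ∀ s : ℕ, s.Prime → s ∈ ({q, r} : Set ℕ) → s ∣ Nat.card G → s ∣ Nat.card H := by
    intro s hs hsm hd
    have h1 := L.card_mul_relIndex hH.1
    rw [Subgroup.card_top] at h1
    rw [← h1] at hd
    exact (hs.dvd_mul.1 hd).resolve_right (hH.2.2 s hs hsm)
  have hqH := hdvd q hq (by simp) hqG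
  have hrH := hdvd r hr (by simp) hrG
  have hpH : ¬ p ∣ Nat.card H := by
    intro hd
    have := hH.2.1 p hp hd
    simp only [Set.mem_insert_iff, Set.mem_singleton_iff] at this
    rcases this with h | h
    · exact hqp h.symm
    · exact hrp h.symm
  have hfpf := fpf_of h hNp hpH
  have hHN : H ≤ Subgroup.normalizer (N : Set G) := by
    rw [(Subgroup.normalizer_eq_top_iff).2 hN]; exact le_top
  have hcop : (Nat.card H).Coprime (Nat.card N) := by
    obtain ⟨n, hn⟩ := IsPGroup.iff_card.1 hNp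
    rw [hn]
    exact Nat.Coprime.pow_right _ ((Nat.Prime.coprime_iff_not_dvd hp).2 hpH).symm
  haveI : Nontrivial H := by
    rw [Subgroup.nontrivial_iff_ne_bot]
    rintro rfl
    rw [Subgroup.card_bot, Nat.dvd_one] at hqH
    exact hq.ne_one hqH
  obtain ⟨s, A₀, hs, hA₀c, hA₀1, hA₀ab, hA₀s⟩ := H1.exists_pgroup_characteristic_of_solvable H inferInstance
  haveI : Fact s.Prime := ⟨hs⟩
  set A : Subgroup G := A₀.map H.subtype with hA
  have hAH : A ≤ H := Subgroup.map_subtype_le _
  have hAN : H ≤ Subgroup.normalizer (A : Set G) := OOT.le_normalizer_map_subtype (by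
    haveI := hA₀c; infer_instance)
  have hAs : IsPGroup s A := hA₀s.map _
  have hA1 : A ≠ ⊥ := fun e => hA₀1 ((Subgroup.map_eq_bot_iff_of_injective _ H.subtype_injective).1 e)
  have hAab : ∀ a ∈ A, ∀ b ∈ A, a * b = b * a := by
    rintro _ ⟨a, ha, rfl⟩ _ ⟨b, hb, rfl⟩
    rw [← map_mul, ← map_mul, H21.mulComm_iff.1 hA₀ab a ha b hb]
  have hAcyc : IsCyclic A := H20.isCyclic_of_fpf_comm (K := N) hN1 (hAH.trans hHN)
    (fun a ha => hfpf a (hAH ha)) (Nat.Coprime.coprime_dvd_left (Subgroup.card_dvd_of_le hAH) hcop) hAab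
  have hsA : s ∣ Nat.card A := by
    obtain ⟨a, ha, ha1⟩ := H21.exists_ne_one hA1
    exact dvd_card_of_isPGroup (H23.isPGroup_zpowers_of_mem hAs ha) ha1 ha
  obtain ⟨w, hw⟩ := exists_prime_orderOf_dvd_card' s hsA
  have hws : orderOf (w : G) = s := by rw [Subgroup.orderOf_coe, hw]
  set W := Subgroup.zpowers (w : G) with hW
  have hWc : Nat.card W = s := by rw [hW, Nat.card_zpowers, hws]
  have hWA : W ≤ A := by rw [hW, Subgroup.zpowers_le]; exact w.2
  have hWN : H ≤ Subgroup.normalizer (W : Set G) := by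
    intro e he
    refine L.mem_nz_iff.2 ?_
    refine H21.eq_of_card_of_cyclic hAcyc ?_ hWA (by rw [L.card_cj])
    have h1 : L.cj e A = A := L.mem_nz_iff.1 (hAN he)
    rw [← h1]
    exact L.cj_mono hWA
  have hsqr : s ∈ ({q, r} : Set ℕ) := hH.2.1 s hs (hsA.trans (Subgroup.card_dvd_of_le hAH))
  have fin : ∀ t : ℕ, t.Prime → t ≠ s → t ∣ Nat.card H → False := by
    intro t ht hts htH
    haveI : Fact t.Prime := ⟨ht⟩
    obtain ⟨y, hy⟩ := exists_prime_orderOf_dvd_card' t htH
    have hy' : orderOf (y : G) = t := by rw [Subgroup.orderOf_coe, hy]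
    have hy1 : (y : G) ≠ 1 := fun e => by rw [e, orderOf_one] at hy'; exact ht.ne_one hy'.symm
    have hcom := fpf_qr (V := N) (W := W) (y := (y : G)) (q := s) (p := t)
      (H21.mulComm_iff.1 hNc) hN1 hWc hy' hts (hWN y.2) ((hWA.trans hAH).trans hHN) (hHN y.2)
      ((Nat.Coprime.coprime_dvd_left (hsA.trans (Subgroup.card_dvd_of_le hAH)) hcop).symm)
      (fun w hw hw1 v hv => hfpf w (hAH (hWA hw)) hw1 v hv)
      (fun v hv => hfpf y y.2 hy1 v hv) w (Subgroup.mem_zpowers _)
    exact not_pp h ht hs hts hy' hws hcom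
  simp only [Set.mem_insert_iff, Set.mem_singleton_iff] at hsqr
  rcases hsqr with e | e
  · exact fin r hr (by rw [e]; exact hqr.symm) hrH
  · exact fin q hq (by rw [e]; exact hqr) hqH

/-- Let G be a finite solvable group such that the order of every element is a prime power (1 included). Then at most two distinct primes divide the order of G. -/
theorem result {G : Type*} [Group G] [Finite G] [Group.IsSolvable G] (h : ∀ g : G, IsPrimePow (orderOf g) ∨ g = 1) :
    (Nat.card G).primeFactors.card ≤ 2 := by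
  classical
  rcases subsingleton_or_nontrivial G with hs | hnt
  · rw [Nat.card_unique]; simp
  obtain ⟨p, N, hp, hNc, hN1, hNab, hNp⟩ := H1.exists_pgroup_characteristic_of_solvable G inferInstance
  by_contra hcon
  push Not at hcon
  obtain ⟨a, ha, b, hb, c, hc, hab, hac, hbc⟩ := Finset.two_lt_card.1 hcon
  have key : ∀ q r : ℕ, q ∈ (Nat.card G).primeFactors → r ∈ (Nat.card G).primeFactors → q ≠ r →
      q ≠ p → r ≠ p → False := by
    intro q r hq hr hqr hqp hrp
    haveI := hNc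
    exact main h hp (N := N) inferInstance hNab hN1 hNp (Nat.prime_of_mem_primeFactors hq)
      (Nat.prime_of_mem_primeFactors hr) hqp hrp hqr (Nat.dvd_of_mem_primeFactors hq)
      (Nat.dvd_of_mem_primeFactors hr)
  by_cases h1 : a = p
  · exact key b c hb hc hbc (fun e => hab (h1.trans e.symm)) (fun e => hac (h1.trans e.symm))
  · by_cases h2 : b = p
    · exact key a c ha hc hac h1 (fun e => hbc (h2.trans e.symm))
    · exact key a b ha hb hab h1 h2

end Cfsg.Agent.S1475
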