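import Cfsg.Statements.S1478
import Cfsg.Agent.H18.CN9

set_option autoImplicit false
open Cfsg
open Cfsg.Agent Cfsg.Agent.H18 Subgroup

namespace Cfsg.Agent.S1478

universe u

theorem npr {G : Type u} [Group G] [Finite G] (hG : Cfsg.IsMinSimpleOddOrder G) (hCN : Cfsg.IsCNGroup G)
    (H : Subgroup G) (p : ℕ) (hp : ¬ p.Prime) : ¬ Cfsg.IsThreeStepGroup p ↥H := by
  rintro ⟨hP1, A, hA1, hAc, hAo, hAp, hPAn, hPAt, ⟨n, hn⟩, hf, -⟩
  -- trivial values of `p`
  have hn0 : n ≠ 0 := by
    rintro rfl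
    rw [pow_zero] at hn
    exact hPAt (Subgroup.index_eq_one.1 hn)
  have hpp : 1 < p := by
    by_contra h
    have h2 : p = 0 ∨ p = 1 := by omega
    rcases h2 with rfl | rfl
    · apply hPAt
      rw [eq_top_iff]
      refine le_trans ?_ le_sup_left
      refine le_sSup ⟨inferInstance, ?_⟩
      intro g
      exact ⟨1, by simp⟩
    · apply hP1
      rw [eq_bot_iff]
      refine sSup_le ?_
      rintro N ⟨-, hN⟩ x hx
      obtain ⟨k, hk⟩ := hN ⟨x, hx⟩
      rw [one_pow, pow_one] at hk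
      rw [Subgroup.mem_bot]
      exact congrArg Subtype.val hk
  set P := Cfsg.pCore p H with hP
  have hHtop : H ≠ ⊤ := by
    intro h
    subst h
    haveI : IsSimpleGroup (↥(⊤ : Subgroup G)) := by
      haveI := OOT.isSimple hG
      exact (Subgroup.topEquiv (G := G)).isSimpleGroup
    rcases hPAn.eq_bot_or_eq_top with h1 | h1
    · apply hP1
      rw [eq_bot_iff, ← h1]
      exact le_sup_left
    · exact hPAt h1
  haveI : Group.IsSolvable H := OOT.sol hG hHtop
  -- `P` is a `π(p)`-group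
  let π : Set ℕ := {q | q ∣ p}
  have hPπ : P ≤ Cfsg.piCore π H := by
    refine sSup_le ?_
    rintro N ⟨hN, hNp⟩
    refine H14.le_piCore hN ?_
    intro q hq hd
    haveI : Fact q.Prime := ⟨hq⟩
    obtain ⟨x, hx⟩ := exists_prime_orderOf_dvd_card' q hd
    obtain ⟨k, hk⟩ := hNp x
    have h1 : q ∣ p ^ k := by rw [← hx]; exact orderOf_dvd_of_pow_eq_one hk
    exact hq.dvd_of_dvd_pow h1
  have hPpi : H14.IsPiSub π P := fun q hq hd =>
    H14.piCore_isPi π H q hq (hd.trans (Subgroup.card_dvd_of_le hPπ))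
  have hPn : P.Normal := Subgroup.sSup_normal _ (fun N hN => hN.1)
  let π' : Set ℕ := {q | ¬ q ∣ p}
  have hAH : Cfsg.IsPiHallOf π' A ⊤ := by
    refine ⟨le_top, ?_, ?_⟩
    · intro q hq hd hqp
      exact hq.one_lt.ne' (Nat.eq_one_of_dvd_coprimes hAp hd hqp)
    · intro q hq hqp hd
      rw [Subgroup.relIndex_top_right] at hd
      have h1 : A.index = A.relIndex (P ⊔ A) * (P ⊔ A).index := by
        rw [Subgroup.relIndex_mul_index le_sup_right]
      have hinf : P ⊓ A = ⊥ := by
        apply H1.inf_eq_bot_of_card_coprime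
        refine Nat.coprime_of_dvd fun r hr h1 h2 => ?_
        exact hr.one_lt.ne' (Nat.eq_one_of_dvd_coprimes hAp h2 (hPpi r hr h1))
      have h2 : A.relIndex (P ⊔ A) = Nat.card P := by
        have hc : IsComplIn P A (P ⊔ A) := H21.complIn_of_sup (by
          show A ≤ normalizer (P : Set H)
          rw [Subgroup.normalizer_eq_top_iff.2 hPn]; exact le_top) hinf rfl
        rw [H21.complIn_relIndex_right hc]
      rw [h1, h2, hn] at hd
      rcases hq.dvd_mul.1 hd with h | h
      · exact hqp (hPpi q hq h)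
      · exact hqp (hq.dvd_of_dvd_pow h)
  have hle : ∀ K : Subgroup H, K.Normal → H14.IsPiSub π' K → K ≤ A := by
    intro K hK hKπ
    obtain ⟨g, -, hg⟩ := OOT.IsPiHallOf.exists_conj_le (M := (⊤ : Subgroup H)) inferInstance hAH
      (K := K) le_top hKπ
    rwa [cj_of_normal hK] at hg
  have hnn : ¬ Group.IsNilpotent H := by
    intro hnil
    obtain ⟨a, ha, ha1⟩ := H21.exists_ne_one hA1
    obtain ⟨x, hx, hx1⟩ := H21.exists_ne_one hP1
    have hnil' : Group.IsNilpotent (⊤ : Subgroup H) := H1.isNilpotent_of_equiv Subgroup.topEquiv.symm hnil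
    have h1 := H21.nil_cent hnil' (H := P) (K := A) le_top le_top (by
      refine Nat.coprime_of_dvd fun r hr h1 h2 => ?_
      exact hr.one_lt.ne' (Nat.eq_one_of_dvd_coprimes hAp h2 (hPpi r hr h1)))
    have h2 : x ∈ P ⊓ centralizer ({a} : Set H) :=
      Subgroup.mem_inf.2 ⟨hx, H21.mem_cent_singleton.2 (H21.mem_cent_iff.1 (h1 hx) a ha)⟩
    rw [hf a ha ha1, Subgroup.mem_bot] at h2
    exact hx1 h2
  have hfh := fh_ne_bot_of_not_nil hG hCN hHtop hnn
  set K := Cfsg.fittingHall H with hK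
  have hKn : Group.IsNilpotent K := H21.fittingHall_nilpotent H
  have hKnorm : K.Normal := inferInstance
  have hKπ : H14.IsPiSub π' K := by
    intro q hq hd hqp
    haveI : Fact q.Prime := ⟨hq⟩
    have hqp' : q ∣ p := hqp
    -- the Sylow `q`-subgroup of `K` is a normal Sylow subgroup of `H`
    have h1 := core_sylIn hKn q
    have h2 : (Cfsg.piCoreOf {q} K).Normal := by
      rw [← Subgroup.normalizer_eq_top_iff, eq_top_iff]
      have h1 := OOT.normalizer_le_normalizer_piCoreOf {q} K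
      rwa [(Subgroup.normalizer_eq_top_iff).2 hKnorm] at h1
    have h3 : Cfsg.piCoreOf {q} K ≤ P := by
      refine le_sSup ⟨h2, ?_⟩
      intro g
      obtain ⟨k, hk⟩ := h1.isPGroup g
      obtain ⟨m, hm⟩ := hqp'
      refine ⟨k, ?_⟩
      rw [hm, mul_pow, pow_mul, hk, one_pow]
    have h4 : q ∣ (P ⊔ A).index := by
      rw [hn]; exact hqp'.trans (dvd_pow_self p hn0)
    have h5 : (P ⊔ A).index ∣ (Cfsg.piCoreOf {q} K).index :=
      Subgroup.index_dvd_of_le (h3.trans le_sup_left)
    have h6 := h4.trans h5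
    rw [← Subgroup.relIndex_mul_index (OOT.piCoreOf_le {q} K)] at h6
    rcases hq.dvd_mul.1 h6 with h | h
    · exact h1.not_dvd h
    · exact hq.one_lt.ne' (Nat.eq_one_of_dvd_coprimes (H21.fittingHall_coprime H) hd h)
  obtain ⟨k, hk, hk1⟩ := H21.exists_ne_one hfh
  obtain ⟨x, hx, hx1⟩ := H21.exists_ne_one hP1
  have hPK : P ⊓ K = ⊥ := by
    apply H1.inf_eq_bot_of_card_coprime
    refine Nat.coprime_of_dvd fun r hr h1 h2 => ?_
    exact hKπ r hr h2 (hPpi r hr h1)
  have h7 := comm_of_normal_coprime hPn hKnorm hPK hx hk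
  have h2 : x ∈ P ⊓ centralizer ({k} : Set H) :=
    Subgroup.mem_inf.2 ⟨hx, H21.mem_cent_singleton.2 h7⟩
  rw [hf k (hle K hKnorm hKπ hk) hk1, Subgroup.mem_bot] at h2
  exact hx1 h2

/-- Let G be a minimal simple group of odd order in which every non-identity element has nilpotent centralizer. Then no subgroup of G is a three-step group with respect to any prime. -/
theorem result {G : Type*} [Group G] [Finite G] (hG : Cfsg.IsMinSimpleOddOrder G) (hCN : Cfsg.IsCNGroup G) :
    ∀ (H : Subgroup G) (p : ℕ), ¬ Cfsg.IsThreeStepGroup p ↥H := by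
  intro H p hts
  by_cases hp : p.Prime
  · exact Cfsg.Agent.H18.no_three_step hG hCN H hp hts
  · exact npr hG hCN H p hp hts

end Cfsg.Agent.S1478
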