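import Cfsg.Statements.S1479
import Cfsg.Agent.H18.CN9

set_option autoImplicit false
open Cfsg
open Cfsg.Agent Cfsg.Agent.H18

namespace Cfsg.Agent.S1479

/-- Let G be a minimal simple group of odd order in which every non-identity element has nilpotent centralizer, and H a nilpotent subgroup contained in no larger nilpotent subgroup. Then the order of H is coprime to its index, H ∩ gHg⁻¹ = 1 whenever gHg⁻¹ ≠ H, N_G(H) is a maximal subgroup, and N_G(H) has a complement E to H acting on H without non-identity fixed points. Conversely, every maximal subgroup M of G has a normal nilpotent subgroup H, maximal among nilpotent subgroups of G, with a complement in M acting on H without non-identity fixed points. -/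
theorem result {G : Type*} [Group G] [Finite G] (hG : Cfsg.IsMinSimpleOddOrder G) (hCN : Cfsg.IsCNGroup G)  :
    (∀ H : Subgroup G, Group.IsNilpotent H → (∀ L : Subgroup G, Group.IsNilpotent L → H ≤ L → L = H) →
        (Nat.card H).Coprime H.index ∧ (∀ g : G, H.map (MulAut.conj g).toMonoidHom ≠ H → H ⊓ H.map (MulAut.conj g).toMonoidHom = ⊥) ∧
        IsCoatom (Subgroup.normalizer (H : Set G)) ∧
        ∃ E : Subgroup G, Cfsg.IsComplIn H E (Subgroup.normalizer (H : Set G)) ∧ E ≠ ⊥ ∧
          ∀ e ∈ E, e ≠ 1 → H ⊓ Subgroup.centralizer ({e} : Set G) = ⊥) ∧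
      ∀ M : Subgroup G, IsCoatom M → ∃ H E : Subgroup G, Group.IsNilpotent H ∧ (∀ L : Subgroup G, Group.IsNilpotent L → H ≤ L → L = H) ∧
        M ≤ Subgroup.normalizer (H : Set G) ∧ Cfsg.IsComplIn H E M ∧ H ≠ ⊥ ∧ E ≠ ⊥ ∧
        ∀ e ∈ E, e ≠ 1 → H ⊓ Subgroup.centralizer ({e} : Set G) = ⊥ := by
  constructor
  · intro H hH hmax
    have hM : MaxNil H := ⟨hH, hmax⟩
    obtain ⟨h1, h2⟩ := maxNil_struct hG hCN hM
    obtain ⟨E, h3, h4, h5⟩ := coatom_compl hG hCN h1
    rw [h2] at h3 h5
    exact ⟨maxNil_hall hCN hM, fun g hg => maxNil_ti' hG hCN hM g hg, h1, E, h3, h4, h5⟩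
  · intro M hM
    obtain ⟨h1, h2, -, -, h3⟩ := coatom_struct hG hCN hM
    obtain ⟨E, h4, h5, h6⟩ := coatom_compl hG hCN hM
    exact ⟨Cfsg.fittingHallOf M, E, h1.1, h1.2, h3.ge, h4, h2, h5, h6⟩

end Cfsg.Agent.S1479
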