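import Cfsg.Statements.S1481
import Cfsg.Agent.H18.MaxSub3

set_option autoImplicit false
open Cfsg
open Cfsg.Agent.H18 Cfsg.Agent.H10

namespace Cfsg.Agent.S1481

/-- Let G be a finite group and H a local subgroup (the normalizer of a nontrivial subgroup of prime-power order) not properly contained in any local subgroup; let F = F(H), suppose at least two primes divide #F, put X = H ∩ C_G(F), let M ≤ F with F ∩ C_G(M) ≤ M, and let R be a solvable subgroup normalized by M and by X. Then for every prime q not dividing #F there is exactly one maximal M-invariant q-subgroup of R, and it is a Sylow q-subgroup of the largest normal subgroup of R of order coprime to #F. -/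
theorem result {G : Type*} [Group G] [Finite G] (H : Subgroup G) (hH : Cfsg.IsLocalSubgroup H) (hHmax : ∀ L : Subgroup G, Cfsg.IsLocalSubgroup L → H ≤ L → L = H)
    (hF2 : 2 ≤ (Nat.card (Cfsg.fittingOf H)).primeFactors.card)
    (M : Subgroup G) (hM : M ≤ Cfsg.fittingOf H) (hCM : Cfsg.fittingOf H ⊓ Subgroup.centralizer (M : Set G) ≤ M)
    (R : Subgroup G) (hR : Group.IsSolvable R) (hMR : M ≤ Subgroup.normalizer (R : Set G))
    (hXR : H ⊓ Subgroup.centralizer (Cfsg.fittingOf H : Set G) ≤ Subgroup.normalizer (R : Set G))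
    (q : ℕ) [Fact q.Prime] (hq : ¬ q ∣ Nat.card (Cfsg.fittingOf H)) :
    ∃! Q : Subgroup G, Q ∈ Cfsg.maxInvSubgroups R M {q} ∧
      (∀ Q' : Subgroup G, Q' ∈ Cfsg.maxInvSubgroups R M {q} →
        Q' ≤ Cfsg.piCoreOf (Cfsg.primesNotDvd (Nat.card (Cfsg.fittingOf H))) R ∧
        ¬ q ∣ Q'.relIndex (Cfsg.piCoreOf (Cfsg.primesNotDvd (Nat.card (Cfsg.fittingOf H))) R)) := by
  have hq' : q.Prime := Fact.out
  have hN : ∀ p : ℕ, p.Prime → cO p H ≠ ⊥ → Subgroup.normalizer (zO p H : Set G) ≤ H := by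
    intro p hp h0
    haveI : Fact p.Prime := ⟨hp⟩
    exact (hHmax _ ⟨p, zO p H, hp, (cO_isPGroup p H).to_le (zO_le p H), zO_ne_bot hp h0, rfl⟩
      (le_nz_zO p H)).le
  have hM' : M ≤ cF H := hM
  have hCM' : cF H ⊓ Subgroup.centralizer (M : Set G) ≤ M := hCM
  have hcore : ∀ Q : Subgroup G, Q ≤ R → IsPGroup q Q → M ≤ Subgroup.normalizer (Q : Set G) →
      Q ≤ Cfsg.piCoreOf (Cfsg.primesNotDvd (Nat.card (Cfsg.fittingOf H))) R :=
    fun Q hQR hQ hMQ => q_le_core hM' hCM' hF2 hN hR hMR hXR hq' hq hQR hQ hMQ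
  set U := Cfsg.piCoreOf (Cfsg.primesNotDvd (Nat.card (Cfsg.fittingOf H))) R with hU
  have hUR : U ≤ R := OOT.piCoreOf_le _ _
  have hUpi : H14.IsPiSub (Cfsg.primesNotDvd (Nat.card (Cfsg.fittingOf H))) U :=
    OOT.isPiSub_piCoreOf _ _
  have hUcop : Nat.Coprime (Nat.card U) (Nat.card (Cfsg.fittingOf H)) := coprime_of_isPiSub hUpi
  have hMU : M ≤ Subgroup.normalizer (U : Set G) :=
    hMR.trans (OOT.normalizer_le_normalizer_piCoreOf _ _)
  have hcop : Nat.Coprime (Nat.card M) (Nat.card U) :=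
    (Nat.Coprime.coprime_dvd_right (Subgroup.card_dvd_of_le hM) hUcop).symm
  have hUs : Group.IsSolvable U := isSolvable_of_le hUR hR
  have hUM : U ⊓ Subgroup.centralizer (M : Set G) = ⊥ := by
    obtain ⟨r, hr, hrn, -⟩ := exists_other_prime (p := 0) hF2
    rw [eq_bot_iff, ← fix_bot hM' hCM' hR hXR hUR hMU hUcop hr
      (hN r hr ((dvd_card_cF_iff hr).1 hrn))]
    exact inf_le_inf le_rfl (Subgroup.centralizer_le inf_le_left)
  have hinv : ∀ Y : Subgroup G, Y ∈ Cfsg.invSubgroups R M {q} ↔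
      Y ≤ R ∧ IsPGroup q Y ∧ M ≤ Subgroup.normalizer (Y : Set G) := by
    intro Y
    constructor
    · rintro ⟨h1, h2, h3⟩
      exact ⟨h1, OOT.isPGroup_of_isPiSub h2, h3⟩
    · rintro ⟨h1, h2, h3⟩
      exact ⟨h1, OOT.isPiSub_of_isPGroup (Set.mem_singleton q) h2, h3⟩
  -- maximal ones are Sylow in `U`
  have hsyl : ∀ Q ∈ Cfsg.maxInvSubgroups R M {q}, H23.IsSylowOf q Q U ∧
      M ≤ Subgroup.normalizer (Q : Set G) := by
    rintro Q ⟨hQ, hmax⟩
    obtain ⟨h1, h2, h3⟩ := (hinv Q).1 hQ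
    have h4 := hcore Q h1 h2 h3
    obtain ⟨S, hS, hMS, hQS⟩ := H23.exists_invariant_sylow_ge hMU hcop (Or.inr hUs) h4 h2 h3
    have h5 := hmax S ((hinv S).2 ⟨hS.le.trans hUR, hS.isPGroup, hMS⟩) hQS
    rw [← h5]
    exact ⟨hS, hMS⟩
  have huniq : ∀ Q₁ Q₂ : Subgroup G, H23.IsSylowOf q Q₁ U → M ≤ Subgroup.normalizer (Q₁ : Set G) →
      H23.IsSylowOf q Q₂ U → M ≤ Subgroup.normalizer (Q₂ : Set G) → Q₁ = Q₂ := by
    intro Q₁ Q₂ h1 h2 h3 h4
    obtain ⟨c, hc, hcQ⟩ := H23.invariant_sylow_conj hMU hcop (Or.inr hUs) h1 h3 h2 h4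
    rw [hUM, Subgroup.mem_bot] at hc
    rw [hc] at hcQ
    simpa using hcQ
  obtain ⟨S, hS, hMS⟩ := H23.exists_invariant_sylow hMU hcop (Or.inr hUs) q
  refine ⟨S, ⟨⟨(hinv S).2 ⟨hS.le.trans hUR, hS.isPGroup, hMS⟩, ?_⟩, ?_⟩, ?_⟩
  · intro T hT hST
    obtain ⟨h1, h2, h3⟩ := (hinv T).1 hT
    obtain ⟨S', hS', hMS', hTS'⟩ := H23.exists_invariant_sylow_ge hMU hcop (Or.inr hUs)
      (hcore T h1 h2 h3) h2 h3
    have h4 := huniq S S' hS hMS hS' hMS'
    rw [← h4] at hTS'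
    exact le_antisymm hTS' hST
  · intro Q' hQ'
    obtain ⟨h1, h2⟩ := hsyl Q' hQ'
    exact ⟨h1.le, h1.not_dvd⟩
  · rintro Q' ⟨hQ', -⟩
    obtain ⟨h1, h2⟩ := hsyl Q' hQ'
    exact huniq Q' S h1 h2 hS hMS

end Cfsg.Agent.S1481
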