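import Cfsg.Statements.S1483
import Cfsg.Agent.H18.CN10

set_option autoImplicit false
open Cfsg
open Cfsg.Agent Cfsg.Agent.H18 Subgroup

namespace Cfsg.Agent.S1483

/-- Let G be a minimal simple group of odd order in which every non-identity element has nilpotent centralizer. Then any two nilpotent subgroups each contained in no larger nilpotent subgroup are either conjugate or of coprime orders; and for primes p, q, r: if some elements x, y ≠ 1 of p-power and q-power order commute, and some elements y', z ≠ 1 of q-power and r-power order commute, then some elements of p-power and r-power order, both ≠ 1, commute. -/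
theorem result {G : Type*} [Group G] [Finite G] (hG : Cfsg.IsMinSimpleOddOrder G) (hCN : Cfsg.IsCNGroup G) :
    (∀ H₁ H₂ : Subgroup G, (Group.IsNilpotent ↥H₁ ∧ ∀ L : Subgroup G, Group.IsNilpotent L → H₁ ≤ L → L = H₁) → (Group.IsNilpotent ↥H₂ ∧ ∀ L : Subgroup G, Group.IsNilpotent L → H₂ ≤ L → L = H₂) → (∃ g : G, H₂ = H₁.map (MulAut.conj g).toMonoidHom) ∨ (Nat.card H₁).Coprime (Nat.card H₂)) ∧
      ∀ (p q r : ℕ), p.Prime → q.Prime → r.Prime → ∀ (x y y' z : G), x ≠ 1 → y ≠ 1 → y' ≠ 1 → z ≠ 1 →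
        IsPGroup p (Subgroup.zpowers x) → IsPGroup q (Subgroup.zpowers y) → IsPGroup q (Subgroup.zpowers y') → IsPGroup r (Subgroup.zpowers z) →
        x * y = y * x → y' * z = z * y' →
        ∃ x' z' : G, x' ≠ 1 ∧ z' ≠ 1 ∧ IsPGroup p (Subgroup.zpowers x') ∧ IsPGroup r (Subgroup.zpowers z') ∧ x' * z' = z' * x' := by
  constructor
  · intro H₁ H₂ h₁ h₂
    by_cases hc : (Nat.card H₁).Coprime (Nat.card H₂)
    · exact Or.inr hc
    · left
      obtain ⟨p, hp, h1, h2⟩ := Nat.Prime.not_coprime_iff_dvd.1 hc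
      exact maxNil_conj hG hCN h₁ h₂ hp h1 h2
  · intro p q r hp hq hr x y y' z hx1 hy1 hy'1 hz1 hxp hyq hy'q hzr hxy hyz
    haveI : Fact p.Prime := ⟨hp⟩
    haveI : Fact q.Prime := ⟨hq⟩
    haveI : Fact r.Prime := ⟨hr⟩
    have hcyc : ∀ w : G, Group.IsNilpotent (zpowers w) := fun w => by
      apply nil_iff_comm.2
      intro p q _ _ _ a ha b hb _ _
      exact H21.comm_of_cyclic inferInstance a ha b hb
    obtain ⟨H₁, hH₁, hy⟩ := exists_maxNil (hcyc y)
    obtain ⟨H₂, hH₂, hy'⟩ := exists_maxNil (hcyc y')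
    have hyH : y ∈ H₁ := hy (mem_zpowers y)
    have hy'H : y' ∈ H₂ := hy' (mem_zpowers y')
    have hxH : x ∈ H₁ := maxNil_cent' hG hCN hH₁ hyH hy1 (H21.mem_cent_singleton.2 hxy)
    have hzH : z ∈ H₂ := maxNil_cent' hG hCN hH₂ hy'H hy'1 (H21.mem_cent_singleton.2 hyz.symm)
    obtain ⟨g, hg⟩ := maxNil_conj hG hCN hH₁ hH₂ hq (dvd_card_of_isPGroup hyq hy1 hyH)
      (dvd_card_of_isPGroup hy'q hy'1 hy'H)
    rw [hg, L.mem_cj] at hzH
    by_cases hpr : p = r
    · subst hpr
      exact ⟨x, x, hx1, hx1, hxp, hxp, rfl⟩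
    · have hz1' : g⁻¹ * z * g ≠ 1 := by
        intro h
        apply hz1
        have := congrArg (fun t => g * t * g⁻¹) h
        simpa [mul_assoc] using this
      have hzr' : IsPGroup r (zpowers (g⁻¹ * z * g)) := by
        have h1 : zpowers (g⁻¹ * z * g) = (zpowers z).map (MulAut.conj g⁻¹).toMonoidHom := by
          rw [MonoidHom.map_zpowers]
          congr 1
          show _ = g⁻¹ * z * g⁻¹⁻¹
          rw [inv_inv]
        rw [h1]; exact hzr.map _
      refine ⟨x, g⁻¹ * z * g, hx1, hz1', hxp, hzr', ?_⟩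
      exact nil_iff_comm.1 hH₁.1 p r inferInstance inferInstance hpr x hxH _ hzH hxp hzr'

end Cfsg.Agent.S1483
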