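import Cfsg.Statements.S1484
import Cfsg.Agent.H18.CN10

set_option autoImplicit false
open Cfsg
open Cfsg.Agent Cfsg.Agent.H18 Subgroup

namespace Cfsg.Agent.S1484

/-- Let G be a minimal simple group of odd order in which every non-identity element has nilpotent centralizer, and M₁, …, M_k maximal subgroups, pairwise non-conjugate, such that every maximal subgroup is conjugate to some M_i. Let H_i be the largest normal nilpotent Hall subgroup of M_i. Then the orders of the H_i are pairwise coprime, their product is the order of G, and every element of G is conjugate to an element of some H_i. -/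
theorem result {G : Type*} [Group G] [Finite G] (hG : Cfsg.IsMinSimpleOddOrder G) (hCN : Cfsg.IsCNGroup G) (k : ℕ) (Mrep : Fin k → Subgroup G) (hmax : ∀ i, IsCoatom (Mrep i))
    (hnc : ∀ i j, i ≠ j → ∀ g : G, Mrep j ≠ (Mrep i).map (MulAut.conj g).toMonoidHom) (hall : ∀ M : Subgroup G, IsCoatom M → ∃ i, ∃ g : G, M = (Mrep i).map (MulAut.conj g).toMonoidHom) :
    (∀ i j, i ≠ j → (Nat.card (Cfsg.fittingHallOf (Mrep i))).Coprime (Nat.card (Cfsg.fittingHallOf (Mrep j)))) ∧
      ∏ i, Nat.card (Cfsg.fittingHallOf (Mrep i)) = Nat.card G ∧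
      ∀ x : G, ∃ i, ∃ g : G, g * x * g⁻¹ ∈ Cfsg.fittingHallOf (Mrep i) := by
  classical
  have hcop : ∀ i j, i ≠ j → (Nat.card (Cfsg.fittingHallOf (Mrep i))).Coprime (Nat.card (Cfsg.fittingHallOf (Mrep j))) := by
    intro i j hij
    by_contra hc
    obtain ⟨p, hp, h1, h2⟩ := Nat.Prime.not_coprime_iff_dvd.1 hc
    obtain ⟨hi, -, -, -, hi'⟩ := coatom_struct hG hCN (hmax i)
    obtain ⟨hj, -, -, -, hj'⟩ := coatom_struct hG hCN (hmax j)
    obtain ⟨g, hg⟩ := maxNil_conj hG hCN hi hj hp h1 h2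
    apply hnc i j hij g
    show Mrep j = L.cj g (Mrep i)
    have h3 := L.nz_cj g (Cfsg.fittingHallOf (Mrep i))
    rw [← hg] at h3
    have h4 : L.nz (Cfsg.fittingHallOf (Mrep j)) = Mrep j := hj'
    have h5 : L.nz (Cfsg.fittingHallOf (Mrep i)) = Mrep i := hi'
    rw [h4, h5] at h3
    exact h3
  have hconj : ∀ x : G, ∃ i, ∃ g : G, g * x * g⁻¹ ∈ Cfsg.fittingHallOf (Mrep i) := by
    intro x
    have hcyc : Group.IsNilpotent (zpowers x) := by
      apply nil_iff_comm.2
      intro p q _ _ _ a ha b hb _ _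
      exact H21.comm_of_cyclic inferInstance a ha b hb
    obtain ⟨H, hH, hx⟩ := exists_maxNil hcyc
    obtain ⟨h1, h2⟩ := maxNil_struct hG hCN hH
    obtain ⟨i, g, hi⟩ := hall _ h1
    have h3 : L.cj g (Cfsg.fittingHallOf (Mrep i)) = H := by
      rw [H21.cj_fhOf]
      have : L.cj g (Mrep i) = normalizer (H : Set G) := hi.symm
      rw [this, h2]
    have h4 : x ∈ L.cj g (Cfsg.fittingHallOf (Mrep i)) := by rw [h3]; exact hx (mem_zpowers x)
    rw [L.mem_cj] at h4
    exact ⟨i, g⁻¹, by simpa using h4⟩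
  refine ⟨hcop, ?_, hconj⟩
  have hdvd : (∏ i, Nat.card (Cfsg.fittingHallOf (Mrep i))) ∣ Nat.card G := by
    apply Finset.prod_dvd_of_isRelPrime
    · intro i _ j _ hij
      exact Nat.coprime_iff_isRelPrime.1 (hcop i j hij)
    · intro i _
      exact Subgroup.card_subgroup_dvd_card _
  obtain ⟨m, hm⟩ := hdvd
  have hm1 : m = 1 := by
    by_contra hne
    obtain ⟨p, hp, hpm⟩ := Nat.exists_prime_and_dvd hne
    haveI : Fact p.Prime := ⟨hp⟩
    have hpG : p ∣ Nat.card G := by rw [hm]; exact hpm.trans (Dvd.intro_left _ rfl)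
    obtain ⟨x, hx⟩ := exists_prime_orderOf_dvd_card' p hpG
    obtain ⟨i, g, hg⟩ := hconj x
    have h1 : p ∣ Nat.card (Cfsg.fittingHallOf (Mrep i)) := by
      have e1 : orderOf (g * x * g⁻¹) = orderOf x := by
        have := (MulAut.conj g).orderOf_eq x
        simpa [MulAut.conj_apply] using this
      rw [← hx, ← e1]
      exact Subgroup.orderOf_dvd_natCard _ hg
    obtain ⟨hi, -⟩ := coatom_struct hG hCN (hmax i)
    have h2 := maxNil_hall hCN hi
    have h3 := (Cfsg.fittingHallOf (Mrep i)).card_mul_index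
    rw [hm, ← Finset.mul_prod_erase Finset.univ _ (Finset.mem_univ i), mul_assoc] at h3
    have h4 := Nat.eq_of_mul_eq_mul_left Nat.card_pos h3
    have h5 : p ∣ (Cfsg.fittingHallOf (Mrep i)).index := by
      rw [h4]; exact hpm.trans (Dvd.intro_left _ rfl)
    exact hp.one_lt.ne' (Nat.eq_one_of_dvd_coprimes h2 h1 h5)
  rw [hm, hm1, mul_one]

end Cfsg.Agent.S1484
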