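import Cfsg.Statements.S1485
import Cfsg.Agent.H11.PF1
-- import your own Cfsg.Agent.* helpers here

set_option autoImplicit false
open Cfsg

namespace Cfsg.Agent.S1485

/-- Let H be a normal subgroup of the finite group G and θ an irreducible character of H. On H, the function induced from θ equals r times the sum of the distinct G-conjugates of θ, where r is the number of elements of G fixing θ under conjugation divided by the order of H (the index of H in the inertia group). -/
theorem result {G : Type*} [Group G] [Fintype G] (H : Subgroup G) [hN : H.Normal] (θ : H → ℂ) (hθ : Cfsg.IsIrrCharacter H θ) : (fun h : H => Cfsg.indFun H θ h) = ((Nat.card {g : G // ∀ h : H, θ ⟨g * h * g⁻¹, hN.conj_mem h h.2 g⟩ = θ h} : ℂ) / (Nat.card H : ℂ)) • ∑ᶠ ψ ∈ {ψ : H → ℂ | ∃ g : G, ψ = fun h : H => θ ⟨g * h * g⁻¹, hN.conj_mem h h.2 g⟩}, ψ := by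
  funext h
  have h1 := Cfsg.Agent.H3.indFun_restrict_normal hN θ h
  have h2 := congrFun (Cfsg.Agent.H11.PF.sum_cj_eq hN θ) h
  rw [Finset.sum_apply] at h2
  show Cfsg.indFun H θ h = _
  rw [h1, h2]
  have e1 : Nat.card (Cfsg.Agent.H3.inertia hN θ) =
      Nat.card {g : G // ∀ h : H, θ ⟨g * h * g⁻¹, hN.conj_mem h h.2 g⟩ = θ h} :=
    Nat.card_congr (Equiv.subtypeEquivRight fun g => Cfsg.Agent.H3.mem_inertia' hN θ g)
  rw [e1]
  simp only [Pi.smul_apply, smul_eq_mul]
  rw [div_eq_mul_inv, mul_comm (Nat.card _ : ℂ) (Nat.card H : ℂ)⁻¹, mul_assoc]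
  rfl

end Cfsg.Agent.S1485
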