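import Cfsg.Statements.S1490
import Cfsg.Agent.H11.PF2
-- import your own Cfsg.Agent.* helpers here

set_option autoImplicit false
open Cfsg

namespace Cfsg.Agent.S1490

/-- Let H be a normal subgroup of the finite group G, θ an irreducible character of H with inertia group T, and suppose the commutator of any two elements of T lies in H (T/H abelian). Then there are a positive integer e and a finite set C of irreducible characters of G with e ^ 2 * |C| * |H| = |T|, such that the function induced from θ is e times the sum of the members of C and every member of C has degree [G:T] * e * θ(1). -/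
theorem result {G : Type*} [Group G] [Fintype G] (H T : Subgroup G) [hN : H.Normal] (θ : H → ℂ) (hθ : Cfsg.IsIrrCharacter H θ) (hT : ∀ g : G, g ∈ T ↔ ∀ h : H, θ ⟨g * h * g⁻¹, hN.conj_mem h h.2 g⟩ = θ h) (hab : ∀ x ∈ T, ∀ y ∈ T, x * y * x⁻¹ * y⁻¹ ∈ H) : ∃ (e : ℕ) (C : Finset (G → ℂ)), 0 < e ∧ (∀ χ ∈ C, Cfsg.IsIrrCharacter G χ) ∧ e ^ 2 * C.card * Nat.card H = Nat.card T ∧ Cfsg.indFun H θ = (e : ℂ) • ∑ χ ∈ C, χ ∧ ∀ χ ∈ C, χ 1 = (T.index : ℂ) * e * θ 1 := by
  classical
  have hT' : T = Cfsg.Agent.H3.inertia hN θ := by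
    ext g
    rw [hT, Cfsg.Agent.H3.mem_inertia' hN θ g]
  have hHT : H ≤ T := by
    rw [hT']
    exact Cfsg.Agent.H3.le_inertia hN (Cfsg.Agent.H3.irr_classFun hθ)
  obtain ⟨e, ψ, he, hψ, hres⟩ := Cfsg.Agent.H11.PF.exists_over_inertia hN hθ hT' hHT
  obtain ⟨C, h1, h2, h3, h4⟩ := Cfsg.Agent.H11.PF.ind_abelian_inertia hN hθ hT' hHT hab e he
    hψ hres
  refine ⟨e, C, he, h1, ?_, h3, h4⟩
  rw [h2, mul_comm]
  have h5 := Subgroup.relIndex_mul_relIndex (⊥ : Subgroup G) H T bot_le hHT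
  rwa [Subgroup.relIndex_bot_left, Subgroup.relIndex_bot_left] at h5

end Cfsg.Agent.S1490
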