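import Cfsg.Statements.S1504
import Cfsg.Agent.H11.PF12
-- import your own Cfsg.Agent.* helpers here

set_option autoImplicit false
open Cfsg

namespace Cfsg.Agent.S1504

/-- Let W₁, W₂ be subgroups of a finite group with W₁ ⊓ W₂ = ⊥ whose elements commute, and W = W₁ ⊔ W₂. For linear characters φ, ψ of W with φ trivial on W₂ and ψ trivial on W₁, the function (1 − φ)(1 − ψ) vanishes on W₁ ∪ W₂; and the family of these functions, indexed by pairs (φ, ψ) with φ ≠ 1 ≠ ψ, is linearly independent over ℂ. -/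
theorem result {G : Type*} [Group G] [Finite G] (W₁ W₂ : Subgroup G) (hdisj : W₁ ⊓ W₂ = ⊥) (hcomm : ∀ a ∈ W₁, ∀ b ∈ W₂, a * b = b * a) : (∀ φ ψ : ↥(W₁ ⊔ W₂) →* ℂˣ, (∀ w : ↥(W₁ ⊔ W₂), (w : G) ∈ W₂ → φ w = 1) → (∀ w : ↥(W₁ ⊔ W₂), (w : G) ∈ W₁ → ψ w = 1) → ∀ w : ↥(W₁ ⊔ W₂), ((w : G) ∈ W₁ ∨ (w : G) ∈ W₂) → (1 - (φ w : ℂ) - (ψ w : ℂ) + (φ w : ℂ) * (ψ w : ℂ)) = 0) ∧ LinearIndependent ℂ (fun p : {p : (↥(W₁ ⊔ W₂) →* ℂˣ) × (↥(W₁ ⊔ W₂) →* ℂˣ) // p.1 ≠ 1 ∧ p.2 ≠ 1 ∧ (∀ w : ↥(W₁ ⊔ W₂), (w : G) ∈ W₂ → p.1 w = 1) ∧ (∀ w : ↥(W₁ ⊔ W₂), (w : G) ∈ W₁ → p.2 w = 1)} => fun w : ↥(W₁ ⊔ W₂) => 1 - (p.1.1 w : ℂ) - (p.1.2 w : ℂ) + (p.1.1 w : ℂ) * (p.1.2 w : ℂ)) := by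
  classical
  constructor
  · intro φ ψ hφ hψ w hw
    exact Cfsg.Agent.H11.PF.al_zero (Cfsg.Agent.H11.PF.isAnn_iff.mpr hφ)
      (Cfsg.Agent.H11.PF.isAnn_iff.mpr hψ) w hw
  · haveI : Fintype ↥(W₁ ⊔ W₂) := Fintype.ofFinite _
    rw [linearIndependent_iff']
    intro s c hsum p hp
    have h1 : ∀ q ∈ s, Cfsg.classInner (fun w : ↥(W₁ ⊔ W₂) =>
        1 - (q.1.1 w : ℂ) - (q.1.2 w : ℂ) + (q.1.1 w : ℂ) * (q.1.2 w : ℂ))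
        (Cfsg.Agent.H3.hf (p.1.1 * p.1.2)) = if q = p then 1 else 0 := by
      intro q _
      have h2 := Cfsg.Agent.H11.PF.inner_al_top Cfsg.Agent.H11.PF.sub_top
        (Cfsg.Agent.H11.PF.isAnn_iff.mpr q.2.2.2.1) (Cfsg.Agent.H11.PF.isAnn_iff.mpr p.2.2.2.1)
        (Cfsg.Agent.H11.PF.isAnn_iff.mpr q.2.2.2.2) (Cfsg.Agent.H11.PF.isAnn_iff.mpr p.2.2.2.2)
        p.2.1 p.2.2.1
      refine Eq.trans h2 ?_
      have h3 : (q.1.1 = p.1.1 ∧ q.1.2 = p.1.2) ↔ q = p := by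
        constructor
        · rintro ⟨ha, hb⟩
          exact Subtype.ext (Prod.ext ha hb)
        · rintro rfl; exact ⟨rfl, rfl⟩
      by_cases h : q = p
      · rw [if_pos h, if_pos (h3.mpr h)]
      · rw [if_neg h, if_neg (fun h' => h (h3.mp h'))]
    have h2 : Cfsg.classInner (∑ q ∈ s, c q • fun w : ↥(W₁ ⊔ W₂) =>
        1 - (q.1.1 w : ℂ) - (q.1.2 w : ℂ) + (q.1.1 w : ℂ) * (q.1.2 w : ℂ))
        (Cfsg.Agent.H3.hf (p.1.1 * p.1.2)) = 0 := by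
      rw [hsum, Cfsg.Agent.H3.classInner_zero_left]
    rw [Cfsg.Agent.H3.classInner_sum_left] at h2
    rw [Finset.sum_congr rfl (fun q hq => by
      rw [Cfsg.Agent.H3.classInner_smul_left, h1 q hq])] at h2
    simpa [hp] using h2

end Cfsg.Agent.S1504
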