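import Cfsg.Statements.S1507
import Cfsg.Agent.H11.PF18
-- import your own Cfsg.Agent.* helpers here

set_option autoImplicit false
open Cfsg

namespace Cfsg.Agent.S1507

open Classical in
/-- Let W₁, W₂ ≤ G form a self-normalising cyclic subgroup W = W₁ ⊔ W₂ of odd order with Nat.card W₁ < Nat.card W₂, and χ an orthonormal family of irreducible characters of G up to sign, indexed by the linear characters ω of W, with χ_1 = 1, χ_ω = ω on W outside W₁ ∪ W₂, and the induction identity for (1 − φ)(1 − ψ). Let θ be a class function of G vanishing on W outside W₁ ∪ W₂, and suppose fewer than 2 · Nat.card W₁ linear characters ω of W have ⟨θ, χ ω⟩ ≠ 0. Then one of: all ⟨θ, χ ω⟩ vanish; or there are ψ₀ and a with ⟨θ, χ ω⟩ = a when ω ψ₀⁻¹ is trivial on W₂ and 0 otherwise; or there are φ₀ and a with ⟨θ, χ ω⟩ = a when ω φ₀⁻¹ is trivial on W₁ and 0 otherwise. -/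
theorem result {G : Type*} [Group G] [Fintype G] (W₁ W₂ : Subgroup G) (hW : Cfsg.IsSelfNormalizingCyclic W₁ W₂) (hodd : Odd (Nat.card ↥(W₁ ⊔ W₂))) (χ : (↥(W₁ ⊔ W₂) →* ℂˣ) → (G → ℂ)) (hχ : Cfsg.IsCyclicTIFamily W₁ W₂ χ) (hlt : Nat.card W₁ < Nat.card W₂) (θ : G → ℂ) (hθ : Cfsg.IsClassFunction G θ) (hθV : ∀ w : ↥(W₁ ⊔ W₂), (w : G) ∉ W₁ → (w : G) ∉ W₂ → θ w = 0) (hfew : Nat.card {ω : ↥(W₁ ⊔ W₂) →* ℂˣ // Cfsg.classInner θ (χ ω) ≠ 0} < 2 * Nat.card W₁) : (∀ ω, Cfsg.classInner θ (χ ω) = 0) ∨ (∃ (ψ₀ : ↥(W₁ ⊔ W₂) →* ℂˣ) (a : ℂ), ∀ ω, Cfsg.classInner θ (χ ω) = if (∀ w : ↥(W₁ ⊔ W₂), (w : G) ∈ W₂ → (ω * ψ₀⁻¹) w = 1) then a else 0) ∨ (∃ (φ₀ : ↥(W₁ ⊔ W₂) →* ℂˣ) (a : ℂ), ∀ ω, Cfsg.classInner θ (χ ω) = if (∀ w : ↥(W₁ ⊔ W₂), (w : G) ∈ W₁ → (ω * φ₀⁻¹) w = 1) then a else 0) := by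
  have hc := Cfsg.Agent.H11.PF.comm_of_selfnorm hW
  have hinf := Cfsg.Agent.H11.PF.sub_inf hW.2.2.1
  have htop := Cfsg.Agent.H11.PF.sub_top (W₁ := W₁) (W₂ := W₂)
  rcases Cfsg.Agent.H11.PF.few_constituents hW hodd hχ hlt hθ hθV hfew with
    h | ⟨ψ₀, a, hψ₀, h⟩ | ⟨φ₀, a, hφ₀, h⟩
  · exact Or.inl h
  · right; left
    refine ⟨ψ₀, a, fun ω => ?_⟩
    obtain ⟨φ, ψ, hφ, hψ, rfl⟩ := Cfsg.Agent.H11.PF.dual_factor hc hinf htop ω
    have h1 := h φ ψ hφ hψ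
    split_ifs with h2
    · apply h1.1
      have h3 : Cfsg.Agent.H11.PF.IsAnn (W₂.subgroupOf (W₁ ⊔ W₂)) (ψ * ψ₀⁻¹) := by
        intro w hw
        have h4 := h2 w (Subgroup.mem_subgroupOf.mp hw)
        have h5 := hφ w hw
        rw [MonoidHom.mul_apply, MonoidHom.mul_apply, h5, one_mul] at h4
        exact h4
      have h4 := Cfsg.Agent.H11.PF.ann_both htop (hψ.mul hψ₀.inv) h3
      ext w
      have h5 := congrArg (fun f : ↥(W₁ ⊔ W₂) →* ℂˣ => f w) h4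
      simp only [MonoidHom.mul_apply, MonoidHom.inv_apply, MonoidHom.one_apply] at h5
      rw [mul_inv_eq_one.mp h5]
    · apply h1.2
      rintro rfl
      apply h2
      intro w hw
      rw [MonoidHom.mul_apply, MonoidHom.mul_apply, MonoidHom.inv_apply, mul_inv_cancel_right]
      exact hφ w (Subgroup.mem_subgroupOf.mpr hw)
  · right; right
    refine ⟨φ₀, a, fun ω => ?_⟩
    obtain ⟨φ, ψ, hφ, hψ, rfl⟩ := Cfsg.Agent.H11.PF.dual_factor hc hinf htop ω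
    have h1 := h φ ψ hφ hψ
    split_ifs with h2
    · apply h1.1
      have h3 : Cfsg.Agent.H11.PF.IsAnn (W₁.subgroupOf (W₁ ⊔ W₂)) (φ * φ₀⁻¹) := by
        intro w hw
        have h4 := h2 w (Subgroup.mem_subgroupOf.mp hw)
        have h5 := hψ w hw
        rw [MonoidHom.mul_apply, MonoidHom.mul_apply, h5, mul_one] at h4
        exact h4
      have h4 := Cfsg.Agent.H11.PF.ann_both htop h3 (hφ.mul hφ₀.inv)
      ext w
      have h5 := congrArg (fun f : ↥(W₁ ⊔ W₂) →* ℂˣ => f w) h4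
      simp only [MonoidHom.mul_apply, MonoidHom.inv_apply, MonoidHom.one_apply] at h5
      rw [mul_inv_eq_one.mp h5]
    · apply h1.2
      rintro rfl
      apply h2
      intro w hw
      rw [MonoidHom.mul_apply, MonoidHom.mul_apply, MonoidHom.inv_apply, mul_comm (φ w), mul_inv_cancel_right]
      exact hψ w (Subgroup.mem_subgroupOf.mpr hw)

end Cfsg.Agent.S1507
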