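import Cfsg.Statements.S1510
import Cfsg.Agent.H3.Basic2

set_option autoImplicit false
open Cfsg Cfsg.Agent.H3

namespace Cfsg.Agent.S1510

/-- Let L be a finite group with a normal subgroup K and a nontrivial cyclic subgroup W₁ of order coprime to its index, K ⊓ W₁ = ⊥ and K ⊔ W₁ = ⊤; let W₂ ≠ ⊥ be a cyclic subgroup of K with K ⊓ C_L(x) = W₂ for every non-identity x ∈ W₁, and suppose W₁ ⊔ W₂ has odd order. Then (W₁, W₂) is a self-normalising cyclic pair in L. -/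
theorem result {L : Type*} [Group L] [Fintype L] (K W₁ W₂ : Subgroup L) [hK : K.Normal] (hKW₁ : K ⊓ W₁ = ⊥) (hKW₁' : K ⊔ W₁ = ⊤) (hW₁ : W₁ ≠ ⊥) (hW₁c : IsCyclic W₁) (hHall : Nat.Coprime (Nat.card W₁) W₁.index) (hW₂ : W₂ ≠ ⊥) (hW₂c : IsCyclic W₂) (hW₂K : W₂ ≤ K) (hC : ∀ x ∈ W₁, x ≠ 1 → K ⊓ Subgroup.centralizer ({x} : Set L) = W₂) (hodd : Odd (Nat.card ↥(W₁ ⊔ W₂))) : Cfsg.IsSelfNormalizingCyclic W₁ W₂ := by
  classical
  have hcomm : ∀ a ∈ W₁, ∀ b ∈ W₂, a * b = b * a := by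
    intro a ha b hb
    by_cases ha1 : a = 1
    · rw [ha1]; simp
    · rw [← hC a ha ha1] at hb
      exact (Subgroup.mem_centralizer_singleton_iff.1 hb.2).symm
  have hinf : W₁ ⊓ W₂ = ⊥ := by
    rw [eq_bot_iff, ← hKW₁]
    exact le_inf (inf_le_right.trans hW₂K) inf_le_left
  -- `|K| = |L : W₁|`
  have hcompl : Subgroup.IsComplement' K W₁ := by
    apply Subgroup.isComplement'_of_disjoint_and_mul_eq_univ (disjoint_iff.2 hKW₁)
    rw [← Subgroup.normal_mul, hKW₁']; rfl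
  have hKidx : Nat.card K = W₁.index := hcompl.index_eq_card.symm
  have hcopW : Nat.Coprime (Nat.card W₁) (Nat.card W₂) :=
    Nat.Coprime.coprime_dvd_right ((Subgroup.card_dvd_of_le hW₂K).trans (hKidx ▸ dvd_rfl)) hHall
  -- the product map
  haveI := hW₁c
  haveI := hW₂c
  let f : W₁ × W₂ →* L := {
    toFun := fun p => (p.1 : L) * p.2
    map_one' := by simp
    map_mul' := by
      rintro ⟨a, b⟩ ⟨c, d⟩
      show ((a * c : W₁) : L) * ((b * d : W₂) : L) = (a : L) * b * (c * d)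
      push_cast
      have := hcomm c c.2 b b.2
      calc (a : L) * c * (b * d) = a * (c * b) * d := by group
        _ = a * (b * c) * d := by rw [this]
        _ = _ := by group }
  have hfinj : Function.Injective f := by
    rw [injective_iff_map_eq_one]
    rintro ⟨a, b⟩ h
    have h1 : (a : L) * b = 1 := h
    have h2 : (a : L) = (b : L)⁻¹ := eq_inv_of_mul_eq_one_left h1
    have h3 : (a : L) ∈ W₁ ⊓ W₂ := ⟨a.2, by rw [h2]; exact W₂.inv_mem b.2⟩
    rw [hinf, Subgroup.mem_bot] at h3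
    have h4 : (b : L) = 1 := by rw [h3, one_mul] at h1; exact h1
    exact Prod.ext (Subtype.ext h3) (Subtype.ext h4)
  have hmem : ∀ x ∈ W₁ ⊔ W₂, ∃ a ∈ W₁, ∃ b ∈ W₂, x = a * b := by
    intro x hx
    have h1 : W₁ ⊔ W₂ ≤ f.range := by
      apply sup_le
      · intro a ha; exact ⟨(⟨a, ha⟩, 1), by simp [f]⟩
      · intro b hb; exact ⟨(1, ⟨b, hb⟩), by simp [f]⟩
    obtain ⟨⟨a, b⟩, rfl⟩ := h1 hx
    exact ⟨a, a.2, b, b.2, rfl⟩
  have hrange : f.range = W₁ ⊔ W₂ := by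
    apply le_antisymm
    · rintro _ ⟨⟨a, b⟩, rfl⟩
      exact Subgroup.mul_mem_sup a.2 b.2
    · intro x hx
      obtain ⟨a, ha, b, hb, rfl⟩ := hmem x hx
      exact ⟨(⟨a, ha⟩, ⟨b, hb⟩), rfl⟩
  have hcyc : IsCyclic ↥(W₁ ⊔ W₂) := by
    haveI : IsCyclic (W₁ × W₂) := by
      rw [Group.isCyclic_prod_iff]
      exact ⟨inferInstance, inferInstance, hcopW⟩
    have e : (W₁ × W₂) ≃* f.range := MonoidHom.ofInjective hfinj
    rw [← hrange]
    exact isCyclic_of_surjective e.toMonoidHom e.surjective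
  refine ⟨hW₁, hW₂, hinf, hcomm, hcyc, ?_⟩
  intro X hX hXne
  have hWcomm : ∀ a ∈ W₁ ⊔ W₂, ∀ b ∈ W₁ ⊔ W₂, a * b = b * a := by
    intro a ha b hb
    letI := hcyc.commGroup
    exact congrArg Subtype.val (mul_comm (⟨a, ha⟩ : ↥(W₁ ⊔ W₂)) ⟨b, hb⟩)
  apply le_antisymm
  · intro g hg
    obtain ⟨x, hxX⟩ := hXne
    obtain ⟨hxW, hxn⟩ := hX hxX
    have hgx : g * x * g⁻¹ ∈ X := (Subgroup.mem_set_normalizer_iff.1 hg x).1 hxX
    -- write `g = k w`
    have hgm : g ∈ ((K ⊔ W₁ : Subgroup L) : Set L) := by rw [hKW₁']; exact Subgroup.mem_top g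
    rw [Subgroup.normal_mul] at hgm
    obtain ⟨k, hk, w, hw, rfl⟩ := hgm
    have hwx : w * x * w⁻¹ = x := by
      rw [hWcomm w (Subgroup.mem_sup_left hw) x hxW]; group
    have hkx : k * x * k⁻¹ ∈ W₁ ⊔ W₂ := by
      have h1 := (hX hgx).1
      have h2 : k * w * x * (k * w)⁻¹ = k * (w * x * w⁻¹) * k⁻¹ := by group
      have h3 : (fun x1 x2 => x1 * x2) k w * x * ((fun x1 x2 => x1 * x2) k w)⁻¹ = k * x * k⁻¹ := by
        show k * w * x * (k * w)⁻¹ = _
        rw [h2, hwx]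
      rw [h3] at h1
      exact h1
    obtain ⟨w₁, hw₁, w₂, hw₂, rfl⟩ := hmem x hxW
    have hw₁1 : w₁ ≠ 1 := by
      rintro rfl
      apply hxn
      right
      simpa using hw₂
    -- `w₁` is a power of `x`
    obtain ⟨s, t, hst⟩ := Nat.isCoprime_iff_coprime.mpr hcopW
    have hpow : (w₁ * w₂) ^ ((Nat.card W₂ : ℤ) * t) = w₁ := by
      rw [(show Commute w₁ w₂ from hcomm w₁ hw₁ w₂ hw₂).mul_zpow]
      have h1 : w₂ ^ ((Nat.card W₂ : ℤ) * t) = 1 := by
        rw [zpow_mul, zpow_natCast]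
        have : w₂ ^ Nat.card W₂ = 1 := by
          have := pow_card_eq_one' (x := (⟨w₂, hw₂⟩ : W₂))
          exact congrArg Subtype.val this
        rw [this, one_zpow]
      have h2 : w₁ ^ ((Nat.card W₁ : ℤ) * s) = 1 := by
        rw [zpow_mul, zpow_natCast]
        have : w₁ ^ Nat.card W₁ = 1 := by
          have := pow_card_eq_one' (x := (⟨w₁, hw₁⟩ : W₁))
          exact congrArg Subtype.val this
        rw [this, one_zpow]
      have h3 : w₁ ^ ((Nat.card W₂ : ℤ) * t) = w₁ := by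
        have h4 : (Nat.card W₂ : ℤ) * t = 1 - (Nat.card W₁ : ℤ) * s := by rw [← hst]; ring
        rw [h4, zpow_sub, h2, zpow_one]; simp
      rw [h1, h3, mul_one]
    have hkw₁ : k * w₁ * k⁻¹ ∈ W₁ ⊔ W₂ := by
      have h1 := (W₁ ⊔ W₂).zpow_mem hkx ((Nat.card W₂ : ℤ) * t)
      rw [conj_zpow, hpow] at h1
      exact h1
    obtain ⟨a, ha, b, hb, hab⟩ := hmem _ hkw₁
    -- `b = 1`
    have hb1 : b = 1 := by
      have h1 : (a * b) ^ Nat.card W₁ = 1 := by
        rw [← hab, conj_pow]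
        have : w₁ ^ Nat.card W₁ = 1 := by
          have := pow_card_eq_one' (x := (⟨w₁, hw₁⟩ : W₁))
          exact congrArg Subtype.val this
        rw [this]; group
      rw [(show Commute a b from hcomm a ha b hb).mul_pow] at h1
      have h2 : a ^ Nat.card W₁ = 1 := by
        have := pow_card_eq_one' (x := (⟨a, ha⟩ : W₁))
        exact congrArg Subtype.val this
      rw [h2, one_mul] at h1
      have h3 : orderOf b ∣ Nat.card W₁ := orderOf_dvd_of_pow_eq_one h1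
      have h4 : orderOf b ∣ Nat.card W₂ := by
        have := orderOf_dvd_natCard (⟨b, hb⟩ : W₂)
        rwa [Subgroup.orderOf_mk] at this
      exact orderOf_eq_one_iff.1 (Nat.eq_one_of_dvd_coprimes hcopW h3 h4)
    rw [hb1, mul_one] at hab
    have hka : k * w₁ * k⁻¹ * w₁⁻¹ ∈ K ⊓ W₁ := by
      refine ⟨?_, ?_⟩
      · have h1 : k * w₁ * k⁻¹ * w₁⁻¹ = k * (w₁ * k⁻¹ * w₁⁻¹) := by group
        rw [h1]
        exact K.mul_mem hk (hK.conj_mem _ (K.inv_mem hk) _)
      · rw [hab]; exact W₁.mul_mem ha (W₁.inv_mem hw₁)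
    rw [hKW₁, Subgroup.mem_bot] at hka
    have hkc : k * w₁ = w₁ * k := by
      calc k * w₁ = (k * w₁ * k⁻¹ * w₁⁻¹) * w₁ * k := by group
        _ = w₁ * k := by rw [hka, one_mul]
    have hkW : k ∈ W₂ := by
      rw [← hC w₁ hw₁ hw₁1]
      exact ⟨hk, Subgroup.mem_centralizer_singleton_iff.2 hkc⟩
    exact (W₁ ⊔ W₂).mul_mem (Subgroup.mem_sup_right hkW) (Subgroup.mem_sup_left hw)
  · intro g hg
    rw [Subgroup.mem_set_normalizer_iff]
    intro y
    constructor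
    · intro hy
      have h1 : g * y * g⁻¹ = y := by rw [hWcomm g hg y (hX hy).1]; group
      rw [h1]; exact hy
    · intro hy
      have h1 := hWcomm g hg _ (hX hy).1
      have h2 : g * y * g⁻¹ = y := by
        have h3 : y = g⁻¹ * (g * y * g⁻¹) * g := by group
        have h4 : g⁻¹ * (g * y * g⁻¹) * g = g * y * g⁻¹ := by
          calc g⁻¹ * (g * y * g⁻¹) * g = g⁻¹ * ((g * y * g⁻¹) * g) := by group
            _ = g⁻¹ * (g * (g * y * g⁻¹)) := by rw [h1]
            _ = _ := by group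
        rw [h4] at h3
        exact h3.symm
      rw [h2] at hy; exact hy

end Cfsg.Agent.S1510
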