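import Cfsg.Statements.S1515
import Cfsg.Agent.H3.CohC

set_option autoImplicit false
open Cfsg Cfsg.Agent.H3

namespace Cfsg.Agent.S1515

/-- Let (S, τ, R) be a coherence system from L to G, χ ∈ S, and ψ an integer combination of S with ⟨χ, ψ⟩ = ⟨conj χ, ψ⟩ = 0. Let τ₁ be a linear isometry on the integer combinations of χ − ψ and χ − conj χ, with virtual-character values, agreeing with τ on integer multiples of χ − conj χ. Then the sum over α ∈ R χ of the squared absolute values of ⟨τ₁(χ − ψ), α⟩ is at least ⟨χ, χ⟩; and if ⟨τ₁(χ − ψ), τ₁(χ − ψ)⟩ minus that sum is at least ⟨ψ, ψ⟩, then the sum equals ⟨χ, χ⟩ and every ⟨τ₁(χ − ψ), α⟩ with α ∈ R χ is 0 or 1. -/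
theorem result {L : Type*} [Group L] [Fintype L] {G : Type*} [Group G] [Fintype G] (S : Set (L → ℂ)) (τ : (L → ℂ) → (G → ℂ)) (R : (L → ℂ) → Finset (G → ℂ)) (hS : Cfsg.IsCoherenceSystem S τ R) (χ : L → ℂ) (hχ : χ ∈ S) (ψ : L → ℂ) (hψ : ψ ∈ Cfsg.zspan S) (h1 : Cfsg.classInner χ ψ = 0) (h2 : Cfsg.classInner (Cfsg.conjFun χ) ψ = 0) (τ₁ : (L → ℂ) → (G → ℂ)) (hτ₁ : Cfsg.IsLinearIsometryOn (Cfsg.zspan {χ - ψ, χ - Cfsg.conjFun χ}) τ₁) (hagree : ∀ n : ℤ, τ₁ (n • (χ - Cfsg.conjFun χ)) = τ (n • (χ - Cfsg.conjFun χ))) : (Cfsg.classInner χ χ).re ≤ ∑ α ∈ R χ, ‖Cfsg.classInner (τ₁ (χ - ψ)) α‖ ^ 2 ∧ ((Cfsg.classInner ψ ψ).re ≤ (Cfsg.classInner (τ₁ (χ - ψ)) (τ₁ (χ - ψ))).re - ∑ α ∈ R χ, ‖Cfsg.classInner (τ₁ (χ - ψ)) α‖ ^ 2 → (∑ α ∈ R χ, ‖Cfsg.classInner (τ₁ (χ - ψ)) α‖ ^ 2 = (Cfsg.classInner χ χ).re ∧ ∀ α ∈ R χ, Cfsg.classInner (τ₁ (χ - ψ)) α = 0 ∨ Cfsg.classInner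 (τ₁ (χ - ψ)) α = 1)) := by
  obtain ⟨n, hn0, hn, -⟩ := sys_norm hS hχ
  have hmem1 : χ - ψ ∈ zspan ({χ - ψ, χ - conjFun χ} : Set (L → ℂ)) :=
    zspan_mem (Or.inl rfl)
  have hmem2 : χ - conjFun χ ∈ zspan ({χ - ψ, χ - conjFun χ} : Set (L → ℂ)) :=
    zspan_mem (Or.inr rfl)
  have h2' : classInner ψ (conjFun χ) = 0 := by rw [← classInner_conj_symm, h2, map_zero]
  have h1' : classInner ψ χ = 0 := by rw [← classInner_conj_symm, h1, map_zero]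
  have hag : τ₁ (χ - conjFun χ) = τ (χ - conjFun χ) := by
    have := hagree 1
    simpa using this
  refine pf55 hS hχ h1 h2 hn (hτ₁.2.2.2 _ hmem1) ?_ ?_
  · rw [← hag, hτ₁.2.2.1 _ hmem1 _ hmem2]
    simp only [classInner_sub_left, classInner_sub_right, h1', h2', hn, sys_orth_conj hS hχ]
    ring
  · rw [hτ₁.2.2.1 _ hmem1 _ hmem1]
    simp only [classInner_sub_left, classInner_sub_right, h1', h1]
    ring

end Cfsg.Agent.S1515
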