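import Cfsg.Statements.S1527
import Mathlib

set_option autoImplicit false
open Cfsg

namespace Cfsg.Agent.S1527

/-- Let G be a finite group and H i (i in a finite index type) subgroups of pairwise coprime orders, each of whose underlying sets is a TI-subset of G, such that every non-identity element of G is conjugate to an element of some H i. Then Nat.card G − 1 = Σ_i [G : N_G(H i)] · (Nat.card (H i) − 1). -/
theorem result {G : Type*} [Group G] [Finite G] {ι : Type*} [Fintype ι] (H : ι → Subgroup G) (hcop : ∀ i j, i ≠ j → Nat.Coprime (Nat.card (H i)) (Nat.card (H j))) (hTI : ∀ i, Cfsg.IsTISubset (H i : Set G)) (hcover : ∀ g : G, g ≠ 1 → ∃ i, ∃ x : G, x * g * x⁻¹ ∈ H i) : Nat.card G - 1 = ∑ i, (Subgroup.normalizer (H i : Set G)).index * (Nat.card (H i) - 1) := by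
  classical
  have hnorm : ∀ (i : ι) (n : G), n ∈ Subgroup.normalizer (H i : Set G) → ∀ h : G, h ∈ H i ↔ n * h * n⁻¹ ∈ H i := by
    intro i n hn h
    exact (Subgroup.mem_normalizer_iff.1 hn h)
  -- the map
  let X : Type _ := Σ i : ι, (G ⧸ Subgroup.normalizer (H i : Set G)) × {h : H i // h ≠ 1}
  let f : X → {g : G // g ≠ 1} := fun x => ⟨x.2.1.out * (x.2.2.1 : G) * x.2.1.out⁻¹, by
    intro h
    apply x.2.2.2
    have : (x.2.2.1 : G) = 1 := by
      have := congrArg (fun t => (x.2.1.out)⁻¹ * t * x.2.1.out) h
      simpa [mul_assoc] using this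
    exact Subtype.ext this⟩
  have hinj : Function.Injective f := by
    rintro ⟨i, q, ⟨h, hh⟩⟩ ⟨j, r, ⟨k, hk⟩⟩ hfe
    have he : q.out * (h : G) * q.out⁻¹ = r.out * (k : G) * r.out⁻¹ := congrArg Subtype.val hfe
    have hij : i = j := by
      by_contra hij
      have h1 : orderOf (h : G) = orderOf (k : G) := by
        have e1 : orderOf (q.out * (h : G) * q.out⁻¹) = orderOf (h : G) := by
          have := (MulAut.conj q.out).orderOf_eq (h : G)
          simpa [MulAut.conj_apply] using this
        have e2 : orderOf (r.out * (k : G) * r.out⁻¹) = orderOf (k : G) := by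
          have := (MulAut.conj r.out).orderOf_eq (k : G)
          simpa [MulAut.conj_apply] using this
        rw [← e1, he, e2]
      have d1 : orderOf (h : G) ∣ Nat.card (H i) := by
        rw [Subgroup.orderOf_coe]; exact orderOf_dvd_natCard h
      have d2 : orderOf (h : G) ∣ Nat.card (H j) := by
        rw [h1, Subgroup.orderOf_coe]; exact orderOf_dvd_natCard k
      have h3 := Nat.eq_one_of_dvd_coprimes (hcop i j hij) d1 d2
      rw [orderOf_eq_one_iff] at h3
      exact hh (Subtype.ext h3)
    subst hij
    have hmem : (r.out⁻¹ * q.out) ∈ Subgroup.normalizer (H i : Set G) := by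
      by_contra hnot
      have h4 : (r.out⁻¹ * q.out) * (h : G) * (r.out⁻¹ * q.out)⁻¹ = (k : G) := by
        have := congrArg (fun t => (r.out)⁻¹ * t * r.out) he
        simpa [mul_assoc] using this
      have := hTI i _ hnot (h : G) h.2 (by rw [h4]; exact k.2)
      exact hh (Subtype.ext this)
    have hqr : q = r := by
      have : (r.out : G ⧸ Subgroup.normalizer (H i : Set G)) = (q.out : G ⧸ Subgroup.normalizer (H i : Set G)) := by
        rw [QuotientGroup.eq]; exact hmem
      rw [QuotientGroup.out_eq', QuotientGroup.out_eq'] at this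
      exact this.symm
    subst hqr
    have : (h : G) = k := by
      have := congrArg (fun t => (q.out)⁻¹ * t * q.out) he
      simpa [mul_assoc] using this
    have h5 : h = k := Subtype.ext this
    subst h5
    rfl
  have hsurj : Function.Surjective f := by
    rintro ⟨g, hg⟩
    obtain ⟨i, x, hx⟩ := hcover g hg
    let q : G ⧸ Subgroup.normalizer (H i : Set G) := (x⁻¹ : G)
    have hq : q.out⁻¹ * x⁻¹ ∈ Subgroup.normalizer (H i : Set G) := by
      rw [← QuotientGroup.eq]
      exact QuotientGroup.out_eq' q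
    have hh : q.out⁻¹ * g * q.out ∈ H i := by
      have := (hnorm i _ hq (x * g * x⁻¹)).1 hx
      simpa [mul_assoc] using this
    refine ⟨⟨i, q, ⟨⟨_, hh⟩, ?_⟩⟩, ?_⟩
    · intro h
      have h1 : q.out⁻¹ * g * q.out = 1 := congrArg Subtype.val h
      apply hg
      have := congrArg (fun t => (q.out) * t * q.out⁻¹) h1
      simpa [mul_assoc] using this
    · apply Subtype.ext
      show q.out * (q.out⁻¹ * g * q.out) * q.out⁻¹ = g
      group
  have hcard : Nat.card X = Nat.card {g : G // g ≠ 1} := Nat.card_congr (Equiv.ofBijective f ⟨hinj, hsurj⟩)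
  have hsub : ∀ (K : Type _) [Group K] [Finite K], Nat.card {k : K // k ≠ 1} = Nat.card K - 1 := by
    intro K _ _
    have h1 : Nat.card {k : K // k ≠ 1} = Set.ncard {k : K | k ≠ 1} := Nat.card_coe_set_eq _
    have h2 : {k : K | k ≠ 1} = ({1} : Set K)ᶜ := by ext; simp
    rw [h1, h2, Set.ncard_compl, Set.ncard_singleton]
  have hsubH : ∀ i, Nat.card {k : H i // k ≠ 1} = Nat.card (H i) - 1 := by
    intro i
    have h1 : Nat.card {k : H i // k ≠ 1} = Set.ncard {k : H i | k ≠ 1} := Nat.card_coe_set_eq _
    have h2 : {k : H i | k ≠ 1} = ({1} : Set (H i))ᶜ := by ext; simp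
    rw [h1, h2, Set.ncard_compl, Set.ncard_singleton]
  rw [← hsub G, ← hcard, Nat.card_sigma]
  apply Finset.sum_congr rfl
  intro i _
  rw [Nat.card_prod, hsubH i, Subgroup.index]

end Cfsg.Agent.S1527
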