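import Cfsg.Statements.S1528
import Cfsg.Agent.H3.Frob
import Cfsg.Agent.H3.Basic2

set_option autoImplicit false
open Cfsg Cfsg.Agent.H3

namespace Cfsg.Agent.S1528

/-- Let N be a normal subgroup of the finite group G such that every element of G commuting with a non-identity element of N lies in N. If χ is an irreducible character of G with χ n ≠ χ 1 for some n ∈ N, then χ is the function induced from some irreducible character of N. -/
theorem result {G : Type*} [Group G] [Fintype G] (N : Subgroup G) [N.Normal] (hC : ∀ n ∈ N, n ≠ 1 → Subgroup.centralizer ({n} : Set G) ≤ N) (χ : G → ℂ) (hχ : Cfsg.IsIrrCharacter G χ) (hker : ∃ n ∈ N, χ n ≠ χ 1) : ∃ φ : N → ℂ, Cfsg.IsIrrCharacter N φ ∧ χ = Cfsg.indFun N φ := by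
  haveI := Fintype.ofFinite N
  have hfpf : ∀ x : G, x ∉ N → ∀ k ∈ N, x * k = k * x → k = 1 := by
    intro x hx k hk hxk
    by_contra hne
    exact hx (hC k hk hne (Subgroup.mem_centralizer_singleton_iff.2 hxk))
  classical
  -- some constituent of `χ_N` is not principal
  have hN : N.Normal := inferInstance
  haveI := Fintype.ofFinite (IrrCharacter N)
  have hres : IsCharacter N (fun n : N => χ n) := isChar_restrict N (irr_isChar hχ)
  obtain ⟨m, hm, hexp⟩ := char_expand hres
  have hex : ∃ φ : IrrCharacter N, m φ ≠ 0 ∧ (φ : N → ℂ) ≠ fun _ => 1 := by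
    by_contra hcon
    push Not at hcon
    obtain ⟨n, hn, hne⟩ := hker
    apply hne
    have h1 := congrFun hexp ⟨n, hn⟩
    have h2 := congrFun hexp 1
    simp only [Finset.sum_apply, Pi.smul_apply] at h1 h2
    show χ n = χ ((1 : N) : G)
    rw [h1, h2]
    refine Finset.sum_congr rfl fun φ _ => ?_
    by_cases h0 : m φ = 0
    · rw [h0]; simp
    · rw [hcon φ h0]
  obtain ⟨φ, hφ0, hφ1⟩ := hex
  have hind := isIrr_ind_of_fpf hN hfpf φ.2 hφ1
  refine ⟨φ, φ.2, ?_⟩
  by_contra hne
  have h1 := classInner_of_irr_ne hχ hind hne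
  rw [← classInner_conj_symm, frobenius_reciprocity N _ (irr_classFun hχ), classInner_conj_symm,
    hm φ] at h1
  exact hφ0 (by exact_mod_cast h1)

end Cfsg.Agent.S1528
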