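import Cfsg.Statements.S1531
import Cfsg.Agent.H3.CohH

set_option autoImplicit false
open Cfsg Cfsg.Agent.H3

namespace Cfsg.Agent.S1531

/-- Let N be a subgroup of the finite group G, S a set of irreducible characters of N, and α a linear isometry on the integer combinations of S vanishing at 1 with values virtual characters of G vanishing at 1. Let X, Y ⊆ S be disjoint, each with at least two members, and σ, τ linear isometries on ℤ[X], ℤ[Y] into virtual characters agreeing with α on the members vanishing at 1. Then ⟨σ χ, τ η⟩ = 0 for χ ∈ X, η ∈ Y; and if for some χ₀ ∈ X, η₀ ∈ Y with degrees c = χ₀ 1, e = η₀ 1 one has α (c • η₀ − e • χ₀) = c • τ η₀ − e • σ χ₀, then (X ∪ Y, N minus 1, α) is coherent. -/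
theorem result {G : Type*} [Group G] [Fintype G] (N : Subgroup G) [Fintype N] (S X Y : Set (N → ℂ)) (hirr : ∀ ξ ∈ S, Cfsg.IsIrrCharacter N ξ) (hXS : X ⊆ S) (hYS : Y ⊆ S) (hXY : Disjoint X Y) (hX2 : ∃ a ∈ X, ∃ b ∈ X, a ≠ b) (hY2 : ∃ a ∈ Y, ∃ b ∈ Y, a ≠ b) (α : (N → ℂ) → (G → ℂ)) (hα : Cfsg.IsLinearIsometryOn (Cfsg.zspanOn S {1}ᶜ) α) (hα1 : ∀ θ ∈ Cfsg.zspanOn S {1}ᶜ, α θ 1 = 0) (σ τ : (N → ℂ) → (G → ℂ)) (hσ : Cfsg.IsLinearIsometryOn (Cfsg.zspan X) σ) (hσα : ∀ θ ∈ Cfsg.zspanOn X {1}ᶜ, σ θ = α θ) (hτ : Cfsg.IsLinearIsometryOn (Cfsg.zspan Y) τ) (hτα : ∀ θ ∈ Cfsg.zspanOn Y {1}ᶜ, τ θ = α θ) : (∀ χ ∈ X, ∀ η ∈ Y, Cfsg.classInner (σ χ) (τ η) = 0) ∧ ((∃ χ₀ ∈ X, ∃ η₀ ∈ Y, α (χ₀ 1 • η₀ - η₀ 1 • χ₀) = χ₀ 1 • τ η₀ - η₀ 1 • σ χ₀) → Cfsg.IsCoherent (X ∪ Y) {1}ᶜ α) := by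
  have hsub : X ∪ Y ⊆ S := Set.union_subset hXS hYS
  have hαXY : IsLinearIsometryOn (zspanOn (X ∪ Y) ({1}ᶜ : Set N)) α :=
    iso_mono hα (fun _ h => zspanOn_mono hsub h)
  have hX : ∀ ξ ∈ X, IsIrrCharacter N ξ := fun ξ h => hirr ξ (hXS h)
  have hY : ∀ ξ ∈ Y, IsIrrCharacter N ξ := fun ξ h => hirr ξ (hYS h)
  have horth' := coh_cross_orth hX hY hXY hX2 hY2 hαXY
    (fun θ hθ => hα1 θ (zspanOn_mono hsub hθ)) ⟨hσ, hσα⟩ ⟨hτ, hτα⟩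
  refine ⟨horth', ?_⟩
  rintro ⟨χ₀, hχ₀, η₀, hη₀, h⟩
  obtain ⟨c, hc0, hc⟩ := irr_one_eq_nat (hX χ₀ hχ₀)
  obtain ⟨e, he0, he⟩ := irr_one_eq_nat (hY η₀ hη₀)
  obtain ⟨μ, hμ, -, -⟩ := coh_glue (c := c) (e := e) hαXY ⟨hσ, hσα⟩ ⟨hτ, hτα⟩
    (fun φ hφ ψ hψ => classInner_of_irr_ne (hX φ hφ) (hY ψ hψ)
      (fun h => Set.disjoint_left.1 hXY hφ (h ▸ hψ))) horth'
    (fun φ hφ => by
      obtain ⟨m, -, hm⟩ := irr_one_eq_nat (hX φ hφ)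
      exact ⟨m, by rw [hm]; simp⟩) hχ₀ hη₀ (by rw [hc]; simp) (by rw [he]; simp)
    (by exact_mod_cast hc0.ne') (by exact_mod_cast he0.ne') (by
      rw [hc, he] at h
      simp only [zsmul_eq_smul]
      push_cast
      exact h)
  obtain ⟨a, ha, b, hb, hab⟩ := hX2
  obtain ⟨m, hm0, hm⟩ := irr_one_eq_nat (hX a ha)
  obtain ⟨k, hk0, hk⟩ := irr_one_eq_nat (hX b hb)
  refine hμ.isCoherent ⟨(k : ℤ) • a - (m : ℤ) • b, ?_, ?_⟩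
  · rw [zspanOn_one]
    refine ⟨zspan_sub (zspan_smul _ (zspan_mem (Or.inl ha))) (zspan_smul _ (zspan_mem (Or.inl hb))), ?_⟩
    rw [Pi.sub_apply, zsmul_eq_smul, zsmul_eq_smul, Pi.smul_apply, Pi.smul_apply, hm, hk]
    simp [mul_comm]
  · intro h0
    have h1 := congrArg (fun f => classInner f a) h0
    simp only [classInner_sub_left, classInner_zsmul_left, classInner_self_of_irr (hX a ha),
      classInner_of_irr_ne (hX b hb) (hX a ha) hab.symm, classInner_zero_left] at h1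
    have h2 : (k : ℂ) = 0 := by simpa using h1
    have h3 : k = 0 := by exact_mod_cast h2
    omega

end Cfsg.Agent.S1531
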