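import Cfsg.Statements.S1535
import Cfsg.Agent.H3.FeitCoh3

set_option autoImplicit false
open Cfsg Cfsg.Agent Cfsg.Agent.H3

namespace Cfsg.Agent.S1535

/-- Let N be a finite group with a proper nontrivial normal subgroup H such that every element commuting with a non-identity element of H lies in H (N is a Frobenius group with kernel H); let e be the index of H and suppose Nat.card H ≠ e + 1. Let S be the set of irreducible characters χ of N with χ h ≠ χ 1 for some h ∈ H, and τ a linear isometry on the integer combinations of S vanishing at 1, with values virtual characters of a finite group G vanishing at 1. Then (S, N minus 1, τ) is coherent, or there is a prime p with Nat.card H a power of p, H non-abelian and [H : [H,H]] ≤ 4e² + 1. -/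
theorem result {N : Type*} [Group N] [Fintype N] {G : Type*} [Group G] [Fintype G] (H : Subgroup N) [H.Normal] (hH1 : H ≠ ⊥) (hH2 : H ≠ ⊤) (hC : ∀ h ∈ H, h ≠ 1 → Subgroup.centralizer ({h} : Set N) ≤ H) (he : Nat.card H ≠ H.index + 1) (τ : (N → ℂ) → (G → ℂ)) (hτ : Cfsg.IsLinearIsometryOn (Cfsg.zspanOn {χ : N → ℂ | Cfsg.IsIrrCharacter N χ ∧ ∃ h ∈ H, χ h ≠ χ 1} {1}ᶜ) τ) (hτ1 : ∀ α ∈ Cfsg.zspanOn {χ : N → ℂ | Cfsg.IsIrrCharacter N χ ∧ ∃ h ∈ H, χ h ≠ χ 1} {1}ᶜ, τ α 1 = 0) : Cfsg.IsCoherent {χ : N → ℂ | Cfsg.IsIrrCharacter N χ ∧ ∃ h ∈ H, χ h ≠ χ 1} {1}ᶜ τ ∨ ∃ p : ℕ, p.Prime ∧ (∃ m : ℕ, Nat.card H = p ^ m) ∧ ¬ IsMulCommutative H ∧ (⁅H, H⁆.subgroupOf H).index ≤ 4 * H.index ^ 2 + 1 := by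
  classical
  have hK : H.Normal := inferInstance
  have hfpf : ∀ x : N, x ∉ H → ∀ k ∈ H, x * k = k * x → k = 1 := by
    intro x hx k hk hxk
    by_contra hk1
    exact hx (hC k hk hk1 (Subgroup.mem_centralizer_singleton_iff.2 hxk))
  have hnil := frob_nilpotent hK hH2 hfpf
  rw [frob_set_eq hK hfpf] at hτ hτ1 ⊢
  have htwo := frob_two hK hfpf hH1 (Or.inl he)
  have hfin : (∃ τ₁, CohMap (inducedIrrAbove H ⊥) τ τ₁) →
      IsCoherent (inducedIrrAbove H ⊥) {1}ᶜ τ := by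
    rintro ⟨τ₁, h₁⟩
    exact ⟨zspanOn_nonzero (above_irr hK hfpf) htwo, τ₁, h₁.1, h₁.2⟩
  by_cases hab : ∀ a ∈ H, ∀ b ∈ H, a * b = b * a
  · exact Or.inl (hfin (feit_abelian hK hfpf hH1 hτ hτ1 hab))
  have hnc : ¬ IsMulCommutative H := by
    intro h
    apply hab
    intro a ha b hb
    exact congrArg Subtype.val (h.is_comm.comm (⟨a, ha⟩ : H) ⟨b, hb⟩)
  by_cases hnp : ∀ p m : ℕ, p.Prime → Nat.card H ≠ p ^ m
  · exact Or.inl (hfin (feit_mixed hK hfpf hnil hτ hτ1 hH1 hnp))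
  push Not at hnp
  obtain ⟨p, m, hp, hm⟩ := hnp
  by_cases hbig : 4 * H.index ^ 2 + 1 < (⁅H, H⁆ : Subgroup N).relIndex H
  · exact Or.inl (hfin (feit_big hK hfpf hnil hτ hτ1 hH1 hbig))
  · exact Or.inr ⟨p, hp, ⟨m, hm⟩, hnc, not_lt.1 hbig⟩

end Cfsg.Agent.S1535
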