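import Cfsg.Statements.S1538
import Cfsg.Agent.PF.SuppW

set_option autoImplicit false
open Cfsg

namespace Cfsg.Agent.S1538

/-- Let G be a minimal simple group of odd order and M a maximal subgroup of Type II. Then each of A₀(M), A(M), A₁(M) is a TI-subset of G whose set normaliser is M. -/
theorem result {G : Type*} [Group G] [Finite G] (hG : Cfsg.IsMinSimpleOddOrder G) (M : Subgroup G) (hM : IsCoatom M) (hII : Cfsg.IsOfTypeII M) : (Cfsg.IsTISubset (Cfsg.typeA0 M) ∧ Subgroup.normalizer (Cfsg.typeA0 M) = M) ∧ (Cfsg.IsTISubset (Cfsg.typeA M) ∧ Subgroup.normalizer (Cfsg.typeA M) = M) ∧ (Cfsg.IsTISubset (Cfsg.typeA1 M) ∧ Subgroup.normalizer (Cfsg.typeA1 M) = M) := by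
    exact Cfsg.Agent.PF.row1538 hG hM hII

end Cfsg.Agent.S1538
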