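import Cfsg.Statements.S1551
import Cfsg.Agent.H29.PermOn

set_option autoImplicit false
open scoped Pointwise
open Cfsg

namespace Cfsg.Agent.S1551

open Cfsg.Agent.H7 Cfsg.Agent.H29
open scoped Pointwise

def L64 : List ℕ := [0xbdab49ca307b9ac5a928398a418820,
  0xbc0ea332364b892451ebaccad18820,
  0xbb4c93ae2453ac893e8c9d4b018820,
  0xb926faa22da3a0b6255231cb618820,
  0xbd8cf3b1d0a45b24254b9d46428820,
  0xbc269ac9d65448c5be8831c6d28820,
  0xbb6aa9a1c44c6cb651f23987028820,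
  0xb90f432dcd7c6089292cacc7628820,
  0xbda6aaacb048da8951ec31e2470820,
  0xbc0d43a0b678c8b629329d62d70820,
  0xbb4ef348a4a0ecc5a548ace3070820,
  0xb92a99b0ad50e1243e8b39a3670820,
  0xbd8e932070515ab63e92acdc488820,
  0xbc2af9ac76a14889254c399cd88820,
  0xbb674ab064796d24292b31dd088820,
  0xb90ca3c86d4960c5d1e89d5d688820,
  0x158ca3a2304b9ab651f29d4a41dc01,
  0x14274aae367b8889292c31cad1dc01,
  0x136af9b224a3ad24254b398b01dc01,
  0x110e934a2d53a0c5be88accb61dc01,
  0x15aa99add0545a893e8c398642dc01,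
  0x140ef321d6a448b62552acc6d2dc01,
  0x134d43c9c47c6cc5a9289d4702dc01,
  0x1126aab1cd4c612451eb31c762dc01,
  0x158f4330b078db24292bace2475c01,
  0x142aa9c8b648c8c5d1e839a2d75c01,
  0x13669aa0a450ecb63e9231e3075c01,
  0x110cf3acada0e089254c9d63675c01,
  0x15a6fac870a15ac5a54831dc48dc01,
  0x140c93b0765149243e8b9d5cd8dc01,
  0x134ea32c64496c8951ecacdd08dc01,
  0x112b49a06d7960b62932399d68dc01,
  0xd8ef32e30a39a89254cacca4182e2,
  0xc2a99a2365388b63e92398ad182e2,
  0xb66aaca244bacc5d1e831cb0182e2,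
  0x90d43b22d7ba124292b9d4b6182e2,
  0xda74aa1d07c5ab6293231c64282e2,
  0xc0ca3add64c488951ec9d46d282e2,
  0xb4e9331c4546d243e8bacc70282e2,
  0x92af9c9cda460c5a54839876282e2,
  0xd8c93c8b050dac5be889d624702e2,
  0xc26fab0b6a0c924254b31e2d702e2,
  0xb6b49aca478ec89292c39a30702e2,
  0x90ea320ad48e0b651f2ace36702e2,
  0xdaaa9b070495b2451eb399c4882e2,
  0xc0f4348767948c5a928acdcd882e2,
  0xb4cf3a064a16cb625529d5d0882e2,
  0x9269aac6d5160893e8c31dd6882e2,
  0x5a69ab230539b243e8b31ca418457,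
  0x40cf3ca36a388c5a5489d4ad18457,
  0x34f4322247bacb62932accb018457,
  0x12aa9ae2d4ba08951ec398b618457,
  0x58ea349d04c5ac5d1e8acc6428457,
  0x42b49b1d67c4924292b3986d28457,
  0x366faadc4a46c89254c31c7028457,
  0x10c93a1cd5460b63e929d47628457,
  0x5aaf9a0b0a0dab6255239a2470457,
  0x40e932cb650c8893e8cace2d70457,
  0x34ca3b0a448ed2451eb9d63070457,
  0x1274ac8ad78e0c5a92831e3670457,
  0x58d43ac70795a89292c9d5c488457,
  0x426aaa0764948b651f231dcd88457,
  0x36a99c864516cc5be88399d088457,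
  0x10ef3306da16124254bacdd688457]

def ms6 : List (ℕ × List ℕ) := [(147496, [3, 5, 14, 17]), (268544, [8, 11, 12, 18]), (1082880, [9, 10, 15, 20]), (2621632, [6, 7, 19, 21]), (4268048, [4, 13, 16, 22]), (8388615, [0, 1, 2, 23])]

/-- the base sextet -/
def S0 : Finset (Finset GolayPt) := {toSet 147496, toSet 268544, toSet 1082880, toSet 2621632, toSet 4268048, toSet 8388615}

theorem mem_S0 {s : Finset GolayPt} : s ∈ S0 ↔ s = toSet 147496 ∨ s = toSet 268544 ∨ s = toSet 1082880 ∨ s = toSet 2621632 ∨ s = toSet 4268048 ∨ s = toSet 8388615 := by unfold S0; simp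

set_option maxRecDepth 100000 in
theorem S0_card : S0.card = 6 := by decide +kernel

theorem oct_or {m n : ℕ} (h : (isCW (m ||| n) && Nat.beq (popc (m ||| n)) 8) = true) : toSet m ∪ toSet n ∈ octads := by
  rw [Bool.and_eq_true, Nat.beq_eq] at h
  rw [← toSet_or, mem_octads]
  exact ⟨mem_GC_mask.2 ⟨_, h.1, rfl⟩, by rw [card_toSet]; exact h.2⟩

theorem S0_mem : S0 ∈ sextets := by
  refine ⟨S0_card, ?_, ?_⟩
  · intro t ht
    rw [mem_S0] at ht
    rcases ht with rfl | rfl | rfl | rfl | rfl | rfl <;> rw [card_toSet] <;> decide +kernel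
  · intro t ht u hu htu
    rw [mem_S0] at ht hu
    rcases ht with rfl | rfl | rfl | rfl | rfl | rfl <;> rcases hu with rfl | rfl | rfl | rfl | rfl | rfl <;>
      first
      | exact absurd rfl htu
      | exact oct_or (by decide +kernel)

theorem ms6_iff {σ : Equiv.Perm GolayPt} : StabMs ms6 σ ↔ ∀ t ∈ S0, σ • t = t := by
  unfold StabMs ms6
  simp only [List.forall_mem_cons, List.not_mem_nil, false_implies, implies_true, and_true]
  constructor
  · rintro ⟨h1, h2, h3, h4, h5, h6⟩ t ht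
    rw [mem_S0] at ht
    rcases ht with rfl | rfl | rfl | rfl | rfl | rfl <;> assumption
  · intro h
    exact ⟨h _ (mem_S0.2 (by simp)), h _ (mem_S0.2 (by simp)), h _ (mem_S0.2 (by simp)), h _ (mem_S0.2 (by simp)), h _ (mem_S0.2 (by simp)),
      h _ (mem_S0.2 (by simp))⟩

theorem ord192 : {σ | σ ∈ M24 ∧ StabMs ms6 σ}.ncard = 192 := card_stabMs (by decide +kernel) (by decide +kernel)

set_option maxRecDepth 100000 in
theorem grp64 : grpOK L64 = true := by decide +kernel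
theorem nodup64 : L64.Nodup := by decide +kernel

theorem eq_of_leaf {L : List ℕ} (hL : (L.all okPerm) = true) {σ : Equiv.Perm GolayPt} {f : ℕ → ℕ} (hf : ∀ i < 24, f i = ap σ i)
    (h : (L.any fun c => nall (fun i => Nat.beq (f i) (pa c i)) (List.range 24)) = true) : ∃ c ∈ L, mkPerm c = σ := by
  rw [List.any_eq_true] at h
  obtain ⟨c, hc, h1⟩ := h
  refine ⟨c, hc, ?_⟩
  rw [nall_iff] at h1
  have hcp := okPerm_isPerm (List.all_eq_true.1 hL c hc)
  apply ap_ext
  intro i hi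
  rw [ap_mkPerm hcp hi, ← hf i hi, Nat.eq_of_beq_eq_true (h1 i (List.mem_range.2 hi)), pa_eq]

/-- leaf test: an involution is listed -/
def lfi (L : List ℕ) (f : ℕ → ℕ) : Bool :=
  bif nall (fun i => Nat.beq (f (f i)) i) (List.range 24) then L.any fun c => nall (fun i => Nat.beq (f i) (pa c i)) (List.range 24) else true

theorem lfi_imp {P : Equiv.Perm GolayPt → Prop} {L : List ℕ} (hL : (L.all okPerm) = true) :
    LeafImp P (fun σ => σ * σ = 1 → ∃ c ∈ L, mkPerm c = σ) (lfi L) := by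
  intro σ hσ _ f hf h h3
  unfold lfi at h
  have h1 : nall (fun i => Nat.beq (f (f i)) i) (List.range 24) = true := by
    rw [nall_iff]
    intro i hi
    have hi' := List.mem_range.1 hi
    rw [hf i hi', hf _ (ap_lt _ _), ← ap_mul, h3, show ap 1 i = i from gidx_gpt hi']
    exact Nat.beq_refl i
  rw [h1, cond_true] at h
  exact eq_of_leaf hL hf h

theorem c64 : ∀ σ ∈ M24, StabMs ms6 σ → σ * σ = 1 → ∃ c ∈ L64, mkPerm c = σ :=
  all_stabMs (ms := ms6) (by decide +kernel) (lfi_imp (L := L64) (by decide +kernel)) (by decide +kernel)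

theorem fix64 : (L64.all (fixc [] [147496, 268544, 1082880, 2621632, 4268048, 8388615])) = true := by decide +kernel
theorem sq64 : (L64.all fun c => (List.range 24).all fun i => Nat.beq (pa c (pa c i)) i) = true := by decide +kernel

theorem stab64 {c : ℕ} (hc : c ∈ L64) : mkPerm c ∈ M24 ∧ ∀ t ∈ S0, mkPerm c • t = t := by
  obtain ⟨hp, h1, -, h3⟩ := fixc_spec (List.all_eq_true.1 fix64 c hc)
  refine ⟨h1, fun t ht => ?_⟩
  rw [mem_S0] at ht
  rcases ht with rfl | rfl | rfl | rfl | rfl | rfl <;> exact h3 _ (by simp)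

theorem sq_spec {c : ℕ} (hc : c ∈ L64) : mkPerm c * mkPerm c = 1 := by
  have hp := (fixc_spec (List.all_eq_true.1 fix64 c hc)).1
  apply ap_ext
  intro i hi
  have h1 := List.all_eq_true.1 (List.all_eq_true.1 sq64 c hc) i (List.mem_range.2 hi)
  rw [Nat.beq_eq] at h1
  rw [ap_mul, ap_mkPerm hp hi, ap_mkPerm hp (papp_lt hp hi)]
  exact h1.trans (gidx_gpt hi).symm

abbrev KS : Subgroup ↥M24 := MulAction.stabilizer ↥M24 S0

/-- the normal subgroup of order 64 -/
noncomputable def NN : Subgroup KS := (subL L64 grp64).comap (M24.subtype.comp KS.subtype)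

theorem mem_NN {g : KS} : g ∈ NN ↔ ∃ c ∈ L64, mkPerm c = ((g : ↥M24) : Equiv.Perm GolayPt) := Iff.rfl

theorem mem_NN' {g : KS} : g ∈ NN ↔ (∀ t ∈ S0, ((g : ↥M24) : Equiv.Perm GolayPt) • t = t) ∧
    ((g : ↥M24) : Equiv.Perm GolayPt) * ((g : ↥M24) : Equiv.Perm GolayPt) = 1 := by
  constructor
  · rintro ⟨c, hc, h⟩
    have h' : mkPerm c = ((g : ↥M24) : Equiv.Perm GolayPt) := h
    rw [← h']
    exact ⟨(stab64 hc).2, sq_spec hc⟩
  · rintro ⟨h1, h2⟩
    exact c64 _ (g : ↥M24).2 (ms6_iff.2 h1) h2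

theorem NN_normal : NN.Normal := by
  refine ⟨fun n hn g => ?_⟩
  rw [mem_NN'] at hn ⊢
  obtain ⟨h1, h2⟩ := hn
  refine ⟨fun t ht => ?_, ?_⟩
  · show (((g : ↥M24) : Equiv.Perm GolayPt) * ((n : ↥M24) : Equiv.Perm GolayPt) * ((g : ↥M24) : Equiv.Perm GolayPt)⁻¹) • t = t
    have h3 : ((g : ↥M24) : Equiv.Perm GolayPt)⁻¹ • t ∈ S0 := by
      have h4 : ((g : ↥M24) : Equiv.Perm GolayPt) • S0 = S0 := g.2
      rw [← h4, Finset.mem_smul_finset] at ht
      obtain ⟨s, hs, rfl⟩ := ht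
      rw [inv_smul_smul]; exact hs
    rw [mul_smul, mul_smul, h1 _ h3, smul_inv_smul]
  · show (((g : ↥M24) : Equiv.Perm GolayPt) * ((n : ↥M24) : Equiv.Perm GolayPt) * ((g : ↥M24) : Equiv.Perm GolayPt)⁻¹) *
      (((g : ↥M24) : Equiv.Perm GolayPt) * ((n : ↥M24) : Equiv.Perm GolayPt) * ((g : ↥M24) : Equiv.Perm GolayPt)⁻¹) = 1
    have : ∀ a b : Equiv.Perm GolayPt, b * b = 1 → (a * b * a⁻¹) * (a * b * a⁻¹) = 1 := by
      intro a b hb
      calc (a * b * a⁻¹) * (a * b * a⁻¹) = a * (b * b) * a⁻¹ := by group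
        _ = 1 := by rw [hb, mul_one, mul_inv_cancel]
    exact this _ _ h2

theorem card_NN : Nat.card NN = 64 := by
  have h : Nat.card (subL L64 grp64) = 64 := card_subL nodup64
  rw [← h]
  refine Nat.card_congr ⟨fun g => ⟨((g : KS) : ↥M24), g.2⟩, fun σ => ⟨⟨⟨σ, subL_le σ.2⟩, ?_⟩, σ.2⟩, fun _ => rfl, fun _ => rfl⟩
  obtain ⟨c, hc, h⟩ := mem_subL.1 σ.2
  have h1 := stab64 hc
  rw [h] at h1
  rw [MulAction.mem_stabilizer_iff]
  apply Finset.eq_of_subset_of_card_le
  · intro t ht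
    obtain ⟨s, hs, rfl⟩ := Finset.mem_smul_finset.1 ht
    show (σ : Equiv.Perm GolayPt) • s ∈ S0
    rw [h1.2 s hs]; exact hs
  · rw [Finset.card_smul_finset]

/-- Structure of a sextet stabiliser: it induces every permutation of the six tetrads, the subgroup fixing each tetrad setwise has order 192, and there is a normal subgroup of order 64 consisting of elements squaring to the identity. -/
theorem result (S : Finset (Finset Cfsg.GolayPt)) (hS : S ∈ Cfsg.sextets) : (∀ e : Equiv.Perm ↥S, ∃ g ∈ MulAction.stabilizer Cfsg.M24 S, ∀ t : ↥S, (g : Equiv.Perm Cfsg.GolayPt) • (t : Finset Cfsg.GolayPt) = ((e t : ↥S) : Finset Cfsg.GolayPt)) ∧ Nat.card {g : ↥(MulAction.stabilizer Cfsg.M24 S) // ∀ t ∈ S, ((g : Cfsg.M24) : Equiv.Perm Cfsg.GolayPt) • t = t} = 192 ∧ ∃ N : Subgroup ↥(MulAction.stabilizer Cfsg.M24 S), N.Normal ∧ Nat.card N = 64 ∧ ∀ x ∈ N, x * x = 1 := by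
  have hst := sextet_transitive S0_mem hS
  have hker : {σ | σ ∈ M24 ∧ ∀ t ∈ S, σ • t = t}.ncard = 192 := by
    rw [fix_conj_card hst, ← ord192]
    congr 1
    ext σ
    exact and_congr_right fun _ => ms6_iff.symm
  refine ⟨?_, ?_, ?_⟩
  · have hsurj := permOn_surj (G := ↥M24) (S := S) (k := 192) (by rw [card_ker_permOn, hker])
      (by rw [stab_sextet hS, hS.1]; decide)
    intro e
    obtain ⟨g, hg⟩ := hsurj e
    exact ⟨g, g.2, fun t => by rw [← hg]; rfl⟩
  · rw [← hker, ← card_ker_permOn]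
    exact Nat.card_congr (Equiv.subtypeEquivRight fun g => by rw [mem_ker_permOn]; rfl)
  · obtain ⟨e⟩ := equiv_stab_tr hst
    have := NN_normal
    refine ⟨NN.comap (e : _ →* _), NN_normal.comap _, ?_, ?_⟩
    · rw [← card_NN]
      exact Nat.card_congr ⟨fun x => ⟨e x, x.2⟩, fun y => ⟨e.symm y, by
        show e (e.symm y) ∈ NN
        rw [e.apply_symm_apply]; exact y.2⟩, fun x => Subtype.ext (e.symm_apply_apply _), fun y => Subtype.ext (e.apply_symm_apply _)⟩
    · intro x hx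
      have hx' : e x ∈ NN := hx
      have h2 := (mem_NN'.1 hx').2
      apply e.injective
      rw [map_mul, map_one]
      exact Subtype.ext (Subtype.ext h2)

end Cfsg.Agent.S1551
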