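import Cfsg.Statements.S1552
import Cfsg.Agent.H29.Coat2
import Cfsg.Agent.H29.M24SS

set_option autoImplicit false
open scoped Pointwise
open Cfsg

namespace Cfsg.Agent.S1552

open Cfsg.Agent.H7 Cfsg.Agent.H29
open scoped Pointwise

/-- A sextet stabiliser has four orbits on the 1771 sextets, of sizes 1, 90, 240, 1440; and the stabiliser is a maximal proper subgroup. -/
theorem result (S : Finset (Finset Cfsg.GolayPt)) (hS : S ∈ Cfsg.sextets) : ∃ X₁ ∈ Cfsg.sextets, ∃ X₂ ∈ Cfsg.sextets, ∃ X₃ ∈ Cfsg.sextets, (MulAction.orbit ↥(MulAction.stabilizer Cfsg.M24 S) X₁).ncard = 90 ∧ (MulAction.orbit ↥(MulAction.stabilizer Cfsg.M24 S) X₂).ncard = 240 ∧ (MulAction.orbit ↥(MulAction.stabilizer Cfsg.M24 S) X₃).ncard = 1440 ∧ Cfsg.sextets = {S} ∪ MulAction.orbit ↥(MulAction.stabilizer Cfsg.M24 S) X₁ ∪ MulAction.orbit ↥(MulAction.stabilizer Cfsg.M24 S) X₂ ∪ MulAction.orbit ↥(MulAction.stabilizer Cfsg.M24 S) X₃ ∧ IsCoatom (MulAction.stabilizer Cfsg.M24 S) := by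
  obtain ⟨r, hr, hc, hdec, hco⟩ := subdegJS (Ω := sextets) (Set.toFinite _) (fun _ hσ _ hy => smul_sextet hσ hy) sextets_ncard
    (k := 3) (n := 138240) (by norm_num) (x0 := oS35.π) (r0 := ![sS90.π, sS240.π, sS1440.π]) (c := ![90, 240, 1440])
    (m := ![1536, 576, 96])
    (fun i => by
      fin_cases i
      · exact mem_sextets_iff.2 ⟨_, by rw [card_toSet]; decide +kernel, rfl⟩
      · exact mem_sextets_iff.2 ⟨_, by rw [card_toSet]; decide +kernel, rfl⟩
      · exact mem_sextets_iff.2 ⟨_, by rw [card_toSet]; decide +kernel, rfl⟩)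
    (fun i => by
      fin_cases i
      · exact js_S_S90
      · exact js_S_S240
      · exact js_S_S1440)
    (fun i => by fin_cases i <;> decide)
    (fun i => by fin_cases i <;> decide) (by decide) (by decide) hS (stab_sextet hS)
    (fun _ hy _ hz => sextet_transitive hy hz)
    (mem_sextets_iff.2 ⟨_, by rw [card_toSet]; decide +kernel, rfl⟩)
  refine ⟨r 0, hr 0, r 1, hr 1, r 2, hr 2, hc 0, hc 1, hc 2, ?_, hco (by decide)⟩
  refine hdec.trans ?_
  ext y
  simp only [Set.mem_union, Set.mem_iUnion, Fin.exists_fin_succ, Fin.exists_fin_zero, or_assoc, or_false]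
  rfl

end Cfsg.Agent.S1552
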