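import Cfsg.Statements.S1554
import Cfsg.Agent.H29.OctStab

set_option autoImplicit false
open scoped Pointwise
open Cfsg

namespace Cfsg.Agent.S1554

open Cfsg.Agent.H7 Cfsg.Agent.H29
open scoped Pointwise

/-- restriction of the complement to the octad -/
def res (o : Finset GolayPt) (p : GolayPt) : LO o p →* Equiv.Perm o :=
  (resO o).comp (Subgroup.inclusion (inf_le_left : LO o p ≤ HO o))

theorem res_inj {o : Finset GolayPt} (ho : o ∈ octads) {p : GolayPt} (hp : p ∉ o) : Function.Injective (res o p) := by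
  rw [← MonoidHom.ker_eq_bot_iff, eq_bot_iff]
  intro σ hσ
  rw [MonoidHom.mem_ker] at hσ
  rw [Subgroup.mem_bot]
  apply Subtype.ext
  refine oct_fix_out ho hp σ.2.1.1 (fun q hq => ?_) σ.2.2
  exact congrArg (fun f : Equiv.Perm o => ((f ⟨q, hq⟩ : o) : GolayPt)) hσ

theorem res_range {o : Finset GolayPt} (ho : o ∈ octads) {p : GolayPt} (hp : p ∉ o) :
    (res o p).range = alternatingGroup o := by
  have h1 : (res o p).range ≤ alternatingGroup o := by
    rw [← range_resO ho]
    rintro _ ⟨σ, rfl⟩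
    exact ⟨_, rfl⟩
  have h2 : Nat.card (res o p).range = 20160 := by
    rw [← card_LO ho hp]
    exact (Nat.card_congr ((MonoidHom.ofInjective (res_inj ho hp)).toEquiv)).symm
  have h3 : Nat.card (alternatingGroup o) = 20160 := by
    rw [← range_resO ho]
    have h4 := (resO o).ker.card_mul_index
    rw [Subgroup.index_ker, card_ker_resO ho, card_HO ho] at h4
    omega
  exact Subgroup.eq_of_le_of_card_ge h1 (by rw [h2, h3])

/-- An octad stabiliser is a split extension: the joint stabiliser of the octad and a point outside it is a complement to the pointwise stabiliser of the octad, and is isomorphic to the alternating group of degree 8. -/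
theorem result (o : Finset Cfsg.GolayPt) (ho : o ∈ Cfsg.octads) (p : Cfsg.GolayPt) (hp : p ∉ o) : (Cfsg.M24 ⊓ fixingSubgroup (Equiv.Perm Cfsg.GolayPt) (o : Set Cfsg.GolayPt)) ⊓ (Cfsg.M24 ⊓ MulAction.stabilizer (Equiv.Perm Cfsg.GolayPt) o ⊓ MulAction.stabilizer (Equiv.Perm Cfsg.GolayPt) p) = ⊥ ∧ (Cfsg.M24 ⊓ fixingSubgroup (Equiv.Perm Cfsg.GolayPt) (o : Set Cfsg.GolayPt)) ⊔ (Cfsg.M24 ⊓ MulAction.stabilizer (Equiv.Perm Cfsg.GolayPt) o ⊓ MulAction.stabilizer (Equiv.Perm Cfsg.GolayPt) p) = (Cfsg.M24 ⊓ MulAction.stabilizer (Equiv.Perm Cfsg.GolayPt) o) ∧ Nonempty (↥(Cfsg.M24 ⊓ MulAction.stabilizer (Equiv.Perm Cfsg.GolayPt) o ⊓ MulAction.stabilizer (Equiv.Perm Cfsg.GolayPt) p) ≃* alternatingGroup (Fin 8)) := by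
  refine ⟨EO_inf_LO ho hp, EO_sup_LO ho hp, ?_⟩
  have e1 : LO o p ≃* (res o p).range := MonoidHom.ofInjective (res_inj ho hp)
  have e2 : (res o p).range ≃* alternatingGroup o := MulEquiv.subgroupCongr (res_range ho hp)
  have hc : Fintype.card o = Fintype.card (Fin 8) := by
    rw [Fintype.card_coe, (mem_octads.1 ho).2, Fintype.card_fin]
  have e3 : alternatingGroup o ≃* alternatingGroup (Fin 8) := Equiv.altCongrHom (Fintype.equivOfCardEq hc)
  exact ⟨(e1.trans e2).trans e3⟩

end Cfsg.Agent.S1554
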