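import Cfsg.Statements.S1555
import Cfsg.Agent.H29.Trans3

set_option autoImplicit false
open scoped Pointwise
open Cfsg

namespace Cfsg.Agent.S1555

open Cfsg.Agent.H7 Cfsg.Agent.H29
open scoped Pointwise


theorem c0 {k N : ℕ} (hN : ((subs k 24).all fun s => bif Nat.beq (Nat.land s oct0) s then
      Nat.beq (((List.range 759).map octE).countP fun m => Nat.beq (Nat.land oct0 m) s) N else true) = true)
    {s : Finset GolayPt} (hs : s ⊆ toSet oct0) (hk : s.card = k) :
    {o' : Finset GolayPt | o' ∈ octads ∧ toSet oct0 ∩ o' = s}.ncard = N := by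
  obtain ⟨n, hn, rfl⟩ := (enm_subs k).all s hk
  have hlt := (enm_subs k).lt n hn
  have h1 := List.all_eq_true.1 hN n hn
  have h2 : Nat.beq (Nat.land n oct0) n = true := nbeq.2 ((subset_iff_mask hlt).1 hs)
  rw [h2, cond_true] at h1
  refine enm_oct.count (P := fun o' => toSet oct0 ∩ o' = toSet n) (fun m _ => ?_) h1
  rw [← toSet_and]
  constructor
  · intro h
    exact nbeq.2 (toSet_inj (lt_of_le_of_lt Nat.and_le_left oct0_lt) hlt h)
  · intro h
    have := Nat.eq_of_beq_eq_true h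
    exact congrArg toSet this

theorem c2 {s : Finset GolayPt} (hs : s ⊆ toSet oct0) (hk : s.card = 2) :
    {o' : Finset GolayPt | o' ∈ octads ∧ toSet oct0 ∩ o' = s}.ncard = 16 := c0 (by decide +kernel) hs hk

theorem c4 {s : Finset GolayPt} (hs : s ⊆ toSet oct0) (hk : s.card = 4) :
    {o' : Finset GolayPt | o' ∈ octads ∧ toSet oct0 ∩ o' = s}.ncard = 4 := c0 (by decide +kernel) hs hk

theorem gen {k N : ℕ} (h0 : ∀ s : Finset GolayPt, s ⊆ toSet oct0 → s.card = k →
      {o' : Finset GolayPt | o' ∈ octads ∧ toSet oct0 ∩ o' = s}.ncard = N) {o : Finset GolayPt} (ho : o ∈ octads)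
    (s : Finset GolayPt) (hs : s ⊆ o) (hk : s.card = k) :
    {o' : Finset GolayPt | o' ∈ octads ∧ o ∩ o' = s}.ncard = N := by
  obtain ⟨σ, hσ, rfl⟩ := octad_transitive oct0_octad ho
  have h1 := h0 (σ⁻¹ • s) (by
    rw [← Finset.smul_finset_subset_smul_finset_iff (a := σ), smul_inv_smul]; exact hs)
    (by rw [Finset.card_smul_finset]; exact hk)
  refine ncard_all (fun (a : Finset GolayPt × Finset GolayPt) (x : Finset GolayPt) => x ∈ octads ∧ a.1 ∩ x = a.2)
    (fun τ hτ a x h => ⟨M24_smul_octad hτ h.1, ?_⟩) (a0 := (toSet oct0, σ⁻¹ • s)) (a := (σ • toSet oct0, s)) h1 ⟨σ, hσ, ?_⟩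
  · show (τ • a.1) ∩ (τ • x) = τ • a.2
    rw [← smul_inter', h.2]
  · exact Prod.ext rfl (smul_inv_smul σ s)

/-- Bottom row of the Leech triangle: an octad is met in a prescribed pair of its points by exactly 16 octads and in a prescribed 4-subset by exactly 4 octads. -/
theorem result (o : Finset Cfsg.GolayPt) (ho : o ∈ Cfsg.octads) (s : Finset Cfsg.GolayPt) (hs : s ⊆ o) : (s.card = 2 → {o' : Finset Cfsg.GolayPt | o' ∈ Cfsg.octads ∧ o ∩ o' = s}.ncard = 16) ∧ (s.card = 4 → {o' : Finset Cfsg.GolayPt | o' ∈ Cfsg.octads ∧ o ∩ o' = s}.ncard = 4) := by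
  exact ⟨fun h => gen (fun s hs hk => c2 hs hk) ho s hs h, fun h => gen (fun s hs hk => c4 hs hk) ho s hs h⟩

end Cfsg.Agent.S1555
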