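import Cfsg.Statements.S1556
import Cfsg.Agent.H29.M24Orb2

set_option autoImplicit false
open scoped Pointwise
open Cfsg

namespace Cfsg.Agent.S1556

open Cfsg.Agent.H7 Cfsg.Agent.H29
open scoped Pointwise

theorem aux {o o' o'' : Finset GolayPt} {u : Finset GolayPt}
    (h1 : ∃ σ ∈ M24, σ • toSet oct0 = o ∧ σ • u = o')
    (h2 : ∃ σ ∈ M24, σ • toSet oct0 = o ∧ σ • u = o'') :
    ∃ g : Equiv.Perm GolayPt, g ∈ M24 ∧ g • o = o ∧ g • o' = o'' := by
  obtain ⟨σ, hσ, hσ1, hσ2⟩ := h1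
  obtain ⟨τ, hτ, hτ1, hτ2⟩ := h2
  refine ⟨τ * σ⁻¹, M24.mul_mem hτ (M24.inv_mem hσ), ?_, ?_⟩
  · rw [mul_smul]; nth_rewrite 1 [← hσ1]; rw [inv_smul_smul]; exact hτ1
  · rw [mul_smul, ← hσ2, inv_smul_smul]; exact hτ2

/-- M24 is transitive on pairs of octads with given intersection size -/
theorem oct_pair {o o' o'' : Finset GolayPt} (ho : o ∈ octads) (ho' : o' ∈ octads) (ho'' : o'' ∈ octads)
    (h : (o ∩ o').card = (o ∩ o'').card) :
    ∃ g : Equiv.Perm GolayPt, g ∈ M24 ∧ g • o = o ∧ g • o' = o'' := by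
  by_cases e : o = o'
  · subst e
    by_cases e2 : o = o''
    · subst e2; exact ⟨1, M24.one_mem, one_smul _ _, one_smul _ _⟩
    · have h1 := octad_inter_octad ho ho'' e2
      rw [Finset.inter_self, (mem_octads.1 ho).2] at h
      omega
  · by_cases e2 : o = o''
    · subst e2
      have h1 := octad_inter_octad ho ho' e
      rw [Finset.inter_self, (mem_octads.1 ho).2] at h
      omega
    · rcases octad_inter_octad ho ho' e with h0 | h2 | h4
      · rw [h0] at h
        have d1 : Disjoint o o' := Finset.disjoint_iff_inter_eq_empty.2 (Finset.card_eq_zero.1 h0)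
        have d2 : Disjoint o o'' := Finset.disjoint_iff_inter_eq_empty.2 (Finset.card_eq_zero.1 h.symm)
        obtain ⟨σ, hσ, a, b⟩ := disj_transitive ho ho' ho ho'' d1 d2
        exact ⟨σ, hσ, a, b⟩
      · exact aux (meet2_transitive ho ho' h2) (meet2_transitive ho ho'' (h ▸ h2))
      · exact aux (meet4_transitive ho ho' h4) (meet4_transitive ho ho'' (h ▸ h4))

/-- Two octads meeting a fixed octad in equally many points are in the same orbit of its stabiliser. -/
theorem result (o o' o'' : Finset Cfsg.GolayPt) (ho : o ∈ Cfsg.octads) (ho' : o' ∈ Cfsg.octads) (ho'' : o'' ∈ Cfsg.octads) (h : (o ∩ o').card = (o ∩ o'').card) : ∃ g : Equiv.Perm Cfsg.GolayPt, g ∈ Cfsg.M24 ∧ g • o = o ∧ g • o' = o'' := by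
  exact oct_pair ho ho' ho'' h

end Cfsg.Agent.S1556
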