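import Cfsg.Statements.S1557
import Cfsg.Agent.H29.M24Orb2

set_option autoImplicit false
open scoped Pointwise
open Cfsg

namespace Cfsg.Agent.S1557

open Cfsg.Agent.H7 Cfsg.Agent.H29

/-- The complement of the union of two disjoint octads is an octad, and the code has exactly 3795 trios of pairwise disjoint octads. -/
theorem result : (∀ o o' : Finset Cfsg.GolayPt, o ∈ Cfsg.octads → o' ∈ Cfsg.octads → Disjoint o o' → (o ∪ o')ᶜ ∈ Cfsg.octads) ∧ Cfsg.trios.ncard = 3795 := by
  refine ⟨fun o o' ho ho' h => ?_, trios_ncard⟩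
  have h1 := trio_of_disj ho ho' h
  rw [mem_octads]
  refine ⟨GC_compl ?_, ?_⟩
  · have h2 : symmDiff o o' = o ∪ o' := h.symmDiff_eq_sup
    rw [← h2]
    exact GC_symmDiff (mem_octads.1 ho).1 (mem_octads.1 ho').1
  · rw [Finset.card_compl, Finset.card_union_of_disjoint h, (mem_octads.1 ho).2, (mem_octads.1 ho').2]
    rfl

end Cfsg.Agent.S1557
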