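import Cfsg.Statements.S1558
import Cfsg.Agent.H29.PermOn
import Cfsg.Agent.H29.MulAutGL

set_option autoImplicit false
open scoped Pointwise
open Cfsg

namespace Cfsg.Agent.S1558

open Cfsg.Agent.H7 Cfsg.Agent.H29
open scoped Pointwise

def o1 : ℕ := 8536111
def o2 : ℕ := 337856
def o3 : ℕ := 7903248

/-- the base trio -/
def T0 : Finset (Finset GolayPt) := {toSet o1, toSet o2, toSet o3}

def L64 : List ℕ := [0xbdab49ca307b9ac5a928398a418820,
  0xbb1f3a4232ab916218ed4a8ab18820,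
  0xbae957b6289ba44b1cd0524ac18820,
  0xbd17661a2a23933ac1a7448af18820,
  0xbd6cb22627638cfa224a834b318820,
  0xbbd8459e29b39559b606920b418820,
  0xbcc8cb2a265b8f47c9096c0b518820,
  0xb926faa22da3a0b6255231cb618820,
  0x1dab49c0527950c598ed4a9c4bc401,
  0x1b1f3a4850a95b622928399cbbc401,
  0x1ae957a04d99604b255231dccbc401,
  0x1d17662846214f3ac9096c1cfbc401,
  0x1d6cb21c496154fa3606921d3bc401,
  0x1bd845a447b14d59a24a835d4bc401,
  0x1cc8cb184a595347c1a7449d5bc401,
  0x1926fab448a164b61cd0525d6bc401,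
  0x75ab49982a7dd2c5c1a74486428222,
  0x731f3a2826adcf6249096c06b28222,
  0x72e957a4279dcc4b224a8346c28222,
  0x751766483025db3aa9283986f28222,
  0x756cb2342865e4fa1cd05247328222,
  0x73d845a02db5e159a55231c7428222,
  0x74c8cb40325dd14798ed4a87528222,
  0x7126fa9c29a5d4b636069207628222,
  0xdab499dc97c54c5b60692044016e3,
  0xb1f3a25c7ac4d62224a8344b016e3,
  0xae957a9c69c4e4b49096c04c016e3,
  0xd176621cd24613aa55231c4f016e3,
  0xd6cb241d26450fa18ed4a853016e3,
  0xbd845c9d0b45b59a92839854016e3,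
  0xcc8cb35c85c65479cd052455016e3,
  0x926fa99caa452b641a744856016e3,
  0x8dab49a2ed7860c5a55231c0410dc5,
  0x8b1f3a36e8a865621cd05240b10dc5,
  0x8ae957c2f298504b18ed4a80c10dc5,
  0x8d17661ee920553ab6069200f10dc5,
  0x8d6cb22ae6604efa49096c01310dc5,
  0x8bd8459aeab05359c1a74481410dc5,
  0x8cc8cb26e7584d47a24a8341510dc5,
  0x8926facaf0a05ab629283981610dc5,
  0x15ab49b4687824c59cd0524248dcae,
  0x131f3a206da82162255231c2b8dcae,
  0x12e957c870981a4b29283982c8dcae,
  0x1517662467200d3aa24a8342f8dcae,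
  0x156cb2186a6012fa41a7448338dcae,
  0x13d845a866b00f59c9096c0348dcae,
  0x14c8cb1c69581547b606920358dcae,
  0x1126fac072a010b618ed4a8368dcae,
  0x2dab49a80678cec5c9096c2e470451,
  0x2b1f3a180aa8d36241a744aeb70451,
  0x2ae9579c0998d44b3606922ec70451,
  0x2d1766401220d13a98ed4aaef70451,
  0x2d6cb2200d60e0fa255231ef370451,
  0x2bd845b408b0e5599cd0526f470451,
  0x2cc8cb481058db47a92839af570451,
  0x2926faa407a0ccb6224a836f670451,
  0x5ab49a4a7788cc5a24a836240b877,
  0x31f3a1ca9a8956236069222b0b877,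
  0x2e95798aa98924b41a744a2c0b877,
  0x5176634a820a53a9cd05262f0b877,
  0x56cb248b0609afa292839a330b877,
  0x3d845c0b2b0915998ed4aa340b877,
  0x4c8cb20ad58a147a55231e350b877,
  0x126faa8a6a08eb649096c2360b877]

/-- the tetrads in the first octad, and in the second -/
def TL1 : List ℕ := [15, 39, 16391, 131079, 8388615, 43, 16395, 131083, 8388619, 16419, 131107, 8388643, 147459, 8404995, 8519683, 45, 16397, 131085, 8388621, 16421, 131109, 8388645, 147461, 8404997, 8519685, 16425, 131113, 8388649, 147465, 8405001, 8519689, 147489, 8405025, 8519713, 8536065, 46, 16398, 131086, 8388622, 16422, 131110, 8388646, 147462, 8404998, 8519686, 16426, 131114, 8388650, 147466, 8405002, 8519690, 147490, 8405026, 8519714, 8536066, 16428, 131116, 8388652, 147468, 8405004, 8519692, 147492, 8405028, 8519716, 8536068, 147496, 8405032, 8519720, 8536072, 8536096]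
def TL2 : List ℕ := [960, 1472, 8640, 65984, 262592, 1728, 8896, 66240, 262848, 9408, 66752, 263360, 73920, 270528, 327872, 1856, 9024, 66368, 262976, 9536, 66880, 263488, 74048, 270656, 328000, 9792, 67136, 263744, 74304, 270912, 328256, 74816, 271424, 328768, 335936, 1920, 9088, 66432, 263040, 9600, 66944, 263552, 74112, 270720, 328064, 9856, 67200, 263808, 74368, 270976, 328320, 74880, 271488, 328832, 336000, 9984, 67328, 263936, 74496, 271104, 328448, 75008, 271616, 328960, 336128, 75264, 271872, 329216, 336384, 336896]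

def ms3 : List (ℕ × List ℕ) := [(o1, [0, 1, 2, 3, 5, 14, 17, 23]), (o2, [6, 7, 8, 9, 10, 13, 16, 18]), (o3, [4, 11, 12, 15, 19, 20, 21, 22])]

abbrev V : Type := Fin 3 → ZMod 2

def ml : List ℕ := [0, 8388646, 8404997, 8519692, 8388619, 8536066, 8519713, 8405032]

/-- the tetrad with a given label -/
def mv (v : V) : ℕ := ml.getD (4 * (v 0).val + 2 * (v 1).val + (v 2).val) 0

theorem F0 : ∀ v : V, mv v < 16777216 := by decide +kernel
theorem F1 : ∀ v w : V, isCW ((mv v ^^^ mv w) ^^^ mv (v + w)) = true := by decide +kernel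
theorem F2 : ∀ v w : V, isCW (mv v ^^^ mv w) = true → v = w := by decide +kernel
theorem F3 : (TL1.all fun u => !(TL2.any fun w => isCW (u ^^^ w)) || (ml.any fun k => isCW (u ^^^ k))) = true := by decide +kernel
theorem F4 : ∀ v : V, v = 0 ∨ (popc (mv v) = 4 ∧ mv v &&& o1 = mv v ∧ (TL2.any fun w => isCW (mv v ^^^ w)) = true) := by decide +kernel
theorem F5 : (TL2.all fun w => Nat.beq (popc w) 4 && Nat.beq (w &&& o2) w && Nat.blt w 16777216) = true := by decide +kernel
theorem F6 : ∀ k ∈ ml, ∃ v : V, mv v = k := by decide +kernel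
theorem F7 : ((subs 4 24).all fun n => !(Nat.beq (n &&& o1) n) || TL1.elem n) = true := by decide +kernel
theorem F7b : ((subs 4 24).all fun n => !(Nat.beq (n &&& o2) n) || TL2.elem n) = true := by decide +kernel
theorem F8 : mv 0 = 0 := by decide +kernel

theorem mem_T0 {s : Finset GolayPt} : s ∈ T0 ↔ s = toSet o1 ∨ s = toSet o2 ∨ s = toSet o3 := by unfold T0; simp

theorem oct_of {m : ℕ} (h : (isCW m && Nat.beq (popc m) 8) = true) : toSet m ∈ octads := by
  rw [Bool.and_eq_true, Nat.beq_eq] at h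
  exact mem_octads.2 ⟨mem_GC_mask.2 ⟨_, h.1, rfl⟩, by rw [card_toSet]; exact h.2⟩

theorem dis_of {m n : ℕ} (h : m &&& n = 0) : Disjoint (toSet m) (toSet n) := by
  rw [Finset.disjoint_iff_inter_eq_empty, ← toSet_and, h]; decide +kernel

theorem T0_mem : T0 ∈ trios := by
  refine ⟨by decide +kernel, ?_, ?_⟩
  · intro o ho
    rw [mem_T0] at ho
    rcases ho with rfl | rfl | rfl <;> exact oct_of (by decide +kernel)
  · intro o ho p hp hop
    rw [mem_T0] at ho hp
    rcases ho with rfl | rfl | rfl <;> rcases hp with rfl | rfl | rfl <;>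
      first
      | exact absurd rfl hop
      | exact dis_of (by decide +kernel)

theorem ms3_iff {σ : Equiv.Perm GolayPt} : StabMs ms3 σ ↔ ∀ t ∈ T0, σ • t = t := by
  unfold StabMs ms3
  simp only [List.forall_mem_cons, List.not_mem_nil, false_implies, implies_true, and_true]
  constructor
  · rintro ⟨h1, h2, h3⟩ t ht
    rw [mem_T0] at ht
    rcases ht with rfl | rfl | rfl <;> assumption
  · intro h
    exact ⟨h _ (mem_T0.2 (by simp)), h _ (mem_T0.2 (by simp)), h _ (mem_T0.2 (by simp))⟩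

/-! ### images under leaf functions -/

def imf (pts : List ℕ) (f : ℕ → ℕ) : ℕ := pts.foldr (fun i acc => (1 <<< f i) ||| acc) 0

theorem toSet_imf (pts : List ℕ) (hp : ∀ i ∈ pts, i < 24) {σ : Equiv.Perm GolayPt} {f : ℕ → ℕ} (hf : ∀ i < 24, f i = ap σ i) :
    toSet (imf pts f) = σ • (pts.map gpt).toFinset := by
  induction pts with
  | nil => simp [imf]; decide +kernel
  | cons i l ih =>
    have hi := hp i (by simp)
    show toSet ((1 <<< f i) ||| imf l f) = _
    rw [toSet_or, ih (fun j hj => hp j (by simp [hj])), List.map_cons, List.toFinset_cons, Finset.smul_finset_insert,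
      Finset.insert_eq, toSet_shift _ (by rw [hf i hi]; exact ap_lt _ _), hf i hi]
    congr 2
    show gpt (gidx (σ (gpt i))) = σ (gpt i)
    rw [gpt_gidx]

/-- leaf test: the labels of the basis are fixed implies listed -/
def lfk (f : ℕ → ℕ) : Bool :=
  bif isCW (imf [0, 1, 3, 23] f ^^^ mv ![1, 0, 0]) && (isCW (imf [0, 2, 14, 23] f ^^^ mv ![0, 1, 0]) && isCW (imf [1, 2, 5, 23] f ^^^ mv ![0, 0, 1])) then
    L64.any fun c => nall (fun i => Nat.beq (f i) (pa c i)) (List.range 24) else true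

theorem eq_of_leaf {L : List ℕ} (hL : (L.all okPerm) = true) {σ : Equiv.Perm GolayPt} {f : ℕ → ℕ} (hf : ∀ i < 24, f i = ap σ i)
    (h : (L.any fun c => nall (fun i => Nat.beq (f i) (pa c i)) (List.range 24)) = true) : ∃ c ∈ L, mkPerm c = σ := by
  rw [List.any_eq_true] at h
  obtain ⟨c, hc, h1⟩ := h
  refine ⟨c, hc, ?_⟩
  rw [nall_iff] at h1
  have hcp := okPerm_isPerm (List.all_eq_true.1 hL c hc)
  apply ap_ext
  intro i hi
  rw [ap_mkPerm hcp hi, ← hf i hi, Nat.eq_of_beq_eq_true (h1 i (List.mem_range.2 hi)), pa_eq]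

/-- two sets are congruent modulo the code -/
def Cg (s t : Finset GolayPt) : Prop := symmDiff s t ∈ GC

theorem Cg.smul {s t : Finset GolayPt} (h : Cg s t) {σ : Equiv.Perm GolayPt} (hσ : σ ∈ M24) : Cg (σ • s) (σ • t) := by
  unfold Cg; rw [← smul_symmDiff']; exact mem_M24_iff.1 hσ _ h

theorem Cg.symm {s t : Finset GolayPt} (h : Cg s t) : Cg t s := by unfold Cg; rw [symmDiff_comm]; exact h

theorem Cg.trans {s t u : Finset GolayPt} (h : Cg s t) (h' : Cg t u) : Cg s u := symmDiff_trans h h'.symm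

theorem xor_lt' {a b : ℕ} (ha : a < 16777216) (hb : b < 16777216) : a ^^^ b < 16777216 := Nat.xor_lt_two_pow (n := 24) ha hb

theorem Cg_iff {a b : ℕ} (ha : a < 16777216) (hb : b < 16777216) : Cg (toSet a) (toSet b) ↔ isCW (a ^^^ b) = true := by
  unfold Cg; rw [← toSet_xor, toSet_mem_GC (xor_lt' ha hb)]

theorem codes_ok : (L64.all okPerm) = true := by decide +kernel

theorem lfk_imp {P : Equiv.Perm GolayPt → Prop} :
    LeafImp P (fun σ => (∀ v : V, Cg (σ • toSet (mv v)) (toSet (mv v))) → ∃ c ∈ L64, mkPerm c = σ) lfk := by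
  intro σ hσ _ f hf h h3
  unfold lfk at h
  have key : ∀ (l : List ℕ) (v : V), (∀ i ∈ l, i < 24) → imf l f < 16777216 → (l.map gpt).toFinset = toSet (mv v) → isCW (imf l f ^^^ mv v) = true := by
    intro l v hl hlt he
    rw [← Cg_iff hlt (F0 v), toSet_imf l hl hf, he]
    exact h3 v
  have hlt : ∀ l : List ℕ, (∀ i ∈ l, i < 24) → imf l f < 16777216 := by
    intro l
    induction l with
    | nil => intro _; show 0 < 16777216; norm_num
    | cons i l ih =>
      intro hl
      refine Nat.or_lt_two_pow (n := 24) ?_ (ih fun j hj => hl j (by simp [hj]))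
      rw [Nat.one_shiftLeft, hf i (hl i (by simp))]
      exact Nat.pow_lt_pow_right (by norm_num) (ap_lt _ _)
  rw [key _ _ (by decide) (hlt _ (by decide)) (by decide +kernel), key _ _ (by decide) (hlt _ (by decide)) (by decide +kernel),
    key _ _ (by decide) (hlt _ (by decide)) (by decide +kernel)] at h
  exact eq_of_leaf codes_ok hf h

/-- the sextets of the three basis labels -/
def SL : List (ℕ × List ℕ) := [(8388619, [8388619, 147492, 1574928, 9536, 328320, 6328320]), (8404997, [8404997, 131114, 561168, 270912, 66944, 7342080]), (8388646, [147465, 8388646, 3149840, 66368, 271488, 4753408])]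

def sameT (L : List ℕ) (a b : ℕ) : Bool := L.any fun m => m.testBit a && m.testBit b

theorem SL_ok : (SL.all fun e => (Nat.blt e.1 16777216 && Nat.beq (popc e.1) 4) && ((e.2.all fun m => Nat.blt m 16777216 && Nat.beq (popc m) 4 && isCW (m ^^^ e.1)) &&
    ((List.range 24).all fun a => e.2.any fun m => m.testBit a))) = true := by decide +kernel

theorem tet_eq {s t : Finset GolayPt} (hs : s.card = 4) (ht : t.card = 4) (h : Cg s t) {p : GolayPt} (hp : p ∈ s) (hp' : p ∈ t) : s = t := by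
  by_contra hne
  exact Finset.disjoint_left.1 (tetrad_union hs ht hne h).2 hp hp'

theorem sameT_iff {e : ℕ × List ℕ} (he : e ∈ SL) {a b : ℕ} (ha : a < 24) (hb : b < 24) :
    sameT e.2 a b = true ↔ ∃ t : Finset GolayPt, t.card = 4 ∧ Cg t (toSet e.1) ∧ gpt a ∈ t ∧ gpt b ∈ t := by
  have h1 := List.all_eq_true.1 SL_ok e he
  rw [Bool.and_eq_true, Bool.and_eq_true, Bool.and_eq_true, List.all_eq_true, List.all_eq_true] at h1
  obtain ⟨⟨g1, g2⟩, g3, g4⟩ := h1
  have g1' : e.1 < 16777216 := by simpa using g1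
  have hm : ∀ m ∈ e.2, m < 16777216 ∧ (toSet m).card = 4 ∧ Cg (toSet m) (toSet e.1) := by
    intro m hm
    have h2 := g3 m hm
    rw [Bool.and_eq_true, Bool.and_eq_true, Nat.beq_eq] at h2
    have h3 : m < 16777216 := by simpa using h2.1.1
    exact ⟨h3, by rw [card_toSet]; exact h2.1.2, (Cg_iff h3 g1').2 h2.2⟩
  unfold sameT
  rw [List.any_eq_true]
  constructor
  · rintro ⟨m, hmm, h2⟩
    rw [Bool.and_eq_true] at h2
    obtain ⟨-, h4, h5⟩ := hm m hmm
    exact ⟨toSet m, h4, h5, (gpt_mem_toSet ha).2 h2.1, (gpt_mem_toSet hb).2 h2.2⟩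
  · rintro ⟨t, ht, hc, hta, htb⟩
    obtain ⟨m, hmm, h2⟩ := List.any_eq_true.1 (g4 a (List.mem_range.2 ha))
    obtain ⟨-, h4, h5⟩ := hm m hmm
    have h6 : t = toSet m := tet_eq ht h4 (hc.trans h5.symm) hta ((gpt_mem_toSet ha).2 h2)
    refine ⟨m, hmm, ?_⟩
    rw [Bool.and_eq_true]
    refine ⟨h2, ?_⟩
    rw [← gpt_mem_toSet hb, ← h6]; exact htb

def RR (a b x y : ℕ) : Bool := SL.all fun e => sameT e.2 a b == sameT e.2 x y

/-- the condition for the leaf search -/
def PK (σ : Equiv.Perm GolayPt) : Prop := StabMs ms3 σ ∧ ∀ v : V, Cg (σ • toSet (mv v)) (toSet (mv v))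

theorem SL_mv : ∀ e ∈ SL, ∃ v : V, mv v = e.1 := by decide +kernel

theorem RR_sound : ∀ σ ∈ M24, PK σ → ∀ a < 24, ∀ b < 24, RR a b (ap σ a) (ap σ b) = true := by
  intro σ hσ hP a ha b hb
  unfold RR
  rw [List.all_eq_true]
  intro e he
  rw [beq_iff_eq, Bool.eq_iff_iff, sameT_iff he ha hb, sameT_iff he (ap_lt _ _) (ap_lt _ _)]
  obtain ⟨v, hv⟩ := SL_mv e he
  have hcg := hP.2 v
  rw [hv] at hcg
  have e1 : ∀ i, gpt (ap σ i) = σ (gpt i) := fun i => gpt_gidx _
  rw [e1, e1]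
  constructor
  · rintro ⟨t, ht, hc, h1, h2⟩
    exact ⟨σ • t, by rw [Finset.card_smul_finset, ht], (hc.smul hσ).trans hcg, Finset.smul_mem_smul_finset h1, Finset.smul_mem_smul_finset h2⟩
  · rintro ⟨t, ht, hc, h1, h2⟩
    refine ⟨σ⁻¹ • t, by rw [Finset.card_smul_finset, ht], ?_, ?_, ?_⟩
    · have h3 := (hc.trans hcg.symm).smul (M24.inv_mem hσ)
      rwa [inv_smul_smul] at h3
    · rw [Finset.mem_inv_smul_finset_iff]; exact h1
    · rw [Finset.mem_inv_smul_finset_iff]; exact h2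

theorem c64 : ∀ σ ∈ M24, PK σ → ∃ c ∈ L64, mkPerm c = σ := by
  refine all_of_tf (pr := prAnd (prMs ms3) (prR RR)) (lf := fun f => bif lfMs ms3 f then lfk f else true) (preTrue _)
    (prAnd_sound ((prMs_sound ms3).mono fun σ _ h => h.1) (prR_sound RR_sound)) ?_ (by decide +kernel)
  intro σ hσ hP f hf h1
  have h2 := (lfMs_iff (ms := ms3) (by decide +kernel) σ hσ f hf).2 hP.1
  have h1 : (bif lfMs ms3 f then lfk f else true) = true := h1
  rw [h2, cond_true] at h1
  exact lfk_imp (P := PK) σ hσ hP f hf h1 hP.2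


/-! ### the labels are permuted linearly -/

theorem T1_all {t : Finset GolayPt} (h4 : t.card = 4) (h : t ⊆ toSet o1) : ∃ n ∈ TL1, n < 16777216 ∧ toSet n = t := by
  obtain ⟨n, hn, rfl⟩ := (enm_subs 4).all t h4
  have hlt := (enm_subs 4).lt n hn
  have h1 := List.all_eq_true.1 F7 n hn
  have e : n &&& o1 = n := by
    refine toSet_inj (lt_of_le_of_lt Nat.and_le_left hlt) hlt ?_
    rw [toSet_and]; exact Finset.inter_eq_left.2 h
  rw [e, Nat.beq_refl] at h1
  exact ⟨n, by simpa using h1, hlt, rfl⟩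

theorem T2_all {t : Finset GolayPt} (h4 : t.card = 4) (h : t ⊆ toSet o2) : ∃ n ∈ TL2, n < 16777216 ∧ toSet n = t := by
  obtain ⟨n, hn, rfl⟩ := (enm_subs 4).all t h4
  have hlt := (enm_subs 4).lt n hn
  have h1 := List.all_eq_true.1 F7b n hn
  have e : n &&& o2 = n := by
    refine toSet_inj (lt_of_le_of_lt Nat.and_le_left hlt) hlt ?_
    rw [toSet_and]; exact Finset.inter_eq_left.2 h
  rw [e, Nat.beq_refl] at h1
  exact ⟨n, by simpa using h1, hlt, rfl⟩

/-- the coset meets all octads of the trio in tetrads -/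
def Ref (T : Finset (Finset GolayPt)) (t : Finset GolayPt) : Prop := ∀ o ∈ T, ∃ u, u ⊆ o ∧ u.card = 4 ∧ Cg t u

theorem Ref_smul {σ : Equiv.Perm GolayPt} (hσ : σ ∈ M24) {T : Finset (Finset GolayPt)} {t : Finset GolayPt} (hT : σ • T = T)
    (h : Ref T t) : Ref T (σ • t) := by
  intro o ho
  rw [← hT] at ho
  obtain ⟨p, hp, rfl⟩ := Finset.mem_smul_finset.1 ho
  obtain ⟨u, h1, h2, h3⟩ := h p hp
  exact ⟨σ • u, Finset.smul_finset_subset_smul_finset h1, by rw [Finset.card_smul_finset, h2], h3.smul hσ⟩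

def TL3 : List ℕ := [4200464, 2131984, 1574928, 561168, 3149840, 5275664, 6815760, 1087488, 2627584, 4753408, 7342080, 6328320, 5771264, 3702784]

theorem F9 : ∀ v : V, v = 0 ∨ (TL3.any fun w => isCW (mv v ^^^ w)) = true := by decide +kernel
theorem F10 : (TL3.all fun w => Nat.beq (popc w) 4 && Nat.beq (w &&& o3) w && Nat.blt w 16777216) = true := by decide +kernel

theorem Ref_mv {v : V} (hv : v ≠ 0) : Ref T0 (toSet (mv v)) := by
  obtain ⟨h1, h2, h3⟩ := (F4 v).resolve_left hv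
  obtain ⟨w, hw, h4⟩ := List.any_eq_true.1 h3
  have h5 := List.all_eq_true.1 F5 w hw
  rw [Bool.and_eq_true, Bool.and_eq_true, Nat.beq_eq, Nat.beq_eq] at h5
  have hwlt : w < 16777216 := by simpa using h5.2
  have c1 : toSet (mv v) ⊆ toSet o1 := by rw [← Finset.inter_eq_left, ← toSet_and, h2]
  have c2 : toSet w ⊆ toSet o2 := by rw [← Finset.inter_eq_left, ← toSet_and, h5.1.2]
  have c3 : Cg (toSet (mv v)) (toSet w) := (Cg_iff (F0 v) hwlt).2 h4
  intro o ho
  rw [mem_T0] at ho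
  rcases ho with rfl | rfl | rfl
  · refine ⟨toSet (mv v), c1, by rw [card_toSet]; exact h1, ?_⟩
    unfold Cg; rw [symmDiff_self]; exact GC_empty
  · exact ⟨toSet w, c2, by rw [card_toSet]; exact h5.1.1, c3⟩
  · obtain ⟨x, hx, h6⟩ := List.any_eq_true.1 ((F9 v).resolve_left hv)
    have h7 := List.all_eq_true.1 F10 x hx
    rw [Bool.and_eq_true, Bool.and_eq_true, Nat.beq_eq, Nat.beq_eq] at h7
    have hxlt : x < 16777216 := by simpa using h7.2
    exact ⟨toSet x, by rw [← Finset.inter_eq_left, ← toSet_and, h7.1.2], by rw [card_toSet]; exact h7.1.1, (Cg_iff (F0 v) hxlt).2 h6⟩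

theorem complete {t : Finset GolayPt} (h : Ref T0 t) : ∃ v : V, Cg t (toSet (mv v)) := by
  obtain ⟨u, h1, h2, h3⟩ := h (toSet o1) (mem_T0.2 (Or.inl rfl))
  obtain ⟨w, g1, g2, g3⟩ := h (toSet o2) (mem_T0.2 (Or.inr (Or.inl rfl)))
  obtain ⟨n, hn, hlt, rfl⟩ := T1_all h2 h1
  obtain ⟨m, hm, hlt', rfl⟩ := T2_all g2 g1
  have h4 := List.all_eq_true.1 F3 n hn
  have h5 : (TL2.any fun w => isCW (n ^^^ w)) = true := List.any_eq_true.2 ⟨m, hm, (Cg_iff hlt hlt').1 (h3.symm.trans g3)⟩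
  rw [h5, Bool.not_true, Bool.false_or, List.any_eq_true] at h4
  obtain ⟨k, hk, h6⟩ := h4
  obtain ⟨v, rfl⟩ := F6 k hk
  exact ⟨v, h3.trans ((Cg_iff hlt (F0 v)).2 h6)⟩

theorem mv_inj {v w : V} (h : Cg (toSet (mv v)) (toSet (mv w))) : v = w := F2 v w ((Cg_iff (F0 v) (F0 w)).1 h)

theorem mv_add (v w : V) : symmDiff (symmDiff (toSet (mv v)) (toSet (mv w))) (toSet (mv (v + w))) ∈ GC := by
  rw [← toSet_xor, ← toSet_xor, toSet_mem_GC (xor_lt' (xor_lt' (F0 _) (F0 _)) (F0 _))]
  exact F1 v w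

abbrev KT : Subgroup ↥M24 := MulAction.stabilizer ↥M24 T0

theorem exists_pi (g : KT) (v : V) : ∃ w : V, Cg (((g : ↥M24) : Equiv.Perm GolayPt) • toSet (mv v)) (toSet (mv w)) := by
  by_cases hv : v = 0
  · refine ⟨0, ?_⟩
    rw [hv, F8]
    have e : toSet 0 = ∅ := by decide +kernel
    rw [e, Finset.smul_finset_empty]
    unfold Cg; rw [symmDiff_self]; exact GC_empty
  · exact complete (Ref_smul (g : ↥M24).2 g.2 (Ref_mv hv))

noncomputable def pi (g : KT) (v : V) : V := Classical.choose (exists_pi g v)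

theorem pi_spec (g : KT) (v : V) : Cg (((g : ↥M24) : Equiv.Perm GolayPt) • toSet (mv v)) (toSet (mv (pi g v))) :=
  Classical.choose_spec (exists_pi g v)

theorem pi_eq {g : KT} {v w : V} (h : Cg (((g : ↥M24) : Equiv.Perm GolayPt) • toSet (mv v)) (toSet (mv w))) : pi g v = w :=
  mv_inj ((pi_spec g v).symm.trans h)

theorem add4 (a b c a' b' c' : Finset GolayPt) (h1 : symmDiff (symmDiff a b) c ∈ GC) (h2 : symmDiff (symmDiff a' b') c' ∈ GC)
    (h3 : symmDiff a a' ∈ GC) (h4 : symmDiff b b' ∈ GC) : symmDiff c c' ∈ GC := by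
  have h5 := GC_symmDiff (GC_symmDiff h1 h2) (GC_symmDiff h3 h4)
  have e : symmDiff (symmDiff (symmDiff (symmDiff a b) c) (symmDiff (symmDiff a' b') c')) (symmDiff (symmDiff a a') (symmDiff b b')) = symmDiff c c' := by
    ext x
    simp only [Finset.mem_symmDiff]
    by_cases h1 : x ∈ a <;> by_cases h2 : x ∈ b <;> by_cases h3 : x ∈ c <;> by_cases h4 : x ∈ a' <;> by_cases h5 : x ∈ b' <;>
      by_cases h6 : x ∈ c' <;> simp [h1, h2, h3, h4, h5, h6]
  rwa [e] at h5

theorem pi_add (g : KT) (v w : V) : pi g (v + w) = pi g v + pi g w := by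
  apply pi_eq
  have h1 := mem_M24_iff.1 (g : ↥M24).2 _ (mv_add v w)
  rw [smul_symmDiff', smul_symmDiff'] at h1
  have h2 := mv_add (pi g v) (pi g w)
  have h3 := pi_spec g v
  have h4 := pi_spec g w
  exact add4 _ _ _ _ _ _ h1 h2 h3 h4

theorem pi_one (v : V) : pi 1 v = v := by
  apply pi_eq
  show Cg ((1 : Equiv.Perm GolayPt) • toSet (mv v)) (toSet (mv v))
  rw [one_smul]
  unfold Cg; rw [symmDiff_self]; exact GC_empty

theorem pi_mul (g h : KT) (v : V) : pi (g * h) v = pi g (pi h v) := by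
  apply pi_eq
  show Cg ((((g : ↥M24) : Equiv.Perm GolayPt) * ((h : ↥M24) : Equiv.Perm GolayPt)) • toSet (mv v)) _
  rw [mul_smul]
  exact ((pi_spec h v).smul (g : ↥M24).2).trans (pi_spec g (pi h v))

/-- the linear representation -/
noncomputable def rho : KT →* (V →ₗ[ZMod 2] V) where
  toFun g := AddMonoidHom.toZModLinearMap 2 (AddMonoidHom.mk' (pi g) (pi_add g))
  map_one' := LinearMap.ext fun v => pi_one v
  map_mul' g h := LinearMap.ext fun v => pi_mul g h v

noncomputable def Phi : KT →* (V →ₗ[ZMod 2] V)ˣ × Equiv.Perm ↥T0 := (MonoidHom.toHomUnits rho).prod (permOn (G := ↥M24) T0)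

theorem mem_ker {g : KT} : g ∈ Phi.ker ↔ PK ((g : ↥M24) : Equiv.Perm GolayPt) := by
  rw [MonoidHom.mem_ker]
  unfold PK
  rw [ms3_iff]
  constructor
  · intro h
    have h1 : MonoidHom.toHomUnits rho g = 1 := congrArg Prod.fst h
    have h2 : permOn (G := ↥M24) T0 g = 1 := congrArg Prod.snd h
    refine ⟨mem_ker_permOn.1 h2, fun v => ?_⟩
    have h3 : rho g = 1 := congrArg Units.val h1
    have h4 : pi g v = v := LinearMap.congr_fun h3 v
    have h5 := pi_spec g v
    rwa [h4] at h5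
  · rintro ⟨h1, h2⟩
    refine Prod.ext ?_ (mem_ker_permOn.2 h1)
    apply Units.ext
    exact LinearMap.ext fun v => pi_eq (h2 v)

set_option maxRecDepth 100000 in
theorem grp64 : grpOK L64 = true := by decide +kernel
theorem nodup64 : L64.Nodup := by decide +kernel
theorem fix64 : (L64.all (fixc [] [o1, o2, o3])) = true := by decide +kernel
theorem cg64 : (L64.all fun c => ml.all fun k => isCW (pim c k ^^^ k)) = true := by decide +kernel
theorem sq64 : (L64.all fun c => (List.range 24).all fun i => Nat.beq (pa c (pa c i)) i) = true := by decide +kernel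
theorem F6' : ∀ v : V, mv v ∈ ml := by decide +kernel

theorem pk64 {c : ℕ} (hc : c ∈ L64) : mkPerm c ∈ M24 ∧ PK (mkPerm c) := by
  obtain ⟨hp, h1, -, h3⟩ := fixc_spec (List.all_eq_true.1 fix64 c hc)
  refine ⟨h1, ms3_iff.2 fun t ht => ?_, fun v => ?_⟩
  · rw [mem_T0] at ht
    rcases ht with rfl | rfl | rfl <;> exact h3 _ (by simp)
  · have h4 := List.all_eq_true.1 (List.all_eq_true.1 cg64 c hc) _ (F6' v)
    rw [smul_toSet hp, ← pim_eq, Cg_iff (by rw [pim_eq]; exact pimg_lt hp) (F0 v)]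
    exact h4

theorem sq_spec {c : ℕ} (hc : c ∈ L64) : mkPerm c * mkPerm c = 1 := by
  have hp := (fixc_spec (List.all_eq_true.1 fix64 c hc)).1
  apply ap_ext
  intro i hi
  have h1 := List.all_eq_true.1 (List.all_eq_true.1 sq64 c hc) i (List.mem_range.2 hi)
  rw [Nat.beq_eq] at h1
  rw [ap_mul, ap_mkPerm hp hi, ap_mkPerm hp (papp_lt hp hi)]
  exact h1.trans (gidx_gpt hi).symm

theorem card_ker : Nat.card Phi.ker = 64 := by
  have h : Nat.card (subL L64 grp64) = 64 := card_subL nodup64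
  rw [← h]
  refine Nat.card_congr ⟨fun g => ⟨((g : KT) : ↥M24), c64 _ ((g : KT) : ↥M24).2 (mem_ker.1 g.2)⟩, fun σ => ⟨⟨⟨σ, subL_le σ.2⟩, ?_⟩, ?_⟩, fun _ => rfl, fun _ => rfl⟩
  · obtain ⟨c, hc, h⟩ := mem_subL.1 σ.2
    have h1 := (pk64 hc).2.1
    rw [h, ms3_iff] at h1
    rw [MulAction.mem_stabilizer_iff]
    apply Finset.eq_of_subset_of_card_le
    · intro t ht
      obtain ⟨s, hs, rfl⟩ := Finset.mem_smul_finset.1 ht
      show (σ : Equiv.Perm GolayPt) • s ∈ T0
      rw [h1 s hs]; exact hs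
    · rw [Finset.card_smul_finset]
  · obtain ⟨c, hc, h⟩ := mem_subL.1 σ.2
    rw [mem_ker]
    show PK (σ : Equiv.Perm GolayPt)
    rw [← h]; exact (pk64 hc).2

theorem card_cod : Nat.card ((V →ₗ[ZMod 2] V)ˣ × Equiv.Perm ↥T0) = 1008 := by
  have h1 : Nat.card (V →ₗ[ZMod 2] V)ˣ = 168 := by
    rw [← Nat.card_congr (Matrix.GeneralLinearGroup.toLin (n := Fin 3) (R := ZMod 2)).toEquiv, Matrix.card_GL_field, ZMod.card]
    decide
  have h2 : Nat.card (Equiv.Perm ↥T0) = 6 := by
    rw [Nat.card_eq_fintype_card, Fintype.card_perm, Fintype.card_coe, T0_mem.1]; decide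
  rw [Nat.card_prod, h1, h2]

theorem Phi_surj : Function.Surjective Phi := by
  have h1 := Subgroup.card_eq_card_quotient_mul_card_subgroup Phi.ker
  have h2 : Nat.card (KT ⧸ Phi.ker) = Nat.card Phi.range :=
    Nat.card_congr (QuotientGroup.quotientKerEquivRange Phi).toEquiv
  rw [h2, card_ker, stab_trio T0_mem] at h1
  have h3 : Nat.card Phi.range = 1008 := by omega
  have f1 : Finite (V →ₗ[ZMod 2] V) := Finite.of_injective (fun f => (f : V → V)) DFunLike.coe_injective
  have h5 : Phi.range = ⊤ := Subgroup.eq_top_of_card_eq _ (by rw [h3, card_cod])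
  exact MonoidHom.range_eq_top.1 h5

theorem base : ∃ (N : Subgroup KT) (_ : N.Normal), Nat.card N = 64 ∧ (∀ x ∈ N, x * x = 1) ∧
    Nonempty (KT ⧸ N ≃* GL (Fin 3) (ZMod 2) × Equiv.Perm (Fin 3)) := by
  refine ⟨Phi.ker, inferInstance, card_ker, ?_, ⟨?_⟩⟩
  · intro x hx
    obtain ⟨c, hc, h⟩ := c64 _ (x : ↥M24).2 (mem_ker.1 hx)
    apply Subtype.ext
    apply Subtype.ext
    show ((x : ↥M24) : Equiv.Perm GolayPt) * ((x : ↥M24) : Equiv.Perm GolayPt) = 1
    rw [← h]; exact sq_spec hc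
  · exact (QuotientGroup.quotientKerEquivOfSurjective Phi Phi_surj).trans
      ((Matrix.GeneralLinearGroup.toLin (n := Fin 3) (R := ZMod 2)).symm.prodCongr
        (T0.equivFinOfCardEq T0_mem.1).permCongrHom)

theorem transport {G H X : Type*} [Group G] [Group H] [Group X] (e : G ≃* H) {k : ℕ}
    (h : ∃ (N : Subgroup H) (_ : N.Normal), Nat.card N = k ∧ (∀ x ∈ N, x * x = 1) ∧ Nonempty (H ⧸ N ≃* X)) :
    ∃ (N : Subgroup G) (_ : N.Normal), Nat.card N = k ∧ (∀ x ∈ N, x * x = 1) ∧ Nonempty (G ⧸ N ≃* X) := by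
  obtain ⟨N, hN, h1, h2, ⟨f⟩⟩ := h
  have hmap : (N.comap (e : G →* H)).map (e : G →* H) = N :=
    Subgroup.map_comap_eq_self_of_surjective e.surjective N
  refine ⟨N.comap (e : G →* H), hN.comap _, ?_, ?_, ⟨?_⟩⟩
  · rw [← h1]
    exact Nat.card_congr ⟨fun x => ⟨e x, x.2⟩, fun y => ⟨e.symm y, by
      show e (e.symm y) ∈ N
      rw [e.apply_symm_apply]; exact y.2⟩, fun x => Subtype.ext (e.symm_apply_apply _), fun y => Subtype.ext (e.apply_symm_apply _)⟩
  · intro x hx
    have hx' : e x ∈ N := hx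
    apply e.injective
    rw [map_mul, map_one]
    exact h2 _ hx'
  · exact (QuotientGroup.congr (N.comap (e : G →* H)) N e hmap).trans f

theorem o3_eq : (toSet o1 ∪ toSet o2)ᶜ = toSet o3 := by decide +kernel

theorem ker0 : {σ | σ ∈ M24 ∧ ∀ t ∈ T0, σ • t = t}.ncard = 10752 := by
  have h : {σ | σ ∈ M24 ∧ ∀ t ∈ T0, σ • t = t} = {σ | σ ∈ M24 ∧ σ • toSet oct0 = toSet oct0 ∧ σ • toSet disj0 = toSet disj0} := by
    ext σ
    refine and_congr_right fun _ => ?_
    constructor
    · intro h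
      exact ⟨h _ (mem_T0.2 (Or.inl rfl)), h _ (mem_T0.2 (Or.inr (Or.inl rfl)))⟩
    · rintro ⟨h1, h2⟩ t ht
      have h1' : σ • toSet o1 = toSet o1 := h1
      have h2' : σ • toSet o2 = toSet o2 := h2
      rw [mem_T0] at ht
      rcases ht with rfl | rfl | rfl
      · exact h1
      · exact h2
      · rw [← o3_eq, Finset.compl_eq_univ_sdiff, Finset.smul_finset_sdiff, Finset.smul_finset_univ, Finset.smul_finset_union, h1', h2']
  rw [h]
  exact js_O_O30

/-- Structure of a trio stabiliser: every permutation of the three octads is induced, and there is a normal subgroup of order 64 of elements squaring to the identity whose quotient is isomorphic to the product of GL(3, 2) with the symmetric group of degree 3. -/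
theorem result (T : Finset (Finset Cfsg.GolayPt)) (hT : T ∈ Cfsg.trios) : (∀ e : Equiv.Perm ↥T, ∃ g ∈ MulAction.stabilizer Cfsg.M24 T, ∀ o : ↥T, (g : Equiv.Perm Cfsg.GolayPt) • (o : Finset Cfsg.GolayPt) = ((e o : ↥T) : Finset Cfsg.GolayPt)) ∧ ∃ (N : Subgroup ↥(MulAction.stabilizer Cfsg.M24 T)) (_ : N.Normal), Nat.card N = 64 ∧ (∀ x ∈ N, x * x = 1) ∧ Nonempty (↥(MulAction.stabilizer Cfsg.M24 T) ⧸ N ≃* GL (Fin 3) (ZMod 2) × Equiv.Perm (Fin 3)) := by
  have hst := trio_transitive T0_mem hT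
  refine ⟨?_, ?_⟩
  · have hsurj := permOn_surj (G := ↥M24) (S := T) (k := 10752) (by rw [card_ker_permOn, fix_conj_card hst, ker0])
      (by rw [stab_trio hT, hT.1]; decide)
    intro e
    obtain ⟨g, hg⟩ := hsurj e
    exact ⟨g, g.2, fun t => by rw [← hg]; rfl⟩
  · obtain ⟨e⟩ := equiv_stab_tr hst
    exact transport e base

end Cfsg.Agent.S1558
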