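import Cfsg.Statements.S1559
import Cfsg.Agent.H29.Coat2
import Cfsg.Agent.H29.M24SS

set_option autoImplicit false
open scoped Pointwise
open Cfsg

namespace Cfsg.Agent.S1559

open Cfsg.Agent.H7 Cfsg.Agent.H29
open scoped Pointwise

/-- A trio stabiliser has five orbits on the 3795 trios, of sizes 1, 42, 56, 1008, 2688; and the stabiliser is a maximal proper subgroup. -/
theorem result (T : Finset (Finset Cfsg.GolayPt)) (hT : T ∈ Cfsg.trios) : ∃ X₁ ∈ Cfsg.trios, ∃ X₂ ∈ Cfsg.trios, ∃ X₃ ∈ Cfsg.trios, ∃ X₄ ∈ Cfsg.trios, (MulAction.orbit ↥(MulAction.stabilizer Cfsg.M24 T) X₁).ncard = 42 ∧ (MulAction.orbit ↥(MulAction.stabilizer Cfsg.M24 T) X₂).ncard = 56 ∧ (MulAction.orbit ↥(MulAction.stabilizer Cfsg.M24 T) X₃).ncard = 1008 ∧ (MulAction.orbit ↥(MulAction.stabilizer Cfsg.M24 T) X₄).ncard = 2688 ∧ Cfsg.trios = {T} ∪ MulAction.orbit ↥(MulAction.stabilizer Cfsg.M24 T) X₁ ∪ MulAction.orbit ↥(MulAction.stabilizer Cfsg.M24 T) X₂ ∪ MulAction.orbit ↥(MulAction.stabilizer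 Cfsg.M24 T) X₃ ∪ MulAction.orbit ↥(MulAction.stabilizer Cfsg.M24 T) X₄ ∧ IsCoatom (MulAction.stabilizer Cfsg.M24 T) := by
  obtain ⟨r, hr, hc, hdec, hco⟩ := subdegJS (Ω := trios) (Set.toFinite _) (fun _ hσ _ hy => smul_trio hσ hy) trios_ncard
    (k := 4) (n := 64512) (by norm_num) (x0 := tT0.π) (r0 := ![tT42.π, tT56.π, tT1008.π, tT2688.π]) (c := ![42, 56, 1008, 2688])
    (m := ![1536, 1152, 64, 24])
    (fun i => by
      fin_cases i
      · exact trio_mem (by decide +kernel)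
      · exact trio_mem (by decide +kernel)
      · exact trio_mem (by decide +kernel)
      · exact trio_mem (by decide +kernel))
    (fun i => by
      fin_cases i
      · exact js_T_T42
      · exact js_T_T56
      · exact js_T_T1008
      · exact js_T_T2688)
    (fun i => by fin_cases i <;> decide)
    (fun i => by fin_cases i <;> decide) (by decide) (by decide) hT (stab_trio hT)
    (fun _ hy _ hz => trio_transitive hy hz)
    (trio_mem (by decide +kernel))
  refine ⟨r 0, hr 0, r 1, hr 1, r 2, hr 2, r 3, hr 3, hc 0, hc 1, hc 2, hc 3, ?_, hco (by decide)⟩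
  refine hdec.trans ?_
  ext y
  simp only [Set.mem_union, Set.mem_iUnion, Fin.exists_fin_succ, Fin.exists_fin_zero, or_assoc, or_false]
  rfl

end Cfsg.Agent.S1559
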