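import Cfsg.Statements.S1560
import Cfsg.Agent.H29.Trans

set_option autoImplicit false
open scoped Pointwise
open Cfsg

namespace Cfsg.Agent.S1560

open Cfsg.Agent.H7 Cfsg.Agent.H29
open scoped Pointwise

theorem inter_dod {d d' : Finset GolayPt} (hd : d ∈ dodecads) (hd' : d' ∈ dodecads) (hne : d' ≠ d) :
    (d ∩ d').card = 0 ∨ (d ∩ d').card = 4 ∨ (d ∩ d').card = 6 ∨ (d ∩ d').card = 8 := by
  have h1 := card_symmDiff' d d'
  have h2 := GC_weights _ (GC_symmDiff (mem_dodecads.1 hd).1 (mem_dodecads.1 hd').1)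
  rw [(mem_dodecads.1 hd).2, (mem_dodecads.1 hd').2] at h1
  have h3 : (symmDiff d d').card ≠ 0 := by
    rw [Ne, Finset.card_eq_zero]
    intro h
    exact hne (symmDiff_eq_bot.1 h).symm
  omega

theorem cnt {k N : ℕ} (h : Nat.beq ((((List.range 4096).map en).filter fun n => Nat.beq (popc n) 12).countP
      fun n => Nat.beq (popc (Nat.land dod0 n)) k) N = true) :
    {d' : Finset GolayPt | d' ∈ dodecads ∧ (toSet dod0 ∩ d').card = k}.ncard = N :=
  enm_dod.count (P := fun s => (toSet dod0 ∩ s).card = k) (fun n _ => by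
    rw [← toSet_and, card_toSet]; exact nbeq.symm) h

theorem cnt' {d : Finset GolayPt} (hd : d ∈ dodecads) {k N : ℕ}
    (h : Nat.beq ((((List.range 4096).map en).filter fun n => Nat.beq (popc n) 12).countP
      fun n => Nat.beq (popc (Nat.land dod0 n)) k) N = true) :
    {d' : Finset GolayPt | d' ∈ dodecads ∧ (d ∩ d').card = k}.ncard = N :=
  ncard_all (fun (a x : Finset GolayPt) => x ∈ dodecads ∧ (a ∩ x).card = k)
    (fun σ hσ a x h => ⟨(smul_dodecads_iff hσ).2 h.1, by rw [card_smul_inter]; exact h.2⟩)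
    (cnt h) (dodecad_transitive dod0_dodecad hd)

/-- Intersection numbers of dodecads: a dodecad meets every other dodecad in 0, 4, 6 or 8 points, meeting 495 of them in 4 points, 1584 in 6 points and 495 in 8 points. -/
theorem result (d : Finset Cfsg.GolayPt) (hd : d ∈ Cfsg.dodecads) : (∀ d' ∈ Cfsg.dodecads, d' ≠ d → (d ∩ d').card = 0 ∨ (d ∩ d').card = 4 ∨ (d ∩ d').card = 6 ∨ (d ∩ d').card = 8) ∧ {d' : Finset Cfsg.GolayPt | d' ∈ Cfsg.dodecads ∧ (d ∩ d').card = 4}.ncard = 495 ∧ {d' : Finset Cfsg.GolayPt | d' ∈ Cfsg.dodecads ∧ (d ∩ d').card = 6}.ncard = 1584 ∧ {d' : Finset Cfsg.GolayPt | d' ∈ Cfsg.dodecads ∧ (d ∩ d').card = 8}.ncard = 495 := by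
  exact ⟨fun d' hd' hne => inter_dod hd hd' hne, cnt' hd (by decide +kernel), cnt' hd (by decide +kernel),
    cnt' hd (by decide +kernel)⟩

end Cfsg.Agent.S1560
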