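import Cfsg.Statements.S1561
import Cfsg.Agent.H29.Trans2
import Cfsg.Agent.S1560

set_option autoImplicit false
open scoped Pointwise
open Cfsg

namespace Cfsg.Agent.S1561

open Cfsg.Agent.H7 Cfsg.Agent.H29
open scoped Pointwise

def gens : List ℕ := [0x9aed8c86c3b9602d1e9522d0a9053,
  0xbda2694eb05a1ac7a8ae3d12118082,
  0xb9a3660e4173ce445169534b3802a2,
  0x85a6fa9002334b772928a1d728b061,
  0xbd80a20c33719114d1e559da295590,
  0xbda290067259e8c434ce7a8b514064,
  0x5ae584c517d10c32d4e49da4ac861,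
  0xbd2691b095715023a9af3596094601,
  0x9daad80c522a8e0a19cb4bd0c88497,
  0x9daa595e1171a8349d0d53d6023041,
  0x95ab48c0233154c3bd6d7213724c02,
  0xbda549c0044b5617a1c731543ab222,
  0xbd26d946b05a0c129dee5592c20860,
  0xadaf49c844799403b5255b9101c42c,
  0xbba478542c4adf12b5563228218093,
  0x99af690c913b5e25b9454d1100b2a0,
  0xbdaaf8b261a1db252d09718a018a04,
  0xbda0d18aa1724f12a9065be8404d92,
  0x9da2fa8812328e34a28d72ca483037,
  0x65aa608ae46ad317150aa1de094263]

theorem base {k x0 : ℕ} (hd : ((((List.range 4096).map en).filter fun n => Nat.beq (popc n) 12).all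
      fun n => bif Nat.beq (popc (Nat.land dod0 n)) k then dsc gens x0 n else true) = true)
    {x : Finset GolayPt} (hx : x ∈ dodecads) (hk : (toSet dod0 ∩ x).card = k) :
    ∃ σ ∈ M24, σ • toSet dod0 = toSet dod0 ∧ σ • toSet x0 = x := by
  obtain ⟨σ, h1, _, h3, h4⟩ := enm_dod.trans (P := fun s => (toSet dod0 ∩ s).card = k)
    (φ := fun n => Nat.beq (popc (Nat.land dod0 n)) k) (pts := []) (ms := [dod0]) (gens := gens) (x0 := x0)
    (fun n _ h => by rw [← toSet_and, card_toSet] at h; exact nbeq.2 h)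
    (fun σ hσ _ hm s hs h => ⟨(smul_dodecads_iff hσ).2 hs, by
      show (toSet dod0 ∩ σ • s).card = k
      rw [← h]; exact inter_inv (hm dod0 (by simp))⟩) (by decide +kernel) hd x hx hk
  exact ⟨σ, h1, h3 dod0 (by simp), h4⟩

theorem t4 {x : Finset GolayPt} (hx : x ∈ dodecads) (hk : (toSet dod0 ∩ x).card = 4) :
    ∃ σ ∈ M24, σ • toSet dod0 = toSet dod0 ∧ σ • toSet 28637 = x :=
  base (x0 := 28637) (by decide +kernel) hx hk
theorem t6 {x : Finset GolayPt} (hx : x ∈ dodecads) (hk : (toSet dod0 ∩ x).card = 6) :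
    ∃ σ ∈ M24, σ • toSet dod0 = toSet dod0 ∧ σ • toSet 89455 = x :=
  base (x0 := 89455) (by decide +kernel) hx hk
theorem t8 {x : Finset GolayPt} (hx : x ∈ dodecads) (hk : (toSet dod0 ∩ x).card = 8) :
    ∃ σ ∈ M24, σ • toSet dod0 = toSet dod0 ∧ σ • toSet 340831 = x :=
  base (x0 := 340831) (by decide +kernel) hx hk

theorem base_all (x y : Finset GolayPt) (hx : x ∈ dodecads) (hy : y ∈ dodecads)
    (h : (toSet dod0 ∩ x).card = (toSet dod0 ∩ y).card) :
    ∃ g ∈ M24, g • toSet dod0 = toSet dod0 ∧ g • x = y := by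
  by_cases hx0 : x = toSet dod0
  · subst hx0
    rw [Finset.inter_self, (mem_dodecads.1 hx).2] at h
    have h1 : toSet dod0 ∩ y = toSet dod0 := by
      apply Finset.eq_of_subset_of_card_le Finset.inter_subset_left
      rw [← h, (mem_dodecads.1 hx).2]
    have h2 : toSet dod0 ⊆ y := by rw [← h1]; exact Finset.inter_subset_right
    have h3 := Finset.eq_of_subset_of_card_le h2 (by rw [(mem_dodecads.1 hx).2, (mem_dodecads.1 hy).2])
    exact ⟨1, M24.one_mem, one_smul _ _, by rw [one_smul, h3]⟩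
  by_cases hy0 : y = toSet dod0
  · subst hy0
    rw [Finset.inter_self, (mem_dodecads.1 hy).2] at h
    have h1 : toSet dod0 ∩ x = toSet dod0 := by
      apply Finset.eq_of_subset_of_card_le Finset.inter_subset_left
      rw [h, (mem_dodecads.1 hy).2]
    have h2 : toSet dod0 ⊆ x := by rw [← h1]; exact Finset.inter_subset_right
    have h3 := Finset.eq_of_subset_of_card_le h2 (by rw [(mem_dodecads.1 hx).2, (mem_dodecads.1 hy).2])
    exact absurd h3.symm hx0
  have key : ∀ z : Finset GolayPt, z ∈ dodecads → (toSet dod0 ∩ z).card = 0 → z = (toSet dod0)ᶜ := by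
    intro z hz h0
    rw [Finset.card_eq_zero, ← Finset.disjoint_iff_inter_eq_empty] at h0
    have h2 : z ⊆ (toSet dod0)ᶜ := by
      rw [Finset.subset_compl_iff_disjoint_left]; exact h0
    apply Finset.eq_of_subset_of_card_le h2
    rw [(mem_dodecads.1 (compl_dodecad dod0_dod)).2, (mem_dodecads.1 hz).2]
  rcases S1560.inter_dod dod0_dodecad hx hx0 with h0 | h0 | h0 | h0
  · rw [key x hx h0, key y hy (by rw [← h, h0])]
    exact ⟨1, M24.one_mem, one_smul _ _, one_smul _ _⟩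
  · exact tr_of_base (a0 := toSet dod0) (Y := {y | y ∈ dodecads ∧ (toSet dod0 ∩ y).card = 4})
      (fun y hy => t4 hy.1 hy.2) x ⟨hx, h0⟩ y ⟨hy, by rw [← h]; exact h0⟩
  · exact tr_of_base (a0 := toSet dod0) (Y := {y | y ∈ dodecads ∧ (toSet dod0 ∩ y).card = 6})
      (fun y hy => t6 hy.1 hy.2) x ⟨hx, h0⟩ y ⟨hy, by rw [← h]; exact h0⟩
  · exact tr_of_base (a0 := toSet dod0) (Y := {y | y ∈ dodecads ∧ (toSet dod0 ∩ y).card = 8})
      (fun y hy => t8 hy.1 hy.2) x ⟨hx, h0⟩ y ⟨hy, by rw [← h]; exact h0⟩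

/-- Two dodecads meeting a fixed dodecad in equally many points lie in one orbit of its stabiliser. -/
theorem result (d d' d'' : Finset Cfsg.GolayPt) (hd : d ∈ Cfsg.dodecads) (hd' : d' ∈ Cfsg.dodecads) (hd'' : d'' ∈ Cfsg.dodecads) (h : (d ∩ d').card = (d ∩ d'').card) : ∃ g : Equiv.Perm Cfsg.GolayPt, g ∈ Cfsg.M24 ∧ g • d = d ∧ g • d' = d'' := by
  exact tr_all (fun (_ x : Finset GolayPt) => x ∈ dodecads) (fun σ hσ a x h => (smul_dodecads_iff hσ).2 h)
    (R := fun (a x y : Finset GolayPt) => (a ∩ x).card = (a ∩ y).card)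
    (fun σ hσ a x y h => by rw [card_smul_inter, card_smul_inter]; exact h) base_all
    (dodecad_transitive dod0_dodecad hd) d' d'' hd' hd'' h

end Cfsg.Agent.S1561
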