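import Cfsg.Statements.S1562
import Cfsg.Agent.H29.Trans3

set_option autoImplicit false
open scoped Pointwise
open Cfsg

namespace Cfsg.Agent.S1562

open Cfsg.Agent.H7 Cfsg.Agent.H29
open scoped Pointwise

def gens : List ℕ := [0xaa4898d6224295b1cac8b4c973c17,
  0xbd2b26188a89d305cdae1d8a243c01,
  0x447692aac73482a226f81d662a437,
  0xbd25372df133205488ed51068b5420,
  0xc533abece650643aa085b64231417,
  0x49a4656d07ac7331502a394989ee1,
  0xbca0ab55931d1e95a0c5111d13b420,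
  0xbb9147b2b1b2c73548d021da249401,
  0x9a725da2d3b9556260f250a810ee0,
  0xce95b1e305b9447b5289184c196e0,
  0xcd474562b83a8c7c9366984428c17,
  0x3212b2ce953e33a3aa368906292e1,
  0xb9aa85503a2e279a5e6b124560ae0,
  0xaa53a422daa50e59c4fb158321817,
  0xbadcc8c9b47aa704d6c72890430c20,
  0xbb68a5a04f6564eb40a920cd13cc01,
  0x26d11916a9c2882b647ab0c273ee1,
  0x550f5d8e48a55434da51306e84ae1]


def T0 : ℕ := 8388611
def O21 : List ℕ := [8398155, 8421811, 8505411, 8524371, 8536111, 8657159, 8716939, 8983587, 9347075, 9465987, 9471495, 9963547, 10496547, 10765331, 11010247, 11731203, 12656663, 12717187, 13124355, 13893731, 14716939]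

theorem O21_ok : (O21.all fun m => isOct m && Nat.beq (Nat.land T0 m) T0) = true := by decide +kernel
theorem O21_all : (((List.range 759).map octE).all fun m => bif Nat.beq (Nat.land T0 m) T0 then
    O21.any (fun o => Nat.beq o m) else true) = true := by decide +kernel

/-- the property of lying in a common octad -/
def OP (T U : Finset GolayPt) : Prop := ∃ o ∈ octads, T ∪ U ⊆ o

theorem OP_smul {σ : Equiv.Perm GolayPt} (hσ : σ ∈ M24) {T U : Finset GolayPt} (h : OP T U) :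
    OP (σ • T) (σ • U) := by
  obtain ⟨o, ho, h1⟩ := h
  refine ⟨σ • o, M24_smul_octad hσ ho, ?_⟩
  rw [← Finset.smul_finset_union]
  exact Finset.smul_finset_subset_smul_finset_iff.2 h1

theorem OP_smul_iff {σ : Equiv.Perm GolayPt} (hσ : σ ∈ M24) {T U : Finset GolayPt} :
    OP (σ • T) (σ • U) ↔ OP T U := by
  refine ⟨fun h => ?_, OP_smul hσ⟩
  have := OP_smul (M24.inv_mem hσ) h
  rwa [inv_smul_smul, inv_smul_smul] at this

theorem OP_iff {n : ℕ} (hn : n < 16777216) : OP (toSet T0) (toSet n) ↔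
    (O21.any fun o => Nat.beq (Nat.land n o) n) = true := by
  rw [List.any_eq_true]
  constructor
  · rintro ⟨o, ho, h⟩
    obtain ⟨m, hm, rfl⟩ := enm_oct.all o ho
    have h1 := List.all_eq_true.1 O21_all m hm
    have hT : T0 &&& m = T0 := (subset_iff_mask (by decide)).1 (Finset.union_subset_left h)
    have hT' : Nat.beq (Nat.land T0 m) T0 = true := nbeq.2 hT
    rw [hT', cond_true, List.any_eq_true] at h1
    obtain ⟨o', ho', h2⟩ := h1
    have h3 := Nat.eq_of_beq_eq_true h2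
    subst h3
    exact ⟨o', ho', nbeq.2 ((subset_iff_mask hn).1 (Finset.union_subset_right h))⟩
  · rintro ⟨m, hm, h⟩
    have h1 := List.all_eq_true.1 O21_ok m hm
    rw [Bool.and_eq_true] at h1
    refine ⟨toSet m, (isOct_spec h1.1).1, Finset.union_subset ?_ ?_⟩
    · exact (subset_iff_mask (by decide)).2 (Nat.eq_of_beq_eq_true h1.2)
    · exact (subset_iff_mask hn).2 (Nat.eq_of_beq_eq_true h)

theorem disj_iff {n : ℕ} : Disjoint (toSet T0) (toSet n) ↔ Nat.beq (popc (Nat.land T0 n)) 0 = true := by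
  rw [Finset.disjoint_iff_inter_eq_empty, ← Finset.card_eq_zero, ← toSet_and, card_toSet]
  exact nbeq.symm

theorem bool_not {b : Bool} : ¬ (b = true) ↔ (!b) = true := by cases b <;> simp

theorem c1 : {s : Finset GolayPt | s ∈ {s : Finset GolayPt | s.card = 3} ∧ (Disjoint (toSet T0) s ∧ OP (toSet T0) s)}.ncard = 210 :=
  (enm_subs 3).count (P := fun s => Disjoint (toSet T0) s ∧ OP (toSet T0) s)
    (φ := fun n => Nat.beq (popc (Nat.land T0 n)) 0 && O21.any fun o => Nat.beq (Nat.land n o) n)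
    (fun n hn => by rw [disj_iff, OP_iff ((enm_subs 3).lt n hn), Bool.and_eq_true]) (by decide +kernel)

theorem c2 : {s : Finset GolayPt | s ∈ {s : Finset GolayPt | s.card = 3} ∧ (Disjoint (toSet T0) s ∧ ¬ OP (toSet T0) s)}.ncard = 1120 :=
  (enm_subs 3).count (P := fun s => Disjoint (toSet T0) s ∧ ¬ OP (toSet T0) s)
    (φ := fun n => Nat.beq (popc (Nat.land T0 n)) 0 && !(O21.any fun o => Nat.beq (Nat.land n o) n))
    (fun n hn => by rw [disj_iff, OP_iff ((enm_subs 3).lt n hn), Bool.and_eq_true, bool_not]) (by decide +kernel)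

theorem disj_smul {σ : Equiv.Perm GolayPt} {T U : Finset GolayPt} : Disjoint (σ • T) (σ • U) ↔ Disjoint T U := by
  rw [Finset.disjoint_iff_inter_eq_empty, Finset.disjoint_iff_inter_eq_empty, ← Finset.card_eq_zero,
    ← Finset.card_eq_zero, card_smul_inter]

theorem t1 (s : Finset GolayPt) (hs : s.card = 3) (h : Disjoint (toSet T0) s ∧ OP (toSet T0) s) :
    ∃ σ ∈ M24, (∀ i ∈ ([] : List ℕ), σ • gpt i = gpt i) ∧
      (∀ m ∈ [T0], σ • toSet m = toSet m) ∧ σ • toSet 44 = s :=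
  (enm_subs 3).trans (P := fun s => Disjoint (toSet T0) s ∧ OP (toSet T0) s)
    (φ := fun n => Nat.beq (popc (Nat.land T0 n)) 0 && O21.any fun o => Nat.beq (Nat.land n o) n)
    (fun n hn => by rw [disj_iff, OP_iff ((enm_subs 3).lt n hn), Bool.and_eq_true]; exact id)
    (fun σ hσ _ hm s hs h => by
      have e := hm T0 (by simp)
      refine ⟨sub_inv 3 σ hσ s hs, ?_⟩
      show Disjoint (toSet T0) (σ • s) ∧ OP (toSet T0) (σ • s)
      rw [← e, disj_smul, OP_smul_iff hσ]; exact h) (gens := gens) (by decide +kernel) (by decide +kernel) s hs h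

theorem t2 (s : Finset GolayPt) (hs : s.card = 3) (h : Disjoint (toSet T0) s ∧ ¬ OP (toSet T0) s) :
    ∃ σ ∈ M24, (∀ i ∈ ([] : List ℕ), σ • gpt i = gpt i) ∧
      (∀ m ∈ [T0], σ • toSet m = toSet m) ∧ σ • toSet 28 = s :=
  (enm_subs 3).trans (P := fun s => Disjoint (toSet T0) s ∧ ¬ OP (toSet T0) s)
    (φ := fun n => Nat.beq (popc (Nat.land T0 n)) 0 && !(O21.any fun o => Nat.beq (Nat.land n o) n))
    (fun n hn => by rw [disj_iff, OP_iff ((enm_subs 3).lt n hn), Bool.and_eq_true, bool_not]; exact id)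
    (fun σ hσ _ hm s hs h => by
      have e := hm T0 (by simp)
      refine ⟨sub_inv 3 σ hσ s hs, ?_⟩
      show Disjoint (toSet T0) (σ • s) ∧ ¬ OP (toSet T0) (σ • s)
      rw [← e, disj_smul, OP_smul_iff hσ]; exact h) (gens := gens) (by decide +kernel) (by decide +kernel) s hs h

theorem T0_card : (toSet T0).card = 3 := by rw [card_toSet]; decide +kernel

theorem main1 {T : Finset GolayPt} (hT : T.card = 3) :
    {U : Finset GolayPt | U.card = 3 ∧ Disjoint T U ∧ (∃ o ∈ octads, T ∪ U ⊆ o)}.ncard = 210 :=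
  ncard_all (fun (T U : Finset GolayPt) => U.card = 3 ∧ Disjoint T U ∧ OP T U)
    (fun σ hσ a s h => ⟨by rw [Finset.card_smul_finset]; exact h.1, disj_smul.2 h.2.1, OP_smul hσ h.2.2⟩) c1
    (std_set (by norm_num) hT T0_card)

theorem main2 {T : Finset GolayPt} (hT : T.card = 3) :
    {U : Finset GolayPt | U.card = 3 ∧ Disjoint T U ∧ ¬ (∃ o ∈ octads, T ∪ U ⊆ o)}.ncard = 1120 :=
  ncard_all (fun (T U : Finset GolayPt) => U.card = 3 ∧ Disjoint T U ∧ ¬ OP T U)
    (fun σ hσ a s h => ⟨by rw [Finset.card_smul_finset]; exact h.1, disj_smul.2 h.2.1, fun h' => h.2.2 ((OP_smul_iff hσ).1 h')⟩) c2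
    (std_set (by norm_num) hT T0_card)

theorem main3 {T : Finset GolayPt} (hT : T.card = 3) (U U' : Finset GolayPt) (hU : U.card = 3) (hU' : U'.card = 3)
    (hd : Disjoint T U) (hd' : Disjoint T U') (h : OP T U ↔ OP T U') :
    ∃ g ∈ M24, g • T = T ∧ g • U = U' := by
  refine tr_all (fun (T U : Finset GolayPt) => U.card = 3 ∧ Disjoint T U)
    (fun σ hσ a s h => ⟨by rw [Finset.card_smul_finset]; exact h.1, disj_smul.2 h.2⟩)
    (R := fun T U U' => OP T U ↔ OP T U')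
    (fun σ hσ a x y h => by rw [OP_smul_iff hσ, OP_smul_iff hσ]; exact h) ?_
    (std_set (by norm_num) hT T0_card) U U' ⟨hU, hd⟩ ⟨hU', hd'⟩ h
  intro x y hx hy hxy
  by_cases hO : OP (toSet T0) x
  · refine tr_of_base (x0 := toSet 44) (Y := {s | s.card = 3 ∧ (Disjoint (toSet T0) s ∧ OP (toSet T0) s)}) ?_ x ⟨hx.1, hx.2, hO⟩ y
      ⟨hy.1, hy.2, hxy.1 hO⟩
    intro s hs
    obtain ⟨σ, h1, _, h3, h4⟩ := t1 s hs.1 hs.2
    exact ⟨σ, h1, h3 T0 (by simp), h4⟩
  · refine tr_of_base (x0 := toSet 28) (Y := {s | s.card = 3 ∧ (Disjoint (toSet T0) s ∧ ¬ OP (toSet T0) s)}) ?_ x ⟨hx.1, hx.2, hO⟩ y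
      ⟨hy.1, hy.2, fun h => hO (hxy.2 h)⟩
    intro s hs
    obtain ⟨σ, h1, _, h3, h4⟩ := t2 s hs.1 hs.2
    exact ⟨σ, h1, h3 T0 (by simp), h4⟩

/-- Orbits of a triad stabiliser on the triads disjoint from it: the 210 triads inside a common octad with it form one orbit and the remaining 1120 another. -/
theorem result (T : Finset Cfsg.GolayPt) (hT : T.card = 3) : {U : Finset Cfsg.GolayPt | U.card = 3 ∧ Disjoint T U ∧ (∃ o ∈ Cfsg.octads, T ∪ U ⊆ o)}.ncard = 210 ∧ {U : Finset Cfsg.GolayPt | U.card = 3 ∧ Disjoint T U ∧ ¬ (∃ o ∈ Cfsg.octads, T ∪ U ⊆ o)}.ncard = 1120 ∧ ∀ U U' : Finset Cfsg.GolayPt, U.card = 3 → U'.card = 3 → Disjoint T U → Disjoint T U' → ((∃ o ∈ Cfsg.octads, T ∪ U ⊆ o) ↔ (∃ o ∈ Cfsg.octads, T ∪ U' ⊆ o)) → ∃ g : Equiv.Perm Cfsg.GolayPt, g ∈ Cfsg.M24 ∧ g • T = T ∧ g • U = U' := by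
  refine ⟨main1 hT, main2 hT, ?_⟩
  intro U U' hU hU' hd hd' h
  obtain ⟨g, hg, h1, h2⟩ := main3 hT U U' hU hU' hd hd' h
  exact ⟨g, hg, h1, h2⟩

end Cfsg.Agent.S1562
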