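import Cfsg.Statements.S1563
import Cfsg.Agent.H29.Trans3

set_option autoImplicit false
open scoped Pointwise
open Cfsg

namespace Cfsg.Agent.S1563

open Cfsg.Agent.H7 Cfsg.Agent.H29
open scoped Pointwise

def s0 : ℕ := 8388609

def gens : List ℕ := [0xbd68e8142d9ad49b3c871991190980,
  0xbbd928453511d6e30ed4285a822a60,
  0x4ca7ad2260b90a5a46d13ec464a17,
  0x45d391ec16aaab308a978d9025117,
  0xb99cb1aad5942697a1948948768440,
  0xbc6ac94cce8289413d25b1c6b0b500,
  0xba1706d1cf60cf2b4d464d62411420,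
  0x4d6931ecf1c1d48d5122a9ac08897,
  0xb8acc9ad44796a63c1b4706438a500,
  0x4ce4aacd68b64c4be0e2d02242877,
  0x3a963c1a3354b35a1e92498150a37]

theorem c1 : {s | s ∈ {s : Finset GolayPt | s.card = 2} ∧ CP [] [] [(s0, 1)] s}.ncard = 44 :=
  (enm_subs 2).countC (by decide) (by decide +kernel)

theorem c0 : {s | s ∈ {s : Finset GolayPt | s.card = 2} ∧ CP [] [] [(s0, 0)] s}.ncard = 231 :=
  (enm_subs 2).countC (by decide) (by decide +kernel)

theorem t1 {s t : Finset GolayPt} (hs : s ∈ {s : Finset GolayPt | s.card = 2}) (ht : t ∈ {s : Finset GolayPt | s.card = 2})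
    (cs : CP [] [] [(s0, 1)] s) (ct : CP [] [] [(s0, 1)] t) :
    ∃ σ ∈ M24, (∀ i ∈ [] ++ [], σ • gpt i = gpt i) ∧
      (∀ m ∈ ([(s0, 1)] : List (ℕ × ℕ)).map Prod.fst, σ • toSet m = toSet m) ∧ σ • s = t :=
  (enm_subs 2).transP (sub_inv 2) (by decide) (gens := gens) 3 (by decide +kernel) (by decide +kernel) hs ht cs ct

theorem t0 {s t : Finset GolayPt} (hs : s ∈ {s : Finset GolayPt | s.card = 2}) (ht : t ∈ {s : Finset GolayPt | s.card = 2})
    (cs : CP [] [] [(s0, 0)] s) (ct : CP [] [] [(s0, 0)] t) :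
    ∃ σ ∈ M24, (∀ i ∈ [] ++ [], σ • gpt i = gpt i) ∧
      (∀ m ∈ ([(s0, 0)] : List (ℕ × ℕ)).map Prod.fst, σ • toSet m = toSet m) ∧ σ • s = t :=
  (enm_subs 2).transP (sub_inv 2) (by decide) (gens := gens) 6 (by decide +kernel) (by decide +kernel) hs ht cs ct


theorem s0_card : (toSet s0).card = 2 := by rw [card_toSet]; decide +kernel

theorem cnt {k N : ℕ} (h0 : {s | s ∈ {s : Finset GolayPt | s.card = 2} ∧ CP [] [] [(s0, k)] s}.ncard = N) {o : Finset GolayPt}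
    (ho : o.card = 2) : {t : Finset GolayPt | t.card = 2 ∧ (o ∩ t).card = k}.ncard = N := by
  refine ncard_all (fun (a : Finset GolayPt) (s : Finset GolayPt) => s.card = 2 ∧ (a ∩ s).card = k)
    (fun σ hσ a s h => ⟨by rw [Finset.card_smul_finset]; exact h.1, by rw [card_smul_inter]; exact h.2⟩) ?_ (std_set (by norm_num) ho s0_card)
  rw [← h0]
  congr 1
  ext s
  simp [CP]

theorem tr {k : ℕ} (h0 : ∀ x y : Finset GolayPt, x.card = 2 → y.card = 2 → (toSet s0 ∩ x).card = k → (toSet s0 ∩ y).card = k →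
      ∃ σ ∈ M24, σ • toSet s0 = toSet s0 ∧ σ • x = y) {o : Finset GolayPt} (ho : o.card = 2) (x y : Finset GolayPt)
    (hx : x.card = 2) (hy : y.card = 2) (hx' : (o ∩ x).card = k) (hy' : (o ∩ y).card = k) :
    ∃ σ ∈ M24, σ • o = o ∧ σ • x = y := by
  refine tr_all (fun (a : Finset GolayPt) (s : Finset GolayPt) => s.card = 2 ∧ (a ∩ s).card = k)
    (fun σ hσ a s h => ⟨by rw [Finset.card_smul_finset]; exact h.1, by rw [card_smul_inter]; exact h.2⟩)
    (R := fun _ _ _ => True) (fun _ _ _ _ _ _ => trivial)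
    (fun x y hx hy _ => h0 x y hx.1 hy.1 hx.2 hy.2) (std_set (by norm_num) ho s0_card) x y ⟨hx, hx'⟩ ⟨hy, hy'⟩ trivial

theorem orbit_of_tr {α β : Type*} [MulAction (Equiv.Perm GolayPt) α] [MulAction (Equiv.Perm GolayPt) β] {a : α} {Y : Set β}
    (hinv : ∀ σ ∈ M24, σ • a = a → ∀ y ∈ Y, σ • y ∈ Y) (htr : ∀ x ∈ Y, ∀ y ∈ Y, ∃ σ ∈ M24, σ • a = a ∧ σ • x = y)
    {x : β} (hx : x ∈ Y) : MulAction.orbit (MulAction.stabilizer ↥M24 a) x = Y := by
  ext y
  constructor
  · rintro ⟨g, rfl⟩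
    exact hinv _ (g : ↥M24).2 g.2 x hx
  · intro hy
    obtain ⟨σ, hσ, h1, h2⟩ := htr x hx y hy
    exact ⟨⟨⟨σ, hσ⟩, h1⟩, h2⟩

/-- The stabiliser of a pair of points (setwise) is a maximal proper subgroup of the group of the length-24 code. -/
theorem result (s : Finset Cfsg.GolayPt) (hs : s.card = 2) : IsCoatom (MulAction.stabilizer Cfsg.M24 s) := by
  have h0 : ∀ x y : Finset GolayPt, x.card = 2 → y.card = 2 → (s ∩ x).card = 0 → (s ∩ y).card = 0 → ∃ σ ∈ M24, σ • s = s ∧ σ • x = y :=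
    tr (fun x y hx hy h h' => by
      obtain ⟨σ, h1, h2, h3, h4⟩ := t0 hx hy ⟨by simp, by simp, by simpa using h⟩ ⟨by simp, by simp, by simpa using h'⟩
      exact ⟨σ, h1, h3 s0 (by simp), h4⟩) hs
  have h1 : ∀ x y : Finset GolayPt, x.card = 2 → y.card = 2 → (s ∩ x).card = 1 → (s ∩ y).card = 1 → ∃ σ ∈ M24, σ • s = s ∧ σ • x = y :=
    tr (fun x y hx hy h h' => by
      obtain ⟨σ, h1, h2, h3, h4⟩ := t1 hx hy ⟨by simp, by simp, by simpa using h⟩ ⟨by simp, by simp, by simpa using h'⟩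
      exact ⟨σ, h1, h3 s0 (by simp), h4⟩) hs
  have n0 := cnt c0 hs
  have n1 := cnt c1 hs
  obtain ⟨x0, hx0⟩ := Set.nonempty_of_ncard_ne_zero (by rw [n0]; norm_num : {t : Finset GolayPt | t.card = 2 ∧ (s ∩ t).card = 0}.ncard ≠ 0)
  obtain ⟨x1, hx1⟩ := Set.nonempty_of_ncard_ne_zero (by rw [n1]; norm_num : {t : Finset GolayPt | t.card = 2 ∧ (s ∩ t).card = 1}.ncard ≠ 0)
  have o0 := orbit_of_tr (a := s) (Y := {t : Finset GolayPt | t.card = 2 ∧ (s ∩ t).card = 0})
    (fun σ hσ ha y hy => ⟨by rw [Finset.card_smul_finset]; exact hy.1, by rw [inter_inv ha]; exact hy.2⟩)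
    (fun x hx y hy => h0 x y hx.1 hy.1 hx.2 hy.2) hx0
  have o1 := orbit_of_tr (a := s) (Y := {t : Finset GolayPt | t.card = 2 ∧ (s ∩ t).card = 1})
    (fun σ hσ ha y hy => ⟨by rw [Finset.card_smul_finset]; exact hy.1, by rw [inter_inv ha]; exact hy.2⟩)
    (fun x hx y hy => h1 x y hx.1 hy.1 hx.2 hy.2) hx1
  have hN : {t : Finset GolayPt | t.card = 2}.ncard = 276 := by
    rw [(enm_subs 2).ncard]; decide +kernel
  have h := subdeg (G := ↥M24) s (k := 2) (by norm_num) ![x0, x1] ![231, 44] (Ω := {t : Finset GolayPt | t.card = 2})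
    (Set.toFinite _) (fun g y hy => by
      show ((g : Equiv.Perm GolayPt) • y).card = 2
      rw [Finset.card_smul_finset]; exact hy) hs
    (fun y hy => by
      obtain ⟨σ, hσ, h⟩ := std_set (by norm_num) hy hs
      exact ⟨⟨σ, hσ⟩, h⟩) (fun i => by fin_cases i; exacts [hx0.1, hx1.1])
    (fun i => by
      fin_cases i
      · show (MulAction.orbit (MulAction.stabilizer ↥M24 s) x0).ncard = 231
        rw [o0, n0]
      · show (MulAction.orbit (MulAction.stabilizer ↥M24 s) x1).ncard = 44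
        rw [o1, n1])
    (fun i => by fin_cases i <;> decide) (by decide) (by rw [hN]; decide)
  rw [hN] at h
  exact h.2 (by decide)

end Cfsg.Agent.S1563
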