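import Cfsg.Statements.S1564
import Cfsg.Agent.S1562
import Cfsg.Agent.S1563

set_option autoImplicit false
open scoped Pointwise
open Cfsg

namespace Cfsg.Agent.S1564

open Cfsg.Agent.H7 Cfsg.Agent.H29
open scoped Pointwise

def s0 : ℕ := 8388611

def gens : List ℕ := [0xbd5723b98869a851be62b28904c420,
  0x4a30126957b153b196828ce46b837,
  0xbc1cd891873552b9a91428ad278c20,
  0xbb1f111a6daacf62c1125248e1d020,
  0x1633aaa4f72c833592da4187122e1,
  0xba17352684135f2854c38d9c561c01,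
  0xbba954ca113d86c59a687a88568820,
  0xbb4857250fb327019a875557114820,
  0xbad0f540a4646724d6c7699d410c01,
  0xb8d4c93e656a6265d0f0256c243820,
  0xbc64a4aeae6b0b3a20c481ec278c01,
  0xba18db1a87924ab8466ea8d4413c20,
  0xba2aa9b6448a5f462ece1186581c01,
  0xbac698b6509a9f4622c7116a623820]

theorem c1 : {s | s ∈ {s : Finset GolayPt | s.card = 3} ∧ CP [] [] [(s0, 1)] s}.ncard = 630 :=
  (enm_subs 3).countC (by decide) (by decide +kernel)

theorem c2 : {s | s ∈ {s : Finset GolayPt | s.card = 3} ∧ CP [] [] [(s0, 2)] s}.ncard = 63 :=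
  (enm_subs 3).countC (by decide) (by decide +kernel)

theorem t1 {s t : Finset GolayPt} (hs : s ∈ {s : Finset GolayPt | s.card = 3}) (ht : t ∈ {s : Finset GolayPt | s.card = 3})
    (cs : CP [] [] [(s0, 1)] s) (ct : CP [] [] [(s0, 1)] t) :
    ∃ σ ∈ M24, (∀ i ∈ [] ++ [], σ • gpt i = gpt i) ∧
      (∀ m ∈ ([(s0, 1)] : List (ℕ × ℕ)).map Prod.fst, σ • toSet m = toSet m) ∧ σ • s = t :=
  (enm_subs 3).transP (sub_inv 3) (by decide) (gens := gens) 13 (by decide +kernel) (by decide +kernel) hs ht cs ct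

theorem t2 {s t : Finset GolayPt} (hs : s ∈ {s : Finset GolayPt | s.card = 3}) (ht : t ∈ {s : Finset GolayPt | s.card = 3})
    (cs : CP [] [] [(s0, 2)] s) (ct : CP [] [] [(s0, 2)] t) :
    ∃ σ ∈ M24, (∀ i ∈ [] ++ [], σ • gpt i = gpt i) ∧
      (∀ m ∈ ([(s0, 2)] : List (ℕ × ℕ)).map Prod.fst, σ • toSet m = toSet m) ∧ σ • s = t :=
  (enm_subs 3).transP (sub_inv 3) (by decide) (gens := gens) 7 (by decide +kernel) (by decide +kernel) hs ht cs ct


theorem s0_card : (toSet s0).card = 3 := by rw [card_toSet]; decide +kernel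

theorem cnt {k N : ℕ} (h0 : {s | s ∈ {s : Finset GolayPt | s.card = 3} ∧ CP [] [] [(s0, k)] s}.ncard = N) {o : Finset GolayPt}
    (ho : o.card = 3) : {t : Finset GolayPt | t.card = 3 ∧ (o ∩ t).card = k}.ncard = N := by
  refine ncard_all (fun (a : Finset GolayPt) (s : Finset GolayPt) => s.card = 3 ∧ (a ∩ s).card = k)
    (fun σ hσ a s h => ⟨by rw [Finset.card_smul_finset]; exact h.1, by rw [card_smul_inter]; exact h.2⟩) ?_ (std_set (by norm_num) ho s0_card)
  rw [← h0]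
  congr 1
  ext s
  simp [CP]

theorem tr {k : ℕ} (h0 : ∀ x y : Finset GolayPt, x.card = 3 → y.card = 3 → (toSet s0 ∩ x).card = k → (toSet s0 ∩ y).card = k →
      ∃ σ ∈ M24, σ • toSet s0 = toSet s0 ∧ σ • x = y) {o : Finset GolayPt} (ho : o.card = 3) (x y : Finset GolayPt)
    (hx : x.card = 3) (hy : y.card = 3) (hx' : (o ∩ x).card = k) (hy' : (o ∩ y).card = k) :
    ∃ σ ∈ M24, σ • o = o ∧ σ • x = y := by
  refine tr_all (fun (a : Finset GolayPt) (s : Finset GolayPt) => s.card = 3 ∧ (a ∩ s).card = k)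
    (fun σ hσ a s h => ⟨by rw [Finset.card_smul_finset]; exact h.1, by rw [card_smul_inter]; exact h.2⟩)
    (R := fun _ _ _ => True) (fun _ _ _ _ _ _ => trivial)
    (fun x y hx hy _ => h0 x y hx.1 hy.1 hx.2 hy.2) (std_set (by norm_num) ho s0_card) x y ⟨hx, hx'⟩ ⟨hy, hy'⟩ trivial

/-- The stabiliser of a set of three points (setwise) is a maximal proper subgroup of the group of the length-24 code. -/
theorem result (s : Finset Cfsg.GolayPt) (hs : s.card = 3) : IsCoatom (MulAction.stabilizer Cfsg.M24 s) := by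
  have h1 : ∀ x y : Finset GolayPt, x.card = 3 → y.card = 3 → (s ∩ x).card = 1 → (s ∩ y).card = 1 → ∃ σ ∈ M24, σ • s = s ∧ σ • x = y :=
    tr (fun x y hx hy h h' => by
      obtain ⟨σ, h1, h2, h3, h4⟩ := t1 hx hy ⟨by simp, by simp, by simpa using h⟩ ⟨by simp, by simp, by simpa using h'⟩
      exact ⟨σ, h1, h3 s0 (by simp), h4⟩) hs
  have h2 : ∀ x y : Finset GolayPt, x.card = 3 → y.card = 3 → (s ∩ x).card = 2 → (s ∩ y).card = 2 → ∃ σ ∈ M24, σ • s = s ∧ σ • x = y :=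
    tr (fun x y hx hy h h' => by
      obtain ⟨σ, h1, h2, h3, h4⟩ := t2 hx hy ⟨by simp, by simp, by simpa using h⟩ ⟨by simp, by simp, by simpa using h'⟩
      exact ⟨σ, h1, h3 s0 (by simp), h4⟩) hs
  have n2 := cnt c2 hs
  have n1 := cnt c1 hs
  have n3 : {t : Finset GolayPt | t.card = 3 ∧ Disjoint s t ∧ S1562.OP s t}.ncard = 210 := S1562.main1 hs
  have n4 : {t : Finset GolayPt | t.card = 3 ∧ Disjoint s t ∧ ¬ S1562.OP s t}.ncard = 1120 := S1562.main2 hs
  obtain ⟨x2, hx2⟩ := Set.nonempty_of_ncard_ne_zero (by rw [n2]; norm_num : {t : Finset GolayPt | t.card = 3 ∧ (s ∩ t).card = 2}.ncard ≠ 0)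
  obtain ⟨x1, hx1⟩ := Set.nonempty_of_ncard_ne_zero (by rw [n1]; norm_num : {t : Finset GolayPt | t.card = 3 ∧ (s ∩ t).card = 1}.ncard ≠ 0)
  obtain ⟨x3, hx3⟩ := Set.nonempty_of_ncard_ne_zero (by rw [n3]; norm_num : {t : Finset GolayPt | t.card = 3 ∧ Disjoint s t ∧ S1562.OP s t}.ncard ≠ 0)
  obtain ⟨x4, hx4⟩ := Set.nonempty_of_ncard_ne_zero (by rw [n4]; norm_num : {t : Finset GolayPt | t.card = 3 ∧ Disjoint s t ∧ ¬ S1562.OP s t}.ncard ≠ 0)
  have o2 := S1563.orbit_of_tr (a := s) (Y := {t : Finset GolayPt | t.card = 3 ∧ (s ∩ t).card = 2})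
    (fun σ hσ ha y hy => ⟨by rw [Finset.card_smul_finset]; exact hy.1, by rw [inter_inv ha]; exact hy.2⟩)
    (fun x hx y hy => h2 x y hx.1 hy.1 hx.2 hy.2) hx2
  have o1 := S1563.orbit_of_tr (a := s) (Y := {t : Finset GolayPt | t.card = 3 ∧ (s ∩ t).card = 1})
    (fun σ hσ ha y hy => ⟨by rw [Finset.card_smul_finset]; exact hy.1, by rw [inter_inv ha]; exact hy.2⟩)
    (fun x hx y hy => h1 x y hx.1 hy.1 hx.2 hy.2) hx1
  have hinvd : ∀ σ : Equiv.Perm GolayPt, σ • s = s → ∀ y, Disjoint s y → Disjoint s (σ • y) := by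
    intro σ ha y hy
    have := (S1562.disj_smul (σ := σ) (T := s) (U := y)).2 hy
    rwa [ha] at this
  have hinvO : ∀ σ ∈ M24, σ • s = s → ∀ y, (S1562.OP s (σ • y) ↔ S1562.OP s y) := by
    intro σ hσ ha y
    have := S1562.OP_smul_iff hσ (T := s) (U := y)
    rwa [ha] at this
  have o3 := S1563.orbit_of_tr (a := s) (Y := {t : Finset GolayPt | t.card = 3 ∧ Disjoint s t ∧ S1562.OP s t})
    (fun σ hσ ha y hy => ⟨by rw [Finset.card_smul_finset]; exact hy.1, hinvd σ ha y hy.2.1, (hinvO σ hσ ha y).2 hy.2.2⟩)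
    (fun x hx y hy => S1562.main3 hs x y hx.1 hy.1 hx.2.1 hy.2.1 (iff_of_true hx.2.2 hy.2.2)) hx3
  have o4 := S1563.orbit_of_tr (a := s) (Y := {t : Finset GolayPt | t.card = 3 ∧ Disjoint s t ∧ ¬ S1562.OP s t})
    (fun σ hσ ha y hy => ⟨by rw [Finset.card_smul_finset]; exact hy.1, hinvd σ ha y hy.2.1, fun h => hy.2.2 ((hinvO σ hσ ha y).1 h)⟩)
    (fun x hx y hy => S1562.main3 hs x y hx.1 hy.1 hx.2.1 hy.2.1 (iff_of_false hx.2.2 hy.2.2)) hx4
  have hN : {t : Finset GolayPt | t.card = 3}.ncard = 2024 := by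
    rw [(enm_subs 3).ncard]; decide +kernel
  have h := subdeg (G := ↥M24) s (k := 4) (by norm_num) ![x1, x2, x3, x4] ![630, 63, 210, 1120] (Ω := {t : Finset GolayPt | t.card = 3})
    (Set.toFinite _) (fun g y hy => by
      show ((g : Equiv.Perm GolayPt) • y).card = 3
      rw [Finset.card_smul_finset]; exact hy) hs
    (fun y hy => by
      obtain ⟨σ, hσ, h⟩ := std_set (by norm_num) hy hs
      exact ⟨⟨σ, hσ⟩, h⟩) (fun i => by fin_cases i; exacts [hx1.1, hx2.1, hx3.1, hx4.1])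
    (fun i => by
      fin_cases i
      · show (MulAction.orbit (MulAction.stabilizer ↥M24 s) x1).ncard = 630
        rw [o1, n1]
      · show (MulAction.orbit (MulAction.stabilizer ↥M24 s) x2).ncard = 63
        rw [o2, n2]
      · show (MulAction.orbit (MulAction.stabilizer ↥M24 s) x3).ncard = 210
        rw [o3, n3]
      · show (MulAction.orbit (MulAction.stabilizer ↥M24 s) x4).ncard = 1120
        rw [o4, n4])
    (fun i => by fin_cases i <;> decide) (by decide) (by rw [hN]; decide)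
  rw [hN] at h
  exact h.2 (by decide)

end Cfsg.Agent.S1564
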