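import Cfsg.Statements.S1565
import Cfsg.Agent.H29.Coat2
import Cfsg.Agent.H29.M24JS

set_option autoImplicit false
open scoped Pointwise
open Cfsg

namespace Cfsg.Agent.S1565

open Cfsg.Agent.H7 Cfsg.Agent.H29
open scoped Pointwise

/-- The stabiliser of an octad is a maximal proper subgroup of the group of the length-24 code. -/
theorem result (o : Finset Cfsg.GolayPt) (ho : o ∈ Cfsg.octads) : IsCoatom (MulAction.stabilizer Cfsg.M24 o) := by
  obtain ⟨r, hr, hc, hdec, hco⟩ := subdegJS (Ω := octads) (Set.toFinite _) (fun _ hσ _ hy => M24_smul_octad hσ hy) octads_ncard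
    (k := 3) (n := 322560) (by norm_num) (x0 := toSet oct0) (r0 := ![toSet disj0, toSet 9963547, toSet 14682450]) (c := ![30, 280, 448])
    (m := ![10752, 1152, 720])
    (fun i => by
      fin_cases i
      · exact disj0_octad
      · exact o280_octad
      · exact o448_octad)
    (fun i => by
      fin_cases i
      · exact js_O_O30
      · exact js_oct o280_octad js_O_O280
      · exact js_oct o448_octad js_O_O448)
    (fun i => by fin_cases i <;> decide)
    (fun i => by fin_cases i <;> decide) (by decide) (by decide) ho (stab_octad ho)
    (fun _ hy _ hz => octad_transitive hy hz) oct0_octad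
  exact hco (by decide)

end Cfsg.Agent.S1565
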