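import Cfsg.Statements.S1566
import Cfsg.Agent.H29.Coat2
import Cfsg.Agent.H29.M24DD

set_option autoImplicit false
open scoped Pointwise
open Cfsg

namespace Cfsg.Agent.S1566

open Cfsg.Agent.H7 Cfsg.Agent.H29
open scoped Pointwise

def Om : Set (Finset (Finset GolayPt)) := {P | ∃ d ∈ dodecads, P = ({d, dᶜ} : Finset (Finset GolayPt))}

theorem smul_pair (σ : Equiv.Perm GolayPt) (d : Finset GolayPt) :
    σ • ({d, dᶜ} : Finset (Finset GolayPt)) = {σ • d, (σ • d)ᶜ} := by
  rw [Finset.smul_finset_insert, Finset.smul_finset_singleton, smul_compl']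

theorem Om_inv : ∀ σ ∈ M24, ∀ y ∈ Om, σ • y ∈ Om := by
  rintro σ hσ _ ⟨d, hd, rfl⟩
  exact ⟨σ • d, M24_smul_dodecad hσ hd, smul_pair σ d⟩

theorem Om_tr : ∀ y ∈ Om, ∀ z ∈ Om, ∃ σ ∈ M24, σ • y = z := by
  rintro _ ⟨d, hd, rfl⟩ _ ⟨e, he, rfl⟩
  obtain ⟨σ, hσ, h⟩ := dodecad_transitive hd he
  exact ⟨σ, hσ, by rw [smul_pair, h]⟩

theorem st {d : Finset GolayPt} (hd : d ∈ dodecads) :
    Nat.card (MulAction.stabilizer ↥M24 ({d, dᶜ} : Finset (Finset GolayPt))) = 190080 := by
  have := stab_dodPair hd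
  rwa [← Finset.compl_eq_univ_sdiff] at this

theorem part_eq (m : ℕ) : dodPart m = ({toSet m, (toSet m)ᶜ} : Finset (Finset GolayPt)) := dodPart_eq m

theorem part_mem {m : ℕ} (h : isDod m = true) : dodPart m ∈ Om := ⟨toSet m, (isDod_spec h).1, part_eq m⟩

theorem Om_ncard : Om.ncard = 1288 := by
  have h0 : dodPart dod0 ∈ Om := ⟨toSet dod0, dod0_dodecad, part_eq dod0⟩
  have h := card_step' (G := ↥M24) (⊤ : Subgroup ↥M24) (dodPart dod0) Om (fun σ _ => Om_inv σ σ.2 _ h0)
    (fun q hq => by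
      obtain ⟨σ, hσ, h⟩ := Om_tr _ h0 q hq
      exact ⟨⟨σ, hσ⟩, Subgroup.mem_top _, h⟩)
  have e : (⊤ ⊓ MulAction.stabilizer (↥M24) (dodPart dod0) : Subgroup ↥M24) = MulAction.stabilizer (↥M24) (dodPart dod0) :=
    top_inf_eq _
  have h1 : Nat.card (⊤ : Subgroup ↥M24) = 244823040 := by
    rw [Nat.card_congr Subgroup.topEquiv.toEquiv]; exact card_M24
  rw [e, h1, part_eq, st dod0_dodecad] at h
  omega

/-- The setwise stabiliser of a dodecad together with its complement is a maximal proper subgroup of the group of the length-24 code. -/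
theorem result (d : Finset Cfsg.GolayPt) (hd : d ∈ Cfsg.dodecads) : IsCoatom (MulAction.stabilizer Cfsg.M24 ({d, dᶜ} : Finset (Finset Cfsg.GolayPt))) := by
  obtain ⟨r, hr, hc, hdec, hco⟩ := subdegJS (Ω := Om) (Set.toFinite _) Om_inv Om_ncard
    (k := 2) (n := 190080) (by norm_num) (x0 := oD0.π) (r0 := ![dD495.π, dD792.π]) (c := ![495, 792])
    (m := ![384, 240])
    (fun i => by
      fin_cases i
      · exact part_mem (by decide +kernel)
      · exact part_mem (by decide +kernel))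
    (fun i => by
      fin_cases i
      · exact js_D_D495
      · exact js_D_D792)
    (fun i => by fin_cases i <;> decide)
    (fun i => by fin_cases i <;> decide) (by decide) (by decide) (x := {d, dᶜ}) ⟨d, hd, rfl⟩ (st hd)
    Om_tr (part_mem (by decide +kernel))
  exact hco (by decide)

end Cfsg.Agent.S1566
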