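import Cfsg.Statements.S1567
import Cfsg.Agent.S1578
import Cfsg.Agent.H29.LeechMod

set_option autoImplicit false
open Cfsg

namespace Cfsg.Agent.S1567

open Cfsg.Agent.H7 Cfsg.Agent.H29

def CC : AddSubgroup leechLattice := AddSubgroup.closure {x : leechLattice | bL x x = 4}

theorem mem4 {v : leechLattice} (hv : bL v v = 4) : v ∈ CC := AddSubgroup.subset_closure hv

theorem mem6 {v : leechLattice} (hv : bL v v = 6) : v ∈ CC := by
  obtain ⟨a, h1, h2⟩ := Set.nonempty_of_ncard_ne_zero (s := {w : leechLattice | bL w w = 4 ∧ bL w v = 3})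
    (by rw [Cfsg.Agent.S1578.main hv]; norm_num)
  have h3 : bL (v - a) (v - a) = 4 := by
    rw [bL_sub, bL_sub_right, bL_sub_right, hv, h1, bL_comm v a, h2]; norm_num
  have h4 := CC.add_mem (mem4 h1) (mem4 h3)
  rwa [add_sub_cancel] at h4

theorem mem8 {v : leechLattice} (hv : bL v v = 8) : v ∈ CC := by
  obtain ⟨f, hf, h1, h2⟩ := leech_LLat.exists_frame' v hv
  obtain ⟨i, hi⟩ := h1 v hv ⟨0, by simp⟩
  obtain ⟨j, hj⟩ : ∃ j : GolayPt, i ≠ j := ⟨if i = none then some 0 else none, by
    split_ifs with h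
    · rw [h]; simp
    · exact h⟩
  obtain ⟨u, hu⟩ := hf.cong i j
  have n1 := hf.norm i
  have n2 := hf.norm j
  have n3 := hf.orth i j hj
  have e1 : bL (f i - f j) (f i - f j) = 16 := by
    rw [bL_sub, bL_sub_right, bL_sub_right, n1, n2, n3, bL_comm, n3]; norm_num
  have e2 : bL (f i - f j) (f i - f j) = 4 * bL u u := by
    rw [hu, leech_LLat.zsmul_left, leech_LLat.zsmul_right]; ring
  have e3 : bL (f j) (f i - f j) = 2 * bL (f j) u := by
    rw [hu, leech_LLat.zsmul_right]
  have e4 : bL (f j) (f i - f j) = -8 := by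
    rw [bL_sub_right, bL_comm, n3, n2]; norm_num
  have hu4 : bL u u = 4 := by omega
  have hw4 : bL (f j + u) (f j + u) = 4 := by
    rw [bL_add, bL_add_right, bL_add_right, n2, hu4, bL_comm u (f j)]; omega
  have h5 : f i ∈ CC := by
    have h6 := CC.add_mem (mem4 hw4) (mem4 hu4)
    have : f j + u + u = f i := by
      rw [two_smul] at hu
      rw [add_assoc, ← hu]; abel
    rwa [this] at h6
  rcases hi with h | h
  · rw [h]; exact h5
  · rw [h]; exact CC.neg_mem h5

theorem nonneg (x : leechLattice) : 0 ≤ bL x x := leech_LLat.nonneg x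

theorem all_mem : ∀ n : ℕ, ∀ x : leechLattice, bL x x = n → x ∈ CC := by
  intro n
  induction n using Nat.strong_induction_on with
  | _ n ih =>
    intro x hx
    by_cases h0 : n = 0
    · have : x = 0 := leech_LLat.eq_zero (by rw [hx, h0]; rfl)
      rw [this]; exact CC.zero_mem
    obtain ⟨w, hw, hw'⟩ := exists_short x
    have hwC : w ∈ CC := by
      rcases hw' with rfl | h | h | h
      · exact CC.zero_mem
      · exact mem4 h
      · exact mem6 h
      · exact mem8 h
    have hw8 : bL w w ≤ 8 := by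
      rcases hw' with rfl | h | h | h
      · rw [leech_LLat.zero_left]; norm_num
      all_goals omega
    have hx4 : 4 ≤ bL x x := leech_LLat.min x (by
      rintro rfl
      rw [leech_LLat.zero_left] at hx
      omega)
    have key : ∀ w' : leechLattice, w' ∈ CC → bL w' w' ≤ 8 → LCong x w' → 0 ≤ bL x w' → x ∈ CC := by
      intro w' h1 h2 h3 h4
      obtain ⟨u, hu⟩ := h3
      have e1 : bL (x - w') (x - w') = 4 * bL u u := by
        rw [hu, bL_add, bL_add_right]; ring
      have e2 : bL (x - w') (x - w') = bL x x - 2 * bL x w' + bL w' w' := by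
        rw [bL_sub, bL_sub_right, bL_sub_right, bL_comm w' x]; ring
      have h5 := nonneg u
      have hlt : bL u u < n := by omega
      have h6 : u ∈ CC := ih (bL u u).toNat (by omega) u (by omega)
      have : x = w' + (u + u) := by rw [← hu]; abel
      rw [this]
      exact CC.add_mem h1 (CC.add_mem h6 h6)
    by_cases hs : 0 ≤ bL x w
    · exact key w hwC hw8 hw hs
    · refine key (-w) (CC.neg_mem hwC) (by rw [bL_neg, bL_neg_right, neg_neg]; exact hw8) (hw.trans (LCong.neg w).symm) ?_
      rw [bL_neg_right]; omega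

/-- The rank-24 lattice is the additive subgroup generated by its 196560 minimal vectors. -/
theorem result : AddSubgroup.closure {x : Cfsg.GolayPt → ℤ | x ∈ Cfsg.leechLattice ∧ Cfsg.sqNorm x = 32} = Cfsg.leechLattice := by
  apply le_antisymm
  · rw [AddSubgroup.closure_le]
    exact fun x hx => hx.1
  · intro x hx
    have h1 : (⟨x, hx⟩ : leechLattice) ∈ CC := all_mem (bL ⟨x, hx⟩ ⟨x, hx⟩).toNat _ (by
      rw [Int.toNat_of_nonneg (nonneg _)])
    have h2 : CC ≤ (AddSubgroup.closure {x : GolayPt → ℤ | x ∈ leechLattice ∧ sqNorm x = 32}).comap leechLattice.subtype := by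
      unfold CC
      rw [AddSubgroup.closure_le]
      intro y hy
      exact AddSubgroup.subset_closure ⟨y.2, sq32.2 hy⟩
    exact h2 h1

end Cfsg.Agent.S1567
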