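import Cfsg.Statements.S1568
import Cfsg.Agent.H7.Conway7
import Cfsg.Agent.H29.CoTrans
import Cfsg.Agent.H29.Trans

set_option autoImplicit false
open Cfsg

namespace Cfsg.Agent.S1568

open Cfsg.Agent.H29 Cfsg.Agent.H7
open scoped Pointwise

/-- counting pairs -/
theorem dcount {X Y : Type} {A : Set X} {R : X → Set Y} {n : ℕ} (hA : A.Finite)
    (hn : ∀ a ∈ A, (R a).ncard = n) (hfin : ∀ a ∈ A, (R a).Finite) :
    {p : X × Y | p.1 ∈ A ∧ p.2 ∈ R p.1}.ncard = A.ncard * n := by
  classical
  have e : {p : X × Y | p.1 ∈ A ∧ p.2 ∈ R p.1} = ⋃ a ∈ hA.toFinset, (fun x => (a, x)) '' R a := by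
    ext ⟨a, x⟩
    simp only [Set.mem_iUnion, Set.Finite.mem_toFinset, Set.mem_image, exists_prop]
    constructor
    · rintro ⟨h1, h2⟩; exact ⟨a, h1, x, h2, rfl⟩
    · rintro ⟨b, hb, y, hy, h⟩
      have h1 := congrArg Prod.fst h
      have h2 := congrArg Prod.snd h
      simp only at h1 h2
      subst h1; subst h2
      exact ⟨hb, hy⟩
  have hf2 : ∀ a ∈ A, ((fun x => (a, x)) '' R a).Finite := fun a ha => (hfin a ha).image _
  have key : ∀ T : Finset X, (∀ a ∈ T, a ∈ A) →
      (⋃ a ∈ T, (fun x => (a, x)) '' R a).ncard = T.card * n := by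
    intro T
    induction T using Finset.induction_on with
    | empty => intro _; simp
    | insert a T ha ih =>
      intro hT
      have haA := hT a (Finset.mem_insert_self a T)
      have hT' : ∀ b ∈ T, b ∈ A := fun b hb => hT b (Finset.mem_insert_of_mem hb)
      have hfU : (⋃ a ∈ T, (fun x => (a, x)) '' R a).Finite :=
        Set.Finite.biUnion T.finite_toSet fun b hb => hf2 b (hT' b hb)
      rw [Finset.set_biUnion_insert, Set.ncard_union_eq ?_ (hf2 a haA) hfU, ih hT',
        Set.ncard_image_of_injective _ (fun x y h => (congrArg Prod.snd h : _)), hn a haA,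
        Finset.card_insert_of_notMem ha]
      · ring
      · rw [Set.disjoint_left]
        rintro p ⟨x, _, rfl⟩ h2
        rw [Set.mem_iUnion₂] at h2
        obtain ⟨b, hb, y, _, h⟩ := h2
        have h1 := congrArg Prod.fst h
        simp only at h1
        subst h1
        exact ha hb
  rw [e, key _ (fun a ha => hA.mem_toFinset.1 ha), Set.ncard_eq_toFinset_card A hA]

/-! ### odd vectors -/

/-- the odd vectors -/
def GG (c T : Finset GolayPt) (b : ℤ) (i : GolayPt) : ℤ := (1 - 2 * ind c i) * (1 + 4 * b * ind T i)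

theorem GG_mem {c T : Finset GolayPt} (hc : c ∈ GC) {b : ℤ} (hb : (2 : ℤ) ∣ b * T.card - 1) :
    GG c T b ∈ leechLattice := by
  have h : (fun i => 1 + 4 * b * ind T i) ∈ leechLattice := by
    refine mem_leech.2 ⟨1, ∅, fun i => b * ind T i, GC_empty, fun i => ?_, ?_⟩
    · have : ind ∅ i = 0 := by unfold ind; rw [if_neg (Finset.notMem_empty _)]
      rw [this]; ring
    · rw [← Finset.mul_sum, ind_sum]; exact hb
  exact sign_mem hc h

theorem ind01 (s : Finset GolayPt) (i : GolayPt) : ind s i = 0 ∨ ind s i = 1 := by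
  unfold ind; split_ifs <;> simp

theorem ind_one {s : Finset GolayPt} {i : GolayPt} (h : i ∈ s) : ind s i = 1 := by
  unfold ind; rw [if_pos h]

theorem ind_zero {s : Finset GolayPt} {i : GolayPt} (h : i ∉ s) : ind s i = 0 := by
  unfold ind; rw [if_neg h]

theorem ind_iff {s : Finset GolayPt} {i : GolayPt} : i ∈ s ↔ ind s i = 1 := by
  unfold ind; split_ifs with h <;> simp [h]

theorem GG_norm (c T : Finset GolayPt) (b : ℤ) : sqNorm (GG c T b) = 24 + (8 * b + 16 * b ^ 2) * T.card := by
  have : ∀ i ∈ (Finset.univ : Finset GolayPt), GG c T b i ^ 2 = 1 + (8 * b + 16 * b ^ 2) * ind T i := by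
    intro i _
    unfold GG
    rcases ind01 c i with h | h <;> rcases ind01 T i with h' | h' <;> rw [h, h'] <;> ring
  unfold sqNorm
  rw [Finset.sum_congr rfl this, Finset.sum_add_distrib, ← Finset.mul_sum, ind_sum, Finset.sum_const]
  have : (Finset.univ : Finset GolayPt).card = 24 := by decide
  rw [this]
  norm_num

theorem GG_inj {c T c' T' : Finset GolayPt} {b : ℤ} (hb : b = 1 ∨ b = -1) (h : GG c T b = GG c' T' b) :
    c = c' ∧ T = T' := by
  have key : ∀ i, ind c i = ind c' i ∧ ind T i = ind T' i := by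
    intro i
    have h1 := congrFun h i
    unfold GG at h1
    rcases hb with rfl | rfl <;> rcases ind01 c i with h2 | h2 <;> rcases ind01 c' i with h3 | h3 <;>
      rcases ind01 T i with h4 | h4 <;> rcases ind01 T' i with h5 | h5 <;> rw [h2, h3, h4, h5] at h1 <;>
      first | (exfalso; omega) | (rw [h2, h3, h4, h5]; exact ⟨rfl, rfl⟩)
  constructor
  · ext i; rw [ind_iff, ind_iff, (key i).1]
  · ext i; rw [ind_iff, ind_iff, (key i).2]

theorem GG_of {x : GolayPt → ℤ} {T : Finset GolayPt} {b : ℤ} (hb : b = 1 ∨ b = -1)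
    (h1 : ∀ i ∈ T, |x i| = |1 + 4 * b|) (h2 : ∀ i ∉ T, |x i| = 1) :
    x = GG (Finset.univ.filter fun i => x i % 4 = 3) T b := by
  funext i
  unfold GG
  by_cases hi : i ∈ T
  · rw [ind_one hi]
    have := h1 i hi
    by_cases h3 : x i % 4 = 3
    · rw [ind_one (Finset.mem_filter.2 ⟨Finset.mem_univ _, h3⟩)]
      rcases hb with rfl | rfl <;> norm_num at this ⊢ <;>
        rcases abs_eq (by norm_num : (0:ℤ) ≤ _) |>.1 this with h | h <;> omega
    · rw [ind_zero (fun h => h3 (Finset.mem_filter.1 h).2)]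
      rcases hb with rfl | rfl <;> norm_num at this ⊢ <;>
        rcases abs_eq (by norm_num : (0:ℤ) ≤ _) |>.1 this with h | h <;> omega
  · rw [ind_zero hi]
    have := h2 i hi
    by_cases h3 : x i % 4 = 3
    · rw [ind_one (Finset.mem_filter.2 ⟨Finset.mem_univ _, h3⟩)]
      rcases abs_eq (by norm_num : (0:ℤ) ≤ 1) |>.1 this with h | h <;> omega
    · rw [ind_zero (fun h => h3 (Finset.mem_filter.1 h).2)]
      rcases abs_eq (by norm_num : (0:ℤ) ≤ 1) |>.1 this with h | h <;> omega

theorem odd_of_one {x : GolayPt → ℤ} (hx : x ∈ leechLattice) {i : GolayPt} (hi : ¬ (2 : ℤ) ∣ x i) :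
    (Finset.univ.filter fun i => x i % 4 = 3) ∈ GC ∧ ∀ i, ¬ (2 : ℤ) ∣ x i := by
  apply oddN_GC hx
  rcases mem_leech_cases.mp hx with ⟨s, y, h⟩ | ⟨s, y, h⟩
  · exfalso
    have := h.2.1 i
    omega
  · have := h.2.1 none
    omega

theorem GC_fin : (GC : Set (Finset GolayPt)).Finite := Set.toFinite _

theorem subs_ncard (k : ℕ) : {T : Finset GolayPt | T.card = k}.ncard = Nat.choose 24 k := by
  have h : {T : Finset GolayPt | T.card = k} = ((Finset.powersetCard k (Finset.univ : Finset GolayPt) : Finset (Finset GolayPt)) : Set (Finset GolayPt)) := by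
    ext T
    simp [Finset.mem_powersetCard]
  rw [h, Set.ncard_coe_finset, Finset.card_powersetCard]
  have : (Finset.univ : Finset GolayPt).card = 24 := by decide
  rw [this]

theorem GG_ncard {b : ℤ} (hb : b = 1 ∨ b = -1) (k : ℕ) :
    ((fun p : Finset GolayPt × Finset GolayPt => GG p.1 p.2 b) '' {p | p.1 ∈ GC ∧ p.2 ∈ {T : Finset GolayPt | T.card = k}}).ncard
      = 4096 * Nat.choose 24 k := by
  have hinj : Set.InjOn (fun p : Finset GolayPt × Finset GolayPt => GG p.1 p.2 b)
      {p | p.1 ∈ GC ∧ p.2 ∈ {T : Finset GolayPt | T.card = k}} := by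
    rintro ⟨c, T⟩ _ ⟨c', T'⟩ _ h
    obtain ⟨h1, h2⟩ := GG_inj hb h
    exact Prod.ext h1 h2
  rw [hinj.ncard_image, dcount GC_fin (R := fun _ => {T : Finset GolayPt | T.card = k})
    (fun _ _ => subs_ncard k) (fun _ _ => Set.toFinite _), enm_cw.ncard]
  simp

theorem part2 : {x : Cfsg.GolayPt → ℤ | x ∈ Cfsg.leechLattice ∧ Cfsg.sqNorm x = 48 ∧ ∃ i j k, i ≠ j ∧ j ≠ k ∧ i ≠ k ∧ |x i| = 3 ∧ |x j| = 3 ∧ |x k| = 3}.ncard = 8290304 := by
  have e : {x : Cfsg.GolayPt → ℤ | x ∈ Cfsg.leechLattice ∧ Cfsg.sqNorm x = 48 ∧ ∃ i j k, i ≠ j ∧ j ≠ k ∧ i ≠ k ∧ |x i| = 3 ∧ |x j| = 3 ∧ |x k| = 3} =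
      ((fun p : Finset GolayPt × Finset GolayPt => GG p.1 p.2 (-1)) '' {p | p.1 ∈ GC ∧ p.2 ∈ {T : Finset GolayPt | T.card = 3}}) := by
    ext x
    constructor
    · rintro ⟨hx, hn, i, j, k, hij, hjk, hik, h1, h2, h3⟩
      have hi : ¬ (2 : ℤ) ∣ x i := by
        rcases abs_eq (by norm_num : (0:ℤ) ≤ 3) |>.1 h1 with h | h <;> omega
      obtain ⟨hc, hodd⟩ := odd_of_one hx hi
      rcases shape_odd48 hodd hn with ⟨q, h5, hq⟩ | ⟨T, hT, hT1, hT2⟩
      · exfalso
        have a1 : i = q := by by_contra h; have := hq i h; omega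
        have a2 : j = q := by by_contra h; have := hq j h; omega
        exact hij (a1.trans a2.symm)
      · exact ⟨(_, T), ⟨hc, hT⟩, (GG_of (Or.inr rfl) (fun i hi => by rw [hT1 i hi]; norm_num) hT2).symm⟩
    · rintro ⟨⟨c, T⟩, ⟨hc, hT⟩, rfl⟩
      have hT' : T.card = 3 := hT
      refine ⟨GG_mem hc (by rw [hT']; norm_num), by rw [GG_norm, hT']; norm_num, ?_⟩
      obtain ⟨i, j, k, hij, hik, hjk, hTe⟩ := Finset.card_eq_three.1 hT'
      have key : ∀ i ∈ T, |GG c T (-1) i| = 3 := by
        intro i hi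
        unfold GG
        rw [ind_one hi]
        rcases ind01 c i with h | h <;> rw [h] <;> norm_num
      exact ⟨i, j, k, hij, hjk, hik, key i (by rw [hTe]; simp), key j (by rw [hTe]; simp), key k (by rw [hTe]; simp)⟩
  rw [e, GG_ncard (Or.inr rfl)]
  decide

theorem part4 : {x : Cfsg.GolayPt → ℤ | x ∈ Cfsg.leechLattice ∧ Cfsg.sqNorm x = 48 ∧ ∃ i, |x i| = 5}.ncard = 98304 := by
  have e : {x : Cfsg.GolayPt → ℤ | x ∈ Cfsg.leechLattice ∧ Cfsg.sqNorm x = 48 ∧ ∃ i, |x i| = 5} =
      ((fun p : Finset GolayPt × Finset GolayPt => GG p.1 p.2 1) '' {p | p.1 ∈ GC ∧ p.2 ∈ {T : Finset GolayPt | T.card = 1}}) := by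
    ext x
    constructor
    · rintro ⟨hx, hn, i, h1⟩
      have hi : ¬ (2 : ℤ) ∣ x i := by
        rcases abs_eq (by norm_num : (0:ℤ) ≤ 5) |>.1 h1 with h | h <;> omega
      obtain ⟨hc, hodd⟩ := odd_of_one hx hi
      rcases shape_odd48 hodd hn with ⟨q, h5, hq⟩ | ⟨T, hT, hT1, hT2⟩
      · refine ⟨(_, {q}), ⟨hc, Finset.card_singleton q⟩, (GG_of (Or.inl rfl) (fun i hi => ?_) (fun i hi => ?_)).symm⟩
        · rw [Finset.mem_singleton.1 hi, h5]; norm_num
        · exact hq i (fun h => hi (Finset.mem_singleton.2 h))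
      · exfalso
        by_cases h : i ∈ T
        · have := hT1 i h; omega
        · have := hT2 i h; omega
    · rintro ⟨⟨c, T⟩, ⟨hc, hT⟩, rfl⟩
      have hT' : T.card = 1 := hT
      refine ⟨GG_mem hc (by rw [hT']; norm_num), by rw [GG_norm, hT']; norm_num, ?_⟩
      obtain ⟨i, hTe⟩ := Finset.card_eq_one.1 hT'
      refine ⟨i, ?_⟩
      show |GG c T 1 i| = 5
      unfold GG
      rw [ind_one (s := T) (by rw [hTe]; simp)]
      rcases ind01 c i with h | h <;> rw [h] <;> norm_num
  rw [e, GG_ncard (Or.inl rfl)]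
  decide

/-! ### even vectors -/

/-- subsets of given parity -/
theorem par_ncard (s : Finset GolayPt) (hs : s.Nonempty) (r : ℕ) (hr : r = 0 ∨ r = 1) :
    {N : Finset GolayPt | N ⊆ s ∧ N.card % 2 = r}.ncard = 2 ^ (s.card - 1) := by
  classical
  obtain ⟨a, ha⟩ := hs
  have h : {N : Finset GolayPt | N ⊆ s ∧ N.card % 2 = r} =
      (fun M : Finset GolayPt => if M.card % 2 = r then M else insert a M) ''
        (((s.erase a).powerset : Finset (Finset GolayPt)) : Set (Finset GolayPt)) := by
    ext N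
    simp only [Set.mem_ofPred_eq, Set.mem_image, Finset.mem_coe, Finset.mem_powerset]
    constructor
    · rintro ⟨h1, h2⟩
      refine ⟨N.erase a, Finset.erase_subset_erase a h1, ?_⟩
      by_cases haN : a ∈ N
      · have h3 := Finset.card_erase_add_one haN
        rw [if_neg (by omega), Finset.insert_erase haN]
      · rw [Finset.erase_eq_of_notMem haN, if_pos h2]
    · rintro ⟨M, hM, rfl⟩
      have haM : a ∉ M := fun h => Finset.notMem_erase a s (hM h)
      by_cases h : M.card % 2 = r
      · rw [if_pos h]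
        exact ⟨hM.trans (Finset.erase_subset a s), h⟩
      · rw [if_neg h]
        refine ⟨Finset.insert_subset ha (hM.trans (Finset.erase_subset a s)), ?_⟩
        rw [Finset.card_insert_of_notMem haM]
        omega
  have hinj : Set.InjOn (fun M : Finset GolayPt => if M.card % 2 = r then M else insert a M)
      (((s.erase a).powerset : Finset (Finset GolayPt)) : Set (Finset GolayPt)) := by
    intro M hM M' hM' hMM
    have haM : a ∉ M := fun h => Finset.notMem_erase a s (Finset.mem_powerset.1 (Finset.mem_coe.1 hM) h)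
    have haM' : a ∉ M' := fun h => Finset.notMem_erase a s (Finset.mem_powerset.1 (Finset.mem_coe.1 hM') h)
    have e : ∀ {M : Finset GolayPt}, a ∉ M → ((if M.card % 2 = r then M else insert a M) : Finset GolayPt).erase a = M := by
      intro M haM
      split_ifs
      · exact Finset.erase_eq_of_notMem haM
      · exact Finset.erase_insert haM
    rw [← e haM, ← e haM']
    exact congrArg (fun N : Finset GolayPt => N.erase a) hMM
  rw [h, hinj.ncard_image, Set.ncard_coe_finset, Finset.card_powerset, Finset.card_erase_of_mem ha]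

/-- even vectors -/
def HH (s N : Finset GolayPt) (e : ℤ) (k : GolayPt) (i : GolayPt) : ℤ := 2 * ind s i - 4 * ind N i + 4 * e * ind {k} i

theorem HH_mem {s N : Finset GolayPt} {e : ℤ} {k : GolayPt} (hs : s ∈ GC) (h : (2 : ℤ) ∣ (N.card : ℤ) - e) :
    HH s N e k ∈ leechLattice := by
  refine mem_leech.2 ⟨0, s, fun i => - ind N i + e * ind {k} i, hs, fun i => by unfold HH; ring, ?_⟩
  rw [Finset.sum_add_distrib, ← Finset.mul_sum, ind_sum, Finset.sum_neg_distrib, ind_sum, Finset.card_singleton]
  obtain ⟨z, hz⟩ := h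
  exact ⟨-z, by push_cast; linarith⟩

theorem ind_sub {s N : Finset GolayPt} (h : N ⊆ s) (i : GolayPt) : ind N i = 1 → ind s i = 1 := by
  intro h1
  exact ind_one (h (ind_iff.2 h1))

theorem HH_norm {s N : Finset GolayPt} {e : ℤ} {k : GolayPt} (h : N ⊆ s) (hk : k ∉ s) :
    sqNorm (HH s N e k) = 4 * s.card + 16 * e ^ 2 := by
  have : ∀ i ∈ (Finset.univ : Finset GolayPt), HH s N e k i ^ 2 = 4 * ind s i + 16 * e ^ 2 * ind {k} i := by
    intro i _
    unfold HH
    by_cases hi : i = k
    · subst hi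
      rw [ind_zero hk, ind_zero (fun h' => hk (h h')), ind_one (Finset.mem_singleton_self i)]
      ring
    · rw [ind_zero (s := {k}) (fun h => hi (Finset.mem_singleton.1 h))]
      have h1 := ind_sub h i
      rcases ind01 s i with h2 | h2 <;> rcases ind01 N i with h3 | h3 <;> rw [h2, h3] <;>
        first | (exfalso; have := h1 h3; omega) | ring
  unfold sqNorm
  rw [Finset.sum_congr rfl this, Finset.sum_add_distrib, ← Finset.mul_sum, ← Finset.mul_sum, ind_sum, ind_sum,
    Finset.card_singleton]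
  norm_num

theorem part1 : {x : Cfsg.GolayPt → ℤ | x ∈ Cfsg.leechLattice ∧ Cfsg.sqNorm x = 48 ∧ ∀ i, x i = 0 ∨ x i = 2 ∨ x i = -2}.ncard = 5275648 := by
  have hd : ∀ d ∈ dodecads, {N : Finset GolayPt | N ⊆ d ∧ N.card % 2 = 0}.ncard = 2048 := by
    intro d hd
    have h := (mem_dodecads.1 hd).2
    rw [par_ncard d (Finset.card_pos.1 (by omega)) 0 (Or.inl rfl), h]
    norm_num
  have e : {x : Cfsg.GolayPt → ℤ | x ∈ Cfsg.leechLattice ∧ Cfsg.sqNorm x = 48 ∧ ∀ i, x i = 0 ∨ x i = 2 ∨ x i = -2} =
      ((fun p : Finset GolayPt × Finset GolayPt => HH p.1 p.2 0 none) ''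
        {p | p.1 ∈ dodecads ∧ p.2 ∈ {N : Finset GolayPt | N ⊆ p.1 ∧ N.card % 2 = 0}}) := by
    ext x
    constructor
    · rintro ⟨hx, hn, h1⟩
      rcases mem_leech_cases.mp hx with ⟨s, y, h⟩ | ⟨s, y, h⟩
      · have hy : ∀ i, y i = - ind (Finset.univ.filter fun i => x i = -2) i := by
          intro i
          have h2 := h.2.1 i
          by_cases h3 : x i = -2
          · rw [ind_one (Finset.mem_filter.2 ⟨Finset.mem_univ _, h3⟩)]
            rcases ind01 s i with h4 | h4 <;> rw [h4, h3] at h2 <;> omega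
          · rw [ind_zero (fun h => h3 (Finset.mem_filter.1 h).2)]
            rcases ind01 s i with h4 | h4 <;> rw [h4] at h2 <;> rcases h1 i with h5 | h5 | h5 <;> omega
        have hN : (Finset.univ.filter fun i => x i = -2) ⊆ s := by
          intro i hi
          have h2 := h.2.1 i
          rw [(Finset.mem_filter.1 hi).2] at h2
          rw [ind_iff]
          rcases ind01 s i with h4 | h4
          · rw [h4] at h2; omega
          · exact h4
        have hxH : x = HH s (Finset.univ.filter fun i => x i = -2) 0 none := by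
          funext i
          rw [h.2.1 i, hy i]
          unfold HH
          ring
        have hpar := h.2.2
        rw [Finset.sum_congr rfl (fun i _ => hy i), Finset.sum_neg_distrib, ind_sum] at hpar
        have hcard : s.card = 12 := by
          have h5 : sqNorm x = 4 * s.card := by
            unfold sqNorm
            have : ∀ i ∈ (Finset.univ : Finset GolayPt), x i ^ 2 = 4 * ind s i := by
              intro i _
              have h2 := h.2.1 i
              rcases ind01 s i with h4 | h4 <;> rw [h4] at h2 ⊢ <;> rcases h1 i with h5 | h5 | h5 <;>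
                rw [h5] at h2 ⊢ <;> first | (exfalso; omega) | norm_num
            rw [Finset.sum_congr rfl this, ← Finset.mul_sum, ind_sum]
          rw [hn] at h5
          omega
        refine ⟨(s, _), ⟨⟨h.1, hcard⟩, hN, ?_⟩, hxH.symm⟩
        show (Finset.univ.filter fun i => x i = -2).card % 2 = 0
        omega
      · exfalso
        have h2 := h.2.1 none
        rcases h1 none with h5 | h5 | h5 <;> omega
    · rintro ⟨⟨d, N⟩, ⟨hd, hN, hN2⟩, rfl⟩
      have hN' : N ⊆ d := hN
      have hN2' : N.card % 2 = 0 := hN2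
      have hd' : d.card = 12 := (mem_dodecads.1 hd).2
      refine ⟨HH_mem (mem_dodecads.1 hd).1 (by omega), ?_, fun i => ?_⟩
      · have : ∀ i ∈ (Finset.univ : Finset GolayPt), HH d N 0 none i ^ 2 = 4 * ind d i := by
          intro i _
          unfold HH
          have h1 := ind_sub hN' i
          rcases ind01 d i with h2 | h2 <;> rcases ind01 N i with h3 | h3 <;> rw [h2, h3] <;>
            first | (exfalso; have := h1 h3; omega) | ring
        unfold sqNorm
        rw [Finset.sum_congr rfl this, ← Finset.mul_sum, ind_sum, hd']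
        norm_num
      · have h1 := ind_sub hN' i
        show HH d N 0 none i = 0 ∨ HH d N 0 none i = 2 ∨ HH d N 0 none i = -2
        unfold HH
        rcases ind01 d i with h2 | h2 <;> rcases ind01 N i with h3 | h3 <;> rw [h2, h3] <;> norm_num
        have := h1 h3
        omega
  have hinj : Set.InjOn (fun p : Finset GolayPt × Finset GolayPt => HH p.1 p.2 0 none)
      {p | p.1 ∈ dodecads ∧ p.2 ∈ {N : Finset GolayPt | N ⊆ p.1 ∧ N.card % 2 = 0}} := by
    rintro ⟨c, T⟩ ⟨-, h1, -⟩ ⟨c', T'⟩ ⟨-, h2, -⟩ h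
    have key : ∀ i, ind c i = ind c' i ∧ ind T i = ind T' i := by
      intro i
      have h3 := congrFun h i
      have h4 := ind_sub h1 i
      have h5 := ind_sub h2 i
      simp only at h3 h4 h5
      unfold HH at h3
      rcases ind01 c i with a | a <;> rcases ind01 c' i with b | b <;>
        rcases ind01 T i with c | c <;> rcases ind01 T' i with d | d <;> rw [a, b, c, d] at h3 <;>
        rw [a, c] at h4 <;> rw [b, d] at h5 <;>
        first | (exfalso; omega) | (rw [a, b, c, d]; exact ⟨rfl, rfl⟩)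
    refine Prod.ext ?_ ?_
    · ext i
      show i ∈ c ↔ i ∈ c'
      rw [ind_iff, ind_iff, (key i).1]
    · ext i
      show i ∈ T ↔ i ∈ T'
      rw [ind_iff, ind_iff, (key i).2]
  rw [e, hinj.ncard_image, dcount (Set.toFinite _) (R := fun d => {N : Finset GolayPt | N ⊆ d ∧ N.card % 2 = 0})
    hd (fun _ _ => Set.toFinite _), enm_dod.ncard]
  decide +kernel

/-- the sign -/
def sg (b : Bool) : ℤ := if b then 1 else -1

theorem sg_cases (b : Bool) : sg b = 1 ∨ sg b = -1 := by cases b <;> simp [sg]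

theorem sg_inj {b b' : Bool} (h : sg b = sg b') : b = b' := by
  cases b <;> cases b' <;> simp [sg] at h ⊢

theorem arith3 {a a' n n' c c' e e' : ℤ} (ha : a = 0 ∨ a = 1) (ha' : a' = 0 ∨ a' = 1) (hn : n = 0 ∨ n = 1)
    (hn' : n' = 0 ∨ n' = 1) (hc : c = 0 ∨ c = 1) (hc' : c' = 0 ∨ c' = 1) (he : e = 1 ∨ e = -1)
    (he' : e' = 1 ∨ e' = -1) (h3 : 2 * a - 4 * n + 4 * e * c = 2 * a' - 4 * n' + 4 * e' * c')
    (h4 : n = 1 → a = 1) (h5 : n' = 1 → a' = 1) (h6 : c = 1 → a = 0) (h7 : c' = 1 → a' = 0) :
    a = a' ∧ n = n' ∧ e * c = e' * c' := by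
  rcases ha with rfl | rfl <;> rcases ha' with rfl | rfl <;> rcases hn with rfl | rfl <;>
    rcases hn' with rfl | rfl <;> rcases hc with rfl | rfl <;> rcases hc' with rfl | rfl <;>
    rcases he with rfl | rfl <;> rcases he' with rfl | rfl <;> omega

/-- parameters of the third family -/
def R3 (s : Finset GolayPt) : Set (Finset GolayPt × (GolayPt × Bool)) :=
  {N : Finset GolayPt | N ⊆ s ∧ N.card % 2 = 1} ×ˢ ((((sᶜ : Finset GolayPt) : Set GolayPt)) ×ˢ (Set.univ : Set Bool))

theorem R3_ncard {s : Finset GolayPt} (hs : s ∈ octads) : (R3 s).ncard = 4096 := by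
  have h := (mem_octads.1 hs).2
  have h24 : Fintype.card GolayPt = 24 := by decide
  unfold R3
  rw [Set.ncard_prod, Set.ncard_prod, par_ncard s (Finset.card_pos.1 (by omega)) 1 (Or.inr rfl), h,
    Set.ncard_coe_finset, Finset.card_compl, h24, h, Set.ncard_univ]
  simp

theorem part3 : {x : Cfsg.GolayPt → ℤ | x ∈ Cfsg.leechLattice ∧ Cfsg.sqNorm x = 48 ∧ ∃ i, |x i| = 4}.ncard = 3108864 := by
  have e : {x : Cfsg.GolayPt → ℤ | x ∈ Cfsg.leechLattice ∧ Cfsg.sqNorm x = 48 ∧ ∃ i, |x i| = 4} =
      ((fun p : Finset GolayPt × (Finset GolayPt × (GolayPt × Bool)) => HH p.1 p.2.1 (sg p.2.2.2) p.2.2.1) ''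
        {p | p.1 ∈ octads ∧ p.2 ∈ R3 p.1}) := by
    ext x
    constructor
    · rintro ⟨hx, hn, i0, hi0⟩
      have hi0' : (4 : ℤ) ∣ x i0 := by
        rcases abs_eq (by norm_num : (0:ℤ) ≤ 4) |>.1 hi0 with h | h <;> rw [h] <;> norm_num
      rcases mem_leech_cases.mp hx with ⟨s, y, h⟩ | ⟨s, y, h⟩
      · have hs2 : ∀ i ∈ s, x i % 4 = 2 := by
          intro i hi
          have h2 := h.2.1 i
          rw [ind_one hi] at h2
          omega
        have hs4 : ∀ i ∉ s, (4 : ℤ) ∣ x i := by
          intro i hi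
          have h2 := h.2.1 i
          rw [ind_zero hi] at h2
          omega
        have hi0s : i0 ∉ s := by
          intro hi
          have := hs2 i0 hi
          omega
        have hcard : s.card = 8 := by
          have h5 : 16 + 4 * (s.card : ℤ) ≤ 48 := by
            rw [← hn]
            have h6 : ∑ i ∈ insert i0 s, x i ^ 2 ≤ sqNorm x :=
              Finset.sum_le_sum_of_subset_of_nonneg (Finset.subset_univ _) (fun i _ _ => sq_nonneg _)
            rw [Finset.sum_insert hi0s] at h6
            have h7 : x i0 ^ 2 = 16 := by rw [← sq_abs, hi0]; norm_num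
            have h8 : ∑ i ∈ s, (4 : ℤ) ≤ ∑ i ∈ s, x i ^ 2 := by
              refine Finset.sum_le_sum fun i hi => ?_
              have := hs2 i hi
              have h9 : x i ≤ -2 ∨ 2 ≤ x i := by omega
              rcases h9 with h9 | h9 <;> nlinarith
            rw [Finset.sum_const, nsmul_eq_mul] at h8
            linarith
          rcases GC_weights s h.1 with h6 | h6 | h6 | h6 | h6
          · exfalso
            have hse : s = ∅ := Finset.card_eq_zero.1 h6
            have hxy : ∀ i, x i = 4 * y i := by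
              intro i
              have h2 := h.2.1 i
              rw [ind_zero (by rw [hse]; exact Finset.notMem_empty i)] at h2
              omega
            have h7 : sqNorm x = 16 * ∑ i, y i ^ 2 := by
              unfold sqNorm
              rw [Finset.mul_sum]
              exact Finset.sum_congr rfl fun i _ => by rw [hxy i]; ring
            have h8 : (2 : ℤ) ∣ ∑ i, (y i ^ 2 - y i) := by
              refine Finset.dvd_sum fun i _ => ?_
              have : y i ^ 2 - y i = (y i - 1) * (y i - 1 + 1) := by ring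
              rw [this]
              exact (Int.even_mul_succ_self _).two_dvd
            rw [Finset.sum_sub_distrib] at h8
            have h9 := h.2.2
            rw [hn] at h7
            omega
          · exact h6
          · exfalso; omega
          · exfalso; omega
          · exfalso; omega
        obtain ⟨h2, k, hk, hk4, hk0⟩ := shape_420 hcard hs2 hs4 hn
        obtain ⟨b, hb⟩ : ∃ b : Bool, x k = 4 * sg b := by
          rcases hk4 with h | h
          · exact ⟨true, by rw [h]; rfl⟩
          · exact ⟨false, by rw [h]; rfl⟩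
        have hy : ∀ i, y i = - ind (s.filter fun i => x i = -2) i + sg b * ind {k} i := by
          intro i
          have h3 := h.2.1 i
          by_cases hi : i ∈ s
          · have hik : i ≠ k := fun e => hk (e ▸ hi)
            rw [ind_zero (s := {k}) (fun h => hik (Finset.mem_singleton.1 h))]
            rw [ind_one hi] at h3
            rcases h2 i hi with h4 | h4
            · rw [ind_zero (fun h => by have := (Finset.mem_filter.1 h).2; omega)]
              omega
            · rw [ind_one (Finset.mem_filter.2 ⟨hi, h4⟩)]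
              omega
          · rw [ind_zero (s := s.filter fun i => x i = -2) (fun h => hi (Finset.mem_filter.1 h).1)]
            rw [ind_zero hi] at h3
            by_cases hik : i = k
            · subst hik
              rw [ind_one (Finset.mem_singleton_self i)]
              omega
            · rw [ind_zero (s := {k}) (fun h => hik (Finset.mem_singleton.1 h))]
              have := hk0 i hi hik
              omega
        have hxH : x = HH s (s.filter fun i => x i = -2) (sg b) k := by
          funext i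
          rw [h.2.1 i, hy i]
          unfold HH
          ring
        have hpar := h.2.2
        rw [Finset.sum_congr rfl (fun i _ => hy i), Finset.sum_add_distrib, Finset.sum_neg_distrib, ind_sum,
          ← Finset.mul_sum, ind_sum, Finset.card_singleton] at hpar
        refine ⟨(s, _, k, b), ⟨⟨h.1, hcard⟩, ⟨Finset.filter_subset _ _, ?_⟩, ?_, Set.mem_univ _⟩, hxH.symm⟩
        · show (s.filter fun i => x i = -2).card % 2 = 1
          rcases sg_cases b with h7 | h7 <;> rw [h7] at hpar <;> push_cast at hpar <;> omega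
        · exact Finset.mem_coe.2 (Finset.mem_compl.2 hk)
      · exfalso
        have h2 := h.2.1 i0
        rcases ind01 s i0 with h3 | h3 <;> rw [h3] at h2 <;> omega
    · rintro ⟨⟨s, N, k, b⟩, ⟨hs, ⟨hN, hN2⟩, hk, -⟩, rfl⟩
      have hN' : N ⊆ s := hN
      have hN2' : N.card % 2 = 1 := hN2
      have hk' : k ∉ s := Finset.mem_compl.1 (Finset.mem_coe.1 hk)
      have hs' : s.card = 8 := (mem_octads.1 hs).2
      refine ⟨HH_mem (mem_octads.1 hs).1 ?_, ?_, k, ?_⟩
      · show (2 : ℤ) ∣ (N.card : ℤ) - sg b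
        rcases sg_cases b with h7 | h7 <;> rw [h7] <;> omega
      · show sqNorm (HH s N (sg b) k) = 48
        rw [HH_norm hN' hk', hs']
        rcases sg_cases b with h7 | h7 <;> rw [h7] <;> norm_num
      · show |HH s N (sg b) k k| = 4
        unfold HH
        rw [ind_zero hk', ind_zero (fun h' => hk' (hN' h')), ind_one (Finset.mem_singleton_self k)]
        rcases sg_cases b with h7 | h7 <;> rw [h7] <;> norm_num
  have hinj : Set.InjOn (fun p : Finset GolayPt × (Finset GolayPt × (GolayPt × Bool)) =>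
      HH p.1 p.2.1 (sg p.2.2.2) p.2.2.1) {p | p.1 ∈ octads ∧ p.2 ∈ R3 p.1} := by
    rintro ⟨c, T, k, b⟩ ⟨-, ⟨h1, -⟩, hk, -⟩ ⟨c', T', k', b'⟩ ⟨-, ⟨h2, -⟩, hk', -⟩ h
    have hk1 : k ∉ c := Finset.mem_compl.1 (Finset.mem_coe.1 hk)
    have hk2 : k' ∉ c' := Finset.mem_compl.1 (Finset.mem_coe.1 hk')
    have key : ∀ i, ind c i = ind c' i ∧ ind T i = ind T' i ∧ sg b * ind {k} i = sg b' * ind {k'} i := by
      intro i
      have h3 : HH c T (sg b) k i = HH c' T' (sg b') k' i := congrFun h i
      have h4 : ind T i = 1 → ind c i = 1 := ind_sub h1 i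
      have h5 : ind T' i = 1 → ind c' i = 1 := ind_sub h2 i
      have h6 : ind {k} i = 1 → ind c i = 0 := by
        intro h
        rw [← ind_iff, Finset.mem_singleton] at h
        rw [h]; exact ind_zero hk1
      have h7 : ind {k'} i = 1 → ind c' i = 0 := by
        intro h
        rw [← ind_iff, Finset.mem_singleton] at h
        rw [h]; exact ind_zero hk2
      unfold HH at h3
      exact arith3 (ind01 c i) (ind01 c' i) (ind01 T i) (ind01 T' i) (ind01 {k} i) (ind01 {k'} i) (sg_cases b)
        (sg_cases b') h3 h4 h5 h6 h7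
    have hkk : k = k' ∧ b = b' := by
      have h8 := (key k).2.2
      rw [ind_one (Finset.mem_singleton_self k)] at h8
      by_cases hkk : k = k'
      · refine ⟨hkk, ?_⟩
        rw [hkk, ind_one (Finset.mem_singleton_self k')] at h8
        exact sg_inj (by linarith)
      · exfalso
        rw [ind_zero (s := {k'}) (fun h => hkk (Finset.mem_singleton.1 h))] at h8
        rcases sg_cases b with g1 | g1 <;> omega
    refine Prod.ext ?_ (Prod.ext ?_ (Prod.ext hkk.1 hkk.2))
    · ext i
      show i ∈ c ↔ i ∈ c'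
      rw [ind_iff, ind_iff, (key i).1]
    · ext i
      show i ∈ T ↔ i ∈ T'
      rw [ind_iff, ind_iff, (key i).2.1]
  rw [e, hinj.ncard_image, dcount (Set.toFinite _) (R := R3) (fun _ hs => R3_ncard hs) (fun _ _ => Set.toFinite _),
    enm_oct.ncard]
  decide +kernel

/-- Shape census of the lattice vectors of sum of squares 48 (customary norm 6): the four families (2^12, 0^12), (±3^3, ±1^21), (±4, ±2^8, 0^15) and (±5, ±1^23) have 5275648, 8290304, 3108864 and 98304 members. -/
theorem result : {x : Cfsg.GolayPt → ℤ | x ∈ Cfsg.leechLattice ∧ Cfsg.sqNorm x = 48 ∧ ∀ i, x i = 0 ∨ x i = 2 ∨ x i = -2}.ncard = 5275648 ∧ {x : Cfsg.GolayPt → ℤ | x ∈ Cfsg.leechLattice ∧ Cfsg.sqNorm x = 48 ∧ ∃ i j k, i ≠ j ∧ j ≠ k ∧ i ≠ k ∧ |x i| = 3 ∧ |x j| = 3 ∧ |x k| = 3}.ncard = 8290304 ∧ {x : Cfsg.GolayPt → ℤ | x ∈ Cfsg.leechLattice ∧ Cfsg.sqNorm x = 48 ∧ ∃ i, |x i| = 4}.ncard = 3108864 ∧ {x : Cfsg.GolayPt → ℤ | x ∈ Cfsg.leechLattice ∧ Cfsg.sqNorm x = 48 ∧ ∃ i, |x i| = 5}.ncard = 98304 := by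
  exact ⟨part1, part2, part3, part4⟩

end Cfsg.Agent.S1568
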