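import Cfsg.Statements.S1569
import Cfsg.Agent.H29.CoTrans

set_option autoImplicit false
open scoped Pointwise
open Cfsg

namespace Cfsg.Agent.S1569

open Cfsg.Agent.H7 Cfsg.Agent.H29

/-- The cross through a lattice vector of customary norm 8 has exactly 48 members. -/
theorem result (x : Cfsg.GolayPt → ℤ) (hx : x ∈ Cfsg.leechLattice) (hxn : Cfsg.sqNorm x = 64) : (Cfsg.cross x).ncard = 48 := by
  have h8 : bL (⟨x, hx⟩ : leechLattice) ⟨x, hx⟩ = 8 := sq64'.1 hxn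
  rw [← class8 h8]
  have e : cross x = {y : GolayPt → ℤ | y ∈ leechLattice ∧ (sqNorm y = 64 ∧ ∃ z ∈ leechLattice, x - y = 2 • z)} := by
    ext y
    unfold cross
    rw [hxn]
  rw [e, ncard_coe (P := fun y => sqNorm y = 64 ∧ ∃ z ∈ leechLattice, x - y = 2 • z)]
  congr 1
  ext v
  show (sqNorm (v : GolayPt → ℤ) = 64 ∧ _) ↔ (bL v v = 8 ∧ _)
  rw [sq64']
  refine and_congr_right fun _ => ?_
  constructor
  · rintro ⟨z, hz, h⟩
    refine ⟨⟨z, hz⟩, Subtype.ext ?_⟩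
    rw [two_nsmul] at h
    exact h
  · rintro ⟨z, h⟩
    refine ⟨z, z.2, ?_⟩
    rw [two_nsmul]
    exact congrArg Subtype.val h

end Cfsg.Agent.S1569
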