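import Cfsg.Statements.S1570
import Cfsg.Agent.H29.CoTrans

set_option autoImplicit false
open Cfsg

namespace Cfsg.Agent.S1570

open Cfsg.Agent.H7 Cfsg.Agent.H29

/-- Every congruence class of the lattice modulo twice the lattice contains a vector of customary norm at most 8. -/
theorem result (x : Cfsg.GolayPt → ℤ) (hx : x ∈ Cfsg.leechLattice) : ∃ y ∈ Cfsg.leechLattice, Cfsg.sqNorm y ≤ 64 ∧ ∃ z ∈ Cfsg.leechLattice, x - y = 2 • z := by
  obtain ⟨w, ⟨u, hu⟩, hw⟩ := exists_short ⟨x, hx⟩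
  refine ⟨w, w.2, ?_, u, u.2, ?_⟩
  · have h0 : bL (0 : leechLattice) 0 = 0 := leech_LLat.zero_left 0
    rcases hw with rfl | h | h | h
    · rw [← bL_self, h0]; norm_num
    · rw [← bL_self, h]; norm_num
    · rw [← bL_self, h]; norm_num
    · rw [← bL_self, h]; norm_num
  · rw [two_nsmul]
    exact congrArg Subtype.val hu

end Cfsg.Agent.S1570
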