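import Cfsg.Statements.S1571
import Cfsg.Agent.H7.Conway3
import Cfsg.Agent.H29.Trans

set_option autoImplicit false
open scoped Pointwise
open Cfsg

namespace Cfsg.Agent.S1571

open Cfsg.Agent.H29 Cfsg.Agent.H7
open scoped Pointwise

theorem e8_single (i : GolayPt) : (e8 i : GolayPt → ℤ) = Pi.single i 8 := by
  funext k
  rw [e8_apply, Pi.single_apply]

theorem cross_iff {v : leechLattice} : (v : GolayPt → ℤ) ∈ stdCross ↔ ∃ j, v = e8 j ∨ v = - e8 j := by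
  constructor
  · rintro ⟨j, s, hs | hs, h⟩
    · exact ⟨j, Or.inl (Subtype.ext (by rw [h, hs, e8_single]))⟩
    · refine ⟨j, Or.inr (Subtype.ext ?_)⟩
      show (v : GolayPt → ℤ) = -(e8 j : GolayPt → ℤ)
      rw [h, hs, e8_single, ← Pi.single_neg]
  · rintro ⟨j, rfl | rfl⟩
    · exact ⟨j, 8, Or.inl rfl, e8_single j⟩
    · refine ⟨j, -8, Or.inr rfl, ?_⟩
      show -(e8 j : GolayPt → ℤ) = _
      rw [e8_single, ← Pi.single_neg]

theorem pres_iff {g : Co0} : (∀ v : leechLattice, (v : GolayPt → ℤ) ∈ stdCross →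
    ((g • v : leechLattice) : GolayPt → ℤ) ∈ stdCross) ↔ IsMono g := by
  constructor
  · intro h i
    exact cross_iff.1 (h (e8 i) (cross_iff.2 ⟨i, Or.inl rfl⟩))
  · intro h v hv
    obtain ⟨i, hi | hi⟩ := cross_iff.1 hv
    · rw [hi]; exact cross_iff.2 (h i)
    · rw [hi, co0_neg]
      obtain ⟨j, hj | hj⟩ := h i
      · exact cross_iff.2 ⟨j, Or.inr (by rw [hj])⟩
      · exact cross_iff.2 ⟨j, Or.inl (by rw [hj, neg_neg])⟩

theorem GC_ncard : Nat.card {c : Finset GolayPt // c ∈ GC} = 4096 := by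
  have h := Nat.card_coe_set_eq GC
  rw [enm_cw.ncard] at h
  rw [h]
  simp

/-- The stabiliser of the standard cross in the automorphism group of the lattice is the monomial group of the code: each of its elements acts as a signed permutation with permutation part in the code's group and sign set a codeword, and it has order 4096 · 244823040. -/
theorem result : (∀ g : ↥Cfsg.Co0, (∀ v : ↥Cfsg.leechLattice, (v : Cfsg.GolayPt → ℤ) ∈ Cfsg.stdCross → ((g • v : ↥Cfsg.leechLattice) : Cfsg.GolayPt → ℤ) ∈ Cfsg.stdCross) → ∃ f ∈ Cfsg.golayMonomialMaps, ∀ v : ↥Cfsg.leechLattice, ((g • v : ↥Cfsg.leechLattice) : Cfsg.GolayPt → ℤ) = f (v : Cfsg.GolayPt → ℤ)) ∧ Nat.card {g : ↥Cfsg.Co0 // (∀ v : ↥Cfsg.leechLattice, (v : Cfsg.GolayPt → ℤ) ∈ Cfsg.stdCross → ((g • v : ↥Cfsg.leechLattice) : Cfsg.GolayPt → ℤ) ∈ Cfsg.stdCross)} = 4096 * 244823040 := by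
  constructor
  · intro g hg
    obtain ⟨σ, hσ, c, hc, rfl⟩ := mono_form (pres_iff.1 hg)
    refine ⟨signedPerm σ c, ⟨σ, hσ, c, hc, rfl⟩, fun v => ?_⟩
    funext i
    rw [mul_smul, sgEl_apply, pmEl_apply]
    show (1 - 2 * (if i ∈ c then (1 : ℤ) else 0)) * (v : GolayPt → ℤ) (σ⁻¹ i) = if i ∈ c then -(v : GolayPt → ℤ) (σ.symm i) else (v : GolayPt → ℤ) (σ.symm i)
    by_cases h : i ∈ c
    · rw [if_pos h, if_pos h]
      show _ = -(v : GolayPt → ℤ) (σ⁻¹ i)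
      ring
    · rw [if_neg h, if_neg h]
      show _ = (v : GolayPt → ℤ) (σ⁻¹ i)
      ring
  · have e : Nat.card {g : Co0 // ∀ v : leechLattice, (v : GolayPt → ℤ) ∈ stdCross →
        ((g • v : leechLattice) : GolayPt → ℤ) ∈ stdCross} = Nat.card ({c : Finset GolayPt // c ∈ GC} × M24) := by
      symm
      refine Nat.card_congr (Equiv.ofBijective (fun p => ⟨sgEl p.1.1 p.1.2 * pmEl p.2.1 p.2.2,
        pres_iff.2 (mono_sg_pm p.2.2 p.1.2)⟩) ⟨?_, ?_⟩)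
      · rintro ⟨⟨c, hc⟩, ⟨σ, hσ⟩⟩ ⟨⟨d, hd⟩, ⟨τ, hτ⟩⟩ h
        obtain ⟨h1, h2⟩ := sg_pm_inj (Subtype.ext_iff.1 h)
        subst h1
        subst h2
        rfl
      · rintro ⟨g, hg⟩
        obtain ⟨σ, hσ, c, hc, rfl⟩ := mono_form (pres_iff.1 hg)
        exact ⟨⟨⟨c, hc⟩, ⟨σ, hσ⟩⟩, rfl⟩
    rw [e, Nat.card_prod, GC_ncard, card_M24]

end Cfsg.Agent.S1571
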