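import Cfsg.Statements.S1572
import Cfsg.Agent.S1571
import Cfsg.Agent.H29.CrossMax3

set_option autoImplicit false
open scoped Pointwise
open Cfsg

namespace Cfsg.Agent.S1572

open Cfsg.Agent.H29 Cfsg.Agent.H7
open scoped Pointwise

theorem bd1 : ∀ T : Finset (Fin 3), 0 ∈ T → 1104 ≤ (∑ i ∈ T, ![1104, 97152, 98304] i) ∧
    (∑ i ∈ T, ![1104, 97152, 98304] i) ≤ 196560 := by decide +kernel

theorem bd2 : ∀ T : Finset (Fin 3), 0 ∈ T → 88 ≤ (∑ i ∈ T, ![88, 2464, 2048] i) ∧
    (∑ i ∈ T, ![88, 2464, 2048] i) ≤ 4600 := by decide +kernel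

theorem bd3 : ∀ T : Finset (Fin 4), 0 ∈ T → 1 ≤ (∑ i ∈ T, ![1, 42, 336, 512] i) ∧
    (∑ i ∈ T, ![1, 42, 336, 512] i) ≤ 891 := by decide +kernel

/-- The stabiliser of the standard cross is a maximal proper subgroup of the lattice's automorphism group. -/
theorem result (H : Subgroup ↥Cfsg.Co0) (hH : (H : Set ↥Cfsg.Co0) = {g : ↥Cfsg.Co0 | (∀ v : ↥Cfsg.leechLattice, (v : Cfsg.GolayPt → ℤ) ∈ Cfsg.stdCross → ((g • v : ↥Cfsg.leechLattice) : Cfsg.GolayPt → ℤ) ∈ Cfsg.stdCross)}) : IsCoatom H := by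
  have hiff : ∀ g, g ∈ H ↔ IsMono g := by
    intro g
    rw [← S1571.pres_iff]
    exact Set.ext_iff.1 hH g
  have hcardH : Nat.card H = 4096 * 244823040 := by
    rw [← S1571.result.2]
    exact Nat.card_congr (Equiv.subtypeEquivRight fun g => (hiff g).trans S1571.pres_iff.symm)
  have hH' : ∀ g, IsMono g → g ∈ H := fun g hg => (hiff g).2 hg
  obtain ⟨A1, A2, A3, a1, a2, a3, hA⟩ := ord_form H hH'
  obtain ⟨B1, B2, B3, b1, b2, b3, hB⟩ := ord_form ⊤ (fun g _ => Subgroup.mem_top g)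
  rw [hcardH] at hA
  rw [Subgroup.card_top, card_Co0] at hB
  generalize hm : Nat.card (MulAction.stabilizer Co0 t2 ⊓ MulAction.stabilizer Co0 x1 ⊓
    MulAction.stabilizer Co0 (pp (gpt 0) (gpt 1)) : Subgroup Co0) = m at hA hB
  have hm1 : m = 10321920 := by
    have l1 := (bd1 A1 a1).1
    have l2 := (bd2 A2 a2).1
    have l3 := (bd3 A3 a3).1
    have u1 := (bd1 B1 b1).2
    have u2 := (bd2 B2 b2).2
    have u3 := (bd3 B3 b3).2
    apply le_antisymm
    · have : 1104 * (88 * (1 * m)) ≤ 4096 * 244823040 := by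
        rw [hA]
        exact Nat.mul_le_mul l1 (Nat.mul_le_mul l2 (Nat.mul_le_mul l3 le_rfl))
      omega
    · have : 8315553613086720000 ≤ 196560 * (4600 * (891 * m)) := by
        rw [hB]
        exact Nat.mul_le_mul u1 (Nat.mul_le_mul u2 (Nat.mul_le_mul u3 le_rfl))
      omega
  constructor
  · intro h
    rw [h, Subgroup.card_top, card_Co0] at hcardH
    norm_num at hcardH
  · intro K hK
    have hK' : ∀ g, IsMono g → g ∈ K := fun g hg => hK.le (hH' g hg)
    obtain ⟨C1, C2, C3, c1, c2, c3, hC⟩ := ord_form K hK'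
    rw [hm, hm1] at hC
    have hd1 : Nat.card H ∣ Nat.card K := Subgroup.card_dvd_of_le hK.le
    have hd2 : Nat.card K ∣ Nat.card Co0 := Subgroup.card_subgroup_dvd_card K
    set P := (∑ i ∈ C1, ![1104, 97152, 98304] i) * ((∑ i ∈ C2, ![88, 2464, 2048] i) *
      (∑ i ∈ C3, ![1, 42, 336, 512] i)) with hP
    have hC' : Nat.card K = P * 10321920 := by
      rw [hC, hP]; ring
    have e1 : 97152 ∣ P := by
      rw [hC', hcardH, show 4096 * 244823040 = 97152 * 10321920 by norm_num] at hd1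
      exact Nat.dvd_of_mul_dvd_mul_right (by norm_num) hd1
    have e2 : P ∣ 805620816000 := by
      rw [hC', card_Co0, show 8315553613086720000 = 805620816000 * 10321920 by norm_num] at hd2
      exact Nat.dvd_of_mul_dvd_mul_right (by norm_num) hd2
    rcases arith_all C1 C2 C3 c1 c2 c3 e1 e2 with h | h
    · exfalso
      have h2 : Nat.card H = Nat.card K := by
        rw [hC', hcardH, hP, h]
      exact hK.ne (Subgroup.eq_of_le_of_card_ge hK.le h2.ge)
    · apply Subgroup.eq_top_of_card_eq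
      rw [hC', hP, h, card_Co0]

end Cfsg.Agent.S1572
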