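import Cfsg.Statements.S1576
import Cfsg.Agent.H29.CoPairs

set_option autoImplicit false
open Cfsg

namespace Cfsg.Agent.S1576

open Cfsg.Agent.H29 Cfsg.Agent.H7

/-- The stabiliser of a minimal vector is transitive on the pairs of opposite minimal vectors orthogonal to it. -/
theorem result (v w w' : ↥Cfsg.leechLattice) (hv : Cfsg.sqNorm (v : Cfsg.GolayPt → ℤ) = 32) (hw : Cfsg.sqNorm (w : Cfsg.GolayPt → ℤ) = 32) (hw' : Cfsg.sqNorm (w' : Cfsg.GolayPt → ℤ) = 32) (hd : Cfsg.dotInt (v : Cfsg.GolayPt → ℤ) (w : Cfsg.GolayPt → ℤ) = 0) (hd' : Cfsg.dotInt (v : Cfsg.GolayPt → ℤ) (w' : Cfsg.GolayPt → ℤ) = 0) : ∃ g : ↥Cfsg.Co0, g • v = v ∧ (g • w = w' ∨ g • w = -w') := by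
  have h1 := bL_self v
  have h2 := bL_self w
  have h3 := bL_self w'
  have h4 := bL_mul v w
  have h5 := bL_mul v w'
  obtain ⟨g, hg1, hg2⟩ := orth_pair v w (by omega) (by omega) (by omega)
  obtain ⟨k, hk1, hk2⟩ := orth_pair v w' (by omega) (by omega) (by omega)
  refine ⟨k⁻¹ * g, ?_, Or.inl ?_⟩
  · rw [mul_smul, hg1, ← hk1, inv_smul_smul]
  · rw [mul_smul, hg2, ← hk2, inv_smul_smul]

end Cfsg.Agent.S1576
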