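import Cfsg.Statements.S1579
import Cfsg.Agent.S1578

set_option autoImplicit false
open Cfsg

namespace Cfsg.Agent.S1579

open Cfsg.Agent.H7 Cfsg.Agent.H29

theorem std {u v : leechLattice} (hu : bL u u = 6) (hv : bL v v = 4 ∧ bL v u = 3) : ∃ g : Co0, g • u = t3 ∧ g • v = t2 := by
  obtain ⟨g, h1, h2⟩ := mcl_pair v (u - v) hv.1
    (by rw [bL_sub, bL_sub_right, bL_sub_right, hu, hv.1, bL_comm u v, hv.2]; norm_num)
    (by rw [bL_sub_right, hv.1, hv.2]; norm_num)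
  rw [add_sub_cancel] at h2
  exact ⟨g, h2, h1⟩

/-- The stabiliser of a vector of customary norm 6 is transitive on the 552 minimal vectors that complete it to a sum of two minimal vectors. -/
theorem result (u v v' : ↥Cfsg.leechLattice) (hu : Cfsg.sqNorm (u : Cfsg.GolayPt → ℤ) = 48) (hv : Cfsg.sqNorm (v : Cfsg.GolayPt → ℤ) = 32 ∧ Cfsg.sqNorm ((u - v) : Cfsg.GolayPt → ℤ) = 32) (hv' : Cfsg.sqNorm (v' : Cfsg.GolayPt → ℤ) = 32 ∧ Cfsg.sqNorm ((u - v') : Cfsg.GolayPt → ℤ) = 32) : ∃ g : ↥Cfsg.Co0, g • u = u ∧ g • v = v' := by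
  have hu' := sq48.1 hu
  exact tr_of_std (std hu' ((S1578.cond hu').1 hv)) (std hu' ((S1578.cond hu').1 hv'))

end Cfsg.Agent.S1579
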