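import Cfsg.Statements.S1580
import Cfsg.Agent.S1579
import Cfsg.Agent.H29.McLConf2

set_option autoImplicit false
open Cfsg

namespace Cfsg.Agent.S1580

open Cfsg.Agent.H29 Cfsg.Agent.H7

theorem dot16 {v w : leechLattice} : dotInt (v : GolayPt → ℤ) (w : GolayPt → ℤ) = 16 ↔ bL v w = 2 := by
  have := bL_mul v w
  constructor <;> intro h <;> omega

theorem cond {u v x : leechLattice} (hu : bL u u = 6) : (sqNorm (x : GolayPt → ℤ) = 32 ∧
    sqNorm ((u : GolayPt → ℤ) - (x : GolayPt → ℤ)) = 32 ∧ dotInt (v : GolayPt → ℤ) (x : GolayPt → ℤ) = 16) ↔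
      ((bL x x = 4 ∧ bL x u = 3) ∧ bL v x = 2) := by
  rw [← and_assoc, S1578.cond hu, dot16]

theorem std {u v : leechLattice} (hu : bL u u = 6) (hv : bL v v = 4 ∧ bL v u = 3) :
    ∃ g : Co0, g • (u, v) = (t3, t2) := by
  obtain ⟨g, h1, h2⟩ := S1579.std hu hv
  exact ⟨g, Prod.ext h1 h2⟩

theorem std3 {u v x : leechLattice} (hu : bL u u = 6) (hv : bL v v = 4 ∧ bL v u = 3)
    (hx : (bL x x = 4 ∧ bL x u = 3) ∧ bL v x = 2) : ∃ g : Co0, g • (u, v) = (t3, t2) ∧ g • x = x1 := by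
  obtain ⟨g, h1, h2⟩ := S1579.std hu hv
  have hx' : g • x ∈ X275 := by
    refine ⟨⟨by rw [co0_bL]; exact hx.1.1, ?_⟩, ?_⟩
    · rw [← h1, co0_bL]; exact hx.1.2
    · rw [← h2, co0_bL]; exact hx.2
  obtain ⟨k, k1, k2, k3⟩ := to_x1 hx'
  refine ⟨k * g, Prod.ext ?_ ?_, by rw [mul_smul]; exact k3⟩
  · show (k * g) • u = t3
    rw [mul_smul, h1, k1]
  · show (k * g) • v = t2
    rw [mul_smul, h2, k2]

/-- The McLaughlin configuration: for u of customary norm 6 and v minimal with u − v minimal, there are 275 further such summands x of customary inner product 2 with v, permuted transitively by the stabiliser of u and v. -/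
theorem result (u v : ↥Cfsg.leechLattice) (hu : Cfsg.sqNorm (u : Cfsg.GolayPt → ℤ) = 48) (hv : Cfsg.sqNorm (v : Cfsg.GolayPt → ℤ) = 32 ∧ Cfsg.sqNorm ((u - v) : Cfsg.GolayPt → ℤ) = 32) : {x : ↥Cfsg.leechLattice | Cfsg.sqNorm (x : Cfsg.GolayPt → ℤ) = 32 ∧ Cfsg.sqNorm ((u - x) : Cfsg.GolayPt → ℤ) = 32 ∧ Cfsg.dotInt (v : Cfsg.GolayPt → ℤ) (x : Cfsg.GolayPt → ℤ) = 16}.ncard = 275 ∧ ∀ x ∈ {x : ↥Cfsg.leechLattice | Cfsg.sqNorm (x : Cfsg.GolayPt → ℤ) = 32 ∧ Cfsg.sqNorm ((u - x) : Cfsg.GolayPt → ℤ) = 32 ∧ Cfsg.dotInt (v : Cfsg.GolayPt → ℤ) (x : Cfsg.GolayPt → ℤ) = 16}, ∀ x' ∈ {x : ↥Cfsg.leechLattice | Cfsg.sqNorm (x : Cfsg.GolayPt → ℤ) = 32 ∧ Cfsg.sqNorm ((u - x) : Cfsg.GolayPt → ℤ) = 32 ∧ Cfsg.dotInt (v : Cfsg.GolayPt → ℤ) (x : Cfsg.GolayPt → ℤ) = 16}, ∃ g : ↥Cfsg.Co0, g • u = u ∧ g • v = v ∧ g • x = x' := by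
  have hu' := sq48.1 hu
  have hv' := (S1578.cond hu').1 hv
  constructor
  · rw [← ncardG (G := Co0) (a0 := ((t3, t2) : leechLattice × leechLattice)) (a := (u, v)) (fun (a : leechLattice × leechLattice) x => (bL x x = 4 ∧ bL x a.1 = 3) ∧ bL a.2 x = 2)
      (fun g a x h => ⟨⟨by rw [co0_bL]; exact h.1.1, by
        show bL (g • x) (g • a.1) = 3
        rw [co0_bL]; exact h.1.2⟩, by
        show bL (g • a.2) (g • x) = 2
        rw [co0_bL]; exact h.2⟩) X275_ncard (std hu' hv')]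
    congr 1
    ext x
    exact cond hu'
  · intro x hx x' hx'
    obtain ⟨g, h1, h2⟩ := tr_of_std (std3 hu' hv' ((cond hu').1 hx)) (std3 hu' hv' ((cond hu').1 hx'))
    have h3 : (g • u, g • v) = (u, v) := h1
    obtain ⟨h4, h5⟩ := Prod.mk.inj h3
    exact ⟨g, h4, h5, h2⟩

end Cfsg.Agent.S1580
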