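import Cfsg.Statements.S1581
import Cfsg.Agent.S1580

set_option autoImplicit false
open Cfsg

namespace Cfsg.Agent.S1581

open Cfsg.Agent.H29 Cfsg.Agent.H7

theorem dot8 {v w : leechLattice} : dotInt (v : GolayPt → ℤ) (w : GolayPt → ℤ) = 8 ↔ bL v w = 1 := by
  have := bL_mul v w
  constructor <;> intro h <;> omega

/-- the configuration condition -/
def PP (a : leechLattice × leechLattice × leechLattice) (y : leechLattice) : Prop :=
  (bL y y = 4 ∧ bL y a.1 = 3) ∧ bL a.2.1 y = 2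

theorem PP_inv (g : Co0) (a : leechLattice × leechLattice × leechLattice) (x : leechLattice) (h : PP a x) :
    PP (g • a) (g • x) :=
  ⟨⟨by rw [co0_bL]; exact h.1.1, by
        show bL (g • x) (g • a.1) = 3
        rw [co0_bL]; exact h.1.2⟩, by
        show bL (g • a.2.1) (g • x) = 2
        rw [co0_bL]; exact h.2⟩

theorem PP_std {y : leechLattice} : PP (t3, t2, x1) y ↔ y ∈ X275 := Iff.rfl

theorem std {u v x : leechLattice} (hu : bL u u = 6) (hv : bL v v = 4 ∧ bL v u = 3)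
    (hx : (bL x x = 4 ∧ bL x u = 3) ∧ bL v x = 2) : ∃ g : Co0, g • (u, v, x) = (t3, t2, x1) := by
  obtain ⟨g, h1, h2⟩ := S1580.std3 hu hv hx
  have h3 : (g • u, g • v) = (t3, t2) := h1
  obtain ⟨h4, h5⟩ := Prod.mk.inj h3
  exact ⟨g, Prod.ext h4 (Prod.ext h5 h2)⟩

theorem tr2 {a : leechLattice × leechLattice × leechLattice} (ha : ∃ g : Co0, g • a = (t3, t2, x1))
    {y : leechLattice} (hy : PP a y) (hne : y ≠ a.2.2) (h2 : bL a.2.2 y = 2) :
    ∃ g : Co0, g • a = (t3, t2, x1) ∧ g • y = pp (gpt 23) (gpt 2) := by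
  obtain ⟨g, hg⟩ := ha
  have h1 : g • y ∈ X275 := by
    have := PP_inv g a y hy
    rwa [hg] at this
  have hx : g • a.2.2 = x1 := congrArg (fun z => z.2.2) hg
  obtain ⟨k, k1, k2⟩ := to_x1x2 h1 (by rw [← hx]; exact fun h => hne (smul_left_cancel g h))
    (by rw [← hx, co0_bL]; exact h2)
  exact ⟨k * g, by rw [mul_smul, hg, k1], by rw [mul_smul, k2]⟩

theorem tr1 {a : leechLattice × leechLattice × leechLattice} (ha : ∃ g : Co0, g • a = (t3, t2, x1))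
    {y : leechLattice} (hy : PP a y) (h2 : bL a.2.2 y = 1) :
    ∃ g : Co0, g • a = (t3, t2, x1) ∧ g • y = twoV (toSet 13062145) oS_oct.1 := by
  obtain ⟨g, hg⟩ := ha
  have h1 : g • y ∈ X275 := by
    have := PP_inv g a y hy
    rwa [hg] at this
  have hx : g • a.2.2 = x1 := congrArg (fun z => z.2.2) hg
  obtain ⟨k, k1, k2⟩ := to_std1 h1 (by rw [← hx, co0_bL]; exact h2)
  exact ⟨k * g, by rw [mul_smul, hg, k1], by rw [mul_smul, k2]⟩

theorem inner_cases {a : leechLattice × leechLattice × leechLattice} (ha : ∃ g : Co0, g • a = (t3, t2, x1))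
    {y : leechLattice} (hy : PP a y) (hne : y ≠ a.2.2) : bL a.2.2 y = 1 ∨ bL a.2.2 y = 2 := by
  obtain ⟨g, hg⟩ := ha
  have h1 : g • y ∈ X275 := by
    have := PP_inv g a y hy
    rwa [hg] at this
  have hx : g • a.2.2 = x1 := congrArg (fun z => z.2.2) hg
  have := X275_cases h1 (by rw [← hx]; exact fun h => hne (smul_left_cancel g h))
  rwa [← hx, co0_bL] at this

/-- The McLaughlin group acts with rank 3 and subdegrees 1, 112, 162 on its 275 points: the point stabiliser has two orbits on the remaining points, distinguished by customary inner product 1 or 2 with the fixed point. -/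
theorem result (u v x : ↥Cfsg.leechLattice) (hu : Cfsg.sqNorm (u : Cfsg.GolayPt → ℤ) = 48) (hv : Cfsg.sqNorm (v : Cfsg.GolayPt → ℤ) = 32 ∧ Cfsg.sqNorm ((u - v) : Cfsg.GolayPt → ℤ) = 32) (hx : x ∈ {x : ↥Cfsg.leechLattice | Cfsg.sqNorm (x : Cfsg.GolayPt → ℤ) = 32 ∧ Cfsg.sqNorm ((u - x) : Cfsg.GolayPt → ℤ) = 32 ∧ Cfsg.dotInt (v : Cfsg.GolayPt → ℤ) (x : Cfsg.GolayPt → ℤ) = 16}) : {y : ↥Cfsg.leechLattice | y ∈ {x : ↥Cfsg.leechLattice | Cfsg.sqNorm (x : Cfsg.GolayPt → ℤ) = 32 ∧ Cfsg.sqNorm ((u - x) : Cfsg.GolayPt → ℤ) = 32 ∧ Cfsg.dotInt (v : Cfsg.GolayPt → ℤ) (x : Cfsg.GolayPt → ℤ) = 16} ∧ Cfsg.dotInt (x : Cfsg.GolayPt → ℤ) (y : Cfsg.GolayPt → ℤ) = 8}.ncard = 112 ∧ {y : ↥Cfsg.leechLattice | y ∈ {x : ↥Cfsg.leechLattice | Cfsg.sqNorm (x : Cfsg.GolayPt → ℤ) = 32 ∧ Cfsg.sqNorm ((u - x) : Cfsg.GolayPt → ℤ) = 32 ∧ Cfsg.dotInt (v : Cfsg.GolayPt → ℤ) (x : Cfsg.GolayPt → ℤ) = 16} ∧ y ≠ x ∧ Cfsg.dotInt (x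 : Cfsg.GolayPt → ℤ) (y : Cfsg.GolayPt → ℤ) = 16}.ncard = 162 ∧ ∀ y ∈ {x : ↥Cfsg.leechLattice | Cfsg.sqNorm (x : Cfsg.GolayPt → ℤ) = 32 ∧ Cfsg.sqNorm ((u - x) : Cfsg.GolayPt → ℤ) = 32 ∧ Cfsg.dotInt (v : Cfsg.GolayPt → ℤ) (x : Cfsg.GolayPt → ℤ) = 16}, ∀ y' ∈ {x : ↥Cfsg.leechLattice | Cfsg.sqNorm (x : Cfsg.GolayPt → ℤ) = 32 ∧ Cfsg.sqNorm ((u - x) : Cfsg.GolayPt → ℤ) = 32 ∧ Cfsg.dotInt (v : Cfsg.GolayPt → ℤ) (x : Cfsg.GolayPt → ℤ) = 16}, y ≠ x → y' ≠ x → Cfsg.dotInt (x : Cfsg.GolayPt → ℤ) (y : Cfsg.GolayPt → ℤ) = Cfsg.dotInt (x : Cfsg.GolayPt → ℤ) (y' : Cfsg.GolayPt → ℤ) → ∃ g : ↥Cfsg.Co0, g • u = u ∧ g • v = v ∧ g • x = x ∧ g • y = y' := by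
  have hu' := sq48.1 hu
  have hv' := (S1578.cond hu').1 hv
  have hx' := (S1580.cond hu').1 hx
  have hs := std hu' hv' hx'
  refine ⟨?_, ?_, ?_⟩
  · rw [← ncardG (G := Co0) (a0 := ((t3, t2, x1) : leechLattice × leechLattice × leechLattice)) (a := (u, v, x)) (fun (a : leechLattice × leechLattice × leechLattice) y => PP a y ∧ bL a.2.2 y = 1)
      (fun g a y h => ⟨PP_inv g a y h.1, by
        show bL (g • a.2.2) (g • y) = 1
        rw [co0_bL]; exact h.2⟩) Y112 hs]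
    congr 1
    ext y
    exact and_congr (S1580.cond hu') dot8
  · rw [← ncardG (G := Co0) (a0 := ((t3, t2, x1) : leechLattice × leechLattice × leechLattice)) (a := (u, v, x)) (fun (a : leechLattice × leechLattice × leechLattice) y => PP a y ∧ y ≠ a.2.2 ∧ bL a.2.2 y = 2)
      (fun g a y h => ⟨PP_inv g a y h.1, fun e => h.2.1 (smul_left_cancel g e), by
        show bL (g • a.2.2) (g • y) = 2
        rw [co0_bL]; exact h.2.2⟩) Y162 hs]
    congr 1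
    ext y
    exact and_congr (S1580.cond hu') (and_congr Iff.rfl S1580.dot16)
  · intro y hy y' hy' hne hne' hd
    have p := (S1580.cond hu').1 hy
    have p' := (S1580.cond hu').1 hy'
    have e : bL x y = bL x y' := by
      have e1 := bL_mul x y
      have e2 := bL_mul x y'
      rw [hd] at e1
      omega
    have hfin : ∀ {z : leechLattice}, (∃ g : Co0, g • (u, v, x) = (t3, t2, x1) ∧ g • y = z) →
        (∃ g : Co0, g • (u, v, x) = (t3, t2, x1) ∧ g • y' = z) →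
        ∃ g : Co0, g • u = u ∧ g • v = v ∧ g • x = x ∧ g • y = y' := by
      intro z h1 h2
      obtain ⟨g, h3, h4⟩ := tr_of_std h1 h2
      have h5 : (g • u, g • v, g • x) = (u, v, x) := h3
      obtain ⟨h6, h7⟩ := Prod.mk.inj h5
      obtain ⟨h8, h9⟩ := Prod.mk.inj h7
      exact ⟨g, h6, h8, h9, h4⟩
    rcases inner_cases hs p hne with h | h
    · exact hfin (tr1 hs p h) (tr1 hs p' (e ▸ h))
    · exact hfin (tr2 hs p hne h) (tr2 hs p' hne' (e ▸ h))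

end Cfsg.Agent.S1581
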