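import Cfsg.Statements.S1583
import Cfsg.Agent.H29.CoTrans
import Cfsg.Agent.H7.Conway10

set_option autoImplicit false
open Cfsg

namespace Cfsg.Agent.S1583

open Cfsg.Agent.H7 Cfsg.Agent.H29

/-- the conditions on the third vector -/
def Cd (v w x : leechLattice) : Prop := bL x x = 4 ∧ bL v x = 3 ∧ bL w x = -3

theorem cd_iff {v w x : leechLattice} : (sqNorm (x : GolayPt → ℤ) = 32 ∧
    dotInt (v : GolayPt → ℤ) (x : GolayPt → ℤ) = 24 ∧ dotInt (w : GolayPt → ℤ) (x : GolayPt → ℤ) = -24) ↔ Cd v w x := by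
  unfold Cd
  rw [sq32, show (24 : ℤ) = 8 * 3 by norm_num, show (-(8 * 3) : ℤ) = 8 * (-3) by norm_num, dot_iff, dot_iff]

theorem std {v w x : leechLattice} (hv : bL v v = 6) (hw : bL w w = 6) (hvw : bL v w = -4) (hx : Cd v w x) :
    ∃ g : Co0, g • (v, w) = (t3, a0 - t3) ∧ g • x = t2 := by
  have ha : bL (v + w) (v + w) = 4 := by
    rw [bL_add, bL_add_right, bL_add_right, hv, hw, bL_comm w v, hvw]; norm_num
  obtain ⟨g, h1, h2, h3⟩ := hs_frame (v + w) v x ha hv hx.1 (by rw [bL_add, hv, bL_comm w v, hvw]; norm_num)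
    (by rw [bL_add, hx.2.1, hx.2.2]; norm_num) (by rw [bL_comm, hx.2.1])
  refine ⟨g, Prod.ext h2 ?_, h3⟩
  show g • w = a0 - t3
  rw [← h1, ← h2, co0_add]; abel

theorem std2 {v w : leechLattice} (hv : bL v v = 6) (hw : bL w w = 6) (hvw : bL v w = -4) :
    ∃ g : Co0, g • (v, w) = (t3, a0 - t3) := by
  have ha : bL (v + w) (v + w) = 4 := by
    rw [bL_add, bL_add_right, bL_add_right, hv, hw, bL_comm w v, hvw]; norm_num
  obtain ⟨g, h1, h2⟩ := hs_pair (v + w) v ha hv (by rw [bL_add, hv, bL_comm w v, hvw]; norm_num)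
  refine ⟨g, Prod.ext h2 ?_⟩
  show g • w = a0 - t3
  rw [← h1, ← h2, co0_add]; abel

theorem Cd_std {x : leechLattice} : Cd t3 (a0 - t3) x ↔ x ∈ V100 := by
  unfold Cd V100
  rw [Set.mem_ofPred_eq, bL_sub, bL_comm t3 x]
  constructor
  · rintro ⟨h1, h2, h3⟩; exact ⟨h1, h2, by omega⟩
  · rintro ⟨h1, h2, h3⟩; exact ⟨h1, h2, by omega⟩

theorem cnt {v w : leechLattice} (hv : bL v v = 6) (hw : bL w w = 6) (hvw : bL v w = -4) :
    {x | Cd v w x}.ncard = 100 := by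
  have h0 : {x | Cd t3 (a0 - t3) x}.ncard = 100 := by
    rw [← V100_ncard]
    congr 1
    ext x
    exact Cd_std
  have hP : ∀ g : Co0, ∀ (a : leechLattice × leechLattice) (x : leechLattice), Cd a.1 a.2 x →
      Cd (g • a).1 (g • a).2 (g • x) := by
    intro g a x h
    refine ⟨by rw [co0_bL]; exact h.1, ?_⟩
    show bL (g • a.1) (g • x) = 3 ∧ bL (g • a.2) (g • x) = -3
    rw [co0_bL, co0_bL]; exact h.2
  exact ncardG (G := Co0) (fun (a : leechLattice × leechLattice) x => Cd a.1 a.2 x) hP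
    (a0 := (t3, a0 - t3)) (a := (v, w)) h0 (std2 hv hw hvw)

/-- The Higman–Sims configuration: for two vectors of customary norm 6 with inner product −4, exactly 100 minimal vectors have customary inner products 3 and −3 with them, and the joint stabiliser permutes these transitively. -/
theorem result (v w : ↥Cfsg.leechLattice) (hv : Cfsg.sqNorm (v : Cfsg.GolayPt → ℤ) = 48) (hw : Cfsg.sqNorm (w : Cfsg.GolayPt → ℤ) = 48) (hvw : Cfsg.dotInt (v : Cfsg.GolayPt → ℤ) (w : Cfsg.GolayPt → ℤ) = -32) : {x : ↥Cfsg.leechLattice | Cfsg.sqNorm (x : Cfsg.GolayPt → ℤ) = 32 ∧ Cfsg.dotInt (v : Cfsg.GolayPt → ℤ) (x : Cfsg.GolayPt → ℤ) = 24 ∧ Cfsg.dotInt (w : Cfsg.GolayPt → ℤ) (x : Cfsg.GolayPt → ℤ) = -24}.ncard = 100 ∧ ∀ x ∈ {x : ↥Cfsg.leechLattice | Cfsg.sqNorm (x : Cfsg.GolayPt → ℤ) = 32 ∧ Cfsg.dotInt (v : Cfsg.GolayPt → ℤ) (x : Cfsg.GolayPt → ℤ) = 24 ∧ Cfsg.dotInt (w : Cfsg.GolayPt → ℤ) (x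 : Cfsg.GolayPt → ℤ) = -24}, ∀ x' ∈ {x : ↥Cfsg.leechLattice | Cfsg.sqNorm (x : Cfsg.GolayPt → ℤ) = 32 ∧ Cfsg.dotInt (v : Cfsg.GolayPt → ℤ) (x : Cfsg.GolayPt → ℤ) = 24 ∧ Cfsg.dotInt (w : Cfsg.GolayPt → ℤ) (x : Cfsg.GolayPt → ℤ) = -24}, ∃ g : ↥Cfsg.Co0, g • v = v ∧ g • w = w ∧ g • x = x' := by
  have hv' := sq48.1 hv
  have hw' := sq48.1 hw
  have hvw' : bL v w = -4 := dot_iff.1 (by rw [hvw]; norm_num)
  refine ⟨?_, ?_⟩
  · rw [← cnt hv' hw' hvw']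
    congr 1
    ext x
    exact cd_iff
  · intro x hx x' hx'
    obtain ⟨g, h1, h2⟩ := tr_of_std (std hv' hw' hvw' (cd_iff.1 hx)) (std hv' hw' hvw' (cd_iff.1 hx'))
    exact ⟨g, congrArg Prod.fst h1, congrArg Prod.snd h1, h2⟩

end Cfsg.Agent.S1583
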