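import Cfsg.Statements.S1584
import Cfsg.Agent.H29.HSConf
import Cfsg.Agent.H29.Trans2
import Cfsg.Agent.S1583

set_option autoImplicit false
open Cfsg

namespace Cfsg.Agent.S1584

open Cfsg.Agent.H7 Cfsg.Agent.H29
open S1583 (Cd cd_iff Cd_std)
open scoped Pointwise

abbrev L3 := leechLattice × leechLattice × leechLattice

def b0 : L3 := (t3, a0 - t3, t2)

def P1 (a : L3) (y : leechLattice) : Prop := Cd a.1 a.2.1 y ∧ bL a.2.2 y = 1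
def P2 (a : L3) (y : leechLattice) : Prop := Cd a.1 a.2.1 y ∧ y ≠ a.2.2 ∧ bL a.2.2 y ≠ 1

theorem Cd_smul (g : Co0) {v w x : leechLattice} (h : Cd v w x) : Cd (g • v) (g • w) (g • x) := by
  unfold Cd
  rw [co0_bL, co0_bL, co0_bL]; exact h

theorem P1_smul (g : Co0) (a : L3) (x : leechLattice) (h : P1 a x) : P1 (g • a) (g • x) :=
  ⟨Cd_smul g h.1, by
    show bL (g • a.2.2) (g • x) = 1
    rw [co0_bL]; exact h.2⟩

theorem P2_smul (g : Co0) (a : L3) (x : leechLattice) (h : P2 a x) : P2 (g • a) (g • x) :=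
  ⟨Cd_smul g h.1, fun h' => h.2.1 (MulAction.injective g h'), by
    show bL (g • a.2.2) (g • x) ≠ 1
    rw [co0_bL]; exact h.2.2⟩

theorem fix_b0 {σ : Equiv.Perm GolayPt} (hσ : σ ∈ M24) (h1 : σ (gpt 23) = gpt 23) (h2 : σ (gpt 0) = gpt 0) :
    pmEl σ hσ • b0 = b0 := by
  obtain ⟨e1, e2, e3⟩ := pm_std hσ h1 h2
  refine Prod.ext e1 (Prod.ext ?_ e2)
  show pmEl σ hσ • (a0 - t3) = a0 - t3
  rw [co0_sub, e1, e3]

theorem tr1 (x y : leechLattice) (hx : P1 b0 x) (hy : P1 b0 y) : ∃ g : Co0, g • b0 = b0 ∧ g • x = y := by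
  rcases V100_cases (Cd_std.1 hx.1) with h | ⟨o, ho, a, b, c, d⟩ | ⟨j, a, b, c, d⟩
  · have := hx.2; rw [h] at this; exact absurd (bL_t2_t2.symm.trans this) (by norm_num)
  · exact absurd (d.symm.trans hx.2) (by norm_num)
  rcases V100_cases (Cd_std.1 hy.1) with h | ⟨o, ho, a', b', c', d'⟩ | ⟨j', a', b', c', d'⟩
  · have := hy.2; rw [h] at this; exact absurd (bL_t2_t2.symm.trans this) (by norm_num)
  · exact absurd (d'.symm.trans hy.2) (by norm_num)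
  obtain ⟨σ, hσ, h1, h2, h3⟩ := M24_to_triple a b
  obtain ⟨τ, hτ, k1, k2, k3⟩ := M24_to_triple a' b'
  refine tr_of_std (x0 := oddV ∅ GC_empty (gpt 1)) ⟨pmEl σ hσ, fix_b0 hσ h1 h2, ?_⟩ ⟨pmEl τ hτ, fix_b0 hτ k1 k2, ?_⟩
  · rw [c, pm_oddV, h3]
  · rw [c', pm_oddV, k3]

theorem tr2 (x y : leechLattice) (hx : P2 b0 x) (hy : P2 b0 y) : ∃ g : Co0, g • b0 = b0 ∧ g • x = y := by
  rcases V100_cases (Cd_std.1 hx.1) with h | ⟨o, ho, a, b, c, d⟩ | ⟨j, a, b, c, d⟩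
  · exact absurd h hx.2.1
  swap
  · exact absurd d hx.2.2
  rcases V100_cases (Cd_std.1 hy.1) with h | ⟨o', ho', a', b', c', d'⟩ | ⟨j', a', b', c', d'⟩
  · exact absurd h hy.2.1
  swap
  · exact absurd d' hy.2.2
  obtain ⟨σ, hσ, h⟩ := std_oii ho g23_ne_g0 a b
  obtain ⟨τ, hτ, k⟩ := std_oii ho' g23_ne_g0 a' b'
  have h1 : σ (gpt 23) = gpt 23 := congrArg Prod.fst h
  have h2 : σ (gpt 0) = gpt 0 := congrArg (fun x => x.2.1) h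
  have h3 : σ • toSet oct0 = o := congrArg (fun x => x.2.2) h
  have k1 : τ (gpt 23) = gpt 23 := congrArg Prod.fst k
  have k2 : τ (gpt 0) = gpt 0 := congrArg (fun x => x.2.1) k
  have k3 : τ • toSet oct0 = o' := congrArg (fun x => x.2.2) k
  refine ⟨pmEl τ hτ * (pmEl σ hσ)⁻¹, ?_, ?_⟩
  · rw [mul_smul, inv_smul_eq_iff.2 (fix_b0 hσ h1 h2).symm, fix_b0 hτ k1 k2]
  · have e1 : pmEl σ hσ • twoV (toSet oct0) oct0_octad = x := by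
      rw [pm_twoV, c]; exact Subtype.ext (by show (2:ℤ) • ind _ = (2:ℤ) • ind _; rw [h3])
    have e2 : pmEl τ hτ • twoV (toSet oct0) oct0_octad = y := by
      rw [pm_twoV, c']; exact Subtype.ext (by show (2:ℤ) • ind _ = (2:ℤ) • ind _; rw [k3])
    rw [mul_smul, ← e1, inv_smul_smul, e2]

/-- The Higman–Sims group acts with rank 3 and subdegrees 1, 22, 77 on its 100 points, the orbits of a point stabiliser being distinguished by customary inner product 1 with the fixed point. -/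
theorem result (v w x : ↥Cfsg.leechLattice) (hv : Cfsg.sqNorm (v : Cfsg.GolayPt → ℤ) = 48) (hw : Cfsg.sqNorm (w : Cfsg.GolayPt → ℤ) = 48) (hvw : Cfsg.dotInt (v : Cfsg.GolayPt → ℤ) (w : Cfsg.GolayPt → ℤ) = -32) (hx : x ∈ {x : ↥Cfsg.leechLattice | Cfsg.sqNorm (x : Cfsg.GolayPt → ℤ) = 32 ∧ Cfsg.dotInt (v : Cfsg.GolayPt → ℤ) (x : Cfsg.GolayPt → ℤ) = 24 ∧ Cfsg.dotInt (w : Cfsg.GolayPt → ℤ) (x : Cfsg.GolayPt → ℤ) = -24}) : {y : ↥Cfsg.leechLattice | y ∈ {x : ↥Cfsg.leechLattice | Cfsg.sqNorm (x : Cfsg.GolayPt → ℤ) = 32 ∧ Cfsg.dotInt (v : Cfsg.GolayPt → ℤ) (x : Cfsg.GolayPt → ℤ) = 24 ∧ Cfsg.dotInt (w : Cfsg.GolayPt → ℤ) (x : Cfsg.GolayPt → ℤ) = -24} ∧ Cfsg.dotInt (x : Cfsg.GolayPt → ℤ) (y : Cfsg.GolayPt → ℤ) = 8}.ncard = 22 ∧ {y : ↥Cfsg.leechLattice | y ∈ {x : ↥Cfsg.leechLattice | Cfsg.sqNorm (x : Cfsg.GolayPt → ℤ) = 32 ∧ Cfsg.dotInt (v : Cfsg.GolayPt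 → ℤ) (x : Cfsg.GolayPt → ℤ) = 24 ∧ Cfsg.dotInt (w : Cfsg.GolayPt → ℤ) (x : Cfsg.GolayPt → ℤ) = -24} ∧ y ≠ x ∧ Cfsg.dotInt (x : Cfsg.GolayPt → ℤ) (y : Cfsg.GolayPt → ℤ) ≠ 8}.ncard = 77 ∧ ∀ y ∈ {x : ↥Cfsg.leechLattice | Cfsg.sqNorm (x : Cfsg.GolayPt → ℤ) = 32 ∧ Cfsg.dotInt (v : Cfsg.GolayPt → ℤ) (x : Cfsg.GolayPt → ℤ) = 24 ∧ Cfsg.dotInt (w : Cfsg.GolayPt → ℤ) (x : Cfsg.GolayPt → ℤ) = -24}, ∀ y' ∈ {x : ↥Cfsg.leechLattice | Cfsg.sqNorm (x : Cfsg.GolayPt → ℤ) = 32 ∧ Cfsg.dotInt (v : Cfsg.GolayPt → ℤ) (x : Cfsg.GolayPt → ℤ) = 24 ∧ Cfsg.dotInt (w : Cfsg.GolayPt → ℤ) (x : Cfsg.GolayPt → ℤ) = -24}, y ≠ x → y' ≠ x → (Cfsg.dotInt (x : Cfsg.GolayPt → ℤ) (y : Cfsg.GolayPt → ℤ) = 8 ↔ Cfsg.dotInt (x : Cfsg.GolayPt → ℤ) (y' : Cfsg.GolayPt → ℤ) = 8) → ∃ g : ↥Cfsg.Co0, g • v = v ∧ g • w = w ∧ g • x = x ∧ g • y = y' := by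
  have hv' := sq48.1 hv
  have hw' := sq48.1 hw
  have hvw' : bL v w = -4 := dot_iff.1 (by rw [hvw]; norm_num)
  have hx' := cd_iff.1 hx
  have hst : ∃ g : Co0, g • ((v, w, x) : L3) = b0 := by
    obtain ⟨g, h1, h2⟩ := S1583.std hv' hw' hvw' hx'
    have e1 : g • v = t3 := congrArg Prod.fst h1
    have e2 : g • w = a0 - t3 := congrArg Prod.snd h1
    exact ⟨g, Prod.ext e1 (Prod.ext e2 h2)⟩
  have hd : ∀ a b : leechLattice, (dotInt (a : GolayPt → ℤ) (b : GolayPt → ℤ) = 8 ↔ bL a b = 1) := fun a b =>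
    dot_iff (n := 1)
  have h01 : {y | P1 b0 y}.ncard = 22 := by
    rw [← V100_22]; congr 1; ext y; exact and_congr_left fun _ => Cd_std
  have h02 : {y | P2 b0 y}.ncard = 77 := by
    rw [← V100_77]; congr 1; ext y; exact and_congr_left fun _ => Cd_std
  refine ⟨?_, ?_, ?_⟩
  · refine Eq.trans ?_ (ncardG (G := Co0) P1 P1_smul h01 hst)
    congr 1
    ext y
    exact and_congr cd_iff (hd _ _)
  · refine Eq.trans ?_ (ncardG (G := Co0) P2 P2_smul h02 hst)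
    congr 1
    ext y
    exact and_congr cd_iff (and_congr Iff.rfl (not_congr (hd _ _)))
  · intro y hy y' hy' hne hne' h
    rw [hd, hd] at h
    by_cases h1 : bL x y = 1
    · obtain ⟨g, k1, k2⟩ := trG (G := Co0) P1 P1_smul tr1 hst y y' ⟨cd_iff.1 hy, h1⟩ ⟨cd_iff.1 hy', h.1 h1⟩
      exact ⟨g, congrArg Prod.fst k1, congrArg (fun z => z.2.1) k1, congrArg (fun z => z.2.2) k1, k2⟩
    · obtain ⟨g, k1, k2⟩ := trG (G := Co0) P2 P2_smul tr2 hst y y' ⟨cd_iff.1 hy, hne, h1⟩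
        ⟨cd_iff.1 hy', hne', fun h2 => h1 (h.2 h2)⟩
      exact ⟨g, congrArg Prod.fst k1, congrArg (fun z => z.2.1) k1, congrArg (fun z => z.2.2) k1, k2⟩

end Cfsg.Agent.S1584
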