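import Cfsg.Statements.S1585
import Cfsg.Agent.H29.CoTrans

set_option autoImplicit false
open Cfsg

namespace Cfsg.Agent.S1585

open Cfsg.Agent.H7 Cfsg.Agent.H29

/-- Two vectors of customary norm 6 with inner product −4 are exchanged by some automorphism of the lattice. -/
theorem result (v w : ↥Cfsg.leechLattice) (hv : Cfsg.sqNorm (v : Cfsg.GolayPt → ℤ) = 48) (hw : Cfsg.sqNorm (w : Cfsg.GolayPt → ℤ) = 48) (hvw : Cfsg.dotInt (v : Cfsg.GolayPt → ℤ) (w : Cfsg.GolayPt → ℤ) = -32) : ∃ g : ↥Cfsg.Co0, g • v = w ∧ g • w = v := by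
  have hv' := sq48.1 hv
  have hw' := sq48.1 hw
  have hvw' : bL v w = -4 := dot_iff.1 (by rw [hvw]; norm_num)
  have ha : bL (v + w) (v + w) = 4 := by
    rw [bL_add, bL_add_right, bL_add_right, hv', hw', bL_comm w v, hvw']; norm_num
  obtain ⟨g, h1, h2⟩ := hs_pair (v + w) v ha hv' (by rw [bL_add, hv', bL_comm w v, hvw']; norm_num)
  obtain ⟨k, h3, h4⟩ := hs_pair (v + w) w ha hw' (by rw [bL_add, hw', hvw']; norm_num)
  have e1 : (k⁻¹ * g) • v = w := by rw [mul_smul, h2, ← h4, inv_smul_smul]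
  have e2 : (k⁻¹ * g) • (v + w) = v + w := by rw [mul_smul, h1, ← h3, inv_smul_smul]
  refine ⟨k⁻¹ * g, e1, ?_⟩
  rw [co0_add, e1, add_comm v w] at e2
  exact add_left_cancel e2

end Cfsg.Agent.S1585
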