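import Cfsg.Statements.S1587


set_option autoImplicit false
open Matrix
open Cfsg

namespace Cfsg.Agent.S1587

theorem bil_add (B : Matrix (Fin 24) (Fin 24) ℤ) (x y z : Fin 24 → ℤ) :
    (x + y) ⬝ᵥ (B *ᵥ z) = x ⬝ᵥ (B *ᵥ z) + y ⬝ᵥ (B *ᵥ z) := add_dotProduct _ _ _

theorem bil_comm {B : Matrix (Fin 24) (Fin 24) ℤ} (hB : B.IsSymm) (x y : Fin 24 → ℤ) :
    x ⬝ᵥ (B *ᵥ y) = y ⬝ᵥ (B *ᵥ x) := by
  rw [Matrix.dotProduct_mulVec, dotProduct_comm, ← Matrix.mulVec_transpose, hB.eq]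

/-- First step of the characterisation of the rank-24 lattice: in an even lattice without roots, norm-8 vectors congruent modulo 2 are equal, opposite or orthogonal. -/
theorem result (B : Matrix (Fin 24) (Fin 24) ℤ) (hsymm : B.IsSymm) (hpos : ∀ x : Fin 24 → ℤ, x ≠ 0 → 0 < x ⬝ᵥ (B *ᵥ x)) (heven : ∀ x : Fin 24 → ℤ, (2 : ℤ) ∣ x ⬝ᵥ (B *ᵥ x)) (h2 : ∀ x : Fin 24 → ℤ, x ⬝ᵥ (B *ᵥ x) ≠ 2) (x y : Fin 24 → ℤ) (hx : x ⬝ᵥ (B *ᵥ x) = 8) (hy : y ⬝ᵥ (B *ᵥ y) = 8) (hc : ∀ i, (2 : ℤ) ∣ (x - y) i) : y = x ∨ y = -x ∨ x ⬝ᵥ (B *ᵥ y) = 0 := by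
  have hc' : ∃ z : Fin 24 → ℤ, x = y + (2 : ℤ) • z := by
    choose z hz using hc
    refine ⟨z, funext fun i => ?_⟩
    have := hz i
    simp only [Pi.sub_apply, Pi.add_apply, Pi.smul_apply, smul_eq_mul] at this ⊢
    linarith
  obtain ⟨z, rfl⟩ := hc'
  have e1 : (y + (2 : ℤ) • z) ⬝ᵥ (B *ᵥ (y + (2 : ℤ) • z)) = y ⬝ᵥ (B *ᵥ y) + 4 * (y ⬝ᵥ (B *ᵥ z)) + 4 * (z ⬝ᵥ (B *ᵥ z)) := by
    rw [Matrix.mulVec_add, Matrix.mulVec_smul, add_dotProduct, dotProduct_add, dotProduct_add, smul_dotProduct,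
      smul_dotProduct, dotProduct_smul, dotProduct_smul, bil_comm hsymm z y]
    simp only [smul_eq_mul]
    ring
  have e2 : (y + z) ⬝ᵥ (B *ᵥ (y + z)) = y ⬝ᵥ (B *ᵥ y) + 2 * (y ⬝ᵥ (B *ᵥ z)) + z ⬝ᵥ (B *ᵥ z) := by
    rw [Matrix.mulVec_add, add_dotProduct, dotProduct_add, dotProduct_add, bil_comm hsymm z y]
    ring
  have e3 : (y + (2 : ℤ) • z) ⬝ᵥ (B *ᵥ y) = y ⬝ᵥ (B *ᵥ y) + 2 * (y ⬝ᵥ (B *ᵥ z)) := by
    rw [add_dotProduct, smul_dotProduct, bil_comm hsymm z y, smul_eq_mul]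
  by_cases hz : z = 0
  · left; rw [hz, smul_zero, add_zero]
  by_cases hyz : y + z = 0
  · right; left
    have : z = -y := by rw [eq_neg_iff_add_eq_zero, add_comm]; exact hyz
    rw [this, smul_neg, two_smul]; abel
  · right; right
    rw [e3]
    rw [e1] at hx
    have h1 := hpos z hz
    have h2' := hpos _ hyz
    obtain ⟨a, ha⟩ := heven z
    obtain ⟨b, hb⟩ := heven (y + z)
    have h3 := h2 z
    have h4 := h2 (y + z)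
    rw [e2] at h2' h4 hb
    omega

end Cfsg.Agent.S1587
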