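import Cfsg.Statements.S1588
import Cfsg.Agent.H7.Conway

set_option autoImplicit false
open Matrix
open Cfsg

namespace Cfsg.Agent.S1588

open Cfsg.Agent.H7

theorem bil_add (B : Matrix (Fin 24) (Fin 24) ℤ) (x y z : Fin 24 → ℤ) :
    (x + y) ⬝ᵥ (B *ᵥ z) = x ⬝ᵥ (B *ᵥ z) + y ⬝ᵥ (B *ᵥ z) := add_dotProduct _ _ _

theorem bil_comm {B : Matrix (Fin 24) (Fin 24) ℤ} (hB : B.IsSymm) (x y : Fin 24 → ℤ) :
    x ⬝ᵥ (B *ᵥ y) = y ⬝ᵥ (B *ᵥ x) := by
  rw [Matrix.dotProduct_mulVec, dotProduct_comm, ← Matrix.mulVec_transpose, hB.eq]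

/-- a class of norm eight vectors has 48 members -/
theorem class48 {L : Type} [AddCommGroup L] {β : L → L → ℤ} (hL : LLat L β) {v : L} (hv : β v v = 8) :
    {y : L | β y y = 8 ∧ ∃ u, y - v = (2 : ℤ) • u}.ncard = 48 := by
  obtain ⟨f, hf, h1, h2⟩ := hL.exists_frame' v hv
  have hne : ∀ i j, f i ≠ - f j := by
    intro i j h
    by_cases hij : i = j
    · subst hij
      have := hf.norm i
      have h3 : β (f i) (f i) = - β (f i) (f i) := by
        conv_lhs => rw [h, hL.neg_left, hL.neg_right, neg_neg]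
        have : β (f i) (f i) = β (- f i) (f i) := by rw [← h]
        rw [hL.neg_left] at this
        omega
      omega
    · have h3 := hf.orth i j hij
      have h4 := hf.norm j
      rw [h, hL.neg_left] at h3
      omega
  have hinj : ∀ i j, f i = f j → i = j := by
    intro i j h
    by_contra hij
    have h3 := hf.orth i j hij
    have h4 := hf.norm j
    rw [h] at h3
    omega
  let F : GolayPt ⊕ GolayPt → L := Sum.elim f (fun i => - f i)
  have hF : Function.Injective F := by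
    rintro (i | i) (j | j) h
    · rw [hinj i j h]
    · exact absurd h (hne i j)
    · exact absurd h.symm (hne j i)
    · rw [hinj i j (neg_injective h)]
  have hset : {y : L | β y y = 8 ∧ ∃ u, y - v = (2 : ℤ) • u} = Set.range F := by
    ext y
    constructor
    · rintro ⟨h3, h4⟩
      obtain ⟨i, rfl | rfl⟩ := h1 y h3 h4
      · exact ⟨Sum.inl i, rfl⟩
      · exact ⟨Sum.inr i, rfl⟩
    · rintro ⟨i | i, rfl⟩
      · exact ⟨hf.norm i, h2 i⟩
      · refine ⟨?_, ?_⟩
        · show β (- f i) (- f i) = 8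
          rw [hL.neg_left, hL.neg_right, neg_neg, hf.norm]
        · obtain ⟨u, hu⟩ := h2 i
          refine ⟨u - f i, ?_⟩
          show - f i - v = (2 : ℤ) • (u - f i)
          rw [smul_sub, ← hu, two_smul]; abel
  rw [hset, Set.ncard_range_of_injective hF, Nat.card_sum, Nat.card_eq_fintype_card]
  rfl

/-- Second step of the characterisation: under the vector counts of the rank-24 lattice, the norm-8 vectors fall into congruence classes of exactly 48 modulo twice the lattice. -/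
theorem result (B : Matrix (Fin 24) (Fin 24) ℤ) (hsymm : B.IsSymm) (hpos : ∀ x : Fin 24 → ℤ, x ≠ 0 → 0 < x ⬝ᵥ (B *ᵥ x)) (heven : ∀ x : Fin 24 → ℤ, (2 : ℤ) ∣ x ⬝ᵥ (B *ᵥ x)) (h2 : ∀ x : Fin 24 → ℤ, x ⬝ᵥ (B *ᵥ x) ≠ 2) (h4 : {x : Fin 24 → ℤ | x ⬝ᵥ (B *ᵥ x) = 4}.ncard = 196560) (h6 : {x : Fin 24 → ℤ | x ⬝ᵥ (B *ᵥ x) = 6}.ncard = 16773120) (h8 : {x : Fin 24 → ℤ | x ⬝ᵥ (B *ᵥ x) = 8}.ncard = 398034000) (x : Fin 24 → ℤ) (hx : x ⬝ᵥ (B *ᵥ x) = 8) : {y : Fin 24 → ℤ | y ⬝ᵥ (B *ᵥ y) = 8 ∧ ∀ i, (2 : ℤ) ∣ (x - y) i}.ncard = 48 := by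
  have hL : LLat (Fin 24 → ℤ) (fun x y => x ⬝ᵥ (B *ᵥ y)) :=
    { add := fun x y z => bil_add B x y z
      comm := fun x y => bil_comm hsymm x y
      even := heven
      min := fun x hx => by
        have h1 := hpos x hx
        have h3 := h2 x
        obtain ⟨a, ha⟩ := heven x
        show 4 ≤ x ⬝ᵥ (B *ᵥ x)
        omega
      basis := ⟨Pi.basisFun ℤ (Fin 24)⟩
      c4 := h4
      c6 := h6
      c8 := h8 }
  have h := class48 hL hx
  refine Eq.trans (congrArg Set.ncard (Set.ext fun y => ?_)) h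
  refine and_congr_right fun _ => ?_
  constructor
  · intro hc
    choose z hz using hc
    refine ⟨-z, funext fun i => ?_⟩
    have := hz i
    simp only [Pi.sub_apply, Pi.smul_apply, Pi.neg_apply, smul_eq_mul] at this ⊢
    linarith
  · rintro ⟨u, hu⟩ i
    refine ⟨- u i, ?_⟩
    have := congrFun hu i
    simp only [Pi.sub_apply, Pi.smul_apply, smul_eq_mul] at this ⊢
    linarith

end Cfsg.Agent.S1588
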