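import Cfsg.Statements.S1590
import Cfsg.Agent.H29.TernG

set_option autoImplicit false
open Cfsg

namespace Cfsg.Agent.S1590

open Cfsg.Agent.H29.TG

theorem cnt (P : (ArrayPt → ZMod 3) → Prop) [DecidablePred P] (n : ℕ)
    (h : (Finset.univ.filter fun a : ZMod 3 × ZMod 3 × ZMod 3 × ZMod 3 × ZMod 3 × ZMod 3 => P (enc (tup a))).card = n) :
    {x : ArrayPt → ZMod 3 | x ∈ ternaryGolayCode ∧ P x}.ncard = n := by
  have e : {x : ArrayPt → ZMod 3 | x ∈ ternaryGolayCode ∧ P x}
      = (fun a => enc (tup a)) '' (((Finset.univ.filter fun a : ZMod 3 × ZMod 3 × ZMod 3 × ZMod 3 × ZMod 3 × ZMod 3 => P (enc (tup a))) : Finset _) : Set _) := by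
    ext x
    constructor
    · rintro ⟨h1, h2⟩
      obtain ⟨a, rfl⟩ := mem_range.1 h1
      refine ⟨tupE.symm a, ?_, ?_⟩
      · rw [Finset.mem_coe, Finset.mem_filter]
        refine ⟨Finset.mem_univ _, ?_⟩
        show P (enc (tupE (tupE.symm a)))
        rw [Equiv.apply_symm_apply]; exact h2
      · show enc (tupE (tupE.symm a)) = _
        rw [Equiv.apply_symm_apply]
    · rintro ⟨a, ha, rfl⟩
      rw [Finset.mem_coe, Finset.mem_filter] at ha
      exact ⟨enc_mem _, ha.2⟩
  have hi : Function.Injective (fun a => enc (tup a)) := enc_inj.comp tupE.injective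
  rw [e, Set.ncard_image_of_injective _ hi, Set.ncard_coe_finset, h]

set_option maxRecDepth 100000 in
theorem n6 : (Finset.univ.filter fun a : ZMod 3 × ZMod 3 × ZMod 3 × ZMod 3 × ZMod 3 × ZMod 3 =>
    (ternarySupport (enc (tup a))).card = 6).card = 264 := by decide +kernel

set_option maxRecDepth 100000 in
theorem n9 : (Finset.univ.filter fun a : ZMod 3 × ZMod 3 × ZMod 3 × ZMod 3 × ZMod 3 × ZMod 3 =>
    (ternarySupport (enc (tup a))).card = 9).card = 440 := by decide +kernel

set_option maxRecDepth 100000 in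
theorem n12 : (Finset.univ.filter fun a : ZMod 3 × ZMod 3 × ZMod 3 × ZMod 3 × ZMod 3 × ZMod 3 =>
    (ternarySupport (enc (tup a))).card = 12).card = 24 := by decide +kernel

set_option maxRecDepth 100000 in
theorem wts : ∀ a : ZMod 3 × ZMod 3 × ZMod 3 × ZMod 3 × ZMod 3 × ZMod 3, a = 0 ∨
    (ternarySupport (enc (tup a))).card = 6 ∨ (ternarySupport (enc (tup a))).card = 9 ∨
    (ternarySupport (enc (tup a))).card = 12 := by decide +kernel

/-- The length-12 ternary code has 729 words with weight distribution 0^1 6^264 9^440 12^24. -/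
theorem result : Nat.card ↥Cfsg.ternaryGolayCode = 729 ∧ (∀ x ∈ Cfsg.ternaryGolayCode, x ≠ 0 → (Cfsg.ternarySupport x).card = 6 ∨ (Cfsg.ternarySupport x).card = 9 ∨ (Cfsg.ternarySupport x).card = 12) ∧ {x : Cfsg.ArrayPt → ZMod 3 | x ∈ Cfsg.ternaryGolayCode ∧ (Cfsg.ternarySupport x).card = 6}.ncard = 264 ∧ {x : Cfsg.ArrayPt → ZMod 3 | x ∈ Cfsg.ternaryGolayCode ∧ (Cfsg.ternarySupport x).card = 9}.ncard = 440 ∧ {x : Cfsg.ArrayPt → ZMod 3 | x ∈ Cfsg.ternaryGolayCode ∧ (Cfsg.ternarySupport x).card = 12}.ncard = 24 := by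
  refine ⟨?_, ?_, cnt (fun x => (ternarySupport x).card = 6) 264 n6, cnt (fun x => (ternarySupport x).card = 9) 440 n9,
    cnt (fun x => (ternarySupport x).card = 12) 24 n12⟩
  · have h := cnt (fun _ => True) 729 (by decide +kernel)
    rw [← h, ← Nat.card_coe_set_eq]
    exact Nat.card_congr (Equiv.subtypeEquivRight fun x => by simp)
  · intro x hx hne
    obtain ⟨a, rfl⟩ := mem_range.1 hx
    have h := wts (tupE.symm a)
    rw [show tup (tupE.symm a) = a from tupE.apply_symm_apply a] at h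
    refine h.resolve_left fun h0 => hne ?_
    have h1 : a = tupE 0 := by rw [← h0, Equiv.apply_symm_apply]
    rw [h1, enc_eq]
    refine Finset.sum_eq_zero fun j _ => ?_
    have : (tupE 0) j = 0 := by fin_cases j <;> rfl
    rw [this, zero_smul]

end Cfsg.Agent.S1590
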