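import Cfsg.Statements.S1591
import Cfsg.Agent.H29.TernG

set_option autoImplicit false
open Cfsg

namespace Cfsg.Agent.S1591

open Cfsg.Agent.H29.TG

theorem gdot : ∀ i j : Fin 6, ∑ p, gw i p * gw j p = 0 := by decide +kernel

/-- Any two words of the length-12 ternary code have dot product zero. -/
theorem result (x y : Cfsg.ArrayPt → ZMod 3) (hx : x ∈ Cfsg.ternaryGolayCode) (hy : y ∈ Cfsg.ternaryGolayCode) : ∑ p, x p * y p = 0 := by
  obtain ⟨a, rfl⟩ := mem_range.1 hx
  obtain ⟨b, rfl⟩ := mem_range.1 hy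
  rw [enc_eq, enc_eq]
  calc ∑ p, (∑ j, a j • gw j) p * (∑ j, b j • gw j) p
      = ∑ p, ∑ i, ∑ j, a i * b j * (gw i p * gw j p) := by
        refine Finset.sum_congr rfl fun p _ => ?_
        rw [Finset.sum_apply, Finset.sum_apply, Finset.sum_mul_sum]
        refine Finset.sum_congr rfl fun i _ => Finset.sum_congr rfl fun j _ => ?_
        simp only [Pi.smul_apply, smul_eq_mul]
        ring
    _ = ∑ i, ∑ j, ∑ p, a i * b j * (gw i p * gw j p) := by
        rw [Finset.sum_comm]
        refine Finset.sum_congr rfl fun i _ => ?_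
        rw [Finset.sum_comm]
    _ = 0 := by
        refine Finset.sum_eq_zero fun i _ => Finset.sum_eq_zero fun j _ => ?_
        rw [← Finset.mul_sum, gdot, mul_zero]

end Cfsg.Agent.S1591
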