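import Cfsg.Statements.S1593
import Cfsg.Agent.H29.TernG

set_option autoImplicit false
open Cfsg

namespace Cfsg.Agent.S1593

open Cfsg.Agent.H29.TG

theorem unit_cases : ∀ u : (ZMod 3)ˣ, u = 1 ∨ u = -1 := by decide

/-- The only sign changes preserving the length-12 ternary code are the identity and negation of all coordinates. -/
theorem result (c : Cfsg.ArrayPt → (ZMod 3)ˣ) (h : (∀ x ∈ Cfsg.ternaryGolayCode, Cfsg.monomialMap 1 c x ∈ Cfsg.ternaryGolayCode)) : (∀ p, c p = 1) ∨ (∀ p, c p = -1) := by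
  have h1 : ∀ (j : Fin 6) (p : ArrayPt), gw j p ≠ 0 → c p = c (ip j) := by
    intro j p hp
    have h2 := h _ (gw_mem j)
    have h3 : monomialMap 1 c (gw j) = ((c (ip j) : (ZMod 3)ˣ) : ZMod 3) • gw j := by
      rw [← mem_iff.1 h2]
      have e : (fun k => monomialMap 1 c (gw j) (ip k)) = fun k => if k = j then ((c (ip j) : (ZMod 3)ˣ) : ZMod 3) else 0 := by
        funext k
        have hd : ∀ j k : Fin 6, gw j (ip k) = if k = j then 1 else 0 := by decide +kernel
        show ((c (ip k) : (ZMod 3)ˣ) : ZMod 3) * gw j (ip k) = _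
        rw [hd j k]
        split_ifs with hk
        · rw [hk, mul_one]
        · rw [mul_zero]
      rw [e, enc_eq, Finset.sum_eq_single j]
      · rw [if_pos rfl]
      · intro k _ hk; rw [if_neg hk, zero_smul]
      · intro hj; exact absurd (Finset.mem_univ _) hj
    have h4 := congrFun h3 p
    have h5 : ((c p : (ZMod 3)ˣ) : ZMod 3) * gw j p = ((c (ip j) : (ZMod 3)ˣ) : ZMod 3) * gw j p := h4
    exact Units.ext (mul_right_cancel₀ hp h5)
  have h2 : ∀ j, c (ip j) = c (ip 0) := by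
    have k5 : ∀ j : Fin 6, j ≠ 5 → gw j (1, 2) ≠ 0 := by decide +kernel
    have k6 : gw 5 (2, 2) ≠ 0 := by decide +kernel
    have k7 : gw 0 (2, 2) ≠ 0 := by decide +kernel
    intro j
    by_cases hj : j = 5
    · rw [hj, ← h1 5 _ k6, ← h1 0 _ k7]
    · rw [← h1 j _ (k5 j hj), ← h1 0 _ (k5 0 (by decide))]
  have h3 : ∀ p, c p = c (ip 0) := by
    intro p
    have k8 : ∀ p : ArrayPt, ∃ j : Fin 6, gw j p ≠ 0 := by decide +kernel
    obtain ⟨j, hj⟩ := k8 p
    rw [h1 j p hj, h2]
  rcases unit_cases (c (ip 0)) with h | h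
  · exact Or.inl fun p => (h3 p).trans h
  · exact Or.inr fun p => (h3 p).trans h

end Cfsg.Agent.S1593
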