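import Cfsg.Statements.S1594
import Cfsg.Agent.H29.TernH
import Cfsg.Agent.S1593
import Cfsg.Agent.H7.SteinerAut
import Cfsg.Agent.H7.Steiner12b

set_option autoImplicit false
open Cfsg

namespace Cfsg.Agent.S1594

open Cfsg.Agent.H29.TG Cfsg.Agent.H7.E12
open scoped Pointwise

def pres (σ : Equiv.Perm ArrayPt) (c : ArrayPt → (ZMod 3)ˣ) : Prop :=
  ∀ x ∈ ternaryGolayCode, monomialMap σ c x ∈ ternaryGolayCode

theorem mono_comp (σ τ : Equiv.Perm ArrayPt) (c d : ArrayPt → (ZMod 3)ˣ) (x : ArrayPt → ZMod 3) :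
    monomialMap σ c (monomialMap τ d x) = monomialMap (σ * τ) (fun p => c p * d (σ.symm p)) x := by
  funext p
  show (c p : ZMod 3) * ((d (σ.symm p) : ZMod 3) * x (τ.symm (σ.symm p))) = ((c p * d (σ.symm p) : (ZMod 3)ˣ) : ZMod 3) * x (τ.symm (σ.symm p))
  rw [Units.val_mul, mul_assoc]

theorem mono_inj (σ : Equiv.Perm ArrayPt) (c : ArrayPt → (ZMod 3)ˣ) : Function.Injective (monomialMap σ c) := by
  intro x y h
  funext p
  have := congrFun h (σ p)
  have h2 : (c (σ p) : ZMod 3) * x (σ.symm (σ p)) = (c (σ p) : ZMod 3) * y (σ.symm (σ p)) := this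
  rw [Equiv.symm_apply_apply] at h2
  exact (Units.mul_right_inj _).1 h2

theorem pres_surj {σ : Equiv.Perm ArrayPt} {c : ArrayPt → (ZMod 3)ˣ} (h : pres σ c) {y : ArrayPt → ZMod 3}
    (hy : y ∈ ternaryGolayCode) : ∃ x ∈ ternaryGolayCode, monomialMap σ c x = y := by
  classical
  let f : ternaryGolayCode → ternaryGolayCode := fun x => ⟨monomialMap σ c x, h x x.2⟩
  have hf : Function.Injective f := fun x z hz => Subtype.ext (mono_inj σ c (congrArg Subtype.val hz))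
  obtain ⟨x, hx⟩ := (Finite.surjective_of_injective hf) ⟨y, hy⟩
  exact ⟨x, x.2, congrArg Subtype.val hx⟩

/-- the group of permutation parts -/
def II : Subgroup (Equiv.Perm ArrayPt) where
  carrier := {σ | ∃ c, pres σ c}
  one_mem' := ⟨fun _ => 1, fun x hx => by
    have : monomialMap 1 (fun _ => 1) x = x := by
      funext p; show ((1 : (ZMod 3)ˣ) : ZMod 3) * x p = x p; rw [Units.val_one, one_mul]
    rw [this]; exact hx⟩
  mul_mem' := by
    rintro σ τ ⟨c, hc⟩ ⟨d, hd⟩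
    refine ⟨fun p => c p * d (σ.symm p), fun x hx => ?_⟩
    rw [← mono_comp]
    exact hc _ (hd _ hx)
  inv_mem' := by
    rintro σ ⟨c, hc⟩
    refine ⟨fun p => (c (σ p))⁻¹, fun x hx => ?_⟩
    obtain ⟨y, hy, rfl⟩ := pres_surj hc hx
    rw [mono_comp]
    have : monomialMap (σ⁻¹ * σ) (fun p => (c (σ p))⁻¹ * c (σ⁻¹.symm p)) y = y := by
      funext p
      show (((c (σ p))⁻¹ * c (σ p) : (ZMod 3)ˣ) : ZMod 3) * y ((σ⁻¹ * σ).symm p) = y p
      rw [inv_mul_cancel, inv_mul_cancel, Units.val_one, one_mul]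
      rfl
    rw [this]; exact hy

theorem mem_II {σ : Equiv.Perm ArrayPt} : σ ∈ II ↔ ∃ c, pres σ c := Iff.rfl

/-- image of a generator word -/
def yw (l' s : List ℕ) (j : Fin 6) : ArrayPt → ZMod 3 :=
  fun p => ((s.getD (ix p) 0 : ℕ) : ZMod 3) * gw j (pt (l'.getD (ix p) 12))

def okM (l l' s : List ℕ) : Prop :=
  (∀ i : Fin 12, l.getD i 12 < 12 ∧ l'.getD i 12 < 12 ∧ l'.getD (l.getD i 12) 12 = i ∧ l.getD (l'.getD i 12) 12 = i ∧
    (s.getD i 0 = 1 ∨ s.getD i 0 = 2)) ∧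
  ∀ j : Fin 6, ∀ p : ArrayPt, enc (fun k => yw l' s j (ip k)) p = yw l' s j p

instance (l l' s : List ℕ) : Decidable (okM l l' s) := by unfold okM; infer_instance

theorem of_okM {l l' s : List ℕ} (h : okM l l' s) : ∃ σ ∈ II, ∀ i < 12, σ (pt i) = pt (l.getD i 12) := by
  obtain ⟨h1, h2⟩ := h
  have g1 : ∀ p : ArrayPt, _ := fun p => h1 ⟨ix p, ix_lt p⟩
  let σ : Equiv.Perm ArrayPt :=
    { toFun := fun p => pt (l.getD (ix p) 12)
      invFun := fun p => pt (l'.getD (ix p) 12)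
      left_inv := fun p => by
        show pt (l'.getD (ix (pt (l.getD (ix p) 12))) 12) = p
        rw [ix_pt _ (g1 p).1, (g1 p).2.2.1, pt_ix]
      right_inv := fun p => by
        show pt (l.getD (ix (pt (l'.getD (ix p) 12))) 12) = p
        rw [ix_pt _ (g1 p).2.1, (g1 p).2.2.2.1, pt_ix] }
  refine ⟨σ, ⟨fun p => if s.getD (ix p) 0 = 1 then 1 else -1, ?_⟩, ?_⟩
  · have key : ∀ j, monomialMap σ (fun p => if s.getD (ix p) 0 = 1 then 1 else -1) (gw j) ∈ ternaryGolayCode := by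
      intro j
      have e : monomialMap σ (fun p => if s.getD (ix p) 0 = 1 then 1 else -1) (gw j) = yw l' s j := by
        funext p
        show (((if s.getD (ix p) 0 = 1 then 1 else -1 : (ZMod 3)ˣ)) : ZMod 3) * gw j (pt (l'.getD (ix p) 12)) = _
        rw [yw]
        congr 1
        rcases (g1 p).2.2.2.2 with h | h
        · have h' : s.getD (ix p) 0 = 1 := h
          rw [h', if_pos rfl]; rfl
        · have h' : s.getD (ix p) 0 = 2 := h
          rw [h', if_neg (by norm_num)]; rfl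
      rw [e, mem_iff]
      funext p
      exact h2 j p
    intro x hx
    obtain ⟨a, rfl⟩ := mem_range.1 hx
    rw [enc_eq]
    have e : monomialMap σ (fun p => if s.getD (ix p) 0 = 1 then 1 else -1) (∑ j, a j • gw j)
        = ∑ j, a j • monomialMap σ (fun p => if s.getD (ix p) 0 = 1 then 1 else -1) (gw j) := by
      funext p
      show _ * (∑ j, a j • gw j) (σ.symm p) = _
      rw [Finset.sum_apply, Finset.sum_apply, Finset.mul_sum]
      refine Finset.sum_congr rfl fun j _ => ?_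
      show _ * (a j * gw j (σ.symm p)) = a j * (_ * gw j (σ.symm p))
      ring
    rw [e]
    exact Submodule.sum_mem _ fun j _ => Submodule.smul_mem _ _ (key j)
  · intro i hi
    show pt (l.getD (ix (pt i)) 12) = _
    rw [ix_pt i hi]

def gens0 : List (List ℕ × List ℕ × List ℕ) := [([2, 0, 5, 1, 3, 4, 8, 7, 10, 11, 6, 9], [1, 3, 0, 4, 5, 2, 10, 7, 6, 11, 8, 9], [1, 2, 1, 1, 1, 2, 1, 2, 2, 2, 1, 2]),
  ([10, 3, 1, 7, 11, 9, 5, 4, 6, 2, 0, 8], [10, 2, 9, 1, 7, 6, 8, 3, 11, 5, 0, 4], [1, 2, 2, 2, 1, 2, 1, 1, 1, 1, 2, 2])]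

def gens1 : List (List ℕ × List ℕ × List ℕ) := [([0, 10, 7, 2, 8, 5, 3, 6, 1, 9, 4, 11], [0, 8, 3, 6, 10, 5, 7, 2, 4, 9, 1, 11], [1, 2, 2, 1, 2, 1, 2, 1, 2, 2, 2, 2]),
  ([0, 9, 10, 11, 2, 1, 5, 7, 6, 8, 3, 4], [0, 5, 4, 10, 11, 6, 8, 7, 9, 1, 2, 3], [1, 2, 2, 1, 1, 2, 1, 1, 2, 2, 2, 1]),
  ([0, 9, 1, 5, 3, 10, 8, 4, 2, 6, 7, 11], [0, 2, 8, 4, 7, 3, 9, 10, 6, 1, 5, 11], [1, 2, 2, 2, 2, 1, 2, 1, 2, 1, 1, 1])]

def gens2 : List (List ℕ × List ℕ × List ℕ) := [([0, 1, 9, 2, 3, 6, 5, 11, 4, 7, 8, 10], [0, 1, 3, 4, 8, 6, 5, 9, 10, 2, 11, 7], [1, 2, 1, 1, 1, 2, 1, 2, 1, 2, 2, 2]),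
  ([0, 1, 6, 7, 10, 3, 4, 11, 2, 5, 8, 9], [0, 1, 8, 5, 6, 9, 2, 3, 10, 11, 4, 7], [1, 1, 1, 1, 2, 1, 1, 2, 2, 1, 1, 2]),
  ([0, 1, 5, 11, 6, 3, 8, 4, 10, 2, 7, 9], [0, 1, 9, 5, 7, 2, 4, 10, 6, 11, 8, 3], [1, 1, 1, 2, 2, 1, 1, 2, 1, 2, 1, 1])]

def gens3 : List (List ℕ × List ℕ × List ℕ) := [([0, 1, 2, 10, 3, 8, 5, 7, 9, 6, 11, 4], [0, 1, 2, 4, 11, 6, 9, 7, 5, 8, 3, 10], [1, 1, 2, 2, 2, 2, 2, 2, 2, 2, 2, 2]),
  ([0, 1, 2, 5, 3, 4, 8, 6, 7, 11, 9, 10], [0, 1, 2, 4, 5, 3, 7, 8, 6, 10, 11, 9], [1, 1, 1, 1, 1, 1, 1, 1, 1, 1, 1, 1])]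

def gens4 : List (List ℕ × List ℕ × List ℕ) := [([0, 1, 2, 3, 10, 8, 11, 6, 4, 7, 5, 9], [0, 1, 2, 3, 8, 10, 7, 9, 5, 11, 4, 6], [1, 1, 2, 2, 2, 2, 2, 2, 2, 2, 2, 2]),
  ([0, 1, 2, 3, 9, 6, 4, 10, 7, 5, 11, 8], [0, 1, 2, 3, 6, 9, 5, 8, 11, 4, 7, 10], [1, 2, 2, 1, 1, 1, 1, 1, 1, 1, 1, 1]),
  ([0, 1, 2, 3, 5, 4, 9, 11, 10, 6, 8, 7], [0, 1, 2, 3, 5, 4, 9, 11, 10, 6, 8, 7], [1, 1, 1, 1, 1, 1, 1, 1, 1, 1, 1, 1])]


def okL (k : ℕ) (g : List (List ℕ × List ℕ × List ℕ)) : Prop :=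
  (∀ t ∈ g, okM t.1 t.2.1 t.2.2 ∧ ∀ i < k, t.1.getD i 12 = i) ∧
    ∀ n < 12, k < n → ∃ t ∈ g, k ≤ t.1.getD n 12 ∧ t.1.getD n 12 < n

instance (k : ℕ) (g : List (List ℕ × List ℕ × List ℕ)) : Decidable (okL k g) := by unfold okL; infer_instance

theorem lev {k : ℕ} {g : List (List ℕ × List ℕ × List ℕ)} (_hk : k < 12) (h : okL k g) : ∀ n < 12, k ≤ n →
    ∃ σ ∈ II, (∀ i < k, σ (pt i) = pt i) ∧ σ (pt n) = pt k := by
  intro n
  induction n using Nat.strong_induction_on with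
  | _ n ih =>
    intro hn hkn
    by_cases h0 : n = k
    · exact ⟨1, II.one_mem, fun _ _ => rfl, by rw [h0]; rfl⟩
    obtain ⟨t, ht, h1, h2⟩ := h.2 n hn (by omega)
    obtain ⟨h3, h4⟩ := h.1 t ht
    obtain ⟨τ, hτ, h5⟩ := of_okM h3
    obtain ⟨σ, hσ, h6, h7⟩ := ih _ h2 (by omega) h1
    refine ⟨σ * τ, II.mul_mem hσ hτ, fun i hi => ?_, ?_⟩
    · rw [Equiv.Perm.mul_apply, h5 i (by omega), h4 i hi, h6 i hi]
    · rw [Equiv.Perm.mul_apply, h5 n hn, h7]

set_option maxRecDepth 100000 in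
theorem ok0 : okL 0 gens0 := by decide +kernel
set_option maxRecDepth 100000 in
theorem ok1 : okL 1 gens1 := by decide +kernel
set_option maxRecDepth 100000 in
theorem ok2 : okL 2 gens2 := by decide +kernel
set_option maxRecDepth 100000 in
theorem ok3 : okL 3 gens3 := by decide +kernel
set_option maxRecDepth 100000 in
theorem ok4 : okL 4 gens4 := by decide +kernel

theorem levs {k : ℕ} (hk : k < 5) : ∀ n < 12, k ≤ n → ∃ σ ∈ II, (∀ i < k, σ (pt i) = pt i) ∧ σ (pt n) = pt k := by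
  interval_cases k
  · exact lev (by norm_num) ok0
  · exact lev (by norm_num) ok1
  · exact lev (by norm_num) ok2
  · exact lev (by norm_num) ok3
  · exact lev (by norm_num) ok4

/-- the permutation parts are transitive on sequences of at most five points -/
theorem tr5 (f : ℕ → ArrayPt) (hf : ∀ i < 5, ∀ j < 5, f i = f j → i = j) : ∀ k ≤ 5, ∃ σ ∈ II, ∀ i < k, σ (f i) = pt i := by
  intro k
  induction k with
  | zero => exact fun _ => ⟨1, II.one_mem, fun i hi => absurd hi (by omega)⟩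
  | succ k ih =>
    intro hk
    obtain ⟨σ, hσ, h⟩ := ih (by omega)
    have hn : k ≤ ix (σ (f k)) := by
      by_contra hlt
      have h1 := h (ix (σ (f k))) (by omega)
      rw [pt_ix] at h1
      have h2 := hf _ (by omega) _ (by omega) (σ.injective h1)
      omega
    obtain ⟨τ, hτ, h1, h2⟩ := levs (by omega : k < 5) _ (ix_lt (σ (f k))) hn
    refine ⟨τ * σ, II.mul_mem hτ hσ, fun i hi => ?_⟩
    rw [Equiv.Perm.mul_apply]
    by_cases hik : i = k
    · rw [hik, ← pt_ix (σ (f k)), h2]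
    · rw [h i (by omega), h1 i (by omega)]

theorem supp_mono (σ : Equiv.Perm ArrayPt) (c : ArrayPt → (ZMod 3)ˣ) (x : ArrayPt → ZMod 3) :
    ternarySupport (monomialMap σ c x) = σ • ternarySupport x := by
  ext p
  rw [← Finset.inv_smul_mem_iff, ternarySupport, ternarySupport, Finset.mem_filter, Finset.mem_filter]
  refine and_congr (by simp) ?_
  show (c p : ZMod 3) * x (σ.symm p) ≠ 0 ↔ x (σ.symm p) ≠ 0
  rw [ne_eq, mul_eq_zero, not_or]
  exact and_iff_right (Units.ne_zero _)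

theorem II_le : II ≤ setSystemAut tHex := by
  rintro σ ⟨c, hc⟩
  rw [Cfsg.Agent.H7.mem_aut_iff]
  rintro b ⟨x, hx, rfl, h6⟩
  refine ⟨monomialMap σ c x, hc x hx, supp_mono σ c x, ?_⟩
  rw [Finset.card_smul_finset]; exact h6

theorem card12 : Fintype.card ArrayPt = 12 := by decide

/-- the base sequence -/
def bs : Fin 5 ↪ ArrayPt := ⟨fun i => pt i, fun i j h => by
  have := congrArg ix h
  rw [ix_pt _ (by omega), ix_pt _ (by omega)] at this
  exact Fin.ext this⟩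

theorem le_II : setSystemAut tHex ≤ II := by
  intro a ha
  obtain ⟨-, -, h3⟩ := Cfsg.Agent.H7.E12.aut12 card12 tHex_steiner
  obtain ⟨σ, hσ, h⟩ := tr5 (fun i => a (pt i)) (fun i hi j hj h => by
    have := congrArg ix (a.injective h)
    rwa [ix_pt _ (by omega), ix_pt _ (by omega)] at this) 5 le_rfl
  have h4 : (⟨σ * a, Subgroup.mul_mem _ (II_le hσ) ha⟩ : setSystemAut tHex) ∈ MulAction.stabilizer (setSystemAut tHex) bs := by
    rw [MulAction.mem_stabilizer_iff]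
    ext1 i
    exact h i i.2
  rw [h3 bs, Subgroup.mem_bot] at h4
  have h5 : σ * a = 1 := congrArg Subtype.val h4
  have h6 : a = σ⁻¹ := by rw [eq_inv_iff_mul_eq_one]; exact mul_eq_one_comm.1 h5
  rw [h6]; exact II.inv_mem hσ

theorem II_eq : II = setSystemAut tHex := le_antisymm II_le le_II

theorem card_A : Nat.card (setSystemAut tHex) = 95040 := by
  obtain ⟨-, h2, h3⟩ := Cfsg.Agent.H7.E12.aut12 card12 tHex_steiner
  have hb : Function.Bijective (fun a : setSystemAut tHex => a • bs) := by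
    constructor
    · intro a b h
      have h4 : b⁻¹ * a ∈ MulAction.stabilizer (setSystemAut tHex) bs := by
        rw [MulAction.mem_stabilizer_iff, mul_smul, inv_smul_eq_iff]; exact h
      rw [h3 bs, Subgroup.mem_bot] at h4
      exact (inv_mul_eq_one.1 h4).symm
    · intro y
      exact h2.exists_smul_eq bs y
  rw [Nat.card_congr (Equiv.ofBijective _ hb), Nat.card_eq_fintype_card, Fintype.card_embedding_eq, card12, Fintype.card_fin]
  rfl

theorem pres_neg {σ : Equiv.Perm ArrayPt} {c : ArrayPt → (ZMod 3)ˣ} (h : pres σ c) : pres σ (fun p => - c p) := by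
  intro x hx
  have e : monomialMap σ (fun p => - c p) x = - monomialMap σ c x := by
    funext p
    show ((- c p : (ZMod 3)ˣ) : ZMod 3) * _ = - ((c p : ZMod 3) * _)
    rw [Units.val_neg, neg_mul]
  rw [e]; exact Submodule.neg_mem _ (h x hx)

theorem pres_unique {σ : Equiv.Perm ArrayPt} {c d : ArrayPt → (ZMod 3)ˣ} (hc : pres σ c) (hd : pres σ d) :
    d = c ∨ d = fun p => - c p := by
  have h := Cfsg.Agent.S1593.result (fun p => d p * (c p)⁻¹) (fun y hy => by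
    obtain ⟨x, hx, rfl⟩ := pres_surj hc hy
    have e : monomialMap 1 (fun p => d p * (c p)⁻¹) (monomialMap σ c x) = monomialMap σ d x := by
      rw [mono_comp, one_mul]
      congr 1
      funext p
      show d p * (c p)⁻¹ * c p = d p
      rw [inv_mul_cancel_right]
    rw [e]; exact hd x hx)
  rcases h with h | h
  · left; funext p
    exact mul_inv_eq_one.1 (h p)
  · right; funext p
    have := h p
    rw [mul_inv_eq_iff_eq_mul] at this
    rw [this, neg_one_mul]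

/-- The monomial automorphism group of the length-12 ternary code has order 190080 and its permutation parts are exactly the automorphisms of its hexad system. -/
theorem result : Nat.card {f : Equiv.Perm Cfsg.ArrayPt × (Cfsg.ArrayPt → (ZMod 3)ˣ) // (∀ x ∈ Cfsg.ternaryGolayCode, Cfsg.monomialMap f.1 f.2 x ∈ Cfsg.ternaryGolayCode)} = 190080 ∧ {σ : Equiv.Perm Cfsg.ArrayPt | ∃ c : Cfsg.ArrayPt → (ZMod 3)ˣ, (∀ x ∈ Cfsg.ternaryGolayCode, Cfsg.monomialMap σ c x ∈ Cfsg.ternaryGolayCode)} = (Cfsg.setSystemAut {h : Finset Cfsg.ArrayPt | ∃ x ∈ Cfsg.ternaryGolayCode, Cfsg.ternarySupport x = h ∧ h.card = 6} : Set (Equiv.Perm Cfsg.ArrayPt)) := by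
  classical
  have hI : ∀ σ : Equiv.Perm ArrayPt, σ ∈ setSystemAut tHex ↔ ∃ c, pres σ c := fun σ => by rw [← II_eq]; rfl
  refine ⟨?_, ?_⟩
  · have hneg : ∀ u : (ZMod 3)ˣ, u ≠ -u := by decide
    choose! c0 hc0 using fun (σ : Equiv.Perm ArrayPt) (hσ : σ ∈ setSystemAut tHex) => (hI σ).1 hσ
    let F : setSystemAut tHex × Bool → {f : Equiv.Perm ArrayPt × (ArrayPt → (ZMod 3)ˣ) //
        (∀ x ∈ ternaryGolayCode, monomialMap f.1 f.2 x ∈ ternaryGolayCode)} :=
      fun q => ⟨((q.1 : Equiv.Perm ArrayPt), if q.2 then c0 q.1 else fun p => - c0 q.1 p), by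
        obtain ⟨⟨σ, hσ⟩, b⟩ := q
        cases b
        · exact pres_neg (hc0 σ hσ)
        · exact hc0 σ hσ⟩
    have hF : Function.Bijective F := by
      constructor
      · rintro ⟨⟨σ, hσ⟩, b⟩ ⟨⟨τ, hτ⟩, b'⟩ h
        have h1 : σ = τ := congrArg (fun z => z.1.1) h
        subst h1
        have h2 := congrFun (congrArg (fun z => z.1.2) h) (0, 0)
        cases b <;> cases b'
        · rfl
        · exact absurd h2.symm (hneg _)
        · exact absurd h2 (hneg _)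
        · rfl
      · rintro ⟨⟨σ, c⟩, h⟩
        have hσ : σ ∈ setSystemAut tHex := (hI σ).2 ⟨c, h⟩
        rcases pres_unique (hc0 σ hσ) h with h1 | h1
        · exact ⟨(⟨σ, hσ⟩, true), Subtype.ext (Prod.ext rfl h1.symm)⟩
        · exact ⟨(⟨σ, hσ⟩, false), Subtype.ext (Prod.ext rfl h1.symm)⟩
    rw [← Nat.card_congr (Equiv.ofBijective F hF), Nat.card_prod, card_A, Nat.card_eq_fintype_card, Fintype.card_bool]
  · ext σ
    exact (hI σ).symm

end Cfsg.Agent.S1594
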