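import Cfsg.Statements.S1595
import Cfsg.Agent.H7.Steiner12b

set_option autoImplicit false
open Cfsg

namespace Cfsg.Agent.S1595

open Cfsg.Agent.H7.E12

set_option maxRecDepth 100000 in
theorem k0 : (std.all fun m => !((m &&& 3587) == 3587) || m == 3591) = true := by decide +kernel

set_option maxRecDepth 100000 in
theorem k1 : (std.all fun m => m == 3591 || (pc (3591 &&& m) == 0 || pc (3591 &&& m) == 2 || pc (3591 &&& m) == 3 ||
    pc (3591 &&& m) == 4)) = true := by decide +kernel

/-- the number of blocks meeting the base block in `t` -/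
def nm (t : ℕ) : ℕ := (std.filter fun m => (3591 &&& m) == t).length

set_option maxRecDepth 100000 in
theorem k2 : ((List.range 4096).all fun t => !((t &&& 3591) == t) || ((!(pc t == 2) || nm t == 3) &&
    (!(pc t == 3) || nm t == 2) && (!(pc t == 4) || nm t == 3))) = true := by decide +kernel

theorem std_nodup : std.Nodup := by decide +kernel
theorem std_lt : ∀ m ∈ std, m < 2 ^ 12 := by decide +kernel

theorem ncard_std (t : ℕ) (ht : t < 2 ^ 12) :
    {c : Finset (Fin 12) | (∃ m ∈ std, c = S m) ∧ S 3591 ∩ c = S t}.ncard = nm t := by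
  have e : {c : Finset (Fin 12) | (∃ m ∈ std, c = S m) ∧ S 3591 ∩ c = S t}
      = (((std.filter fun m => (3591 &&& m) == t).toFinset.image S : Finset _) : Set _) := by
    ext c
    simp only [Finset.coe_image, List.coe_toFinset, List.mem_filter, Set.mem_image, Set.mem_ofPred_eq, beq_iff_eq]
    constructor
    · rintro ⟨⟨m, hm, rfl⟩, h⟩
      rw [← S_and] at h
      have : 3591 &&& m < 2 ^ 12 := lt_of_le_of_lt Nat.and_le_left (by norm_num)
      exact ⟨m, ⟨hm, S_inj this ht h⟩, rfl⟩
    · rintro ⟨m, ⟨hm, h⟩, rfl⟩
      exact ⟨⟨m, hm, rfl⟩, by rw [← S_and, h]⟩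
  rw [e, Set.ncard_coe_finset, Finset.card_image_of_injOn, List.toFinset_card_of_nodup (std_nodup.filter _)]
  · rfl
  · intro a ha b hb h
    rw [List.coe_toFinset] at ha hb
    exact S_inj (std_lt a (List.mem_filter.1 ha).1) (std_lt b (List.mem_filter.1 hb).1) h

/-- Leech triangle of S(5, 6, 12): blocks meet in 0, 2, 3 or 4 points, and a block is met exactly in a given 2-, 3- or 4-subset by 3, 2, 3 blocks respectively. -/
theorem result {α : Type*} [Fintype α] [DecidableEq α] (hα : Fintype.card α = 12) {B : Set (Finset α)} (hB : Cfsg.IsSteinerSystem 5 6 B) (b : Finset α) (hb : b ∈ B) : (∀ c ∈ B, c ≠ b → (b ∩ c).card = 0 ∨ (b ∩ c).card = 2 ∨ (b ∩ c).card = 3 ∨ (b ∩ c).card = 4) ∧ ∀ s ⊆ b, (s.card = 2 → {c : Finset α | c ∈ B ∧ b ∩ c = s}.ncard = 3) ∧ (s.card = 3 → {c : Finset α | c ∈ B ∧ b ∩ c = s}.ncard = 2) ∧ (s.card = 4 → {c : Finset α | c ∈ B ∧ b ∩ c = s}.ncard = 3) := by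
  classical
  have hb6 := hB.1 b hb
  let e := b.equivFinOfCardEq hb6
  let x : Fin 5 → α := fun i => (e.symm i.castSucc : α)
  have hx : Function.Injective x := fun i j h => by
    have := e.symm.injective (Subtype.ext h)
    exact Fin.castSucc_injective _ this
  have hxb : ∀ i, x i ∈ b := fun i => (e.symm i.castSucc).2
  obtain ⟨L, h9, h10, h11, h0, h1, hL⟩ := lab12 hα hB x hx
  have hinv : ∀ s : Finset α, (s.image L.symm).image L = s := fun s => by
    rw [Finset.image_image]; simp
  have hb0 : b.image L.symm = S 3591 := by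
    obtain ⟨m, hm, h⟩ := (hL (b.image L.symm)).1 (by rw [hinv]; exact hb)
    rw [h]
    have hk := List.all_eq_true.1 k0 m hm
    have hmem : ∀ (k : Fin 12) (i : Fin 5), L k = x i → m.testBit k = true := by
      intro k i hk
      rw [← mem_S, ← h, Finset.mem_image]
      exact ⟨x i, hxb i, by rw [← hk, Equiv.symm_apply_apply]⟩
    have h3 : m &&& 3587 = 3587 := by
      have hm12 : m < 2 ^ 12 := std_lt m hm
      have e0 := hmem 0 3 h0
      have e1 := hmem 1 4 h1
      have e9 := hmem 9 0 h9
      have e10 := hmem 10 1 h10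
      have e11 := hmem 11 2 h11
      apply Nat.eq_of_testBit_eq
      intro i
      rw [Nat.testBit_and]
      by_cases hi : i < 12
      · interval_cases i
        · rw [show m.testBit 0 = true from e0]; rfl
        · rw [show m.testBit 1 = true from e1]; rfl
        · exact Bool.and_false _
        · exact Bool.and_false _
        · exact Bool.and_false _
        · exact Bool.and_false _
        · exact Bool.and_false _
        · exact Bool.and_false _
        · exact Bool.and_false _
        · rw [show m.testBit 9 = true from e9]; rfl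
        · rw [show m.testBit 10 = true from e10]; rfl
        · rw [show m.testBit 11 = true from e11]; rfl
      · have h2 : (2 : ℕ) ^ 12 ≤ 2 ^ i := Nat.pow_le_pow_right (by norm_num) (by omega)
        rw [Nat.testBit_lt_two_pow (lt_of_lt_of_le hm12 h2), Nat.testBit_lt_two_pow (lt_of_lt_of_le (by norm_num) h2)]
        rfl
    rw [h3] at hk
    have hk' : m = 3591 := by simpa using hk
    rw [hk']
  have hinter : ∀ c : Finset α, (b ∩ c).image L.symm = S 3591 ∩ c.image L.symm := fun c => by
    rw [Finset.image_inter _ _ L.symm.injective, hb0]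
  have hcard : ∀ c : Finset α, (c.image L.symm).card = c.card := fun c => Finset.card_image_of_injective _ L.symm.injective
  refine ⟨?_, ?_⟩
  · intro c hc hne
    obtain ⟨m, hm, h⟩ := (hL (c.image L.symm)).1 (by rw [hinv]; exact hc)
    have hm2 : m ≠ 3591 := by
      rintro rfl
      apply hne
      rw [← hinv c, h, ← hb0, hinv]
    have hk := List.all_eq_true.1 k1 m hm
    rw [← hcard (b ∩ c), hinter, h, ← S_and, card_S]
    simp only [Bool.or_eq_true, beq_iff_eq] at hk
    rcases hk with hk | ((hk | hk) | hk) | hk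
    · exact absurd hk hm2
    · exact Or.inl hk
    · exact Or.inr (Or.inl hk)
    · exact Or.inr (Or.inr (Or.inl hk))
    · exact Or.inr (Or.inr (Or.inr hk))
  · intro s hs
    obtain ⟨t, ht, hts⟩ := exists_mask (s.image L.symm)
    have hcount : {c : Finset α | c ∈ B ∧ b ∩ c = s}.ncard = nm t := by
      rw [← ncard_std t ht, ← Set.ncard_image_of_injective {c : Finset α | c ∈ B ∧ b ∩ c = s}
        (Finset.image_injective L.symm.injective)]
      congr 1
      ext c
      simp only [Set.mem_image, Set.mem_ofPred_eq]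
      constructor
      · rintro ⟨c, ⟨h1, h2⟩, rfl⟩
        refine ⟨(hL _).1 (by rw [hinv]; exact h1), ?_⟩
        rw [← hinter, h2, hts]
      · rintro ⟨h1, h2⟩
        refine ⟨c.image L, ⟨(hL c).2 h1, ?_⟩, ?_⟩
        · apply Finset.image_injective L.symm.injective
          show (b ∩ c.image L).image L.symm = s.image L.symm
          rw [hinter, ← hts, ← h2, Finset.image_image]
          simp
        · rw [Finset.image_image]; simp
    have hsub : t &&& 3591 = t := by
      have h1 : S t ⊆ S 3591 := by
        rw [hts, ← hb0]; exact Finset.image_subset_image hs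
      have h2 : S (t &&& 3591) = S t := by rw [S_and]; exact Finset.inter_eq_left.2 h1
      exact S_inj (lt_of_le_of_lt Nat.and_le_left ht) ht h2
    have hk := List.all_eq_true.1 k2 t (List.mem_range.2 ht)
    have hc : pc t = s.card := by rw [← card_S, hts, hcard]
    rw [hsub, hc] at hk
    simp only [beq_self_eq_true, Bool.not_true, Bool.false_or, Bool.and_eq_true, Bool.or_eq_true, Bool.not_eq_true',
      beq_eq_false_iff_ne, beq_iff_eq, ne_eq] at hk
    rw [hcount]
    obtain ⟨⟨ha, hb⟩, hc⟩ := hk
    exact ⟨fun h => ha.resolve_left (fun h' => h' h), fun h => hb.resolve_left (fun h' => h' h),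
      fun h => hc.resolve_left (fun h' => h' h)⟩

end Cfsg.Agent.S1595
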