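import Cfsg.Statements.S1597
import Cfsg.Agent.H29.Quart3

set_option autoImplicit false
open scoped Pointwise
open Cfsg

namespace Cfsg.Agent.S1597

open scoped Pointwise
open Cfsg.Agent.H7 Cfsg.Agent.H29

/-- A dodecad has 220 quartets and its stabiliser is transitive on them. -/
theorem result (d : Finset Cfsg.GolayPt) (hd : d ∈ Cfsg.dodecads) : (Cfsg.quartets d).ncard = 220 ∧ ∀ Q ∈ Cfsg.quartets d, ∀ Q' ∈ Cfsg.quartets d, ∃ g : Equiv.Perm Cfsg.GolayPt, g ∈ Cfsg.M24 ∧ g • d = d ∧ g • Q = Q' := by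
  constructor
  · obtain ⟨σ, hσ, h⟩ := dodecad_transitive dod0_dodecad hd
    refine ncard_all (fun (a : Finset GolayPt) (Q : Finset (Finset GolayPt)) => Q ∈ quartets a) (fun σ hσ a Q h => smul_quartets' hσ h)
      quartets_ncard0 ⟨σ, hσ, h⟩
  · intro Q hQ Q' hQ'
    obtain ⟨σ, hσ, h⟩ := std_Q hd hQ
    obtain ⟨τ, hτ, h'⟩ := std_Q hd hQ'
    have e1 : σ • toSet dod0 = d := congrArg Prod.fst h
    have e2 : σ • Q0 = Q := congrArg Prod.snd h
    have e3 : τ • toSet dod0 = d := congrArg Prod.fst h'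
    have e4 : τ • Q0 = Q' := congrArg Prod.snd h'
    refine ⟨τ * σ⁻¹, M24.mul_mem hτ (M24.inv_mem hσ), ?_, ?_⟩
    · rw [mul_smul, ← e1, inv_smul_smul, e3, e1]
    · rw [mul_smul, ← e2, inv_smul_smul, e4]

end Cfsg.Agent.S1597
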