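import Cfsg.Statements.S1598
import Cfsg.Agent.H29.Quart3
import Cfsg.Agent.H29.MulAutGL

set_option autoImplicit false
open scoped Pointwise
open Cfsg

namespace Cfsg.Agent.S1598

open Cfsg.Agent.H7 Cfsg.Agent.H29
open scoped Pointwise

def L9 : List ℕ := [0xbdab49ca307b9ac5a928398a418820,
  0xbd9888ce427a9a3a14eb325d0a9020,
  0xbd86b94664795b5438d449d4264020,
  0x58698ce507adb5351472b90460ae1,
  0x5aa7946627d1ac4a0a672970192e1,
  0x59869ca247a1a33adc951682ac2e1,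
  0xd98a94670799a37268542ce4a8817,
  0xd8659ca227a5b551d0e5d0d061017,
  0xdaae8ce4479dac2996aa21221c017]

def LT : List ℕ := [0xbd9888ce427a9a3a14eb325d0a9020,
  0x58698ce507adb5351472b90460ae1,
  0x59869ca247a1a33adc951682ac2e1,
  0x5aa7946627d1ac4a0a672970192e1]

def L12 : List ℕ := [0x3d8980891b2db53a1c62aa921cee1,
  0xbe651120c6d2d272d2a31d038d6e0,
  0x13e740dc15b15b249dca32d038b090,
  0x1da6a808976adf1415c63d120906ac,
  0x23467946777d2cc424c572d41a8050,
  0x65aee24052795a1a25075197104ea3,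
  0x83ea6082f16aac35d0ae41d3364844,
  0x8b46b24041b15f5551074b8c065e53,
  0x93ee51d5826aac1a1d067257001233,
  0x9beeeab064696c14196951e8204251,
  0xadae5112117a9a159a8971d130486c,
  0xbb60860eb1b1de45a5d42a8d214c01]

def ms5 : List (ℕ × List ℕ) := [(dod0, [0,1,2,3,4,12,16,17,18,19,21,23]), (qt0, [0, 1, 23]), (qu0, [2, 4, 16]), (qv0, [17, 18, 19]), (qw0, [3, 12, 21])]

theorem grp9 : grpOK L9 = true := by decide +kernel
theorem nodup9 : L9.Nodup := by decide +kernel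

theorem ms5_iff {σ : Equiv.Perm GolayPt} : StabMs ms5 σ ↔
    σ • toSet dod0 = toSet dod0 ∧ ∀ t ∈ Q0, σ • t = t := by
  unfold StabMs ms5
  simp only [List.forall_mem_cons, List.not_mem_nil, false_implies, implies_true, and_true]
  constructor
  · rintro ⟨h1, h2, h3, h4, h5⟩
    refine ⟨h1, fun t ht => ?_⟩
    rw [mem_Q0] at ht
    rcases ht with rfl | rfl | rfl | rfl <;> assumption
  · rintro ⟨h1, h2⟩
    exact ⟨h1, h2 _ (mem_Q0.2 (Or.inl rfl)), h2 _ (mem_Q0.2 (Or.inr (Or.inl rfl))), h2 _ (mem_Q0.2 (Or.inr (Or.inr (Or.inl rfl)))),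
      h2 _ (mem_Q0.2 (Or.inr (Or.inr (Or.inr rfl))))⟩

/-- leaf test: the cube is trivial implies listed -/
def lfc (L : List ℕ) (f : ℕ → ℕ) : Bool :=
  bif nall (fun i => Nat.beq (f (f (f i))) i) (List.range 24) then L.any fun c => nall (fun i => Nat.beq (f i) (pa c i)) (List.range 24) else true

theorem eq_of_leaf {L : List ℕ} (hL : (L.all okPerm) = true) {σ : Equiv.Perm GolayPt} {f : ℕ → ℕ} (hf : ∀ i < 24, f i = ap σ i)
    (h : (L.any fun c => nall (fun i => Nat.beq (f i) (pa c i)) (List.range 24)) = true) : ∃ c ∈ L, mkPerm c = σ := by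
  rw [List.any_eq_true] at h
  obtain ⟨c, hc, h1⟩ := h
  refine ⟨c, hc, ?_⟩
  rw [nall_iff] at h1
  have hcp := okPerm_isPerm (List.all_eq_true.1 hL c hc)
  apply ap_ext
  intro i hi
  rw [ap_mkPerm hcp hi, ← hf i hi, Nat.eq_of_beq_eq_true (h1 i (List.mem_range.2 hi)), pa_eq]

theorem lfc_imp {P : Equiv.Perm GolayPt → Prop} {L : List ℕ} (hL : (L.all okPerm) = true) :
    LeafImp P (fun σ => σ * σ * σ = 1 → ∃ c ∈ L, mkPerm c = σ) (lfc L) := by
  intro σ hσ _ f hf h h3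
  unfold lfc at h
  have h1 : nall (fun i => Nat.beq (f (f (f i))) i) (List.range 24) = true := by
    rw [nall_iff]
    intro i hi
    have hi' := List.mem_range.1 hi
    rw [hf i hi', hf _ (ap_lt _ _), hf _ (ap_lt _ _), ← ap_mul, ← ap_mul, h3, show ap 1 i = i from gidx_gpt hi']
    exact Nat.beq_refl i
  rw [h1, cond_true] at h
  exact eq_of_leaf hL hf h

/-- leaf test: commuting with the listed elements implies listed -/
def lfd (M L : List ℕ) (f : ℕ → ℕ) : Bool :=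
  bif (M.all fun g => nall (fun i => Nat.beq (f (pa g i)) (pa g (f i))) (List.range 24)) then
    L.any fun c => nall (fun i => Nat.beq (f i) (pa c i)) (List.range 24) else true

theorem lfd_imp {P : Equiv.Perm GolayPt → Prop} {M L : List ℕ} (hM : (M.all okPerm) = true) (hL : (L.all okPerm) = true) :
    LeafImp P (fun σ => (∀ g ∈ M, σ * mkPerm g = mkPerm g * σ) → ∃ c ∈ L, mkPerm c = σ) (lfd M L) := by
  intro σ hσ _ f hf h h3
  unfold lfd at h
  have h1 : (M.all fun g => nall (fun i => Nat.beq (f (pa g i)) (pa g (f i))) (List.range 24)) = true := by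
    rw [List.all_eq_true]
    intro g hg
    have hgp := okPerm_isPerm (List.all_eq_true.1 hM g hg)
    rw [nall_iff]
    intro i hi
    have hi' := List.mem_range.1 hi
    have h4 : ap (σ * mkPerm g) i = ap (mkPerm g * σ) i := by rw [h3 g hg]
    rw [ap_mul, ap_mul, ap_mkPerm hgp hi', ap_mkPerm hgp (ap_lt _ _)] at h4
    rw [pa_eq, pa_eq, hf _ (papp_lt hgp hi'), hf i hi', h4]
    exact Nat.beq_refl _
  rw [h1, cond_true] at h
  exact eq_of_leaf hL hf h

theorem c9 : ∀ σ ∈ M24, StabMs ms5 σ → σ * σ * σ = 1 → ∃ c ∈ L9, mkPerm c = σ :=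
  all_stabMs (ms := ms5) (by decide +kernel) (lfc_imp (L := L9) (by decide +kernel)) (by decide +kernel)

theorem d9 : ∀ σ ∈ M24, StabMs ms5 σ → (∀ g ∈ L9, σ * mkPerm g = mkPerm g * σ) → ∃ c ∈ L9, mkPerm c = σ :=
  all_stabMs (ms := ms5) (by decide +kernel) (lfd_imp (M := L9) (L := L9) (by decide +kernel) (by decide +kernel)) (by decide +kernel)


theorem fix9 : (L9.all (fixc [] [dod0, qt0, qu0, qv0, qw0])) = true := by decide +kernel
theorem cube9 : (L9.all fun c => (List.range 24).all fun i => Nat.beq (pa c (pa c (pa c i))) i) = true := by decide +kernel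
theorem comm9 : (L9.all fun c => L9.all fun d => Nat.beq (pm c d) (pm d c)) = true := by decide +kernel
theorem lt9 : (LT.all fun c => L9.elem c) = true := by decide +kernel

theorem stab9 {c : ℕ} (hc : c ∈ L9) : mkPerm c ∈ M24 ∧ StabMs ms5 (mkPerm c) := by
  obtain ⟨hp, h1, -, h3⟩ := fixc_spec (List.all_eq_true.1 fix9 c hc)
  refine ⟨h1, ms5_iff.2 ⟨h3 dod0 (by simp), fun t ht => ?_⟩⟩
  rw [mem_Q0] at ht
  rcases ht with rfl | rfl | rfl | rfl
  · exact h3 qt0 (by simp)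
  · exact h3 qu0 (by simp)
  · exact h3 qv0 (by simp)
  · exact h3 qw0 (by simp)

/-- fixed points of the four subgroups of order three -/
def fixOK (c t : ℕ) : Bool := L9.elem c && (List.range 24).all fun i => !(dod0.testBit i) || (Nat.beq (pa c i) i == t.testBit i)

theorem fixs : fixOK (LT.getD 0 0) qt0 = true ∧ fixOK (LT.getD 1 0) qu0 = true ∧ fixOK (LT.getD 2 0) qv0 = true ∧
    fixOK (LT.getD 3 0) qw0 = true := by decide +kernel

theorem fix_spec {c t : ℕ} (h : fixOK c t = true) : c ∈ L9 ∧ ∀ p ∈ toSet dod0, mkPerm c p = p ↔ p ∈ toSet t := by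
  unfold fixOK at h
  rw [Bool.and_eq_true] at h
  have hc : c ∈ L9 := by simpa using h.1
  have hp := (fixc_spec (List.all_eq_true.1 fix9 c hc)).1
  refine ⟨hc, fun p hpd => ?_⟩
  have h1 := List.all_eq_true.1 h.2 (gidx p) (List.mem_range.2 (gidx_lt p))
  rw [mem_toSet] at hpd
  rw [hpd, Bool.not_true, Bool.false_or, beq_iff_eq] at h1
  rw [mem_toSet, ← h1, Nat.beq_eq, pa_eq, mkPerm_apply hp]
  constructor
  · intro h2
    have h3 := congrArg gidx h2
    rwa [gidx_gpt (papp_lt hp (gidx_lt p))] at h3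
  · intro h2
    rw [h2, gpt_gidx]

theorem cube_spec {c : ℕ} (hc : c ∈ L9) : mkPerm c * mkPerm c * mkPerm c = 1 := by
  have hp := (fixc_spec (List.all_eq_true.1 fix9 c hc)).1
  apply ap_ext
  intro i hi
  have h1 := List.all_eq_true.1 (List.all_eq_true.1 cube9 c hc) i (List.mem_range.2 hi)
  rw [Nat.beq_eq] at h1
  rw [ap_mul, ap_mul, ap_mkPerm hp hi, ap_mkPerm hp (papp_lt hp hi), ap_mkPerm hp (papp_lt hp (papp_lt hp hi))]
  exact h1.trans (gidx_gpt hi).symm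

theorem comm_spec {c d : ℕ} (hc : c ∈ L9) (hd : d ∈ L9) : mkPerm c * mkPerm d = mkPerm d * mkPerm c := by
  have h1 := List.all_eq_true.1 (List.all_eq_true.1 comm9 c hc) d hd
  rw [Nat.beq_eq] at h1
  rw [← mkPerm_pm (grpOK_mem grp9 hc).1 (grpOK_mem grp9 hd).1, h1, mkPerm_pm (grpOK_mem grp9 hd).1 (grpOK_mem grp9 hc).1]

/-- the normal subgroup of order nine -/
noncomputable def NN : Subgroup KQ := (subL L9 grp9).comap (M24.subtype.comp KQ.subtype)

theorem mem_NN {g : KQ} : g ∈ NN ↔ ∃ c ∈ L9, mkPerm c = ((g : ↥M24) : Equiv.Perm GolayPt) := Iff.rfl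

theorem mem_NN' {g : KQ} : g ∈ NN ↔ (∀ t ∈ Q0, ((g : ↥M24) : Equiv.Perm GolayPt) • t = t) ∧
    ((g : ↥M24) : Equiv.Perm GolayPt) * ((g : ↥M24) : Equiv.Perm GolayPt) * ((g : ↥M24) : Equiv.Perm GolayPt) = 1 := by
  constructor
  · rintro ⟨c, hc, h⟩
    have h' : mkPerm c = ((g : ↥M24) : Equiv.Perm GolayPt) := h
    rw [← h']
    exact ⟨(ms5_iff.1 (stab9 hc).2).2, cube_spec hc⟩
  · rintro ⟨h1, h2⟩
    exact c9 _ (g : ↥M24).2 (ms5_iff.2 ⟨(mem_KQ.1 g.2).1, h1⟩) h2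

theorem NN_normal : NN.Normal := by
  refine ⟨fun n hn g => ?_⟩
  rw [mem_NN'] at hn ⊢
  obtain ⟨h1, h2⟩ := hn
  refine ⟨fun t ht => ?_, ?_⟩
  · show (((g : ↥M24) : Equiv.Perm GolayPt) * ((n : ↥M24) : Equiv.Perm GolayPt) * ((g : ↥M24) : Equiv.Perm GolayPt)⁻¹) • t = t
    have h3 : ((g : ↥M24) : Equiv.Perm GolayPt)⁻¹ • t ∈ Q0 := by
      have h4 := (mem_KQ.1 g.2).2
      rw [← h4, Finset.mem_smul_finset] at ht
      obtain ⟨s, hs, rfl⟩ := ht
      rw [inv_smul_smul]; exact hs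
    rw [mul_smul, mul_smul, h1 _ h3, smul_inv_smul]
  · show (((g : ↥M24) : Equiv.Perm GolayPt) * ((n : ↥M24) : Equiv.Perm GolayPt) * ((g : ↥M24) : Equiv.Perm GolayPt)⁻¹) *
      (((g : ↥M24) : Equiv.Perm GolayPt) * ((n : ↥M24) : Equiv.Perm GolayPt) * ((g : ↥M24) : Equiv.Perm GolayPt)⁻¹) *
      (((g : ↥M24) : Equiv.Perm GolayPt) * ((n : ↥M24) : Equiv.Perm GolayPt) * ((g : ↥M24) : Equiv.Perm GolayPt)⁻¹) = 1
    have : ∀ a b : Equiv.Perm GolayPt, b * b * b = 1 → (a * b * a⁻¹) * (a * b * a⁻¹) * (a * b * a⁻¹) = 1 := by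
      intro a b hb
      calc (a * b * a⁻¹) * (a * b * a⁻¹) * (a * b * a⁻¹) = a * (b * b * b) * a⁻¹ := by group
        _ = 1 := by rw [hb, mul_one, mul_inv_cancel]
    exact this _ _ h2

theorem card_NN : Nat.card NN = 9 := by
  have h : Nat.card (subL L9 grp9) = 9 := card_subL nodup9
  rw [← h]
  refine Nat.card_congr ⟨fun g => ⟨((g : KQ) : ↥M24), g.2⟩, fun σ => ⟨⟨⟨σ, subL_le σ.2⟩, ?_⟩, σ.2⟩, fun _ => rfl, fun _ => rfl⟩
  obtain ⟨c, hc, h⟩ := mem_subL.1 σ.2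
  have h1 := stab9 hc
  rw [h] at h1
  have h2 := ms5_iff.1 h1.2
  refine mem_KQ.2 ⟨h2.1, ?_⟩
  apply Finset.eq_of_subset_of_card_le
  · intro t ht
    obtain ⟨s, hs, rfl⟩ := Finset.mem_smul_finset.1 ht
    show (σ : Equiv.Perm GolayPt) • s ∈ Q0
    rw [h2.2 s hs]; exact hs
  · rw [Finset.card_smul_finset]

theorem cent_NN (g : KQ) (h : ∀ a ∈ NN, g * a = a * g) : g ∈ NN := by
  have hc : ∀ c ∈ L9, ((g : ↥M24) : Equiv.Perm GolayPt) * mkPerm c = mkPerm c * ((g : ↥M24) : Equiv.Perm GolayPt) := by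
    intro c hc
    have h1 := (stab9 hc)
    have h2 := ms5_iff.1 h1.2
    have hK : (⟨mkPerm c, h1.1⟩ : ↥M24) ∈ KQ := by
      refine mem_KQ.2 ⟨h2.1, ?_⟩
      apply Finset.eq_of_subset_of_card_le
      · intro t ht
        obtain ⟨s, hs, rfl⟩ := Finset.mem_smul_finset.1 ht
        show mkPerm c • s ∈ Q0
        rw [h2.2 s hs]; exact hs
      · rw [Finset.card_smul_finset]
    have h3 := h ⟨⟨mkPerm c, h1.1⟩, hK⟩ (mem_NN.2 ⟨c, hc, rfl⟩)
    exact congrArg (fun x : KQ => ((x : ↥M24) : Equiv.Perm GolayPt)) h3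
  have hd := (mem_KQ.1 g.2).1
  have key : ∀ c t : ℕ, fixOK c t = true → toSet t ⊆ toSet dod0 → ((g : ↥M24) : Equiv.Perm GolayPt) • toSet t = toSet t := by
    intro c t hct hsub
    obtain ⟨hc9, hf⟩ := fix_spec hct
    apply Finset.eq_of_subset_of_card_le
    · intro p hp
      obtain ⟨q, hq, rfl⟩ := Finset.mem_smul_finset.1 hp
      have hqd := hsub hq
      have h1 : ((g : ↥M24) : Equiv.Perm GolayPt) • q ∈ toSet dod0 := by
        rw [← hd]; exact Finset.smul_mem_smul_finset hqd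
      rw [← hf _ h1]
      have h2 := (hf q hqd).2 hq
      show (mkPerm c * ((g : ↥M24) : Equiv.Perm GolayPt)) q = ((g : ↥M24) : Equiv.Perm GolayPt) q
      rw [← hc c hc9, Equiv.Perm.mul_apply, h2]
    · rw [Finset.card_smul_finset]
  obtain ⟨f1, f2, f3, f4⟩ := fixs
  have hst : StabMs ms5 ((g : ↥M24) : Equiv.Perm GolayPt) := by
    rw [ms5_iff]
    refine ⟨hd, fun t ht => ?_⟩
    have hs := (Q0_mem.2.1 t ht).2
    rw [mem_Q0] at ht
    rcases ht with rfl | rfl | rfl | rfl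
    · exact key _ _ f1 hs
    · exact key _ _ f2 hs
    · exact key _ _ f3 hs
    · exact key _ _ f4 hs
  exact mem_NN.2 (d9 _ (g : ↥M24).2 hst hc)

theorem card_GL23 : Nat.card (GL (Fin 2) (ZMod 3)) = 48 := by
  rw [Matrix.card_GL_field, ZMod.card]
  decide

theorem base2 : ∃ (N : Subgroup KQ) (_ : N.Normal), Nat.card N = 9 ∧ Nonempty (KQ ⧸ N ≃* GL (Fin 2) (ZMod 3)) := by
  have := NN_normal
  refine ⟨NN, NN_normal, card_NN, ?_⟩
  refine quot_GL (p := 3) (n := 2) NN ?_ ?_ card_NN cent_NN ?_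
  · rintro a ⟨c, hc, ha⟩ b ⟨d, hd, hb⟩
    have ha' : mkPerm c = ((a : ↥M24) : Equiv.Perm GolayPt) := ha
    have hb' : mkPerm d = ((b : ↥M24) : Equiv.Perm GolayPt) := hb
    apply Subtype.ext
    apply Subtype.ext
    show ((a : ↥M24) : Equiv.Perm GolayPt) * ((b : ↥M24) : Equiv.Perm GolayPt) = ((b : ↥M24) : Equiv.Perm GolayPt) * ((a : ↥M24) : Equiv.Perm GolayPt)
    rw [← ha', ← hb', comm_spec hc hd]
  · rintro a ⟨c, hc, ha⟩
    have ha' : mkPerm c = ((a : ↥M24) : Equiv.Perm GolayPt) := ha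
    apply Subtype.ext
    apply Subtype.ext
    show ((a : ↥M24) : Equiv.Perm GolayPt) ^ 3 = 1
    rw [← ha', pow_succ, pow_two, cube_spec hc]
  · rw [card_KQ, card_GL23]; norm_num

/-- code test for the quartet group -/
def qfix (c : ℕ) : Bool := okPerm c && (Nat.beq (pim c dod0) dod0 && ([qt0, qu0, qv0, qw0].all fun m => [qt0, qu0, qv0, qw0].elem (pim c m)))

theorem qfix_spec {c : ℕ} (h : qfix c = true) : ∃ hM : mkPerm c ∈ M24, (⟨mkPerm c, hM⟩ : ↥M24) ∈ KQ := by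
  unfold qfix at h
  rw [Bool.and_eq_true, Bool.and_eq_true] at h
  have hp := okPerm_isPerm h.1
  refine ⟨mkPerm_mem_M24 h.1, mem_KQ.2 ⟨?_, ?_⟩⟩
  · show mkPerm c • toSet dod0 = toSet dod0
    rw [smul_toSet hp, ← pim_eq, Nat.eq_of_beq_eq_true h.2.1]
  · show mkPerm c • Q0 = Q0
    apply Finset.eq_of_subset_of_card_le
    · intro t ht
      obtain ⟨s, hs, rfl⟩ := Finset.mem_smul_finset.1 ht
      have key : ∀ m ∈ [qt0, qu0, qv0, qw0], mkPerm c • toSet m ∈ Q0 := by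
        intro m hm
        have h1 := List.all_eq_true.1 h.2.2 m hm
        rw [smul_toSet hp, ← pim_eq]
        rw [List.elem_iff] at h1
        simp only [List.mem_cons, List.not_mem_nil, or_false] at h1
        rcases h1 with h1 | h1 | h1 | h1
        · exact mem_Q0.2 (Or.inl (congrArg toSet h1))
        · exact mem_Q0.2 (Or.inr (Or.inl (congrArg toSet h1)))
        · exact mem_Q0.2 (Or.inr (Or.inr (Or.inl (congrArg toSet h1))))
        · exact mem_Q0.2 (Or.inr (Or.inr (Or.inr (congrArg toSet h1))))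
      rw [mem_Q0] at hs
      rcases hs with rfl | rfl | rfl | rfl
      · exact key qt0 (by simp)
      · exact key qu0 (by simp)
      · exact key qv0 (by simp)
      · exact key qw0 (by simp)
    · rw [Finset.card_smul_finset]

theorem q12 : (L12.all qfix) = true := by decide +kernel
theorem q12b : ([0,1,2,3,4,12,16,17,18,19,21,23].all fun j => L12.any fun c => Nat.beq (pa c 23) j) = true := by decide +kernel
theorem in0 : ∀ x : GolayPt, x ∈ toSet dod0 → ∃ j ∈ [0,1,2,3,4,12,16,17,18,19,21,23], x = gpt j := by decide +kernel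

theorem base3 (y : GolayPt) (hy : y ∈ toSet dod0) : ∃ σ ∈ M24, σ • (toSet dod0, Q0) = (toSet dod0, Q0) ∧ σ • gpt 23 = y := by
  obtain ⟨j, hj, rfl⟩ := in0 y hy
  obtain ⟨c, hc, h⟩ := List.any_eq_true.1 (List.all_eq_true.1 q12b j hj)
  obtain ⟨hM, hK⟩ := qfix_spec (List.all_eq_true.1 q12 c hc)
  have h1 := List.all_eq_true.1 q12 c hc
  unfold qfix at h1
  rw [Bool.and_eq_true] at h1
  refine ⟨mkPerm c, hM, hK, ?_⟩
  show mkPerm c (gpt 23) = gpt j
  rw [mkPerm_gpt (okPerm_isPerm h1.1) (by norm_num), ← pa_eq, Nat.eq_of_beq_eq_true h]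

/-- A quartet stabiliser inside the dodecad stabiliser has order 432, a normal subgroup of order 9 with quotient GL(2, 3), and is transitive on the dodecad. -/
theorem result (d : Finset Cfsg.GolayPt) (hd : d ∈ Cfsg.dodecads) (Q : Finset (Finset Cfsg.GolayPt)) (hQ : Q ∈ Cfsg.quartets d) : Nat.card ↥(MulAction.stabilizer Cfsg.M24 d ⊓ MulAction.stabilizer Cfsg.M24 Q) = 432 ∧ (∃ (N : Subgroup ↥(MulAction.stabilizer Cfsg.M24 d ⊓ MulAction.stabilizer Cfsg.M24 Q)) (_ : N.Normal), Nat.card N = 9 ∧ Nonempty (↥(MulAction.stabilizer Cfsg.M24 d ⊓ MulAction.stabilizer Cfsg.M24 Q) ⧸ N ≃* GL (Fin 2) (ZMod 3))) ∧ ∀ p ∈ d, ∀ q ∈ d, ∃ g ∈ (MulAction.stabilizer Cfsg.M24 d ⊓ MulAction.stabilizer Cfsg.M24 Q), ((g : ↥Cfsg.M24) : Equiv.Perm Cfsg.GolayPt) p = q := by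
  have hst := std_Q hd hQ
  rw [stab_pair_eq]
  refine ⟨?_, ?_, ?_⟩
  · rw [card_stab_tr hst]; exact card_KQ
  · obtain ⟨e⟩ := equiv_stab_tr hst
    exact exists_normal_congr e base2
  · intro x hx y hy
    obtain ⟨g, hg, h1, h2⟩ := tr_all (a0 := (toSet dod0, Q0)) (fun (a : Finset GolayPt × Finset (Finset GolayPt)) (x : GolayPt) => x ∈ a.1)
      (fun σ hσ a x h => (smul_mem_smul' σ _ _).2 h)
      (R := fun _ _ _ => True) (fun _ _ _ _ _ _ => trivial) (fun x y hx hy _ => tr_of_base (a0 := (toSet dod0, Q0)) (Y := {x | x ∈ toSet dod0})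
        (x0 := gpt 23) (fun y hy => base3 y hy) x hx y hy)
      hst x y hx hy trivial
    exact ⟨⟨g, hg⟩, h1, h2⟩

end Cfsg.Agent.S1598
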