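import Cfsg.Statements.S1599
import Cfsg.Agent.H29.Quart3
import Cfsg.Agent.S1598
import Cfsg.Agent.S1563

set_option autoImplicit false
open scoped Pointwise
open Cfsg

namespace Cfsg.Agent.S1599

open Cfsg.Agent.H7 Cfsg.Agent.H29
open scoped Pointwise

/-- the 132 hexads on the base dodecad -/
def HX : List ℕ := [4127, 196638, 200715, 200725, 327709, 331790, 331795, 393243, 397325, 397334, 458759, 462872, 589839, 593942, 593945, 655389, 659463, 659482, 720915, 725004, 786455, 790539, 790556, 851994, 856069, 917518, 921617, 983049, 983060, 987138, 2162715, 2166791, 2166812, 2228247, 2232334, 2232345, 2293773, 2297874, 2359311, 2363413, 2363418, 2424854, 2428937, 2490396, 2494467, 2555914, 2555921, 2560004, 2621470, 2625549, 2625555, 2686997, 2691082, 2752523, 2756628, 2818054, 2818072, 2822145, 2883609, 2887686, 2949123, 2949132, 2953232, 3014661, 3014674, 3018760, 8454167, 8458253, 8458266, 8519695, 8523795, 8523804, 8585241, 8589318, 8650782, 8654855, 8654873,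 8716299, 8720404, 8781845, 8785930, 8847372, 8847378, 8851457, 8912923, 8917006, 8917013, 8978460, 8982531, 9043990, 9048073, 9109509, 9109514, 9113616, 9175053, 9179154, 9240582, 9240593, 9244680, 9306115, 9306136, 9310212, 10485789, 10489867, 10489878, 10551310, 10555409, 10616858, 10620933, 10682371, 10682388, 10686472, 10747923, 10752012, 10813445, 10813464, 10817538, 10878982, 10878985, 10883088, 11010055, 11014168, 11075593, 11075602, 11079684, 11141132, 11141137, 11145218, 11272202, 11272212, 11276289, 11468800]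

/-- the 220 quartets on the base dodecad -/
def QL : List (ℕ × ℕ × ℕ × ℕ) := [(458752, 528386, 2097169, 8388620),
  (458752, 524297, 2101252, 8388626),
  (393217, 589832, 2101250, 8388628),
  (331776, 655362, 2097161, 8388628),
  (327682, 659456, 2097172, 8388617),
  (458752, 524308, 2097162, 8392705),
  (393224, 589825, 2097172, 8392706),
  (266242, 720896, 2097176, 8388613),
  (262164, 720896, 2101249, 8388618),
  (262153, 720896, 2097158, 8392720),
  (196624, 786436, 2101250, 8388617),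
  (397312, 524305, 2162692, 8388618),
  (196612, 786448, 2097161, 8392706),
  (393220, 524298, 2166784, 8388625),
  (135170, 851968, 2097164, 8388625),
  (131081, 851968, 2101264, 8388614),
  (266241, 655376, 2162696, 8388614),
  (131092, 851968, 2097155, 8392712),
  (262150, 655368, 2162704, 8392705),
  (69634, 917504, 2097157, 8388632),
  (65556, 917504, 2101256, 8388611),
  (65545, 917504, 2097170, 8392708),
  (135184, 786433, 2162690, 8388620),
  (327681, 528388, 2228240, 8388618),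
  (131084, 786434, 2162689, 8392720),
  (266241, 589828, 2228226, 8388632),
  (327696, 524298, 2228225, 8392708),
  (262168, 589826, 2228228, 8392705),
  (65541, 790528, 2228232, 8388626),
  (65554, 786440, 2232320, 8388613),
  (266244, 524312, 2293760, 8388611),
  (262154, 528385, 2293760, 8388628),
  (262161, 524294, 2293760, 8392712),
  (196616, 528388, 2359298, 8388625),
  (393232, 528385, 2097164, 8454146),
  (131084, 593920, 2359312, 8388611),
  (196610, 524305, 2359304, 8392708),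
  (393218, 524300, 2101249, 8454160),
  (131075, 589840, 2363392, 8388620),
  (69640, 655364, 2359297, 8388626),
  (266256, 655361, 2097162, 8454148),
  (262154, 655364, 2101264, 8454145),
  (65554, 655361, 2359300, 8392712),
  (131089, 790528, 2097158, 8454152),
  (135172, 524291, 2424832, 8388632),
  (131082, 528400, 2424832, 8388613),
  (131078, 786440, 2097169, 8458240),
  (131089, 524300, 2424832, 8392706),
  (262147, 524308, 2232320, 8454152),
  (262164, 524291, 2228232, 8458240),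
  (69636, 524306, 2490368, 8388617),
  (65553, 528392, 2490368, 8388614),
  (65546, 524293, 2490368, 8392720),
  (4120, 786436, 2228225, 8454146),
  (4108, 786448, 2228226, 8454145),
  (4105, 786434, 2228240, 8454148),
  (4106, 786433, 2228228, 8454160),
  (135170, 524312, 2359297, 8454148),
  (131096, 528386, 2359300, 8454145),
  (200704, 262168, 2621441, 8388614),
  (135184, 327688, 2621444, 8388611),
  (327684, 528385, 2097170, 8519688),
  (196609, 262150, 2625536, 8388632),
  (327688, 524306, 2101249, 8519684),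
  (69640, 393232, 2621442, 8388613),
  (262149, 593920, 2097162, 8519696),
  (131075, 327684, 2621448, 8392720),
  (4101, 655362, 2359312, 8454152),
  (65541, 393218, 2621456, 8392712),
  (262154, 589840, 2097157, 8523776),
  (7, 659456, 2359304, 8454160),
  (21, 655368, 2363392, 8454146),
  (13, 655376, 2359298, 8458240),
  (69636, 786433, 2097176, 8519682),
  (266248, 524308, 2162689, 8519682),
  (262164, 528392, 2162690, 8519681),
  (65560, 786434, 2101252, 8519681),
  (135169, 262156, 2686976, 8388626),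
  (131078, 266256, 2686976, 8388617),
  (131096, 262147, 2686976, 8392708),
  (4099, 786440, 2162692, 8519696),
  (11, 790528, 2162704, 8519684),
  (7, 786448, 2166784, 8519688),
  (19, 786436, 2162696, 8523776),
  (69633, 262162, 2752512, 8388620),
  (65542, 266248, 2752512, 8388625),
  (65560, 262149, 2752512, 8392706),
  (135172, 262153, 2621456, 8454146),
  (131081, 266244, 2621442, 8454160),
  (266241, 524298, 2097172, 8585216),
  (65545, 524294, 2363392, 8519696),
  (262156, 528400, 2097155, 8585216),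
  (262162, 524293, 2101256, 8585216),
  (4114, 589828, 2359304, 8519681),
  (4113, 589832, 2359300, 8519682),
  (4120, 589825, 2359298, 8519684),
  (4116, 589826, 2359297, 8519688),
  (4114, 393220, 2621441, 8454152),
  (65542, 524297, 2359312, 8523776),
  (22, 397312, 2621448, 8454145),
  (19, 393224, 2625536, 8454148),
  (26, 393217, 2621444, 8458240),
  (69648, 131077, 2883584, 8388618),
  (65539, 135176, 2883584, 8388628),
  (65548, 131090, 2883584, 8392705),
  (69634, 262161, 2621448, 8519684),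
  (65553, 266242, 2621444, 8519688),
  (200704, 524300, 2097170, 8650753),
  (4108, 327682, 2621441, 8519696),
  (14, 331776, 2621456, 8519681),
  (13, 327696, 2625536, 8519682),
  (135176, 589828, 2097169, 8650754),
  (131089, 589826, 2101256, 8650756),
  (196609, 524306, 2097164, 8654848),
  (28, 327681, 2621442, 8523776),
  (69636, 655368, 2097155, 8650768),
  (65539, 655376, 2101252, 8650760),
  (135170, 524293, 2162704, 8650760),
  (131077, 528386, 2162696, 8650768),
  (4120, 655362, 2162692, 8650753),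
  (26, 659456, 2162689, 8650756),
  (28, 655361, 2166784, 8650754),
  (25, 655364, 2162690, 8654848),
  (69648, 524297, 2228226, 8650756),
  (65545, 528400, 2228228, 8650754),
  (4102, 589840, 2228232, 8650753),
  (22, 593920, 2228225, 8650760),
  (14, 589825, 2232320, 8650768),
  (7, 589832, 2228240, 8654848),
  (135169, 524294, 2097176, 8716288),
  (131090, 528392, 2097157, 8716288),
  (131084, 524305, 2101250, 8716288),
  (4101, 196624, 2621448, 8650754),
  (4113, 196612, 2621442, 8650760),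
  (4099, 196616, 2621456, 8650756),
  (4105, 196610, 2621444, 8650768),
  (65546, 131092, 2625536, 8650753),
  (69633, 524312, 2097158, 8781824),
  (65556, 131082, 2621441, 8654848),
  (65554, 528388, 2097161, 8781824),
  (65548, 524291, 2101264, 8781824),
  (25, 4102, 2883584, 8585216),
  (11, 4116, 2752512, 8716288),
  (196616, 266256, 2097157, 8912898),
  (196610, 262149, 2101264, 8912904),
  (135176, 327696, 2097158, 8912897),
  (131078, 327681, 2101256, 8912912),
  (65560, 397312, 2097155, 8912900),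
  (65539, 393220, 2097176, 8916992),
  (131090, 262153, 2166784, 8912900),
  (4116, 393218, 2162696, 8912897),
  (4108, 393217, 2162704, 8912898),
  (4102, 393232, 2162689, 8912904),
  (4101, 393224, 2162690, 8912912),
  (131081, 262162, 2162692, 8916992),
  (21, 4106, 2686976, 8781824),
  (69634, 262156, 2228240, 8912897),
  (65548, 266242, 2228225, 8912912),
  (4113, 327682, 2228232, 8912900),
  (19, 331776, 2228228, 8912904),
  (25, 327684, 2232320, 8912898),
  (21, 327688, 2228226, 8916992),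
  (69633, 131092, 2359304, 8912898),
  (65556, 135169, 2359298, 8912904),
  (4106, 196609, 2359312, 8912900),
  (11, 200704, 2359300, 8912912),
  (26, 196612, 2363392, 8912897),
  (135184, 262150, 2097161, 8978432),
  (131077, 266248, 2097170, 8978432),
  (131082, 262161, 2101252, 8978432),
  (14, 196624, 2359297, 8916992),
  (69648, 262147, 2097164, 9043968),
  (65546, 266244, 2097169, 9043968),
  (65541, 262168, 2101250, 9043968),
  (28, 4099, 2490368, 8978432),
  (22, 4105, 2424832, 9043968),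
  (69640, 131075, 2097172, 9175040),
  (65553, 135172, 2097162, 9175040),
  (65542, 131096, 2101249, 9175040),
  (13, 4114, 2293760, 9175040),
  (196624, 266248, 524291, 10485764),
  (196612, 262147, 528392, 10485776),
  (131096, 331776, 524293, 10485762),
  (69648, 393224, 524294, 10485761),
  (135172, 262162, 589832, 10485761),
  (131090, 266244, 589825, 10485768),
  (65542, 393217, 528400, 10485768),
  (131077, 327682, 524312, 10489856),
  (4105, 393220, 589840, 10485762),
  (13, 397312, 589826, 10485776),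
  (25, 393218, 593920, 10485764),
  (65548, 262161, 659456, 10485762),
  (4106, 327684, 655376, 10485761),
  (4114, 327681, 655368, 10485764),
  (4099, 327696, 655364, 10485768),
  (4102, 327688, 655361, 10485776),
  (65553, 262156, 655362, 10489856),
  (11, 393232, 589828, 10489856),
  (69633, 131082, 786436, 10485776),
  (65546, 135169, 786448, 10485764),
  (4116, 196609, 786440, 10485762),
  (21, 200704, 786434, 10485768),
  (28, 196610, 790528, 10485761),
  (22, 196616, 786433, 10489856),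
  (135176, 262149, 524306, 10551296),
  (131092, 266242, 524297, 10551296),
  (131075, 262168, 528388, 10551296),
  (14, 4113, 917504, 10551296),
  (69640, 262150, 524305, 10616832),
  (65539, 266256, 524300, 10616832),
  (65556, 262153, 528386, 10616832),
  (26, 4101, 851968, 10616832),
  (69634, 131081, 524308, 10747904),
  (65541, 135184, 524298, 10747904),
  (65560, 131078, 528385, 10747904),
  (19, 4108, 720896, 10747904),
  (69636, 131089, 262154, 11010048),
  (65545, 135170, 262164, 11010048),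
  (65554, 131084, 266241, 11010048),
  (7, 4120, 458752, 11010048)]

def gens : List ℕ := [0x93405112037aac132d34720ecbd633,
  0x58698ce507adb5351472b90460ae1,
  0xadae5112117a9a159a8971d130486c,
  0xabe0994e376d2c259cc5521c120183,
  0xabc058ca62b29a14a0eb750d0b906c,
  0x13d89082f2696d5a21ca598f11cc90,
  0x1342994e23b19e052cb43a1ccbd604,
  0x3d8980891b2db53a1c62aa921cee1,
  0x9b6a881040b19e34d16e51ca165e51,
  0x13e3405c23b19b2538e92a1759b204,
  0x25ae7ab0736a5e04296533a920c450,
  0x9d889082e37a9a242caea18ec85632,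
  0x136b48ca6079ecc4a16a718a11dc90,
  0x136aa9466079ac34b8b441d7760604,
  0xbeae14092b51ac2a12a399711cee0]

/-- the quartet of an entry -/
def qs (e : ℕ × ℕ × ℕ × ℕ) : Finset (Finset GolayPt) := {toSet e.1, toSet e.2.1, toSet e.2.2.1, toSet e.2.2.2}

def eOK (e : ℕ × ℕ × ℕ × ℕ) : Bool :=
  (Nat.blt e.1 e.2.1 && (Nat.blt e.2.1 e.2.2.1 && (Nat.blt e.2.2.1 e.2.2.2 && Nat.blt e.2.2.2 16777216))) &&
  ([e.1, e.2.1, e.2.2.1, e.2.2.2].all (fun m => Nat.beq (popc m) 3 && Nat.beq (m &&& dod0) m)) &&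
  ([e.1 ||| e.2.1, e.1 ||| e.2.2.1, e.1 ||| e.2.2.2, e.2.1 ||| e.2.2.1, e.2.1 ||| e.2.2.2, e.2.2.1 ||| e.2.2.2].all HX.elem)

theorem HX_ok : (HX.all fun m => hexd m && Nat.blt m 16777216) = true := by decide +kernel
theorem QL_ok : (QL.all eOK) = true := by decide +kernel


theorem eOK_spec {e : ℕ × ℕ × ℕ × ℕ} (h : e ∈ QL) : (e.1 < e.2.1 ∧ e.2.1 < e.2.2.1 ∧ e.2.2.1 < e.2.2.2 ∧ e.2.2.2 < 16777216) ∧
    (∀ m ∈ [e.1, e.2.1, e.2.2.1, e.2.2.2], popc m = 3 ∧ m &&& dod0 = m) ∧
    ∀ m ∈ [e.1 ||| e.2.1, e.1 ||| e.2.2.1, e.1 ||| e.2.2.2, e.2.1 ||| e.2.2.1, e.2.1 ||| e.2.2.2, e.2.2.1 ||| e.2.2.2], m ∈ HX := by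
  have h1 := List.all_eq_true.1 QL_ok e h
  unfold eOK at h1
  rw [Bool.and_eq_true, Bool.and_eq_true, Bool.and_eq_true, Bool.and_eq_true, Bool.and_eq_true, List.all_eq_true, List.all_eq_true] at h1
  obtain ⟨⟨⟨a1, a2, a3, a4⟩, h2⟩, h3⟩ := h1
  refine ⟨⟨by simpa using a1, by simpa using a2, by simpa using a3, by simpa using a4⟩, fun m hm => ?_, fun m hm => by simpa using h3 m hm⟩
  have := h2 m hm
  rw [Bool.and_eq_true, Nat.beq_eq, Nat.beq_eq] at this
  exact this

theorem lt_e {e : ℕ × ℕ × ℕ × ℕ} (h : e ∈ QL) : e.1 < 16777216 ∧ e.2.1 < 16777216 ∧ e.2.2.1 < 16777216 ∧ e.2.2.2 < 16777216 := by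
  obtain ⟨⟨a1, a2, a3, a4⟩, -, -⟩ := eOK_spec h
  omega

theorem mem_qs {e : ℕ × ℕ × ℕ × ℕ} {s : Finset GolayPt} : s ∈ qs e ↔ s = toSet e.1 ∨ s = toSet e.2.1 ∨ s = toSet e.2.2.1 ∨ s = toSet e.2.2.2 := by
  unfold qs; simp

theorem sum_qs {e : ℕ × ℕ × ℕ × ℕ} (h : e ∈ QL) (f : Finset GolayPt → ℕ) :
    ∑ t ∈ qs e, f t = f (toSet e.1) + (f (toSet e.2.1) + (f (toSet e.2.2.1) + f (toSet e.2.2.2))) := by
  obtain ⟨⟨a1, a2, a3, a4⟩, -, -⟩ := eOK_spec h
  obtain ⟨b1, b2, b3, b4⟩ := lt_e h
  have n12 : toSet e.1 ≠ toSet e.2.1 := fun h => by have := toSet_inj b1 b2 h; omega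
  have n13 : toSet e.1 ≠ toSet e.2.2.1 := fun h => by have := toSet_inj b1 b3 h; omega
  have n14 : toSet e.1 ≠ toSet e.2.2.2 := fun h => by have := toSet_inj b1 b4 h; omega
  have n23 : toSet e.2.1 ≠ toSet e.2.2.1 := fun h => by have := toSet_inj b2 b3 h; omega
  have n24 : toSet e.2.1 ≠ toSet e.2.2.2 := fun h => by have := toSet_inj b2 b4 h; omega
  have n34 : toSet e.2.2.1 ≠ toSet e.2.2.2 := fun h => by have := toSet_inj b3 b4 h; omega
  unfold qs
  rw [Finset.sum_insert, Finset.sum_insert, Finset.sum_insert, Finset.sum_singleton]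
  · rw [Finset.mem_singleton]; exact n34
  · rw [Finset.mem_insert, Finset.mem_singleton, not_or]; exact ⟨n23, n24⟩
  · rw [Finset.mem_insert, Finset.mem_insert, Finset.mem_singleton, not_or, not_or]; exact ⟨n12, n13, n14⟩

theorem card_qs {e : ℕ × ℕ × ℕ × ℕ} (h : e ∈ QL) : (qs e).card = 4 := by
  rw [Finset.card_eq_sum_ones, sum_qs h]

theorem hex_HX {m : ℕ} (h : m ∈ HX) : toSet m ∈ hexadsOn (toSet dod0) := by
  have h1 := List.all_eq_true.1 HX_ok m h
  rw [Bool.and_eq_true] at h1
  exact hex_m (by simpa using h1.2) h1.1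

theorem qs_mem {e : ℕ × ℕ × ℕ × ℕ} (h : e ∈ QL) : qs e ∈ quartets (toSet dod0) := by
  obtain ⟨-, h2, h3⟩ := eOK_spec h
  refine ⟨card_qs h, ?_, ?_⟩
  · intro t ht
    have key : ∀ m ∈ [e.1, e.2.1, e.2.2.1, e.2.2.2], (toSet m).card = 3 ∧ toSet m ⊆ toSet dod0 := by
      intro m hm
      obtain ⟨g1, g2⟩ := h2 m hm
      refine ⟨by rw [card_toSet]; exact g1, ?_⟩
      rw [← Finset.inter_eq_left, ← toSet_and, g2]
    rw [mem_qs] at ht
    rcases ht with rfl | rfl | rfl | rfl
    · exact key _ (by simp)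
    · exact key _ (by simp)
    · exact key _ (by simp)
    · exact key _ (by simp)
  · intro t ht u hu htu
    have h4 : ∀ m ∈ [e.1 ||| e.2.1, e.1 ||| e.2.2.1, e.1 ||| e.2.2.2, e.2.1 ||| e.2.2.1, e.2.1 ||| e.2.2.2, e.2.2.1 ||| e.2.2.2],
      toSet m ∈ hexadsOn (toSet dod0) := fun m hm => hex_HX (h3 m hm)
    have g1 := h4 (e.1 ||| e.2.1) (by simp)
    have g2 := h4 (e.1 ||| e.2.2.1) (by simp)
    have g3 := h4 (e.1 ||| e.2.2.2) (by simp)
    have g4 := h4 (e.2.1 ||| e.2.2.1) (by simp)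
    have g5 := h4 (e.2.1 ||| e.2.2.2) (by simp)
    have g6 := h4 (e.2.2.1 ||| e.2.2.2) (by simp)
    rw [toSet_or] at g1 g2 g3 g4 g5 g6
    rw [mem_qs] at ht hu
    rcases ht with rfl | rfl | rfl | rfl <;> rcases hu with rfl | rfl | rfl | rfl <;>
      first
      | exact absurd rfl htu
      | assumption
      | (rw [Finset.union_comm]; assumption)

/-- the mask of a set -/
noncomputable def code (s : Finset GolayPt) : ℕ := Classical.choose (toSet_surj s)

theorem code_toSet {n : ℕ} (hn : n < 16777216) : code (toSet n) = n := by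
  have h := Classical.choose_spec (toSet_surj (toSet n))
  exact toSet_inj h.1 hn h.2

noncomputable def key (Q : Finset (Finset GolayPt)) : ℕ := ∑ t ∈ Q, code t * code t

def kE (e : ℕ × ℕ × ℕ × ℕ) : ℕ := e.1 * e.1 + (e.2.1 * e.2.1 + (e.2.2.1 * e.2.2.1 + e.2.2.2 * e.2.2.2))

theorem key_qs {e : ℕ × ℕ × ℕ × ℕ} (h : e ∈ QL) : key (qs e) = kE e := by
  obtain ⟨b1, b2, b3, b4⟩ := lt_e h
  unfold key kE
  rw [sum_qs h, code_toSet b1, code_toSet b2, code_toSet b3, code_toSet b4]

theorem kE_nodup : (QL.map kE).Nodup := by decide +kernel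

theorem QL_nodup : QL.Nodup := List.Nodup.of_map _ kE_nodup

theorem qs_inj {e e' : ℕ × ℕ × ℕ × ℕ} (h : e ∈ QL) (h' : e' ∈ QL) (he : qs e = qs e') : e = e' := by
  apply List.inj_on_of_nodup_map kE_nodup h h'
  rw [← key_qs h, ← key_qs h', he]

theorem all_q {Q : Finset (Finset GolayPt)} (hQ : Q ∈ quartets (toSet dod0)) : ∃ e ∈ QL, qs e = Q := by
  have h1 : ((QL.toFinset.image qs : Finset _) : Set (Finset (Finset GolayPt))) = quartets (toSet dod0) := by
    apply Set.eq_of_subset_of_ncard_le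
    · intro Q hQ
      rw [Finset.mem_coe, Finset.mem_image] at hQ
      obtain ⟨e, he, rfl⟩ := hQ
      exact qs_mem (List.mem_toFinset.1 he)
    · rw [quartets_ncard0, Set.ncard_coe_finset, Finset.card_image_of_injOn, List.toFinset_card_of_nodup QL_nodup]
      · decide +kernel
      · intro a ha b hb h
        rw [List.coe_toFinset] at ha hb
        exact qs_inj ha hb h
    · exact Set.finite_of_ncard_ne_zero (by rw [quartets_ncard0]; norm_num)
  rw [← h1, Finset.mem_coe, Finset.mem_image] at hQ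
  obtain ⟨e, he, h⟩ := hQ
  exact ⟨e, List.mem_toFinset.1 he, h⟩

/-- the number of disjoint pairs of triples -/
def zz (Q X : Finset (Finset GolayPt)) : ℕ := ∑ t ∈ X, ∑ a ∈ Q, if a ∩ t = ∅ then 1 else 0

theorem zz_smul (σ : Equiv.Perm GolayPt) (Q X : Finset (Finset GolayPt)) : zz (σ • Q) (σ • X) = zz Q X := by
  unfold zz
  rw [Finset.smul_finset_def, Finset.smul_finset_def, Finset.sum_image (fun a _ b _ h => smul_left_cancel σ h)]
  refine Finset.sum_congr rfl fun t _ => ?_
  rw [Finset.sum_image (fun a _ b _ h => smul_left_cancel σ h)]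
  refine Finset.sum_congr rfl fun a _ => ?_
  rw [← Finset.smul_finset_inter]
  congr 1
  rw [eq_iff_iff, ← Finset.card_eq_zero, Finset.card_smul_finset, Finset.card_eq_zero]

def zn (n : ℕ) : ℕ := (if qt0 &&& n = 0 then 1 else 0) + ((if qu0 &&& n = 0 then 1 else 0) + ((if qv0 &&& n = 0 then 1 else 0) + (if qw0 &&& n = 0 then 1 else 0)))

def zE (e : ℕ × ℕ × ℕ × ℕ) : ℕ := zn e.1 + (zn e.2.1 + (zn e.2.2.1 + zn e.2.2.2))

theorem inter_zero {m n : ℕ} (hm : m < 16777216) : toSet m ∩ toSet n = ∅ ↔ m &&& n = 0 := by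
  rw [← toSet_and]
  constructor
  · intro h
    refine toSet_inj (lt_of_le_of_lt Nat.and_le_left hm) (by norm_num) (h.trans ?_)
    decide +kernel
  · intro h
    rw [h]; decide +kernel

theorem zn_eq (n : ℕ) : (∑ a ∈ Q0, if a ∩ toSet n = ∅ then 1 else 0) = zn n := by
  unfold Q0 zn
  have d1 : toSet qt0 ∉ ({toSet qu0, toSet qv0, toSet qw0} : Finset (Finset GolayPt)) := by decide +kernel
  have d2 : toSet qu0 ∉ ({toSet qv0, toSet qw0} : Finset (Finset GolayPt)) := by decide +kernel
  have d3 : toSet qv0 ∉ ({toSet qw0} : Finset (Finset GolayPt)) := by decide +kernel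
  rw [Finset.sum_insert d1, Finset.sum_insert d2, Finset.sum_insert d3, Finset.sum_singleton]
  simp only [inter_zero (show qt0 < 16777216 by decide), inter_zero (show qu0 < 16777216 by decide),
    inter_zero (show qv0 < 16777216 by decide), inter_zero (show qw0 < 16777216 by decide)]

theorem zz_qs {e : ℕ × ℕ × ℕ × ℕ} (h : e ∈ QL) : zz Q0 (qs e) = zE e := by
  unfold zz zE
  rw [sum_qs h, zn_eq, zn_eq, zn_eq, zn_eq]

theorem count (k N : ℕ) (h : Nat.beq ((QL.filter fun e => Nat.beq (zE e) k).length) N = true) :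
    {X | X ∈ quartets (toSet dod0) ∧ zz Q0 X = k}.ncard = N := by
  have e : {X | X ∈ quartets (toSet dod0) ∧ zz Q0 X = k} = (((QL.filter fun e => Nat.beq (zE e) k).toFinset.image qs : Finset _) : Set _) := by
    ext X
    rw [Finset.coe_image, List.coe_toFinset]
    constructor
    · rintro ⟨h1, h2⟩
      obtain ⟨e, he, rfl⟩ := all_q h1
      rw [zz_qs he] at h2
      exact ⟨e, List.mem_filter.2 ⟨he, by rw [Nat.beq_eq]; exact h2⟩, rfl⟩
    · rintro ⟨e, he, rfl⟩
      have he' := List.mem_filter.1 he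
      rw [Nat.beq_eq] at he'
      exact ⟨qs_mem he'.1, by rw [zz_qs he'.1]; exact he'.2⟩
  rw [e, Set.ncard_coe_finset, Finset.card_image_of_injOn, List.toFinset_card_of_nodup (QL_nodup.filter _)]
  · exact Nat.eq_of_beq_eq_true h
  · intro a ha b hb h
    rw [List.coe_toFinset] at ha hb
    exact qs_inj (List.mem_filter.1 ha).1 (List.mem_filter.1 hb).1 h

def kI (c : ℕ) (e : ℕ × ℕ × ℕ × ℕ) : ℕ := kE (pim c e.1, pim c e.2.1, pim c e.2.2.1, pim c e.2.2.2)

theorem pim_lt {c n : ℕ} (hp : isPermCode c = true) : pim c n < 16777216 := by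
  rw [pim_eq]; exact pimg_lt hp

theorem trans (k : ℕ) (x0 : ℕ × ℕ × ℕ × ℕ) (hg : (gens.all Cfsg.Agent.S1598.qfix) = true)
    (hd : (QL.all fun e => !(Nat.beq (zE e) k) || (e == x0 || gens.any fun c => Nat.blt (kI c e) (kE e))) = true) :
    ∀ n, ∀ X ∈ quartets (toSet dod0), key X = n → zz Q0 X = k → ∃ σ ∈ M24, σ • (toSet dod0, Q0) = (toSet dod0, Q0) ∧ σ • qs x0 = X := by
  intro n
  induction n using Nat.strong_induction_on with
  | _ n ih =>
    intro X hX hn hz
    obtain ⟨e, he, rfl⟩ := all_q hX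
    have h1 := List.all_eq_true.1 hd e he
    rw [zz_qs he] at hz
    rw [hz, Nat.beq_refl, Bool.not_true, Bool.false_or, Bool.or_eq_true, beq_iff_eq, List.any_eq_true] at h1
    rcases h1 with h1 | ⟨c, hc, h1⟩
    · rw [h1]; exact ⟨1, M24.one_mem, one_smul _ _, one_smul _ _⟩
    · have hq := List.all_eq_true.1 hg c hc
      obtain ⟨hM, hK⟩ := Cfsg.Agent.S1598.qfix_spec hq
      unfold Cfsg.Agent.S1598.qfix at hq
      rw [Bool.and_eq_true] at hq
      have hp := okPerm_isPerm hq.1
      have hK' := mem_KQ.1 hK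
      have hd0 : mkPerm c • toSet dod0 = toSet dod0 := hK'.1
      have hQ0 : mkPerm c • Q0 = Q0 := hK'.2
      have hX' : mkPerm c • qs e ∈ quartets (toSet dod0) := by
        rw [← hd0]; exact smul_quartets' hM hX
      have hkey : key (mkPerm c • qs e) = kI c e := by
        unfold key
        rw [Finset.smul_finset_def, Finset.sum_image (fun a _ b _ h => smul_left_cancel (mkPerm c) h), sum_qs he]
        rw [smul_toSet hp, smul_toSet hp, smul_toSet hp, smul_toSet hp, ← pim_eq, ← pim_eq, ← pim_eq, ← pim_eq,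
          code_toSet (pim_lt hp), code_toSet (pim_lt hp), code_toSet (pim_lt hp), code_toSet (pim_lt hp)]
        rfl
      have hlt : kI c e < n := by
        rw [← hn, key_qs he]
        simpa using h1
      have hz' : zz Q0 (mkPerm c • qs e) = k := by
        rw [← hQ0, zz_smul, zz_qs he]; exact hz
      obtain ⟨σ, hσ, h2, h3⟩ := ih _ hlt _ hX' hkey hz'
      refine ⟨(mkPerm c)⁻¹ * σ, M24.mul_mem (M24.inv_mem hM) hσ, ?_, ?_⟩
      · rw [mul_smul, h2, inv_smul_eq_iff]
        exact (Prod.ext hd0 hQ0 : mkPerm c • (toSet dod0, Q0) = (toSet dod0, Q0)).symm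
      · rw [mul_smul, h3, inv_smul_smul]

theorem gens_ok : (gens.all Cfsg.Agent.S1598.qfix) = true := by decide +kernel

theorem orb_gen {α β : Type*} [MulAction (Equiv.Perm GolayPt) α] [MulAction (Equiv.Perm GolayPt) β] (P : α → β → Prop)
    (hP : ∀ σ ∈ M24, ∀ a x, P a x → P (σ • a) (σ • x)) {a0 a : α} {x0 : β} {N : ℕ} (hc : {x | P a0 x}.ncard = N)
    (ht : ∀ y, P a0 y → ∃ σ ∈ M24, σ • a0 = a0 ∧ σ • x0 = y) (ha : ∃ σ ∈ M24, σ • a0 = a) :
    {x | P a x}.ncard = N ∧ ∀ x, P a x → MulAction.orbit (MulAction.stabilizer ↥M24 a) x = {x | P a x} := by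
  refine ⟨ncard_all P hP hc ha, fun x hx => ?_⟩
  refine Cfsg.Agent.S1563.orbit_of_tr (a := a) (Y := {x | P a x}) ?_ ?_ hx
  · intro σ hσ ha y hy
    have h1 := hP σ hσ a y hy
    rw [ha] at h1
    exact h1
  · intro x hx y hy
    exact tr_all P hP (R := fun _ _ _ => True) (fun _ _ _ _ _ _ => trivial)
      (fun x y hx hy _ => tr_of_base (Y := {x | P a0 x}) (fun y hy => ht y hy) x hx y hy) ha x y hx hy trivial

def PP (k : ℕ) (a : Finset GolayPt × Finset (Finset GolayPt)) (X : Finset (Finset GolayPt)) : Prop := X ∈ quartets a.1 ∧ zz a.2 X = k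

theorem PP_smul (k : ℕ) : ∀ σ ∈ M24, ∀ a x, PP k a x → PP k (σ • a) (σ • x) :=
  fun σ hσ a x hx => ⟨smul_quartets' hσ hx.1, (zz_smul σ a.2 x).trans hx.2⟩

theorem orb (k N : ℕ) (x0 : ℕ × ℕ × ℕ × ℕ) (h : Nat.beq ((QL.filter fun e => Nat.beq (zE e) k).length) N = true)
    (hd : (QL.all fun e => !(Nat.beq (zE e) k) || (e == x0 || gens.any fun c => Nat.blt (kI c e) (kE e))) = true)
    {d : Finset GolayPt} (hdd : d ∈ dodecads) {Q : Finset (Finset GolayPt)} (hQ : Q ∈ quartets d) :
    {X | X ∈ quartets d ∧ zz Q X = k}.ncard = N ∧ ∀ X ∈ quartets d, zz Q X = k →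
      MulAction.orbit ↥(MulAction.stabilizer ↥M24 d ⊓ MulAction.stabilizer ↥M24 Q) X = {X | X ∈ quartets d ∧ zz Q X = k} := by
  have h1 := orb_gen (PP k) (PP_smul k) (a0 := (toSet dod0, Q0)) (a := (d, Q)) (x0 := qs x0) (N := N) (count k N h)
    (fun y hy => trans k x0 gens_ok hd _ y hy.1 rfl hy.2) (std_Q hdd hQ)
  rw [stab_pair_eq]
  exact ⟨h1.1, fun X hX hz => h1.2 X ⟨hX, hz⟩⟩

theorem five_chk : (QL.all fun e => e == (65556, 917504, 2101256, 8388611) || (Nat.beq (zE e) 6 || (Nat.beq (zE e) 8 || (Nat.beq (zE e) 7 || Nat.beq (zE e) 5)))) = true := by decide +kernel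

theorem five {d : Finset GolayPt} (hd : d ∈ dodecads) {Q : Finset (Finset GolayPt)} (hQ : Q ∈ quartets d) :
    ∀ X ∈ quartets d, X = Q ∨ zz Q X = 6 ∨ zz Q X = 8 ∨ zz Q X = 7 ∨ zz Q X = 5 := by
  refine all_all (fun (a : Finset GolayPt × Finset (Finset GolayPt)) => ∀ X ∈ quartets a.1, X = a.2 ∨ zz a.2 X = 6 ∨ zz a.2 X = 8 ∨ zz a.2 X = 7 ∨ zz a.2 X = 5)
    ?_ ?_ (std_Q hd hQ)
  · rintro σ hσ ⟨d, Q⟩ h X hX
    have hX' : σ⁻¹ • X ∈ quartets d := by rw [← smul_quartets hσ, smul_inv_smul]; exact hX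
    have h1 : σ⁻¹ • X = Q ∨ zz Q (σ⁻¹ • X) = 6 ∨ zz Q (σ⁻¹ • X) = 8 ∨ zz Q (σ⁻¹ • X) = 7 ∨ zz Q (σ⁻¹ • X) = 5 := h _ hX'
    have h2 : zz Q (σ⁻¹ • X) = zz (σ • Q) X := by rw [← zz_smul σ, smul_inv_smul]
    have h3 : σ⁻¹ • X = Q ↔ X = σ • Q := inv_smul_eq_iff
    show X = σ • Q ∨ zz (σ • Q) X = 6 ∨ zz (σ • Q) X = 8 ∨ zz (σ • Q) X = 7 ∨ zz (σ • Q) X = 5
    rw [← h3, ← h2]
    exact h1
  · intro X hX
    obtain ⟨e, he, rfl⟩ := all_q hX
    have h1 := List.all_eq_true.1 five_chk e he
    simp only [Bool.or_eq_true, beq_iff_eq, Nat.beq_eq] at h1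
    show qs e = Q0 ∨ zz Q0 (qs e) = 6 ∨ zz Q0 (qs e) = 8 ∨ zz Q0 (qs e) = 7 ∨ zz Q0 (qs e) = 5
    rw [zz_qs he]
    rcases h1 with h1 | h1
    · left
      rw [h1]
      ext s
      rw [mem_qs, mem_Q0]
      show s = toSet qu0 ∨ s = toSet qv0 ∨ s = toSet qw0 ∨ s = toSet qt0 ↔ _
      tauto
    · right; exact h1

/-- A quartet stabiliser has five orbits on the quartets of its dodecad, of sizes 1, 12, 27, 72, 108. -/
theorem result (d : Finset Cfsg.GolayPt) (hd : d ∈ Cfsg.dodecads) (Q : Finset (Finset Cfsg.GolayPt)) (hQ : Q ∈ Cfsg.quartets d) : ∃ X₁ ∈ Cfsg.quartets d, ∃ X₂ ∈ Cfsg.quartets d, ∃ X₃ ∈ Cfsg.quartets d, ∃ X₄ ∈ Cfsg.quartets d, (MulAction.orbit ↥(MulAction.stabilizer Cfsg.M24 d ⊓ MulAction.stabilizer Cfsg.M24 Q) X₁).ncard = 12 ∧ (MulAction.orbit ↥(MulAction.stabilizer Cfsg.M24 d ⊓ MulAction.stabilizer Cfsg.M24 Q) X₂).ncard = 27 ∧ (MulAction.orbit ↥(MulAction.stabilizer Cfsg.M24 d ⊓ MulAction.stabilizer Cfsg.M24 Q) X₃).ncard = 72 ∧ (MulAction.orbit ↥(MulAction.stabilizer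 Cfsg.M24 d ⊓ MulAction.stabilizer Cfsg.M24 Q) X₄).ncard = 108 ∧ Cfsg.quartets d = {Q} ∪ MulAction.orbit ↥(MulAction.stabilizer Cfsg.M24 d ⊓ MulAction.stabilizer Cfsg.M24 Q) X₁ ∪ MulAction.orbit ↥(MulAction.stabilizer Cfsg.M24 d ⊓ MulAction.stabilizer Cfsg.M24 Q) X₂ ∪ MulAction.orbit ↥(MulAction.stabilizer Cfsg.M24 d ⊓ MulAction.stabilizer Cfsg.M24 Q) X₃ ∪ MulAction.orbit ↥(MulAction.stabilizer Cfsg.M24 d ⊓ MulAction.stabilizer Cfsg.M24 Q) X₄ := by
  obtain ⟨c1, o1⟩ := orb 6 12 (69634, 917504, 2097157, 8388632) (by decide +kernel) (by decide +kernel) hd hQ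
  obtain ⟨c2, o2⟩ := orb 8 27 (458752, 524308, 2097162, 8392705) (by decide +kernel) (by decide +kernel) hd hQ
  obtain ⟨c3, o3⟩ := orb 7 72 (458752, 524297, 2101252, 8388626) (by decide +kernel) (by decide +kernel) hd hQ
  obtain ⟨c4, o4⟩ := orb 5 108 (458752, 528386, 2097169, 8388620) (by decide +kernel) (by decide +kernel) hd hQ
  obtain ⟨X1, h1, g1⟩ := Set.nonempty_of_ncard_ne_zero (s := {X | X ∈ quartets d ∧ zz Q X = 6}) (by rw [c1]; norm_num)
  obtain ⟨X2, h2, g2⟩ := Set.nonempty_of_ncard_ne_zero (s := {X | X ∈ quartets d ∧ zz Q X = 8}) (by rw [c2]; norm_num)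
  obtain ⟨X3, h3, g3⟩ := Set.nonempty_of_ncard_ne_zero (s := {X | X ∈ quartets d ∧ zz Q X = 7}) (by rw [c3]; norm_num)
  obtain ⟨X4, h4, g4⟩ := Set.nonempty_of_ncard_ne_zero (s := {X | X ∈ quartets d ∧ zz Q X = 5}) (by rw [c4]; norm_num)
  refine ⟨X1, h1, X2, h2, X3, h3, X4, h4, ?_, ?_, ?_, ?_, ?_⟩
  · rw [o1 X1 h1 g1, c1]
  · rw [o2 X2 h2 g2, c2]
  · rw [o3 X3 h3 g3, c3]
  · rw [o4 X4 h4 g4, c4]
  · rw [o1 X1 h1 g1, o2 X2 h2 g2, o3 X3 h3 g3, o4 X4 h4 g4]
    ext X
    constructor
    · intro hX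
      rcases five hd hQ X hX with h | h | h | h | h
      · left; left; left; left; exact h
      · left; left; left; right; exact ⟨hX, h⟩
      · left; left; right; exact ⟨hX, h⟩
      · left; right; exact ⟨hX, h⟩
      · right; exact ⟨hX, h⟩
    · rintro ((((h | h) | h) | h) | h)
      · rw [Set.mem_singleton_iff] at h; rw [h]; exact hQ
      · exact h.1
      · exact h.1
      · exact h.1
      · exact h.1

end Cfsg.Agent.S1599
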