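import Cfsg.Statements.S1600
import Cfsg.Agent.H29.Trans4

set_option autoImplicit false
open scoped Pointwise
open Cfsg

namespace Cfsg.Agent.S1600

open Cfsg.Agent.H7 Cfsg.Agent.H29
open scoped Pointwise

def L : List ℕ := [0xbd8948ca636a9e2438eb498b583020,
  0xbd2166484441d717a5cd514c3acc20,
  0xba22f19272a1970b254d714eca8820,
  0xb988a80e554acf12d1eeb351360820,
  0xbac4d8d60441e8c799567153390c20,
  0xbb62860eb07bad3594f44994291020,
  0xba6051566c3d0d2721eab357119020,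
  0xba98610e242bdd03da895a1b59c820,
  0xbb6141b2b1b29e2594c849dd324820,
  0xbaa09888722d9d333567451e465420,
  0xb9c4e232233213352de5b3692ac020,
  0xb966624aa253dd04b5075d2d160c20]

theorem ord : {σ | σ ∈ M24 ∧ StabMs [(dod0, [0,1,2,3,4,12,16,17,18,19,21,23]), (1 <<< 23, [23]), (1 <<< 0, [0]), (1 <<< 1, [1])] σ}.ncard = 72 :=
  card_stabMs (by decide +kernel) (by decide +kernel)

theorem tr0 : ∀ j ∈ [5, 6, 7, 8, 9, 10, 11, 13, 14, 15, 20, 22], ∃ σ ∈ M24, (∀ i ∈ [23, 0, 1], σ • gpt i = gpt i) ∧ (∀ m ∈ [dod0], σ • toSet m = toSet m) ∧ σ • gpt 5 = gpt j :=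
  pts_trans (L := L) (by decide +kernel) (by norm_num) (by decide +kernel)

theorem out0 : ∀ x : GolayPt, x ∉ toSet dod0 → ∃ j ∈ [5, 6, 7, 8, 9, 10, 11, 13, 14, 15, 20, 22], x = gpt j := by decide +kernel

theorem stabMs_iff {σ : Equiv.Perm GolayPt} : StabMs [(dod0, [0,1,2,3,4,12,16,17,18,19,21,23]), (1 <<< 23, [23]), (1 <<< 0, [0]), (1 <<< 1, [1])] σ ↔
    σ • (toSet dod0, gpt 23, gpt 0, gpt 1) = (toSet dod0, gpt 23, gpt 0, gpt 1) := by
  unfold StabMs
  simp only [List.forall_mem_cons, List.not_mem_nil, false_implies, implies_true, and_true]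
  rw [smul_single (by norm_num), smul_single (by norm_num), smul_single (by norm_num)]
  constructor
  · rintro ⟨h1, h2, h3, h4⟩
    exact Prod.ext h1 (Prod.ext h2 (Prod.ext h3 h4))
  · intro h
    exact ⟨congrArg Prod.fst h, congrArg (fun x => x.2.1) h, congrArg (fun x => x.2.2.1) h, congrArg (fun x => x.2.2.2) h⟩

theorem stab_eq (d : Finset GolayPt) (p q r : GolayPt) :
    MulAction.stabilizer ↥M24 d ⊓ MulAction.stabilizer ↥M24 p ⊓ MulAction.stabilizer ↥M24 q ⊓ MulAction.stabilizer ↥M24 r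
      = MulAction.stabilizer ↥M24 (d, p, q, r) := by
  ext g
  constructor
  · rintro ⟨⟨⟨h1, h2⟩, h3⟩, h4⟩
    exact Prod.ext h1 (Prod.ext h2 (Prod.ext h3 h4))
  · intro h
    have h' : (g • d, g • p, g • q, g • r) = (d, p, q, r) := h
    simp only [Prod.mk.injEq] at h'
    exact ⟨⟨⟨h'.1, h'.2.1⟩, h'.2.2.1⟩, h'.2.2.2⟩

/-- The pointwise stabiliser of three points of a dodecad inside the dodecad stabiliser (order 72) is transitive on the complementary dodecad. -/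
theorem result (d : Finset Cfsg.GolayPt) (hd : d ∈ Cfsg.dodecads) (p q r : Cfsg.GolayPt) (hp : p ∈ d) (hq : q ∈ d) (hr : r ∈ d) (hpq : p ≠ q) (hpr : p ≠ r) (hqr : q ≠ r) : Nat.card ↥(MulAction.stabilizer Cfsg.M24 d ⊓ MulAction.stabilizer Cfsg.M24 p ⊓ MulAction.stabilizer Cfsg.M24 q ⊓ MulAction.stabilizer Cfsg.M24 r) = 72 ∧ ∀ x ∉ d, ∀ y ∉ d, ∃ g ∈ (MulAction.stabilizer Cfsg.M24 d ⊓ MulAction.stabilizer Cfsg.M24 p ⊓ MulAction.stabilizer Cfsg.M24 q ⊓ MulAction.stabilizer Cfsg.M24 r), ((g : ↥Cfsg.M24) : Equiv.Perm Cfsg.GolayPt) x = y := by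
  have hst := std_d3 hd hp hq hr hpq hpr hqr
  rw [stab_eq]
  refine ⟨?_, ?_⟩
  · rw [card_stab_tr hst, card_stab, ← ord]
    congr 1
    ext σ
    exact and_congr_right fun _ => stabMs_iff.symm
  · intro x hx y hy
    obtain ⟨g, hg, h1, h2⟩ := tr_all (a0 := (toSet dod0, gpt 23, gpt 0, gpt 1)) (fun (a : Finset GolayPt × GolayPt × GolayPt × GolayPt) (x : GolayPt) => x ∉ a.1)
      (fun σ hσ a x h => (smul_mem_smul' σ _ _).not.2 h)
      (R := fun _ _ _ => True) (fun _ _ _ _ _ _ => trivial) (fun x y hx hy _ => tr_of_base (a0 := (toSet dod0, gpt 23, gpt 0, gpt 1)) (Y := {x | x ∉ toSet dod0})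
        (x0 := gpt 5) (fun y hy => by
          obtain ⟨j, hj, rfl⟩ := out0 y hy
          obtain ⟨σ, s1, s2, s3, s4⟩ := tr0 j hj
          exact ⟨σ, s1, Prod.ext (s3 dod0 (by simp)) (Prod.ext (s2 23 (by simp)) (Prod.ext (s2 0 (by simp)) (s2 1 (by simp)))), s4⟩) x hx y hy)
      hst x y hx hy trivial
    exact ⟨⟨g, hg⟩, h1, h2⟩

end Cfsg.Agent.S1600
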