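import Cfsg.Statements.S1601
import Cfsg.Agent.S0498
import Cfsg.Agent.H7.SimpleCrit2
import Cfsg.Agent.H29.M11Std

set_option autoImplicit false
open scoped Pointwise
open Cfsg

namespace Cfsg.Agent.S1601

open Cfsg.Agent.H29 Cfsg.Agent.H7
open scoped Pointwise

theorem simp660 : IsSimpleGroup SL11 := by
  haveI : Fact (Nat.Prime 11) := ⟨by norm_num⟩
  set ρ : SL11 := ⟨mkPerm cRho12, rho_mem⟩ with hρ
  have ho : orderOf ρ = 11 := by rw [← Subgroup.orderOf_coe]; exact rho_order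
  have hC : ∀ τ : SL11, τ * ρ = ρ * τ → τ ∈ Subgroup.zpowers ρ := by
    intro τ h
    obtain ⟨j, hj⟩ := rho_cent τ.2 (congrArg Subtype.val h)
    exact ⟨j, Subtype.ext (by rw [hj]; simp [hρ])⟩
  refine simple_of_centralizer (r := 11) (s := 5) (h := 60) (by norm_num) (by rw [card_SL11]) (by norm_num)
    (by norm_num) ho hC (by decide) ?_
  intro N hN hne
  by_contra h11
  have hd : Nat.card N ∣ 660 := by rw [← card_SL11]; exact Subgroup.card_subgroup_dvd_card N
  have h0 : Nat.card N ≠ 0 := Nat.card_pos.ne'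
  have key : ∀ p : ℕ, p.Prime → (∀ k, p ^ k ∣ 660 → p ^ k % 11 = 1 → k = 0) → (Nat.card N).factorization p = 0 := by
    intro p hp h
    exact h _ ((Nat.ordProj_dvd (Nat.card N) p).trans hd) (normal_sylow_mod ho hC N h11 p hp)
  have k2 : (Nat.card N).factorization 2 = 0 := key 2 (by norm_num) (by
    intro k hk hm
    have : k < 3 := by
      by_contra h
      push Not at h
      have : 2 ^ 3 ∣ 660 := (pow_dvd_pow 2 h).trans hk
      norm_num at this
    interval_cases k <;> simp_all)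
  have k3 : (Nat.card N).factorization 3 = 0 := key 3 (by norm_num) (by
    intro k hk hm
    have : k < 2 := by
      by_contra h
      push Not at h
      have : 3 ^ 2 ∣ 660 := (pow_dvd_pow 3 h).trans hk
      norm_num at this
    interval_cases k <;> simp_all)
  have k5 : (Nat.card N).factorization 5 = 0 := key 5 (by norm_num) (by
    intro k hk hm
    have : k < 2 := by
      by_contra h
      push Not at h
      have : 5 ^ 2 ∣ 660 := (pow_dvd_pow 5 h).trans hk
      norm_num at this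
    interval_cases k <;> simp_all)
  have h1 : Nat.card N = 1 := by
    by_contra hn1
    obtain ⟨p, hp, hpN⟩ := Nat.exists_prime_and_dvd hn1
    have hp660 : p ∣ 660 := hpN.trans hd
    have hp' : p = 2 ∨ p = 3 ∨ p = 5 ∨ p = 11 := by
      have e : 660 = 2 * (2 * (3 * (5 * 11))) := by norm_num
      rw [e, hp.dvd_mul, hp.dvd_mul, hp.dvd_mul, hp.dvd_mul] at hp660
      simp only [Nat.prime_dvd_prime_iff_eq hp (by norm_num : Nat.Prime 2),
        Nat.prime_dvd_prime_iff_eq hp (by norm_num : Nat.Prime 3), Nat.prime_dvd_prime_iff_eq hp (by norm_num : Nat.Prime 5),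
        Nat.prime_dvd_prime_iff_eq hp (by norm_num : Nat.Prime 11)] at hp660
      tauto
    have hf : (Nat.card N).factorization p ≠ 0 := (hp.factorization_pos_of_dvd h0 hpN).ne'
    rcases hp' with rfl | rfl | rfl | rfl
    · exact hf k2
    · exact hf k3
    · exact hf k5
    · exact h11 hpN
  exact hne (Subgroup.card_eq_one.1 h1)

theorem equivSL {d : Finset GolayPt} (hd : d ∈ dodecads) {p q : GolayPt} (hp : p ∈ d) (hq : q ∉ d) :
    Nonempty ((MulAction.stabilizer M24 d ⊓ MulAction.stabilizer M24 p ⊓ MulAction.stabilizer M24 q : Subgroup M24) ≃*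
      SL11) := by
  obtain ⟨g, hg, h, h0, h3⟩ := std_dpq hd hp hq
  apply conj_equiv M24 SL11 _ g hg (inf_le_left.trans (inf_le_left.trans inf_le_left))
  intro τ
  have hK : g⁻¹ * (τ : Equiv.Perm GolayPt) * g ∈ SL11 ↔ g⁻¹ * (τ : Equiv.Perm GolayPt) * g ∈ SD1 ∧
      g⁻¹ * (τ : Equiv.Perm GolayPt) * g ∈ MulAction.stabilizer (Equiv.Perm GolayPt) (gpt 22) := Subgroup.mem_inf
  rw [hK, SD1_mem, SD_mem, Subgroup.mem_inf, Subgroup.mem_inf]
  have e : τ ∈ MulAction.stabilizer M24 d ↔ (τ : Equiv.Perm GolayPt) • d = d := Iff.rfl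
  have e' : τ ∈ MulAction.stabilizer M24 p ↔ (τ : Equiv.Perm GolayPt) p = p := Iff.rfl
  have e'' : τ ∈ MulAction.stabilizer M24 q ↔ (τ : Equiv.Perm GolayPt) q = q := Iff.rfl
  have e3 : g⁻¹ * (τ : Equiv.Perm GolayPt) * g ∈ MulAction.stabilizer (Equiv.Perm GolayPt) (gpt 22) ↔
    (g⁻¹ * (τ : Equiv.Perm GolayPt) * g) (gpt 22) = gpt 22 := Iff.rfl
  have hb : bp 0 = gpt 23 := bpv.1
  rw [e, e', e'', e3, stab_conj_iff' h, stab_conj_iff h0, stab_conj_iff h3, hb]
  constructor
  · rintro ⟨⟨h1, h2⟩, h4⟩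
    exact ⟨⟨⟨M24_conj_mem hg τ, h1⟩, h2⟩, h4⟩
  · rintro ⟨⟨⟨_, h1⟩, h2⟩, h4⟩; exact ⟨⟨h1, h2⟩, h4⟩

/-- In the 3-transitive action of the smallest Mathieu group on the complementary dodecad, a point stabiliser is isomorphic to PSL(2, 11). -/
theorem result (d : Finset Cfsg.GolayPt) (hd : d ∈ Cfsg.dodecads) (p q : Cfsg.GolayPt) (hp : p ∈ d) (hq : q ∉ d) : Nonempty (↥(MulAction.stabilizer Cfsg.M24 d ⊓ MulAction.stabilizer Cfsg.M24 p ⊓ MulAction.stabilizer Cfsg.M24 q) ≃* Matrix.ProjectiveSpecialLinearGroup (Fin 2) (ZMod 11)) := by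
  obtain ⟨e⟩ := equivSL hd hp hq
  haveI := simp660
  haveI : Fact (Nat.Prime 11) := ⟨by norm_num⟩
  obtain ⟨e2⟩ := S0498.result (G := SL11) 11 (Or.inl rfl) (by rw [card_SL11]; norm_num) (F := ZMod 11) (ZMod.card 11)
  exact ⟨e.trans e2⟩

end Cfsg.Agent.S1601
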