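import Cfsg.Statements.S1602
import Cfsg.Agent.H29.M11Std
import Cfsg.Agent.H29.Trans3
import Cfsg.Agent.H7.GolayM24c

set_option autoImplicit false
open scoped Pointwise
open Cfsg

namespace Cfsg.Agent.S1602

open Cfsg.Agent.H29 Cfsg.Agent.H7
open scoped Pointwise

/-- the pair -/
def PR : Finset GolayPt := {gpt 22, gpt 5}

/-- the octad -/
def OO : Finset GolayPt := toSet 15335473

/-- the stabiliser -/
def K5 : Subgroup (Equiv.Perm GolayPt) := SD1 ⊓ MulAction.stabilizer (Equiv.Perm GolayPt) PR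

theorem rho_pts : ∀ j ∈ ([5, 6, 7, 8, 9, 10, 11, 13, 14, 15, 20] : List ℕ), ∃ σ ∈ M24,
    (∀ i ∈ [23, 22], σ • gpt i = gpt i) ∧ (∀ m ∈ [dod0], σ • toSet m = toSet m) ∧ σ • gpt 5 = gpt j :=
  pts_trans (pts := [23, 22]) (ms := [dod0]) (L := [0xbdab49ca307b9ac5a928398a418820, 0xbd84b91011414d579da9a394360613,
    0xbd82f20e604a9c2450cd594ecac232, 0xbda081b25369ca14adc67aa9514404, 0xbda2965492351506bcae41d6208263,
    0xbd80da886472cf1321454d1e184e4c, 0xbda66105832be80724ea6ad108c895, 0xbda4e0c2ac521732b68733d3101062,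
    0xbd885844553a5f251974721a098d81, 0xbd86a88022a35043b9eb2a4d3932b0, 0xbd98704e0159923a150f535d225451])
    (by decide +kernel) (i0 := 5) (by norm_num)
    (outs := [5, 6, 7, 8, 9, 10, 11, 13, 14, 15, 20]) (by decide +kernel)

theorem out22 : ∀ p : GolayPt, p ∉ toSet dod0 → p ≠ gpt 22 →
    ∃ j ∈ ([5, 6, 7, 8, 9, 10, 11, 13, 14, 15, 20] : List ℕ), gpt j = p := by
  decide +kernel

theorem std4 {d : Finset GolayPt} (hd : d ∈ dodecads) {p q q' : GolayPt} (hp : p ∈ d) (hq : q ∉ d) (hq' : q' ∉ d)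
    (hqq : q ≠ q') : ∃ σ ∈ M24, σ • toSet dod0 = d ∧ σ (gpt 23) = p ∧ σ (gpt 22) = q ∧ σ (gpt 5) = q' := by
  obtain ⟨σ, hσ, h1, h2, h3⟩ := std_dpq hd hp hq
  have ha : σ⁻¹ q' ∉ toSet dod0 := by
    intro h
    apply hq'
    rw [← h1]
    have := (smul_mem_smul' σ (toSet dod0) (σ⁻¹ q')).2 h
    rwa [show σ • σ⁻¹ q' = q' from σ.apply_symm_apply q'] at this
  have hb : σ⁻¹ q' ≠ gpt 22 := by
    intro h
    apply hqq
    rw [← h3, ← h]
    exact σ.apply_symm_apply q'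
  obtain ⟨j, hj, hjq⟩ := out22 _ ha hb
  obtain ⟨τ, hτ, t1, t2, t3⟩ := rho_pts j hj
  have e23 : τ (gpt 23) = gpt 23 := t1 23 (by simp)
  have e22 : τ (gpt 22) = gpt 22 := t1 22 (by simp)
  have e5 : τ (gpt 5) = gpt j := t3
  refine ⟨σ * τ, M24.mul_mem hσ hτ, ?_, ?_, ?_, ?_⟩
  · rw [mul_smul, t2 dod0 (by simp), h1]
  · rw [Equiv.Perm.mul_apply, e23, h2]
  · rw [Equiv.Perm.mul_apply, e22, h3]
  · rw [Equiv.Perm.mul_apply, e5, hjq]
    exact σ.apply_symm_apply q'

theorem smul_pair {σ : Equiv.Perm GolayPt} {a b : GolayPt} : σ • ({a, b} : Finset GolayPt) = {σ a, σ b} := by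
  rw [Finset.smul_finset_insert, Finset.smul_finset_singleton]; rfl

theorem card_K5 : Nat.card K5 = 120 := by
  have h3 : gpt 22 ∉ toSet dod0 := by decide +kernel
  have h5 : gpt 5 ∉ toSet dod0 := by decide +kernel
  have h := card_step' SD1 PR ((Finset.powersetCard 2 ((toSet dod0)ᶜ : Finset GolayPt) : Finset (Finset GolayPt)) :
      Set (Finset GolayPt)) (by
    intro σ hσ
    rw [Finset.mem_coe, Finset.mem_powersetCard]
    have h2 : σ • toSet dod0 = toSet dod0 := (SD_mem.1 (SD1_mem.1 hσ).1).2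
    have key : ∀ x, x ∉ toSet dod0 → σ x ∉ toSet dod0 := by
      intro x hx h
      rw [← h2] at h
      exact hx ((smul_mem_smul' σ _ _).1 h)
    constructor
    · show σ • ({gpt 22, gpt 5} : Finset GolayPt) ⊆ _
      rw [smul_pair]
      intro x hx
      rw [Finset.mem_insert, Finset.mem_singleton] at hx
      rw [Finset.mem_compl]
      rcases hx with rfl | rfl
      · exact key _ h3
      · exact key _ h5
    · rw [Finset.card_smul_finset]
      decide +kernel) (by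
    intro s hs
    rw [Finset.mem_coe, Finset.mem_powersetCard] at hs
    obtain ⟨hs1, hs2⟩ := hs
    obtain ⟨q, q', hqq, rfl⟩ := Finset.card_eq_two.1 hs2
    have a1 : q ∉ toSet dod0 := Finset.mem_compl.1 (hs1 (by simp))
    have a2 : q' ∉ toSet dod0 := Finset.mem_compl.1 (hs1 (by simp))
    obtain ⟨σ, hσ, h1, h2, h3, h4⟩ := std4 (p := gpt 23) dod0_dodecad (by decide +kernel) a1 a2 hqq
    refine ⟨σ, SD1_mem.2 ⟨SD_mem.2 ⟨hσ, h1⟩, h2⟩, ?_⟩
    show σ • ({gpt 22, gpt 5} : Finset GolayPt) = _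
    rw [smul_pair, h3, h4])
  rw [card_SD1, Set.ncard_coe_finset, Finset.card_powersetCard] at h
  have e : ((toSet dod0)ᶜ : Finset GolayPt).card = 12 := by decide +kernel
  have e2 : Nat.choose 12 2 = 66 := by decide
  rw [e, e2] at h
  have h' : Nat.card K5 = Nat.card (SD1 ⊓ MulAction.stabilizer (Equiv.Perm GolayPt) PR : Subgroup _) := rfl
  omega

/-- the five points -/
def S5 : Finset GolayPt := {gpt 0, gpt 4, gpt 17, gpt 19, gpt 21}

def s5 : Fin 5 → GolayPt := ![gpt 0, gpt 4, gpt 17, gpt 19, gpt 21]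

theorem s5_inj : Function.Injective s5 := by
  have : ∀ i j : Fin 5, s5 i = s5 j → i = j := by decide +kernel
  exact fun i j => this i j

theorem S5_iff : ∀ p : GolayPt, p ∈ S5 ↔ ∃ i, s5 i = p := by decide +kernel

theorem OO_octad : OO ∈ octads :=
  ⟨mem_GC_mask.mpr ⟨15335473, by decide +kernel, rfl⟩, by show (toSet 15335473).card = 8; rw [card_toSet]; decide +kernel⟩

theorem OO_eq : ∀ p : GolayPt, p ∈ OO ↔ (p ∈ S5 ∨ p = gpt 23 ∨ p = gpt 22 ∨ p = gpt 5) := by decide +kernel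

theorem OO_uniq {o : Finset GolayPt} (ho : o ∈ octads) (h1 : gpt 23 ∈ o) (h2 : gpt 22 ∈ o) (h3 : gpt 5 ∈ o)
    (h6 : (toSet dod0 ∩ o).card = 6) : o = OO := by
  obtain ⟨n, hn, rfl⟩ := enm_oct.all o ho
  have hcp : cp [23, 22, 5] [] [(dod0, 6)] n = true := (cp_iff (by decide)).1
    ⟨by simpa using ⟨h1, h2, h3⟩, by simp, by simpa using h6⟩
  have key : (((List.range 759).map octE).all fun n => bif cp [23, 22, 5] [] [(dod0, 6)] n then Nat.beq n 15335473
    else true) = true := by decide +kernel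
  have h := List.all_eq_true.1 key n hn
  rw [hcp, cond_true] at h
  rw [Nat.eq_of_beq_eq_true h]
  rfl

theorem S5_dod : ∀ p ∈ S5, p ∈ toSet dod0 ∧ p ≠ gpt 23 := by decide +kernel

theorem K5_S5 {σ : Equiv.Perm GolayPt} (hσ : σ ∈ K5) {p : GolayPt} (hp : p ∈ S5) : σ p ∈ S5 := by
  obtain ⟨h1, h2⟩ := Subgroup.mem_inf.1 hσ
  have hP : σ • PR = PR := h2
  obtain ⟨h3, h4⟩ := SD1_mem.1 h1
  have h4' : σ (gpt 23) = gpt 23 := h4
  obtain ⟨h5, h6⟩ := SD_mem.1 h3
  have hO : σ • OO = OO := by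
    apply OO_uniq (M24_smul_octad h5 OO_octad)
    · have := (smul_mem_smul' σ OO (gpt 23)).2 ((OO_eq _).2 (by simp))
      rwa [show σ • gpt 23 = gpt 23 from h4'] at this
    · have : gpt 22 ∈ σ • PR := by rw [hP]; simp [PR]
      exact Finset.smul_finset_subset_smul_finset (fun x hx => (OO_eq x).2 (by
        simp only [PR, Finset.mem_insert, Finset.mem_singleton] at hx
        rcases hx with rfl | rfl <;> simp)) this
    · have : gpt 5 ∈ σ • PR := by rw [hP]; simp [PR]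
      exact Finset.smul_finset_subset_smul_finset (fun x hx => (OO_eq x).2 (by
        simp only [PR, Finset.mem_insert, Finset.mem_singleton] at hx
        rcases hx with rfl | rfl <;> simp)) this
    · have : (toSet dod0 ∩ OO).card = 6 := by decide +kernel
      rw [← this]
      conv_lhs => rw [← h6]
      exact card_smul_inter σ _ _
  have hq1 : σ p ∈ OO := by
    rw [← hO]
    exact (smul_mem_smul' σ OO p).2 ((OO_eq p).2 (Or.inl hp))
  have hq2 : σ p ∈ toSet dod0 := SD_inv h3 (S5_dod p hp).1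
  rcases (OO_eq _).1 hq1 with h | h | h | h
  · exact h
  · exfalso
    rw [← h4'] at h
    exact (S5_dod p hp).2 (σ.injective h)
  · exfalso
    rw [h] at hq2
    revert hq2
    decide +kernel
  · exfalso
    rw [h] at hq2
    revert hq2
    decide +kernel

/-- the action on the five points -/
def act5 : K5 →* Equiv.Perm S5 where
  toFun σ :=
    { toFun := fun x => ⟨(σ : Equiv.Perm GolayPt) x, K5_S5 σ.2 x.2⟩
      invFun := fun x => ⟨((σ⁻¹ : K5) : Equiv.Perm GolayPt) x, K5_S5 (σ⁻¹).2 x.2⟩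
      left_inv := fun x => Subtype.ext ((σ : Equiv.Perm GolayPt).symm_apply_apply x)
      right_inv := fun x => Subtype.ext ((σ : Equiv.Perm GolayPt).apply_symm_apply x) }
  map_one' := rfl
  map_mul' _ _ := rfl

theorem s5_mem (i : Fin 5) : s5 i ∈ S5 := (S5_iff _).2 ⟨i, rfl⟩

theorem act5_surj : Function.Surjective act5 := by
  intro π
  have hx : Function.Injective (Fin.cons (gpt 23) (fun k : Fin 4 => s5 k.castSucc) : Fin 5 → GolayPt) := by
    rw [Fin.cons_injective_iff]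
    refine ⟨?_, fun i j h => Fin.castSucc_injective _ (s5_inj h)⟩
    rintro ⟨k, hk⟩
    exact (S5_dod _ (s5_mem k.castSucc)).2 hk
  have hy : Function.Injective (Fin.cons (gpt 23)
      (fun k : Fin 4 => ((π ⟨s5 k.castSucc, s5_mem _⟩ : S5) : GolayPt)) : Fin 5 → GolayPt) := by
    rw [Fin.cons_injective_iff]
    refine ⟨?_, fun i j h => ?_⟩
    · rintro ⟨k, hk⟩
      exact (S5_dod _ (π ⟨s5 k.castSucc, s5_mem _⟩).2).2 hk
    · have h1 := π.injective (Subtype.ext h)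
      exact Fin.castSucc_injective _ (s5_inj (Subtype.ext_iff.1 h1))
  have h23 : gpt 23 ∈ toSet dod0 := by decide +kernel
  obtain ⟨σ, hσ, h⟩ := SD_map (n := 5) (by norm_num) _ _ hx hy
    (by
      intro i
      refine Fin.cases ?_ (fun k => ?_) i
      · exact h23
      · exact (S5_dod _ (s5_mem k.castSucc)).1)
    (by
      intro i
      refine Fin.cases ?_ (fun k => ?_) i
      · exact h23
      · exact (S5_dod _ (π ⟨s5 k.castSucc, s5_mem _⟩).2).1)
  have e23 : σ (gpt 23) = gpt 23 := h 0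
  have ek : ∀ k : Fin 4, σ (s5 k.castSucc) = ((π ⟨s5 k.castSucc, s5_mem _⟩ : S5) : GolayPt) := fun k => h k.succ
  obtain ⟨hM, hd⟩ := SD_mem.1 hσ
  have hO : σ • OO = OO := by
    refine octad_unique (M24_smul_octad hM OO_octad) OO_octad _ hy ?_ ?_
    · intro i
      refine Fin.cases ?_ (fun k => ?_) i
      · have := (smul_mem_smul' σ OO (gpt 23)).2 ((OO_eq _).2 (by simp))
        rwa [show σ • gpt 23 = gpt 23 from e23] at this
      · have := (smul_mem_smul' σ OO (s5 k.castSucc)).2 ((OO_eq _).2 (Or.inl (s5_mem _)))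
        rwa [show σ • s5 k.castSucc = _ from ek k] at this
    · intro i
      refine Fin.cases ?_ (fun k => ?_) i
      · exact (OO_eq _).2 (by simp)
      · exact (OO_eq _).2 (Or.inl (π ⟨s5 k.castSucc, s5_mem _⟩).2)
  have hPR : PR = OO \ toSet dod0 := by decide +kernel
  have hP : σ • PR = PR := by
    rw [hPR, Finset.smul_finset_sdiff, hO, hd]
  have hK : σ ∈ K5 := Subgroup.mem_inf.2 ⟨SD1_mem.2 ⟨hσ, e23⟩, hP⟩
  refine ⟨⟨σ, hK⟩, ?_⟩
  have h4 : ∀ k : Fin 4, act5 ⟨σ, hK⟩ ⟨s5 k.castSucc, s5_mem _⟩ = π ⟨s5 k.castSucc, s5_mem _⟩ :=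
    fun k => Subtype.ext (ek k)
  have hlast : act5 ⟨σ, hK⟩ ⟨s5 (Fin.last 4), s5_mem _⟩ = π ⟨s5 (Fin.last 4), s5_mem _⟩ := by
    set y := π.symm (act5 ⟨σ, hK⟩ ⟨s5 (Fin.last 4), s5_mem _⟩) with hy'
    obtain ⟨j, hj⟩ := (S5_iff _).1 y.2
    have hyj : y = ⟨s5 j, s5_mem j⟩ := Subtype.ext hj.symm
    have hπy : π y = act5 ⟨σ, hK⟩ ⟨s5 (Fin.last 4), s5_mem _⟩ := π.apply_symm_apply _
    rcases Fin.eq_castSucc_or_eq_last j with ⟨k, rfl⟩ | rfl
    · exfalso
      rw [hyj, ← h4 k] at hπy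
      have := (act5 ⟨σ, hK⟩).injective hπy
      exact (Fin.castSucc_lt_last k).ne (s5_inj (Subtype.ext_iff.1 this))
    · rw [← hπy, hyj]
  ext1 ⟨x, hx'⟩
  obtain ⟨i, hi⟩ := (S5_iff x).1 hx'
  subst hi
  rcases Fin.eq_castSucc_or_eq_last i with ⟨k, rfl⟩ | rfl
  · exact h4 k
  · exact hlast

theorem card_S5 : Fintype.card S5 = 5 := by
  rw [Fintype.card_coe]
  decide +kernel

theorem equivK5 : Nonempty (K5 ≃* Equiv.Perm (Fin 5)) := by
  have hbij : Function.Bijective act5 := by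
    rw [Nat.bijective_iff_surjective_and_card]
    refine ⟨act5_surj, ?_⟩
    rw [card_K5, Nat.card_eq_fintype_card, Fintype.card_perm, card_S5]
    decide
  have e : S5 ≃ Fin 5 := Fintype.equivFinOfCardEq card_S5
  exact ⟨(MulEquiv.ofBijective act5 hbij).trans e.permCongrHom⟩

/-- In the 12-point action of the smallest Mathieu group the setwise stabiliser of a pair is isomorphic to the symmetric group of degree 5. -/
theorem result (d : Finset Cfsg.GolayPt) (hd : d ∈ Cfsg.dodecads) (p q q' : Cfsg.GolayPt) (hp : p ∈ d) (hq : q ∉ d) (hq' : q' ∉ d) (hqq' : q ≠ q') : Nonempty (↥(MulAction.stabilizer Cfsg.M24 d ⊓ MulAction.stabilizer Cfsg.M24 p ⊓ MulAction.stabilizer Cfsg.M24 ({q, q'} : Finset Cfsg.GolayPt)) ≃* Equiv.Perm (Fin 5)) := by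
  obtain ⟨g, hg, h, h0, h3, h5⟩ := std4 hd hp hq hq' hqq'
  have hP : g • PR = {q, q'} := by
    show g • ({gpt 22, gpt 5} : Finset GolayPt) = _
    rw [smul_pair, h3, h5]
  obtain ⟨e5⟩ := equivK5
  have : Nonempty ((MulAction.stabilizer M24 d ⊓ MulAction.stabilizer M24 p ⊓
      MulAction.stabilizer M24 ({q, q'} : Finset GolayPt) : Subgroup M24) ≃* K5) := by
    apply conj_equiv M24 K5 _ g hg (inf_le_left.trans (inf_le_left.trans inf_le_left))
    intro τ
    have hK : g⁻¹ * (τ : Equiv.Perm GolayPt) * g ∈ K5 ↔ g⁻¹ * (τ : Equiv.Perm GolayPt) * g ∈ SD1 ∧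
        g⁻¹ * (τ : Equiv.Perm GolayPt) * g ∈ MulAction.stabilizer (Equiv.Perm GolayPt) PR := Subgroup.mem_inf
    rw [hK, SD1_mem, SD_mem, Subgroup.mem_inf, Subgroup.mem_inf]
    have e : τ ∈ MulAction.stabilizer M24 d ↔ (τ : Equiv.Perm GolayPt) • d = d := Iff.rfl
    have e' : τ ∈ MulAction.stabilizer M24 p ↔ (τ : Equiv.Perm GolayPt) p = p := Iff.rfl
    have e'' : τ ∈ MulAction.stabilizer M24 ({q, q'} : Finset GolayPt) ↔
      (τ : Equiv.Perm GolayPt) • ({q, q'} : Finset GolayPt) = {q, q'} := Iff.rfl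
    have e3 : g⁻¹ * (τ : Equiv.Perm GolayPt) * g ∈ MulAction.stabilizer (Equiv.Perm GolayPt) PR ↔
      (g⁻¹ * (τ : Equiv.Perm GolayPt) * g) • PR = PR := Iff.rfl
    have hb : bp 0 = gpt 23 := bpv.1
    rw [e, e', e'', e3, stab_conj_iff' h, stab_conj_iff h0, stab_conj_iff' hP, hb]
    constructor
    · rintro ⟨⟨h1, h2⟩, h4⟩
      exact ⟨⟨⟨M24_conj_mem hg τ, h1⟩, h2⟩, h4⟩
    · rintro ⟨⟨⟨_, h1⟩, h2⟩, h4⟩; exact ⟨⟨h1, h2⟩, h4⟩
  obtain ⟨e1⟩ := this
  exact ⟨e1.trans e5⟩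

end Cfsg.Agent.S1602
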