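import Cfsg.Statements.S1604
import Cfsg.Agent.H29.Trans3

set_option autoImplicit false
open scoped Pointwise
open Cfsg

namespace Cfsg.Agent.S1604

open Cfsg.Agent.H7 Cfsg.Agent.H29
open scoped Pointwise

def gens : List ℕ := [0xbd60f4322a988ed919245d83471460,
  0xbcdf222c50345496d2d541dcc184a0,
  0xbd1b63c9cf98d68492aa8182c144a0,
  0xbd5243cdd058e4d4195465a2f088a0,
  0xbcaaf3522750a64859a96206b095c0,
  0xbb09394074488e67d90baa8ad8b820,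
  0xbaa72a25cb80c8cb3ea76a226088a0]

theorem c2 : {s | s ∈ octads ∧ CP [23, 0] [] [(oct0, 2)] s}.ncard = 16 :=
  enm_oct.countC (by decide) (by decide +kernel)

theorem c4 : {s | s ∈ octads ∧ CP [23, 0] [] [(oct0, 4)] s}.ncard = 60 :=
  enm_oct.countC (by decide) (by decide +kernel)

theorem t2 {s t : Finset GolayPt} (hs : s ∈ octads) (ht : t ∈ octads)
    (cs : CP [23, 0] [] [(oct0, 2)] s) (ct : CP [23, 0] [] [(oct0, 2)] t) :
    ∃ σ ∈ M24, (∀ i ∈ [23, 0] ++ [], σ • gpt i = gpt i) ∧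
      (∀ m ∈ ([(oct0, 2)] : List (ℕ × ℕ)).map Prod.fst, σ • toSet m = toSet m) ∧ σ • s = t :=
  enm_oct.transP oct_inv (by decide) (gens := gens) 8499969 (by decide +kernel) (by decide +kernel) hs ht cs ct

theorem t4 {s t : Finset GolayPt} (hs : s ∈ octads) (ht : t ∈ octads)
    (cs : CP [23, 0] [] [(oct0, 4)] s) (ct : CP [23, 0] [] [(oct0, 4)] t) :
    ∃ σ ∈ M24, (∀ i ∈ [23, 0] ++ [], σ • gpt i = gpt i) ∧
      (∀ m ∈ ([(oct0, 4)] : List (ℕ × ℕ)).map Prod.fst, σ • toSet m = toSet m) ∧ σ • s = t :=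
  enm_oct.transP oct_inv (by decide) (gens := gens) 8391797 (by decide +kernel) (by decide +kernel) hs ht cs ct


theorem base (x y : Finset GolayPt) (hx : x ∈ octads) (hy : y ∈ octads) (hQx : gpt 23 ∈ x ∧ gpt 0 ∈ x) (hQy : gpt 23 ∈ y ∧ gpt 0 ∈ y)
    (h : (toSet oct0 ∩ x).card = (toSet oct0 ∩ y).card) :
    ∃ g ∈ M24, g • (gpt 23, gpt 0, toSet oct0) = (gpt 23, gpt 0, toSet oct0) ∧ g • x = y := by
  refine octtr _ (fun x => gpt 23 ∈ x ∧ gpt 0 ∈ x) ?_ x y hx hy hQx hQy h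
  rintro k (rfl | rfl | rfl) x y hx hy hQx hQy h1 h2
  · rw [Finset.card_eq_zero] at h1
    exact absurd (Finset.mem_inter.2 ⟨g23_oct0, hQx.1⟩) (by rw [h1]; simp)
  · obtain ⟨σ, s1, s2, s3, s4⟩ := t2 hx hy ⟨by simpa using hQx, by simp, by simpa using h1⟩
      ⟨by simpa using hQy, by simp, by simpa using h2⟩
    exact ⟨σ, s1, Prod.ext (s2 23 (by simp)) (Prod.ext (s2 0 (by simp)) (s3 oct0 (by simp))), s4⟩
  · obtain ⟨σ, s1, s2, s3, s4⟩ := t4 hx hy ⟨by simpa using hQx, by simp, by simpa using h1⟩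
      ⟨by simpa using hQy, by simp, by simpa using h2⟩
    exact ⟨σ, s1, Prod.ext (s2 23 (by simp)) (Prod.ext (s2 0 (by simp)) (s3 oct0 (by simp))), s4⟩

theorem cnt {k N : ℕ} (h0 : {s | s ∈ octads ∧ CP [23, 0] [] [(oct0, k)] s}.ncard = N) {o : Finset GolayPt}
    (ho : o ∈ octads) {p q : GolayPt} (hpq : p ≠ q) (hp : p ∈ o) (hq : q ∈ o) :
    {o' : Finset GolayPt | o' ∈ octads ∧ p ∈ o' ∧ q ∈ o' ∧ (o ∩ o').card = k}.ncard = N := by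
  refine ncard_all (fun (a : GolayPt × GolayPt × Finset GolayPt) (s : Finset GolayPt) =>
      s ∈ octads ∧ a.1 ∈ s ∧ a.2.1 ∈ s ∧ (a.2.2 ∩ s).card = k)
    (fun σ hσ a s h => ⟨(smul_octads_iff hσ).2 h.1, (smul_mem_smul' σ _ _).2 h.2.1, (smul_mem_smul' σ _ _).2 h.2.2.1, ?_⟩) ?_
    (std_oii ho hpq hp hq)
  · show ((σ • a.2.2) ∩ (σ • s)).card = k
    rw [card_smul_inter]; exact h.2.2.2
  · rw [← h0]
    congr 1
    ext s
    simp [CP, and_assoc]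

/-- A hexad stabiliser in the two-point stabiliser has orbits of sizes 1, 16, 60 on the 77 hexads: the 16 hexads disjoint from it and the 60 meeting it in two points. -/
theorem result (p q : Cfsg.GolayPt) (hpq : p ≠ q) (o o' o'' : Finset Cfsg.GolayPt) (ho : o ∈ Cfsg.octads) (ho' : o' ∈ Cfsg.octads) (ho'' : o'' ∈ Cfsg.octads) (hp : p ∈ o ∧ p ∈ o' ∧ p ∈ o'') (hq : q ∈ o ∧ q ∈ o' ∧ q ∈ o'') (h : (o ∩ o').card = (o ∩ o'').card) : {x : Finset Cfsg.GolayPt | x ∈ Cfsg.octads ∧ p ∈ x ∧ q ∈ x ∧ (o ∩ x).card = 2}.ncard = 16 ∧ {x : Finset Cfsg.GolayPt | x ∈ Cfsg.octads ∧ p ∈ x ∧ q ∈ x ∧ (o ∩ x).card = 4}.ncard = 60 ∧ ∃ g : Equiv.Perm Cfsg.GolayPt, g ∈ Cfsg.M24 ∧ g p = p ∧ g q = q ∧ g • o = o ∧ g • o' = o'' := by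
  refine ⟨cnt c2 ho hpq hp.1 hq.1, cnt c4 ho hpq hp.1 hq.1, ?_⟩
  obtain ⟨g, hg, h1, h2⟩ := tr_all (fun (a : GolayPt × GolayPt × Finset GolayPt) (s : Finset GolayPt) =>
      s ∈ octads ∧ a.1 ∈ s ∧ a.2.1 ∈ s)
    (fun σ hσ a s h => ⟨(smul_octads_iff hσ).2 h.1, (smul_mem_smul' σ _ _).2 h.2.1, (smul_mem_smul' σ _ _).2 h.2.2⟩)
    (R := fun a x y => (a.2.2 ∩ x).card = (a.2.2 ∩ y).card)
    (fun σ hσ a x y h => by
      show ((σ • a.2.2) ∩ (σ • x)).card = ((σ • a.2.2) ∩ (σ • y)).card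
      rw [card_smul_inter, card_smul_inter]; exact h)
    (fun x y hx hy h => base x y hx.1 hy.1 hx.2 hy.2 h) (std_oii ho hpq hp.1 hq.1) o' o''
    ⟨ho', hp.2.1, hq.2.1⟩ ⟨ho'', hp.2.2, hq.2.2⟩ h
  exact ⟨g, hg, congrArg Prod.fst h1, congrArg (fun x => x.2.1) h1, congrArg (fun x => x.2.2) h1, h2⟩

end Cfsg.Agent.S1604
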