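import Cfsg.Statements.S1605
import Cfsg.Agent.H29.Trans3

set_option autoImplicit false
open scoped Pointwise
open Cfsg

namespace Cfsg.Agent.S1605

open Cfsg.Agent.H7 Cfsg.Agent.H29
open scoped Pointwise

def gens : List ℕ := [0xbca903d636585099b1aa33c041b8a2,
  0xbd672b340b505e941a076522410dc5,
  0xbd20f4adc8b04ca6c8f3ab00410e25,
  0xbcab3535cb48e1641e8c33c0411621,
  0xbc909b51cd9c595519e782c4408065,
  0xbda927d5d0415a7331735262418041,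
  0xbda67ac80c339706a548a3ca408871,
  0xbd0d242e2c382afb29b38246470445,
  0xbc8d579c29502705d9146b0442c5c3]

def gens2 : List ℕ := [0xbd1624c2a8604606ca6775944798b1,
  0xbda95740323200a289879b6241a56f,
  0xbcab10b14833453a25633c004796ce,
  0xb8c06a1e76554499410d794247458b,
  0xba1b4ac949b017110dc679e040cd85,
  0xb8a40ac5b4b05e66146a726643a20b,
  0xbc649ab9f36943005967351841a848,
  0xbcdd61418b0ca23ab5282d004518ef,
  0xbd6d3345003d2506bc69131642a9c1,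
  0xbca016454b039afa18e3459242cea2,
  0xbcd48005222b2a373cd6a40e48c96d]

theorem c : {s | s ∈ octads ∧ CP [23] [4] [] s}.ncard = 176 :=
  enm_oct.countC (by decide) (by decide +kernel)

theorem c2 : {s | s ∈ octads ∧ CP [23] [4] [(oct0, 2)] s}.ncard = 70 :=
  enm_oct.countC (by decide) (by decide +kernel)

theorem c4 : {s | s ∈ octads ∧ CP [23] [4] [(oct0, 4)] s}.ncard = 105 :=
  enm_oct.countC (by decide) (by decide +kernel)

theorem t {s t : Finset GolayPt} (hs : s ∈ octads) (ht : t ∈ octads)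
    (cs : CP [23] [4] [] s) (ct : CP [23] [4] [] t) :
    ∃ σ ∈ M24, (∀ i ∈ [23] ++ [4], σ • gpt i = gpt i) ∧
      (∀ m ∈ ([] : List (ℕ × ℕ)).map Prod.fst, σ • toSet m = toSet m) ∧ σ • s = t :=
  enm_oct.transP oct_inv (by decide) (gens := gens2) 8394986 (by decide +kernel) (by decide +kernel) hs ht cs ct

theorem t2 {s t : Finset GolayPt} (hs : s ∈ octads) (ht : t ∈ octads)
    (cs : CP [23] [4] [(oct0, 2)] s) (ct : CP [23] [4] [(oct0, 2)] t) :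
    ∃ σ ∈ M24, (∀ i ∈ [23] ++ [4], σ • gpt i = gpt i) ∧
      (∀ m ∈ ([(oct0, 2)] : List (ℕ × ℕ)).map Prod.fst, σ • toSet m = toSet m) ∧ σ • s = t :=
  enm_oct.transP oct_inv (by decide) (gens := gens) 8490656 (by decide +kernel) (by decide +kernel) hs ht cs ct

theorem t4 {s t : Finset GolayPt} (hs : s ∈ octads) (ht : t ∈ octads)
    (cs : CP [23] [4] [(oct0, 4)] s) (ct : CP [23] [4] [(oct0, 4)] t) :
    ∃ σ ∈ M24, (∀ i ∈ [23] ++ [4], σ • gpt i = gpt i) ∧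
      (∀ m ∈ ([(oct0, 4)] : List (ℕ × ℕ)).map Prod.fst, σ • toSet m = toSet m) ∧ σ • s = t :=
  enm_oct.transP oct_inv (by decide) (gens := gens) 8394986 (by decide +kernel) (by decide +kernel) hs ht cs ct


theorem base (x y : Finset GolayPt) (hx : x ∈ octads) (hy : y ∈ octads) (hQx : gpt 23 ∈ x ∧ gpt 4 ∉ x) (hQy : gpt 23 ∈ y ∧ gpt 4 ∉ y)
    (h : (toSet oct0 ∩ x).card = (toSet oct0 ∩ y).card) :
    ∃ g ∈ M24, g • (gpt 23, gpt 4, toSet oct0) = (gpt 23, gpt 4, toSet oct0) ∧ g • x = y := by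
  refine octtr _ (fun x => gpt 23 ∈ x ∧ gpt 4 ∉ x) ?_ x y hx hy hQx hQy h
  rintro k (rfl | rfl | rfl) x y hx hy hQx hQy h1 h2
  · rw [Finset.card_eq_zero] at h1
    exact absurd (Finset.mem_inter.2 ⟨g23_oct0, hQx.1⟩) (by rw [h1]; simp)
  · obtain ⟨σ, s1, s2, s3, s4⟩ := t2 hx hy ⟨by simpa using hQx.1, by simpa using hQx.2, by simpa using h1⟩
      ⟨by simpa using hQy.1, by simpa using hQy.2, by simpa using h2⟩
    exact ⟨σ, s1, Prod.ext (s2 23 (by simp)) (Prod.ext (s2 4 (by simp)) (s3 oct0 (by simp))), s4⟩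
  · obtain ⟨σ, s1, s2, s3, s4⟩ := t4 hx hy ⟨by simpa using hQx.1, by simpa using hQx.2, by simpa using h1⟩
      ⟨by simpa using hQy.1, by simpa using hQy.2, by simpa using h2⟩
    exact ⟨σ, s1, Prod.ext (s2 23 (by simp)) (Prod.ext (s2 4 (by simp)) (s3 oct0 (by simp))), s4⟩

theorem base2 (x y : Finset GolayPt) (hx : x ∈ octads) (hy : y ∈ octads) (hQx : gpt 23 ∈ x ∧ gpt 4 ∉ x) (hQy : gpt 23 ∈ y ∧ gpt 4 ∉ y) :
    ∃ g ∈ M24, g • (gpt 23, gpt 4) = (gpt 23, gpt 4) ∧ g • x = y := by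
  obtain ⟨σ, s1, s2, s3, s4⟩ := t hx hy ⟨by simpa using hQx.1, by simpa using hQx.2, by simp⟩
      ⟨by simpa using hQy.1, by simpa using hQy.2, by simp⟩
  exact ⟨σ, s1, Prod.ext (s2 23 (by simp)) (s2 4 (by simp)), s4⟩

theorem cnt {k N : ℕ} (h0 : {s | s ∈ octads ∧ CP [23] [4] [(oct0, k)] s}.ncard = N) {o : Finset GolayPt}
    (ho : o ∈ octads) {p q : GolayPt} (hp : p ∈ o) (hq : q ∉ o) :
    {o' : Finset GolayPt | (o' ∈ octads ∧ p ∈ o' ∧ q ∉ o') ∧ (o ∩ o').card = k}.ncard = N := by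
  refine ncard_all (fun (a : GolayPt × GolayPt × Finset GolayPt) (s : Finset GolayPt) =>
      (s ∈ octads ∧ a.1 ∈ s ∧ a.2.1 ∉ s) ∧ (a.2.2 ∩ s).card = k)
    (fun σ hσ a s h => ⟨⟨(smul_octads_iff hσ).2 h.1.1, (smul_mem_smul' σ _ _).2 h.1.2.1,
      fun h' => h.1.2.2 ((smul_mem_smul' σ _ _).1 h')⟩, ?_⟩) ?_
    (std_oio ho hp hq)
  · show ((σ • a.2.2) ∩ (σ • s)).card = k
    rw [card_smul_inter]; exact h.2
  · rw [← h0]
    congr 1
    ext s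
    simp [CP, and_assoc]

/-- The two-point stabiliser acts on the 176 octads through the first point avoiding the second with rank 3 and subdegrees 1, 70, 105 (intersections 8, 2, 4). -/
theorem result (p q : Cfsg.GolayPt) (hpq : p ≠ q) : {x : Finset Cfsg.GolayPt | (x ∈ Cfsg.octads ∧ p ∈ x ∧ q ∉ x)}.ncard = 176 ∧ (∀ o o' : Finset Cfsg.GolayPt, (o ∈ Cfsg.octads ∧ p ∈ o ∧ q ∉ o) → (o' ∈ Cfsg.octads ∧ p ∈ o' ∧ q ∉ o') → ∃ g : Equiv.Perm Cfsg.GolayPt, g ∈ Cfsg.M24 ∧ g p = p ∧ g q = q ∧ g • o = o') ∧ ∀ o : Finset Cfsg.GolayPt, (o ∈ Cfsg.octads ∧ p ∈ o ∧ q ∉ o) → {x : Finset Cfsg.GolayPt | (x ∈ Cfsg.octads ∧ p ∈ x ∧ q ∉ x) ∧ (o ∩ x).card = 2}.ncard = 70 ∧ {x : Finset Cfsg.GolayPt | (x ∈ Cfsg.octads ∧ p ∈ x ∧ q ∉ x) ∧ (o ∩ x).card = 4}.ncard = 105 ∧ ∀ o' o'' : Finset Cfsg.GolayPt, (o' ∈ Cfsg.octads ∧ p ∈ o' ∧ q ∉ o') → (o'' ∈ Cfsg.octads ∧ p ∈ o'' ∧ q ∉ o'') → (o ∩ o').card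 = (o ∩ o'').card → ∃ g : Equiv.Perm Cfsg.GolayPt, g ∈ Cfsg.M24 ∧ g p = p ∧ g q = q ∧ g • o = o ∧ g • o' = o'' := by
  refine ⟨?_, ?_, ?_⟩
  · refine ncard_all (fun (a : GolayPt × GolayPt) (s : Finset GolayPt) => (s ∈ octads ∧ a.1 ∈ s ∧ a.2 ∉ s))
      (fun σ hσ a s h => ⟨(smul_octads_iff hσ).2 h.1, (smul_mem_smul' σ _ _).2 h.2.1,
        fun h' => h.2.2 ((smul_mem_smul' σ _ _).1 h')⟩) (N := 176) ?_
      (std_pp hpq (gpt 23) (gpt 4) (by decide))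
    rw [← c]
    congr 1
    ext s
    simp [CP]
  · intro o o' ho ho'
    obtain ⟨g, hg, h1, h2⟩ := tr_all (fun (a : GolayPt × GolayPt) (s : Finset GolayPt) => (s ∈ octads ∧ a.1 ∈ s ∧ a.2 ∉ s))
      (fun σ hσ a s h => ⟨(smul_octads_iff hσ).2 h.1, (smul_mem_smul' σ _ _).2 h.2.1,
        fun h' => h.2.2 ((smul_mem_smul' σ _ _).1 h')⟩) (R := fun _ _ _ => True) (fun _ _ _ _ _ _ => trivial)
      (fun x y hx hy _ => base2 x y hx.1 hy.1 hx.2 hy.2) (std_pp hpq (gpt 23) (gpt 4) (by decide)) o o' ho ho' trivial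
    exact ⟨g, hg, congrArg Prod.fst h1, congrArg Prod.snd h1, h2⟩
  · intro o ho
    refine ⟨cnt c2 ho.1 ho.2.1 ho.2.2, cnt c4 ho.1 ho.2.1 ho.2.2, fun o' o'' ho' ho'' h => ?_⟩
    obtain ⟨g, hg, h1, h2⟩ := tr_all (fun (a : GolayPt × GolayPt × Finset GolayPt) (s : Finset GolayPt) =>
        s ∈ octads ∧ a.1 ∈ s ∧ a.2.1 ∉ s)
      (fun σ hσ a s h => ⟨(smul_octads_iff hσ).2 h.1, (smul_mem_smul' σ _ _).2 h.2.1,
        fun h' => h.2.2 ((smul_mem_smul' σ _ _).1 h')⟩)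
      (R := fun a x y => (a.2.2 ∩ x).card = (a.2.2 ∩ y).card)
      (fun σ hσ a x y h => by
        show ((σ • a.2.2) ∩ (σ • x)).card = ((σ • a.2.2) ∩ (σ • y)).card
        rw [card_smul_inter, card_smul_inter]; exact h)
      (fun x y hx hy h => base x y hx.1 hy.1 hx.2 hy.2 h) (std_oio ho.1 ho.2.1 ho.2.2) o' o'' ho' ho'' h
    exact ⟨g, hg, congrArg Prod.fst h1, congrArg (fun x => x.2.1) h1, congrArg (fun x => x.2.2) h1, h2⟩

end Cfsg.Agent.S1605
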