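import Cfsg.Statements.S1607
import Cfsg.Agent.H29.Trans3

set_option autoImplicit false
open scoped Pointwise
open Cfsg

namespace Cfsg.Agent.S1607

open Cfsg.Agent.H7 Cfsg.Agent.H29
open scoped Pointwise

def gens : List ℕ := [0xbd5ab22a264166f4c994b406770041,
  0xbce9262c68509268548f69cb68840e,
  0xbcd886ac24b02543aab0798492c5c3,
  0xbd4f07b634614d2b208b54c091046e,
  0xbda69a3caa380cd411759406c8844e,
  0xbce1693dc760d2a3351522c54044a1,
  0xbd613a582c90ccf6acea49228138a0,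
  0xbb49345632516d433ce96400b1046e,
  0xbc9337d0b5344ed2216ab402c00c4e,
  0xbd9f24a9c864575391b434c5009403,
  0xbdab29c0b4409ea498ed5b004185d1]

theorem c2 : {s | s ∈ octads ∧ CP [23] [] [(oct0, 2)] s}.ncard = 112 :=
  enm_oct.countC (by decide) (by decide +kernel)

theorem c4 : {s | s ∈ octads ∧ CP [23] [] [(oct0, 4)] s}.ncard = 140 :=
  enm_oct.countC (by decide) (by decide +kernel)

theorem t2 {s t : Finset GolayPt} (hs : s ∈ octads) (ht : t ∈ octads)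
    (cs : CP [23] [] [(oct0, 2)] s) (ct : CP [23] [] [(oct0, 2)] t) :
    ∃ σ ∈ M24, (∀ i ∈ [23] ++ [], σ • gpt i = gpt i) ∧
      (∀ m ∈ ([(oct0, 2)] : List (ℕ × ℕ)).map Prod.fst, σ • toSet m = toSet m) ∧ σ • s = t :=
  enm_oct.transP oct_inv (by decide) (gens := gens) 8401364 (by decide +kernel) (by decide +kernel) hs ht cs ct

theorem t4 {s t : Finset GolayPt} (hs : s ∈ octads) (ht : t ∈ octads)
    (cs : CP [23] [] [(oct0, 4)] s) (ct : CP [23] [] [(oct0, 4)] t) :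
    ∃ σ ∈ M24, (∀ i ∈ [23] ++ [], σ • gpt i = gpt i) ∧
      (∀ m ∈ ([(oct0, 4)] : List (ℕ × ℕ)).map Prod.fst, σ • toSet m = toSet m) ∧ σ • s = t :=
  enm_oct.transP oct_inv (by decide) (gens := gens) 8391797 (by decide +kernel) (by decide +kernel) hs ht cs ct


theorem base (x y : Finset GolayPt) (hx : x ∈ octads) (hy : y ∈ octads) (hQx : gpt 23 ∈ x) (hQy : gpt 23 ∈ y)
    (h : (toSet oct0 ∩ x).card = (toSet oct0 ∩ y).card) :
    ∃ g ∈ M24, g • (gpt 23, toSet oct0) = (gpt 23, toSet oct0) ∧ g • x = y := by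
  refine octtr _ (fun x => gpt 23 ∈ x) ?_ x y hx hy hQx hQy h
  rintro k (rfl | rfl | rfl) x y hx hy hQx hQy h1 h2
  · rw [Finset.card_eq_zero] at h1
    exact absurd (Finset.mem_inter.2 ⟨g23_oct0, hQx⟩) (by rw [h1]; simp)
  · obtain ⟨σ, s1, s2, s3, s4⟩ := t2 hx hy ⟨by simpa using hQx, by simp, by simpa using h1⟩
      ⟨by simpa using hQy, by simp, by simpa using h2⟩
    exact ⟨σ, s1, Prod.ext (s2 23 (by simp)) (s3 oct0 (by simp)), s4⟩
  · obtain ⟨σ, s1, s2, s3, s4⟩ := t4 hx hy ⟨by simpa using hQx, by simp, by simpa using h1⟩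
      ⟨by simpa using hQy, by simp, by simpa using h2⟩
    exact ⟨σ, s1, Prod.ext (s2 23 (by simp)) (s3 oct0 (by simp)), s4⟩

theorem cnt {k N : ℕ} (h0 : {s | s ∈ octads ∧ CP [23] [] [(oct0, k)] s}.ncard = N) {o : Finset GolayPt}
    (ho : o ∈ octads) {x : GolayPt} (hx : x ∈ o) :
    {o' : Finset GolayPt | o' ∈ octads ∧ x ∈ o' ∧ (o ∩ o').card = k}.ncard = N := by
  refine ncard_all (fun (a : GolayPt × Finset GolayPt) (s : Finset GolayPt) => s ∈ octads ∧ a.1 ∈ s ∧ (a.2 ∩ s).card = k)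
    (fun σ hσ a s h => ⟨(smul_octads_iff hσ).2 h.1, (smul_mem_smul' σ _ _).2 h.2.1, ?_⟩) ?_ (std_oi ho hx)
  · show ((σ • a.2) ∩ (σ • s)).card = k
    rw [card_smul_inter]; exact h.2.2
  · rw [← h0]
    congr 1
    ext s
    simp [CP]

/-- The point stabiliser acts on the 253 heptads of its S(4, 7, 23) with rank 3 and subdegrees 1, 112, 140 (intersections 8, 2, 4). -/
theorem result (x : Cfsg.GolayPt) (o : Finset Cfsg.GolayPt) (ho : o ∈ Cfsg.octads) (hx : x ∈ o) : {o' : Finset Cfsg.GolayPt | o' ∈ Cfsg.octads ∧ x ∈ o' ∧ (o ∩ o').card = 2}.ncard = 112 ∧ {o' : Finset Cfsg.GolayPt | o' ∈ Cfsg.octads ∧ x ∈ o' ∧ (o ∩ o').card = 4}.ncard = 140 ∧ ∀ o' o'' : Finset Cfsg.GolayPt, o' ∈ Cfsg.octads → o'' ∈ Cfsg.octads → x ∈ o' → x ∈ o'' → (o ∩ o').card = (o ∩ o'').card → ∃ g : Equiv.Perm Cfsg.GolayPt, g ∈ Cfsg.M24 ∧ g x = x ∧ g • o = o ∧ g • o' = o'' := by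
  refine ⟨cnt c2 ho hx, cnt c4 ho hx, fun o' o'' ho' ho'' hx' hx'' h => ?_⟩
  obtain ⟨g, hg, h1, h2⟩ := tr_all (fun (a : GolayPt × Finset GolayPt) (s : Finset GolayPt) => s ∈ octads ∧ a.1 ∈ s)
    (fun σ hσ a s h => ⟨(smul_octads_iff hσ).2 h.1, (smul_mem_smul' σ _ _).2 h.2⟩)
    (R := fun a x y => (a.2 ∩ x).card = (a.2 ∩ y).card)
    (fun σ hσ a x y h => by
      show ((σ • a.2) ∩ (σ • x)).card = ((σ • a.2) ∩ (σ • y)).card
      rw [card_smul_inter, card_smul_inter]; exact h)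
    (fun x y hx hy h => base x y hx.1 hy.1 hx.2 hy.2 h) (std_oi ho hx) o' o'' ⟨ho', hx'⟩ ⟨ho'', hx''⟩ h
  exact ⟨g, hg, congrArg Prod.fst h1, congrArg Prod.snd h1, h2⟩

end Cfsg.Agent.S1607
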