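import Cfsg.Statements.S1608
import Cfsg.Agent.H29.Trans3

set_option autoImplicit false
open scoped Pointwise
open Cfsg

namespace Cfsg.Agent.S1608

open Cfsg.Agent.H7 Cfsg.Agent.H29
open scoped Pointwise

def gens : List ℕ := [0xbbeb25b068308ea852d36a5c488025,
  0x2d2b36244d5b9567a0d091ee418221,
  0x1da877a81335eb24360962ca4885c2,
  0x15a70abc32681073317452464896ee,
  0xbae6fa1867a952cb350a94004889c1,
  0xbad166d62660d52824ef9d1c409440,
  0xba674959c68158b3d50a7b46410411,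
  0x1d6d29c054515884b4e65bc24b822e,
  0xaa56ad2eb494c899d8d7c0041446e,
  0x8cd75a20b0b5cef634ca4c8441840e,
  0xbd907925d030dafa566a5b0a488402,
  0xd9f3a19caa892c5c9076c22401477,
  0x8aa926c0a8a8e67626cf5980475c41]

theorem c0 : {s | s ∈ octads ∧ CP [] [4] [(oct0, 0)] s}.ncard = 15 :=
  enm_oct.countC (by decide) (by decide +kernel)

theorem c2 : {s | s ∈ octads ∧ CP [] [4] [(oct0, 2)] s}.ncard = 280 :=
  enm_oct.countC (by decide) (by decide +kernel)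

theorem c4 : {s | s ∈ octads ∧ CP [] [4] [(oct0, 4)] s}.ncard = 210 :=
  enm_oct.countC (by decide) (by decide +kernel)

theorem t0 {s t : Finset GolayPt} (hs : s ∈ octads) (ht : t ∈ octads)
    (cs : CP [] [4] [(oct0, 0)] s) (ct : CP [] [4] [(oct0, 0)] t) :
    ∃ σ ∈ M24, (∀ i ∈ [] ++ [4], σ • gpt i = gpt i) ∧
      (∀ m ∈ ([(oct0, 0)] : List (ℕ × ℕ)).map Prod.fst, σ • toSet m = toSet m) ∧ σ • s = t :=
  enm_oct.transP oct_inv (by decide) (gens := gens) 337856 (by decide +kernel) (by decide +kernel) hs ht cs ct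

theorem t2 {s t : Finset GolayPt} (hs : s ∈ octads) (ht : t ∈ octads)
    (cs : CP [] [4] [(oct0, 2)] s) (ct : CP [] [4] [(oct0, 2)] t) :
    ∃ σ ∈ M24, (∀ i ∈ [] ++ [4], σ • gpt i = gpt i) ∧
      (∀ m ∈ ([(oct0, 2)] : List (ℕ × ℕ)).map Prod.fst, σ • toSet m = toSet m) ∧ σ • s = t :=
  enm_oct.transP oct_inv (by decide) (gens := gens) 15777 (by decide +kernel) (by decide +kernel) hs ht cs ct

theorem t4 {s t : Finset GolayPt} (hs : s ∈ octads) (ht : t ∈ octads)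
    (cs : CP [] [4] [(oct0, 4)] s) (ct : CP [] [4] [(oct0, 4)] t) :
    ∃ σ ∈ M24, (∀ i ∈ [] ++ [4], σ • gpt i = gpt i) ∧
      (∀ m ∈ ([(oct0, 4)] : List (ℕ × ℕ)).map Prod.fst, σ • toSet m = toSet m) ∧ σ • s = t :=
  enm_oct.transP oct_inv (by decide) (gens := gens) 18147 (by decide +kernel) (by decide +kernel) hs ht cs ct


theorem base (x y : Finset GolayPt) (hx : x ∈ octads) (hy : y ∈ octads) (hQx : gpt 4 ∉ x) (hQy : gpt 4 ∉ y)
    (h : (toSet oct0 ∩ x).card = (toSet oct0 ∩ y).card) :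
    ∃ g ∈ M24, g • (gpt 4, toSet oct0) = (gpt 4, toSet oct0) ∧ g • x = y := by
  refine octtr _ (fun x => gpt 4 ∉ x) ?_ x y hx hy hQx hQy h
  rintro k (rfl | rfl | rfl) x y hx hy hQx hQy h1 h2
  · obtain ⟨σ, s1, s2, s3, s4⟩ := t0 hx hy ⟨by simp, by simpa using hQx, by simpa using h1⟩
      ⟨by simp, by simpa using hQy, by simpa using h2⟩
    exact ⟨σ, s1, Prod.ext (s2 4 (by simp)) (s3 oct0 (by simp)), s4⟩
  · obtain ⟨σ, s1, s2, s3, s4⟩ := t2 hx hy ⟨by simp, by simpa using hQx, by simpa using h1⟩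
      ⟨by simp, by simpa using hQy, by simpa using h2⟩
    exact ⟨σ, s1, Prod.ext (s2 4 (by simp)) (s3 oct0 (by simp)), s4⟩
  · obtain ⟨σ, s1, s2, s3, s4⟩ := t4 hx hy ⟨by simp, by simpa using hQx, by simpa using h1⟩
      ⟨by simp, by simpa using hQy, by simpa using h2⟩
    exact ⟨σ, s1, Prod.ext (s2 4 (by simp)) (s3 oct0 (by simp)), s4⟩

theorem cnt {k N : ℕ} (h0 : {s | s ∈ octads ∧ CP [] [4] [(oct0, k)] s}.ncard = N) {o : Finset GolayPt}
    (ho : o ∈ octads) {x : GolayPt} (hx : x ∉ o) :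
    {o' : Finset GolayPt | o' ∈ octads ∧ x ∉ o' ∧ (o ∩ o').card = k}.ncard = N := by
  refine ncard_all (fun (a : GolayPt × Finset GolayPt) (s : Finset GolayPt) => s ∈ octads ∧ a.1 ∉ s ∧ (a.2 ∩ s).card = k)
    (fun σ hσ a s h => ⟨(smul_octads_iff hσ).2 h.1, fun h' => h.2.1 ((smul_mem_smul' σ _ _).1 h'), ?_⟩) ?_ (std_oo ho hx)
  · show ((σ • a.2) ∩ (σ • s)).card = k
    rw [card_smul_inter]; exact h.2.2
  · rw [← h0]
    congr 1
    ext s
    simp [CP]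

/-- The point stabiliser acts on the 506 octads avoiding the point with rank 4 and subdegrees 1, 15, 210, 280, the suborbits being given by intersection size with the fixed octad. -/
theorem result (x : Cfsg.GolayPt) (o : Finset Cfsg.GolayPt) (ho : o ∈ Cfsg.octads) (hx : x ∉ o) : {o' : Finset Cfsg.GolayPt | o' ∈ Cfsg.octads ∧ x ∉ o' ∧ (o ∩ o').card = 0}.ncard = 15 ∧ {o' : Finset Cfsg.GolayPt | o' ∈ Cfsg.octads ∧ x ∉ o' ∧ (o ∩ o').card = 4}.ncard = 210 ∧ {o' : Finset Cfsg.GolayPt | o' ∈ Cfsg.octads ∧ x ∉ o' ∧ (o ∩ o').card = 2}.ncard = 280 ∧ ∀ o' o'' : Finset Cfsg.GolayPt, o' ∈ Cfsg.octads → o'' ∈ Cfsg.octads → x ∉ o' → x ∉ o'' → (o ∩ o').card = (o ∩ o'').card → ∃ g : Equiv.Perm Cfsg.GolayPt, g ∈ Cfsg.M24 ∧ g x = x ∧ g • o = o ∧ g • o' = o'' := by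
  refine ⟨cnt c0 ho hx, cnt c4 ho hx, cnt c2 ho hx, fun o' o'' ho' ho'' hx' hx'' h => ?_⟩
  obtain ⟨g, hg, h1, h2⟩ := tr_all (fun (a : GolayPt × Finset GolayPt) (s : Finset GolayPt) => s ∈ octads ∧ a.1 ∉ s)
    (fun σ hσ a s h => ⟨(smul_octads_iff hσ).2 h.1, fun h' => h.2 ((smul_mem_smul' σ _ _).1 h')⟩)
    (R := fun a x y => (a.2 ∩ x).card = (a.2 ∩ y).card)
    (fun σ hσ a x y h => by
      show ((σ • a.2) ∩ (σ • x)).card = ((σ • a.2) ∩ (σ • y)).card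
      rw [card_smul_inter, card_smul_inter]; exact h)
    (fun x y hx hy h => base x y hx.1 hy.1 hx.2 hy.2 h) (std_oo ho hx) o' o'' ⟨ho', hx'⟩ ⟨ho'', hx''⟩ h
  exact ⟨g, hg, congrArg Prod.fst h1, congrArg Prod.snd h1, h2⟩

end Cfsg.Agent.S1608
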