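import Cfsg.Statements.S1610
import Cfsg.Agent.H29.HexC

set_option autoImplicit false
open Cfsg

namespace Cfsg.Agent.S1610

open Cfsg.Agent.H29.HX

set_option maxRecDepth 100000 in
theorem wd_inj : ∀ q q' : Fin 4 × Fin 4 × Fin 4, (∀ i, wd q.1 q.2.1 q.2.2 i = wd q'.1 q'.2.1 q'.2.2 i) → q = q' := by decide +kernel

theorem cnt {F : Type*} [Field F] [Fintype F] {ω : F} (hF : Fintype.card F = 4) (hω : ω ^ 2 + ω + 1 = 0)
    (Q : (Fin 6 → F) → Prop) (P : (Fin 6 → Fin 4) → Prop) [DecidablePred P] (hPQ : ∀ w, Q (fun i => ph ω (w i)) ↔ P w) (n : ℕ)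
    (h : (Finset.univ.filter fun q : Fin 4 × Fin 4 × Fin 4 => P (wd q.1 q.2.1 q.2.2)).card = n) :
    {x : Fin 6 → F | x ∈ hexacode F ω ∧ Q x}.ncard = n := by
  have e : {x : Fin 6 → F | x ∈ hexacode F ω ∧ Q x}
      = (fun q : Fin 4 × Fin 4 × Fin 4 => fun i => ph ω (wd q.1 q.2.1 q.2.2 i)) '' (((Finset.univ.filter fun q : Fin 4 × Fin 4 × Fin 4 => P (wd q.1 q.2.1 q.2.2)) : Finset _) : Set _) := by
    ext x
    constructor
    · rintro ⟨h1, h2⟩
      obtain ⟨a, b, c, rfl⟩ := (mem_iff hF hω).1 h1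
      refine ⟨(a, b, c), ?_, rfl⟩
      rw [Finset.mem_coe, Finset.mem_filter]
      exact ⟨Finset.mem_univ _, (hPQ _).1 h2⟩
    · rintro ⟨⟨a, b, c⟩, ha, rfl⟩
      rw [Finset.mem_coe, Finset.mem_filter] at ha
      exact ⟨(mem_iff hF hω).2 ⟨a, b, c, rfl⟩, (hPQ _).2 ha.2⟩
  have hi : Function.Injective (fun q : Fin 4 × Fin 4 × Fin 4 => fun i => ph ω (wd q.1 q.2.1 q.2.2 i)) := by
    intro q q' h
    exact wd_inj q q' fun i => ph_inj hF hω (congrFun h i)
  rw [e, Set.ncard_image_of_injective _ hi, Set.ncard_coe_finset, h]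

set_option maxRecDepth 100000 in
theorem wts : ∀ q : Fin 4 × Fin 4 × Fin 4, (∀ i, wd q.1 q.2.1 q.2.2 i = 0) ∨
    (Finset.univ.filter fun i => wd q.1 q.2.1 q.2.2 i ≠ 0).card = 4 ∨
    (Finset.univ.filter fun i => wd q.1 q.2.1 q.2.2 i ≠ 0).card = 6 := by decide +kernel

theorem filt {F : Type*} [Field F] [Fintype F] [DecidableEq F] {ω : F} (hF : Fintype.card F = 4) (hω : ω ^ 2 + ω + 1 = 0)
    (w : Fin 6 → Fin 4) : (Finset.univ.filter fun i => ph ω (w i) ≠ 0) = Finset.univ.filter fun i => w i ≠ 0 := by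
  ext i
  simp only [Finset.mem_filter, Finset.mem_univ, true_and, ne_eq, ph_zero_iff hF hω]

/-- The hexacode has 64 words, minimum weight 4, and weight distribution 0^1 4^45 6^18. -/
theorem result (F : Type*) [Field F] [Fintype F] [DecidableEq F] (hF : Fintype.card F = 4) (ω : F) (hω : ω ^ 2 + ω + 1 = 0) : Nat.card ↥(Cfsg.hexacode F ω) = 64 ∧ (∀ x ∈ Cfsg.hexacode F ω, x ≠ 0 → (Finset.univ.filter fun i => x i ≠ 0).card = 4 ∨ (Finset.univ.filter fun i => x i ≠ 0).card = 6) ∧ {x : Fin 6 → F | x ∈ Cfsg.hexacode F ω ∧ (Finset.univ.filter fun i => x i ≠ 0).card = 4}.ncard = 45 ∧ {x : Fin 6 → F | x ∈ Cfsg.hexacode F ω ∧ (Finset.univ.filter fun i => x i ≠ 0).card = 6}.ncard = 18 := by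
  refine ⟨?_, ?_, cnt hF hω (fun x => (Finset.univ.filter fun i => x i ≠ 0).card = 4) (fun w => (Finset.univ.filter fun i => w i ≠ 0).card = 4)
      (fun w => by rw [filt hF hω]) 45 (by decide +kernel),
    cnt hF hω (fun x => (Finset.univ.filter fun i => x i ≠ 0).card = 6) (fun w => (Finset.univ.filter fun i => w i ≠ 0).card = 6)
      (fun w => by rw [filt hF hω]) 18 (by decide +kernel)⟩
  · have h := cnt hF hω (fun _ => True) (fun _ => True) (fun _ => Iff.rfl) 64 (by decide +kernel)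
    rw [← h, ← Nat.card_coe_set_eq]
    exact Nat.card_congr (Equiv.subtypeEquivRight fun x => by simp)
  · intro x hx hne
    obtain ⟨a, b, c, rfl⟩ := (mem_iff hF hω).1 hx
    rw [filt hF hω]
    refine (wts (a, b, c)).resolve_left fun h0 => hne (funext fun i => ?_)
    have := h0 i
    show ph ω (wd a b c i) = 0
    rw [ph_zero_iff hF hω]; exact this

end Cfsg.Agent.S1610
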