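import Cfsg.Statements.S1611
import Cfsg.Agent.H29.HexC

set_option autoImplicit false
open Cfsg

namespace Cfsg.Agent.S1611

open Cfsg.Agent.H29.HX

section
variable {F : Type*} [Field F]

def pres (ω : F) (σ : Equiv.Perm (Fin 6)) (c : Fin 6 → Fˣ) : Prop :=
  ∀ x ∈ hexacode F ω, monomialMap σ c x ∈ hexacode F ω

theorem mono_comp (σ τ : Equiv.Perm (Fin 6)) (c d : Fin 6 → Fˣ) (x : Fin 6 → F) :
    monomialMap σ c (monomialMap τ d x) = monomialMap (σ * τ) (fun p => c p * d (σ.symm p)) x := by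
  funext p
  show (c p : F) * ((d (σ.symm p) : F) * x (τ.symm (σ.symm p))) = ((c p * d (σ.symm p) : Fˣ) : F) * x (τ.symm (σ.symm p))
  rw [Units.val_mul, mul_assoc]

theorem mono_inj (σ : Equiv.Perm (Fin 6)) (c : Fin 6 → Fˣ) : Function.Injective (monomialMap σ c) := by
  intro x y h
  funext p
  have := congrFun h (σ p)
  have h2 : (c (σ p) : F) * x (σ.symm (σ p)) = (c (σ p) : F) * y (σ.symm (σ p)) := this
  rw [Equiv.symm_apply_apply] at h2
  exact (Units.mul_right_inj _).1 h2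

variable [Fintype F] {ω : F}

theorem pres_surj {σ : Equiv.Perm (Fin 6)} {c : Fin 6 → Fˣ} (h : pres ω σ c) {y : Fin 6 → F}
    (hy : y ∈ hexacode F ω) : ∃ x ∈ hexacode F ω, monomialMap σ c x = y := by
  classical
  let f : hexacode F ω → hexacode F ω := fun x => ⟨monomialMap σ c x, h x x.2⟩
  have hf : Function.Injective f := fun x z hz => Subtype.ext (mono_inj σ c (congrArg Subtype.val hz))
  obtain ⟨x, hx⟩ := (Finite.surjective_of_injective hf) ⟨y, hy⟩
  exact ⟨x, x.2, congrArg Subtype.val hx⟩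

/-- the group of permutation parts -/
def II (ω : F) : Subgroup (Equiv.Perm (Fin 6)) where
  carrier := {σ | ∃ c, pres ω σ c}
  one_mem' := ⟨fun _ => 1, fun x hx => by
    have : monomialMap 1 (fun _ => 1) x = x := by
      funext p; show ((1 : Fˣ) : F) * x p = x p; rw [Units.val_one, one_mul]
    rw [this]; exact hx⟩
  mul_mem' := by
    rintro σ τ ⟨c, hc⟩ ⟨d, hd⟩
    refine ⟨fun p => c p * d (σ.symm p), fun x hx => ?_⟩
    rw [← mono_comp]
    exact hc _ (hd _ hx)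
  inv_mem' := by
    rintro σ ⟨c, hc⟩
    refine ⟨fun p => (c (σ p))⁻¹, fun x hx => ?_⟩
    obtain ⟨y, hy, rfl⟩ := pres_surj hc hx
    rw [mono_comp]
    have : monomialMap (σ⁻¹ * σ) (fun p => (c (σ p))⁻¹ * c (σ⁻¹.symm p)) y = y := by
      funext p
      show (((c (σ p))⁻¹ * c (σ p) : Fˣ) : F) * y ((σ⁻¹ * σ).symm p) = y p
      rw [inv_mul_cancel, inv_mul_cancel, Units.val_one, one_mul]
      rfl
    rw [this]; exact hy
end

/-- systematic generator words -/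
def gg (j : Fin 3) : Fin 6 → Fin 4 :=
  (![![1,0,0,1,3,2], ![0,1,0,1,2,3], ![0,0,1,1,1,1]] : Fin 3 → Fin 6 → Fin 4) j

/-- membership test -/
def mb (w : Fin 6 → Fin 4) : Prop :=
  w 3 = ad (ad (w 0) (w 1)) (w 2) ∧ w 4 = ad (ad (mu 3 (w 0)) (mu 2 (w 1))) (w 2) ∧
    w 5 = ad (ad (mu 2 (w 0)) (mu 3 (w 1))) (w 2)

instance (w : Fin 6 → Fin 4) : Decidable (mb w) := by unfold mb; infer_instance

set_option maxRecDepth 100000 in
theorem mb_wd : ∀ a b c, mb (wd a b c) := by decide +kernel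
set_option maxRecDepth 100000 in
theorem wd_mb : ∀ x y z : Fin 4, ∃ a b c, wd a b c 0 = x ∧ wd a b c 1 = y ∧ wd a b c 2 = z := by decide +kernel

theorem mb_iff {w : Fin 6 → Fin 4} : mb w ↔ ∃ a b c, wd a b c = w := by
  constructor
  · rintro ⟨h3, h4, h5⟩
    obtain ⟨a, b, c, e0, e1, e2⟩ := wd_mb (w 0) (w 1) (w 2)
    obtain ⟨g3, g4, g5⟩ := mb_wd a b c
    refine ⟨a, b, c, funext fun i => ?_⟩
    fin_cases i
    · exact e0
    · exact e1
    · exact e2
    · exact g3.trans (by rw [e0, e1, e2]; exact h3.symm)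
    · exact g4.trans (by rw [e0, e1, e2]; exact h4.symm)
    · exact g5.trans (by rw [e0, e1, e2]; exact h5.symm)
  · rintro ⟨a, b, c, rfl⟩
    exact mb_wd a b c

/-- model condition -/
def prI (τ : Fin 6 → Fin 6) (u : Fin 6 → Fin 4) : Prop := ∀ j : Fin 3, mb (fun i => mu (u i) (gg j (τ i)))

instance (τ : Fin 6 → Fin 6) (u : Fin 6 → Fin 4) : Decidable (prI τ u) := by unfold prI; infer_instance

section
variable {F : Type*} [Field F] [Fintype F] {ω : F} (hF : Fintype.card F = 4) (hω : ω ^ 2 + ω + 1 = 0)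
include hF hω

theorem mem_iff' {w : Fin 6 → Fin 4} : (fun i => ph ω (w i)) ∈ hexacode F ω ↔ mb w := by
  rw [mem_iff hF hω, mb_iff]
  constructor
  · rintro ⟨a, b, c, h⟩
    exact ⟨a, b, c, funext fun i => ph_inj hF hω (congrFun h i)⟩
  · rintro ⟨a, b, c, h⟩
    exact ⟨a, b, c, by rw [h]⟩

theorem mono_ph (σ : Equiv.Perm (Fin 6)) (c : Fin 6 → Fˣ) (u : Fin 6 → Fin 4) (hc : ∀ i, (c i : F) = ph ω (u i))
    (w : Fin 6 → Fin 4) : monomialMap σ c (fun i => ph ω (w i)) = fun i => ph ω (mu (u i) (w (σ.symm i))) := by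
  funext i
  show (c i : F) * ph ω (w (σ.symm i)) = _
  rw [hc, ph_mul hF hω]

theorem gg_comb (x : Fin 6 → F) (hx : x ∈ hexacode F ω) :
    x = x 0 • (fun i => ph ω (gg 0 i)) + x 1 • (fun i => ph ω (gg 1 i)) + x 2 • (fun i => ph ω (gg 2 i)) := by
  obtain ⟨a, b, c, rfl⟩ := (mem_iff hF hω).1 hx
  obtain ⟨h3, h4, h5⟩ := mb_wd a b c
  have e0 : ph ω 0 = (0 : F) := rfl
  have e1 : ph ω 1 = (1 : F) := rfl
  funext i
  show ph ω (wd a b c i) = ph ω (wd a b c 0) * ph ω (gg 0 i) + ph ω (wd a b c 1) * ph ω (gg 1 i) + ph ω (wd a b c 2) * ph ω (gg 2 i)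
  fin_cases i
  · show ph ω (wd a b c 0) = ph ω (wd a b c 0) * ph ω 1 + ph ω (wd a b c 1) * ph ω 0 + ph ω (wd a b c 2) * ph ω 0
    rw [e0, e1]; ring
  · show ph ω (wd a b c 1) = ph ω (wd a b c 0) * ph ω 0 + ph ω (wd a b c 1) * ph ω 1 + ph ω (wd a b c 2) * ph ω 0
    rw [e0, e1]; ring
  · show ph ω (wd a b c 2) = ph ω (wd a b c 0) * ph ω 0 + ph ω (wd a b c 1) * ph ω 0 + ph ω (wd a b c 2) * ph ω 1
    rw [e0, e1]; ring
  · show ph ω (wd a b c 3) = ph ω (wd a b c 0) * ph ω 1 + ph ω (wd a b c 1) * ph ω 1 + ph ω (wd a b c 2) * ph ω 1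
    rw [h3, ph_add hF hω, ph_add hF hω, e1]; ring
  · show ph ω (wd a b c 4) = ph ω (wd a b c 0) * ph ω 3 + ph ω (wd a b c 1) * ph ω 2 + ph ω (wd a b c 2) * ph ω 1
    rw [h4, ph_add hF hω, ph_add hF hω, ph_mul hF hω, ph_mul hF hω, e1]; ring
  · show ph ω (wd a b c 5) = ph ω (wd a b c 0) * ph ω 2 + ph ω (wd a b c 1) * ph ω 3 + ph ω (wd a b c 2) * ph ω 1
    rw [h5, ph_add hF hω, ph_add hF hω, ph_mul hF hω, ph_mul hF hω, e1]; ring

theorem gg_mem (j : Fin 3) : (fun i => ph ω (gg j i)) ∈ hexacode F ω := by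
  rw [mem_iff' hF hω]
  revert j; decide +kernel

theorem pres_iff (σ : Equiv.Perm (Fin 6)) (c : Fin 6 → Fˣ) (u : Fin 6 → Fin 4) (hc : ∀ i, (c i : F) = ph ω (u i)) :
    pres ω σ c ↔ prI σ.symm u := by
  constructor
  · intro h j
    have h1 := h _ (gg_mem hF hω j)
    rw [mono_ph hF hω σ c u hc, mem_iff' hF hω] at h1
    exact h1
  · intro h x hx
    have hg : ∀ j, monomialMap σ c (fun i => ph ω (gg j i)) ∈ hexacode F ω := by
      intro j
      rw [mono_ph hF hω σ c u hc, mem_iff' hF hω]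
      exact h j
    have e : monomialMap σ c x = x 0 • monomialMap σ c (fun i => ph ω (gg 0 i)) + x 1 • monomialMap σ c (fun i => ph ω (gg 1 i)) +
        x 2 • monomialMap σ c (fun i => ph ω (gg 2 i)) := by
      funext i
      show (c i : F) * x (σ.symm i) = x 0 * ((c i : F) * ph ω (gg 0 (σ.symm i))) + x 1 * ((c i : F) * ph ω (gg 1 (σ.symm i))) +
        x 2 * ((c i : F) * ph ω (gg 2 (σ.symm i)))
      have h1 := congrFun (gg_comb hF hω x hx) (σ.symm i)
      have h2 : x (σ.symm i) = x 0 * ph ω (gg 0 (σ.symm i)) + x 1 * ph ω (gg 1 (σ.symm i)) + x 2 * ph ω (gg 2 (σ.symm i)) := h1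
      rw [h2]; ring
    rw [e]
    exact Submodule.add_mem _ (Submodule.add_mem _ (Submodule.smul_mem _ _ (hg 0)) (Submodule.smul_mem _ _ (hg 1))) (Submodule.smul_mem _ _ (hg 2))

/-- units are numbered -/
theorem unit_ph (c : Fˣ) : ∃ k : Fin 3, (c : F) = ph ω k.succ := by
  obtain ⟨i, hi⟩ := ph_surj hF hω (c : F)
  have h0 : i ≠ 0 := by
    rintro rfl
    exact c.ne_zero hi.symm
  obtain ⟨k, rfl⟩ := Fin.exists_succ_eq.2 h0
  exact ⟨k, hi.symm⟩

theorem ph_unit (k : Fin 3) : ∃ c : Fˣ, (c : F) = ph ω k.succ :=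
  ⟨Units.mk0 (ph ω k.succ) fun h => (Fin.succ_ne_zero k) ((ph_zero_iff hF hω _).1 h), rfl⟩
end

/-- six values -/
def v6 (a b c d e f : Fin 3) : Fin 6 → Fin 4 := ![a.succ, b.succ, c.succ, d.succ, e.succ, f.succ]

set_option maxRecDepth 100000 in
theorem diag : ∀ a b c d e f : Fin 3, prI (fun i => i) (v6 a b c d e f) → a = b ∧ a = c ∧ a = d ∧ a = e ∧ a = f := by decide +kernel

set_option maxRecDepth 100000 in
theorem noswap : ∀ a b c d e f : Fin 3, ¬ prI (Equiv.swap (0 : Fin 6) 1) (v6 a b c d e f) := by decide +kernel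

set_option maxRecDepth 100000 in
theorem cyc : ∀ x y z : Fin 6, x ≠ y → y ≠ z → x ≠ z → ∃ a b c d e : Fin 3,
    prI (Equiv.swap x y * Equiv.swap y z).symm (v6 0 a b c d e) := by decide +kernel

theorem eq_v6 (u : Fin 6 → Fin 3) : (fun i => (u i).succ) = v6 (u 0) (u 1) (u 2) (u 3) (u 4) (u 5) := by
  funext i; fin_cases i <;> rfl

section
variable {F : Type*} [Field F] [Fintype F] {ω : F} (hF : Fintype.card F = 4) (hω : ω ^ 2 + ω + 1 = 0)
include hF hω

theorem pres_iff' (σ : Equiv.Perm (Fin 6)) (c : Fin 6 → Fˣ) : ∃ u : Fin 6 → Fin 3, (∀ i, (c i : F) = ph ω (u i).succ) ∧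
    (pres ω σ c ↔ prI σ.symm (v6 (u 0) (u 1) (u 2) (u 3) (u 4) (u 5))) := by
  choose u hu using fun i => unit_ph hF hω (c i)
  refine ⟨u, hu, ?_⟩
  rw [pres_iff hF hω σ c (fun i => (u i).succ) hu, eq_v6]

theorem diagF (c : Fin 6 → Fˣ) (h : pres ω 1 c) : ∀ i j, c i = c j := by
  obtain ⟨u, hu, h1⟩ := pres_iff' hF hω 1 c
  obtain ⟨e1, e2, e3, e4, e5⟩ := diag _ _ _ _ _ _ (h1.1 h)
  have h2 : ∀ i, u i = u 0 := by
    intro i
    fin_cases i
    · rfl
    · exact e1.symm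
    · exact e2.symm
    · exact e3.symm
    · exact e4.symm
    · exact e5.symm
  intro i j
  apply Units.ext
  rw [hu, hu, h2 i, h2 j]

theorem II_eq : II ω = alternatingGroup (Fin 6) := by
  have h1 : alternatingGroup (Fin 6) ≤ II ω := by
    rw [← Equiv.Perm.closure_three_cycles_eq_alternating, Subgroup.closure_le]
    intro σ hσ
    have hσ3 : σ.IsThreeCycle := hσ
    obtain ⟨a, ha⟩ : ∃ a, a ∈ σ.support := by
      have := hσ3.card_support
      exact Finset.card_pos.1 (by omega)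
    have h2 := (hσ3.eq_swap_mul_swap_iff_mem_support (a := a)).2 ha
    have h3 := (hσ3.nodup_iff_mem_support (a := a)).2 ha
    simp only [List.nodup_cons, List.mem_cons, List.not_mem_nil, or_false, not_or, not_false_eq_true, List.nodup_nil, and_true] at h3
    obtain ⟨u1, u2, u3, u4, u5, h⟩ := cyc _ _ _ h3.1.1 h3.2 h3.1.2
    choose c hc using fun i => ph_unit hF hω ((![0, u1, u2, u3, u4, u5] : Fin 6 → Fin 3) i)
    refine ⟨c, ?_⟩
    rw [pres_iff hF hω σ c (v6 0 u1 u2 u3 u4 u5) (fun i => by rw [hc]; fin_cases i <;> rfl), h2]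
    exact h
  have h2 : Equiv.swap (0 : Fin 6) 1 ∉ II ω := by
    rintro ⟨c, hc⟩
    obtain ⟨u, hu, h3⟩ := pres_iff' hF hω (Equiv.swap (0 : Fin 6) 1) c
    exact noswap _ _ _ _ _ _ (h3.1 hc)
  refine le_antisymm ?_ h1
  intro σ hσ
  by_contra h3
  apply h2
  have h4 : Equiv.Perm.sign σ = -1 := by
    rcases Int.units_eq_one_or (Equiv.Perm.sign σ) with h | h
    · exact absurd (Equiv.Perm.mem_alternatingGroup.2 h) h3
    · exact h
  have h5 : σ⁻¹ * Equiv.swap (0 : Fin 6) 1 ∈ alternatingGroup (Fin 6) := by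
    rw [Equiv.Perm.mem_alternatingGroup, map_mul, map_inv, h4, Equiv.Perm.sign_swap (by decide)]
    rfl
  have := (II ω).mul_mem hσ (h1 h5)
  rwa [mul_inv_cancel_left] at this

theorem pres_scal {σ : Equiv.Perm (Fin 6)} {c : Fin 6 → Fˣ} (h : pres ω σ c) (k : Fˣ) : pres ω σ (fun p => k * c p) := by
  intro x hx
  have e : monomialMap σ (fun p => k * c p) x = (k : F) • monomialMap σ c x := by
    funext p
    show ((k * c p : Fˣ) : F) * _ = (k : F) * ((c p : F) * _)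
    rw [Units.val_mul, mul_assoc]
  rw [e]; exact Submodule.smul_mem _ _ (h x hx)

theorem pres_unique {σ : Equiv.Perm (Fin 6)} {c d : Fin 6 → Fˣ} (hc : pres ω σ c) (hd : pres ω σ d) :
    ∃ k : Fˣ, d = fun p => k * c p := by
  have h := diagF hF hω (fun p => d p * (c p)⁻¹) (fun y hy => by
    obtain ⟨x, hx, rfl⟩ := pres_surj hc hy
    have e : monomialMap 1 (fun p => d p * (c p)⁻¹) (monomialMap σ c x) = monomialMap σ d x := by
      rw [mono_comp, one_mul]
      congr 1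
      funext p
      show d p * (c p)⁻¹ * c p = d p
      rw [inv_mul_cancel_right]
    rw [e]; exact hd x hx)
  refine ⟨d 0 * (c 0)⁻¹, funext fun p => ?_⟩
  have h1 : d p * (c p)⁻¹ = d 0 * (c 0)⁻¹ := h p 0
  rw [← h1, inv_mul_cancel_right]
end

/-- The monomial automorphism group of the hexacode has order 1080: its diagonal part is the scalars and its permutation parts form the alternating group of degree 6. -/
theorem result (F : Type*) [Field F] [Fintype F] [DecidableEq F] (hF : Fintype.card F = 4) (ω : F) (hω : ω ^ 2 + ω + 1 = 0) : Nat.card {f : Equiv.Perm (Fin 6) × (Fin 6 → Fˣ) // (∀ x ∈ Cfsg.hexacode F ω, Cfsg.monomialMap f.1 f.2 x ∈ Cfsg.hexacode F ω)} = 1080 ∧ (∀ c : Fin 6 → Fˣ, (∀ x ∈ Cfsg.hexacode F ω, Cfsg.monomialMap 1 c x ∈ Cfsg.hexacode F ω) → ∀ i j, c i = c j) ∧ {σ : Equiv.Perm (Fin 6) | ∃ c : Fin 6 → Fˣ, (∀ x ∈ Cfsg.hexacode F ω, Cfsg.monomialMap σ c x ∈ Cfsg.hexacode F ω)} = (alternatingGroup (Fin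 6) : Set (Equiv.Perm (Fin 6))) := by
  classical
  have hI : ∀ σ : Equiv.Perm (Fin 6), σ ∈ alternatingGroup (Fin 6) ↔ ∃ c, pres ω σ c := fun σ => by rw [← II_eq hF hω]; rfl
  refine ⟨?_, diagF hF hω, ?_⟩
  · choose! c0 hc0 using fun (σ : Equiv.Perm (Fin 6)) (hσ : σ ∈ alternatingGroup (Fin 6)) => (hI σ).1 hσ
    let Φ : alternatingGroup (Fin 6) × Fˣ → {f : Equiv.Perm (Fin 6) × (Fin 6 → Fˣ) //
        (∀ x ∈ hexacode F ω, monomialMap f.1 f.2 x ∈ hexacode F ω)} :=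
      fun q => ⟨((q.1 : Equiv.Perm (Fin 6)), fun p => q.2 * c0 q.1 p), pres_scal hF hω (hc0 q.1 q.1.2) q.2⟩
    have hΦ : Function.Bijective Φ := by
      constructor
      · rintro ⟨⟨σ, hσ⟩, b⟩ ⟨⟨τ, hτ⟩, b'⟩ h
        have h1 : σ = τ := congrArg (fun z => z.1.1) h
        subst h1
        have h2 := congrFun (congrArg (fun z => z.1.2) h) 0
        have h3 : b * c0 σ 0 = b' * c0 σ 0 := h2
        rw [mul_right_cancel h3]
      · rintro ⟨⟨σ, c⟩, h⟩
        have hσ : σ ∈ alternatingGroup (Fin 6) := (hI σ).2 ⟨c, h⟩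
        obtain ⟨k, hk⟩ := pres_unique hF hω (hc0 σ hσ) h
        exact ⟨(⟨σ, hσ⟩, k), Subtype.ext (Prod.ext rfl hk.symm)⟩
    rw [← Nat.card_congr (Equiv.ofBijective Φ hΦ), Nat.card_prod, Nat.card_eq_fintype_card (α := Fˣ), Fintype.card_units, hF,
      nat_card_alternatingGroup, Nat.card_eq_fintype_card, Fintype.card_fin]
    rfl
  · ext σ
    exact (hI σ).symm

end Cfsg.Agent.S1611
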