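import Cfsg.Statements.S1612
import Cfsg.Agent.H29.TT10

set_option autoImplicit false
open Cfsg

namespace Cfsg.Agent.S1612

open Subgroup Cfsg.Agent.H29 Cfsg.Agent

theorem comm_in_two {G : Type*} [Group G] {D : Set G} (hD : Cfsg.IsThreeTranspositionSet D)
    {S : Subgroup G} (hS : IsPGroup 2 S) {a b : G} (ha : a ∈ D) (haS : a ∈ S) (hb : b ∈ D)
    (hbS : b ∈ S) : Commute a b := by
  rcases hD.2 a ha b hb with h | h
  · exact tt_comm_of_sq hD ha hb h
  · obtain ⟨k, hk⟩ := hS ⟨a * b, mul_mem haS hbS⟩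
    have hk' : (a * b) ^ 2 ^ k = 1 := congrArg Subtype.val hk
    have h1 : orderOf (a * b) ∣ Nat.gcd 3 (2 ^ k) :=
      Nat.dvd_gcd (orderOf_dvd_of_pow_eq_one h) (orderOf_dvd_of_pow_eq_one hk')
    have h2 : Nat.gcd 3 (2 ^ k) = 1 := Nat.Coprime.pow_right k (by norm_num)
    rw [h2, Nat.dvd_one, orderOf_eq_one_iff] at h1
    exact tt_comm_of_sq hD ha hb (by rw [h1, one_pow])

theorem closure_two {G : Type*} [Group G] {D : Set G} (hD : TT D) {E : Set G} (hE : E ⊆ D)
    (hc : ∀ a ∈ E, ∀ b ∈ E, Commute a b) : IsPGroup 2 (Subgroup.closure E) := by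
  have hEc : IsMulCommutative (Subgroup.closure E) :=
    Subgroup.isMulCommutative_closure (fun a ha b hb => (hc a ha b hb).eq)
  intro x
  refine ⟨1, ?_⟩
  rw [pow_one, Subtype.ext_iff]
  obtain ⟨x, hx⟩ := x
  simp only [Subgroup.coe_pow, Subgroup.coe_one]
  induction hx using Subgroup.closure_induction with
  | mem y hy => rw [pow_two]; exact hD.sq y (hE hy)
  | one => exact one_pow 2
  | mul y z hy hz h1 h2 =>
    have hc : Commute y z := by
      have := hEc.is_comm.comm ⟨y, hy⟩ ⟨z, hz⟩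
      exact Subtype.ext_iff.1 this
    rw [hc.mul_pow, h1, h2, one_mul]
  | inv y hy h1 => rw [inv_pow, h1, inv_one]

/-- In a 3-transposition group (no solvable normal subgroup, perfect derived group), the normaliser of a commuting set of transpositions of maximum size contains a Sylow 2-subgroup and is doubly transitive on the set. -/
theorem result {G : Type*} [Group G] [Finite G] (hsol : ∀ N : Subgroup G, N.Normal → Group.IsSolvable ↥N → N = ⊥) (hperf : ⁅commutator G, commutator G⁆ = commutator G) {D : Set G} (hD : Cfsg.IsThreeTranspositionClass D) {E : Set G} (hE : E ⊆ D) (hc : ∀ a ∈ E, ∀ b ∈ E, Commute a b) (hmax : ∀ E' : Set G, E' ⊆ D → (∀ a ∈ E', ∀ b ∈ E', Commute a b) → E'.ncard ≤ E.ncard) : (∃ P : Sylow 2 G, (P : Subgroup G) ≤ Subgroup.normalizer E) ∧ ∀ a ∈ E, ∀ b ∈ E, ∀ c ∈ E, ∀ d ∈ E, a ≠ b → c ≠ d → ∃ g ∈ Subgroup.normalizer E, g * a * g⁻¹ = c ∧ g * b * g⁻¹ = d := by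
  classical
  have f2 : Fact (Nat.Prime 2) := ⟨Nat.prime_two⟩
  have h := tt_of_class hD
  have hP := closure_two h hE hc
  -- a 2-subgroup containing `E` meets `D` in `E`
  have hkey : ∀ S : Subgroup G, IsPGroup 2 S → E ⊆ S → ∀ x, x ∈ D → x ∈ S → x ∈ E := by
    intro S hS hES x hx hxS
    have h1 : E = {y | y ∈ D ∧ y ∈ S} := by
      apply Set.eq_of_subset_of_ncard_le
        (show E ⊆ {y | y ∈ D ∧ y ∈ S} from fun y hy => ⟨hE hy, hES hy⟩)
      exact hmax _ (fun y hy => hy.1)
          (fun a ha b hb => comm_in_two hD.1 hS ha.1 ha.2 hb.1 hb.2)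
    rw [h1]; exact ⟨hx, hxS⟩
  constructor
  · obtain ⟨P, hPE⟩ := hP.exists_le_sylow
    refine ⟨P, ?_⟩
    intro s hs
    have hEP : E ⊆ (P : Subgroup G) := fun x hx => hPE (Subgroup.subset_closure hx)
    show ∀ n, n ∈ E ↔ s * n * s⁻¹ ∈ E
    intro y
    constructor
    · intro hy
      exact hkey P P.isPGroup' hEP _ (h.conj s y (hE hy))
        (mul_mem (mul_mem hs (hEP hy)) (inv_mem hs))
    · intro hy
      have h1 := hkey P P.isPGroup' hEP (s⁻¹ * (s * y * s⁻¹) * s⁻¹⁻¹)
        (h.conj s⁻¹ _ (hE hy)) (mul_mem (mul_mem (inv_mem hs) (hEP hy)) (inv_mem (inv_mem hs)))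
      rwa [show s⁻¹ * (s * y * s⁻¹) * s⁻¹⁻¹ = y by group] at h1
  · intro a ha b hb c hc' d hd hab hcd
    have hw : ∃ a ∈ D, ∃ b ∈ D, a ≠ b ∧ Commute a b := ⟨a, hE ha, b, hE hb, hab, hc a ha b hb⟩
    have hp := prim_of_perfect hD hsol hperf hw
    -- an element mapping `(a, b)` to `(c, d)`
    obtain ⟨g0, hg0⟩ := isConj_iff.1 (tt_class_isConj hD (hE ha) (hE hc'))
    have hb0 : g0 * b * g0⁻¹ ∈ Dc D c := by
      refine ⟨h.conj g0 b (hE hb), ?_, ?_⟩
      · intro h'
        rw [← hg0] at h'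
        exact hab (mul_left_cancel (mul_right_cancel h')).symm
      · rw [← hg0, comm_conj_iff]; exact hc a ha b hb
    obtain ⟨g1, hg1, hg1b⟩ := dc_transitive hD hp hw (hE hc') hb0
      (show d ∈ Dc D c from ⟨hE hd, fun h' => hcd h'.symm, hc c hc' d hd⟩)
    have hg1c : Commute c g1 := by
      apply perp_comm (D := D)
      exact (Subgroup.closure_mono (show Dc D c ⊆ {y : G | y ∈ D ∧ Commute c y} from
        fun x hx => ⟨hx.1, hx.2.2⟩)) hg1
    set g := g1 * g0 with hg
    have hga : g * a * g⁻¹ = c := by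
      calc g * a * g⁻¹ = g1 * (g0 * a * g0⁻¹) * g1⁻¹ := by rw [hg]; group
        _ = c := by rw [hg0, ← hg1c.eq, mul_inv_cancel_right]
    have hgb : g * b * g⁻¹ = d := by
      calc g * b * g⁻¹ = g1 * (g0 * b * g0⁻¹) * g1⁻¹ := by rw [hg]; group
        _ = d := hg1b
    -- `E` and `g E g⁻¹` inside the centralizer of `{c, d}`
    set C := Subgroup.centralizer ({c, d} : Set G) with hCdef
    set E' : Set G := (fun x => g * x * g⁻¹) '' E with hE'
    have hE'D : E' ⊆ D := by
      rintro _ ⟨x, hx, rfl⟩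
      exact h.conj g x (hE hx)
    have hE'c : ∀ a ∈ E', ∀ b ∈ E', Commute a b := by
      rintro _ ⟨x, hx, rfl⟩ _ ⟨y, hy, rfl⟩
      exact (comm_conj_iff g x y).2 (hc x hx y hy)
    have hcE' : c ∈ E' := ⟨a, ha, hga⟩
    have hdE' : d ∈ E' := ⟨b, hb, hgb⟩
    have hmem : ∀ F : Set G, (∀ a ∈ F, ∀ b ∈ F, Commute a b) → c ∈ F → d ∈ F → F ⊆ C := by
      intro F hF hcF hdF x hx
      rw [SetLike.mem_coe, hCdef, Subgroup.mem_centralizer_iff]
      rintro z (rfl | rfl)
      · exact (hF _ hcF x hx).eq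
      · exact (hF _ hdF x hx).eq
    have hEC := hmem E hc hc' hd
    have hE'C := hmem E' hE'c hcE' hdE'
    have hP' := closure_two h hE'D hE'c
    have hle1 : Subgroup.closure E ≤ C := (Subgroup.closure_le _).2 hEC
    have hle2 : Subgroup.closure E' ≤ C := (Subgroup.closure_le _).2 hE'C
    obtain ⟨S1, hS1⟩ := (show IsPGroup 2 ((Subgroup.closure E).subgroupOf C) from
      hP.comap_subtype).exists_le_sylow
    obtain ⟨S2, hS2⟩ := (show IsPGroup 2 ((Subgroup.closure E').subgroupOf C) from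
      hP'.comap_subtype).exists_le_sylow
    obtain ⟨k, hk⟩ := MulAction.exists_smul_eq C S2 S1
    -- the conjugating element
    refine ⟨k * g, ?_, ?_, ?_⟩
    · -- `(k g) E (k g)⁻¹ ⊆ E`
      have hsub : ∀ x ∈ E, (k * g : G) * x * (k * g : G)⁻¹ ∈ E := by
        intro x hx
        have hx' : g * x * g⁻¹ ∈ E' := ⟨x, hx, rfl⟩
        have hx'' : (⟨g * x * g⁻¹, hE'C hx'⟩ : C) ∈ S2 := hS2 (Subgroup.subset_closure hx')
        have hkx : k * ⟨g * x * g⁻¹, hE'C hx'⟩ * k⁻¹ ∈ S1 := by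
          rw [← hk]
          exact Subgroup.smul_mem_pointwise_smul _ (MulAut.conj k) (S2 : Subgroup C) hx''
        have hmap : IsPGroup 2 ((S1 : Subgroup C).map C.subtype) := S1.isPGroup'.map _
        apply hkey ((S1 : Subgroup C).map C.subtype) hmap
        · intro y hy
          exact ⟨⟨y, hEC hy⟩, hS1 (Subgroup.subset_closure hy), rfl⟩
        · exact h.conj _ x (hE hx)
        · refine ⟨_, hkx, ?_⟩
          show (k : G) * (g * x * g⁻¹) * (k : G)⁻¹ = _
          group
      have heq : (fun x => (k * g : G) * x * (k * g : G)⁻¹) '' E = E := by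
        apply Set.eq_of_subset_of_ncard_le
        · rintro _ ⟨x, hx, rfl⟩; exact hsub x hx
        · rw [Set.ncard_image_of_injective]
          intro x y hxy
          exact mul_left_cancel (mul_right_cancel hxy)
        · exact Set.toFinite _
      show ∀ n, n ∈ E ↔ (k * g : G) * n * (k * g : G)⁻¹ ∈ E
      intro y
      constructor
      · exact fun hy => hsub y hy
      · intro hy
        rw [← heq] at hy
        obtain ⟨z, hz, hzy⟩ := hy
        have : z = y := mul_left_cancel (mul_right_cancel hzy)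
        exact this ▸ hz
    · have hkc : (k : G) * c * (k : G)⁻¹ = c := by
        have := Subgroup.mem_centralizer_iff.1 k.2 c (Or.inl rfl)
        rw [← this, mul_inv_cancel_right]
      calc (k * g : G) * a * (k * g : G)⁻¹ = (k : G) * (g * a * g⁻¹) * (k : G)⁻¹ := by group
        _ = c := by rw [hga, hkc]
    · have hkd : (k : G) * d * (k : G)⁻¹ = d := by
        have := Subgroup.mem_centralizer_iff.1 k.2 d (Or.inr rfl)
        rw [← this, mul_inv_cancel_right]
      calc (k * g : G) * b * (k * g : G)⁻¹ = (k : G) * (g * b * g⁻¹) * (k : G)⁻¹ := by group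
        _ = d := by rw [hgb, hkd]

end Cfsg.Agent.S1612
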