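import Cfsg.Statements.S1632
import Cfsg.Agent.H29.ThetaD

set_option autoImplicit false
open Matrix
open Cfsg

namespace Cfsg.Agent.S1632

/-- An even unimodular lattice of rank 24 without roots has 196560, 16773120 and 398034000 vectors of norms 4, 6 and 8. -/
theorem result (B : Matrix (Fin 24) (Fin 24) ℤ) (hsymm : B.IsSymm) (hpos : ∀ x : Fin 24 → ℤ, x ≠ 0 → 0 < x ⬝ᵥ (B *ᵥ x)) (heven : ∀ x : Fin 24 → ℤ, (2 : ℤ) ∣ x ⬝ᵥ (B *ᵥ x)) (hdet : B.det = 1) (h2 : ∀ x : Fin 24 → ℤ, x ⬝ᵥ (B *ᵥ x) ≠ 2) : {x : Fin 24 → ℤ | x ⬝ᵥ (B *ᵥ x) = 4}.ncard = 196560 ∧ {x : Fin 24 → ℤ | x ⬝ᵥ (B *ᵥ x) = 6}.ncard = 16773120 ∧ {x : Fin 24 → ℤ | x ⬝ᵥ (B *ᵥ x) = 8}.ncard = 398034000 := by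
  have hB : Cfsg.Agent.H29.GoodForm B := ⟨hsymm, hpos, heven, hdet⟩
  have hr1 : Cfsg.Agent.H29.rep B 1 = 0 := by
    unfold Cfsg.Agent.H29.rep
    have : {x : Fin 24 → ℤ | Cfsg.Agent.H29.qf B x = 2 * ((1 : ℕ) : ℤ)} = ∅ := by
      ext x
      rw [Set.mem_ofPred_eq]
      refine ⟨fun h => absurd h ?_, fun h => absurd h (Set.notMem_empty _)⟩
      have := h2 x
      simpa [Cfsg.Agent.H29.qf] using this
    rw [this, Set.ncard_empty]
  have heq := Cfsg.Agent.H29.theta_eq hB hr1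
  have key : ∀ m : ℕ, (Cfsg.Agent.H29.rep B m : ℂ) = (UpperHalfPlane.qExpansion 1 Cfsg.Agent.H29.Fcmp).coeff m := by
    intro m
    rw [← heq, Cfsg.Agent.H29.theta_coeff]
  obtain ⟨-, -, c2, c3, c4⟩ := Cfsg.Agent.H29.Fcmp_coeff
  refine ⟨?_, ?_, ?_⟩
  · have h := key 2
    rw [c2] at h
    have h' : Cfsg.Agent.H29.rep B 2 = 196560 := by exact_mod_cast h
    rw [← h']
    rfl
  · have h := key 3
    rw [c3] at h
    have h' : Cfsg.Agent.H29.rep B 3 = 16773120 := by exact_mod_cast h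
    rw [← h']
    rfl
  · have h := key 4
    rw [c4] at h
    have h' : Cfsg.Agent.H29.rep B 4 = 398034000 := by exact_mod_cast h
    rw [← h']
    rfl

end Cfsg.Agent.S1632
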