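import Cfsg.Statements.S1635
import Cfsg.Agent.H29.CodeSet

set_option autoImplicit false
open Cfsg

namespace Cfsg.Agent.S1635

open Cfsg.Agent.H7 Cfsg.Agent.H29

/-- the sets of size at most four in a coset -/
def AA (W : Finset GolayPt) : Set (Finset GolayPt) := {S | S.card ≤ 4 ∧ symmDiff W S ∈ GC}

theorem diff_mem {W S S' : Finset GolayPt} (h : symmDiff W S ∈ GC) (h' : symmDiff W S' ∈ GC) : symmDiff S S' ∈ GC := by
  have := GC_symmDiff h h'
  rwa [symmDiff_comm W S, symmDiff_assoc, symmDiff_symmDiff_cancel_left] at this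

theorem sd_sub {T o : Finset GolayPt} (h : T ⊆ o) : symmDiff T o = o \ T := by
  ext x
  rw [Finset.mem_symmDiff, Finset.mem_sdiff]
  constructor
  · rintro (⟨h1, h2⟩ | h1)
    · exact absurd (h h1) h2
    · exact h1
  · exact fun h1 => Or.inr h1

theorem small_eq {S S' : Finset GolayPt} (h : symmDiff S S' ∈ GC) (hc : S.card + S'.card < 8) : S = S' := by
  have h1 := cardSD S S'
  have h2 : (symmDiff S S').card = 0 := by
    rcases GC_weights _ h with h | h | h | h | h <;> omega
  rw [Finset.card_eq_zero] at h2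
  exact symmDiff_eq_bot.1 h2

theorem main (W : Finset GolayPt) : ((AA W).ncard = 1 ∧ ∃ S ∈ AA W, S.card ≤ 3) ∨ ((AA W).ncard = 6 ∧ ∀ S ∈ AA W, S.card = 4) := by
  by_cases h : ∃ S ∈ AA W, S.card ≤ 3
  · left
    refine ⟨?_, h⟩
    obtain ⟨S, ⟨h4, hS⟩, h3⟩ := h
    rw [Set.ncard_eq_one]
    refine ⟨S, ?_⟩
    ext S'
    constructor
    · rintro ⟨h1, h2⟩
      exact (small_eq (diff_mem hS h2) (by omega)).symm
    · rintro rfl
      exact ⟨h4, hS⟩
  · right
    push Not at h
    have h4 : ∀ S ∈ AA W, S.card = 4 := fun S hS => le_antisymm hS.1 (h S hS)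
    refine ⟨?_, h4⟩
    obtain ⟨T, hT, hWT⟩ := leader W _ W rfl (by rw [symmDiff_self]; exact GC_empty)
    have hT4 := h4 T ⟨hT, hWT⟩
    have h5 : {o | o ∈ octads ∧ T ⊆ o}.ncard = 5 := by
      classical
      rw [ncard_blk]
      exact nb5824_4 (by decide) octads_steiner hT4
    have e : AA W = insert T ((fun o => o \ T) '' {o | o ∈ octads ∧ T ⊆ o}) := by
      ext S
      constructor
      · intro hS
        by_cases hST : S = T
        · exact Or.inl hST
        right
        have hS4 := h4 S hS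
        have h6 := diff_mem hWT hS.2
        have h7 := cardSD T S
        have h8 : (symmDiff T S).card = 8 := by
          rcases GC_weights _ h6 with h | h | h | h | h
          · rw [Finset.card_eq_zero] at h
            exact absurd (symmDiff_eq_bot.1 h).symm hST
          all_goals omega
        have h9 : Disjoint T S := by
          rw [Finset.disjoint_iff_inter_eq_empty, ← Finset.card_eq_zero]; omega
        refine ⟨symmDiff T S, ⟨mem_octads.2 ⟨h6, h8⟩, ?_⟩, ?_⟩
        · rw [h9.symmDiff_eq_sup]; exact Finset.subset_union_left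
        · show symmDiff T S \ T = S
          rw [h9.symmDiff_eq_sup, Finset.sup_eq_union, Finset.union_sdiff_cancel_left h9]
      · rintro (rfl | ⟨o, ⟨ho, hTo⟩, rfl⟩)
        · exact ⟨hT, hWT⟩
        · refine ⟨?_, ?_⟩
          · show (o \ T).card ≤ 4
            rw [Finset.card_sdiff_of_subset hTo, hT4, (mem_octads.1 ho).2]
          · show symmDiff W (o \ T) ∈ GC
            rw [← sd_sub hTo, ← symmDiff_assoc]
            exact GC_symmDiff hWT (mem_octads.1 ho).1
    have hf : {o | o ∈ octads ∧ T ⊆ o}.Finite := Set.toFinite _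
    rw [e, Set.ncard_insert_of_notMem, Set.ncard_image_of_injOn, h5]
    · rintro o ⟨ho, hTo⟩ o' ⟨ho', hTo'⟩ heq
      have heq' : o \ T = o' \ T := heq
      rw [← Finset.sdiff_union_of_subset hTo, heq', Finset.sdiff_union_of_subset hTo']
    · rintro ⟨o, ⟨ho, hTo⟩, heq⟩
      have heq' : o \ T = T := heq
      have : (o \ T ∩ T).card = 0 := by rw [Finset.sdiff_inter_self]; rfl
      rw [heq', Finset.inter_self, hT4] at this
      omega

theorem image_eq (w : GolayPt → ZMod 2) : support₂ '' {v : GolayPt → ZMod 2 | hammingNorm v ≤ 4 ∧ w - v ∈ golayCode} = AA (support₂ w) := by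
  ext S
  constructor
  · rintro ⟨v, ⟨h1, h2⟩, rfl⟩
    refine ⟨by rw [← norm_eq]; exact h1, ?_⟩
    rw [← supp_sub, support_mem_GC]; exact h2
  · rintro ⟨h1, h2⟩
    obtain ⟨v, rfl⟩ := supp_surj S
    refine ⟨v, ⟨by rw [norm_eq]; exact h1, ?_⟩, rfl⟩
    rw [← support_mem_GC, supp_sub]; exact h2

/-- Coset leaders of the length-24 code: a coset contains a unique word of weight ≤ 3, or else exactly six words of weight 4 and none lighter. -/
theorem result (w : Cfsg.GolayPt → ZMod 2) : ({v : Cfsg.GolayPt → ZMod 2 | hammingNorm v ≤ 4 ∧ w - v ∈ Cfsg.golayCode}.ncard = 1 ∧ ∃ v : Cfsg.GolayPt → ZMod 2, hammingNorm v ≤ 3 ∧ w - v ∈ Cfsg.golayCode) ∨ ({v : Cfsg.GolayPt → ZMod 2 | hammingNorm v ≤ 4 ∧ w - v ∈ Cfsg.golayCode}.ncard = 6 ∧ ∀ v : Cfsg.GolayPt → ZMod 2, w - v ∈ Cfsg.golayCode → hammingNorm v ≤ 4 → hammingNorm v = 4) := by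
  rw [← Set.ncard_image_of_injective _ support₂_injective, image_eq]
  rcases main (support₂ w) with ⟨h1, S, hS, h3⟩ | ⟨h1, h2⟩
  · left
    refine ⟨h1, ?_⟩
    rw [← image_eq] at hS
    obtain ⟨v, hv, rfl⟩ := hS
    exact ⟨v, by rw [norm_eq]; exact h3, hv.2⟩
  · right
    refine ⟨h1, fun v h3 h4 => ?_⟩
    rw [norm_eq]
    refine h2 _ ?_
    rw [← image_eq]
    exact ⟨v, ⟨h4, h3⟩, rfl⟩

end Cfsg.Agent.S1635
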