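import Cfsg.Statements.S1636
import Cfsg.Agent.H29.CodeSet

set_option autoImplicit false
open Cfsg

namespace Cfsg.Agent.S1636

open Cfsg.Agent.H7 Cfsg.Agent.H29

theorem step (P : (ZMod 23 → ZMod 2) → Prop) (Q : Finset GolayPt → Prop)
    (hPQ : ∀ w : GolayPt → ZMod 2, P (pun w) ↔ Q (support₂ w)) :
    {u : ZMod 23 → ZMod 2 | u ∈ {u : ZMod 23 → ZMod 2 | ∃ w ∈ golayCode, ∀ x : ZMod 23, u x = w (some x)} ∧ P u}.ncard
      = {s | s ∈ GC ∧ Q s}.ncard := by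
  have e1 : {u : ZMod 23 → ZMod 2 | u ∈ {u : ZMod 23 → ZMod 2 | ∃ w ∈ golayCode, ∀ x : ZMod 23, u x = w (some x)} ∧ P u}
      = pun '' {w | w ∈ golayCode ∧ P (pun w)} := by
    ext u
    constructor
    · rintro ⟨h1, h2⟩
      obtain ⟨w, hw, rfl⟩ := pun_mem.1 h1
      exact ⟨w, ⟨hw, h2⟩, rfl⟩
    · rintro ⟨w, ⟨hw, h2⟩, rfl⟩
      exact ⟨pun_mem.2 ⟨w, hw, rfl⟩, h2⟩
  have e2 : {s | s ∈ GC ∧ Q s} = support₂ '' {w | w ∈ golayCode ∧ P (pun w)} := by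
    ext s
    constructor
    · rintro ⟨⟨w, hw, rfl⟩, h2⟩
      exact ⟨w, ⟨hw, (hPQ w).2 h2⟩, rfl⟩
    · rintro ⟨w, ⟨hw, h2⟩, rfl⟩
      exact ⟨⟨w, hw, rfl⟩, (hPQ w).1 h2⟩
  rw [e1, e2, Set.ncard_image_of_injective _ support₂_injective]
  exact Set.InjOn.ncard_image fun v hv w hw h => pun_inj hv.1 hw.1 h

theorem erase_none {n : ℕ} : ((toSet n).erase none).card = popc (n &&& 8388607) := by
  rw [← card_toSet, toSet_and]
  congr 1
  have h : toSet 8388607 = Finset.univ.erase none := by decide +kernel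
  rw [h]
  ext p
  simp only [Finset.mem_erase, Finset.mem_inter, Finset.mem_univ, and_true]
  tauto

theorem cntk (k N : ℕ) (hN : Nat.beq (((List.range 4096).map en).countP fun n => Nat.beq (popc (n &&& 8388607)) k) N = true) :
    {u : ZMod 23 → ZMod 2 | u ∈ {u : ZMod 23 → ZMod 2 | ∃ w ∈ golayCode, ∀ x : ZMod 23, u x = w (some x)} ∧ hammingNorm u = k}.ncard = N := by
  rw [step (fun u => hammingNorm u = k) (fun s => (s.erase none).card = k) (fun w => by rw [norm_pun])]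
  refine enm_cw.count (φ := fun n => Nat.beq (popc (n &&& 8388607)) k) (fun n hn => ?_) hN
  rw [erase_none, Nat.beq_eq]

/-- The punctured length-23 code has weight distribution 0^1 7^253 8^506 11^1288 12^1288 15^506 16^253 23^1. -/
theorem result : {u : ZMod 23 → ZMod 2 | ∃ w ∈ Cfsg.golayCode, ∀ x : ZMod 23, u x = w (some x)}.ncard = 4096 ∧ {u : ZMod 23 → ZMod 2 | u ∈ {u : ZMod 23 → ZMod 2 | ∃ w ∈ Cfsg.golayCode, ∀ x : ZMod 23, u x = w (some x)} ∧ hammingNorm u = 7}.ncard = 253 ∧ {u : ZMod 23 → ZMod 2 | u ∈ {u : ZMod 23 → ZMod 2 | ∃ w ∈ Cfsg.golayCode, ∀ x : ZMod 23, u x = w (some x)} ∧ hammingNorm u = 8}.ncard = 506 ∧ {u : ZMod 23 → ZMod 2 | u ∈ {u : ZMod 23 → ZMod 2 | ∃ w ∈ Cfsg.golayCode, ∀ x : ZMod 23, u x = w (some x)} ∧ hammingNorm u = 11}.ncard = 1288 ∧ {u : ZMod 23 → ZMod 2 | u ∈ {u : ZMod 23 → ZMod 2 | ∃ w ∈ Cfsg.golayCode, ∀ x : ZMod 23, u x = w (some x)} ∧ hammingNorm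 u = 12}.ncard = 1288 ∧ {u : ZMod 23 → ZMod 2 | u ∈ {u : ZMod 23 → ZMod 2 | ∃ w ∈ Cfsg.golayCode, ∀ x : ZMod 23, u x = w (some x)} ∧ hammingNorm u = 15}.ncard = 506 ∧ {u : ZMod 23 → ZMod 2 | u ∈ {u : ZMod 23 → ZMod 2 | ∃ w ∈ Cfsg.golayCode, ∀ x : ZMod 23, u x = w (some x)} ∧ hammingNorm u = 16}.ncard = 253 ∧ ∀ u ∈ {u : ZMod 23 → ZMod 2 | ∃ w ∈ Cfsg.golayCode, ∀ x : ZMod 23, u x = w (some x)}, u ≠ 0 → 7 ≤ hammingNorm u := by
  refine ⟨?_, cntk 7 253 (by decide +kernel), cntk 8 506 (by decide +kernel), cntk 11 1288 (by decide +kernel),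
    cntk 12 1288 (by decide +kernel), cntk 15 506 (by decide +kernel), cntk 16 253 (by decide +kernel), ?_⟩
  · have h := step (fun _ => True) (fun _ => True) (fun _ => Iff.rfl)
    simp only [and_true] at h
    rw [Set.ofPred_mem_eq, Set.ofPred_mem_eq] at h
    rw [h, enm_cw.ncard, List.length_map, List.length_range]
  · intro u hu hne
    obtain ⟨w, hw, rfl⟩ := pun_mem.1 hu
    by_contra h
    push Not at h
    apply hne
    rw [eq_zero_of_pun hw h]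
    rfl

end Cfsg.Agent.S1636
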