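import Cfsg.Statements.S1637
import Cfsg.Agent.H29.CodeSet

set_option autoImplicit false
open Cfsg

namespace Cfsg.Agent.S1637

open Cfsg.Agent.H7 Cfsg.Agent.H29

theorem GC_even {s : Finset GolayPt} (hs : s ∈ GC) : s.card % 2 = 0 := by
  rcases GC_weights s hs with h | h | h | h | h <;> omega

theorem hd (x y : ZMod 23 → ZMod 2) : hammingDist x y = hammingNorm (x - y) := by
  rw [hammingDist_comm, hammingDist_eq_hammingNorm, neg_add_eq_sub]

/-- The punctured length-23 code is a perfect 3-error-correcting code: each word of length 23 is within distance 3 of exactly one codeword. -/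
theorem result (u : ZMod 23 → ZMod 2) : ∃! c : ZMod 23 → ZMod 2, c ∈ {u : ZMod 23 → ZMod 2 | ∃ w ∈ Cfsg.golayCode, ∀ x : ZMod 23, u x = w (some x)} ∧ hammingDist u c ≤ 3 := by
  classical
  have key : ∃ w ∈ golayCode, hammingNorm (u - pun w) ≤ 3 := by
    have hpar : ∃ y : GolayPt → ZMod 2, pun y = u ∧ (support₂ y).card % 2 = 1 := by
      let y0 : GolayPt → ZMod 2 := fun p => p.elim 0 u
      let y1 : GolayPt → ZMod 2 := fun p => p.elim 1 u
      have h01 : support₂ y1 = insert none (support₂ y0) ∧ none ∉ support₂ y0 := by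
        constructor
        · ext p
          cases p with
          | none => simp [support₂, y1]
          | some x => simp [support₂, y0, y1]
        · simp [support₂, y0]
      by_cases h : (support₂ y0).card % 2 = 1
      · exact ⟨y0, rfl, h⟩
      · refine ⟨y1, rfl, ?_⟩
        rw [h01.1, Finset.card_insert_of_notMem h01.2]
        omega
    obtain ⟨y, rfl, hy⟩ := hpar
    obtain ⟨S, hS, hW⟩ := leader (support₂ y) _ (support₂ y) rfl (by rw [symmDiff_self]; exact GC_empty)
    obtain ⟨v, rfl⟩ := supp_surj S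
    have h1 := cardSD (support₂ y) (support₂ v)
    have h2 := GC_even hW
    refine ⟨y - v, ?_, ?_⟩
    · rw [← support_mem_GC, supp_sub]; exact hW
    · rw [pun_sub, sub_sub_cancel, norm_pun]
      have h3 : ((support₂ v).erase none).card ≤ (support₂ v).card := Finset.card_le_card (Finset.erase_subset _ _)
      omega
  obtain ⟨w, hw, h3⟩ := key
  refine ⟨pun w, ⟨pun_mem.2 ⟨w, hw, rfl⟩, by rw [hd]; exact h3⟩, ?_⟩
  rintro c ⟨hc, hc3⟩
  obtain ⟨v, hv, rfl⟩ := pun_mem.1 hc
  have h4 : hammingNorm (pun (v - w)) < 7 := by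
    rw [pun_sub, ← hd]
    have h5 := hammingDist_triangle (pun v) u (pun w)
    rw [hammingDist_comm (pun v) u] at h5
    rw [← hd] at h3
    omega
  rw [sub_eq_zero.1 (eq_zero_of_pun (Submodule.sub_mem _ hv hw) h4)]

end Cfsg.Agent.S1637
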