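import Cfsg.Statements.S1638
import Cfsg.Agent.H29.Trans3

set_option autoImplicit false
open scoped Pointwise
open Cfsg

namespace Cfsg.Agent.S1638

open Cfsg.Agent.H7 Cfsg.Agent.H29
open scoped Pointwise

def gens : List ℕ := [0xbc0e39b1ed724889162ba9a9650440,
  0xbd9d38a984aa1b449ccf28e5058440,
  0xbca6a33a0c7d9711a6853d48868820,
  0xbd5ac83dc75c4c9549142587328820,
  0xbc6c76c925329c85ceac8128378440,
  0xbadb52522c3964f4ccca859c818440,
  0xbc1e653236ab9b25cce84d06428440,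
  0xba62b1d6ca641e69a247715b420820,
  0xba8668ae149b53241eac7148fb0440,
  0xbd6cc845275be6e1a24523546a0440]


def s0 : ℕ := 6
def T0 : ℕ := 8388615
def O5 : List ℕ := [8536111, 8657159, 9471495, 11010247, 12656663]

theorem O5_ok : (O5.all fun m => isOct m && Nat.beq (Nat.land T0 m) T0) = true := by decide +kernel
theorem O5_all : (((List.range 759).map octE).all fun m => bif Nat.beq (Nat.land T0 m) T0 then
    O5.any (fun o => Nat.beq o m) else true) = true := by decide +kernel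

abbrev A3 := GolayPt × GolayPt × Finset GolayPt

/-- the property of lying in a common octad -/
def OP (a : A3) (U : Finset GolayPt) : Prop := ∃ o ∈ octads, a.1 ∈ o ∧ a.2.1 ∈ o ∧ a.2.2 ∪ U ⊆ o

theorem OP_smul {σ : Equiv.Perm GolayPt} (hσ : σ ∈ M24) {a : A3} {U : Finset GolayPt} (h : OP a U) :
    OP (σ • a) (σ • U) := by
  obtain ⟨o, ho, h1, h2, h3⟩ := h
  refine ⟨σ • o, M24_smul_octad hσ ho, (smul_mem_smul' σ _ _).2 h1, (smul_mem_smul' σ _ _).2 h2, ?_⟩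
  show (σ • a.2.2) ∪ (σ • U) ⊆ σ • o
  rw [← Finset.smul_finset_union]
  exact Finset.smul_finset_subset_smul_finset_iff.2 h3

theorem OP_smul_iff {σ : Equiv.Perm GolayPt} (hσ : σ ∈ M24) {a : A3} {U : Finset GolayPt} :
    OP (σ • a) (σ • U) ↔ OP a U := by
  refine ⟨fun h => ?_, OP_smul hσ⟩
  have := OP_smul (M24.inv_mem hσ) h
  rwa [inv_smul_smul, inv_smul_smul] at this

def a0 : A3 := (gpt 23, gpt 0, toSet s0)

theorem T0_eq : toSet T0 = insert (gpt 23) (insert (gpt 0) (toSet s0)) := by decide +kernel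

theorem OP_iff {n : ℕ} (hn : n < 16777216) : OP a0 (toSet n) ↔
    (O5.any fun o => Nat.beq (Nat.land n o) n) = true := by
  rw [List.any_eq_true]
  constructor
  · rintro ⟨o, ho, h23, h0, h⟩
    obtain ⟨m, hm, rfl⟩ := enm_oct.all o ho
    have h1 := List.all_eq_true.1 O5_all m hm
    have hT0 : toSet T0 ⊆ toSet m := by
      rw [T0_eq]
      intro p hp
      rw [Finset.mem_insert, Finset.mem_insert] at hp
      rcases hp with rfl | rfl | hp
      · exact h23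
      · exact h0
      · exact h (Finset.mem_union_left _ hp)
    have hT : T0 &&& m = T0 := (subset_iff_mask (by decide)).1 hT0
    have hT' : Nat.beq (Nat.land T0 m) T0 = true := nbeq.2 hT
    rw [hT', cond_true, List.any_eq_true] at h1
    obtain ⟨o', ho', h2⟩ := h1
    have h3 := Nat.eq_of_beq_eq_true h2
    subst h3
    exact ⟨o', ho', nbeq.2 ((subset_iff_mask hn).1 (Finset.union_subset_right h))⟩
  · rintro ⟨m, hm, h⟩
    have h1 := List.all_eq_true.1 O5_ok m hm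
    rw [Bool.and_eq_true] at h1
    have h2 : toSet T0 ⊆ toSet m := (subset_iff_mask (by decide)).2 (Nat.eq_of_beq_eq_true h1.2)
    rw [T0_eq] at h2
    refine ⟨toSet m, (isOct_spec h1.1).1, h2 (Finset.mem_insert_self _ _), h2 (Finset.mem_insert_of_mem (Finset.mem_insert_self _ _)), Finset.union_subset ?_ ?_⟩
    · intro p hp
      exact h2 (Finset.mem_insert_of_mem (Finset.mem_insert_of_mem hp))
    · exact (subset_iff_mask hn).2 (Nat.eq_of_beq_eq_true h)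

/-- pairs avoiding the two points, with given intersection -/
def PQ (k : ℕ) (a : A3) (t : Finset GolayPt) : Prop := t.card = 2 ∧ a.1 ∉ t ∧ a.2.1 ∉ t ∧ (a.2.2 ∩ t).card = k

theorem PQ_smul {k : ℕ} {σ : Equiv.Perm GolayPt} {a : A3} {t : Finset GolayPt} (h : PQ k a t) : PQ k (σ • a) (σ • t) := by
  refine ⟨by rw [Finset.card_smul_finset]; exact h.1, fun h' => h.2.1 ((smul_mem_smul' σ _ _).1 h'),
    fun h' => h.2.2.1 ((smul_mem_smul' σ _ _).1 h'), ?_⟩
  show ((σ • a.2.2) ∩ (σ • t)).card = k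
  rw [card_smul_inter]; exact h.2.2.2

theorem PQ_iff {k n : ℕ} (hn : n ∈ subs 2 24) : PQ k a0 (toSet n) ↔ cp [] [23, 0] [(s0, k)] n = true := by
  rw [← cp_iff (by decide)]
  unfold PQ CP a0
  have hc : (toSet n).card = 2 := (enm_subs 2).mem n hn
  simp [hc, and_assoc]

theorem bool_not {b : Bool} : ¬ (b = true) ↔ (!b) = true := by cases b <;> simp

theorem c2 : {s : Finset GolayPt | s ∈ {s : Finset GolayPt | s.card = 2} ∧ (PQ 0 a0 s ∧ OP a0 s)}.ncard = 30 :=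
  (enm_subs 2).count (P := fun s => PQ 0 a0 s ∧ OP a0 s)
    (φ := fun n => cp [] [23, 0] [(s0, 0)] n && O5.any fun o => Nat.beq (Nat.land n o) n)
    (fun n hn => by rw [PQ_iff hn, OP_iff ((enm_subs 2).lt n hn), Bool.and_eq_true]) (by decide +kernel)

theorem c3 : {s : Finset GolayPt | s ∈ {s : Finset GolayPt | s.card = 2} ∧ (PQ 0 a0 s ∧ ¬ OP a0 s)}.ncard = 160 :=
  (enm_subs 2).count (P := fun s => PQ 0 a0 s ∧ ¬ OP a0 s)
    (φ := fun n => cp [] [23, 0] [(s0, 0)] n && !(O5.any fun o => Nat.beq (Nat.land n o) n))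
    (fun n hn => by rw [PQ_iff hn, OP_iff ((enm_subs 2).lt n hn), Bool.and_eq_true, bool_not]) (by decide +kernel)

theorem fix_a0 {σ : Equiv.Perm GolayPt} (h1 : ∀ i ∈ [23, 0], σ • gpt i = gpt i) (h2 : ∀ m ∈ [s0], σ • toSet m = toSet m) :
    σ • a0 = a0 := Prod.ext (h1 23 (by simp)) (Prod.ext (h1 0 (by simp)) (h2 s0 (by simp)))

theorem t1 (s : Finset GolayPt) (hs : s.card = 2) (h : PQ 1 a0 s) : ∃ σ ∈ M24, σ • a0 = a0 ∧ σ • toSet 10 = s := by
  obtain ⟨σ, h1, h2, h3, h4⟩ := (enm_subs 2).trans (P := fun s => PQ 1 a0 s)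
    (φ := fun n => cp [] [23, 0] [(s0, 1)] n) (pts := [23, 0]) (ms := [s0])
    (fun n hn => (PQ_iff hn).1)
    (fun σ hσ hp hm s hs h => by
      have := PQ_smul (σ := σ) h
      rw [fix_a0 hp hm] at this
      exact ⟨sub_inv 2 σ hσ s hs, this⟩) (gens := gens) (x0 := 10) (by decide +kernel) (by decide +kernel) s hs h
  exact ⟨σ, h1, fix_a0 h2 h3, h4⟩

theorem t2 (s : Finset GolayPt) (hs : s.card = 2) (h : PQ 0 a0 s ∧ OP a0 s) : ∃ σ ∈ M24, σ • a0 = a0 ∧ σ • toSet 40 = s := by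
  obtain ⟨σ, h1, h2, h3, h4⟩ := (enm_subs 2).trans (P := fun s => PQ 0 a0 s ∧ OP a0 s)
    (φ := fun n => cp [] [23, 0] [(s0, 0)] n && O5.any fun o => Nat.beq (Nat.land n o) n) (pts := [23, 0]) (ms := [s0])
    (fun n hn => by rw [PQ_iff hn, OP_iff ((enm_subs 2).lt n hn), Bool.and_eq_true]; exact id)
    (fun σ hσ hp hm s hs h => by
      have := PQ_smul (σ := σ) h.1
      have h' := OP_smul hσ h.2
      rw [fix_a0 hp hm] at this h'
      exact ⟨sub_inv 2 σ hσ s hs, this, h'⟩) (gens := gens) (x0 := 40) (by decide +kernel) (by decide +kernel) s hs h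
  exact ⟨σ, h1, fix_a0 h2 h3, h4⟩

theorem t3 (s : Finset GolayPt) (hs : s.card = 2) (h : PQ 0 a0 s ∧ ¬ OP a0 s) : ∃ σ ∈ M24, σ • a0 = a0 ∧ σ • toSet 24 = s := by
  obtain ⟨σ, h1, h2, h3, h4⟩ := (enm_subs 2).trans (P := fun s => PQ 0 a0 s ∧ ¬ OP a0 s)
    (φ := fun n => cp [] [23, 0] [(s0, 0)] n && !(O5.any fun o => Nat.beq (Nat.land n o) n)) (pts := [23, 0]) (ms := [s0])
    (fun n hn => by rw [PQ_iff hn, OP_iff ((enm_subs 2).lt n hn), Bool.and_eq_true, bool_not]; exact id)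
    (fun σ hσ hp hm s hs h => by
      have := PQ_smul (σ := σ) h.1
      have h' : ¬ OP (σ • a0) (σ • s) := fun h' => h.2 ((OP_smul_iff hσ).1 h')
      rw [fix_a0 hp hm] at this h'
      exact ⟨sub_inv 2 σ hσ s hs, this, h'⟩) (gens := gens) (x0 := 24) (by decide +kernel) (by decide +kernel) s hs h
  exact ⟨σ, h1, fix_a0 h2 h3, h4⟩

theorem std {p q : GolayPt} (hpq : p ≠ q) {s : Finset GolayPt} (hs : s.card = 2 ∧ p ∉ s ∧ q ∉ s) :
    ∃ σ ∈ M24, σ • a0 = (p, q, s) := by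
  obtain ⟨x, y, hxy, rfl⟩ := Finset.card_eq_two.1 hs.1
  have hp := hs.2.1
  have hq := hs.2.2
  rw [Finset.mem_insert, Finset.mem_singleton, not_or] at hp hq
  obtain ⟨σ, hσ, h1⟩ := M24_mapn (n := 4) (by norm_num) ![gpt 23, gpt 0, gpt 1, gpt 2] ![p, q, x, y]
    (by decide) (by
      intro i j hij
      fin_cases i <;> fin_cases j <;> first | rfl | (exfalso; revert hij; simp [hpq, hpq.symm, hxy, hxy.symm, hp.1, hp.2, hq.1, hq.2, Ne.symm hp.1, Ne.symm hp.2, Ne.symm hq.1, Ne.symm hq.2]))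
  refine ⟨σ, hσ, Prod.ext (h1 0) (Prod.ext (h1 1) ?_)⟩
  show σ • toSet s0 = {x, y}
  have e : toSet s0 = {gpt 1, gpt 2} := by decide +kernel
  rw [e, Finset.smul_finset_insert, Finset.smul_finset_singleton]
  have h2 : σ • gpt 1 = x := h1 2
  have h3 : σ • gpt 2 = y := h1 3
  rw [h2, h3]

theorem disj_iff0 {s t : Finset GolayPt} : Disjoint s t ↔ (s ∩ t).card = 0 := by
  rw [Finset.disjoint_iff_inter_eq_empty, Finset.card_eq_zero]

/-- Fix two points p ≠ q and a pair s of two further points. Among the pairs avoiding p, q and disjoint from s, exactly 30 lie in an octad together with p, q and s and exactly 160 do not; and any two pairs other than s that meet s in equally many points and agree on that octad property are carried to one another by an element of the group of the length-24 code fixing p, q and s. -/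
theorem result (p q : Cfsg.GolayPt) (hpq : p ≠ q) (s : Finset Cfsg.GolayPt) (hs : (s.card = 2 ∧ p ∉ s ∧ q ∉ s)) : {t : Finset Cfsg.GolayPt | (t.card = 2 ∧ p ∉ t ∧ q ∉ t) ∧ Disjoint s t ∧ (∃ o ∈ Cfsg.octads, p ∈ o ∧ q ∈ o ∧ s ∪ t ⊆ o)}.ncard = 30 ∧ {t : Finset Cfsg.GolayPt | (t.card = 2 ∧ p ∉ t ∧ q ∉ t) ∧ Disjoint s t ∧ ¬ (∃ o ∈ Cfsg.octads, p ∈ o ∧ q ∈ o ∧ s ∪ t ⊆ o)}.ncard = 160 ∧ ∀ t t' : Finset Cfsg.GolayPt, (t.card = 2 ∧ p ∉ t ∧ q ∉ t) → (t'.card = 2 ∧ p ∉ t' ∧ q ∉ t') → t ≠ s → t' ≠ s → (s ∩ t).card = (s ∩ t').card → ((∃ o ∈ Cfsg.octads, p ∈ o ∧ q ∈ o ∧ s ∪ t ⊆ o) ↔ (∃ o ∈ Cfsg.octads, p ∈ o ∧ q ∈ o ∧ s ∪ t' ⊆ o)) → ∃ g : Equiv.Perm Cfsg.GolayPt, g ∈ Cfsg.M24 ∧ g p = p ∧ g q = q ∧ g • s = s ∧ g • t = t' := by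
  have hst := std hpq hs
  refine ⟨?_, ?_, ?_⟩
  · have h1 := ncard_all (fun (a : A3) (t : Finset GolayPt) => t.card = 2 ∧ (PQ 0 a t ∧ OP a t))
      (fun σ hσ a s h => ⟨by rw [Finset.card_smul_finset]; exact h.1, PQ_smul h.2.1, OP_smul hσ h.2.2⟩) c2 hst
    rw [← h1]
    congr 1
    ext t
    simp only [Set.mem_ofPred_eq, PQ, OP, disj_iff0]
    tauto
  · have h1 := ncard_all (fun (a : A3) (t : Finset GolayPt) => t.card = 2 ∧ (PQ 0 a t ∧ ¬ OP a t))
      (fun σ hσ a s h => ⟨by rw [Finset.card_smul_finset]; exact h.1, PQ_smul h.2.1, fun h' => h.2.2 ((OP_smul_iff hσ).1 h')⟩) c3 hst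
    rw [← h1]
    congr 1
    ext t
    simp only [Set.mem_ofPred_eq, PQ, OP, disj_iff0]
    tauto
  · intro t t' ht ht' hne hne' hcard hiff
    have hk : (s ∩ t).card = 0 ∨ (s ∩ t).card = 1 := by
      have h1 : (s ∩ t).card ≤ 2 := by rw [← hs.1]; exact Finset.card_le_card Finset.inter_subset_left
      have h2 : (s ∩ t).card ≠ 2 := by
        intro h2
        have h3 : s ∩ t = s := Finset.eq_of_subset_of_card_le Finset.inter_subset_left (by rw [h2, hs.1])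
        have h4 : s ∩ t = t := Finset.eq_of_subset_of_card_le Finset.inter_subset_right (by rw [h2, ht.1])
        exact hne (h4.symm.trans h3)
      omega
    have hfin : ∀ {P : A3 → Finset GolayPt → Prop} (_ : ∀ σ ∈ M24, ∀ a x, P a x → P (σ • a) (σ • x)) {x0 : Finset GolayPt}
        (_ : ∀ x, P a0 x → ∃ σ ∈ M24, σ • a0 = a0 ∧ σ • x0 = x), P (p, q, s) t → P (p, q, s) t' →
        ∃ g : Equiv.Perm GolayPt, g ∈ M24 ∧ g p = p ∧ g q = q ∧ g • s = s ∧ g • t = t' := by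
      intro P hP x0 h0 h1 h2
      obtain ⟨g, hg, h3, h4⟩ := tr_all P hP (R := fun _ _ _ => True) (fun _ _ _ _ _ _ => trivial)
        (fun x y hx hy _ => tr_of_base (Y := {x | P a0 x}) h0 x hx y hy) hst t t' h1 h2 trivial
      exact ⟨g, hg, congrArg Prod.fst h3, congrArg (fun x => x.2.1) h3, congrArg (fun x => x.2.2) h3, h4⟩
    rcases hk with hk | hk
    · by_cases hO : OP (p, q, s) t
      · exact hfin (P := fun a x => x.card = 2 ∧ PQ 0 a x ∧ OP a x)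
          (fun σ hσ a s h => ⟨by rw [Finset.card_smul_finset]; exact h.1, PQ_smul h.2.1, OP_smul hσ h.2.2⟩)
          (fun x hx => t2 x hx.1 hx.2) ⟨ht.1, ⟨ht.1, ht.2.1, ht.2.2, hk⟩, hO⟩
          ⟨ht'.1, ⟨ht'.1, ht'.2.1, ht'.2.2, by rw [← hcard]; exact hk⟩, hiff.1 hO⟩
      · exact hfin (P := fun a x => x.card = 2 ∧ PQ 0 a x ∧ ¬ OP a x)
          (fun σ hσ a s h => ⟨by rw [Finset.card_smul_finset]; exact h.1, PQ_smul h.2.1, fun h' => h.2.2 ((OP_smul_iff hσ).1 h')⟩)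
          (fun x hx => t3 x hx.1 hx.2) ⟨ht.1, ⟨ht.1, ht.2.1, ht.2.2, hk⟩, hO⟩
          ⟨ht'.1, ⟨ht'.1, ht'.2.1, ht'.2.2, by rw [← hcard]; exact hk⟩, fun h => hO (hiff.2 h)⟩
    · exact hfin (P := fun a x => x.card = 2 ∧ PQ 1 a x)
          (fun σ hσ a s h => ⟨by rw [Finset.card_smul_finset]; exact h.1, PQ_smul h.2⟩)
          (fun x hx => t1 x hx.1 hx.2) ⟨ht.1, ⟨ht.1, ht.2.1, ht.2.2, hk⟩⟩
          ⟨ht'.1, ⟨ht'.1, ht'.2.1, ht'.2.2, by rw [← hcard]; exact hk⟩⟩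

end Cfsg.Agent.S1638
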