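import Cfsg.Statements.S1639
import Cfsg.Agent.H29.Trans3
import Cfsg.Agent.S1560

set_option autoImplicit false
open scoped Pointwise
open Cfsg

namespace Cfsg.Agent.S1639

open Cfsg.Agent.H7 Cfsg.Agent.H29
open scoped Pointwise

def gens : List ℕ := [0xba636184955be90534c53a1d213013,
  0xbdaa88b033a1d446b9e55992280072,
  0xbd98f8848043550a24ee31563aca62,
  0xbd8491d671695c43bd0ba19520b200,
  0xb9ead98e415a5e0a15c64595120990,
  0xba2b604c227a9a471ca932e9060e51,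
  0xbd20dab071728e15a4c82bec498052,
  0xbdab40c1922b9515b50931de320a60,
  0xbda149904372df149da62a9159040c,
  0xbd2b68ca702b8c159d28535e320182,
  0xb9e341ca647d9613394d495001560c,
  0xbba74aca307d90029d2d5196110c8c,
  0xbd86f9d6415a5b17228629d4064082,
  0xbd2b6142244b56c5390531de390413,
  0xbda658119152d237b4e6a391500642,
  0xbba6b154014a912b19b4395ec8c064,
  0xb9a6795482b3a914b5455bd000b070,
  0xbd26b90c406990c2d9e951dc125630,
  0xbd227a926052cc1759a82a5e294183]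

theorem c4 : {s | s ∈ dodecads ∧ CP [23] [] [(dod0, 4)] s}.ncard = 165 :=
  enm_dod.countC (by decide) (by decide +kernel)

theorem c6 : {s | s ∈ dodecads ∧ CP [23] [] [(dod0, 6)] s}.ncard = 792 :=
  enm_dod.countC (by decide) (by decide +kernel)

theorem c8 : {s | s ∈ dodecads ∧ CP [23] [] [(dod0, 8)] s}.ncard = 330 :=
  enm_dod.countC (by decide) (by decide +kernel)

theorem t4 {s t : Finset GolayPt} (hs : s ∈ dodecads) (ht : t ∈ dodecads)
    (cs : CP [23] [] [(dod0, 4)] s) (ct : CP [23] [] [(dod0, 4)] t) :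
    ∃ σ ∈ M24, (∀ i ∈ [23] ++ [], σ • gpt i = gpt i) ∧
      (∀ m ∈ ([(dod0, 4)] : List (ℕ × ℕ)).map Prod.fst, σ • toSet m = toSet m) ∧ σ • s = t :=
  enm_dod.transP dod_inv (by decide) (gens := gens) 8449646 (by decide +kernel) (by decide +kernel) hs ht cs ct

theorem t6 {s t : Finset GolayPt} (hs : s ∈ dodecads) (ht : t ∈ dodecads)
    (cs : CP [23] [] [(dod0, 6)] s) (ct : CP [23] [] [(dod0, 6)] t) :
    ∃ σ ∈ M24, (∀ i ∈ [23] ++ [], σ • gpt i = gpt i) ∧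
      (∀ m ∈ ([(dod0, 6)] : List (ℕ × ℕ)).map Prod.fst, σ • toSet m = toSet m) ∧ σ • s = t :=
  enm_dod.transP dod_inv (by decide) (gens := gens) 8419127 (by decide +kernel) (by decide +kernel) hs ht cs ct

theorem t8 {s t : Finset GolayPt} (hs : s ∈ dodecads) (ht : t ∈ dodecads)
    (cs : CP [23] [] [(dod0, 8)] s) (ct : CP [23] [] [(dod0, 8)] t) :
    ∃ σ ∈ M24, (∀ i ∈ [23] ++ [], σ • gpt i = gpt i) ∧
      (∀ m ∈ ([(dod0, 8)] : List (ℕ × ℕ)).map Prod.fst, σ • toSet m = toSet m) ∧ σ • s = t :=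
  enm_dod.transP dod_inv (by decide) (gens := gens) 8493631 (by decide +kernel) (by decide +kernel) hs ht cs ct


theorem sub_of_card {x : Finset GolayPt} (hx : x ∈ dodecads) (h : (toSet dod0 ∩ x).card = 12) : toSet dod0 = x := by
  have h1 : toSet dod0 ∩ x = toSet dod0 := by
    apply Finset.eq_of_subset_of_card_le Finset.inter_subset_left
    rw [h, (mem_dodecads.1 dod0_dodecad).2]
  have h2 : toSet dod0 ⊆ x := by rw [← h1]; exact Finset.inter_subset_right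
  exact Finset.eq_of_subset_of_card_le h2 (by rw [(mem_dodecads.1 hx).2, (mem_dodecads.1 dod0_dodecad).2])

theorem base (x y : Finset GolayPt) (hx : x ∈ dodecads) (hy : y ∈ dodecads) (hQx : gpt 23 ∈ x) (hQy : gpt 23 ∈ y)
    (h : (toSet dod0 ∩ x).card = (toSet dod0 ∩ y).card) :
    ∃ g ∈ M24, g • (gpt 23, toSet dod0) = (gpt 23, toSet dod0) ∧ g • x = y := by
  by_cases hx0 : x = toSet dod0
  · have hy0 : toSet dod0 = y := sub_of_card hy (by rw [← h, hx0, Finset.inter_self, (mem_dodecads.1 dod0_dodecad).2])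
    exact ⟨1, M24.one_mem, one_smul _ _, by rw [one_smul, ← hy0, hx0]⟩
  rcases S1560.inter_dod dod0_dodecad hx hx0 with h1 | h1 | h1 | h1
  · rw [Finset.card_eq_zero] at h1
    exact absurd (Finset.mem_inter.2 ⟨g23_dod0, hQx⟩) (by rw [h1]; simp)
  · obtain ⟨σ, s1, s2, s3, s4⟩ := t4 hx hy ⟨by simpa using hQx, by simp, by simpa using h1⟩
      ⟨by simpa using hQy, by simp, by simpa using h.symm.trans h1⟩
    exact ⟨σ, s1, Prod.ext (s2 23 (by simp)) (s3 dod0 (by simp)), s4⟩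
  · obtain ⟨σ, s1, s2, s3, s4⟩ := t6 hx hy ⟨by simpa using hQx, by simp, by simpa using h1⟩
      ⟨by simpa using hQy, by simp, by simpa using h.symm.trans h1⟩
    exact ⟨σ, s1, Prod.ext (s2 23 (by simp)) (s3 dod0 (by simp)), s4⟩
  · obtain ⟨σ, s1, s2, s3, s4⟩ := t8 hx hy ⟨by simpa using hQx, by simp, by simpa using h1⟩
      ⟨by simpa using hQy, by simp, by simpa using h.symm.trans h1⟩
    exact ⟨σ, s1, Prod.ext (s2 23 (by simp)) (s3 dod0 (by simp)), s4⟩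

theorem cnt {k N : ℕ} (h0 : {s | s ∈ dodecads ∧ CP [23] [] [(dod0, k)] s}.ncard = N) {o : Finset GolayPt}
    (ho : o ∈ dodecads) {x : GolayPt} (hx : x ∈ o) :
    {o' : Finset GolayPt | o' ∈ dodecads ∧ x ∈ o' ∧ (o ∩ o').card = k}.ncard = N := by
  refine ncard_all (fun (a : GolayPt × Finset GolayPt) (s : Finset GolayPt) => s ∈ dodecads ∧ a.1 ∈ s ∧ (a.2 ∩ s).card = k)
    (fun σ hσ a s h => ⟨(smul_dodecads_iff hσ).2 h.1, (smul_mem_smul' σ _ _).2 h.2.1, ?_⟩) ?_ (std_di ho hx)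
  · show ((σ • a.2) ∩ (σ • s)).card = k
    rw [card_smul_inter]; exact h.2.2
  · rw [← h0]
    congr 1
    ext s
    simp [CP]

/-- The point stabiliser acts on the 1288 dodecads through the point with rank 4 and subdegrees 1, 165, 330, 792, distinguished by intersection 4, 8, 6 with the fixed dodecad. -/
theorem result (x : Cfsg.GolayPt) (d : Finset Cfsg.GolayPt) (hd : d ∈ Cfsg.dodecads) (hx : x ∈ d) : {d' : Finset Cfsg.GolayPt | d' ∈ Cfsg.dodecads ∧ x ∈ d' ∧ (d ∩ d').card = 4}.ncard = 165 ∧ {d' : Finset Cfsg.GolayPt | d' ∈ Cfsg.dodecads ∧ x ∈ d' ∧ (d ∩ d').card = 8}.ncard = 330 ∧ {d' : Finset Cfsg.GolayPt | d' ∈ Cfsg.dodecads ∧ x ∈ d' ∧ (d ∩ d').card = 6}.ncard = 792 ∧ ∀ d' d'' : Finset Cfsg.GolayPt, d' ∈ Cfsg.dodecads → d'' ∈ Cfsg.dodecads → x ∈ d' → x ∈ d'' → (d ∩ d').card = (d ∩ d'').card → ∃ g : Equiv.Perm Cfsg.GolayPt, g ∈ Cfsg.M24 ∧ g x = x ∧ g • d = d ∧ g • d' = d'' := by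
  refine ⟨cnt c4 hd hx, cnt c8 hd hx, cnt c6 hd hx, fun o' o'' ho' ho'' hx' hx'' h => ?_⟩
  obtain ⟨g, hg, h1, h2⟩ := tr_all (fun (a : GolayPt × Finset GolayPt) (s : Finset GolayPt) => s ∈ dodecads ∧ a.1 ∈ s)
    (fun σ hσ a s h => ⟨(smul_dodecads_iff hσ).2 h.1, (smul_mem_smul' σ _ _).2 h.2⟩)
    (R := fun a x y => (a.2 ∩ x).card = (a.2 ∩ y).card)
    (fun σ hσ a x y h => by
      show ((σ • a.2) ∩ (σ • x)).card = ((σ • a.2) ∩ (σ • y)).card
      rw [card_smul_inter, card_smul_inter]; exact h)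
    (fun x y hx hy h => base x y hx.1 hy.1 hx.2 hy.2 h) (std_di hd hx) o' o'' ⟨ho', hx'⟩ ⟨ho'', hx''⟩ h
  exact ⟨g, hg, congrArg Prod.fst h1, congrArg Prod.snd h1, h2⟩

end Cfsg.Agent.S1639
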