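import Cfsg.Statements.S1640
import Cfsg.Agent.H29.HSConf

set_option autoImplicit false
open Cfsg

namespace Cfsg.Agent.S1640

open Cfsg.Agent.H7 Cfsg.Agent.H29

theorem std {u x : leechLattice} (hu : bL u u = 6) (hx : bL x x = 4) (hux : bL u x = -2) :
    ∃ g : Co0, g • u = t3 ∧ g • x = -a0 := by
  obtain ⟨g, h1, h2⟩ := hs_pair (-x) u (by rw [bL_neg, bL_neg_right, neg_neg, hx]) hu
    (by rw [bL_neg, bL_comm, hux]; norm_num)
  exact ⟨g, h2, by rw [← h1, co0_neg, neg_neg]⟩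

theorem base : {x : leechLattice | bL x x = 4 ∧ bL t3 x = 2}.ncard = 11178 := by
  have h := card_step' (MulAction.stabilizer Co0 t3) a0 {x : leechLattice | bL x x = 4 ∧ bL t3 x = 2}
    (fun σ hσ => by
      have h3 : σ • t3 = t3 := hσ
      refine ⟨by rw [co0_bL]; exact a0_norm, ?_⟩
      have := co0_bL σ t3 a0
      rw [h3] at this
      rw [this, bL_comm]; exact a0_t3)
    (fun q hq => by
      obtain ⟨g, h1, h2⟩ := hs_pair q t3 hq.1 t3_norm (by rw [bL_comm]; exact hq.2)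
      refine ⟨g⁻¹, ?_, by rw [← h1, inv_smul_smul]⟩
      rw [MulAction.mem_stabilizer_iff, inv_smul_eq_iff, h2])
  have e : (MulAction.stabilizer Co0 t3 ⊓ MulAction.stabilizer Co0 a0 : Subgroup Co0) = HSS := inf_comm _ _
  rw [e, card_HSS, card_stab_t3] at h
  omega

theorem base' : {x : leechLattice | bL x x = 4 ∧ bL t3 x = -2}.ncard = 11178 := by
  have e : {x : leechLattice | bL x x = 4 ∧ bL t3 x = -2} = (fun x => -x) '' {x : leechLattice | bL x x = 4 ∧ bL t3 x = 2} := by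
    ext x
    constructor
    · rintro ⟨h1, h2⟩
      exact ⟨-x, ⟨by rw [bL_neg, bL_neg_right, neg_neg, h1], by rw [bL_neg_right, h2]; norm_num⟩, neg_neg x⟩
    · rintro ⟨y, ⟨h1, h2⟩, rfl⟩
      exact ⟨by rw [bL_neg, bL_neg_right, neg_neg, h1], by rw [bL_neg_right, h2]⟩
  rw [e, Set.ncard_image_of_injective _ neg_injective, base]

theorem cnt {u : leechLattice} (hu : bL u u = 6) : {x : leechLattice | bL x x = 4 ∧ bL u x = -2}.ncard = 11178 :=
  ncardG (G := Co0) (fun u x => bL x x = 4 ∧ bL u x = -2)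
    (fun g a x h => ⟨by rw [co0_bL]; exact h.1, by rw [co0_bL]; exact h.2⟩) base' (to_t3 u hu)

theorem cond {u x : leechLattice} : (sqNorm (x : GolayPt → ℤ) = 32 ∧ dotInt (u : GolayPt → ℤ) (x : GolayPt → ℤ) = -16) ↔
    (bL x x = 4 ∧ bL u x = -2) :=
  and_congr sq32 (by rw [show (-16 : ℤ) = 8 * (-2) by norm_num]; exact dot_iff)

/-- The stabiliser of a vector of customary norm 6 is transitive on the 11178 minimal vectors of customary inner product −2 with it. -/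
theorem result (u : ↥Cfsg.leechLattice) (hu : Cfsg.sqNorm (u : Cfsg.GolayPt → ℤ) = 48) : {x : ↥Cfsg.leechLattice | Cfsg.sqNorm (x : Cfsg.GolayPt → ℤ) = 32 ∧ Cfsg.dotInt (u : Cfsg.GolayPt → ℤ) (x : Cfsg.GolayPt → ℤ) = -16}.ncard = 11178 ∧ ∀ x ∈ {x : ↥Cfsg.leechLattice | Cfsg.sqNorm (x : Cfsg.GolayPt → ℤ) = 32 ∧ Cfsg.dotInt (u : Cfsg.GolayPt → ℤ) (x : Cfsg.GolayPt → ℤ) = -16}, ∀ x' ∈ {x : ↥Cfsg.leechLattice | Cfsg.sqNorm (x : Cfsg.GolayPt → ℤ) = 32 ∧ Cfsg.dotInt (u : Cfsg.GolayPt → ℤ) (x : Cfsg.GolayPt → ℤ) = -16}, ∃ g : ↥Cfsg.Co0, g • u = u ∧ g • x = x' := by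
  have hu' := sq48.1 hu
  refine ⟨?_, ?_⟩
  · refine Eq.trans ?_ (cnt hu')
    congr 1
    ext x
    exact cond
  · intro x hx x' hx'
    have h1 := cond.1 hx
    have h2 := cond.1 hx'
    exact tr_of_std (std hu' h1.1 h1.2) (std hu' h2.1 h2.2)

end Cfsg.Agent.S1640
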