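import Cfsg.Statements.S1642
import Cfsg.Agent.H29.HSConf
import Cfsg.Agent.S1583

set_option autoImplicit false
open Cfsg

namespace Cfsg.Agent.S1642

open Cfsg.Agent.H7 Cfsg.Agent.H29
open S1583 (Cd cd_iff)

theorem d_even : (2 : ℤ) ∣ ∑ i, ind ({gpt 0, gpt 1} : Finset GolayPt) i := by
  rw [sum_ind]; decide

/-- a vector of norm six supported on a dodecad -/
def v0 : leechLattice := ⟨(2 : ℤ) • ind (toSet dod0), leech_two (mem_dodecads.1 dod0_dodecad).1⟩ -
  v4 (ind ({gpt 0, gpt 1} : Finset GolayPt)) d_even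

theorem v0_apply (k : GolayPt) : (v0 : GolayPt → ℤ) k = 2 * ind (toSet dod0) k - 4 * ind ({gpt 0, gpt 1} : Finset GolayPt) k := rfl

theorem g1_dod0 : gpt 1 ∈ toSet dod0 := by rw [gpt_mem_toSet (by norm_num)]; decide +kernel
theorem g0_dod0' : gpt 0 ∈ toSet dod0 := by rw [gpt_mem_toSet (by norm_num)]; decide +kernel
theorem g23_dod0' : gpt 23 ∈ toSet dod0 := by rw [gpt_mem_toSet (by norm_num)]; decide +kernel

theorem v0_zero {k : GolayPt} (hk : k ∉ toSet dod0) : (v0 : GolayPt → ℤ) k = 0 := by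
  rw [v0_apply, ind_apply', ind_apply', if_neg hk, if_neg]
  · norm_num
  · intro h
    rw [Finset.mem_insert, Finset.mem_singleton] at h
    rcases h with rfl | rfl
    · exact hk g0_dod0'
    · exact hk g1_dod0

theorem v0_two {k : GolayPt} (hk : k ∈ toSet dod0) : (v0 : GolayPt → ℤ) k = 2 ∨ (v0 : GolayPt → ℤ) k = -2 := by
  rw [v0_apply, ind_apply', ind_apply', if_pos hk]
  split_ifs
  · right; norm_num
  · left; norm_num

theorem v0_norm : bL v0 v0 = 6 := by
  apply sq48.1
  unfold sqNorm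
  have h : ∀ k : GolayPt, (v0 : GolayPt → ℤ) k ^ 2 = 4 * ind (toSet dod0) k := by
    intro k
    by_cases hk : k ∈ toSet dod0
    · rw [ind_apply', if_pos hk]
      rcases v0_two hk with h | h <;> rw [h] <;> norm_num
    · rw [ind_apply', if_neg hk, v0_zero hk]; norm_num
  rw [Finset.sum_congr rfl (fun k _ => h k), ← Finset.mul_sum, sum_ind, (mem_dodecads.1 dod0_dodecad).2]
  norm_num

theorem v0_a0 : bL a0 v0 = 2 := by
  have h := bL_a0 v0
  rw [v0_apply, v0_apply, ind_apply', ind_apply', ind_apply', ind_apply', if_pos g23_dod0', if_pos g0_dod0',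
    if_neg (by decide), if_pos (by decide)] at h
  norm_num at h
  omega

def w0 : leechLattice := a0 - v0

theorem w0_norm : bL w0 w0 = 6 := by
  unfold w0
  rw [bL_sub, bL_sub_right, bL_sub_right, a0_norm, v0_norm, bL_comm v0 a0, v0_a0]; norm_num

theorem v0_w0 : bL v0 w0 = -4 := by
  unfold w0
  rw [bL_sub_right, v0_norm, bL_comm v0 a0, v0_a0]; norm_num

def dc : Finset GolayPt := (toSet dod0)ᶜ
theorem dc_GC : dc ∈ GC := GC_compl (mem_dodecads.1 dod0_dodecad).1

noncomputable def g0 : Co0 := sgEl dc dc_GC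

theorem g0_fix {x : leechLattice} (h : ∀ k, k ∉ toSet dod0 → (x : GolayPt → ℤ) k = 0) : g0 • x = x := by
  apply Subtype.ext
  funext k
  unfold g0
  rw [sgEl_apply, ind_apply']
  unfold dc
  by_cases hk : k ∈ toSet dod0
  · rw [if_neg (by simpa using hk)]; ring
  · rw [if_pos (by simpa using hk), h k hk]; ring

theorem g0_fixed {x : leechLattice} (h : g0 • x = x) {k : GolayPt} (hk : k ∉ toSet dod0) : (x : GolayPt → ℤ) k = 0 := by
  have h1 : ((g0 • x : leechLattice) : GolayPt → ℤ) k = (x : GolayPt → ℤ) k := by rw [h]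
  unfold g0 at h1
  rw [sgEl_apply, ind_apply', if_pos (by unfold dc; simpa using hk)] at h1
  omega

theorem g0_v0 : g0 • v0 = v0 := g0_fix fun _ hk => v0_zero hk

theorem g0_a0 : g0 • a0 = a0 := g0_fix fun k hk => by
  rw [a0_apply, if_neg, if_neg]
  · rintro rfl; exact hk g0_dod0'
  · rintro rfl; exact hk g23_dod0'

theorem g0_w0 : g0 • w0 = w0 := by unfold w0; rw [co0_sub, g0_a0, g0_v0]

theorem g0_order : orderOf g0 = 2 := by
  apply orderOf_eq_prime
  · apply co0_ext
    intro v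
    rw [pow_two, mul_smul, one_smul]
    apply Subtype.ext
    funext k
    unfold g0
    rw [sgEl_apply, sgEl_apply, ← mul_assoc, sgn_sq, one_mul]
  · intro h
    have h1 := g0_fixed (x := e8 (gpt 5)) (by rw [h, one_smul]) (k := gpt 5)
      (by rw [gpt_mem_toSet (by norm_num)]; decide +kernel)
    rw [e8_apply, if_pos rfl] at h1
    norm_num at h1

/-- no vector of norm four supported on the dodecad has inner product three with `v0` -/
theorem no_fix {x : leechLattice} (hx : bL x x = 4) (hv : bL v0 x = 3) : g0 • x ≠ x := by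
  intro h
  have h0 : ∀ k, k ∉ toSet dod0 → (x : GolayPt → ℤ) k = 0 := fun k hk => g0_fixed h hk
  have hz : (x : GolayPt → ℤ) (gpt 5) = 0 := h0 _ (by rw [gpt_mem_toSet (by norm_num)]; decide +kernel)
  have hdot : dotInt (v0 : GolayPt → ℤ) (x : GolayPt → ℤ) = 24 := (dot_iff (n := 3)).2 hv
  have hsq : sqNorm (x : GolayPt → ℤ) = 32 := sq32.2 hx
  rcases mem_leech_cases.1 x.2 with ⟨s, y, h1, h2, h3⟩ | ⟨s, y, h1, h2, h3⟩
  · have h2 : ∀ i, (x : GolayPt → ℤ) i = 0 + 2 * ind s i + 4 * y i := h2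
    have hsub : s ⊆ toSet dod0 := by
      intro i hi
      by_contra hc
      have h4 := h2 i
      rw [h0 i hc, ind_apply', if_pos hi] at h4
      omega
    have hs : s = ∅ := by
      have h5 := card_symmDiff' s (toSet dod0)
      rw [Finset.inter_eq_left.2 hsub, (mem_dodecads.1 dod0_dodecad).2] at h5
      have h6 := GC_weights _ (GC_symmDiff h1 (mem_dodecads.1 dod0_dodecad).1)
      have h7 := GC_weights _ h1
      have h8 := Finset.card_le_card hsub
      rw [(mem_dodecads.1 dod0_dodecad).2] at h8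
      have h9 : s.card = 0 ∨ s.card = 12 := by omega
      rcases h9 with h9 | h9
      · exact Finset.card_eq_zero.1 h9
      · exfalso
        have h10 := card_mul_le_sqNorm (x : GolayPt → ℤ) s 4 (fun i hi => by
          have h4 := h2 i
          rw [ind_apply', if_pos hi] at h4
          have : (x : GolayPt → ℤ) i ≤ -2 ∨ 2 ≤ (x : GolayPt → ℤ) i := by omega
          rcases this with h | h <;> nlinarith)
        rw [h9, hsq] at h10
        norm_num at h10
    have hx4 : ∀ i, (x : GolayPt → ℤ) i = 4 * y i := by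
      intro i
      rw [h2 i, hs, ind_apply', if_neg (Finset.notMem_empty _)]; ring
    have hy : ∑ i, y i ^ 2 = 2 := by
      have : sqNorm (x : GolayPt → ℤ) = 16 * ∑ i, y i ^ 2 := by
        unfold sqNorm
        rw [Finset.mul_sum]
        refine Finset.sum_congr rfl fun i _ => ?_
        rw [hx4 i]; ring
      omega
    have hle : dotInt (v0 : GolayPt → ℤ) (x : GolayPt → ℤ) ≤ 8 * ∑ i, y i ^ 2 := by
      unfold dotInt
      rw [Finset.mul_sum]
      refine Finset.sum_le_sum fun i _ => ?_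
      rw [hx4 i]
      by_cases hi : i ∈ toSet dod0
      · have : |y i| ≤ y i ^ 2 := by
          rcases le_or_gt (y i) 0 with h | h
          · rw [abs_of_nonpos h]; nlinarith
          · rw [abs_of_pos h]; nlinarith
        have h6 := abs_le.1 this
        rcases v0_two hi with h | h <;> rw [h] <;> nlinarith [h6.1, h6.2]
      · rw [v0_zero hi]; nlinarith [sq_nonneg (y i)]
    rw [hy, hdot] at hle
    norm_num at hle
  · have h2 : (x : GolayPt → ℤ) (gpt 5) = 1 + 2 * ind s (gpt 5) + 4 * y (gpt 5) := h2 _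
    rw [hz] at h2
    omega

theorem std2' : ∃ g : Co0, g • (v0, w0) = (t3, a0 - t3) := S1583.std2 v0_norm w0_norm v0_w0

theorem Cd_smul (g : Co0) {v w x : leechLattice} (h : Cd v w x) : Cd (g • v) (g • w) (g • x) := by
  unfold Cd
  rw [co0_bL, co0_bL, co0_bL]; exact h

theorem orderOf_conj' {G : Type*} [Group G] (a b : G) : orderOf (a⁻¹ * b * a) = orderOf b := by
  have := (MulAut.conj a⁻¹).orderOf_eq b
  simpa using this

/-- Some involution of the Higman–Sims group acts without fixed points on its 100 points. -/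
theorem result (v w : ↥Cfsg.leechLattice) (hv : Cfsg.sqNorm (v : Cfsg.GolayPt → ℤ) = 48) (hw : Cfsg.sqNorm (w : Cfsg.GolayPt → ℤ) = 48) (hvw : Cfsg.dotInt (v : Cfsg.GolayPt → ℤ) (w : Cfsg.GolayPt → ℤ) = -32) : ∃ g : ↥Cfsg.Co0, g • v = v ∧ g • w = w ∧ orderOf g = 2 ∧ ∀ x ∈ {x : ↥Cfsg.leechLattice | Cfsg.sqNorm (x : Cfsg.GolayPt → ℤ) = 32 ∧ Cfsg.dotInt (v : Cfsg.GolayPt → ℤ) (x : Cfsg.GolayPt → ℤ) = 24 ∧ Cfsg.dotInt (w : Cfsg.GolayPt → ℤ) (x : Cfsg.GolayPt → ℤ) = -24}, g • x ≠ x := by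
  have hv' := sq48.1 hv
  have hw' := sq48.1 hw
  have hvw' : bL v w = -4 := dot_iff.1 (by rw [hvw]; norm_num)
  obtain ⟨g, hg⟩ := S1583.std2 hv' hw' hvw'
  obtain ⟨k, hk⟩ := std2'
  have e1 : g • v = t3 := congrArg Prod.fst hg
  have e2 : g • w = a0 - t3 := congrArg Prod.snd hg
  have e3 : k • v0 = t3 := congrArg Prod.fst hk
  have e4 : k • w0 = a0 - t3 := congrArg Prod.snd hk
  have f1 : (k⁻¹ * g) • v = v0 := by rw [mul_smul, e1, ← e3, inv_smul_smul]
  have f2 : (k⁻¹ * g) • w = w0 := by rw [mul_smul, e2, ← e4, inv_smul_smul]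
  refine ⟨(k⁻¹ * g)⁻¹ * g0 * (k⁻¹ * g), ?_, ?_, ?_, ?_⟩
  · rw [mul_smul, mul_smul, f1, g0_v0, ← f1, inv_smul_smul]
  · rw [mul_smul, mul_smul, f2, g0_w0, ← f2, inv_smul_smul]
  · rw [orderOf_conj', g0_order]
  · intro x hx hfix
    have hx' := cd_iff.1 hx
    have h1 := Cd_smul (k⁻¹ * g) hx'
    rw [f1, f2] at h1
    refine no_fix h1.1 h1.2.1 ?_
    rw [mul_smul, mul_smul, inv_smul_eq_iff] at hfix
    exact hfix


end Cfsg.Agent.S1642
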