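import Cfsg.Statements.S1753

set_option autoImplicit false
universe u
open Cfsg

namespace Cfsg.Agent.S1753

/-- Let K be any property of groups. (1) If G is a minimal counterexample relative to K — a finite non-abelian simple group not satisfying K such that every finite non-abelian simple group of smaller order satisfies K — then every proper subgroup of G is a K-group (all its non-abelian simple sections satisfy K), since such sections have smaller order than G. (2) Consequently (induction on the order), if every finite non-abelian simple group all of whose proper subgroups are K-groups satisfies K, then every finite non-abelian simple group satisfies K. -/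
theorem result (K : ∀ (X : Type u) [Group X], Prop) :
    (∀ (G : Type u) [Group G], Cfsg.IsMinCounterexampleWith K G → Cfsg.IsKProperWith K G) ∧
      ((∀ (X : Type u) [Group X] [Finite X], IsSimpleGroup X → ¬ IsMulCommutative X → Cfsg.IsKProperWith K X → K X) →
        ∀ (G : Type u) [Group G] [Finite G], IsSimpleGroup G → ¬ IsMulCommutative G → K G) := by
  have key : ∀ (G : Type u) [Group G] [Finite G],
      (∀ (X : Type u) [Group X] [Finite X],
        IsSimpleGroup X → ¬ IsMulCommutative X → Nat.card X < Nat.card G → K X) →
      Cfsg.IsKProperWith K G := by
    intro G _ _ h H hH L N _ hs hc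
    refine h _ hs hc ?_
    have h1 : Nat.card (L ⧸ N) ≤ Nat.card L := by
      have := Subgroup.card_eq_card_quotient_mul_card_subgroup N
      have hN : 0 < Nat.card N := Nat.card_pos
      rw [this]
      exact Nat.le_mul_of_pos_right _ hN
    have h2 : Nat.card L ≤ Nat.card H := Subgroup.card_le_card_group L
    have h3 : Nat.card H < Nat.card G := by
      have h4 := Subgroup.card_le_card_group H
      refine lt_of_le_of_ne h4 ?_
      intro h5
      exact hH (Subgroup.eq_top_of_card_eq H h5)
    omega
  refine ⟨?_, ?_⟩
  · intro G _ hG
    obtain ⟨hf, _, _, _, h⟩ := hG
    exact key G h
  · intro hind G _ _ hs hc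
    have main : ∀ (n : ℕ) (G : Type u) [Group G] [Finite G], Nat.card G ≤ n →
        IsSimpleGroup G → ¬ IsMulCommutative G → K G := by
      intro n
      induction n with
      | zero =>
        intro G _ _ hn _ _
        have : 0 < Nat.card G := Nat.card_pos
        omega
      | succ n ih =>
        intro G _ _ hn hs hc
        refine hind G hs hc (key G ?_)
        intro X _ _ hXs hXc hX
        exact ih X (by omega) hXs hXc
    exact main _ G le_rfl hs hc

end Cfsg.Agent.S1753
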