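import Cfsg.Statements.S1754
import Cfsg.Agent.H13.Quasi

set_option autoImplicit false
open Cfsg

namespace Cfsg.Agent.S1754

/-- Let A be a standard subgroup of the finite group G (A quasisimple, C_G(A) tightly embedded of even order, A commuting elementwise with no other conjugate of itself, and N_G(A) = N_G(C_G(A))), and let t be an involution of G centralizing A. Then the centralizer of t lies in the normalizer of A; in particular A, viewed inside C_G(t), is a component of C_G(t). -/
theorem result {G : Type*} [Group G] [Finite G]
    (A : Subgroup G) (hA : Cfsg.IsStandardSubgroup A) (t : G) (ht : orderOf t = 2) (htA : t ∈ Subgroup.centralizer (A : Set G)) :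
    Subgroup.centralizer ({t} : Set G) ≤ Subgroup.normalizer (A : Set G) ∧
      Cfsg.IsComponent (A.subgroupOf (Subgroup.centralizer ({t} : Set G))) := by
  obtain ⟨hq, ⟨_, hti⟩, _, hnn⟩ := hA
  have h1 : Subgroup.centralizer ({t} : Set G) ≤ Subgroup.normalizer (A : Set G) := by
    intro g hg
    rw [hnn]
    by_contra hcon
    have h2 := hti g hcon
    have ht2 : t ∈ Subgroup.centralizer (A : Set G) ⊓
        (Subgroup.centralizer (A : Set G)).map (MulAut.conj g).toMonoidHom := by
      refine ⟨htA, H13.mem_map_conj.mpr ?_⟩
      have h3 : g⁻¹ * t * g = t := by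
        have := Subgroup.mem_centralizer_singleton_iff.mp hg
        rw [mul_assoc, ← this, ← mul_assoc, inv_mul_cancel, one_mul]
      rw [h3]; exact htA
    have h4 : orderOf t ∣ Nat.card ↥(Subgroup.centralizer (A : Set G) ⊓
        (Subgroup.centralizer (A : Set G)).map (MulAut.conj g).toMonoidHom) := by
      rw [← Subgroup.orderOf_mk t ht2]
      exact orderOf_dvd_natCard _
    rw [ht] at h4
    have h5 := even_iff_two_dvd.mpr h4
    exact (Nat.not_odd_iff_even.mpr h5) h2
  refine ⟨h1, ?_, ?_⟩
  · have hle : A ≤ Subgroup.centralizer ({t} : Set G) := by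
      intro a ha
      rw [Subgroup.mem_centralizer_singleton_iff]
      exact (Subgroup.mem_centralizer_iff.mp htA a ha)
    apply Subgroup.Normal.isSubnormal
    rw [← Subgroup.normalizer_eq_top_iff]
    rw [eq_top_iff]
    rintro x -
    apply H13.mem_norm_of_conj_mem
    intro a ha
    rw [Subgroup.mem_subgroupOf] at ha ⊢
    exact ((Subgroup.mem_normalizer_iff.mp (h1 x.2)) a).mp ha
  · have hle : A ≤ Subgroup.centralizer ({t} : Set G) := by
      intro a ha
      rw [Subgroup.mem_centralizer_singleton_iff]
      exact (Subgroup.mem_centralizer_iff.mp htA a ha)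
    exact H13.isQuasisimple_subgroupOf hle hq

end Cfsg.Agent.S1754
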