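import Cfsg.Statements.S1755
import Cfsg.Agent.H13.Invol
import Cfsg.Agent.H10.Comp
import Cfsg.Agent.H23.Coprime3

set_option autoImplicit false
open Cfsg

namespace Cfsg.Agent.S1755

theorem aux {G : Type*} [Group G] [Finite G] (z : G) (hz : orderOf z = 2) (C : Subgroup G)
    (hC : C = Subgroup.centralizer ({z} : Set G)) (Q : Subgroup C) (hQchar : Q.Characteristic)
    (hFit : Cfsg.fittingSubgroup C ≤ Q) (hQ : Cfsg.IsOfSymplecticType Q)
    (B : Subgroup Q) (hBc : B.Characteristic) (hBa : IsMulCommutative ↥B) (g : G) :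
    ((B.map Q.subtype).map C.subtype).map (MulAut.conj g).toMonoidHom =
        (B.map Q.subtype).map C.subtype ∨
      ((B.map Q.subtype).map C.subtype).map (MulAut.conj g).toMonoidHom ⊓
        (B.map Q.subtype).map C.subtype = ⊥ := by
  classical
  set BC : Subgroup C := B.map Q.subtype with hBC
  set BG : Subgroup G := BC.map C.subtype with hBG
  have hBCn : BC.Normal := by
    rw [← Subgroup.normalizer_eq_top_iff, eq_top_iff]
    have h1 := H23.normalizer_le_normalizer_map (P := Q) B
    have hQn : Q.Normal := inferInstance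
    rw [Subgroup.normalizer_eq_top] at h1
    exact h1
  -- elements of `C` normalize `BG`
  have hA : ∀ x ∈ C, BG.map (MulAut.conj x).toMonoidHom = BG := by
    intro x hx
    rw [← H13.mem_norm_iff_map]
    apply H13.mem_norm_of_conj_mem
    rintro _ ⟨b, hb, rfl⟩
    exact ⟨⟨x, hx⟩ * b * ⟨x, hx⟩⁻¹, hBCn.conj_mem b hb _, rfl⟩
  obtain ⟨hQ2, hQcyc⟩ := hQ
  have hzC : z ∈ C := by rw [hC, Subgroup.mem_centralizer_singleton_iff]
  have hzcen : (⟨z, hzC⟩ : C) ∈ Subgroup.center C := by
    rw [Subgroup.mem_center_iff]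
    intro x
    have h1 : (x : G) ∈ Subgroup.centralizer ({z} : Set G) := hC ▸ x.2
    exact Subtype.ext (Subgroup.mem_centralizer_singleton_iff.mp h1)
  have hzQ : (⟨z, hzC⟩ : C) ∈ Q :=
    hFit (H10.center_le_fitting _ hzcen)
  have hBcyc := hQcyc B hBc hBa
  have hZcyc : IsCyclic (Subgroup.center Q) := hQcyc _ inferInstance inferInstance
  have hzZ : (⟨⟨z, hzC⟩, hzQ⟩ : Q) ∈ Subgroup.center Q := by
    rw [Subgroup.mem_center_iff]
    intro x
    exact Subtype.ext ((Subgroup.mem_center_iff.mp hzcen) x)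
  have hord : ∀ x : Q, orderOf x = 2 → orderOf (((x : C) : G)) = 2 := by
    intro x hx
    rw [Subgroup.orderOf_coe, Subgroup.orderOf_coe, hx]
  have hzord : orderOf (⟨⟨z, hzC⟩, hzQ⟩ : Q) = 2 := by
    rw [← Subgroup.orderOf_coe, ← Subgroup.orderOf_coe]
    exact hz
  -- `z` is the unique involution of `B`
  have hinvZ : ∀ w : Q, w ∈ Subgroup.center Q → orderOf w = 2 → w = ⟨⟨z, hzC⟩, hzQ⟩ := by
    intro w hw hw2
    have h1 := H13.cyclic_unique_involution (A := Subgroup.center Q) (x := ⟨w, hw⟩) (y := ⟨_, hzZ⟩)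
      (by rw [← Subgroup.orderOf_coe]; exact hw2) (by rw [← Subgroup.orderOf_coe]; exact hzord)
    exact congrArg Subtype.val h1
  have : Fact (Nat.Prime 2) := ⟨Nat.prime_two⟩
  have hinvB : ∀ w : Q, w ∈ B → orderOf w = 2 → w = ⟨⟨z, hzC⟩, hzQ⟩ := by
    intro w hw hw2
    have hBne : B ≠ ⊥ := by
      rintro rfl
      rw [Subgroup.mem_bot.mp hw, orderOf_one] at hw2
      omega
    have hBn : B.Normal := inferInstance
    have h1 : B ⊓ Subgroup.center Q ≠ ⊥ := H23.inf_center_ne_bot hQ2 hBne
    obtain ⟨v, hv, hv2⟩ := H13.exists_involution (hQ2.to_subgroup _) h1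
    have h2 := hinvZ v hv.2 hv2
    have h3 := H13.cyclic_unique_involution (A := B) (x := ⟨w, hw⟩) (y := ⟨v, hv.1⟩)
      (by rw [← Subgroup.orderOf_coe]; exact hw2) (by rw [← Subgroup.orderOf_coe]; exact hv2)
    have h4 : w = v := congrArg Subtype.val h3
    rw [h4, h2]
  have hinvBG : ∀ w ∈ BG, orderOf w = 2 → w = z := by
    rintro _ ⟨_, ⟨w, hw, rfl⟩, rfl⟩ hw2
    have h1 : orderOf w = 2 := by
      rw [← hw2]
      change orderOf w = orderOf ((w : C) : G)
      rw [Subgroup.orderOf_coe, Subgroup.orderOf_coe]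
    rw [hinvB w hw h1]
    rfl
  by_cases hint : BG.map (MulAut.conj g).toMonoidHom ⊓ BG = ⊥
  · exact Or.inr hint
  · left
    have hBG2 : IsPGroup 2 BG := by
      have h1 : IsPGroup 2 B := hQ2.to_subgroup B
      exact (h1.map _).map _
    obtain ⟨w, hw, hw2⟩ := H13.exists_involution (hBG2.to_le inf_le_right) hint
    have h1 : w = z := hinvBG w hw.2 hw2
    have h2 : g⁻¹ * w * g ∈ BG := H13.mem_map_conj.mp hw.1
    have h3 : orderOf (g⁻¹ * w * g) = 2 := by
      have : g⁻¹ * w * g = g⁻¹ * w * g⁻¹⁻¹ := by rw [inv_inv]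
      rw [this]
      have h4 : orderOf (MulAut.conj g⁻¹ w) = orderOf w := orderOf_injective (MulAut.conj g⁻¹).toMonoidHom (MulAut.conj g⁻¹).injective w
      rw [← hw2, ← h4]
      rfl
    have h4 : g⁻¹ * w * g = z := hinvBG _ h2 h3
    apply hA
    rw [hC, Subgroup.mem_centralizer_singleton_iff]
    rw [h1] at h4
    have h5 : z * g = g * z := by
      calc z * g = g * (g⁻¹ * z * g) := by group
        _ = g * z := by rw [h4]
    exact h5.symm


/-- Let G be a finite group and let z be an involution of G such that Q, the generalized Fitting subgroup of the centralizer C of z, is a 2-group of symplectic type (every characteristic abelian subgroup of Q is cyclic). Let B be a characteristic abelian subgroup of Q, viewed as a subgroup of G. Then for every g in G, the conjugate of B by g either equals B or meets B trivially. -/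
theorem result {G : Type*} [Group G] [Finite G] (z : G) (hz : orderOf z = 2) (hQ : Cfsg.IsOfSymplecticType ↥(Cfsg.generalizedFittingSubgroup ↥(Subgroup.centralizer ({z} : Set G))))
    (B : Subgroup ↥(Cfsg.generalizedFittingSubgroup ↥(Subgroup.centralizer ({z} : Set G)))) (hBc : B.Characteristic) (hBa : IsMulCommutative ↥B) (g : G) :
    ((B.map (Cfsg.generalizedFittingSubgroup ↥(Subgroup.centralizer ({z} : Set G))).subtype).map (Subgroup.centralizer ({z} : Set G)).subtype).map (MulAut.conj g).toMonoidHom =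
        (B.map (Cfsg.generalizedFittingSubgroup ↥(Subgroup.centralizer ({z} : Set G))).subtype).map (Subgroup.centralizer ({z} : Set G)).subtype ∨
      ((B.map (Cfsg.generalizedFittingSubgroup ↥(Subgroup.centralizer ({z} : Set G))).subtype).map (Subgroup.centralizer ({z} : Set G)).subtype).map (MulAut.conj g).toMonoidHom ⊓
        (B.map (Cfsg.generalizedFittingSubgroup ↥(Subgroup.centralizer ({z} : Set G))).subtype).map (Subgroup.centralizer ({z} : Set G)).subtype = ⊥ := by
  exact aux z hz _ rfl _ (H10.genFitting_characteristic _) (H10.fitting_le_genFitting _) hQ B hBc hBa g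

end Cfsg.Agent.S1755
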