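import Cfsg.Statements.S1756
import Cfsg.Agent.H13.Extra

set_option autoImplicit false
open Cfsg

namespace Cfsg.Agent.S1756

/-- Let Q be an extraspecial 2-subgroup of the finite group G (special with centre of order 2) and t an involution of G normalizing Q such that the centralizer of t in Q has index at most 2 in Q. Then t lies in the product of Q with the centralizer of Q. -/
theorem result {G : Type*} [Group G] [Finite G] (Q : Subgroup G)
    (hQ : Cfsg.IsExtraspecial 2 ↥Q) (t : G) (ht : orderOf t = 2) (htN : t ∈ Subgroup.normalizer (Q : Set G))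
    (hi : (Subgroup.centralizer ({t} : Set G) ⊓ Q).relIndex Q ≤ 2) :
    t ∈ Q ⊔ Subgroup.centralizer (Q : Set G) := by
  classical
  have : Fact (Nat.Prime 2) := ⟨Nat.prime_two⟩
  obtain ⟨⟨hQ2, hfr, hcm⟩, hZ2⟩ := hQ
  have hconj : ∀ x ∈ Q, t * x * t⁻¹ ∈ Q := fun x hx => (Subgroup.mem_normalizer_iff.mp htN x).mp hx
  have htt : t * t = 1 := by rw [← pow_two, ← ht, pow_orderOf_eq_one]
  have htinv : t⁻¹ = t := inv_eq_of_mul_eq_one_left htt
  -- the fixed subgroup `M` of `t` inside `↥Q`
  set M : Subgroup Q := (Subgroup.centralizer ({t} : Set G)).subgroupOf Q with hM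
  have hMmem : ∀ x : Q, x ∈ M ↔ t * (x : G) * t⁻¹ = x := by
    intro x
    rw [hM, Subgroup.mem_subgroupOf, Subgroup.mem_centralizer_singleton_iff, mul_inv_eq_iff_eq_mul]
    exact eq_comm
  have hMidx : M.index ≤ 2 := by
    have h1 : (Subgroup.centralizer ({t} : Set G) ⊓ Q).relIndex Q = M.index := by
      rw [Subgroup.inf_relIndex_right]; rfl
    rw [← h1]; exact hi
  -- if there is an element `u ∈ Q` inducing the same automorphism we are done
  have hfin : ∀ u : Q, (∀ x : Q, (u : G) * x * (u : G)⁻¹ = t * x * t⁻¹) →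
      t ∈ Q ⊔ Subgroup.centralizer (Q : Set G) := by
    intro u hu
    have h1 : (u : G)⁻¹ * t ∈ Subgroup.centralizer (Q : Set G) := by
      rw [Subgroup.mem_centralizer_iff]
      intro x hx
      have h2 := hu ⟨x, hx⟩
      change (u : G) * x * (u : G)⁻¹ = t * x * t⁻¹ at h2
      calc x * ((u : G)⁻¹ * t) = (u : G)⁻¹ * ((u : G) * x * (u : G)⁻¹) * t := by group
        _ = (u : G)⁻¹ * (t * x * t⁻¹) * t := by rw [h2]
        _ = (u : G)⁻¹ * t * x := by group
    have h3 : t = (u : G) * ((u : G)⁻¹ * t) := by group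
    rw [h3]
    exact Subgroup.mul_mem _ ((le_sup_left : Q ≤ Q ⊔ _) u.2) ((le_sup_right : _ ≤ Q ⊔ Subgroup.centralizer (Q : Set G)) h1)
  by_cases hMtop : M = ⊤
  · apply hfin 1
    intro x
    have : x ∈ M := by rw [hMtop]; trivial
    rw [(hMmem x).mp this]
    simp
  have hM2 : M.index = 2 := by
    have h1 : M.index ≠ 1 := fun h => hMtop (Subgroup.index_eq_one.mp h)
    have h2 : M.index ≠ 0 := Subgroup.index_ne_zero_of_finite
    omega
  have hMn : M.Normal := Subgroup.normal_of_index_eq_two hM2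
  have hMco : IsCoatom M := H2.isCoatom_of_index_prime hM2
  -- center of Q
  obtain ⟨z, hz1, hz⟩ : ∃ z : Q, z ≠ 1 ∧ ∀ x : Q, x ∈ Subgroup.center Q ↔ x = 1 ∨ x = z := by
    have h1 : Nontrivial (Subgroup.center Q) := by
      rw [← Finite.one_lt_card_iff_nontrivial, hZ2]; norm_num
    obtain ⟨w, hw⟩ := exists_ne (1 : Subgroup.center Q)
    refine ⟨w, fun h => hw (Subtype.ext h), fun x => ⟨fun hx => ?_, ?_⟩⟩
    · have h2 : (Nat.card (Subgroup.center Q)) = 2 := hZ2
      rw [Nat.card_eq_two_iff' (1 : Subgroup.center Q)] at h2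
      obtain ⟨y, hy1, hy2⟩ := h2
      by_cases hx1 : x = 1
      · exact Or.inl hx1
      · right
        have e1 : (⟨x, hx⟩ : Subgroup.center Q) = y := hy2 _ (fun h => hx1 (congrArg Subtype.val h))
        have e2 : w = y := hy2 _ hw
        rw [← e2] at e1
        exact congrArg Subtype.val e1
    · rintro (rfl | rfl)
      · exact Subgroup.one_mem _
      · exact w.2
  have hzc : z ∈ Subgroup.center Q := (hz z).mpr (Or.inr rfl)
  have hcomm : ∀ a b : Q, a * b * a⁻¹ * b⁻¹ ∈ Subgroup.center Q := by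
    intro a b
    rw [← hcm]
    exact Subgroup.commutator_mem_commutator (Subgroup.mem_top a) (Subgroup.mem_top b)
  have hsq : ∀ a : Q, a ^ 2 ∈ Subgroup.center Q := by
    intro a; rw [← hfr]; exact H2.pow_mem_frattini hQ2 a
  -- `t` fixes `z`
  have htz : t * (z : G) * t⁻¹ = z := by
    have h1 : (⟨t * (z : G) * t⁻¹, hconj z z.2⟩ : Q) ∈ Subgroup.center Q := by
      rw [Subgroup.mem_center_iff]
      intro g
      apply Subtype.ext
      have h2 := (Subgroup.mem_center_iff.mp hzc) ⟨t * (g : G) * t⁻¹, hconj g g.2⟩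
      have h3 : t * (g : G) * t⁻¹ * z = z * (t * (g : G) * t⁻¹) := congrArg Subtype.val h2
      rw [htinv] at h3
      change (g : G) * (t * (z : G) * t⁻¹) = (t * (z : G) * t⁻¹) * g
      rw [htinv]
      calc (g : G) * (t * (z : G) * t) = t * (t * (g : G) * t * z) * t := by
            simp only [mul_assoc]
            rw [← mul_assoc t t, htt, one_mul]
        _ = t * (z * (t * (g : G) * t)) * t := by rw [h3]
        _ = (t * (z : G) * t) * g := by
            simp only [mul_assoc]
            rw [htt, mul_one]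
    rcases (hz _).mp h1 with h | h
    · exfalso
      apply hz1
      have h2 : t * (z : G) * t⁻¹ = 1 := congrArg Subtype.val h
      apply Subtype.ext
      have h3 : (z : G) = t⁻¹ * (t * (z : G) * t⁻¹) * t := by group
      rw [h3, h2]; simp
    · exact congrArg Subtype.val h
  have htcen : ∀ a : Q, a ∈ Subgroup.center Q → t * (a : G) * t⁻¹ = a := by
    intro a ha
    rcases (hz a).mp ha with rfl | rfl
    · simp
    · exact htz
  -- pick `x ∉ M`
  obtain ⟨x, hx⟩ : ∃ x : Q, x ∉ M := by
    by_contra hcon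
    push Not at hcon
    exact hMtop (eq_top_iff.mpr (fun y _ => hcon y))
  set c : Q := x⁻¹ * ⟨t * (x : G) * t⁻¹, hconj x x.2⟩ with hc
  have hxc : t * (x : G) * t⁻¹ = (x : G) * c := by
    rw [hc]
    change t * (x : G) * t⁻¹ = (x : G) * ((x : G)⁻¹ * (t * (x : G) * t⁻¹))
    rw [mul_inv_cancel_left]
  have hc1 : c ≠ 1 := by
    intro h
    apply hx
    rw [hMmem, hxc, h]
    simp
  -- every element of `Q` is in `M` or `x M`
  have hcov : ∀ y : Q, y ∈ M ∨ ∃ m ∈ M, y = x * m := by
    intro y
    by_cases hy : y ∈ M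
    · exact Or.inl hy
    · right
      refine ⟨x⁻¹ * y, ?_, by simp⟩
      have := (Subgroup.mul_mem_iff_of_index_two hM2 (a := x⁻¹) (b := y))
      rw [this]
      simp only [inv_mem_iff, hx, hy]
  -- `c` centralizes `M`
  have hcM : ∀ m ∈ M, c * m = m * c := by
    intro m hm
    have h1 : t * ((x * m * x⁻¹ : Q) : G) * t⁻¹ = ((x * m * x⁻¹ : Q) : G) :=
      (hMmem _).mp (hMn.conj_mem m hm x)
    have h2 : t * (m : G) * t⁻¹ = m := (hMmem m).mp hm
    have h3 : t * ((x * m * x⁻¹ : Q) : G) * t⁻¹ =
        (t * (x : G) * t⁻¹) * (t * (m : G) * t⁻¹) * (t * (x : G) * t⁻¹)⁻¹ := by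
      change t * ((x : G) * m * (x : G)⁻¹) * t⁻¹ = _
      group
    rw [h3, h2, hxc] at h1
    have h4 : (x : G) * c * m * ((x : G) * c)⁻¹ = (x : G) * m * (x : G)⁻¹ := h1
    have h5 : (c : G) * m * (c : G)⁻¹ = m := by
      calc (c : G) * m * (c : G)⁻¹ = (x : G)⁻¹ * ((x : G) * c * m * ((x : G) * c)⁻¹) * x := by group
        _ = (x : G)⁻¹ * ((x : G) * m * (x : G)⁻¹) * x := by rw [h4]
        _ = m := by group
    apply Subtype.ext
    exact mul_inv_eq_iff_eq_mul.mp h5
  by_cases hcZ : c ∈ Subgroup.center Q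
  · -- case 1 : `c = z`
    have hcz : c = z := ((hz c).mp hcZ).resolve_left hc1
    -- find `u` centralizing `M`, not central
    have hcard := H13.card_centralizer_mul hQ2 (hcm.le) hZ2 M
    have hMZ : Subgroup.center Q ≤ M := by
      intro y hy
      rw [hMmem]
      exact htcen y hy
    rw [inf_eq_left.mpr hMZ, hZ2] at hcard
    have hMc := Subgroup.card_mul_index M
    rw [hM2] at hMc
    have hCM : Nat.card (Subgroup.centralizer (M : Set Q)) = 4 := by
      have hpos : 0 < Nat.card M := Nat.card_pos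
      apply Nat.eq_of_mul_eq_mul_right hpos
      rw [hcard, ← hMc]; ring
    obtain ⟨u, hu1, hu2⟩ : ∃ u ∈ Subgroup.centralizer (M : Set Q), u ∉ Subgroup.center Q := by
      by_contra hcon
      push Not at hcon
      have := Subgroup.card_le_of_le (show Subgroup.centralizer (M : Set Q) ≤ Subgroup.center Q from hcon)
      rw [hCM, hZ2] at this
      omega
    have huM : ∀ m ∈ M, u * m * u⁻¹ = m := by
      intro m hm
      rw [mul_inv_eq_iff_eq_mul]
      exact (Subgroup.mem_centralizer_iff.mp hu1 m hm).symm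
    have hux : u * x * u⁻¹ = x * z := by
      rcases (hz _).mp (hcomm u x) with h | h
      · exfalso
        apply hu2
        have hux : u * x * u⁻¹ = x := mul_inv_eq_one.mp h
        rw [Subgroup.mem_center_iff]
        intro y
        rcases hcov y with hy | ⟨m, hm, rfl⟩
        · exact Subgroup.mem_centralizer_iff.mp hu1 y hy
        · have h1 := Subgroup.mem_centralizer_iff.mp hu1 m hm
          have h2 : u * x = x * u := mul_inv_eq_iff_eq_mul.mp hux
          rw [mul_assoc, h1, ← mul_assoc, ← h2, mul_assoc]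
      · have h1 : u * x * u⁻¹ = z * x := mul_inv_eq_iff_eq_mul.mp h
        rw [h1]
        exact ((Subgroup.mem_center_iff.mp hzc) x).symm
    apply hfin u
    intro y
    rcases hcov y with hy | ⟨m, hm, rfl⟩
    · rw [(hMmem y).mp hy]
      exact congrArg Subtype.val (huM y hy)
    · have h1 : u * (x * m) * u⁻¹ = (u * x * u⁻¹) * (u * m * u⁻¹) := by group
      have h2 : t * ((x * m : Q) : G) * t⁻¹ = (t * (x : G) * t⁻¹) * (t * (m : G) * t⁻¹) := by
        change t * ((x : G) * m) * t⁻¹ = _
        group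
      rw [h2, (hMmem m).mp hm, hxc, hcz]
      have h3 := congrArg Subtype.val h1
      rw [huM m hm, hux] at h3
      exact h3
  · exfalso
    -- `C_Q(c) = M`
    have hcent : Subgroup.centralizer ({c} : Set Q) = M := by
      have h1 : M ≤ Subgroup.centralizer ({c} : Set Q) := by
        intro m hm
        rw [Subgroup.mem_centralizer_singleton_iff]
        exact (hcM m hm).symm
      by_contra hcon
      have h2 : M < Subgroup.centralizer ({c} : Set Q) := lt_of_le_of_ne h1 (Ne.symm hcon)
      have h3 := hMco.2 _ h2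
      apply hcZ
      rw [Subgroup.mem_center_iff]
      intro g
      have : g ∈ Subgroup.centralizer ({c} : Set Q) := by rw [h3]; trivial
      exact Subgroup.mem_centralizer_singleton_iff.mp this
    have hcMm : c ∈ M := by
      rw [← hcent, Subgroup.mem_centralizer_singleton_iff]
    have htc : t * (c : G) * t⁻¹ = c := (hMmem c).mp hcMm
    have hc2 : c ^ 2 = 1 := by
      have h1 : t * (t * (x : G) * t⁻¹) * t⁻¹ = x := by
        rw [htinv]
        simp only [mul_assoc]
        rw [htt, mul_one, ← mul_assoc, htt, one_mul]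
      rw [hxc] at h1
      have h2 : t * ((x : G) * c) * t⁻¹ = (t * (x : G) * t⁻¹) * (t * (c : G) * t⁻¹) := by group
      rw [h2, htc, hxc] at h1
      apply Subtype.ext
      change (c : G) ^ 2 = 1
      have h3 : (x : G) * ((c : G) * c) = x * 1 := by rw [← mul_assoc, h1, mul_one]
      rw [pow_two]
      exact mul_left_cancel h3
    have hxcne : ¬ (c * x = x * c) := by
      intro h
      apply hx
      rw [← hcent, Subgroup.mem_centralizer_singleton_iff]
      exact h.symm
    have hcx : x⁻¹ * c * x * c⁻¹ = z := by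
      have h1 := hcomm x⁻¹ c
      rw [inv_inv] at h1
      rcases (hz _).mp h1 with h | h
      · exfalso
        apply hxcne
        have h2 : x⁻¹ * c * x = c := mul_inv_eq_one.mp h
        calc c * x = x * (x⁻¹ * c * x) := by group
          _ = x * c := by rw [h2]
      · exact h
    -- `(x c)^2 = x^2 z`
    have h1 : (x * c) ^ 2 = x ^ 2 * z := by
      have h2 : x⁻¹ * c * x = z * c := mul_inv_eq_iff_eq_mul.mp hcx
      calc (x * c) ^ 2 = x ^ 2 * (x⁻¹ * c * x) * c := by rw [pow_two, pow_two]; group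
        _ = x ^ 2 * z * (c * c) := by rw [h2]; simp only [mul_assoc]
        _ = x ^ 2 * z := by rw [← pow_two c, hc2, mul_one]
    have h2 : (x * c) ^ 2 = x ^ 2 := by
      apply Subtype.ext
      change ((x : G) * c) ^ 2 = (x : G) ^ 2
      rw [← hxc]
      have h3 : (t * (x : G) * t⁻¹) ^ 2 = t * ((x ^ 2 : Q) : G) * t⁻¹ := by
        rw [pow_two]
        change _ = t * ((x : G) ^ 2) * t⁻¹
        rw [pow_two]; group
      rw [h3, htcen _ (hsq x)]
      rfl
    rw [h1] at h2
    exact hz1 (mul_eq_left.mp h2)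

end Cfsg.Agent.S1756
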