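import Cfsg.Statements.S1757
import Cfsg.Agent.H13.Basic

set_option autoImplicit false
open Cfsg

namespace Cfsg.Agent.S1757

/-- Let p be a prime and A, B p-subgroups of the finite group G, each of which meets every conjugate of itself other than itself trivially. Suppose the order of A is at most that of B, A and B intersect trivially, and B normalizes A. Then A and B commute elementwise. -/
theorem result {G : Type*} [Group G] [Finite G] (p : ℕ) [Fact p.Prime] (A B : Subgroup G)
    (hA : IsPGroup p ↥A) (hB : IsPGroup p ↥B)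
    (hAti : ∀ g : G, A.map (MulAut.conj g).toMonoidHom = A ∨ A.map (MulAut.conj g).toMonoidHom ⊓ A = ⊥)
    (hBti : ∀ g : G, B.map (MulAut.conj g).toMonoidHom = B ∨ B.map (MulAut.conj g).toMonoidHom ⊓ B = ⊥)
    (hle : Nat.card ↥A ≤ Nat.card ↥B) (hAB : A ⊓ B = ⊥) (hN : B ≤ Subgroup.normalizer (A : Set G)) : ⁅A, B⁆ = ⊥ := by
  classical
  -- the subgroup of `A` normalizing `B`
  set A₁ : Subgroup G := A ⊓ Subgroup.normalizer (B : Set G) with hA₁
  have hcomm : ∀ a ∈ A₁, ∀ b ∈ B, a * b = b * a := fun a ha b hb =>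
    H13.commute_of_norm hAB ha.1 hb ha.2 (hN hb)
  by_cases hA1A : A₁ = A
  · rw [Subgroup.commutator_eq_bot_iff_le_centralizer]
    intro a ha
    rw [Subgroup.mem_centralizer_iff]
    intro b hb
    rw [← hA1A] at ha
    exact (hcomm a ha b hb).symm
  · exfalso
    have hlt : A₁ < A := lt_of_le_of_ne inf_le_left hA1A
    have hNA₁ : B ≤ Subgroup.normalizer (A₁ : Set G) := by
      intro b hb
      apply H13.mem_norm_of_conj_mem
      intro x hx
      have h1 : b * x * b⁻¹ = x := by rw [← hcomm x hx b hb]; simp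
      rw [h1]; exact hx
    have hdis : A₁ ⊓ B = ⊥ := le_bot_iff.mp (hAB ▸ inf_le_inf_right B inf_le_left)
    -- A₁ ⊔ B is proper in A ⊔ B
    have hle1 : A₁ ⊔ B ≤ A ⊔ B := sup_le_sup_right inf_le_left B
    have hlt1 : A₁ ⊔ B < A ⊔ B := by
      refine lt_of_le_of_ne hle1 ?_
      intro h
      have h1 := H13.card_sup_norm hNA₁ hdis
      have h2 := H13.card_sup_norm hN hAB
      rw [h, h2] at h1
      have h3 : Nat.card B ≠ 0 := Nat.card_pos.ne'
      have h4 := H13.card_lt_of_lt hlt
      have h5 : Nat.card A = Nat.card A₁ := Nat.eq_of_mul_eq_mul_right (Nat.pos_of_ne_zero h3) h1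
      omega
    obtain ⟨x, hx1, hx2, hx3⟩ := H13.exists_norm_not_mem (H13.isPGroup_sup_norm hA hB hN) hlt1
    obtain ⟨a, ha, b, hb, rfl⟩ := H13.mem_sup_norm hN hx1
    have hbD : b ∈ A₁ ⊔ B := (le_sup_right : B ≤ A₁ ⊔ B) hb
    have haD : a ∉ A₁ ⊔ B := fun h => hx2 ((A₁ ⊔ B).mul_mem h hbD)
    have haN : a ∈ Subgroup.normalizer ((A₁ ⊔ B : Subgroup G) : Set G) := by
      have h1 : b ∈ Subgroup.normalizer ((A₁ ⊔ B : Subgroup G) : Set G) := Subgroup.le_normalizer hbD
      have := (Subgroup.normalizer ((A₁ ⊔ B : Subgroup G) : Set G)).mul_mem hx3 (Subgroup.inv_mem _ h1)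
      simpa using this
    have haB : a ∉ Subgroup.normalizer (B : Set G) := by
      intro h
      exact haD ((le_sup_left : A₁ ≤ A₁ ⊔ B) ⟨ha, h⟩)
    -- the conjugate of B
    set C : Subgroup G := B.map (MulAut.conj a).toMonoidHom with hC
    have hCB : C ≠ B := fun h => haB (H13.mem_norm_iff_map.mpr h)
    have hCB' : C ⊓ B = ⊥ := (hBti a).resolve_left hCB
    have hCD : C ≤ A₁ ⊔ B := by
      have h1 := H13.mem_norm_iff_map.mp haN
      rw [← h1]
      exact Subgroup.map_mono le_sup_right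
    have hDB : A₁ ⊔ B ≤ Subgroup.normalizer (B : Set G) := sup_le inf_le_right Subgroup.le_normalizer
    have hcardC : Nat.card (B ⊔ C : Subgroup G) = Nat.card B * Nat.card C :=
      H13.card_sup_norm (hCD.trans hDB) (by rw [inf_comm]; exact hCB')
    have h1 : Nat.card (B ⊔ C : Subgroup G) ≤ Nat.card (A₁ ⊔ B : Subgroup G) :=
      Subgroup.card_le_of_le (sup_le le_sup_right hCD)
    rw [hcardC, H13.card_sup_norm hNA₁ hdis, hC, H13.card_map_conj] at h1
    have h2 : 0 < Nat.card B := Nat.card_pos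
    have h3 : Nat.card B ≤ Nat.card A₁ := Nat.le_of_mul_le_mul_right h1 h2
    have h4 := H13.card_lt_of_lt hlt
    omega

end Cfsg.Agent.S1757
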