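import Cfsg.Statements.S1774
import Cfsg.Agent.H13.Symp5
import Cfsg.Agent.H10.Comp

set_option autoImplicit false
open Cfsg

namespace Cfsg.Agent.S1774

open Cfsg.Agent Cfsg.Agent.H13 Subgroup in
theorem sd_conj {G : Type*} [Group G] {z : G} {Q : Subgroup G} (h : SD z Q) (g : G) :
    SD (g * z * g⁻¹) (Q.map (MulAut.conj g).toMonoidHom) := by
  have hmem : ∀ x, x ∈ Q.map (MulAut.conj g).toMonoidHom ↔ g⁻¹ * x * g ∈ Q := fun x =>
    H13.mem_map_conj
  have hc : ∀ c, c * (g * z * g⁻¹) = (g * z * g⁻¹) * c → (g⁻¹ * c * g) * z = z * (g⁻¹ * c * g) := by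
    intro c hc
    calc (g⁻¹ * c * g) * z = g⁻¹ * (c * (g * z * g⁻¹)) * g := by group
      _ = g⁻¹ * ((g * z * g⁻¹) * c) * g := by rw [hc]
      _ = z * (g⁻¹ * c * g) := by group
  refine ⟨?_, ?_, ?_, ?_, ?_, ?_, ?_, ?_, ?_⟩
  · calc g * z * g⁻¹ * (g * z * g⁻¹) = g * (z * z) * g⁻¹ := by group
      _ = 1 := by rw [h.zz]; group
  · intro h1
    exact h.z1 (conj_eq_one_iff.1 h1)
  · rw [hmem]
    have : g⁻¹ * (g * z * g⁻¹) * g = z := by group
    rw [this]
    exact h.zQ
  · intro x hx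
    rw [hmem] at hx
    have h1 := h.cz _ hx
    calc x * (g * z * g⁻¹) = g * ((g⁻¹ * x * g) * z) * g⁻¹ := by group
      _ = g * (z * (g⁻¹ * x * g)) * g⁻¹ := by rw [h1]
      _ = _ := by group
  · intro x hx
    rw [hmem] at hx
    have h2 : x * x = g * ((g⁻¹ * x * g) * (g⁻¹ * x * g)) * g⁻¹ := by group
    rcases h.sq _ hx with h1 | h1
    · left; rw [h2, h1]; group
    · right; rw [h2, h1]
  · intro x hx hcm hxx
    rw [hmem] at hx
    have h1 : ∀ y ∈ Q, (g⁻¹ * x * g) * y = y * (g⁻¹ * x * g) := by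
      intro y hy
      have h2 := hcm (g * y * g⁻¹) (by
        rw [hmem]
        have : g⁻¹ * (g * y * g⁻¹) * g = y := by group
        rwa [this])
      calc (g⁻¹ * x * g) * y = g⁻¹ * (x * (g * y * g⁻¹)) * g := by group
        _ = g⁻¹ * ((g * y * g⁻¹) * x) * g := by rw [h2]
        _ = _ := by group
    have h2 : (g⁻¹ * x * g) * (g⁻¹ * x * g) = 1 := by
      calc (g⁻¹ * x * g) * (g⁻¹ * x * g) = g⁻¹ * (x * x) * g := by group
        _ = 1 := by rw [hxx]; group
    have h3 : x = g * (g⁻¹ * x * g) * g⁻¹ := by group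
    rcases h.cen _ hx h1 h2 with h4 | h4
    · left; rw [h3, h4]; group
    · right; rw [h3, h4]
  · intro c hcz x hx
    rw [hmem] at hx ⊢
    have h1 := h.norm _ (hc c hcz) _ hx
    convert h1 using 1
    group
  · intro c hcz hcx
    rw [hmem]
    apply h.self _ (hc c hcz)
    intro y hy
    have h2 := hcx (g * y * g⁻¹) (by
      rw [hmem]
      have : g⁻¹ * (g * y * g⁻¹) * g = y := by group
      rwa [this])
    calc (g⁻¹ * c * g) * y = g⁻¹ * (c * (g * y * g⁻¹)) * g := by group
      _ = g⁻¹ * ((g * y * g⁻¹) * c) * g := by rw [h2]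
      _ = _ := by group
  · intro h32 c hcz
    rw [hmem]
    apply h.two _ _ (hc c hcz)
    intro d hd
    have h1 := h32 (g * d * g⁻¹) (by
      calc g * d * g⁻¹ * (g * z * g⁻¹) = g * (d * z) * g⁻¹ := by group
        _ = g * (z * d) * g⁻¹ := by rw [hd]
        _ = _ := by group)
    rw [conj_pow] at h1
    exact conj_eq_one_iff.1 h1

open Cfsg.Agent Cfsg.Agent.H13 Subgroup in
theorem sd_of {G : Type*} [Group G] [Finite G] (z : G) (hz : orderOf z = 2)
    (hQ : Cfsg.IsOfSymplecticType ↥(Cfsg.generalizedFittingSubgroup ↥(Subgroup.centralizer ({z} : Set G))))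
    (h4 : ∀ q ∈ (Cfsg.generalizedFittingSubgroup ↥(Subgroup.centralizer ({z} : Set G))).map (Subgroup.centralizer ({z} : Set G)).subtype, q ^ 4 = 1) :
    SD z ((Cfsg.generalizedFittingSubgroup ↥(Subgroup.centralizer ({z} : Set G))).map
      (Subgroup.centralizer ({z} : Set G)).subtype) := by
  haveI : Fact (Nat.Prime 2) := ⟨Nat.prime_two⟩
  set C := centralizer ({z} : Set G) with hC
  set F := Cfsg.generalizedFittingSubgroup C with hF
  have hzC : z ∈ C := mem_centralizer_singleton_iff.2 rfl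
  have hmemC : ∀ c, c * z = z * c → c ∈ C := fun c hc => mem_centralizer_singleton_iff.2 hc
  have hzcen : (⟨z, hzC⟩ : C) ∈ center C := by
    rw [mem_center_iff]
    intro x
    exact Subtype.ext (mem_centralizer_singleton_iff.1 x.2)
  have hzF : (⟨z, hzC⟩ : C) ∈ F :=
    H10.fitting_le_genFitting C (H10.center_le_fitting _ hzcen)
  have hzz : z * z = 1 := by rw [← pow_two, ← hz]; exact pow_orderOf_eq_one z
  have hz1 : z ≠ 1 := by
    rintro rfl
    rw [orderOf_one] at hz
    omega
  have hzZ : (⟨⟨z, hzC⟩, hzF⟩ : F) ∈ center F := by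
    rw [mem_center_iff]
    intro x
    exact Subtype.ext (mem_center_iff.1 hzcen x)
  have hord : orderOf (⟨⟨z, hzC⟩, hzF⟩ : F) = 2 := by
    rw [← orderOf_coe, ← orderOf_coe]
    exact hz
  have hFn : F.Normal := H10.genFitting_normal C
  have hmemF : ∀ (c : G) (hc : c ∈ C), (⟨c, hc⟩ : C) ∈ F → c ∈ F.map C.subtype :=
    fun c hc h => ⟨_, h, rfl⟩
  have hcyc : IsCyclic (center F) := hQ.2 _ inferInstance inferInstance
  refine ⟨hzz, hz1, hmemF z hzC hzF, ?_, ?_, ?_, ?_, ?_, ?_⟩
  · rintro _ ⟨x, _, rfl⟩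
    exact mem_centralizer_singleton_iff.1 x.2
  · rintro _ ⟨x, hx, rfl⟩
    have h1 := symp_sq hQ (fun q => Subtype.ext (Subtype.ext (by
      have := h4 ((q : C) : G) ⟨q, q.2, rfl⟩
      exact this))) hzZ hord ⟨x, hx⟩
    rcases h1 with h1 | h1
    · left; exact congrArg (fun w : F => ((w : C) : G)) h1
    · right; exact congrArg (fun w : F => ((w : C) : G)) h1
  · rintro _ ⟨x, hx, rfl⟩ hcm hxx
    by_cases hx1 : (x : G) = 1
    · exact Or.inl hx1
    · right
      have hxZ : (⟨x, hx⟩ : F) ∈ center F := by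
        rw [mem_center_iff]
        intro y
        exact Subtype.ext (Subtype.ext (hcm _ ⟨y, y.2, rfl⟩).symm)
      have hxo : orderOf (⟨x, hx⟩ : F) = 2 := by
        apply orderOf_eq_prime
        · apply Subtype.ext; apply Subtype.ext
          rw [pow_two]; exact hxx
        · intro h1
          apply hx1
          exact congrArg (fun w : F => ((w : C) : G)) h1
      have h5 := cyclic_unique_involution (A := center F) (x := ⟨_, hxZ⟩) (y := ⟨_, hzZ⟩)
        (by rw [← orderOf_coe]; exact hxo) (by rw [← orderOf_coe]; exact hord)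
      exact congrArg (fun w : center F => (((w : F) : C) : G)) h5
  · rintro c hc _ ⟨x, hx, rfl⟩
    exact ⟨_, hFn.conj_mem x hx ⟨c, hmemC c hc⟩, rfl⟩
  · intro c hc hcx
    apply hmemF c (hmemC c hc)
    apply H10.centralizer_genFitting_le
    rw [mem_centralizer_iff]
    intro x hx
    exact Subtype.ext (hcx _ ⟨x, hx, rfl⟩).symm
  · intro h32 c hc
    apply hmemF c (hmemC c hc)
    have h1 : IsPGroup 2 C := by
      intro x
      refine ⟨5, Subtype.ext ?_⟩
      exact h32 x (mem_centralizer_singleton_iff.1 x.2)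
    have h2 : (⊤ : Subgroup C) ≤ Cfsg.fittingSubgroup C := by
      apply le_sSup
      have h3 : IsPGroup 2 (⊤ : Subgroup C) := h1.to_subgroup _
      exact ⟨inferInstance, h3.isNilpotent⟩
    exact H10.fitting_le_genFitting C (h2 (mem_top _))


/-- Let G be a finite group and let z be an involution of G such that Q, the generalized Fitting subgroup of the centralizer C of z, is a 2-group of symplectic type (every characteristic abelian subgroup of Q is cyclic); suppose every element of Q has order dividing 4. Let g ∈ G with z' = g z g⁻¹ ≠ z and z' ∈ Q. Then z lies in the conjugate g Q g⁻¹, and the subgroup X generated by Q and g Q g⁻¹ induces every automorphism of the four-group generated by z and z': for any two distinct non-identity elements u, v of that four-group there is x ∈ X with x z x⁻¹ = u and x z' x⁻¹ = v. -/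
theorem result {G : Type*} [Group G] [Finite G] (z : G) (hz : orderOf z = 2) (hQ : Cfsg.IsOfSymplecticType ↥(Cfsg.generalizedFittingSubgroup ↥(Subgroup.centralizer ({z} : Set G))))
    (h4 : ∀ q ∈ (Cfsg.generalizedFittingSubgroup ↥(Subgroup.centralizer ({z} : Set G))).map (Subgroup.centralizer ({z} : Set G)).subtype, q ^ 4 = 1) (g : G) (hne : g * z * g⁻¹ ≠ z) (hin : g * z * g⁻¹ ∈ (Cfsg.generalizedFittingSubgroup ↥(Subgroup.centralizer ({z} : Set G))).map (Subgroup.centralizer ({z} : Set G)).subtype) :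
    z ∈ ((Cfsg.generalizedFittingSubgroup ↥(Subgroup.centralizer ({z} : Set G))).map (Subgroup.centralizer ({z} : Set G)).subtype).map (MulAut.conj g).toMonoidHom ∧
      ∀ u ∈ Subgroup.closure ({z, g * z * g⁻¹} : Set G), ∀ v ∈ Subgroup.closure ({z, g * z * g⁻¹} : Set G),
        u ≠ 1 → v ≠ 1 → u ≠ v →
          ∃ x ∈ (Cfsg.generalizedFittingSubgroup ↥(Subgroup.centralizer ({z} : Set G))).map (Subgroup.centralizer ({z} : Set G)).subtype ⊔ ((Cfsg.generalizedFittingSubgroup ↥(Subgroup.centralizer ({z} : Set G))).map (Subgroup.centralizer ({z} : Set G)).subtype).map (MulAut.conj g).toMonoidHom, x * z * x⁻¹ = u ∧ x * (g * z * g⁻¹) * x⁻¹ = v := by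
  have hsd := sd_of z hz hQ h4
  have hsd' := sd_conj hsd g
  set C := Subgroup.centralizer ({z} : Set G) with hC
  set Q := (Cfsg.generalizedFittingSubgroup C).map C.subtype with hQdef
  set Q' := Q.map (MulAut.conj g).toMonoidHom with hQ'
  have hQ2 : IsPGroup 2 Q := hQ.1.map _
  have hQ'2 : IsPGroup 2 Q' := hQ2.map _
  have hmem : ∀ x, x ∈ Q' ↔ g⁻¹ * x * g ∈ Q := fun x => Cfsg.Agent.H13.mem_map_conj
  set z' := g * z * g⁻¹ with hz'
  have hzQ' : z ∈ Q' := by
    apply hsd.mem hsd' hQ'2 hin hne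
    · intro k hk x hx
      rw [hmem]
      have h1 : (g⁻¹ * k) * z = z * (g⁻¹ * k) := by
        calc (g⁻¹ * k) * z = g⁻¹ * (k * z * k⁻¹) * k := by group
          _ = g⁻¹ * (g * z * g⁻¹) * k := by rw [hk]
          _ = z * (g⁻¹ * k) := by group
      have h2 := hsd.norm _ h1 x hx
      convert h2 using 1
      group
    · intro hall c hc
      rw [hmem]
      apply hall
      calc (g⁻¹ * c * g) * z = g⁻¹ * (c * (g * z * g⁻¹)) * g := by group
        _ = g⁻¹ * ((g * z * g⁻¹) * c) * g := by rw [hc]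
        _ = z * (g⁻¹ * c * g) := by group
  refine ⟨hzQ', ?_⟩
  obtain ⟨q, hq, hqz⟩ := hsd.exists_swap hin hsd'.zz hsd'.z1 hne
  obtain ⟨r, hr, hrz⟩ := hsd'.exists_swap hzQ' hsd.zz hsd.z1 (Ne.symm hne)
  have hzz' : z' * z = z * z' := hsd.cz z' hin
  have hqz0 : q * z * q⁻¹ = z := by rw [hsd.cz q hq]; group
  have hrz0 : r * z' * r⁻¹ = z' := by rw [hsd'.cz r hr]; group
  rw [hzz'] at hrz
  have hqX : q ∈ Q ⊔ Q' := Subgroup.mem_sup_left hq
  have hrX : r ∈ Q ⊔ Q' := Subgroup.mem_sup_right hr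
  have hzz := hsd.zz
  have hz'z' := hsd'.zz
  have a1 : z * (z * z') = z' := by rw [← mul_assoc, hzz, one_mul]
  have a4 : z * z' * z' = z := by rw [mul_assoc, hz'z', mul_one]
  have a2 : z' * (z * z') = z := by rw [← mul_assoc, hzz', a4]
  have a3 : z * z' * z = z' := by rw [mul_assoc, hzz', a1]
  have a5 : z * z' * (z * z') = 1 := by rw [mul_assoc, a2, hzz]
  have i1 : z⁻¹ = z := inv_eq_of_mul_eq_one_left hzz
  have i2 : z'⁻¹ = z' := inv_eq_of_mul_eq_one_left hz'z'
  have i3 : (z * z')⁻¹ = z * z' := inv_eq_of_mul_eq_one_left a5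
  have hfour : ∀ u ∈ Subgroup.closure ({z, z'} : Set G), u = 1 ∨ u = z ∨ u = z' ∨ u = z * z' := by
    intro u hu
    induction hu using Subgroup.closure_induction with
    | mem x hx =>
      rcases hx with rfl | rfl
      · exact Or.inr (Or.inl rfl)
      · exact Or.inr (Or.inr (Or.inl rfl))
    | one => exact Or.inl rfl
    | mul x y _ _ hx hy =>
      rcases hx with rfl | rfl | rfl | rfl <;> rcases hy with rfl | rfl | rfl | rfl
      all_goals
        simp only [hzz, hz'z', hzz', a1, a2, a3, a4, a5, one_mul, mul_one, true_or, or_true]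
    | inv x _ hx =>
      rcases hx with rfl | rfl | rfl | rfl
      all_goals simp only [inv_one, i1, i2, i3, true_or, or_true]
  -- the two generators
  have e1 : q * (z * z') * q⁻¹ = z' := by
    calc q * (z * z') * q⁻¹ = (q * z * q⁻¹) * (q * z' * q⁻¹) := by group
      _ = (z * z) * z' := by rw [hqz0, hqz]; group
      _ = z' := by rw [hzz, one_mul]
  have e2 : r * (z * z') * r⁻¹ = z := by
    calc r * (z * z') * r⁻¹ = (r * z * r⁻¹) * (r * z' * r⁻¹) := by group
      _ = z * (z' * z') := by rw [hrz0, hrz]; group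
      _ = z := by rw [hz'z', mul_one]
  intro u hu v hv hu1 hv1 huv
  have key : ∀ x y t : G, (x * y) * t * (x * y)⁻¹ = x * (y * t * y⁻¹) * x⁻¹ := by
    intro x y t; group
  rcases hfour u hu with rfl | rfl | rfl | rfl <;> rcases hfour v hv with rfl | rfl | rfl | rfl
  all_goals first
    | exact absurd rfl hu1
    | exact absurd rfl hv1
    | exact absurd rfl huv
    | skip
  · exact ⟨1, one_mem _, by group, by group⟩
  · exact ⟨q, hqX, hqz0, hqz⟩
  · refine ⟨r * q * r, mul_mem (mul_mem hrX hqX) hrX, ?_, ?_⟩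
    · rw [key, key, hrz, e1, hrz0]
    · rw [key, key, hrz0, hqz, e2]
  · refine ⟨q * r, mul_mem hqX hrX, ?_, ?_⟩
    · rw [key, hrz, e1]
    · rw [key, hrz0, hqz]
  · refine ⟨r * q, mul_mem hrX hqX, ?_, ?_⟩
    · rw [key, hqz0, hrz]
    · rw [key, hqz, e2]
  · exact ⟨r, hrX, hrz, hrz0⟩

end Cfsg.Agent.S1774
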