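import Cfsg.Statements.S1780
import Mathlib.Algebra.CharP.Lemmas

set_option autoImplicit false
open Cfsg

namespace Cfsg.Agent.S1780

theorem ringstep {R : Type*} [Ring R] (φ : R) (k : ℕ) (h : φ ^ (2 ^ k) = 1) :
    ∃ r : R, (φ + (-1)) ^ (2 ^ k) = 2 * r := by
  obtain ⟨r, hr⟩ := Commute.exists_add_pow_prime_pow_eq Nat.prime_two (Commute.neg_one_right φ) k
  rw [h] at hr
  rcases k with _ | k
  · refine ⟨φ * -1 * r, ?_⟩
    rw [hr, pow_zero, pow_one, add_neg_cancel, zero_add]
    push_cast
    simp only [mul_assoc]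
  · have : (-1 : R) ^ (2 ^ (k + 1)) = 1 := by
      rw [pow_succ', pow_mul, neg_one_sq, one_pow]
    rw [this] at hr
    refine ⟨1 + φ * -1 * r, ?_⟩
    rw [hr]
    push_cast
    rw [mul_add, mul_one, one_add_one_eq_two]
    simp only [mul_assoc]

theorem emul {B : Type*} [AddCommGroup B] (f g : AddMonoid.End B) (x : B) : (f * g) x = f (g x) := rfl

/-- the basic step: `[t,a]` fixed by `t` implies `[t,a] = 1`. -/
theorem step {A : Type*} [CommGroup A] [Finite A]
    (hA : IsPGroup 2 A) (t : MulAut A) (hC : ∀ a : A, t (t a) = a → t a = a) (a : A)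
    (hb : t (t a * a⁻¹) = t a * a⁻¹) : t a = a := by
  set b := t a * a⁻¹ with hbdef
  have hta : t a = a * b := by rw [hbdef]; simp [mul_comm]
  obtain ⟨m, hm⟩ := (IsPGroup.iff_orderOf.mp hA) b
  rcases m with _ | m
  · rw [pow_zero, orderOf_eq_one_iff] at hm
    rw [hta, hm, mul_one]
  · exfalso
    have h1 : ∀ n : ℕ, t (a ^ n) = a ^ n * b ^ n := by
      intro n; rw [map_pow, hta, mul_pow]
    have h2 : t (t (a ^ (2 ^ m))) = a ^ (2 ^ m) := by
      rw [h1, map_mul, map_pow, map_pow, hb, hta, mul_pow, mul_assoc, ← pow_add, ← two_mul, ← pow_succ',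
        ← hm, pow_orderOf_eq_one, mul_one]
    have h3 := hC _ h2
    rw [h1] at h3
    have h4 : b ^ (2 ^ m) = 1 := by simpa using h3
    have h5 := orderOf_dvd_of_pow_eq_one h4
    rw [hm] at h5
    have := Nat.le_of_dvd (by positivity) h5
    have h6 : 2 ^ m < 2 ^ (m + 1) := Nat.pow_lt_pow_right (by norm_num) (by omega)
    omega

/-- Let A be a finite abelian 2-group and t an automorphism of A whose order is a power of 2. If every element of A fixed by t² is fixed by t, then t fixes every element of A. -/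
theorem result {A : Type*} [CommGroup A] [Finite A]
    (hA : IsPGroup 2 A) (t : MulAut A) (ht : ∃ k : ℕ, orderOf t = 2 ^ k) (hC : ∀ a : A, t (t a) = a → t a = a) :
    ∀ a : A, t a = a := by
  classical
  let φ : AddMonoid.End (Additive A) := MonoidHom.toAdditive t.toMonoidHom
  have hφ : ∀ a : A, φ (Additive.ofMul a) = Additive.ofMul (t a) := fun a => rfl
  have hφpow : ∀ (n : ℕ) (a : A), (φ ^ n) (Additive.ofMul a) = Additive.ofMul ((t ^ n) a) := by
    intro n
    induction n with
    | zero => intro a; simp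
    | succ n ih =>
      intro a
      rw [pow_succ, pow_succ, emul, hφ, ih, MulAut.mul_apply]
  obtain ⟨k, hk⟩ := ht
  have hφk : φ ^ (2 ^ k) = 1 := by
    ext a
    change (φ ^ (2 ^ k)) (Additive.ofMul a.toMul) = a
    rw [hφpow, ← hk, pow_orderOf_eq_one]
    rfl
  have hex : ∃ r : AddMonoid.End (Additive A), (φ + (-1)) ^ (2 ^ k) = 2 * r :=
    ringstep φ k hφk
  obtain ⟨r, hr⟩ := hex
  obtain ⟨N, hN⟩ : ∃ N : ℕ, ∀ a : A, a ^ (2 ^ N) = 1 := by
    obtain ⟨n, hn⟩ := (IsPGroup.iff_card.mp hA)
    refine ⟨n, fun a => ?_⟩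
    rw [← hn]
    exact pow_card_eq_one'
  have hnil : (φ + (-1)) ^ (2 ^ k * N) = 0 := by
    rw [pow_mul, hr]
    have hc : Commute (2 : AddMonoid.End (Additive A)) r := by
      have := Nat.commute_cast r 2
      exact_mod_cast this.symm
    rw [hc.mul_pow]
    ext a
    have h2 : ∀ x : Additive A, ((2 : AddMonoid.End (Additive A)) ^ N) x = (2 ^ N) • x := by
      intro x
      have : ((2 : AddMonoid.End (Additive A)) ^ N) = ((2 ^ N : ℕ) : AddMonoid.End (Additive A)) := by
        push_cast; rfl
      rw [this, AddMonoid.End.natCast_apply]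
    rw [emul, h2]
    have := hN ((r ^ N) a).toMul
    exact this
  have hind : ∀ (m : ℕ) (a : Additive A), ((φ + (-1)) ^ (m + 1)) a = 0 → (φ + (-1)) a = 0 := by
    intro m
    induction m with
    | zero => intro a h; simpa using h
    | succ m ih =>
      intro a h
      apply ih
      rw [pow_succ', emul]
      rw [pow_succ', pow_succ', emul, emul] at h
      set c := ((φ + (-1)) ^ m) a with hc
      have h7 : ∀ x : Additive A, (φ + (-1)) x = φ x - x := by
        intro x
        rw [sub_eq_add_neg]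
        rfl
      rw [h7, h7] at h
      rw [h7]
      have h8 : t (t c.toMul * c.toMul⁻¹) = t c.toMul * c.toMul⁻¹ := by
        have h9 := sub_eq_zero.mp h
        have h10 := congrArg Additive.toMul h9
        have h11 : t c.toMul / c.toMul = t c.toMul * c.toMul⁻¹ := div_eq_mul_inv _ _
        rw [← h11]
        exact h10
      have h12 := step hA t hC c.toMul h8
      rw [sub_eq_zero]
      exact h12
  intro a
  have h0 := hind (2 ^ k * N) (Additive.ofMul a) (by
    rw [pow_succ, emul, hnil]; rfl)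
  have h7 : (φ + (-1)) (Additive.ofMul a) = φ (Additive.ofMul a) - Additive.ofMul a := by
    rw [sub_eq_add_neg]
    rfl
  rw [h7, sub_eq_zero] at h0
  exact h0

end Cfsg.Agent.S1780
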