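import Cfsg.Statements.S1781
import Cfsg.Agent.H13.Basic
import Cfsg.Agent.S1780
import Cfsg.Agent.S1757

set_option autoImplicit false
open Cfsg

namespace Cfsg.Agent.S1781

/-- Let A be an abelian 2-subgroup of the finite group G such that every conjugate of A equals A or meets A trivially, and let g ∈ G with g A g⁻¹ ≠ A. Then either the subgroup of those elements of A that normalize g A g⁻¹ is an elementary abelian 2-group, or A and g A g⁻¹ commute elementwise. -/
theorem result {G : Type*} [Group G] [Finite G] (A : Subgroup G)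
    (hA2 : IsPGroup 2 ↥A) (hAa : IsMulCommutative ↥A)
    (hti : ∀ h : G, A.map (MulAut.conj h).toMonoidHom = A ∨ A.map (MulAut.conj h).toMonoidHom ⊓ A = ⊥)
    (g : G) (hg : A.map (MulAut.conj g).toMonoidHom ≠ A) :
    Cfsg.IsElementaryAbelian 2 (A ⊓ Subgroup.normalizer ((A.map (MulAut.conj g).toMonoidHom : Subgroup G) : Set G)) ∨
      ⁅A, A.map (MulAut.conj g).toMonoidHom⁆ = ⊥ := by
  classical
  set T : Subgroup G := A.map (MulAut.conj g).toMonoidHom with hT
  by_cases hel : ∀ t ∈ A ⊓ Subgroup.normalizer (T : Set G), t ^ 2 = 1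
  · left
    refine ⟨?_, hel⟩
    refine ⟨⟨?_⟩⟩
    rintro ⟨x, hx⟩ ⟨y, hy⟩
    have h1 := hAa.is_comm.comm (⟨x, hx.1⟩ : A) ⟨y, hy.1⟩
    have h2 : x * y = y * x := congrArg Subtype.val h1
    exact Subtype.ext h2
  · right
    push Not at hel
    obtain ⟨t, ht, ht2⟩ := hel
    have hTA : T ⊓ A = ⊥ := (hti g).resolve_left hg
    have hT2 : IsPGroup 2 T := hA2.map _
    have hTa : IsMulCommutative T := by
      refine ⟨⟨?_⟩⟩
      rintro ⟨_, a, ha, rfl⟩ ⟨_, b, hb, rfl⟩
      have := hAa.is_comm.comm (⟨a, ha⟩ : A) ⟨b, hb⟩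
      have h5 : a * b = b * a := congrArg Subtype.val this
      apply Subtype.ext
      change (MulAut.conj g).toMonoidHom a * (MulAut.conj g).toMonoidHom b =
        (MulAut.conj g).toMonoidHom b * (MulAut.conj g).toMonoidHom a
      rw [← map_mul, h5, map_mul]
    -- TI consequence
    have hTI : ∀ u s : G, s ∈ A → s ≠ 1 → u * s * u⁻¹ = s → u ∈ Subgroup.normalizer (A : Set G) := by
      intro u s hs hs1 hus
      rw [H13.mem_norm_iff_map]
      rcases hti u with h | h
      · exact h
      · exfalso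
        have : s ∈ A.map (MulAut.conj u).toMonoidHom ⊓ A := by
          refine ⟨?_, hs⟩
          rw [← hus]
          exact H13.conj_mem_map_conj hs
        rw [h] at this
        exact hs1 (Subgroup.mem_bot.mp this)
    have htN : ∀ x : T, t * (x : G) * t⁻¹ ∈ T := fun x =>
      (Subgroup.mem_normalizer_iff.mp ht.2 x).mp x.2
    -- the automorphism of T induced by t
    let _ : CommGroup T := { (inferInstance : Group T) with mul_comm := hTa.is_comm.comm }
    let τ : MulAut T :=
      { toFun := fun x => ⟨t * (x : G) * t⁻¹, htN x⟩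
        invFun := fun x => ⟨t⁻¹ * (x : G) * t, by
          have := (Subgroup.mem_normalizer_iff''.mp ht.2 x).mp x.2
          exact this⟩
        left_inv := fun x => Subtype.ext (by simp [mul_assoc])
        right_inv := fun x => Subtype.ext (by simp [mul_assoc])
        map_mul' := fun x y => Subtype.ext (by simp [mul_assoc]) }
    have hτ : ∀ x : T, ((τ x : T) : G) = t * (x : G) * t⁻¹ := fun x => rfl
    have hτn : ∀ (n : ℕ) (x : T), (((τ ^ n) x : T) : G) = t ^ n * (x : G) * (t ^ n)⁻¹ := by
      intro n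
      induction n with
      | zero => intro x; simp
      | succ n ih =>
        intro x
        rw [pow_succ', MulAut.mul_apply, hτ, ih, pow_succ']
        simp [mul_assoc]
    obtain ⟨k, hk⟩ : ∃ k : ℕ, orderOf t = 2 ^ k := by
      obtain ⟨k, hk⟩ := (IsPGroup.iff_orderOf.mp hA2) ⟨t, ht.1⟩
      exact ⟨k, by rw [← hk, ← Subgroup.orderOf_coe]⟩
    have hord : ∃ k : ℕ, orderOf τ = 2 ^ k := by
      have h1 : τ ^ (2 ^ k) = 1 := by
        ext x
        rw [hτn, ← hk, pow_orderOf_eq_one]
        simp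
      obtain ⟨j, _, hj⟩ := (Nat.dvd_prime_pow Nat.prime_two).mp (orderOf_dvd_of_pow_eq_one h1)
      exact ⟨j, hj⟩
    have hfix := S1780.result hT2 τ hord (by
      intro c hc
      have h1 : (c : G) * t ^ 2 * (c : G)⁻¹ = t ^ 2 := by
        have h2 : ((τ (τ c) : T) : G) = c := by rw [hc]
        rw [hτ, hτ] at h2
        have h3 : t ^ 2 * (c : G) * (t ^ 2)⁻¹ = c := by
          have h6 : t ^ 2 * (c : G) * (t ^ 2)⁻¹ = t * (t * (c : G) * t⁻¹) * t⁻¹ := by
            simp only [pow_two, mul_inv_rev, mul_assoc]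
          rw [h6, h2]
        rw [mul_inv_eq_iff_eq_mul] at h3
        rw [mul_inv_eq_iff_eq_mul, h3]
      have h4 := hTI c (t ^ 2) (A.pow_mem ht.1 2) ht2 h1
      have h5 := H13.commute_of_norm (A := A) (B := T) (by rw [inf_comm]; exact hTA) ht.1 c.2 ht.2 h4
      apply Subtype.ext
      rw [hτ, h5]; simp)
    have htT : ∀ u ∈ T, u * t * u⁻¹ = t := by
      intro u hu
      have h1 := congrArg Subtype.val (hfix ⟨u, hu⟩)
      have h2 : t * u * t⁻¹ = u := h1
      rw [mul_inv_eq_iff_eq_mul] at h2 ⊢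
      exact h2.symm
    have ht1 : t ≠ 1 := by
      rintro rfl; simp at ht2
    have hTN : T ≤ Subgroup.normalizer (A : Set G) := fun u hu => hTI u t ht.1 ht1 (htT u hu)
    have hTti : ∀ h : G, T.map (MulAut.conj h).toMonoidHom = T ∨ T.map (MulAut.conj h).toMonoidHom ⊓ T = ⊥ := by
      intro h
      have h1 : T.map (MulAut.conj h).toMonoidHom = (A.map (MulAut.conj (g⁻¹ * h * g)).toMonoidHom).map (MulAut.conj g).toMonoidHom := by
        rw [hT, ← H13.map_conj_mul, ← H13.map_conj_mul]
        congr 3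
        group
      rcases hti (g⁻¹ * h * g) with h2 | h2
      · left; rw [h1, h2]
      · right
        rw [h1, hT, ← Subgroup.map_inf _ _ _ (MulAut.conj g).injective, h2, Subgroup.map_bot]
    exact S1757.result 2 A T hA2 hT2 hti hTti (H13.card_map_conj g A).ge (by rw [inf_comm]; exact hTA) hTN

end Cfsg.Agent.S1781
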