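import Cfsg.Statements.S1782
import Cfsg.Agent.H13.Basic
import Cfsg.Agent.H18.FrattiniP
import Cfsg.Agent.H2.Frat
import Cfsg.Agent.S1757

set_option autoImplicit false
open Cfsg

namespace Cfsg.Agent.S1782

/-- in a 2-group with nontrivial Frattini subgroup there is an element of order four. -/
theorem exists_order_four {P : Type*} [Group P] [Finite P] (hP : IsPGroup 2 P) (h : frattini P ≠ ⊥) :
    ∃ r : P, r ^ 4 = 1 ∧ r ^ 2 ≠ 1 := by
  have : Fact (Nat.Prime 2) := ⟨Nat.prime_two⟩
  obtain ⟨r, hr⟩ : ∃ r : P, r ^ 2 ≠ 1 := by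
    by_contra hcon
    push Not at hcon
    apply h
    rw [eq_bot_iff]
    apply H18.frattini_le_of_elementary (p := 2)
    · rw [commutator_eq_closure, Subgroup.closure_le]
      rintro _ ⟨x, y, rfl⟩
      have hxy : x * y = y * x := by
        have h1 := hcon (x * y)
        have h2 := hcon x
        have h3 := hcon y
        rw [pow_two] at h1 h2 h3
        have hx : x⁻¹ = x := inv_eq_of_mul_eq_one_left h2
        have hy : y⁻¹ = y := inv_eq_of_mul_eq_one_left h3
        have hxy' : (x * y)⁻¹ = x * y := inv_eq_of_mul_eq_one_left h1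
        rw [← hxy', mul_inv_rev, hx, hy]
      rw [SetLike.mem_coe, Subgroup.mem_bot, commutatorElement_eq_one_iff_mul_comm]
      exact hxy
    · intro x
      rw [Subgroup.mem_bot]; exact hcon x
  obtain ⟨k, hk⟩ := (IsPGroup.iff_orderOf.mp hP) r
  have hk2 : 2 ≤ k := by
    by_contra hcon
    push Not at hcon
    apply hr
    apply orderOf_dvd_iff_pow_eq_one.mp
    rw [hk]
    interval_cases k <;> norm_num
  obtain ⟨j, rfl⟩ : ∃ j, k = j + 2 := ⟨k - 2, by omega⟩
  refine ⟨r ^ (2 ^ j), ?_, ?_⟩
  · rw [← pow_mul, show 2 ^ j * 4 = 2 ^ (j + 2) by ring, ← hk, pow_orderOf_eq_one]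
  · intro h1
    rw [← pow_mul] at h1
    have h2 := orderOf_dvd_of_pow_eq_one h1
    rw [hk, ← pow_succ] at h2
    have h3 := Nat.le_of_dvd (by positivity) h2
    have h4 : 2 ^ (j + 1) < 2 ^ (j + 2) := Nat.pow_lt_pow_right (by norm_num) (by omega)
    omega


/-- Let S be a finite 2-group and Δ a set of subgroups of S closed under conjugation by S, all of the same order, each with nontrivial Frattini subgroup, and such that two distinct members of Δ meet trivially. Then any two distinct members of Δ commute elementwise. -/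
theorem result {S : Type*} [Group S] [Finite S] (hS : IsPGroup 2 S)
    (Δ : Set (Subgroup S)) (hinv : ∀ s : S, ∀ R ∈ Δ, R.map (MulAut.conj s).toMonoidHom ∈ Δ)
    (hΦ : ∀ R ∈ Δ, frattini ↥R ≠ ⊥) (hord : ∀ R ∈ Δ, ∀ T ∈ Δ, Nat.card ↥R = Nat.card ↥T)
    (hti : ∀ R ∈ Δ, ∀ T ∈ Δ, R = T ∨ R ⊓ T = ⊥) :
    ∀ R ∈ Δ, ∀ T ∈ Δ, R ≠ T → ⁅R, T⁆ = ⊥ := by
  classical
  have : Fact (Nat.Prime 2) := ⟨Nat.prime_two⟩
  -- `c d = d c` version of commuting
  have hcomm_iff : ∀ A B : Subgroup S, ⁅A, B⁆ = ⊥ ↔ ∀ a ∈ A, ∀ b ∈ B, a * b = b * a := by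
    intro A B
    rw [Subgroup.commutator_eq_bot_iff_le_centralizer]
    constructor
    · intro h a ha b hb
      exact (Subgroup.mem_centralizer_iff.mp (h ha) b hb).symm
    · intro h a ha
      rw [Subgroup.mem_centralizer_iff]
      intro b hb
      exact (h a ha b hb).symm
  have hTI : ∀ R ∈ Δ, ∀ g : S, R.map (MulAut.conj g).toMonoidHom = R ∨ R.map (MulAut.conj g).toMonoidHom ⊓ R = ⊥ :=
    fun R hR g => hti _ (hinv g R hR) R hR
  -- induction on a subgroup containing both
  have main : ∀ (n : ℕ) (H : Subgroup S), Nat.card H ≤ n → ∀ R ∈ Δ, ∀ T ∈ Δ, R ≤ H → T ≤ H → R ≠ T → ⁅R, T⁆ = ⊥ := by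
    intro n
    induction n with
    | zero =>
      intro H hn
      have : 0 < Nat.card H := Nat.card_pos
      omega
    | succ n ih =>
      intro H hn R hR T hT hRH hTH hRT
      have hne : ∀ U ∈ Δ, U ≠ ⊥ := by
        rintro U hU rfl
        apply hΦ _ hU
        exact Subsingleton.elim _ _
      -- conjugates under `H` of a proper member commute
      have hconj : ∀ U ∈ Δ, U ≤ H → U ≠ H → ∀ h ∈ H, h ∉ Subgroup.normalizer (U : Set S) →
          ∀ a ∈ U, ∀ b ∈ U.map (MulAut.conj h).toMonoidHom, a * b = b * a := by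
        intro U hU hUH hUne h hh hhN
        have hltU : U.subgroupOf H ≠ ⊤ := by
          rw [Ne, Subgroup.subgroupOf_eq_top]
          intro hle
          exact hUne (le_antisymm hUH hle)
        obtain ⟨M, hM1, hM2, hM3⟩ := H2.exists_le_index_eq (hS.to_subgroup H) hltU
        have hMne : M ≠ ⊤ := by
          intro htop
          rw [htop, Subgroup.index_top] at hM2
          omega
        have hcardM : Nat.card (M.map H.subtype) ≤ n := by
          have h1 : M.map H.subtype < H := by
            refine lt_of_le_of_ne (Subgroup.map_subtype_le _) ?_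
            intro h1
            apply hMne
            rw [eq_top_iff]
            rintro ⟨x, hx⟩ -
            have hx' := hx
            rw [← h1] at hx'
            obtain ⟨y, hy, hyx⟩ := hx'
            have : y = ⟨x, hx⟩ := Subtype.ext hyx
            rw [← this]; exact hy
          have := H13.card_lt_of_lt h1
          omega
        have hUM : U ≤ M.map H.subtype := by
          intro u hu
          exact ⟨⟨u, hUH hu⟩, hM1 hu, rfl⟩
        have hUM' : U.map (MulAut.conj h).toMonoidHom ≤ M.map H.subtype := by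
          rintro _ ⟨u, hu, rfl⟩
          exact ⟨⟨h, hh⟩ * ⟨u, hUH hu⟩ * ⟨h, hh⟩⁻¹, hM3.conj_mem _ (hM1 hu) _, rfl⟩
        have hne' : U ≠ U.map (MulAut.conj h).toMonoidHom := by
          intro h1
          exact hhN (H13.mem_norm_iff_map.mpr h1.symm)
        exact (hcomm_iff _ _).mp (ih _ hcardM U hU _ (hinv h U hU) hUM hUM' hne')
      have hRH' : R ≠ H := by
        rintro rfl
        rcases hti T hT R hR with h1 | h1
        · exact hRT h1.symm
        · rw [inf_eq_left.mpr hTH] at h1
          exact hne T hT h1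
      have hTH' : T ≠ H := by
        rintro rfl
        rcases hti R hR T hT with h1 | h1
        · exact hRT h1
        · rw [inf_eq_left.mpr hRH] at h1
          exact hne R hR h1
      have hRT1 : R ⊓ T = ⊥ := (hti R hR T hT).resolve_left hRT
      -- if one normalizes the other we are done
      by_cases hn1 : T ≤ Subgroup.normalizer (R : Set S)
      · exact S1757.result 2 R T (hS.to_subgroup R) (hS.to_subgroup T) (hTI R hR) (hTI T hT)
          (hord R hR T hT).le hRT1 hn1
      by_cases hn2 : R ≤ Subgroup.normalizer (T : Set S)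
      · rw [Subgroup.commutator_comm]
        exact S1757.result 2 T R (hS.to_subgroup T) (hS.to_subgroup R) (hTI T hT) (hTI R hR)
          (hord T hT R hR).le (by rw [inf_comm]; exact hRT1) hn2
      exfalso
      -- (F3) in a symmetric form
      have F3 : ∀ R ∈ Δ, ∀ T ∈ Δ, R ≤ H → T ≤ H → R ≠ H → T ≠ H → ∀ x ∈ T, x ∉ Subgroup.normalizer (R : Set S) →
          x ^ 2 ∈ Subgroup.normalizer (R : Set S) → ∀ y ∈ R, y ∉ Subgroup.normalizer (T : Set S) → y ^ 2 = 1 := by
        intro R hR T hT hRH hTH hRH' hTH' x hx hxN hx2 y hy hyN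
        set y' := x * y * x⁻¹ with hy'
        have hy'mem : y' ∈ R.map (MulAut.conj x).toMonoidHom := H13.conj_mem_map_conj hy
        have hc1 := hconj R hR hRH hRH' x (hTH hx) hxN
        have hyy' : y * y' = y' * y := hc1 y hy y' hy'mem
        have hyN' : y⁻¹ ∉ Subgroup.normalizer (T : Set S) := fun h => hyN (by simpa using inv_mem h)
        have hc2 := hconj T hT hTH hTH' y⁻¹ (hRH (R.inv_mem hy)) hyN'
        have hw : y⁻¹ * x * y⁻¹⁻¹ ∈ T.map (MulAut.conj y⁻¹).toMonoidHom := H13.conj_mem_map_conj hx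
        have hxw := hc2 x hx _ hw
        rw [inv_inv] at hxw
        -- `x c x⁻¹ = c` where `c = y⁻¹ y' = (y⁻¹ x y) x⁻¹`
        have h1 : x * (y⁻¹ * y') * x⁻¹ = y⁻¹ * y' := by
          have e1 : y⁻¹ * y' = (y⁻¹ * x * y) * x⁻¹ := by rw [hy']; group
          rw [e1]
          calc x * (y⁻¹ * x * y * x⁻¹) * x⁻¹ = (x * (y⁻¹ * x * y)) * x⁻¹ * x⁻¹ := by group
            _ = (y⁻¹ * x * y * x) * x⁻¹ * x⁻¹ := by rw [hxw]
            _ = y⁻¹ * x * y * x⁻¹ := by group
        -- `x y' x⁻¹ = y⁻¹ y' y'`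
        have h2 : x * y' * x⁻¹ = y⁻¹ * (y' * y') := by
          have e1 : x * (y⁻¹ * y') * x⁻¹ = y'⁻¹ * (x * y' * x⁻¹) := by rw [hy']; group
          rw [e1] at h1
          have e2 : x * y' * x⁻¹ = y' * (y⁻¹ * y') := by rw [← h1]; group
          rw [e2, ← mul_assoc]
          have e3 : y' * y⁻¹ = y⁻¹ * y' := by
            have : Commute y y' := hyy'
            exact (this.inv_left).eq.symm
          rw [e3, mul_assoc]
        -- it lies in `R`
        have h3 : x * y' * x⁻¹ ∈ R := by
          have e1 : x * y' * x⁻¹ = x ^ 2 * y * (x ^ 2)⁻¹ := by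
            rw [hy', pow_two]; group
          rw [e1]
          exact (Subgroup.mem_normalizer_iff.mp hx2 y).mp hy
        have h4 : y' * y' ∈ R := by
          have : y' * y' = y * (x * y' * x⁻¹) := by rw [h2, mul_inv_cancel_left]
          rw [this]; exact R.mul_mem hy h3
        have h5 : y' * y' ∈ R.map (MulAut.conj x).toMonoidHom := Subgroup.mul_mem _ hy'mem hy'mem
        have h6 : R.map (MulAut.conj x).toMonoidHom ⊓ R = ⊥ :=
          (hTI R hR x).resolve_left (fun h => hxN (H13.mem_norm_iff_map.mpr h))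
        have h7 : y' * y' = 1 := by
          have : y' * y' ∈ R.map (MulAut.conj x).toMonoidHom ⊓ R := ⟨h5, h4⟩
          rw [h6] at this
          exact Subgroup.mem_bot.mp this
        have h8 : y' * y' = x * (y ^ 2) * x⁻¹ := by rw [hy', pow_two]; group
        rw [h8] at h7
        have h9 : y ^ 2 = x⁻¹ * (x * (y ^ 2) * x⁻¹) * x := by group
        rw [h9, h7]; group
      -- (F4)
      have F4 : ∀ R ∈ Δ, ∀ T ∈ Δ, R ≤ H → T ≤ H → R ≠ H → T ≠ H → ¬ T ≤ Subgroup.normalizer (R : Set S) →
          ∀ y ∈ R, y ∉ Subgroup.normalizer (T : Set S) → y ^ 2 = 1 := by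
        intro R hR T hT hRH hTH hRH' hTH' hn y hy hyN
        obtain ⟨x₀, hx₀, hx₀N⟩ := SetLike.not_le_iff_exists.mp hn
        have hex : ∃ k : ℕ, x₀ ^ (2 ^ k) ∈ Subgroup.normalizer (R : Set S) := by
          obtain ⟨k, hk⟩ := (IsPGroup.iff_orderOf.mp hS) x₀
          refine ⟨k, ?_⟩
          rw [← hk, pow_orderOf_eq_one]
          exact Subgroup.one_mem _
        classical
        have hk := Nat.find_spec hex
        have hmin := fun m (hm : m < Nat.find hex) => Nat.find_min hex hm
        set k := Nat.find hex with hkdef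
        have hk0 : k ≠ 0 := by
          intro h0
          rw [h0, pow_zero, pow_one] at hk
          exact hx₀N hk
        obtain ⟨j, hj⟩ : ∃ j, k = j + 1 := ⟨k - 1, by omega⟩
        have hj1 := hmin j (by omega)
        refine F3 R hR T hT hRH hTH hRH' hTH' (x₀ ^ (2 ^ j)) (T.pow_mem hx₀ _) hj1 ?_ y hy hyN
        rw [← pow_mul, ← pow_succ, ← hj]
        exact hk
      obtain ⟨x, hx, hxN⟩ := SetLike.not_le_iff_exists.mp hn1
      obtain ⟨y, hy, hyN⟩ := SetLike.not_le_iff_exists.mp hn2
      have F4R := F4 R hR T hT hRH hTH hRH' hTH' hn1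
      have hy2 : y ^ 2 = 1 := F4R y hy hyN
      obtain ⟨⟨r, hr⟩, hr4, hr2⟩ := exists_order_four (hS.to_subgroup R) (hΦ R hR)
      have hr4' : r ^ 4 = 1 := congrArg Subtype.val hr4
      have hr2' : r ^ 2 ≠ 1 := fun h => hr2 (Subtype.ext h)
      have hrN : r ∈ Subgroup.normalizer (T : Set S) := by
        by_contra h
        exact hr2' (F4R r hr h)
      have hyr : (y * r) ^ 2 = 1 := by
        apply F4R _ (R.mul_mem hy hr)
        intro h
        apply hyN
        have := Subgroup.mul_mem _ h (Subgroup.inv_mem _ hrN)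
        simpa using this
      have hyinv : y⁻¹ = y := by
        rw [pow_two] at hy2
        exact inv_eq_of_mul_eq_one_left hy2
      have hyry : y * r * y⁻¹ = r⁻¹ := by
        rw [pow_two] at hyr
        rw [hyinv]
        have : y * r * y * r = 1 := by rw [← hyr]; group
        exact eq_inv_of_mul_eq_one_left this
      set r' := x * r * x⁻¹ with hr'
      have hr'mem : r' ∈ R.map (MulAut.conj x).toMonoidHom := H13.conj_mem_map_conj hr
      have hc1 := hconj R hR hRH hRH' x (hTH hx) hxN
      have hrr' : r * r' = r' * r := hc1 r hr r' hr'mem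
      have hyr' : y * r' = r' * y := hc1 y hy r' hr'mem
      -- `c = r⁻¹ r' ∈ T`
      have hcT : r⁻¹ * r' ∈ T := by
        have e1 : r⁻¹ * r' = (r⁻¹ * x * r) * x⁻¹ := by rw [hr']; group
        rw [e1]
        apply T.mul_mem _ (T.inv_mem hx)
        exact (Subgroup.mem_normalizer_iff''.mp hrN x).mp hx
      have hcy : y * (r⁻¹ * r') * y⁻¹ = r * r' := by
        calc y * (r⁻¹ * r') * y⁻¹ = (y * r * y⁻¹)⁻¹ * (y * r' * y⁻¹) := by group
          _ = r * (y * r' * y⁻¹) := by rw [hyry, inv_inv]
          _ = r * r' := by rw [hyr']; group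
      have hC : Commute r r' := hrr'
      have hr4inv : (r ^ 2)⁻¹ = r ^ 2 := by
        apply inv_eq_of_mul_eq_one_left
        rw [← pow_add]; exact hr4'
      have hsq : (r⁻¹ * r') ^ 2 = (r * r') ^ 2 := by
        rw [(hC.inv_left).mul_pow, hC.mul_pow, inv_pow, hr4inv]
      have h1 : (r⁻¹ * r') ^ 2 ∈ T.map (MulAut.conj y).toMonoidHom ⊓ T := by
        refine ⟨?_, T.pow_mem hcT 2⟩
        rw [hsq, ← hcy]
        exact Subgroup.pow_mem _ (H13.conj_mem_map_conj hcT) 2
      have h2 : T.map (MulAut.conj y).toMonoidHom ⊓ T = ⊥ :=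
        (hTI T hT y).resolve_left (fun h => hyN (H13.mem_norm_iff_map.mpr h))
      rw [h2, Subgroup.mem_bot, (hC.inv_left).mul_pow, inv_pow, hr4inv] at h1
      have h3 : r ^ 2 ∈ R.map (MulAut.conj x).toMonoidHom ⊓ R := by
        refine ⟨?_, R.pow_mem hr 2⟩
        rw [eq_inv_of_mul_eq_one_left h1]
        exact Subgroup.inv_mem _ (Subgroup.pow_mem _ hr'mem 2)
      have h4 : R.map (MulAut.conj x).toMonoidHom ⊓ R = ⊥ :=
        (hTI R hR x).resolve_left (fun h => hxN (H13.mem_norm_iff_map.mpr h))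
      rw [h4, Subgroup.mem_bot] at h3
      exact hr2' h3
  intro R hR T hT hRT
  exact main _ ⊤ le_rfl R hR T hT le_top le_top hRT

end Cfsg.Agent.S1782
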