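import Cfsg.Statements.S1783
import Cfsg.Agent.H13.Basic
import Cfsg.Agent.H13.ElemAb
import Cfsg.Agent.H18.FrattiniP
import Cfsg.Agent.H18.CharP
import Cfsg.Agent.H10.Comp
import Cfsg.Agent.H2.Frat
import Cfsg.Agent.S1782

set_option autoImplicit false
open Cfsg

namespace Cfsg.Agent.S1783

/-- conjugates of a TI subgroup (with an element whose square is nontrivial) inside a 2-group commute -/
theorem commute_conj {X : Type*} [Group X] [Finite X] (S : Subgroup X) (hS : IsPGroup 2 S)
    (A : Subgroup X)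
    (hti : ∀ h : X, A.map (MulAut.conj h).toMonoidHom = A ∨ A.map (MulAut.conj h).toMonoidHom ⊓ A = ⊥)
    (hsq : ∃ r ∈ A, r ^ 2 ≠ 1) (g h : X) (hg : A.map (MulAut.conj g).toMonoidHom ≤ S)
    (hh : A.map (MulAut.conj h).toMonoidHom ≤ S)
    (hne : A.map (MulAut.conj g).toMonoidHom ≠ A.map (MulAut.conj h).toMonoidHom) :
    ∀ a ∈ A.map (MulAut.conj g).toMonoidHom, ∀ b ∈ A.map (MulAut.conj h).toMonoidHom, a * b = b * a := by
  classical
  have : Fact (Nat.Prime 2) := ⟨Nat.prime_two⟩
  set Δ : Set (Subgroup S) := {R | ∃ g : X, R.map S.subtype = A.map (MulAut.conj g).toMonoidHom} with hΔ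
  have hof : ∀ g : X, A.map (MulAut.conj g).toMonoidHom ≤ S →
      ((A.map (MulAut.conj g).toMonoidHom).subgroupOf S).map S.subtype = A.map (MulAut.conj g).toMonoidHom := by
    intro g hg
    exact Subgroup.map_subgroupOf_eq_of_le hg
  have hres := S1782.result hS Δ ?_ ?_ ?_ ?_ ((A.map (MulAut.conj g).toMonoidHom).subgroupOf S) ⟨g, hof g hg⟩
    ((A.map (MulAut.conj h).toMonoidHom).subgroupOf S) ⟨h, hof h hh⟩ ?_
  · intro a ha b hb
    rw [Subgroup.commutator_eq_bot_iff_le_centralizer] at hres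
    have h1 := hres (show (⟨a, hg ha⟩ : S) ∈ (A.map (MulAut.conj g).toMonoidHom).subgroupOf S from ha)
    have h2 := Subgroup.mem_centralizer_iff.mp h1 ⟨b, hh hb⟩ hb
    exact (congrArg Subtype.val h2).symm
  · rintro s R ⟨x, hx⟩
    refine ⟨s * x, ?_⟩
    rw [H13.map_conj_mul, ← hx]
    ext y
    constructor
    · rintro ⟨_, ⟨r, hr, rfl⟩, rfl⟩
      exact ⟨_, ⟨r, hr, rfl⟩, rfl⟩
    · rintro ⟨_, ⟨r, hr, rfl⟩, rfl⟩
      exact ⟨_, ⟨r, hr, rfl⟩, rfl⟩
  · rintro R ⟨x, hx⟩ hbot
    obtain ⟨r, hr, hr2⟩ := hsq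
    have h1 : x * r * x⁻¹ ∈ R.map S.subtype := by rw [hx]; exact H13.conj_mem_map_conj hr
    obtain ⟨w, hw, hwx⟩ := h1
    have h2 := H2.pow_mem_frattini (p := 2) (hS.to_subgroup R) ⟨w, hw⟩
    rw [hbot, Subgroup.mem_bot] at h2
    have h3 : (w : S) ^ 2 = 1 := congrArg Subtype.val h2
    have h4 : (x * r * x⁻¹) ^ 2 = 1 := by
      rw [← hwx, ← map_pow, h3, map_one]
    rw [conj_pow] at h4
    apply hr2
    have : r ^ 2 = x⁻¹ * (x * r ^ 2 * x⁻¹) * x := by group
    rw [this, h4]; group
  · rintro R ⟨x, hx⟩ T ⟨y, hy⟩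
    have e1 : Nat.card R = Nat.card (R.map S.subtype) :=
      Nat.card_congr (R.equivMapOfInjective _ S.subtype_injective).toEquiv
    have e2 : Nat.card T = Nat.card (T.map S.subtype) :=
      Nat.card_congr (T.equivMapOfInjective _ S.subtype_injective).toEquiv
    rw [e1, e2, hx, hy, H13.card_map_conj, H13.card_map_conj]
  · rintro R ⟨x, hx⟩ T ⟨y, hy⟩
    rcases hti (y⁻¹ * x) with h1 | h1
    · left
      have h2 : A.map (MulAut.conj x).toMonoidHom = A.map (MulAut.conj y).toMonoidHom := by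
        have : x = y * (y⁻¹ * x) := by group
        rw [this, H13.map_conj_mul, h1]
      rw [← hx, ← hy] at h2
      exact Subgroup.map_injective S.subtype_injective h2
    · right
      have h2 : A.map (MulAut.conj x).toMonoidHom ⊓ A.map (MulAut.conj y).toMonoidHom = ⊥ := by
        have : x = y * (y⁻¹ * x) := by group
        rw [this, H13.map_conj_mul, ← Subgroup.map_inf _ _ _ (MulAut.conj y).injective, h1, Subgroup.map_bot]
      rw [← hx, ← hy, ← Subgroup.map_inf _ _ _ S.subtype_injective,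
        Subgroup.map_eq_bot_iff_of_injective _ S.subtype_injective] at h2
      exact h2
  · intro h1
    apply hne
    rw [← hof g hg, ← hof h hh, h1]

/-- the iterated Frattini series -/
def F {X : Type*} [Group X] (Q : Subgroup X) : ℕ → Subgroup X
  | 0 => Q
  | n + 1 => (frattini (F Q n)).map (F Q n).subtype

theorem F_normal {X : Type*} [Group X] (Q : Subgroup X) (hQ : Q.Normal) : ∀ n, (F Q n).Normal := by
  intro n
  induction n with
  | zero => exact hQ
  | succ n ih =>
    rw [← Subgroup.normalizer_eq_top_iff, eq_top_iff]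
    have h1 := H18.le_normalizer_map_of_characteristic (A := ⊤) (H := F Q n)
      (by rw [Subgroup.normalizer_eq_top]) (frattini (F Q n))
    exact h1

theorem F_le {X : Type*} [Group X] (Q : Subgroup X) (n : ℕ) : F Q (n + 1) ≤ F Q n :=
  Subgroup.map_subtype_le _

theorem F_card {X : Type*} [Group X] [Finite X] (Q : Subgroup X) : ∀ n, F Q n = ⊥ ∨ Nat.card (F Q n) + n ≤ Nat.card Q := by
  intro n
  induction n with
  | zero => right; exact le_rfl
  | succ n ih =>
    by_cases hb : F Q (n + 1) = ⊥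
    · exact Or.inl hb
    · right
      have hnb : F Q n ≠ ⊥ := by
        intro h
        apply hb
        exact le_bot_iff.mp (h ▸ F_le Q n)
      have h1 := ih.resolve_left hnb
      have h2 : F Q (n + 1) < F Q n := by
        refine lt_of_le_of_ne (F_le Q n) ?_
        intro h
        have hnt : Nontrivial (F Q n) := (Subgroup.nontrivial_iff_ne_bot _).mpr hnb
        have hfr : frattini (F Q n) = ⊤ := by
          rw [eq_top_iff]
          rintro ⟨x, hx⟩ -
          have hx' := hx
          rw [← h] at hx'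
          obtain ⟨y, hy, hyx⟩ := hx'
          have : y = ⟨x, hx⟩ := Subtype.ext hyx
          rw [← this]; exact hy
        have h3 := H2.eq_top_of_sup_frattini (G := F Q n) (H := ⊥) (by rw [hfr, sup_top_eq])
        exact bot_ne_top h3
      have h3 := H13.card_lt_of_lt h2
      omega

theorem F_eq_bot {X : Type*} [Group X] [Finite X] (Q : Subgroup X) : F Q (Nat.card Q) = ⊥ := by
  rcases F_card Q (Nat.card Q) with h | h
  · exact h
  · have : 0 < Nat.card (F Q (Nat.card Q)) := Nat.card_pos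
    omega


/-- Let X be a finite group whose generalized Fitting subgroup equals its largest normal 2-subgroup Q, and let A be an abelian 2-subgroup of X such that every conjugate of A equals A or meets A trivially. Let B be the subgroup generated by the squares of the elements of A. Then B lies in Q, and if B is not an elementary abelian 2-group then the normal closure of B in X is commutative. -/
theorem result {X : Type*} [Group X] [Finite X]
    (hX : Cfsg.generalizedFittingSubgroup X = Cfsg.pCore 2 X) (A : Subgroup X) (hA2 : IsPGroup 2 ↥A) (hAa : IsMulCommutative ↥A)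
    (hti : ∀ h : X, A.map (MulAut.conj h).toMonoidHom = A ∨ A.map (MulAut.conj h).toMonoidHom ⊓ A = ⊥) :
    Subgroup.closure ((fun a : X => a ^ 2) '' (A : Set X)) ≤ Cfsg.pCore 2 X ∧
      (¬ Cfsg.IsElementaryAbelian 2 (Subgroup.closure ((fun a : X => a ^ 2) '' (A : Set X))) →
        IsMulCommutative ↥(Subgroup.normalClosure ((fun a : X => a ^ 2) '' (A : Set X)))) := by
  classical
  have : Fact (Nat.Prime 2) := ⟨Nat.prime_two⟩
  set Q : Subgroup X := Cfsg.pCore 2 X with hQ
  have hQ2 : IsPGroup 2 Q := H18.isPGroup_pCore 2 X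
  have hQn : Q.Normal := inferInstance
  have hCQ : Subgroup.centralizer (Q : Set X) ≤ Q := by
    rw [← hX]; exact H10.centralizer_genFitting_le
  have hAcomm : ∀ a ∈ A, ∀ b ∈ A, a * b = b * a := by
    intro a ha b hb
    exact congrArg Subtype.val (hAa.is_comm.comm (⟨a, ha⟩ : A) ⟨b, hb⟩)
  set B := Subgroup.closure ((fun a : X => a ^ 2) '' (A : Set X)) with hB
  have hBA : B ≤ A := by
    rw [hB, Subgroup.closure_le]
    rintro _ ⟨a, ha, rfl⟩
    exact A.pow_mem ha 2
  -- Sylow 2-subgroup containing `A`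
  obtain ⟨S, hAS⟩ := hA2.exists_le_sylow
  have hQS : Q ≤ (S : Subgroup X) := H18.pCore_le_sylow S
  -- (1) `a` commutes with `q a q⁻¹`
  have hkey : ∀ a ∈ A, ∀ q ∈ Q, a ^ 2 ≠ 1 → a * (q * a * q⁻¹) = (q * a * q⁻¹) * a := by
    intro a ha q hq ha2
    by_cases hqN : A.map (MulAut.conj q).toMonoidHom = A
    · have h1 : q * a * q⁻¹ ∈ A := by
        have := H13.conj_mem_map_conj (g := q) ha
        rwa [hqN] at this
      exact hAcomm a ha _ h1
    · have h1 := commute_conj (S : Subgroup X) S.isPGroup' A hti ⟨a, ha, ha2⟩ 1 q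
        (by rw [H13.map_conj_one]; exact hAS) (by
          rintro _ ⟨b, hb, rfl⟩
          exact (S : Subgroup X).mul_mem ((S : Subgroup X).mul_mem (hQS hq) (hAS hb)) ((S : Subgroup X).inv_mem (hQS hq)))
        (by rw [H13.map_conj_one]; exact fun h => hqN h.symm)
      exact h1 a (by rw [H13.map_conj_one]; exact ha) _ (H13.conj_mem_map_conj ha)
  -- (2) `a ^ 2 ∈ Q`
  have hsqQ : ∀ a ∈ A, a ^ 2 ∈ Q := by
    intro a ha
    by_cases ha2 : a ^ 2 = 1
    · rw [ha2]; exact Q.one_mem
    set K : Subgroup X := Subgroup.normalClosure {a ^ 2} with hK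
    -- `K` acts trivially on the factors
    have hstep : ∀ n, ∀ k ∈ K, ∀ q ∈ F Q n, q * k * q⁻¹ * k⁻¹ ∈ F Q (n + 1) := by
      intro n
      have hFn : (F Q n).Normal := F_normal Q hQn n
      have hFn1 : (F Q (n + 1)).Normal := F_normal Q hQn (n + 1)
      have hFle : F Q n ≤ Q := by
        clear hFn hFn1
        induction n with
        | zero => exact le_rfl
        | succ n ih => exact (F_le Q n).trans ih
      -- the subgroup of elements acting trivially
      let L : Subgroup X :=
        { carrier := {k | ∀ q ∈ F Q n, q * k * q⁻¹ * k⁻¹ ∈ F Q (n + 1)}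
          one_mem' := by
            intro q hq
            have : q * 1 * q⁻¹ * 1⁻¹ = 1 := by group
            rw [this]; exact Subgroup.one_mem _
          mul_mem' := by
            intro k l hk hl q hq
            have e1 : q * (k * l) * q⁻¹ * (k * l)⁻¹ = (q * k * q⁻¹ * k⁻¹) * (k * (q * l * q⁻¹ * l⁻¹) * k⁻¹) := by group
            rw [e1]
            exact Subgroup.mul_mem _ (hk q hq) (hFn1.conj_mem _ (hl q hq) k)
          inv_mem' := by
            intro k hk q hq
            have e1 : q * k⁻¹ * q⁻¹ * k⁻¹⁻¹ = (k⁻¹ * (q * k * q⁻¹ * k⁻¹) * k⁻¹⁻¹)⁻¹ := by group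
            rw [e1]
            exact Subgroup.inv_mem _ (hFn1.conj_mem _ (hk q hq) _) }
      have hLn : L.Normal := by
        refine ⟨fun k hk g q hq => ?_⟩
        have h1 := hk (g⁻¹ * q * g⁻¹⁻¹) (hFn.conj_mem q hq _)
        have h2 := hFn1.conj_mem _ h1 g
        have e1 : g * (g⁻¹ * q * g⁻¹⁻¹ * k * (g⁻¹ * q * g⁻¹⁻¹)⁻¹ * k⁻¹) * g⁻¹ =
          q * (g * k * g⁻¹) * q⁻¹ * (g * k * g⁻¹)⁻¹ := by group
        rw [e1] at h2
        exact h2
      have hKL : K ≤ L := by
        apply Subgroup.normalClosure_le_normal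
        rw [Set.singleton_subset_iff]
        intro q hq
        -- `c = a q a⁻¹ q⁻¹`
        have hqQ : q ∈ Q := hFle hq
        have h1 := hkey a ha q hqQ ha2
        set c := a * q * a⁻¹ * q⁻¹ with hc
        have hcF : c ∈ F Q n := (F Q n).mul_mem (hFn.conj_mem q hq a) ((F Q n).inv_mem hq)
        have hcm : a * c = c * a := by
          have e1 : c = a * (q * a * q⁻¹)⁻¹ := by rw [hc]; group
          rw [e1]
          have h2 : Commute a (q * a * q⁻¹) := h1
          exact ((Commute.refl a).mul_right h2.inv_right).eq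
        have h3 : c ^ 2 ∈ F Q (n + 1) := by
          have hFp : IsPGroup 2 (F Q n) := hQ2.to_le hFle
          exact ⟨⟨c, hcF⟩ ^ 2, H2.pow_mem_frattini hFp ⟨c, hcF⟩, rfl⟩
        have e2 : q * a ^ 2 * q⁻¹ * (a ^ 2)⁻¹ = (a ^ 2 * q * (a ^ 2)⁻¹ * q⁻¹)⁻¹ := by group
        have e3 : a ^ 2 * q * (a ^ 2)⁻¹ * q⁻¹ = c ^ 2 := by
          have e4 : a * q * a⁻¹ = c * q := by rw [hc]; group
          calc a ^ 2 * q * (a ^ 2)⁻¹ * q⁻¹ = a * (a * q * a⁻¹) * a⁻¹ * q⁻¹ := by rw [pow_two]; group
            _ = (a * c) * q * a⁻¹ * q⁻¹ := by rw [e4]; group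
            _ = c * (a * q * a⁻¹) * q⁻¹ := by rw [hcm]; group
            _ = c ^ 2 := by rw [e4, pow_two]; group
        change q * a ^ 2 * q⁻¹ * (a ^ 2)⁻¹ ∈ F Q (n + 1)
        rw [e2, e3]
        exact Subgroup.inv_mem _ h3
      intro k hk q hq
      exact hKL hk q hq
    have hiter : ∀ n, Cfsg.iterCommutator Q K n ≤ F Q n := by
      intro n
      induction n with
      | zero => exact le_rfl
      | succ n ih =>
        refine (Subgroup.commutator_mono ih le_rfl).trans ?_
        rw [Subgroup.commutator_le]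
        intro q hq k hk
        exact hstep n k hk q hq
    have hKp : IsPGroup 2 K := by
      apply H18.isPGroup_of_coprime_eq_one
      intro x hx hcop
      have h1 := H18.iterCommutator_centralize hQ2 (A := K) (by rw [Subgroup.normalizer_eq_top]; exact le_top)
        (n := Nat.card Q) (le_bot_iff.mp ((hiter _).trans (F_eq_bot Q).le)) hx hcop
      have h2 : x ∈ Q := hCQ h1
      obtain ⟨k, hk⟩ := (IsPGroup.iff_orderOf.mp hQ2) ⟨x, h2⟩
      rw [Subgroup.orderOf_mk] at hk
      rw [hk] at hcop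
      have h3 : 2 ^ k = 1 := by
        rcases k with _ | k
        · rfl
        · exfalso
          rw [pow_succ] at hcop
          have := Nat.Coprime.coprime_mul_left hcop
          norm_num at this
      rw [h3, orderOf_eq_one_iff] at hk
      exact hk
    have hKQ : K ≤ Q := H18.le_pCore inferInstance hKp
    exact hKQ (Subgroup.subset_normalClosure rfl)
  have hBQ : B ≤ Q := by
    rw [hB, Subgroup.closure_le]
    rintro _ ⟨a, ha, rfl⟩
    exact hsqQ a ha
  refine ⟨hBQ, ?_⟩
  intro hBne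
  -- `B` has an element with nontrivial square
  have hBsq : ∃ r ∈ B, r ^ 2 ≠ 1 := by
    by_contra hcon
    push Not at hcon
    apply hBne
    rw [H13.elab_iff]
    exact ⟨fun a ha b hb => hAcomm a (hBA ha) b (hBA hb), hcon⟩
  -- conjugation of `B`
  have hBconj : ∀ g : X, A.map (MulAut.conj g).toMonoidHom = A → B.map (MulAut.conj g).toMonoidHom = B := by
    intro g hg
    rw [← H13.mem_norm_iff_map]
    apply H13.mem_norm_of_le
    rw [hB, MonoidHom.map_closure, Subgroup.closure_le]
    rintro _ ⟨_, ⟨a, ha, rfl⟩, rfl⟩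
    apply Subgroup.subset_closure
    refine ⟨g * a * g⁻¹, ?_, ?_⟩
    · have := H13.conj_mem_map_conj (g := g) ha
      rwa [hg] at this
    · change (g * a * g⁻¹) ^ 2 = g * a ^ 2 * g⁻¹
      rw [conj_pow]
  have hBti : ∀ h : X, B.map (MulAut.conj h).toMonoidHom = B ∨ B.map (MulAut.conj h).toMonoidHom ⊓ B = ⊥ := by
    intro h
    rcases hti h with h1 | h1
    · exact Or.inl (hBconj h h1)
    · right
      rw [eq_bot_iff, ← h1]
      exact inf_le_inf (Subgroup.map_mono hBA) hBA
  have hBgQ : ∀ g : X, B.map (MulAut.conj g).toMonoidHom ≤ Q := by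
    rintro g _ ⟨b, hb, rfl⟩
    exact hQn.conj_mem b (hBQ hb) g
  have hcommBB : ∀ g h : X, ∀ a ∈ B.map (MulAut.conj g).toMonoidHom, ∀ b ∈ B.map (MulAut.conj h).toMonoidHom,
      a * b = b * a := by
    intro g h
    by_cases hgh : B.map (MulAut.conj g).toMonoidHom = B.map (MulAut.conj h).toMonoidHom
    · rw [← hgh]
      rintro _ ⟨a, ha, rfl⟩ _ ⟨b, hb, rfl⟩
      rw [← map_mul, hAcomm a (hBA ha) b (hBA hb), map_mul]
    · exact commute_conj Q hQ2 B hBti hBsq g h (hBgQ g) (hBgQ h) hgh
  refine ⟨⟨?_⟩⟩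
  set NC : Subgroup X := Subgroup.normalClosure ((fun a : X => a ^ 2) '' (A : Set X)) with hNC
  have hle : NC ≤ Subgroup.centralizer (NC : Set X) := by
    have h1 : ∀ g : X, ∀ b ∈ B, g * b * g⁻¹ ∈ Subgroup.centralizer (NC : Set X) := by
      intro g b hb
      have h2 : NC ≤ Subgroup.centralizer ({g * b * g⁻¹} : Set X) := by
        rw [hNC, Subgroup.normalClosure, Subgroup.closure_le]
        intro x hx
        rw [Group.mem_conjugatesOfSet_iff] at hx
        obtain ⟨_, ⟨a, ha, rfl⟩, hax⟩ := hx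
        rw [isConj_iff] at hax
        obtain ⟨k, rfl⟩ := hax
        rw [SetLike.mem_coe, Subgroup.mem_centralizer_singleton_iff]
        exact hcommBB k g _ (H13.conj_mem_map_conj (Subgroup.subset_closure ⟨a, ha, rfl⟩)) _
          (H13.conj_mem_map_conj hb)
      rw [Subgroup.mem_centralizer_iff]
      intro x hx
      exact Subgroup.mem_centralizer_singleton_iff.mp (h2 hx)
    rw [hNC, Subgroup.normalClosure, Subgroup.closure_le]
    intro x hx
    rw [Group.mem_conjugatesOfSet_iff] at hx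
    obtain ⟨_, ⟨a, ha, rfl⟩, hax⟩ := hx
    rw [isConj_iff] at hax
    obtain ⟨k, rfl⟩ := hax
    exact h1 k (a ^ 2) (Subgroup.subset_closure ⟨a, ha, rfl⟩)
  rintro ⟨x, hx⟩ ⟨y, hy⟩
  apply Subtype.ext
  exact Subgroup.mem_centralizer_iff.mp (hle hy) x hx

end Cfsg.Agent.S1783
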