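import Cfsg.Statements.S1784
import Cfsg.Agent.H13.Extra
import Cfsg.Agent.H10.Comp
import Cfsg.Agent.H23.Coprime3

set_option autoImplicit false
open Cfsg

namespace Cfsg.Agent.S1784

/-- abstract form: `a` an involutory automorphism (nontrivial) of an extraspecial 2-group -/
theorem aux {P : Type*} [Group P] [Finite P] (hE : Cfsg.IsExtraspecial 2 P) (a : P ≃* P)
    (ha : ∀ x, a (a x) = x) (hne : ∃ x, a x ≠ x) (P₀ : Subgroup P)
    (hP₀ : ∀ q, q ∈ P₀ ↔ a q * q⁻¹ ∈ Subgroup.center P) :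
    Subgroup.closure (Set.range (fun q : P => a q * q⁻¹)) = P₀ ⊓ Subgroup.centralizer (P₀ : Set P) := by
  classical
  have : Fact (Nat.Prime 2) := ⟨Nat.prime_two⟩
  obtain ⟨⟨hQ2, hfr, hcm⟩, hZ2⟩ := hE
  have hcomm : ∀ x y : P, x * y * x⁻¹ * y⁻¹ ∈ Subgroup.center P := by
    intro x y
    rw [← hcm]
    exact Subgroup.commutator_mem_commutator (Subgroup.mem_top x) (Subgroup.mem_top y)
  have hsq : ∀ x : P, x ^ 2 ∈ Subgroup.center P := by
    intro x; rw [← hfr]; exact H2.pow_mem_frattini hQ2 x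
  set W := Subgroup.closure (Set.range (fun q : P => a q * q⁻¹)) with hW
  have hmemW : ∀ q, a q * q⁻¹ ∈ W := fun q => Subgroup.subset_closure ⟨q, rfl⟩
  -- the center is fixed by `a`
  have hcen : ∀ x, x ∈ Subgroup.center P → a x = x := by
    intro x hx
    have h1 : Nat.card (Subgroup.center P) = 2 := hZ2
    rw [Nat.card_eq_two_iff' (1 : Subgroup.center P)] at h1
    obtain ⟨y, hy1, hy2⟩ := h1
    by_cases hx1 : x = 1
    · rw [hx1, map_one]
    · have hax : a x ∈ Subgroup.center P := by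
        rw [Subgroup.mem_center_iff]
        intro g
        obtain ⟨g', rfl⟩ := a.surjective g
        rw [← map_mul, (Subgroup.mem_center_iff.mp hx) g', map_mul]
      have e1 : (⟨x, hx⟩ : Subgroup.center P) = y := hy2 _ (fun h => hx1 (congrArg Subtype.val h))
      have e2 : (⟨a x, hax⟩ : Subgroup.center P) = y := hy2 _ (fun h => by
        have : a x = 1 := congrArg Subtype.val h
        apply hx1
        apply a.injective
        rw [this, map_one])
      rw [← e1] at e2
      exact congrArg Subtype.val e2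
  -- `P₀ = C_P(W)`
  have hP₀W : P₀ = Subgroup.centralizer (W : Set P) := by
    rw [hW, Subgroup.centralizer_closure]
    ext q
    rw [hP₀, Subgroup.mem_centralizer_iff]
    constructor
    · rintro hq _ ⟨x, rfl⟩
      -- `q` commutes with `a x * x⁻¹`
      change a x * x⁻¹ * q = q * (a x * x⁻¹)
      -- `a q = c q` with `c` central
      set c := a q * q⁻¹ with hc
      have haq : a q = c * q := by rw [hc]; simp
      have hcc := fun g => (Subgroup.mem_center_iff.mp hq) g
      -- `[q,x] = a [q,x] = [a q, a x] = [q, a x]`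
      have h1 : q * x * q⁻¹ * x⁻¹ = q * a x * q⁻¹ * (a x)⁻¹ := by
        have h2 := hcen _ (hcomm q x)
        rw [map_mul, map_mul, map_mul, map_inv, map_inv, haq] at h2
        rw [← h2]
        have h3 : c * q * a x * (c * q)⁻¹ * (a x)⁻¹ = c * (q * a x * q⁻¹) * c⁻¹ * (a x)⁻¹ := by group
        rw [h3, ← hcc]; group
      have h4 := (Subgroup.mem_center_iff.mp (hcomm q x))
      -- so q (x⁻¹)... compute
      have h5 : q * (a x * x⁻¹) * q⁻¹ = a x * x⁻¹ := by
        have e1 : q * a x * q⁻¹ = (q * x * q⁻¹ * x⁻¹) * a x := by rw [h1]; group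
        have e2 : q * x⁻¹ * q⁻¹ = x⁻¹ * (q * x * q⁻¹ * x⁻¹)⁻¹ := by group
        calc q * (a x * x⁻¹) * q⁻¹ = (q * a x * q⁻¹) * (q * x⁻¹ * q⁻¹) := by group
          _ = (q * x * q⁻¹ * x⁻¹) * (a x * x⁻¹) * (q * x * q⁻¹ * x⁻¹)⁻¹ := by
              rw [e1, e2]; simp only [mul_assoc]
          _ = (a x * x⁻¹) * (q * x * q⁻¹ * x⁻¹) * (q * x * q⁻¹ * x⁻¹)⁻¹ := by rw [h4]
          _ = a x * x⁻¹ := by group
      rw [mul_inv_eq_iff_eq_mul] at h5
      exact h5.symm
    · intro hq
      -- `[q, a y] = [q, y]`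
      have key : ∀ y : P, q * a y * q⁻¹ * (a y)⁻¹ = q * y * q⁻¹ * y⁻¹ := by
        intro y
        have h0 : a y * y⁻¹ * q = q * (a y * y⁻¹) := hq _ ⟨y, rfl⟩
        set w := a y * y⁻¹ with hw
        have hay : a y = w * y := by rw [hw]; group
        have h4 := (Subgroup.mem_center_iff.mp (hcomm q y)) w
        rw [hay]
        calc q * (w * y) * q⁻¹ * (w * y)⁻¹ = (q * w) * y * q⁻¹ * y⁻¹ * w⁻¹ := by group
          _ = (w * q) * y * q⁻¹ * y⁻¹ * w⁻¹ := by rw [h0]
          _ = w * (q * y * q⁻¹ * y⁻¹) * w⁻¹ := by group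
          _ = (q * y * q⁻¹ * y⁻¹) * w * w⁻¹ := by rw [h4]
          _ = q * y * q⁻¹ * y⁻¹ := by group
      have h11 : q⁻¹ * a q ∈ Subgroup.center P := by
        rw [Subgroup.mem_center_iff]
        intro g
        obtain ⟨y, rfl⟩ := a.surjective g
        have h2' := hcen _ (hcomm q y)
        rw [map_mul, map_mul, map_mul, map_inv, map_inv] at h2'
        rw [← key y] at h2'
        have h3' : a q * a y * (a q)⁻¹ = q * a y * q⁻¹ := mul_right_cancel h2'
        calc a y * (q⁻¹ * a q) = q⁻¹ * (q * a y * q⁻¹) * a q := by group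
          _ = q⁻¹ * (a q * a y * (a q)⁻¹) * a q := by rw [h3']
          _ = q⁻¹ * a q * a y := by group
      have h12 : a q * q⁻¹ = q⁻¹ * a q := by
        calc a q * q⁻¹ = q * (q⁻¹ * a q) * q⁻¹ := by group
          _ = q⁻¹ * a q * q * q⁻¹ := by rw [(Subgroup.mem_center_iff.mp h11) q]
          _ = q⁻¹ * a q := by group
      rw [h12]
      exact h11
  -- `Z ≤ W`
  have hWn : W.Normal := by
    refine ⟨fun w hw g => ?_⟩
    -- W ⊇ Z or: conj w by g = w * central; use that W is normalized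
    have h1 : g * w * g⁻¹ * w⁻¹ ∈ Subgroup.center P := hcomm g w
    -- generators: g (a x x⁻¹) g⁻¹
    have hgen : ∀ x : P, g * (a x * x⁻¹) * g⁻¹ ∈ W := by
      intro x
      -- `g (a x x⁻¹) g⁻¹ = (a (g' x) (g' x)⁻¹) (a g' g'⁻¹)⁻¹` conj with `g = a g'`
      obtain ⟨g', rfl⟩ := a.surjective g
      have h2 : a g' * (a x * x⁻¹) * (a g')⁻¹ = (a (g' * x) * (g' * x)⁻¹) * (a g' * g'⁻¹)⁻¹ := by
        rw [map_mul]; group
      rw [h2]
      exact W.mul_mem (hmemW _) (W.inv_mem (hmemW _))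
    have : W ≤ W.comap (MulAut.conj g).toMonoidHom := by
      rw [hW, Subgroup.closure_le]
      rintro _ ⟨x, rfl⟩
      exact hgen x
    exact this hw
  have hWne : W ≠ ⊥ := by
    intro h
    obtain ⟨x, hx⟩ := hne
    apply hx
    have h1 := hmemW x
    rw [h, Subgroup.mem_bot] at h1
    exact mul_inv_eq_one.mp h1
  have hZW : Subgroup.center P ≤ W := by
    have h1 : W ⊓ Subgroup.center P ≠ ⊥ := H23.inf_center_ne_bot hQ2 hWne
    have h2 : Nat.card (W ⊓ Subgroup.center P : Subgroup P) ∣ 2 := by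
      rw [← hZ2]; exact Subgroup.card_dvd_of_le inf_le_right
    have h3 : Nat.card (W ⊓ Subgroup.center P : Subgroup P) ≠ 1 := by
      intro h; exact h1 (Subgroup.card_eq_one.mp h)
    have h4 : Nat.card (W ⊓ Subgroup.center P : Subgroup P) = 2 :=
      ((Nat.dvd_prime Nat.prime_two).mp h2).resolve_left h3
    have h5 : W ⊓ Subgroup.center P = Subgroup.center P :=
      Subgroup.eq_of_le_of_card_ge inf_le_right (by rw [h4, hZ2])
    exact inf_eq_right.mp h5
  have hdc := H13.centralizer_centralizer_of_extraspecial hQ2 hcm.le hZ2 W hZW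
  rw [← hP₀W] at hdc
  -- `W ≤ P₀`
  have hWP₀ : W ≤ P₀ := by
    rw [hW, Subgroup.closure_le]
    rintro _ ⟨x, rfl⟩
    change a x * x⁻¹ ∈ P₀
    rw [hP₀]
    have h1 : a (a x * x⁻¹) = (a x * x⁻¹)⁻¹ := by
      rw [map_mul, ha, map_inv, mul_inv_rev, inv_inv]
    rw [h1, ← mul_inv_rev, ← pow_two]
    exact (Subgroup.center P).inv_mem (hsq _)
  rw [hdc]
  exact (inf_eq_right.mpr hWP₀).symm
/-- ambient form -/
theorem aux2 {G : Type*} [Group G] [Finite G] (z : G) (hz : orderOf z = 2) (C : Subgroup G)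
    (hC : C = Subgroup.centralizer ({z} : Set G)) (Q : Subgroup C) (hQn : Q.Normal)
    (hFit : Cfsg.fittingSubgroup C ≤ Q) (hCQ : Subgroup.centralizer (Q : Set C) ≤ Q)
    (hE : Cfsg.IsExtraspecial 2 Q)
    (α : G) (hα : orderOf α = 2) (hαC : α ∈ C) (hαQ : α ∉ Q.map C.subtype)
    (Q₀ : Subgroup G) (hQ₀ : ∀ q : G, q ∈ Q₀ ↔ (q ∈ Q.map C.subtype ∧ α * q * α⁻¹ * q⁻¹ ∈ Subgroup.zpowers z)) :
    Subgroup.closure ((fun q : G => α * q * α⁻¹ * q⁻¹) '' (Q.map C.subtype : Set G)) =
      (Subgroup.center ↥Q₀).map Q₀.subtype ∧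
      (¬ Q₀ ≤ (Q.map C.subtype ⊓ Subgroup.centralizer ({α} : Set G)) ⊔ Subgroup.zpowers z →
        ∃ q ∈ Q.map C.subtype, q * α * q⁻¹ = α * z) := by
  classical
  have hαα : α * α = 1 := by rw [← pow_two, ← hα, pow_orderOf_eq_one]
  have hαinv : α⁻¹ = α := inv_eq_of_mul_eq_one_left hαα
  have hzz : z * z = 1 := by rw [← pow_two, ← hz, pow_orderOf_eq_one]
  have hz1 : z ≠ 1 := by
    rintro rfl; rw [orderOf_one] at hz; omega
  have hzpow : ∀ x, x ∈ Subgroup.zpowers z ↔ x = 1 ∨ x = z := by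
    intro x
    constructor
    · rintro ⟨k, rfl⟩
      rcases Int.even_or_odd k with ⟨m, rfl⟩ | ⟨m, rfl⟩
      · left
        change z ^ (m + m) = 1
        rw [← two_mul, zpow_mul]
        have : z ^ (2 : ℤ) = 1 := by rw [show (2 : ℤ) = ((2 : ℕ) : ℤ) from rfl, zpow_natCast, pow_two, hzz]
        rw [this, one_zpow]
      · right
        change z ^ (2 * m + 1) = z
        rw [zpow_add, zpow_mul]
        have : z ^ (2 : ℤ) = 1 := by rw [show (2 : ℤ) = ((2 : ℕ) : ℤ) from rfl, zpow_natCast, pow_two, hzz]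
        rw [this, one_zpow, one_mul, zpow_one]
    · rintro (rfl | rfl)
      · exact Subgroup.one_mem _
      · exact Subgroup.mem_zpowers _
  have hαz : α * z = z * α := by
    rw [hC] at hαC
    exact Subgroup.mem_centralizer_singleton_iff.mp hαC
  -- `z` in the centre of `Q`
  have hzC : z ∈ C := by rw [hC, Subgroup.mem_centralizer_singleton_iff]
  have hzcen : (⟨z, hzC⟩ : C) ∈ Subgroup.center C := by
    rw [Subgroup.mem_center_iff]
    intro x
    have h1 : (x : G) ∈ Subgroup.centralizer ({z} : Set G) := hC ▸ x.2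
    exact Subtype.ext (Subgroup.mem_centralizer_singleton_iff.mp h1)
  have hzQ : (⟨z, hzC⟩ : C) ∈ Q := hFit (H10.center_le_fitting _ hzcen)
  have hzZ : (⟨⟨z, hzC⟩, hzQ⟩ : Q) ∈ Subgroup.center Q := by
    rw [Subgroup.mem_center_iff]
    intro x
    exact Subtype.ext ((Subgroup.mem_center_iff.mp hzcen) x)
  have hcenter : ∀ x : Q, x ∈ Subgroup.center Q ↔ ((x : C) : G) ∈ Subgroup.zpowers z := by
    intro x
    rw [hzpow]
    constructor
    · intro hx
      have h1 : Nat.card (Subgroup.center Q) = 2 := hE.2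
      rw [Nat.card_eq_two_iff' (1 : Subgroup.center Q)] at h1
      obtain ⟨y, hy1, hy2⟩ := h1
      by_cases hx1 : x = 1
      · left; rw [hx1]; rfl
      · right
        have e1 : (⟨x, hx⟩ : Subgroup.center Q) = y := hy2 _ (fun h => hx1 (congrArg Subtype.val h))
        have e2 : (⟨_, hzZ⟩ : Subgroup.center Q) = y := hy2 _ (fun h => hz1 (congrArg (fun w : Subgroup.center Q => (((w : Q) : C) : G)) h))
        rw [← e2] at e1
        exact congrArg (fun w : Subgroup.center Q => (((w : Q) : C) : G)) e1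
    · rintro (h | h)
      · have : x = 1 := Subtype.ext (Subtype.ext h)
        rw [this]; exact Subgroup.one_mem _
      · have : x = ⟨⟨z, hzC⟩, hzQ⟩ := Subtype.ext (Subtype.ext h)
        rw [this]; exact hzZ
  refine ⟨?_, ?_⟩
  · -- the automorphism induced by `α`
    let a : Q ≃* Q :=
      { toFun := fun x => ⟨⟨α, hαC⟩ * x * ⟨α, hαC⟩⁻¹, hQn.conj_mem x x.2 _⟩
        invFun := fun x => ⟨⟨α, hαC⟩⁻¹ * x * ⟨α, hαC⟩⁻¹⁻¹, hQn.conj_mem x x.2 _⟩
        left_inv := fun x => Subtype.ext (by simp [mul_assoc])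
        right_inv := fun x => Subtype.ext (by simp [mul_assoc])
        map_mul' := fun x y => Subtype.ext (by simp [mul_assoc]) }
    have haG : ∀ x : Q, (((a x : Q) : C) : G) = α * ((x : C) : G) * α⁻¹ := fun x => rfl
    have ha2 : ∀ x, a (a x) = x := by
      intro x
      apply Subtype.ext
      apply Subtype.ext
      rw [haG, haG, hαinv]
      simp only [mul_assoc]
      rw [hαα, mul_one, ← mul_assoc, hαα, one_mul]
    have hane : ∃ x, a x ≠ x := by
      by_contra hcon
      push Not at hcon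
      apply hαQ
      have h1 : (⟨α, hαC⟩ : C) ∈ Subgroup.centralizer (Q : Set C) := by
        rw [Subgroup.mem_centralizer_iff]
        intro x hx
        have h2 := hcon ⟨x, hx⟩
        have h3 : (⟨α, hαC⟩ : C) * x * (⟨α, hαC⟩ : C)⁻¹ = x := congrArg Subtype.val h2
        exact (mul_inv_eq_iff_eq_mul.mp h3).symm
      exact ⟨_, hCQ h1, rfl⟩
    set P₀ : Subgroup Q := (Q₀.comap C.subtype).comap Q.subtype with hP₀
    have hP₀mem : ∀ q : Q, q ∈ P₀ ↔ a q * q⁻¹ ∈ Subgroup.center Q := by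
      intro q
      rw [hcenter, hP₀, Subgroup.mem_comap, Subgroup.mem_comap]
      change ((q : C) : G) ∈ Q₀ ↔ α * ((q : C) : G) * α⁻¹ * ((q : C) : G)⁻¹ ∈ Subgroup.zpowers z
      rw [hQ₀]
      exact ⟨fun h => h.2, fun h => ⟨⟨_, q.2, rfl⟩, h⟩⟩
    have hmain := aux hE a ha2 hane P₀ hP₀mem
    have h1 := congrArg (fun K : Subgroup Q => K.map (C.subtype.comp Q.subtype)) hmain
    simp only [MonoidHom.map_closure] at h1
    have h2 : ((C.subtype.comp Q.subtype) '' (Set.range (fun q : Q => a q * q⁻¹))) =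
        ((fun q : G => α * q * α⁻¹ * q⁻¹) '' (Q.map C.subtype : Set G)) := by
      ext y
      constructor
      · rintro ⟨_, ⟨q, rfl⟩, rfl⟩
        exact ⟨_, ⟨_, q.2, rfl⟩, rfl⟩
      · rintro ⟨_, ⟨q, hq, rfl⟩, rfl⟩
        exact ⟨_, ⟨⟨q, hq⟩, rfl⟩, rfl⟩
    rw [← h2, h1]
    ext y
    constructor
    · rintro ⟨q, ⟨hq1, hq2⟩, rfl⟩
      refine ⟨⟨_, hq1⟩, ?_, rfl⟩
      rw [SetLike.mem_coe, Subgroup.mem_center_iff]
      rintro ⟨w, hw⟩
      apply Subtype.ext
      obtain ⟨⟨w', hw', rfl⟩, _⟩ := (hQ₀ w).mp hw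
      have h3 := Subgroup.mem_centralizer_iff.mp hq2 ⟨w', hw'⟩ hw
      exact congrArg (fun w : Q => ((w : C) : G)) h3
    · rintro ⟨⟨w, hw⟩, hwc, rfl⟩
      obtain ⟨⟨w', hw', rfl⟩, _⟩ := (hQ₀ w).mp hw
      refine ⟨⟨w', hw'⟩, ⟨hw, Subgroup.mem_centralizer_iff.mpr ?_⟩, rfl⟩
      intro h hh
      rw [SetLike.mem_coe, Subgroup.mem_center_iff] at hwc
      have h3 := hwc ⟨_, hh⟩
      have h4 : ((h : C) : G) * (w' : G) = (w' : G) * ((h : C) : G) := congrArg Subtype.val h3
      exact Subtype.ext (Subtype.ext h4)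
  · intro hnle
    obtain ⟨q, hq, hqn⟩ := SetLike.not_le_iff_exists.mp hnle
    obtain ⟨hq1, hq2⟩ := (hQ₀ q).mp hq
    refine ⟨q, hq1, ?_⟩
    rcases (hzpow _).mp hq2 with h | h
    · exfalso
      apply hqn
      apply (le_sup_left : _ ≤ _ ⊔ Subgroup.zpowers z)
      refine ⟨hq1, Subgroup.mem_centralizer_singleton_iff.mpr ?_⟩
      have h1 : α * q * α⁻¹ = q := mul_inv_eq_one.mp h
      exact (mul_inv_eq_iff_eq_mul.mp h1).symm
    · have h1 : q * α * q⁻¹ = (α⁻¹ * (α * q * α⁻¹ * q⁻¹))⁻¹ := by group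
      rw [h1, h, hαinv, mul_inv_rev, hαinv, inv_eq_of_mul_eq_one_left hzz, hαz]

/-- Let G be a finite group and let z be an involution of G such that Q, the generalized Fitting subgroup of the centralizer C of z, is a 2-group of symplectic type (every characteristic abelian subgroup of Q is cyclic); suppose Q is extraspecial, and view Q inside G. Let α be an involution of C that is not in Q, and let Q₀ be the subgroup of those q ∈ Q whose commutator with α lies in the subgroup generated by z. Then (a) the subgroup generated by the commutators α q α⁻¹ q⁻¹, q ∈ Q, equals the centre of Q₀; and (b) if Q₀ is not contained in the product of the centralizer of α in Q with the subgroup generated by z, then some element of Q conjugates α to α z. -/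
theorem result {G : Type*} [Group G] [Finite G] (z : G) (hz : orderOf z = 2) (hQ : Cfsg.IsOfSymplecticType ↥(Cfsg.generalizedFittingSubgroup ↥(Subgroup.centralizer ({z} : Set G)))) (hE : Cfsg.IsExtraspecial 2 ↥(Cfsg.generalizedFittingSubgroup ↥(Subgroup.centralizer ({z} : Set G))))
    (α : G) (hα : orderOf α = 2) (hαC : α ∈ Subgroup.centralizer ({z} : Set G)) (hαQ : α ∉ (Cfsg.generalizedFittingSubgroup ↥(Subgroup.centralizer ({z} : Set G))).map (Subgroup.centralizer ({z} : Set G)).subtype)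
    (Q₀ : Subgroup G) (hQ₀ : ∀ q : G, q ∈ Q₀ ↔ (q ∈ (Cfsg.generalizedFittingSubgroup ↥(Subgroup.centralizer ({z} : Set G))).map (Subgroup.centralizer ({z} : Set G)).subtype ∧ α * q * α⁻¹ * q⁻¹ ∈ Subgroup.zpowers z)) :
    Subgroup.closure ((fun q : G => α * q * α⁻¹ * q⁻¹) '' ((Cfsg.generalizedFittingSubgroup ↥(Subgroup.centralizer ({z} : Set G))).map (Subgroup.centralizer ({z} : Set G)).subtype : Set G)) = (Subgroup.center ↥Q₀).map Q₀.subtype ∧
      (¬ Q₀ ≤ ((Cfsg.generalizedFittingSubgroup ↥(Subgroup.centralizer ({z} : Set G))).map (Subgroup.centralizer ({z} : Set G)).subtype ⊓ Subgroup.centralizer ({α} : Set G)) ⊔ Subgroup.zpowers z →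
        ∃ q ∈ (Cfsg.generalizedFittingSubgroup ↥(Subgroup.centralizer ({z} : Set G))).map (Subgroup.centralizer ({z} : Set G)).subtype, q * α * q⁻¹ = α * z) := by
  exact aux2 z hz _ rfl _ (H10.genFitting_normal _) (H10.fitting_le_genFitting _)
    H10.centralizer_genFitting_le hE α hα hαC hαQ Q₀ hQ₀

end Cfsg.Agent.S1784
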