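import Cfsg.Statements.S1785
import Cfsg.Agent.H13.ElemAb
import Cfsg.Agent.H18.CharP

set_option autoImplicit false
open Cfsg

namespace Cfsg.Agent.S1785

/-- powers of two are monotone -/
theorem pow2_ge {n k m : ℕ} (hn : n = 2 ^ k) (h : 2 ^ m < n * 2) : 2 ^ m ≤ n := by
  subst hn
  rw [← pow_succ] at h
  exact Nat.pow_le_pow_right (by norm_num) (by
    have := (Nat.pow_lt_pow_iff_right (by norm_num : 1 < 2)).mp h
    omega)

section
variable {X : Type*} [Group X] [Finite X]

theorem card_two_pow {F : Subgroup X} (hF : Cfsg.IsElementaryAbelian 2 F) : ∃ k, Nat.card F = 2 ^ k := by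
  have : Fact (Nat.Prime 2) := ⟨Nat.prime_two⟩
  exact IsPGroup.iff_card.mp (H13.isPGroup_of_elab hF)

theorem exists_sub {F : Subgroup X} (hF : Cfsg.IsElementaryAbelian 2 F) {k : ℕ} (h : 2 ^ k ≤ Nat.card F) :
    ∃ K ≤ F, Cfsg.IsElementaryAbelian 2 K ∧ Nat.card K = 2 ^ k := by
  have : Fact (Nat.Prime 2) := ⟨Nat.prime_two⟩
  obtain ⟨K, hK⟩ := Sylow.exists_subgroup_card_pow_prime_of_le_card Nat.prime_two (H13.isPGroup_of_elab hF) h
  refine ⟨K.map F.subtype, Subgroup.map_subtype_le _, H13.elab_mono hF (Subgroup.map_subtype_le _), ?_⟩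
  rw [← hK]
  exact (Nat.card_congr (K.equivMapOfInjective _ F.subtype_injective).toEquiv).symm

theorem cent1 {E : Subgroup X} [E.Normal] (hE : Cfsg.IsElementaryAbelian 2 E) (hE32 : 32 ≤ Nat.card ↥E)
    {v : X} (hv : v ^ 2 = 1) : 8 ≤ Nat.card (E ⊓ Subgroup.centralizer ({v} : Set X) : Subgroup X) := by
  have h1 := H13.card_le_sq_card_centralizer hE hv (fun f hf => ‹E.Normal›.conj_mem f hf v)
  obtain ⟨k, hk⟩ := card_two_pow (H13.elab_mono hE (inf_le_left : E ⊓ Subgroup.centralizer ({v} : Set X) ≤ E))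
  have h2 : 6 ≤ Nat.card (E ⊓ Subgroup.centralizer ({v} : Set X) : Subgroup X) := by
    by_contra hcon
    push Not at hcon
    have : Nat.card (E ⊓ Subgroup.centralizer ({v} : Set X) : Subgroup X) ^ 2 ≤ 5 ^ 2 := by
      apply Nat.pow_le_pow_left; omega
    omega
  exact pow2_ge (m := 3) hk (by omega)

theorem cent2 {E : Subgroup X} [E.Normal] (hE : Cfsg.IsElementaryAbelian 2 E) (hE32 : 32 ≤ Nat.card ↥E)
    {v w : X} (hv : v ^ 2 = 1) (hw : w ^ 2 = 1) (hvw : v * w = w * v) :
    4 ≤ Nat.card (E ⊓ Subgroup.centralizer ({v} : Set X) ⊓ Subgroup.centralizer ({w} : Set X) : Subgroup X) := by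
  have h0 := cent1 hE hE32 hv
  have hF := H13.elab_mono hE (inf_le_left : E ⊓ Subgroup.centralizer ({v} : Set X) ≤ E)
  have h1 := H13.card_le_sq_card_centralizer hF hw (by
    rintro f ⟨hf1, hf2⟩
    refine ⟨‹E.Normal›.conj_mem f hf1 w, Subgroup.mem_centralizer_singleton_iff.mpr ?_⟩
    have h3 := Subgroup.mem_centralizer_singleton_iff.mp hf2
    have h4 : v * w⁻¹ = w⁻¹ * v := by
      rw [eq_inv_mul_iff_mul_eq, ← mul_assoc, ← hvw]; simp
    calc w * f * w⁻¹ * v = w * f * (w⁻¹ * v) := by group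
      _ = w * (f * v) * w⁻¹ := by rw [← h4]; group
      _ = (w * v) * f * w⁻¹ := by rw [h3]; group
      _ = v * (w * f * w⁻¹) := by rw [← hvw]; group)
  obtain ⟨k, hk⟩ := card_two_pow (H13.elab_mono hF (inf_le_left :
    E ⊓ Subgroup.centralizer ({v} : Set X) ⊓ Subgroup.centralizer ({w} : Set X) ≤ _))
  have h2 : 3 ≤ Nat.card (E ⊓ Subgroup.centralizer ({v} : Set X) ⊓ Subgroup.centralizer ({w} : Set X) : Subgroup X) := by
    by_contra hcon
    push Not at hcon
    have : Nat.card (E ⊓ Subgroup.centralizer ({v} : Set X) ⊓ Subgroup.centralizer ({w} : Set X) : Subgroup X) ^ 2 ≤ 2 ^ 2 := by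
      apply Nat.pow_le_pow_left; omega
    omega
  exact pow2_ge (m := 2) hk (by omega)

/-- generators for a subgroup of order 4 -/
theorem gen2 {V : Subgroup X} (hV : Cfsg.IsElementaryAbelian 2 V) (h4 : Nat.card V = 4) :
    ∃ v w, v ∈ V ∧ w ∈ V ∧ V = Subgroup.zpowers v ⊔ Subgroup.zpowers w := by
  have : Fact (Nat.Prime 2) := ⟨Nat.prime_two⟩
  have hnt : Nontrivial V := by rw [← Finite.one_lt_card_iff_nontrivial]; omega
  obtain ⟨⟨v, hv⟩, hv1⟩ := exists_ne (1 : V)
  have hv1' : v ≠ 1 := fun h => hv1 (Subtype.ext h)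
  have hc1 := H13.card_zpowers_prime (hV.2 v hv) hv1'
  have hlt : Subgroup.zpowers v < V := by
    refine lt_of_le_of_ne (by rwa [Subgroup.zpowers_le]) ?_
    intro h
    rw [h, h4] at hc1
    omega
  obtain ⟨w, hw, hwn⟩ := SetLike.exists_of_lt hlt
  have hc2 := H13.card_sup_zpowers (A := Subgroup.zpowers v) (hV.2 w hw)
    (fun a ha => H13.elab_comm hV (hlt.le ha) hw) hwn
  refine ⟨v, w, hv, hw, ?_⟩
  symm
  apply Subgroup.eq_of_le_of_card_ge
  · exact sup_le hlt.le (by rwa [Subgroup.zpowers_le])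
  · rw [hc2, hc1, h4]

/-- the relation: commuting `E8`s -/
def R (C D : Subgroup X) : Prop :=
  Cfsg.IsElementaryAbelian 2 C ∧ Nat.card ↥C = 8 ∧ Cfsg.IsElementaryAbelian 2 D ∧ Nat.card ↥D = 8 ∧ ⁅C, D⁆ = ⊥

theorem R_of {C D : Subgroup X} (hC : Cfsg.IsElementaryAbelian 2 C) (hC8 : Nat.card C = 8)
    (hD : Cfsg.IsElementaryAbelian 2 D) (hD8 : Nat.card D = 8) (h : ∀ c ∈ C, ∀ d ∈ D, c * d = d * c) : R C D := by
  refine ⟨hC, hC8, hD, hD8, ?_⟩
  rw [Subgroup.commutator_eq_bot_iff_le_centralizer]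
  intro c hc
  rw [Subgroup.mem_centralizer_iff]
  intro d hd
  exact (h c hc d hd).symm

theorem R_symm {C D : Subgroup X} (h : R C D) : R D C := by
  obtain ⟨h1, h2, h3, h4, h5⟩ := h
  exact ⟨h3, h4, h1, h2, by rw [Subgroup.commutator_comm]; exact h5⟩

/-- every `E8` is connected with one inside `E` -/
theorem toE (hX : IsPGroup 2 X) {E : Subgroup X} [E.Normal] (hE : Cfsg.IsElementaryAbelian 2 E)
    (hE32 : 32 ≤ Nat.card ↥E) (A : Subgroup X) (hA : Cfsg.IsElementaryAbelian 2 A) (hA8 : Nat.card A = 8) :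
    ∃ B ≤ E, Cfsg.IsElementaryAbelian 2 B ∧ Nat.card B = 8 ∧ Relation.ReflTransGen R A B := by
  have : Fact (Nat.Prime 2) := ⟨Nat.prime_two⟩
  -- step 1: reach an `E8` meeting `E` nontrivially
  obtain ⟨A₁, hA₁, hA₁8, hR1, e, heA, heE, he1⟩ : ∃ A₁ : Subgroup X, Cfsg.IsElementaryAbelian 2 A₁ ∧
      Nat.card A₁ = 8 ∧ Relation.ReflTransGen R A A₁ ∧ ∃ e, e ∈ A₁ ∧ e ∈ E ∧ e ≠ 1 := by
    by_cases hAE : A ⊓ E = ⊥
    · have hEne : E ≠ ⊥ := by
        rintro rfl
        rw [Subgroup.card_bot] at hE32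
        omega
      have hEp := H13.isPGroup_of_elab hE
      have h1 : E ⊓ Subgroup.centralizer (A : Set X) ≠ ⊥ :=
        H18.inf_centralizer_ne_bot hEp (hX.to_subgroup A) (by
          rw [Subgroup.normalizer_eq_top]; exact le_top) hEne
      obtain ⟨e, he1⟩ := Subgroup.ne_bot_iff_exists_ne_one.mp h1
      have he' : (e : X) ∈ E ∧ (e : X) ∈ Subgroup.centralizer (A : Set X) := e.2
      have hne : (e : X) ≠ 1 := fun h => he1 (Subtype.ext h)
      obtain ⟨V, hVA, hV, hV4⟩ := exists_sub (k := 2) hA (by omega)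
      have heV : (e : X) ∉ V := by
        intro h
        apply hne
        have : (e : X) ∈ A ⊓ E := ⟨hVA h, he'.1⟩
        rw [hAE] at this
        exact Subgroup.mem_bot.mp this
      have hecomm : ∀ a ∈ A, a * (e : X) = (e : X) * a := fun a ha =>
        Subgroup.mem_centralizer_iff.mp he'.2 a ha
      have he2 : (e : X) ^ 2 = 1 := hE.2 _ he'.1
      refine ⟨V ⊔ Subgroup.zpowers (e : X), H13.elab_sup hV (H13.elab_zpowers he2) ?_, ?_, ?_, e, ?_, he'.1, hne⟩
      · rintro v hv _ ⟨k, rfl⟩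
        exact (Commute.zpow_right (hecomm v (hVA hv)) k)
      · rw [H13.card_sup_zpowers he2 (fun a ha => hecomm a (hVA ha)) heV, hV4]; norm_num
      · apply Relation.ReflTransGen.single
        apply R_of hA hA8
        · apply H13.elab_sup hV (H13.elab_zpowers he2)
          rintro v hv _ ⟨k, rfl⟩
          exact (Commute.zpow_right (hecomm v (hVA hv)) k)
        · rw [H13.card_sup_zpowers he2 (fun a ha => hecomm a (hVA ha)) heV, hV4]; norm_num
        · intro a ha d hd
          have h3 : V ⊔ Subgroup.zpowers (e : X) ≤ Subgroup.centralizer ({a} : Set X) := by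
            apply sup_le
            · intro v hv
              rw [Subgroup.mem_centralizer_singleton_iff]
              exact H13.elab_comm hA (hVA hv) ha
            · rw [Subgroup.zpowers_le, Subgroup.mem_centralizer_singleton_iff]
              exact (hecomm a ha).symm
          exact (Subgroup.mem_centralizer_singleton_iff.mp (h3 hd)).symm
      · exact (le_sup_right : _ ≤ V ⊔ Subgroup.zpowers (e : X)) (Subgroup.mem_zpowers _)
    · obtain ⟨e, he1⟩ := Subgroup.ne_bot_iff_exists_ne_one.mp hAE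
      exact ⟨A, hA, hA8, Relation.ReflTransGen.refl, e, e.2.1, e.2.2, fun h => he1 (Subtype.ext h)⟩
  by_cases hA₁E : A₁ ≤ E
  · exact ⟨A₁, hA₁E, hA₁, hA₁8, hR1⟩
  obtain ⟨v, hv, hvE⟩ := SetLike.not_le_iff_exists.mp hA₁E
  -- generators `e, v, w` of `A₁`
  have hce : Nat.card (Subgroup.zpowers e) = 2 := H13.card_zpowers_prime (hE.2 e heE) he1
  have hve : v ∉ Subgroup.zpowers e := fun h => hvE ((by rwa [Subgroup.zpowers_le] : Subgroup.zpowers e ≤ E) h)
  have hcev := H13.card_sup_zpowers (A := Subgroup.zpowers e) (hA₁.2 v hv)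
    (fun a ha => H13.elab_comm hA₁ ((by rwa [Subgroup.zpowers_le] : Subgroup.zpowers e ≤ A₁) ha) hv) hve
  rw [hce] at hcev
  have hle1 : Subgroup.zpowers e ⊔ Subgroup.zpowers v ≤ A₁ :=
    sup_le (by rwa [Subgroup.zpowers_le]) (by rwa [Subgroup.zpowers_le])
  have hlt : Subgroup.zpowers e ⊔ Subgroup.zpowers v < A₁ := by
    refine lt_of_le_of_ne hle1 ?_
    intro h
    rw [h, hA₁8] at hcev
    omega
  obtain ⟨w, hw, hwn⟩ := SetLike.exists_of_lt hlt
  have hcevw := H13.card_sup_zpowers (hA₁.2 w hw) (fun a ha => H13.elab_comm hA₁ (hle1 ha) hw) hwn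
  have hgen : Subgroup.zpowers e ⊔ Subgroup.zpowers v ⊔ Subgroup.zpowers w = A₁ := by
    apply Subgroup.eq_of_le_of_card_ge
    · exact sup_le hle1 (by rwa [Subgroup.zpowers_le])
    · rw [hcevw, hcev, hA₁8]
  -- `W' ≤ C_E(A₁)` of order 4
  have hc2 := cent2 hE hE32 (hA₁.2 v hv) (hA₁.2 w hw) (H13.elab_comm hA₁ hv hw)
  have hCel : Cfsg.IsElementaryAbelian 2 (E ⊓ Subgroup.centralizer ({v} : Set X) ⊓ Subgroup.centralizer ({w} : Set X)) :=
    H13.elab_mono hE (inf_le_left.trans inf_le_left)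
  obtain ⟨W, hWC, hW, hW4⟩ := exists_sub (k := 2) hCel (by omega)
  have hWE : W ≤ E := hWC.trans (inf_le_left.trans inf_le_left)
  have hWA₁ : ∀ x ∈ W, ∀ a ∈ A₁, x * a = a * x := by
    intro x hx a ha
    have h3 : A₁ ≤ Subgroup.centralizer ({x} : Set X) := by
      rw [← hgen]
      refine sup_le (sup_le ?_ ?_) ?_
      · rw [Subgroup.zpowers_le, Subgroup.mem_centralizer_singleton_iff]
        exact H13.elab_comm hE heE (hWE hx)
      · rw [Subgroup.zpowers_le, Subgroup.mem_centralizer_singleton_iff]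
        exact (Subgroup.mem_centralizer_singleton_iff.mp (hWC hx).1.2).symm
      · rw [Subgroup.zpowers_le, Subgroup.mem_centralizer_singleton_iff]
        exact (Subgroup.mem_centralizer_singleton_iff.mp (hWC hx).2).symm
    exact (Subgroup.mem_centralizer_singleton_iff.mp (h3 ha)).symm
  have hv2 : v ^ 2 = 1 := hA₁.2 v hv
  have hvW : v ∉ W := fun h => hvE (hWE h)
  have hA₂ : Cfsg.IsElementaryAbelian 2 (W ⊔ Subgroup.zpowers v) := by
    apply H13.elab_sup hW (H13.elab_zpowers hv2)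
    rintro x hx _ ⟨k, rfl⟩
    exact (Commute.zpow_right (hWA₁ x hx v hv) k)
  have hA₂8 : Nat.card (W ⊔ Subgroup.zpowers v : Subgroup X) = 8 := by
    rw [H13.card_sup_zpowers hv2 (fun a ha => hWA₁ a ha v hv) hvW, hW4]; norm_num
  have hR2 : R A₁ (W ⊔ Subgroup.zpowers v) := by
    apply R_of hA₁ hA₁8 hA₂ hA₂8
    intro a ha d hd
    have h3 : W ⊔ Subgroup.zpowers v ≤ Subgroup.centralizer ({a} : Set X) := by
      apply sup_le
      · intro x hx
        rw [Subgroup.mem_centralizer_singleton_iff]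
        exact hWA₁ x hx a ha
      · rw [Subgroup.zpowers_le, Subgroup.mem_centralizer_singleton_iff]
        exact H13.elab_comm hA₁ hv ha
    exact (Subgroup.mem_centralizer_singleton_iff.mp (h3 hd)).symm
  have hc1 := cent1 hE hE32 hv2
  obtain ⟨B, hBC, hB, hB8⟩ := exists_sub (k := 3) (H13.elab_mono hE (inf_le_left :
    E ⊓ Subgroup.centralizer ({v} : Set X) ≤ E)) (by omega)
  have hBE : B ≤ E := hBC.trans inf_le_left
  have hR3 : R (W ⊔ Subgroup.zpowers v) B := by
    apply R_of hA₂ hA₂8 hB hB8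
    intro d hd b hb
    have h3 : W ⊔ Subgroup.zpowers v ≤ Subgroup.centralizer ({b} : Set X) := by
      apply sup_le
      · intro x hx
        rw [Subgroup.mem_centralizer_singleton_iff]
        exact H13.elab_comm hE (hWE hx) (hBE hb)
      · rw [Subgroup.zpowers_le, Subgroup.mem_centralizer_singleton_iff]
        exact (Subgroup.mem_centralizer_singleton_iff.mp (hBC hb).2).symm
    exact Subgroup.mem_centralizer_singleton_iff.mp (h3 hd)
  exact ⟨B, hBE, hB, hB8, (hR1.tail hR2).tail hR3⟩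

end


/-- Let X be a finite 2-group having a normal elementary abelian subgroup of order at least 32. Then (a) for any two elementary abelian subgroups A, B of X of order 8 there is a chain A = A₁, A₂, …, Aₙ = B of elementary abelian subgroups of order 8 in which consecutive members commute elementwise; and (b) every elementary abelian subgroup of X of order 4 is contained in an elementary abelian subgroup of order 8. -/
theorem result {X : Type*} [Group X] [Finite X]
    (hX : IsPGroup 2 X) (E : Subgroup X) [E.Normal] (hE : Cfsg.IsElementaryAbelian 2 E) (hE32 : 32 ≤ Nat.card ↥E) :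
    (∀ A B : Subgroup X, Cfsg.IsElementaryAbelian 2 A → Nat.card ↥A = 8 → Cfsg.IsElementaryAbelian 2 B → Nat.card ↥B = 8 →
        Relation.ReflTransGen
          (fun C D : Subgroup X => Cfsg.IsElementaryAbelian 2 C ∧ Nat.card ↥C = 8 ∧ Cfsg.IsElementaryAbelian 2 D ∧ Nat.card ↥D = 8 ∧ ⁅C, D⁆ = ⊥)
          A B) ∧
      (∀ V : Subgroup X, Cfsg.IsElementaryAbelian 2 V → Nat.card ↥V = 4 →
        ∃ A : Subgroup X, V ≤ A ∧ Cfsg.IsElementaryAbelian 2 A ∧ Nat.card ↥A = 8) := by
  classical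
  have : Fact (Nat.Prime 2) := ⟨Nat.prime_two⟩
  refine ⟨?_, ?_⟩
  · intro A B hA hA8 hB hB8
    obtain ⟨A', hA'E, hA', hA'8, hRA⟩ := toE hX hE hE32 A hA hA8
    obtain ⟨B', hB'E, hB', hB'8, hRB⟩ := toE hX hE hE32 B hB hB8
    have h1 : R A' B' := R_of hA' hA'8 hB' hB'8 (fun c hc d hd => H13.elab_comm hE (hA'E hc) (hB'E hd))
    have h2 : Relation.ReflTransGen R B' B := by
      have hsy : ∀ {C D : Subgroup X}, Relation.ReflTransGen R C D → Relation.ReflTransGen R D C := by
        intro C D h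
        induction h with
        | refl => exact Relation.ReflTransGen.refl
        | tail _ h ih => exact ih.head (R_symm h)
      exact hsy hRB
    exact (hRA.tail h1).trans h2
  · intro V hV hV4
    obtain ⟨v, w, hv, hw, hVgen⟩ := gen2 hV hV4
    have hc2 := cent2 hE hE32 (hV.2 v hv) (hV.2 w hw) (H13.elab_comm hV hv hw)
    set C := E ⊓ Subgroup.centralizer ({v} : Set X) ⊓ Subgroup.centralizer ({w} : Set X) with hC
    have hCV : ∀ x ∈ C, ∀ a ∈ V, a * x = x * a := by
      intro x hx a ha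
      have h3 : V ≤ Subgroup.centralizer ({x} : Set X) := by
        rw [hVgen]
        refine sup_le ?_ ?_
        · rw [Subgroup.zpowers_le, Subgroup.mem_centralizer_singleton_iff]
          exact (Subgroup.mem_centralizer_singleton_iff.mp hx.1.2).symm
        · rw [Subgroup.zpowers_le, Subgroup.mem_centralizer_singleton_iff]
          exact (Subgroup.mem_centralizer_singleton_iff.mp hx.2).symm
      exact Subgroup.mem_centralizer_singleton_iff.mp (h3 ha)
    -- find `e ∈ E`, centralizing `V`, outside `V`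
    obtain ⟨e, heE, heV, hecomm⟩ : ∃ e ∈ E, e ∉ V ∧ ∀ a ∈ V, a * e = e * a := by
      by_cases hCleV : C ≤ V
      · have hCV' : C = V := Subgroup.eq_of_le_of_card_ge hCleV (by omega)
        have hVE : V ≤ E := by
          rw [← hCV', hC]
          exact inf_le_left.trans inf_le_left
        have hlt : V < E := by
          refine lt_of_le_of_ne hVE ?_
          intro h
          rw [← h, hV4] at hE32
          omega
        obtain ⟨e, he, hen⟩ := SetLike.exists_of_lt hlt
        exact ⟨e, he, hen, fun a ha => H13.elab_comm hE (hVE ha) he⟩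
      · obtain ⟨e, he, hen⟩ := SetLike.not_le_iff_exists.mp hCleV
        exact ⟨e, he.1.1, hen, fun a ha => hCV e he a ha⟩
    refine ⟨V ⊔ Subgroup.zpowers e, le_sup_left, ?_, ?_⟩
    · apply H13.elab_sup hV (H13.elab_zpowers (hE.2 e heE))
      rintro x hx _ ⟨k, rfl⟩
      exact (Commute.zpow_right (hecomm x hx) k)
    · rw [H13.card_sup_zpowers (hE.2 e heE) hecomm heV, hV4]

end Cfsg.Agent.S1785
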