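import Cfsg.Statements.S1850
import Cfsg.Agent.H13.CharLocal2

set_option autoImplicit false
open Cfsg

namespace Cfsg.Agent.S1850

/-- Let G be a non-abelian finite simple QTKE-group and T a Sylow 2-subgroup of G. If U is a nontrivial 2-subgroup of G with U ∩ Z(T) ≠ 1, then F*(N_G(U)) = O₂(N_G(U)). -/
theorem result {G : Type*} [Group G] [Finite G] [IsSimpleGroup G]
    (hG : ¬ IsMulCommutative G) (hQ : Cfsg.IsQTKE G) (T : Sylow 2 G) (U : Subgroup G)
    (hU : IsPGroup 2 ↥U) (hZ : U ⊓ ((T : Subgroup G) ⊓ Subgroup.centralizer ((T : Subgroup G) : Set G)) ≠ ⊥) :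
    Subgroup.normalizer (U : Set G) ∈ Cfsg.calHe G := by
  haveI : Fact (Nat.Prime 2) := ⟨Nat.prime_two⟩
  obtain ⟨-, -, hE⟩ := hQ
  have hP : IsPGroup 2 ↥(U ⊓ ((T : Subgroup G) ⊓ Subgroup.centralizer ((T : Subgroup G) : Set G))) :=
    hU.to_le inf_le_left
  obtain ⟨z, hz, -, hz2⟩ := H13.exists_central_order hP hZ
  obtain ⟨hzU, hzT, hzc⟩ := hz
  have hne : Subgroup.zpowers z ≠ ⊥ := by
    rw [Ne, Subgroup.zpowers_eq_bot]
    rintro rfl
    simp at hz2
  have hzP : IsPGroup 2 ↥(Subgroup.zpowers z) := by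
    refine IsPGroup.of_card (n := 1) ?_
    rw [Nat.card_zpowers, hz2, pow_one]
  have h1 : IsOfCharacteristicTwo ↥(Subgroup.normalizer (Subgroup.zpowers z : Set G)) := by
    apply hE _ ⟨_, hzP, hne, rfl⟩
    refine ⟨T, ?_⟩
    rw [H13.normalizer_zpowers_of_order_two hz2]
    intro t ht
    rw [Subgroup.mem_centralizer_singleton_iff]
    exact Subgroup.mem_centralizer_iff.1 hzc t ht
  have h2 := H13.charP_normalizer_of_le hU _ (Subgroup.zpowers z) le_rfl
    (by rwa [Subgroup.zpowers_le]) h1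
  exact H19.fstar_eq_pCore_of_charP h2

end Cfsg.Agent.S1850
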