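import Cfsg.Statements.S1851
import Cfsg.Agent.H13.FaithV

set_option autoImplicit false
open Cfsg

namespace Cfsg.Agent.S1851

open Subgroup in
/-- For `K ∈ ℒ(G,T)` in a group of even characteristic. -/
theorem aux {G : Type*} [Group G] [Finite G] (hE : Cfsg.IsOfEvenCharacteristic G) (T : Sylow 2 G)
    (K : Subgroup G) (hK : K ∈ Cfsg.calL (T : Subgroup G)) :
    K ≠ ⊥ ∧ ⁅K, K⁆ = K ∧ (K.subgroupOf (K ⊔ T)).IsSubnormal ∧
      (centralizer (pCore 2 ↥(K ⊔ (T : Subgroup G)) : Set ↥(K ⊔ (T : Subgroup G))) ≤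
        pCore 2 ↥(K ⊔ (T : Subgroup G))) ∧
      (centralizer (pCore 2 ↥K : Set ↥K) ≤ pCore 2 ↥K) := by
  have : Fact (Nat.Prime 2) := ⟨Nat.prime_two⟩
  obtain ⟨⟨hne, hperf, hsub, -⟩, -, hO⟩ := hK
  set Y := K ⊔ (T : Subgroup G) with hY
  have hKY : K ≤ Y := le_sup_left
  have hTY : (T : Subgroup G) ≤ Y := le_sup_right
  have hperf' : ⁅K, K⁆ = K := by
    rw [H18.commutator_subgroupOf hKY hKY] at hperf
    have := congrArg (Subgroup.map Y.subtype) hperf
    rw [map_subgroupOf_eq_of_le hKY, map_subgroupOf_eq_of_le] at this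
    · exact this
    · exact (Subgroup.commutator_le_self K).trans hKY
  -- the 2-local `N_G(O_2(Y))`
  set P := pCoreOf 2 Y with hP
  set N := normalizer (P : Set G) with hN
  have hPne : P ≠ ⊥ := by
    intro h
    apply hO
    exact H18.pCoreOf_eq_bot_iff.1 h
  have hPp : IsPGroup 2 P := H18.isPGroup_pCoreOf Y
  have hYN : Y ≤ N := H18.le_normalizer_pCoreOf Y
  have hNc : centralizer (pCore 2 ↥N : Set ↥N) ≤ pCore 2 ↥N :=
    hE N ⟨P, hPp, hPne, rfl⟩ ⟨T, hTY.trans hYN⟩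
  have hYc : centralizer (pCore 2 ↥Y : Set ↥Y) ≤ pCore 2 ↥Y := by
    have h1 := H19.charP_of_normalized hNc (Y.subgroupOf N) (by
      refine le_trans (H18.pCore_le_sylow (T.subtype (hTY.trans hYN))) ?_
      refine le_trans ?_ le_normalizer
      rw [Sylow.coe_subtype]
      exact comap_mono hTY)
    exact H10.charP_equiv (subgroupOfEquivOfLe hYN) h1
  refine ⟨?_, hperf', hsub, hYc, ?_⟩
  · rintro rfl
    exact hne (by simp)
  · have h1 := H19.charP_subnormal hYc _ hsub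
    exact H10.charP_equiv (subgroupOfEquivOfLe hKY) h1

open Subgroup in
theorem oddGen {G : Type*} [Group G] [Finite G] {K : Subgroup G}
    (h : (pResidual 2 K).map K.subtype = K) : oddGenerated K = K := by
  rw [H18.pRes_eq_closure] at h
  rw [oddGenerated]
  convert h using 5
  rw [← Nat.coprime_two_right]

open Subgroup in
theorem moduleV_eq {G : Type*} [Group G] (K : Subgroup G) : moduleV K =
    ⁅omegaOne 2 (pCoreOf 2 K ⊓ centralizer (pCoreOf 2 K : Set G)), K⁆ := rfl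

open Subgroup in
theorem main {G : Type*} [Group G] [Finite G] (hE : Cfsg.IsOfEvenCharacteristic G) (T : Sylow 2 G)
    (L K : Subgroup G) (hL : L ∈ Cfsg.calLf (T : Subgroup G)) (hK : K ∈ Cfsg.calL (T : Subgroup G))
    (hLK : L ≤ K) : K ∈ Cfsg.calLf (T : Subgroup G) := by
  have : Fact (Nat.Prime 2) := ⟨Nat.prime_two⟩
  obtain ⟨hL1, hLX, hLV⟩ := hL
  obtain ⟨hLne, hLp, hLs, hLYc, hLc⟩ := aux hE T L hL1
  obtain ⟨hKne, hKp, hKs, hKYc, hKc⟩ := aux hE T K hK
  have hKO := H13.pRes_eq_self_of_perfect (p := 2) hKp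
  have hLO := H13.pRes_eq_self_of_perfect (p := 2) hLp
  refine ⟨hK, ⟨hKne, oddGen hKO, H19.fstar_eq_pCore_of_charP hKc⟩, ?_⟩
  rw [moduleV_eq, H13.pCoreOf_eq_inf le_sup_left hKs]
  refine H13.commutator_omegaZ_inf_ne_bot (H13.pCoreOf_le_normalizer le_sup_left hKs hKO)
    (le_sup_left.trans (H18.le_normalizer_pCoreOf _)) hKp ?_
  intro hcen
  apply hLV
  rw [moduleV_eq, H13.pCoreOf_eq_inf le_sup_left hLs]
  have h1 : ∀ l ∈ L, ∀ z ∈ omegaOne 2 (pCoreOf 2 (L ⊔ T) ⊓ centralizer (pCoreOf 2 (L ⊔ T) : Set G)),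
      l * z = z * l := by
    intro l hl z hz
    apply hcen l (hLK hl) z
    -- `O_2(KT) ≤ O_2(LT)`
    have hTp : pCoreOf 2 (K ⊔ (T : Subgroup G)) ≤ T := by
      have h2 := H18.pCore_le_sylow (T.subtype (le_sup_right : (T : Subgroup G) ≤ K ⊔ T))
      rw [Sylow.coe_subtype] at h2
      have h3 := map_mono (f := (K ⊔ (T : Subgroup G)).subtype) h2
      rwa [map_subgroupOf_eq_of_le le_sup_right] at h3
    have hle : pCoreOf 2 (K ⊔ (T : Subgroup G)) ≤ pCoreOf 2 (L ⊔ (T : Subgroup G)) := by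
      apply H18.le_pCoreOf (hTp.trans le_sup_right) _ (H18.isPGroup_pCoreOf _)
      exact (sup_le_sup_right hLK _).trans (H18.le_normalizer_pCoreOf _)
    rw [H13.mem_omegaZ_iff] at hz ⊢
    have hzc : z ∈ centralizer (pCoreOf 2 (K ⊔ (T : Subgroup G)) : Set G) :=
      centralizer_le hle hz.2.1
    refine ⟨?_, hzc, hz.2.2⟩
    apply H18.charP_iff_pCoreOf.1 hKYc
    refine ⟨?_, hzc⟩
    have h4 := H18.pCoreOf_le _ hz.1
    exact (sup_le_sup_right hLK _) h4
  have h2 := H13.centralizes_omegaZ_inf (H18.isPGroup_pCoreOf _)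
    (H13.pCoreOf_le_normalizer le_sup_left hLs hLO)
    (le_sup_left.trans (H18.le_normalizer_pCoreOf _)) hLO h1
  rw [eq_bot_iff, commutator_le]
  intro z hz l hl
  rw [mem_bot, commutatorElement_eq_one_iff_mul_comm]
  exact (h2 l hl z hz).symm


/-- Let G be a non-abelian finite simple QTKE-group and T a Sylow 2-subgroup of G, and let L be a member of ℒ_f(G, T) (a member of ℒ(G, T) that lies in 𝒳 — L ≠ 1, L = O²(L), F*(L) = O₂(L) — and acts nontrivially on Ω₁(Z(O₂(L)))). Then (1) every member K of ℒ(G, T) containing L is again in ℒ_f(G, T) (a sharper form of (1) also compares the modules [Ω₁(Z(R)), L] and [Ω₁(Z(R')), K] for suitable 2-subgroups R, R'; that comparison is not included); and (2) if L is maximal under inclusion among the members of ℒ_f(G, T), then L is a maximal member of ℒ(G, T), hence a member of ℒ_f*(G, T). -/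
theorem result {G : Type*} [Group G] [Finite G] [IsSimpleGroup G]
    (hG : ¬ IsMulCommutative G) (hQ : Cfsg.IsQTKE G) (T : Sylow 2 G) (L : Subgroup G)
    (hL : L ∈ Cfsg.calLf (T : Subgroup G)) :
    (∀ K ∈ Cfsg.calL (T : Subgroup G), L ≤ K → K ∈ Cfsg.calLf (T : Subgroup G)) ∧
    ((∀ K ∈ Cfsg.calLf (T : Subgroup G), L ≤ K → K = L) → L ∈ Cfsg.calLfMax (T : Subgroup G)) := by
  have hm := fun K hK hLK => main hQ.2.2 T L K hL hK hLK
  refine ⟨hm, fun hmax => ⟨⟨hL.1, fun K hK hLK => ?_⟩, hL.2⟩⟩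
  exact hmax K (hm K hK hLK) hLK

end Cfsg.Agent.S1851
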