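import Cfsg.Statements.S1957
import Cfsg.Agent.H23.Coprime4
import Cfsg.Agent.H1.Cores
import Cfsg.Agent.H18.PCore
import Cfsg.Agent.H12.BgD
import Cfsg.Agent.H14.Cyc3

set_option autoImplicit false
open Cfsg

namespace Cfsg.Agent.S1957

open Subgroup
open scoped Pointwise

/-- the stabilizer of the chain `Q ≥ ⟨u⟩` -/
theorem mem_Q {G : Type*} [Group G] [Finite G] {N Q : Subgroup G} {u : G} (hu2 : u * u = 1)
    (huN : ∀ n ∈ N, n * u = u * n) (hQn : ∀ n ∈ N, ∀ q ∈ Q, n * q * n⁻¹ ∈ Q)
    (huQ : u ∈ Q) (hQc : ∀ n ∈ N, (∀ q ∈ Q, n * q = q * n) → n ∈ Q) (hQN : Q ≤ N) (hQ2 : IsPGroup 2 Q)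
    (hmax : ∀ R : Subgroup G, R ≤ N → (∀ n ∈ N, ∀ q ∈ R, n * q * n⁻¹ ∈ R) → IsPGroup 2 R → R ≤ Q)
    {a : G} (ha : a ∈ N) (haq : ∀ q ∈ Q, a * q * a⁻¹ = q ∨ a * q * a⁻¹ = q * u) : a ∈ Q := by
  let S : Subgroup G :=
    { carrier := {g | g ∈ N ∧ ∀ q ∈ Q, g * q * g⁻¹ = q ∨ g * q * g⁻¹ = q * u}
      mul_mem' := by
        rintro g h ⟨hg, hgq⟩ ⟨hh, hhq⟩
        refine ⟨mul_mem hg hh, fun q hq => ?_⟩
        have e : g * h * q * (g * h)⁻¹ = g * (h * q * h⁻¹) * g⁻¹ := by group
        rw [e]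
        have e2 : g * (q * u) * g⁻¹ = (g * q * g⁻¹) * u := by
          calc g * (q * u) * g⁻¹ = g * q * (u * g⁻¹) := by group
            _ = g * q * (g⁻¹ * u) := by rw [huN _ (inv_mem hg)]
            _ = _ := by group
        rcases hhq q hq with h1 | h1
        · rw [h1]; exact hgq q hq
        · rw [h1, e2]
          rcases hgq q hq with h2 | h2
          · rw [h2]; right; rfl
          · rw [h2]; left; rw [mul_assoc, hu2, mul_one]
      one_mem' := ⟨one_mem _, fun q _ => Or.inl (by group)⟩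
      inv_mem' := by
        rintro g ⟨hg, hgq⟩
        refine ⟨inv_mem hg, fun q hq => ?_⟩
        rw [inv_inv]
        have h3 : g⁻¹ * q * g ∈ Q := by
          have := hQn _ (inv_mem hg) q hq
          rwa [inv_inv] at this
        have e : g * (g⁻¹ * q * g) * g⁻¹ = q := by group
        rcases hgq _ h3 with h1 | h1
        · left; rw [← h1, e]
        · right
          rw [e] at h1
          have h4 : g⁻¹ * q * g * u * u = q * u := by rw [← h1]
          rwa [mul_assoc, hu2, mul_one] at h4 }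
  have hSN : S ≤ N := fun g hg => hg.1
  have hS2 : IsPGroup 2 S := by
    intro g
    have h1 : (g : G) * g ∈ Q := by
      apply hQc _ (mul_mem g.2.1 g.2.1)
      intro q hq
      have e2 : (g : G) * (q * u) * (g : G)⁻¹ = ((g : G) * q * (g : G)⁻¹) * u := by
        calc (g : G) * (q * u) * (g : G)⁻¹ = g * q * (u * (g : G)⁻¹) := by group
          _ = g * q * ((g : G)⁻¹ * u) := by rw [huN _ (inv_mem g.2.1)]
          _ = _ := by group
      have h2 : (g : G) * g * q * ((g : G) * g)⁻¹ = q := by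
        have e : (g : G) * g * q * ((g : G) * g)⁻¹ = g * (g * q * (g : G)⁻¹) * (g : G)⁻¹ := by group
        rw [e]
        rcases g.2.2 q hq with h3 | h3
        · rw [h3, h3]
        · rw [h3, e2, h3, mul_assoc, hu2, mul_one]
      calc (g : G) * g * q = (g : G) * g * q * ((g : G) * g)⁻¹ * ((g : G) * g) := by group
        _ = q * ((g : G) * g) := by rw [h2]
    obtain ⟨k, hk⟩ := hQ2 ⟨_, h1⟩
    refine ⟨k + 1, Subtype.ext ?_⟩
    have h2 := congrArg Subtype.val hk
    simp only [SubmonoidClass.mk_pow] at h2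
    rw [Subgroup.coe_pow, pow_succ', pow_mul, pow_two]
    exact h2
  have hSn : ∀ n ∈ N, ∀ g ∈ S, n * g * n⁻¹ ∈ S := by
    rintro n hn g ⟨hg, hgq⟩
    refine ⟨mul_mem (mul_mem hn hg) (inv_mem hn), fun q hq => ?_⟩
    have h3 : n⁻¹ * q * n ∈ Q := by
      have := hQn _ (inv_mem hn) q hq
      rwa [inv_inv] at this
    have e : n * g * n⁻¹ * q * (n * g * n⁻¹)⁻¹ = n * (g * (n⁻¹ * q * n) * g⁻¹) * n⁻¹ := by group
    rw [e]
    rcases hgq _ h3 with h1 | h1
    · left; rw [h1]; group
    · right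
      rw [h1]
      calc n * (n⁻¹ * q * n * u) * n⁻¹ = q * (n * u) * n⁻¹ := by group
        _ = q * (u * n) * n⁻¹ := by rw [huN n hn]
        _ = q * u := by group
  exact hmax S hSN hSn hS2 ⟨ha, haq⟩

theorem cyc_inv {C : Type*} [Group C] [Finite C] (hC : IsCyclic C) {w u : C} (hw : w * w = 1) (hu : u * u = 1)
    (hu1 : u ≠ 1) : w = 1 ∨ w = u := by
  by_cases hw1 : w = 1
  · exact Or.inl hw1
  right
  have ow : orderOf w = 2 := orderOf_eq_prime (by rw [pow_two, hw]) hw1
  have ou : orderOf u = 2 := orderOf_eq_prime (by rw [pow_two, hu]) hu1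
  have h1 : zpowers w = zpowers u := Cfsg.Agent.H2.zpowers_eq_of_orderOf_eq (by rw [ow, ou])
  have h2 : w ∈ zpowers u := by rw [← h1]; exact mem_zpowers w
  obtain ⟨k, hk⟩ := (Submonoid.mem_powers_iff w u).mp (mem_powers_iff_mem_zpowers.mpr h2)
  rw [← hk] at hw1 ⊢
  rcases Nat.even_or_odd k with h3 | h3
  · obtain ⟨j, rfl⟩ := h3
    exfalso
    apply hw1
    rw [← two_mul, pow_mul, pow_two, hu, one_pow]
  · obtain ⟨j, rfl⟩ := h3
    rw [pow_succ, pow_mul, pow_two, hu, one_pow, one_mul]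

theorem key {G : Type*} [Group G] [Finite G] (P : Sylow 2 G) (U : Subgroup G)
    (hUP : U ≤ (P : Subgroup G)) (hUn : (P : Subgroup G) ≤ Subgroup.normalizer (U : Set G))
    (hUsq : ∀ a ∈ U, a * a = 1) (hU4 : Nat.card U = 4)
    (hUZ : ¬ IsCyclic ↥((P : Subgroup G) ⊓ Subgroup.centralizer ((P : Subgroup G) : Set G)) →
      U ≤ Subgroup.centralizer ((P : Subgroup G) : Set G))
    (hchar : ∀ u ∈ U, u ≠ 1 → ∀ n ∈ centralizer ({u} : Set G),
      (∀ q ∈ pCoreOf 2 (centralizer ({u} : Set G)), n * q = q * n) → n ∈ pCoreOf 2 (centralizer ({u} : Set G)))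
    {u : G} (hu : u ∈ U) (hu1 : u ≠ 1) : U ≤ pCoreOf 2 (centralizer ({u} : Set G)) := by
  classical
  have := Fintype.ofFinite G
  have hinv : ∀ a ∈ U, a⁻¹ = a := fun a ha => inv_eq_of_mul_eq_one_left (hUsq a ha)
  have hUab : ∀ a ∈ U, ∀ b ∈ U, a * b = b * a := by
    intro a ha b hb
    calc a * b = (a * b)⁻¹ := (hinv _ (mul_mem ha hb)).symm
      _ = b⁻¹ * a⁻¹ := mul_inv_rev _ _
      _ = b * a := by rw [hinv b hb, hinv a ha]
  have hlist : ∀ a ∈ U, ∀ b ∈ U, a ≠ 1 → b ≠ 1 → a ≠ b → ∀ y ∈ U, y = 1 ∨ y = a ∨ y = b ∨ y = a * b := by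
    intro a ha b hb ha1 hb1 hab y hy
    have h1 : ({1, a, b, a * b} : Finset G) ⊆ Finset.univ.filter (· ∈ U) := by
      intro w hw
      simp only [Finset.mem_insert, Finset.mem_singleton] at hw
      rw [Finset.mem_filter]
      refine ⟨Finset.mem_univ _, ?_⟩
      rcases hw with rfl | rfl | rfl | rfl
      · exact one_mem _
      · exact ha
      · exact hb
      · exact mul_mem ha hb
    have h2 : ({1, a, b, a * b} : Finset G).card = 4 := by
      have k1 : a * b ≠ 1 := by
        intro h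
        apply hab
        rw [← hinv b hb]
        exact eq_inv_of_mul_eq_one_left h
      have k2 : a * b ≠ a := by
        intro h; apply hb1; exact mul_eq_left.mp h
      have k3 : a * b ≠ b := by
        intro h; apply ha1; exact mul_eq_right.mp h
      rw [Finset.card_insert_of_notMem, Finset.card_insert_of_notMem, Finset.card_insert_of_notMem,
        Finset.card_singleton]
      · simpa using k3.symm
      · simp only [Finset.mem_insert, Finset.mem_singleton, not_or]
        exact ⟨hab, k2.symm⟩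
      · simp only [Finset.mem_insert, Finset.mem_singleton, not_or]
        exact ⟨ha1.symm, hb1.symm, k1.symm⟩
    have h3 : (Finset.univ.filter (· ∈ U)).card = 4 := by
      rw [← hU4, Nat.card_eq_fintype_card, Fintype.card_subtype]
    have h4 := Finset.eq_of_subset_of_card_le h1 (by rw [h2, h3])
    have h5 : y ∈ ({1, a, b, a * b} : Finset G) := by
      rw [h4, Finset.mem_filter]; exact ⟨Finset.mem_univ _, hy⟩
    simpa using h5
  have hmax : ∀ N R : Subgroup G, R ≤ N → (∀ n ∈ N, ∀ q ∈ R, n * q * n⁻¹ ∈ R) → IsPGroup 2 R →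
      R ≤ pCoreOf 2 N := by
    intro N R hRN hn hR
    refine Cfsg.Agent.H18.le_pCoreOf hRN ?_ hR
    intro n hn'
    rw [mem_normalizer_iff]
    intro q
    refine ⟨fun hq => hn n hn' q hq, fun hq => ?_⟩
    have h1 := hn n⁻¹ (inv_mem hn') _ hq
    have h2 : n⁻¹ * (n * q * n⁻¹) * n⁻¹⁻¹ = q := by group
    rwa [h2] at h1
  obtain ⟨N, hN⟩ : ∃ N, N = centralizer ({u} : Set G) := ⟨_, rfl⟩
  have hNm : ∀ n, n ∈ N ↔ n * u = u * n := by
    intro n; rw [hN, mem_centralizer_singleton_iff]
  obtain ⟨Q, hQ⟩ : ∃ Q, Q = pCoreOf 2 N := ⟨_, rfl⟩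
  rw [← hN, ← hQ]
  have hch := hchar u hu hu1
  rw [← hN, ← hQ] at hch
  have hQN : Q ≤ N := by rw [hQ]; exact Cfsg.Agent.H18.pCoreOf_le N
  have hQ2 : IsPGroup 2 Q := by rw [hQ]; exact Cfsg.Agent.H18.isPGroup_pCoreOf N
  have hQn : ∀ n ∈ N, ∀ q ∈ Q, n * q * n⁻¹ ∈ Q := by
    intro n hn q hq
    have h1 : N ≤ normalizer (Q : Set G) := by rw [hQ]; exact Cfsg.Agent.H18.le_normalizer_pCoreOf N
    exact (mem_normalizer_iff.mp (h1 hn) q).mp hq
  have huz : ∀ y ∈ zpowers u, y = 1 ∨ y = u := by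
    intro y hy
    obtain ⟨k, rfl⟩ := (Submonoid.mem_powers_iff y u).mp (mem_powers_iff_mem_zpowers.mpr hy)
    rcases Nat.even_or_odd k with h3 | h3
    · obtain ⟨j, rfl⟩ := h3
      left
      rw [← two_mul, pow_mul, pow_two, hUsq u hu, one_pow]
    · obtain ⟨j, rfl⟩ := h3
      right
      rw [pow_succ, pow_mul, pow_two, hUsq u hu, one_pow, one_mul]
  have huQ : u ∈ Q := by
    have h1 : zpowers u ≤ Q := by
      rw [hQ]
      apply hmax
      · rw [zpowers_le, hNm]
      · intro n hn q hq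
        rcases huz q hq with rfl | rfl
        · rw [mul_one, mul_inv_cancel]; exact one_mem _
        · rw [(hNm n).mp hn, mul_inv_cancel_right]; exact mem_zpowers _
      · intro y
        refine ⟨1, ?_⟩
        rw [pow_one]
        rcases huz y y.2 with h | h
        · apply Subtype.ext; rw [coe_pow, h]; simp
        · apply Subtype.ext; rw [coe_pow, h, pow_two]; exact hUsq u hu
    exact h1 (mem_zpowers u)
  have hmQ : ∀ a ∈ N, (∀ q ∈ Q, a * q * a⁻¹ = q ∨ a * q * a⁻¹ = q * u) → a ∈ Q := by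
    intro a ha haq
    refine mem_Q (hUsq u hu) (fun n hn => (hNm n).mp hn) hQn huQ hch hQN hQ2 ?_ ha haq
    intro R h1 h2 h3
    rw [hQ]
    exact hmax N R h1 h2 h3
  have hUN : U ≤ N := fun v hv => (hNm v).mpr (hUab v hv u hu)
  have hP1 : ∀ y ∈ (P : Subgroup G), ∀ v ∈ U, y * v * y⁻¹ ∈ U := by
    intro y hy v hv
    exact (mem_normalizer_iff.mp (hUn hy) v).mp hv
  by_cases hcase : ∀ y ∈ (P : Subgroup G), y * u = u * y
  · -- `u` is central in `P`
    have hPN : (P : Subgroup G) ≤ N := fun y hy => (hNm y).mpr (hcase y hy)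
    have hQP : Q ≤ (P : Subgroup G) := by
      rw [hQ]
      intro q hq
      obtain ⟨q', hq', rfl⟩ := hq
      exact Cfsg.Agent.H1.pCore_le_sylow (P.subtype hPN) hq'
    intro v hv
    apply hmQ v (hUN hv)
    intro q hq
    have h1 : q⁻¹ * v * q ∈ U := by
      have := hP1 q⁻¹ (inv_mem (hQP hq)) v hv
      rwa [inv_inv] at this
    have e : v * q * v⁻¹ = q * (q⁻¹ * v * q * v) := by
      rw [hinv v hv]; group
    rw [e]
    by_cases hv1 : v = 1
    · left; rw [hv1]; group
    by_cases hvu : v = u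
    · left
      rw [hvu]
      have h2 := hcase q (hQP hq)
      calc q * (q⁻¹ * u * q * u) = (u * q) * u := by group
        _ = q * (u * u) := by rw [← h2]; group
        _ = q := by rw [hUsq u hu, mul_one]
    rcases hlist u hu v hv hu1 hv1 (Ne.symm hvu) _ h1 with h2 | h2 | h2 | h2
    · exfalso
      apply hv1
      calc v = q * (q⁻¹ * v * q) * q⁻¹ := by group
        _ = 1 := by rw [h2]; group
    · exfalso
      apply hvu
      calc v = q * (q⁻¹ * v * q) * q⁻¹ := by group
        _ = q * u * q⁻¹ := by rw [h2]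
        _ = u := by rw [hcase q (hQP hq)]; group
    · left; rw [h2, hUsq v hv, mul_one]
    · right; rw [h2, mul_assoc u, hUsq v hv, mul_one]
  -- `u` is not central in `P`
  push Not at hcase
  obtain ⟨y, hyP, hyu⟩ := hcase
  have hcyc : IsCyclic ↥((P : Subgroup G) ⊓ Subgroup.centralizer ((P : Subgroup G) : Set G)) := by
    by_contra hcon
    have h1 := hUZ hcon hu
    exact hyu (mem_centralizer_iff.mp h1 y hyP)
  obtain ⟨z, hz, hzc, hz1⟩ : ∃ z ∈ U, (∀ x ∈ (P : Subgroup G), x * z = z * x) ∧ z ≠ 1 := by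
    have hn : (U.subgroupOf (P : Subgroup G)).Normal := by
      constructor
      intro v hv x
      rw [mem_subgroupOf] at hv ⊢
      exact hP1 x x.2 v hv
    have hne : U.subgroupOf (P : Subgroup G) ≠ ⊥ := by
      intro h1
      rw [subgroupOf_eq_bot, disjoint_iff, inf_eq_left.mpr hUP] at h1
      rw [h1, Subgroup.card_bot] at hU4; omega
    have h1 := Cfsg.Agent.H2.inf_center_ne_bot_of_normal P.isPGroup' (U.subgroupOf (P : Subgroup G)) hne
    obtain ⟨⟨z, hz⟩, hz1⟩ := ne_bot_iff_exists_ne_one.mp h1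
    refine ⟨z, mem_subgroupOf.mp (mem_inf.mp hz).1, fun x hx => ?_, ?_⟩
    · exact congrArg Subtype.val (mem_center_iff.mp (mem_inf.mp hz).2 ⟨x, hx⟩)
    · intro h2
      exact hz1 (Subtype.ext (Subtype.ext h2))
  have hzu : z ≠ u := by
    rintro rfl; exact hyu (hzc y hyP)
  have hzz := hUsq z hz
  have huu := hUsq u hu
  obtain ⟨P₀, hP₀⟩ : ∃ P₀, P₀ = (P : Subgroup G) ⊓ N := ⟨_, rfl⟩
  have hP₀m : ∀ x, x ∈ P₀ ↔ x ∈ (P : Subgroup G) ∧ x * u = u * x := by
    intro x; rw [hP₀, mem_inf, hNm]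
  have hact : ∀ x ∈ (P : Subgroup G), x * u * x⁻¹ = u ∨ x * u * x⁻¹ = z * u := by
    intro x hx
    rcases hlist z hz u hu hz1 hu1 hzu _ (hP1 x hx u hu) with h1 | h1 | h1 | h1
    · exfalso; apply hu1
      calc u = x⁻¹ * (x * u * x⁻¹) * x := by group
        _ = 1 := by rw [h1]; group
    · exfalso; apply hzu
      have h2 : z = u := by
        calc z = x⁻¹ * (x * z) := by group
          _ = x⁻¹ * (z * x) := by rw [hzc x hx]
          _ = x⁻¹ * z * x := by group
          _ = x⁻¹ * (x * u * x⁻¹) * x := by rw [h1]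
          _ = u := by group
      exact h2
    · exact Or.inl h1
    · exact Or.inr h1
  have hcom : ∀ x, x * u * x⁻¹ = u ↔ x * u = u * x := fun x => mul_inv_eq_iff_eq_mul
  have hzu2 : z * u ≠ u := fun h => hz1 (mul_eq_right.mp h)
  have hidx : P₀.relIndex (P : Subgroup G) = 2 := by
    rw [relIndex_eq_two_iff]
    refine ⟨y, hyP, fun b hb => ?_⟩
    have hy2 : y * u * y⁻¹ = z * u := by
      rcases hact y hyP with h1 | h1
      · exact absurd ((hcom y).mp h1) hyu
      · exact h1
    have e : b * y * u * (b * y)⁻¹ = z * (b * u * b⁻¹) := by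
      calc b * y * u * (b * y)⁻¹ = b * (y * u * y⁻¹) * b⁻¹ := by group
        _ = (b * z) * u * b⁻¹ := by rw [hy2]; group
        _ = z * (b * u * b⁻¹) := by rw [hzc b hb]; group
    rcases hact b hb with h1 | h1
    · right
      refine ⟨(hP₀m b).mpr ⟨hb, (hcom b).mp h1⟩, fun h2 => ?_⟩
      have h3 := (hcom _).mpr ((hP₀m _).mp h2).2
      rw [e, h1] at h3
      exact hzu2 h3
    · left
      refine ⟨(hP₀m _).mpr ⟨mul_mem hb hyP, (hcom _).mp ?_⟩, fun h2 => ?_⟩
      · rw [e, h1, ← mul_assoc, hzz, one_mul]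
      · have h3 := (hcom _).mpr ((hP₀m _).mp h2).2
        rw [h1] at h3
        exact hzu2 h3
  have hP₀P : P₀ ≤ (P : Subgroup G) := by rw [hP₀]; exact inf_le_left
  have hP₀N : P₀ ≤ N := by rw [hP₀]; exact inf_le_right
  have hcardP : Nat.card P₀ * 2 = Nat.card (P : Subgroup G) := by
    have h1 := Cfsg.Agent.H1.card_mul_relIndex hP₀P
    rwa [hidx] at h1
  have hP₀p : IsPGroup 2 P₀ := P.isPGroup'.to_le hP₀P
  obtain ⟨S', hS'⟩ := (hP₀p.comap_subtype (K := N)).exists_le_sylow
  obtain ⟨S, hS⟩ : ∃ S, S = (S' : Subgroup N).map N.subtype := ⟨_, rfl⟩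
  have hSN : S ≤ N := by rw [hS]; exact map_subtype_le _
  have hS2 : IsPGroup 2 S := by rw [hS]; exact S'.isPGroup'.map _
  have hP₀S : P₀ ≤ S := by
    intro x hx
    rw [hS]
    exact ⟨⟨x, hP₀N hx⟩, hS' (mem_subgroupOf.mpr hx), rfl⟩
  have hQS : Q ≤ S := by
    rw [hQ, hS]
    intro q hq
    obtain ⟨q', hq', rfl⟩ := hq
    exact ⟨q', Cfsg.Agent.H1.pCore_le_sylow S' hq', rfl⟩
  have hzP₀ : z ∈ P₀ := (hP₀m z).mpr ⟨hUP hz, hUab z hz u hu⟩
  have hzQ : z ∈ Q := by
    apply hmQ z (hUN hz)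
    intro q hq
    by_cases hqP : q ∈ P₀
    · left
      rw [← hzc q (hP₀P hqP), mul_inv_cancel_right]
    obtain ⟨R, hR⟩ := hS2.exists_le_sylow
    have hRcard : Nat.card (R : Subgroup G) = Nat.card P₀ * 2 := by
      rw [hcardP]
      exact Nat.card_congr (Sylow.equiv R P).toEquiv
    have hSidx : P₀.relIndex S = 2 := by
      have h1 := Cfsg.Agent.H1.card_mul_relIndex hP₀S
      have h2 : Nat.card S ≤ Nat.card (R : Subgroup G) := Subgroup.card_le_of_le hR
      have h3 : 0 < Nat.card P₀ := Nat.card_pos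
      rw [hRcard, ← h1] at h2
      have h4 : P₀.relIndex S ≤ 2 := Nat.le_of_mul_le_mul_left h2 h3
      have h5 : P₀.relIndex S ≠ 1 := by
        rw [Ne, relIndex_eq_one]
        intro h6; exact hqP (h6 (hQS hq))
      have h6 : P₀.relIndex S ≠ 0 := by
        rw [relIndex]; exact FiniteIndex.index_ne_zero
      omega
    have hSR : S = (R : Subgroup G) := by
      apply eq_of_le_of_card_ge hR
      rw [hRcard, ← hSidx, Cfsg.Agent.H1.card_mul_relIndex hP₀S]
    have hI : ∀ a ∈ S, ∀ b ∈ S, (a * b ∈ P₀ ↔ (a ∈ P₀ ↔ b ∈ P₀)) := by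
      intro a ha b hb
      have := mul_mem_iff_of_index_two (H := P₀.subgroupOf S) hSidx (a := ⟨a, ha⟩) (b := ⟨b, hb⟩)
      simpa [mem_subgroupOf] using this
    have hqS := hQS hq
    have hqi : q⁻¹ ∉ P₀ := fun h => hqP (by have := inv_mem h; rwa [inv_inv] at this)
    have hqq : q * q ∈ P₀ := (hI q hqS q hqS).mpr ⟨fun h => h, fun h => h⟩
    obtain ⟨z', hz'⟩ : ∃ z', z' = q * z * q⁻¹ := ⟨_, rfl⟩
    have hz'P₀ : ∀ x ∈ P₀, x * z' = z' * x := by
      intro x hx
      have h1 : q⁻¹ * x ∉ P₀ := fun h => by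
        have := (hI q⁻¹ (inv_mem hqS) x (hP₀S hx)).mp h
        exact hqi (this.mpr hx)
      have h2 : q⁻¹ * x * q ∈ P₀ := by
        rw [hI _ (mul_mem (inv_mem hqS) (hP₀S hx)) q hqS]
        exact ⟨fun h => absurd h h1, fun h => absurd h hqP⟩
      have h3 := hzc _ (hP₀P h2)
      calc x * z' = q * ((q⁻¹ * x * q) * z) * q⁻¹ := by rw [hz']; group
        _ = q * (z * (q⁻¹ * x * q)) * q⁻¹ := by rw [h3]
        _ = z' * x := by rw [hz']; group
    have hz'z' : z' * z' = 1 := by
      calc z' * z' = q * (z * z) * q⁻¹ := by rw [hz']; group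
        _ = 1 := by rw [hzz]; group
    have hzz' : z * z' = z' * z := hz'P₀ z hzP₀
    obtain ⟨w, hw⟩ : ∃ w, w = z * z' := ⟨_, rfl⟩
    have hwP₀ : ∀ x ∈ P₀, x * w = w * x := by
      intro x hx
      calc x * w = (x * z) * z' := by rw [hw]; group
        _ = z * (x * z') := by rw [hzc x (hP₀P hx)]; group
        _ = w * x := by rw [hz'P₀ x hx, hw]; group
    have hqw : q * w = w * q := by
      have h1 : q * w * q⁻¹ = w := by
        calc q * w * q⁻¹ = (q * z * q⁻¹) * (((q * q) * z) * (q * q)⁻¹) := by rw [hw, hz']; group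
          _ = z' * (z * (q * q) * (q * q)⁻¹) := by rw [hzc _ (hP₀P hqq), hz']
          _ = z' * z := by group
          _ = w := by rw [hw, hzz']
      exact mul_inv_eq_iff_eq_mul.mp h1
    have hwS : ∀ s ∈ S, s * w = w * s := by
      intro s hs
      by_cases hsP : s ∈ P₀
      · exact hwP₀ s hsP
      · have h1 : q⁻¹ * s ∈ P₀ := by
          rw [hI _ (inv_mem hqS) s hs]
          exact ⟨fun h => absurd h hqi, fun h => absurd h hsP⟩
        calc s * w = q * ((q⁻¹ * s) * w) := by group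
          _ = (q * w) * (q⁻¹ * s) := by rw [hwP₀ _ h1]; group
          _ = w * s := by rw [hqw]; group
    have hwmem : w ∈ S := by
      rw [hw, hz']
      exact mul_mem (hP₀S hzP₀) (mul_mem (mul_mem hqS (hP₀S hzP₀)) (inv_mem hqS))
    have hww : w * w = 1 := by
      calc w * w = z * (z' * z) * z' := by rw [hw]; group
        _ = (z * z) * (z' * z') := by rw [← hzz']; group
        _ = 1 := by rw [hzz, hz'z', one_mul]
    obtain ⟨g, hg⟩ := MulAction.exists_smul_eq G R P
    have hgm : ∀ s ∈ S, g * s * g⁻¹ ∈ (P : Subgroup G) := by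
      intro s hs
      rw [hSR] at hs
      rw [← hg]
      exact Subgroup.smul_mem_pointwise_smul s (MulAut.conj g) (R : Subgroup G) hs
    have hgm2 : ∀ x ∈ (P : Subgroup G), g⁻¹ * x * g ∈ S := by
      intro x hx
      rw [hSR]
      rw [← hg] at hx
      have h1 : x ∈ (MulAut.conj g) • (R : Subgroup G) := hx
      rw [Subgroup.mem_pointwise_smul_iff_inv_smul_mem] at h1
      have h2 : (MulAut.conj g)⁻¹ • x = g⁻¹ * x * g := by
        rw [← map_inv, MulAut.smul_def, MulAut.conj_apply, inv_inv]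
      rwa [h2] at h1
    have hcent : ∀ s ∈ S, (∀ x ∈ S, x * s = s * x) → g * s * g⁻¹ ∈ (P : Subgroup G) ⊓ centralizer ((P : Subgroup G) : Set G) := by
      intro s hs hc
      refine mem_inf.mpr ⟨hgm s hs, mem_centralizer_iff.mpr fun x hx => ?_⟩
      have h1 := hc _ (hgm2 x hx)
      calc x * (g * s * g⁻¹) = g * ((g⁻¹ * x * g) * s) * g⁻¹ := by group
        _ = g * (s * (g⁻¹ * x * g)) * g⁻¹ := by rw [h1]
        _ = g * s * g⁻¹ * x := by group
    have h1 := cyc_inv hcyc (w := ⟨_, hcent w hwmem hwS⟩)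
      (u := ⟨_, hcent u (hQS huQ) (fun x hx => (hNm x).mp (hSN hx))⟩) (Subtype.ext (by
        change g * w * g⁻¹ * (g * w * g⁻¹) = 1
        calc g * w * g⁻¹ * (g * w * g⁻¹) = g * (w * w) * g⁻¹ := by group
          _ = 1 := by rw [hww]; group)) (Subtype.ext (by
        change g * u * g⁻¹ * (g * u * g⁻¹) = 1
        calc g * u * g⁻¹ * (g * u * g⁻¹) = g * (u * u) * g⁻¹ := by group
          _ = 1 := by rw [huu]; group)) (by
        intro h
        apply hu1
        have h2 : g * u * g⁻¹ = 1 := congrArg Subtype.val h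
        calc u = g⁻¹ * (g * u * g⁻¹) * g := by group
          _ = 1 := by rw [h2]; group)
    rcases h1 with h1 | h1
    · left
      have h2 : g * w * g⁻¹ = 1 := congrArg Subtype.val h1
      have h3 : w = 1 := by
        calc w = g⁻¹ * (g * w * g⁻¹) * g := by group
          _ = 1 := by rw [h2]; group
      rw [hw] at h3
      have h4 : z' = z := by
        calc z' = z * z * z' := by rw [hzz, one_mul]
          _ = z * (z * z') := by group
          _ = z := by rw [h3, mul_one]
      rw [hz'] at h4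
      have h5 : q * z = z * q := mul_inv_eq_iff_eq_mul.mp h4
      rw [← h5, mul_inv_cancel_right]
    · right
      have h2 : g * w * g⁻¹ = g * u * g⁻¹ := congrArg Subtype.val h1
      have h3 : w = u := by
        calc w = g⁻¹ * (g * w * g⁻¹) * g := by group
          _ = g⁻¹ * (g * u * g⁻¹) * g := by rw [h2]
          _ = u := by group
      rw [hw] at h3
      have h4 : z' = z * u := by
        calc z' = z * z * z' := by rw [hzz, one_mul]
          _ = z * (z * z') := by group
          _ = z * u := by rw [h3]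
      rw [hz'] at h4
      have h5 : q * z = z * (q * u) := by
        have h6 : q * z = z * u * q := mul_inv_eq_iff_eq_mul.mp h4
        rw [h6, (hNm q).mp (hQN hq)]; group
      calc z * q * z⁻¹ = z * (q * z) := by rw [hinv z hz]; group
        _ = (z * z) * (q * u) := by rw [h5]; group
        _ = q * u := by rw [hzz, one_mul]
  intro v hv
  rcases hlist u hu z hz hu1 hz1 (Ne.symm hzu) v hv with h1 | h1 | h1 | h1
  · rw [h1]; exact one_mem _
  · rw [h1]; exact huQ
  · rw [h1]; exact hzQ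
  · rw [h1]; exact mul_mem huQ hzQ

/-- Let `G` be a finite non-abelian simple group in which every local subgroup is solvable and which is of characteristic 2 type. Let `P` be a Sylow 2-subgroup of `G` and `U` a normal subgroup of `P` that is a four-group, with `U` central in `P` if the centre of `P` is not cyclic. Then `U` centralizes every subgroup of odd order of `G` that it normalizes. -/
theorem result {G : Type*} [Group G] [Finite G]
    [IsSimpleGroup G] (hna : ¬ IsMulCommutative G) (hN : Cfsg.IsNGroup G) (h2 : Cfsg.IsCharacteristicTwoType G)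
    (P : Sylow 2 G) (U : Subgroup G) (hUP : U ≤ (P : Subgroup G)) (hUn : (P : Subgroup G) ≤ Subgroup.normalizer (U : Set G))
    (hU4 : IsKleinFour ↥U)
    (hUZ : ¬ IsCyclic ↥((P : Subgroup G) ⊓ Subgroup.centralizer ((P : Subgroup G) : Set G)) →
      U ≤ Subgroup.centralizer ((P : Subgroup G) : Set G))
    (K : Subgroup G) (hK : Odd (Nat.card K)) (hUK : U ≤ Subgroup.normalizer (K : Set G)) :
    U ≤ Subgroup.centralizer (K : Set G) := by
  classical
  have := Fintype.ofFinite G
  have hU4c : Nat.card U = 4 := hU4.card_four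
  have hUsq : ∀ a ∈ U, a * a = 1 := by
    intro a ha
    have h1 : (⟨a, ha⟩ : U) ^ 2 = 1 := by
      have h2 := Monoid.pow_exponent_eq_one (⟨a, ha⟩ : U)
      rwa [hU4.exponent_two] at h2
    have h2 := congrArg Subtype.val h1
    rwa [pow_two] at h2
  have hcent : ∀ u ∈ U, u ≠ 1 → Subgroup.normalizer ((Subgroup.zpowers u : Subgroup G) : Set G) =
      Subgroup.centralizer ({u} : Set G) := by
    intro u hu hu1
    have huz : ∀ y ∈ Subgroup.zpowers u, y = 1 ∨ y = u := by
      intro y hy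
      obtain ⟨k, rfl⟩ := (Submonoid.mem_powers_iff y u).mp (mem_powers_iff_mem_zpowers.mpr hy)
      rcases Nat.even_or_odd k with h3 | h3
      · obtain ⟨j, rfl⟩ := h3
        left
        rw [← two_mul, pow_mul, pow_two, hUsq u hu, one_pow]
      · obtain ⟨j, rfl⟩ := h3
        right
        rw [pow_succ, pow_mul, pow_two, hUsq u hu, one_pow, one_mul]
    ext n
    rw [Subgroup.mem_centralizer_singleton_iff, Subgroup.mem_normalizer_iff]
    constructor
    · intro h
      rcases huz _ ((h u).mp (Subgroup.mem_zpowers u)) with h1 | h1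
      · exfalso; apply hu1
        calc u = n⁻¹ * (n * u * n⁻¹) * n := by group
          _ = 1 := by rw [h1]; group
      · exact mul_inv_eq_iff_eq_mul.mp h1
    · intro h y
      constructor
      · intro hy
        rcases huz y hy with rfl | rfl
        · rw [mul_one, mul_inv_cancel]; exact one_mem _
        · rw [h, mul_inv_cancel_right]; exact hy
      · intro hy
        rcases huz _ hy with h1 | h1
        · have : y = 1 := by
            calc y = n⁻¹ * (n * y * n⁻¹) * n := by group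
              _ = 1 := by rw [h1]; group
          rw [this]; exact one_mem _
        · have : y = u := by
            calc y = n⁻¹ * (n * y * n⁻¹) * n := by group
              _ = n⁻¹ * (u * n) := by rw [h1]; group
              _ = n⁻¹ * (n * u) := by rw [h]
              _ = u := by group
          rw [this]; exact Subgroup.mem_zpowers u
  have hchar : ∀ u ∈ U, u ≠ 1 → ∀ n ∈ Subgroup.centralizer ({u} : Set G),
      (∀ q ∈ pCoreOf 2 (Subgroup.centralizer ({u} : Set G)), n * q = q * n) →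
      n ∈ pCoreOf 2 (Subgroup.centralizer ({u} : Set G)) := by
    intro u hu hu1 n hn hq
    have h1 := h2.2 (Subgroup.zpowers u) (by
      apply IsPGroup.of_card (n := 1)
      rw [Nat.card_zpowers, pow_one]
      exact orderOf_eq_prime (by rw [pow_two, hUsq u hu]) hu1) (by
      rwa [Ne, Subgroup.zpowers_eq_bot])
    rw [hcent u hu hu1] at h1
    have h3 : (⟨n, hn⟩ : Subgroup.centralizer ({u} : Set G)) ∈
        Subgroup.centralizer (pCore 2 (Subgroup.centralizer ({u} : Set G)) : Set _) := by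
      rw [Subgroup.mem_centralizer_iff]
      intro q hq'
      exact Subtype.ext (hq q ⟨q, hq', rfl⟩).symm
    exact ⟨_, h1 h3, rfl⟩
  have hkey : ∀ u ∈ U, u ≠ 1 → U ≤ pCoreOf 2 (Subgroup.centralizer ({u} : Set G)) := fun u hu hu1 =>
    key P U hUP hUn hUsq hU4c hUZ hchar hu hu1
  have hUab : IsMulCommutative U := by
    constructor; constructor
    intro a b
    have hinv : ∀ a ∈ U, a⁻¹ = a := fun a ha => inv_eq_of_mul_eq_one_left (hUsq a ha)
    apply Subtype.ext
    change (a : G) * b = b * a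
    calc (a : G) * b = ((a : G) * b)⁻¹ := (hinv _ (mul_mem a.2 b.2)).symm
      _ = (b : G)⁻¹ * (a : G)⁻¹ := mul_inv_rev _ _
      _ = b * a := by rw [hinv b b.2, hinv a a.2]
  have hUnc : ¬ IsCyclic U := hU4.not_isCyclic
  have hcop : (Nat.card U).Coprime (Nat.card K) := by
    rw [hU4c]
    have : (4 : ℕ) = 2 ^ 2 := by norm_num
    rw [this]
    exact Nat.Coprime.pow_left 2 ((Nat.coprime_two_left).mpr hK)
  have hgen := Cfsg.Agent.H23.iSup_centralizer_of_not_isCyclic hUab hUnc hUK hcop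
  have hle : K ≤ Subgroup.centralizer (U : Set G) := by
    rw [← hgen]
    apply iSup_le
    rintro ⟨u, hu, hu1⟩ k hk
    obtain ⟨hkK, hkC⟩ := Subgroup.mem_inf.mp hk
    rw [Subgroup.mem_centralizer_iff]
    intro v hv
    have h1 : v * k * v⁻¹ * k⁻¹ ∈ K :=
      mul_mem ((Subgroup.mem_normalizer_iff.mp (hUK hv) k).mp hkK) (inv_mem hkK)
    have hvQ := hkey u hu hu1 hv
    have h3 : v * k * v⁻¹ * k⁻¹ ∈ pCoreOf 2 (Subgroup.centralizer ({u} : Set G)) := by
      have e : v * k * v⁻¹ * k⁻¹ = v * (k * v⁻¹ * k⁻¹) := by group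
      rw [e]
      refine mul_mem hvQ ?_
      exact (Subgroup.mem_normalizer_iff.mp
        (Cfsg.Agent.H18.le_normalizer_pCoreOf _ hkC) _).mp (inv_mem hvQ)
    have h4 : v * k * v⁻¹ * k⁻¹ = 1 := by
      obtain ⟨j, hj⟩ := (Cfsg.Agent.H18.isPGroup_pCoreOf (p := 2) (Subgroup.centralizer ({u} : Set G)))
        ⟨_, h3⟩
      have h5 : (v * k * v⁻¹ * k⁻¹) ^ 2 ^ j = 1 := congrArg Subtype.val hj
      have h6 := orderOf_dvd_of_pow_eq_one h5
      have h7 : orderOf (v * k * v⁻¹ * k⁻¹) ∣ Nat.card K := by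
        have := orderOf_dvd_natCard (⟨_, h1⟩ : K)
        rwa [Subgroup.orderOf_mk] at this
      rw [← orderOf_eq_one_iff]
      have h8 : Nat.Coprime (2 ^ j) (Nat.card K) := Nat.Coprime.pow_left j ((Nat.coprime_two_left).mpr hK)
      exact Nat.eq_one_of_dvd_coprimes h8 h6 h7
    have h5 : v * k * v⁻¹ = k := mul_inv_eq_one.mp h4
    exact mul_inv_eq_iff_eq_mul.mp h5
  intro v hv
  rw [Subgroup.mem_centralizer_iff]
  intro k hk
  exact (Subgroup.mem_centralizer_iff.mp (hle hk) v hv).symm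

end Cfsg.Agent.S1957
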