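import Cfsg.Statements.S1958
import Cfsg.Agent.H23.Coprime2
import Cfsg.Agent.H1.Chief
import Cfsg.Agent.H10.PComp
import Cfsg.Agent.H14.Conj

set_option autoImplicit false
open Cfsg

namespace Cfsg.Agent.S1958

open Subgroup
open scoped commutatorElement
/-- in a solvable group `C`, a `p'`-subgroup normal in `C_C(x)` lies in `O_{p'}(C)` -/
theorem core {C : Type*} [Group C] [Finite C] (hsol : Group.IsSolvable C) {p : ℕ} [Fact p.Prime]
    (x : C) (hx : IsPGroup p (zpowers x)) (D : Subgroup C) (hD : (Nat.card D).Coprime p)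
    (hDx : D ≤ centralizer ({x} : Set C)) (hDn : centralizer ({x} : Set C) ≤ normalizer (D : Set C)) :
    D ≤ Cfsg.pPrimeCore p C := by
  have hKn : (Cfsg.pPrimeCore p C).Normal := inferInstance
  have hsurj := QuotientGroup.mk'_surjective (Cfsg.pPrimeCore p C)
  obtain ⟨R, hR⟩ : ∃ R, R = Cfsg.pCore p (C ⧸ Cfsg.pPrimeCore p C) := ⟨_, rfl⟩
  have hsolQ : Group.IsSolvable (C ⧸ Cfsg.pPrimeCore p C) := Group.isSolvable_of_surjective hsurj
  have hCR : centralizer (R : Set (C ⧸ Cfsg.pPrimeCore p C)) ≤ R := by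
    rw [hR]; exact H1.centralizer_pCore_le hsolQ p (H10.pPrimeCore_quotient_eq_bot p)
  have hRp : IsPGroup p R := by rw [hR]; exact H1.pCore_isPGroup p _
  have hRn : R.Normal := by rw [hR]; infer_instance
  have hall : ∀ H : Subgroup (C ⧸ Cfsg.pPrimeCore p C), H ≤ normalizer (R : Set (C ⧸ Cfsg.pPrimeCore p C)) :=
    fun H => by rw [normalizer_eq_top R]; exact le_top
  have hker : (QuotientGroup.mk' (Cfsg.pPrimeCore p C)).ker = Cfsg.pPrimeCore p C := QuotientGroup.ker_mk' _
  have hfg : ∀ g : C, QuotientGroup.mk' (Cfsg.pPrimeCore p C) g = 1 ↔ g ∈ Cfsg.pPrimeCore p C := by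
    intro g; rw [← MonoidHom.mem_ker, hker]
  obtain ⟨f, hf⟩ : ∃ f, f = QuotientGroup.mk' (Cfsg.pPrimeCore p C) := ⟨_, rfl⟩
  rw [← hf] at hsurj hfg
  have hDc : (Nat.card (D.map f)).Coprime p := Nat.Coprime.coprime_dvd_left (card_map_dvd _ _) hD
  have hDR : D.map f ⊓ R = ⊥ := H1.inf_eq_bot_of_card_coprime (H23.card_coprime_of_isPGroup hRp hDc)
  have hxp : IsPGroup p ((zpowers x).map f) := hx.map f
  have hxD : (zpowers x).map f ≤ centralizer ((D.map f : Subgroup _) : Set (C ⧸ Cfsg.pPrimeCore p C)) := by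
    rw [← commutator_eq_bot_iff_le_centralizer, ← map_commutator]
    have : ⁅zpowers x, D⁆ = ⊥ := by
      rw [commutator_eq_bot_iff_le_centralizer, zpowers_le, mem_centralizer_iff]
      intro d hd
      exact mem_centralizer_singleton_iff.1 (hDx hd)
    rw [this, Subgroup.map_bot]
  have key : R ≤ centralizer ((D.map f : Subgroup _) : Set (C ⧸ Cfsg.pPrimeCore p C)) := by
    refine H23.thompson_AxB hRp hDc hxp (hall _) (hall _) hxD ?_
    intro r hr
    obtain ⟨hrR, hrx⟩ := mem_inf.1 hr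
    obtain ⟨g, rfl⟩ := hsurj r
    -- lift to an element commuting with x
    have hcop : (Nat.card (zpowers x)).Coprime (Nat.card (Cfsg.pPrimeCore p C)) := by
      obtain ⟨k, hk⟩ := IsPGroup.iff_card.1 hx
      rw [hk]
      exact Nat.Coprime.pow_left _ (H1.pPrimeCore_coprime p C).symm
    obtain ⟨n, hn, hc⟩ := H23.exists_mem_coset_centralizer (A := zpowers x) (G := Cfsg.pPrimeCore p C)
      (by rw [normalizer_eq_top (Cfsg.pPrimeCore p C)]; exact le_top) hcop
      (Or.inl (H23.isSolvable_of_isPGroup hx)) (g := g) (by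
        intro a ha
        rw [← hfg]
        have h1 := mem_centralizer_iff.1 hrx (f a) ⟨a, ha, rfl⟩
        rw [map_mul, map_mul, map_mul, map_inv, map_inv, mul_assoc (f g)⁻¹, h1]
        group)
    have hfn : f n = 1 := (hfg n).2 hn
    have hfgn : f g = f (g * n) := by rw [map_mul, hfn, mul_one]
    have hgn : g * n ∈ centralizer ({x} : Set C) := by
      rw [mem_centralizer_singleton_iff]
      exact (mem_centralizer_iff.1 hc x (mem_zpowers x)).symm
    rw [mem_centralizer_iff]
    rintro _ ⟨d, hd, rfl⟩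
    have h2 : ⁅f d, f g⁆ ∈ D.map f ⊓ R := by
      refine mem_inf.2 ⟨?_, ?_⟩
      · rw [hfgn, ← map_commutatorElement]
        refine mem_map_of_mem _ ?_
        have : ⁅d, g * n⁆ = d * ((g * n) * d⁻¹ * (g * n)⁻¹) := by rw [commutatorElement_def]; group
        rw [this]
        exact D.mul_mem hd ((mem_normalizer_iff.1 (hDn hgn) _).1 (D.inv_mem hd))
      · have : ⁅f d, f g⁆ = (f d * f g * (f d)⁻¹) * (f g)⁻¹ := by rw [commutatorElement_def]
        rw [this]
        exact R.mul_mem (hRn.conj_mem _ hrR _) (R.inv_mem hrR)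
    rw [hDR, mem_bot, commutatorElement_def, mul_inv_eq_one, mul_inv_eq_iff_eq_mul] at h2
    exact h2
  rw [le_centralizer_iff] at key
  have h3 : D.map f ≤ R := key.trans hCR
  have h4 : D.map f = ⊥ := by rwa [inf_eq_left.2 h3] at hDR
  intro d hd
  rw [← hfg, ← mem_bot, ← h4]
  exact mem_map_of_mem _ hd

theorem half {G : Type*} [Group G] [Finite G]
    (p : ℕ) [Fact p.Prime] (x y : G) (hx : orderOf x = p) (hxy : x * y = y * x)
    (hCy : Group.IsSolvable ↥(Subgroup.centralizer ({y} : Set G))) :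
    Cfsg.centralizerPPrimeCore p x ⊓ Subgroup.centralizer {y} ≤ Cfsg.centralizerPPrimeCore p y := by
  obtain ⟨D, hD⟩ : ∃ D, D = Cfsg.centralizerPPrimeCore p x ⊓ Subgroup.centralizer ({y} : Set G) := ⟨_, rfl⟩
  rw [← hD]
  have hDy : D ≤ centralizer ({y} : Set G) := by rw [hD]; exact inf_le_right
  have hxy' : x ∈ centralizer ({y} : Set G) := mem_centralizer_singleton_iff.2 hxy
  have hDx : D ≤ centralizer ({x} : Set G) := by
    rw [hD]; exact inf_le_left.trans (map_subtype_le _)
  have hDc : (Nat.card D).Coprime p := by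
    have h1 : Nat.card D ∣ Nat.card (Cfsg.centralizerPPrimeCore p x) := by
      rw [hD]; exact card_dvd_of_le inf_le_left
    refine Nat.Coprime.coprime_dvd_left h1 ?_
    rw [Cfsg.centralizerPPrimeCore, H1.card_map_subtype]
    exact H1.pPrimeCore_coprime p _
  have hn : ∀ g ∈ centralizer ({x} : Set G), ∀ d ∈ Cfsg.centralizerPPrimeCore p x,
      g * d * g⁻¹ ∈ Cfsg.centralizerPPrimeCore p x := by
    rintro g hg _ ⟨d, hd, rfl⟩
    have hnn : (Cfsg.pPrimeCore p ↥(Subgroup.centralizer ({x} : Set G))).Normal := inferInstance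
    exact ⟨_, hnn.conj_mem d hd ⟨g, hg⟩, rfl⟩
  have h2 := core hCy (p := p) ⟨x, hxy'⟩ (by
      apply IsPGroup.of_card (n := 1)
      rw [Nat.card_zpowers, pow_one, ← hx]
      exact (Subgroup.orderOf_coe ⟨x, hxy'⟩).symm) (D.subgroupOf (centralizer ({y} : Set G)))
    (by rw [Nat.card_congr (subgroupOfEquivOfLe hDy).toEquiv]; exact hDc)
    (by
      intro d hd
      rw [mem_centralizer_singleton_iff]
      exact Subtype.ext (mem_centralizer_singleton_iff.1 (hDx hd)))
    (by
      apply H23.le_normalizer_of_conj_mem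
      intro g hg d hd
      rw [mem_subgroupOf] at hd ⊢
      rw [hD] at hd ⊢
      refine mem_inf.2 ⟨?_, SetLike.coe_mem _⟩
      refine hn _ ?_ _ (mem_inf.1 hd).1
      rw [mem_centralizer_singleton_iff] at hg ⊢
      exact congrArg Subtype.val hg)
  intro d hd
  exact ⟨⟨d, hDy hd⟩, h2 hd, rfl⟩

/-- Let `G` be a finite group, `p` a prime, and `x, y` commuting elements of order `p` whose centralizers `C_G(x)` and `C_G(y)` are both solvable. Then `O_{p'}(C_G(x)) ∩ C_G(y) = O_{p'}(C_G(y)) ∩ C_G(x)` (balance). -/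
theorem result {G : Type*} [Group G] [Finite G]
    (p : ℕ) [Fact p.Prime] (x y : G) (hx : orderOf x = p) (hy : orderOf y = p) (hxy : x * y = y * x)
    (hCx : Group.IsSolvable ↥(Subgroup.centralizer ({x} : Set G))) (hCy : Group.IsSolvable ↥(Subgroup.centralizer ({y} : Set G))) :
    Cfsg.centralizerPPrimeCore p x ⊓ Subgroup.centralizer {y} = Cfsg.centralizerPPrimeCore p y ⊓ Subgroup.centralizer {x} := by
  apply le_antisymm
  · exact le_inf (half p x y hx hxy hCy) (inf_le_left.trans (Subgroup.map_subtype_le _))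
  · exact le_inf (half p y x hy hxy.symm hCx) (inf_le_left.trans (Subgroup.map_subtype_le _))

end Cfsg.Agent.S1958
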