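import Cfsg.Statements.S1959
import Cfsg.Agent.H14.LC

set_option autoImplicit false
open Cfsg

namespace Cfsg.Agent.S1959

open Cfsg.Agent.H14

theorem card_lt_of_lt {G : Type*} [Group G] [Finite G] {H K : Subgroup G} (h : H < K) :
    Nat.card H < Nat.card K := by
  refine lt_of_le_of_ne (Subgroup.card_le_of_le h.le) fun he => h.ne ?_
  exact Subgroup.eq_of_le_of_card_ge h.le he.ge

theorem main {G : Type*} [Group G] [Finite G] {p : ℕ} [Fact p.Prime] (S : Sylow p G)
    (𝓦 : Set (Subgroup G → Subgroup G)) (h𝓦 : ∀ W ∈ 𝓦, Cfsg.IsConjugacyFunctor p W)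
    (hloc : ∀ T : Subgroup G, T ≤ (S : Subgroup G) → T ≠ ⊥ → FN p (S : Subgroup G) T →
      Cfsg.FamilyControlsStrongFusionIn p 𝓦 (Subgroup.normalizer ((T : Subgroup G) : Set G)))
    (k : ℕ) : ∀ U : Subgroup G, U ≤ (S : Subgroup G) → U ≠ ⊥ → FN p (S : Subgroup G) U →
      Nat.card (S : Subgroup G) < k + Nat.card ↥((S : Subgroup G) ⊓ Subgroup.normalizer (U : Set G)) →
      ∀ (A : Set G) (x : G), x ∈ Subgroup.normalizer (U : Set G) →
      A ⊆ ((S : Subgroup G) ⊓ Subgroup.normalizer (U : Set G) : Subgroup G) →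
      lc x A ⊆ ((S : Subgroup G) ⊓ Subgroup.normalizer (U : Set G) : Subgroup G) →
      LC (famSteps 𝓦 ⊤ S) (S : Subgroup G) A x := by
  have hS := S.isPGroup'
  induction k with
  | zero =>
    intro U hUS hU hF hk
    exact absurd (Subgroup.card_le_of_le (inf_le_left : (S : Subgroup G) ⊓ Subgroup.normalizer (U : Set G) ≤ S)) (by omega)
  | succ k ih =>
    -- aux
    have aux : ∀ (B : Set G) (g : G), Chain {U : Subgroup G | U ≤ (S : Subgroup G) ∧ FN p (S : Subgroup G) U} B g →
        ∀ C : Subgroup G, (C : Set G) ⊆ B → C ≠ ⊥ →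
          Nat.card (S : Subgroup G) < k + Nat.card C → B ⊆ (S : Subgroup G) →
          LC (famSteps 𝓦 ⊤ S) (S : Subgroup G) B g⁻¹ := by
      intro B g hBg
      induction hBg with
      | nil B =>
        intro C hCB hC hk hBS
        exact LC.nil hBS (by intro a _; simp)
      | @cons B U x g hU hB hx hc ihc =>
        intro C hCB hC hk hBS
        rw [mul_inv_rev]
        have hCU : C ≤ U := fun y hy => hB (hCB hy)
        have hUN : U ≤ (S : Subgroup G) ⊓ Subgroup.normalizer (U : Set G) := le_inf hU.1 Subgroup.le_normalizer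
        refine LC.mul (g := x⁻¹) (ih U hU.1 (fun h => hC (le_bot_iff.1 (h ▸ hCU))) hU.2 ?_ B x⁻¹
          (inv_mem hx) (fun y hy => hUN (hB hy)) ?_) ?_
        · have := Subgroup.card_le_of_le (hCU.trans hUN)
          omega
        · rw [lc_eq_rc, inv_inv]
          intro y hy
          exact hUN (rc_subset_of_mem_normalizer hB hx hy)
        · rw [lc_eq_rc, inv_inv]
          refine ihc (cj x⁻¹ C) ?_ ?_ ?_ ?_
          · rw [← rc_coe]; exact rc_mono hCB
          · rwa [Ne, cj_eq_bot]
          · rwa [card_cj]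
          · exact fun y hy => hU.1 (rc_subset_of_mem_normalizer hB hx hy)
    intro U hUS hU hF hk A x hx hA hA'
    set R : Subgroup G := (S : Subgroup G) ⊓ Subgroup.normalizer (U : Set G) with hR
    have h1 := familyControls_at h𝓦 (hloc U hUS hU hF) (hF.isSylIn hS) hx hA hA'
    rw [← hR] at h1
    by_cases hRS : R = S
    · rw [hRS] at h1
      exact h1.mono (famSteps_mono 𝓦 le_top) subset_rfl subset_rfl
    refine h1.refine (R' := (S : Subgroup G)) (fun y hy => (Subgroup.mem_inf.1 hy).1) ?_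
    rintro B y hB ⟨W, hW, hy⟩ hB'
    have hW' := h𝓦 W hW
    have hRp : IsPGroup p R := hS.to_le inf_le_left
    have hRlt : R < (S : Subgroup G) := lt_of_le_of_ne inf_le_left hRS
    have hUR : U ≤ R := le_inf hUS Subgroup.le_normalizer
    have hRne : R ≠ ⊥ := fun h => hU (le_bot_iff.1 (h ▸ hUR))
    have hyV := (Subgroup.mem_inf.1 hy).2
    set V := W R with hV
    have hVR : V ≤ R := cf_le hW' hRp
    have hVne : V ≠ ⊥ := cf_ne_bot hW' hRp hRne
    obtain ⟨g0, hg0, hg0F⟩ := exists_fn_cj S V (hVR.trans hRlt.le)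
    obtain ⟨b, hb1, hb2⟩ := exists_cj_normalizer_le hS hg0F rfl
    set V' := cj g0 V with hV'
    set N := (S : Subgroup G) ⊓ Subgroup.normalizer (V : Set G) with hN
    have hRN : R < N := (lt_inf_normalizer_of_lt hS hRlt).trans_le
      (inf_le_inf_left _ (cf_normalizer_le hW' hRp))
    have hcard := card_lt_of_lt hRN
    -- b carries N into S
    have hbN : LC (famSteps 𝓦 ⊤ S) (S : Subgroup G) (N : Set G) b := by
      have h2 := chain_fn S (N : Set G) b⁻¹ (fun y hy => (Subgroup.mem_inf.1 hy).1)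
        (by rw [rc_coe, inv_inv]; exact hb2.trans inf_le_left)
      have h3 := aux _ _ h2 N subset_rfl (fun h => hRne (le_bot_iff.1 (h ▸ hRN.le))) (by omega)
        (fun y hy => (Subgroup.mem_inf.1 hy).1)
      rwa [inv_inv] at h3
    have hRN' : (R : Set G) ⊆ N := hRN.le
    have h4 : LC (famSteps 𝓦 ⊤ S) (S : Subgroup G) B b :=
      hbN.mono subset_rfl subset_rfl (hB.trans hRN')
    have h5 : LC (famSteps 𝓦 ⊤ S) (S : Subgroup G) (lc y B) b :=
      hbN.mono subset_rfl subset_rfl (hB'.trans hRN')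
    have hlcN : ∀ C : Set G, C ⊆ R → lc b C ⊆ ((S : Subgroup G) ⊓ Subgroup.normalizer (V' : Set G) : Subgroup G) := by
      intro C hC
      have : lc b C ⊆ lc b N := lc_mono (hC.trans hRN')
      rw [lc_coe] at this
      exact this.trans hb2
    have e : y = b⁻¹ * ((b * y * b⁻¹) * b) := by group
    rw [e]
    have e2 : lc (b * y * b⁻¹ * b) B = lc b (lc y B) := by
      rw [lc_lc]; congr 1; group
    refine LC.mul (h4.mul ?_) ?_
    · refine ih V' hg0 (by rwa [hV', Ne, cj_eq_bot]) hg0F ?_ _ _ ?_ (hlcN B hB) ?_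
      · have : Nat.card N ≤ Nat.card ↥((S : Subgroup G) ⊓ Subgroup.normalizer (V' : Set G)) := by
          rw [← card_cj b]; exact Subgroup.card_le_of_le hb2
        omega
      · rw [← hb1, normalizer_cj]; exact conj_mem_cj.2 hyV
      · rw [lc_lc, e2]; exact hlcN _ hB'
    · rw [e2]
      exact h5.inv (famSteps_inv _ _ _)

/-- Let p be a prime, G a finite group with Sylow p-subgroup S, and 𝓦 a set of conjugacy functors for p on G. Suppose that 𝓦 controls strong fusion in N_G(T) for every nonidentity subgroup T of S for which N_S(T) is a Sylow p-subgroup of N_G(T). Then 𝓦 controls strong fusion in G. (A set of functors controls strong fusion in a subgroup H when, for a Sylow p-subgroup T' of H, every conjugation of a tuple of elements of T' into T' by an element of H is a composite of conjugations inside the normalizers N_H(W(T')), W ∈ 𝓦, all intermediate tuples staying in T'.) -/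
theorem result {G : Type*} [Group G] [Finite G] {p : ℕ} [Fact p.Prime] (S : Sylow p G) (𝓦 : Set (Subgroup G → Subgroup G)) (h𝓦 : ∀ W ∈ 𝓦, Cfsg.IsConjugacyFunctor p W) (hloc : ∀ T : Subgroup G, T ≤ (S : Subgroup G) → T ≠ ⊥ → ¬ p ∣ ((S : Subgroup G) ⊓ Subgroup.normalizer ((T : Subgroup G) : Set G)).relIndex (Subgroup.normalizer ((T : Subgroup G) : Set G)) → Cfsg.FamilyControlsStrongFusionIn p 𝓦 (Subgroup.normalizer ((T : Subgroup G) : Set G))) : Cfsg.FamilyControlsStrongFusionIn p 𝓦 ⊤ := by
  have hS := S.isPGroup'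
  refine Cfsg.Agent.H14.familyControls_iff.2 ⟨S, Sylow.isSylIn_top S, fun A h _ hA hA' => ?_⟩
  -- remove the trivial element case
  by_cases hA1 : ∀ a ∈ A, a = 1
  · exact LC.nil hA (fun a ha => by rw [hA1 a ha]; simp)
  push Not at hA1
  obtain ⟨a, ha, ha1⟩ := hA1
  have h2 := chain_fn S A h⁻¹ hA (by rw [← lc_eq_rc]; exact hA')
  have key : ∀ (B : Set G) (g : G), Chain {U : Subgroup G | U ≤ (S : Subgroup G) ∧ FN p (S : Subgroup G) U} B g →
      B ⊆ (S : Subgroup G) → (∃ b ∈ B, b ≠ 1) → LC (famSteps 𝓦 ⊤ S) (S : Subgroup G) B g⁻¹ := by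
    intro B g hBg
    induction hBg with
    | nil B =>
      intro hBS _
      exact LC.nil hBS (by intro a _; simp)
    | @cons B U x g hU hB hx hc ihc =>
      rintro hBS ⟨b, hb, hb1⟩
      rw [mul_inv_rev]
      have hUN : U ≤ (S : Subgroup G) ⊓ Subgroup.normalizer (U : Set G) := le_inf hU.1 Subgroup.le_normalizer
      refine LC.mul (g := x⁻¹) (main S 𝓦 h𝓦 hloc (Nat.card (S : Subgroup G) + 1) U hU.1 ?_ hU.2
        (by omega) B x⁻¹ (inv_mem hx) (fun y hy => hUN (hB hy)) ?_) ?_
      · rintro rfl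
        exact hb1 (Subgroup.mem_bot.1 (hB hb))
      · rw [lc_eq_rc, inv_inv]
        intro y hy
        exact hUN (rc_subset_of_mem_normalizer hB hx hy)
      · rw [lc_eq_rc, inv_inv]
        refine ihc (fun y hy => hU.1 (rc_subset_of_mem_normalizer hB hx hy)) ⟨x⁻¹ * b * x, ⟨b, hb, rfl⟩, ?_⟩
        intro h
        apply hb1
        have : b = x * (x⁻¹ * b * x) * x⁻¹ := by group
        rw [this, h]; simp
  have := key A h⁻¹ h2 hA ⟨a, ha, ha1⟩
  rwa [inv_inv] at this

end Cfsg.Agent.S1959
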