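import Cfsg.Statements.S1961
import Cfsg.Agent.H14.LC

set_option autoImplicit false
open Cfsg

namespace Cfsg.Agent.S1961

open Cfsg.Agent.H14

theorem single_iff {G : Type*} [Group G] {p : ℕ} (W : Subgroup G → Subgroup G) (H : Subgroup G)
    (h : Cfsg.ControlsStrongFusionIn p W H) : Cfsg.FamilyControlsStrongFusionIn p {W} H := by
  obtain ⟨T, h1, h2, h3, h4⟩ := h
  refine familyControls_iff.2 ⟨T, ⟨h1, h2, h3⟩, fun A x hx hA hA' => ?_⟩
  obtain ⟨y, hy, hy2⟩ := h4 A x hx hA hA'
  have e : lc y A = lc x A := lc_congr hy2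
  exact (LC.single hA (X := famSteps {W} H T) ⟨W, rfl, hy⟩ (by rw [e]; exact hA')).congr hy2

theorem lc_single {G : Type*} [Group G] {X : Subgroup G} {R A : Set G} {g : G} (h : LC (X : Set G) R A g) :
    ∃ x ∈ X, ∀ a ∈ A, x * a * x⁻¹ = g * a * g⁻¹ := by
  induction h with
  | nil hA hg => exact ⟨1, one_mem _, fun a ha => by rw [hg a ha]; simp⟩
  | @cons A x g hA hx h ih =>
    obtain ⟨y, hy, hy2⟩ := ih
    refine ⟨y * x, mul_mem hy hx, fun a ha => ?_⟩
    have := hy2 _ ⟨a, ha, rfl⟩
    simp only at this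
    calc y * x * a * (y * x)⁻¹ = y * (x * a * x⁻¹) * y⁻¹ := by group
      _ = g * (x * a * x⁻¹) * g⁻¹ := this
      _ = _ := by group

theorem main {G : Type*} [Group G] [Finite G] {p : ℕ} [Fact p.Prime] (S : Sylow p G)
    (W : Subgroup G → Subgroup G) (hW : Cfsg.IsConjugacyFunctor p W)
    (hloc : ∀ T : Subgroup G, T ≠ ⊥ → Cfsg.IsWellPlaced p W (S : Subgroup G) T →
      Cfsg.ControlsStrongFusionIn p W (Subgroup.normalizer ((T : Subgroup G) : Set G)))
    (k : ℕ) : ∀ U : Subgroup G, U ≠ ⊥ → Cfsg.IsWellPlaced p W (S : Subgroup G) U →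
      Nat.card (S : Subgroup G) < k + Nat.card ↥((S : Subgroup G) ⊓ Subgroup.normalizer (U : Set G)) →
      ∀ (A : Set G) (x : G), x ∈ Subgroup.normalizer (U : Set G) →
      A ⊆ ((S : Subgroup G) ⊓ Subgroup.normalizer (U : Set G) : Subgroup G) →
      lc x A ⊆ ((S : Subgroup G) ⊓ Subgroup.normalizer (U : Set G) : Subgroup G) →
      LC ((Subgroup.normalizer ((W (S : Subgroup G) : Subgroup G) : Set G) : Subgroup G) : Set G) (S : Subgroup G) A x := by
  have hS := S.isPGroup'
  induction k with
  | zero =>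
    intro U hU hF hk
    exact absurd (Subgroup.card_le_of_le (inf_le_left : (S : Subgroup G) ⊓ Subgroup.normalizer (U : Set G) ≤ S)) (by omega)
  | succ k ih =>
    intro U hU hF hk A x hx hA hA'
    set R : Subgroup G := (S : Subgroup G) ⊓ Subgroup.normalizer (U : Set G) with hR
    have h1 := familyControls_at (𝓦 := {W}) (by rintro _ rfl; exact hW) (single_iff W _ (hloc U hU hF))
      (FN.isSylIn (hF.2 0) hS) hx hA hA'
    change LC _ (R : Set G) A x at h1
    have h1' : LC ((Subgroup.normalizer ((W R : Subgroup G) : Set G) : Subgroup G) : Set G) (R : Set G) A x := by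
      refine h1.mono ?_ subset_rfl subset_rfl
      rintro y ⟨_, rfl, hy⟩
      exact (Subgroup.mem_inf.1 hy).2
    by_cases hRS : R = S
    · rwa [hRS] at h1'
    refine h1'.refine (R' := (S : Subgroup G)) (fun y hy => (Subgroup.mem_inf.1 hy).1) ?_
    intro B y hB hy hB'
    have hRp : IsPGroup p R := hS.to_le inf_le_left
    have hRlt : R < (S : Subgroup G) := lt_of_le_of_ne inf_le_left hRS
    have hUR : U ≤ R := le_inf hF.1 Subgroup.le_normalizer
    have hRne : R ≠ ⊥ := fun h => hU (le_bot_iff.1 (h ▸ hUR))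
    have hVF : Cfsg.IsWellPlaced p W (S : Subgroup G) (W R) := by
      have := IsWellPlaced.tower hW hS hF 1
      exact this
    have hRN : R < (S : Subgroup G) ⊓ Subgroup.normalizer ((W R : Subgroup G) : Set G) :=
      (lt_inf_normalizer_of_lt hS hRlt).trans_le (inf_le_inf_left _ (cf_normalizer_le hW hRp))
    have hcard : Nat.card R < Nat.card ↥((S : Subgroup G) ⊓ Subgroup.normalizer ((W R : Subgroup G) : Set G)) := by
      refine lt_of_le_of_ne (Subgroup.card_le_of_le hRN.le) fun he => hRN.ne ?_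
      exact Subgroup.eq_of_le_of_card_ge hRN.le he.ge
    exact ih (W R) (cf_ne_bot hW hRp hRne) hVF (by omega) B y hy (hB.trans hRN.le) (hB'.trans hRN.le)

/-- Local-to-global control of strong fusion through well-placed subgroups. Let p be a prime, G a finite group with Sylow p-subgroup S, and W a conjugacy functor for p on G. If W controls strong fusion in N_G(T) for every nonidentity subgroup T of S that is well placed in S with respect to W, then W controls strong fusion in G. -/
theorem result {G : Type*} [Group G] [Finite G] {p : ℕ} [Fact p.Prime] (S : Sylow p G) (W : Subgroup G → Subgroup G) (hW : Cfsg.IsConjugacyFunctor p W) (hloc : ∀ T : Subgroup G, T ≠ ⊥ → Cfsg.IsWellPlaced p W (S : Subgroup G) T → Cfsg.ControlsStrongFusionIn p W (Subgroup.normalizer ((T : Subgroup G) : Set G))) : Cfsg.ControlsStrongFusionIn p W ⊤ := by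
  have hS := S.isPGroup'
  refine ⟨S, le_top, hS, (Sylow.isSylIn_top S).2.2, fun A h _ hA hA' => ?_⟩
  suffices hs : LC ((Subgroup.normalizer ((W (S : Subgroup G) : Subgroup G) : Set G) : Subgroup G) : Set G) (S : Subgroup G) A h by
    obtain ⟨x, hx, hx2⟩ := lc_single hs
    exact ⟨x, Subgroup.mem_inf.2 ⟨Subgroup.mem_top _, hx⟩, hx2⟩
  have h2 := chain_wp S hW A h⁻¹ hA (by rw [← lc_eq_rc]; exact hA')
  have key : ∀ (B : Set G) (g : G), Chain {U : Subgroup G | Cfsg.IsWellPlaced p W (S : Subgroup G) U} B g →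
      B ⊆ (S : Subgroup G) → LC ((Subgroup.normalizer ((W (S : Subgroup G) : Subgroup G) : Set G) : Subgroup G) : Set G) (S : Subgroup G) B g⁻¹ := by
    intro B g hBg
    induction hBg with
    | nil B =>
      intro hBS
      exact LC.nil hBS (by intro a _; simp)
    | @cons B U x g hU hB hx hc ihc =>
      intro hBS
      rw [mul_inv_rev]
      have hUS : U ≤ S := hU.1
      have hUN : U ≤ (S : Subgroup G) ⊓ Subgroup.normalizer (U : Set G) := le_inf hU.1 Subgroup.le_normalizer
      refine LC.mul (g := x⁻¹) ?_ ?_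
      · by_cases hUb : U = ⊥
        · refine LC.nil hBS fun b hb => ?_
          have := hB hb
          rw [hUb] at this
          rw [Subgroup.mem_bot.1 this]; simp
        · refine main S W hW hloc (Nat.card (S : Subgroup G) + 1) U hUb hU
            (by omega) B x⁻¹ (inv_mem hx) (fun y hy => hUN (hB hy)) ?_
          rw [lc_eq_rc, inv_inv]
          intro y hy
          exact hUN (rc_subset_of_mem_normalizer hB hx hy)
      · rw [lc_eq_rc, inv_inv]
        exact ihc (fun y hy => hUS (rc_subset_of_mem_normalizer hB hx hy))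
  have := key A h⁻¹ h2 hA
  rwa [inv_inv] at this

end Cfsg.Agent.S1961
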