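import Cfsg.Statements.S1962
import Cfsg.Agent.H14.Transf

set_option autoImplicit false
open Cfsg

namespace Cfsg.Agent.S1962

open Cfsg.Agent.H14

theorem main {G : Type*} [Group G] [Finite G] {p : ℕ} [Fact p.Prime] (S : Sylow p G)
    (W : Subgroup G → Subgroup G) (hW : Cfsg.IsConjugacyFunctor p W)
    (hloc : ∀ T : Subgroup G, T ≠ ⊥ → Cfsg.IsWellPlaced p W (S : Subgroup G) T →
      Cfsg.ControlsTransferIn p W (Subgroup.normalizer ((T : Subgroup G) : Set G)))
    (k : ℕ) : ∀ U : Subgroup G, U ≠ ⊥ → Cfsg.IsWellPlaced p W (S : Subgroup G) U →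
      Nat.card (S : Subgroup G) < k + Nat.card ↥((S : Subgroup G) ⊓ Subgroup.normalizer (U : Set G)) →
      ((S : Subgroup G) ⊓ Subgroup.normalizer (U : Set G)) ⊓
        ⁅Subgroup.normalizer (U : Set G), Subgroup.normalizer (U : Set G)⁆ ≤
        ⁅Subgroup.normalizer ((W (S : Subgroup G) : Subgroup G) : Set G), Subgroup.normalizer ((W (S : Subgroup G) : Subgroup G) : Set G)⁆ := by
  have hS := S.isPGroup'
  induction k with
  | zero =>
    intro U hU hF hk
    exact absurd (Subgroup.card_le_of_le (inf_le_left : (S : Subgroup G) ⊓ Subgroup.normalizer (U : Set G) ≤ S)) (by omega)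
  | succ k ih =>
    intro U hU hF hk
    set R : Subgroup G := (S : Subgroup G) ⊓ Subgroup.normalizer (U : Set G) with hR
    have h1 := familyTransfer_at (𝓦 := {W}) (by rintro _ rfl; exact hW)
      (H := Subgroup.normalizer ((U : Subgroup G) : Set G)) (p := p) (by
        obtain ⟨T, h1, h2, h3, h4⟩ := hloc U hU hF
        exact ⟨T, h1, h2, h3, by rw [h4]; simp⟩)
      (FN.isSylIn (hF.2 0) hS)
    change R ⊓ _ = ⨆ W' ∈ ({W} : Set _), R ⊓ _ at h1
    rw [h1]
    refine iSup₂_le ?_
    intro W' hW'
    rw [Set.mem_singleton_iff.1 hW']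
    have h2 : R ⊓ ⁅Subgroup.normalizer (U : Set G) ⊓ Subgroup.normalizer ((W R : Subgroup G) : Set G), Subgroup.normalizer (U : Set G) ⊓ Subgroup.normalizer ((W R : Subgroup G) : Set G)⁆ ≤
        R ⊓ ⁅Subgroup.normalizer ((W R : Subgroup G) : Set G), Subgroup.normalizer ((W R : Subgroup G) : Set G)⁆ :=
      inf_le_inf_left _ (Subgroup.commutator_mono inf_le_right inf_le_right)
    refine h2.trans ?_
    by_cases hRS : R = S
    · rw [hRS]; exact inf_le_right
    have hRp : IsPGroup p R := hS.to_le inf_le_left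
    have hRlt : R < (S : Subgroup G) := lt_of_le_of_ne inf_le_left hRS
    have hUR : U ≤ R := le_inf hF.1 Subgroup.le_normalizer
    have hRne : R ≠ ⊥ := fun h => hU (le_bot_iff.1 (h ▸ hUR))
    have hVF : Cfsg.IsWellPlaced p W (S : Subgroup G) (W R) := by
      have := IsWellPlaced.tower hW hS hF 1
      exact this
    have hRN : R < (S : Subgroup G) ⊓ Subgroup.normalizer ((W R : Subgroup G) : Set G) :=
      (lt_inf_normalizer_of_lt hS hRlt).trans_le (inf_le_inf_left _ (cf_normalizer_le hW hRp))
    have hcard := card_lt_of_lt hRN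
    exact (inf_le_inf_right _ hRN.le).trans (ih (W R) (cf_ne_bot hW hRp hRne) hVF (by omega))

/-- Local-to-global control of transfer through well-placed subgroups. Let p be a prime, G a finite group with Sylow p-subgroup S, and W a conjugacy functor for p on G. If W controls transfer in N_G(T) for every nonidentity subgroup T of S that is well placed in S with respect to W, then W controls transfer in G: S ∩ G' = S ∩ (N_G(W(S)))'. -/
theorem result {G : Type*} [Group G] [Finite G] {p : ℕ} [Fact p.Prime] (S : Sylow p G) (W : Subgroup G → Subgroup G) (hW : Cfsg.IsConjugacyFunctor p W) (hloc : ∀ T : Subgroup G, T ≠ ⊥ → Cfsg.IsWellPlaced p W (S : Subgroup G) T → Cfsg.ControlsTransferIn p W (Subgroup.normalizer ((T : Subgroup G) : Set G))) : Cfsg.ControlsTransferIn p W ⊤ := by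
  have hS := S.isPGroup'
  refine ⟨S, le_top, hS, (Sylow.isSylIn_top S).2.2, le_antisymm ?_ ?_⟩
  · refine le_inf inf_le_left ?_
    rw [top_inf_eq]
    refine focal_le_of_chain S _ _ (chain_wp S hW) (fun U hU hb => ?_)
    have hUS : U ≤ S := hU.1
    refine (inf_le_inf_right _ (le_inf hUS Subgroup.le_normalizer)).trans ?_
    exact main S W hW hloc (Nat.card (S : Subgroup G) + 1) U hb hU (by omega)
  · exact inf_le_inf_left _ (Subgroup.commutator_mono le_top le_top)

end Cfsg.Agent.S1962
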