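import Cfsg.Statements.S1966
import Cfsg.Agent.H14.Chain
import Cfsg.Agent.H1.Cores

set_option autoImplicit false
open Cfsg

namespace Cfsg.Agent.S1966

open Cfsg.Agent.H14

theorem aux {G : Type*} [Group G] {𝓕 : Set (Subgroup G)} {A : Set G} {g : G} (h : Chain 𝓕 A g) :
    ∀ (N : Subgroup G), N.Normal → (N : Set G) ⊆ A → Chain {T : Subgroup G | T ∈ 𝓕 ∧ N ≤ T} A g := by
  induction h with
  | nil A => intro N _ _; exact Chain.nil A
  | @cons A U x g hU hA hx _ ih =>
    intro N hN hNA
    refine Chain.cons (U := U) ⟨hU, fun y hy => hA (hNA hy)⟩ hA hx (ih N hN ?_)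
    intro y hy
    rw [mem_rc]
    exact hNA (hN.conj_mem y hy x)

/-- Let p be a prime, G a finite group with Sylow p-subgroup S and 𝓕 a conjugation family for S in G. Then the members of 𝓕 containing O_p(G) still form a conjugation family for S in G. -/
theorem result {G : Type*} [Group G] [Finite G] {p : ℕ} [Fact p.Prime] (S : Sylow p G) (𝓕 : Set (Subgroup G)) (h : Cfsg.IsConjugationFamily 𝓕 (S : Subgroup G)) : Cfsg.IsConjugationFamily {T : Subgroup G | T ∈ 𝓕 ∧ Cfsg.pCore p G ≤ T} (S : Subgroup G) := by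
  have h' := Cfsg.Agent.H14.isConjugationFamily_iff.1 h
  refine Cfsg.Agent.H14.isConjugationFamily_iff.2 ⟨fun T hT => h'.1 T hT.1, fun A g _ hA hg => ?_⟩
  have hN : (Cfsg.pCore p G).Normal := Cfsg.Agent.H1.pCore_normal p G
  have hle : Cfsg.pCore p G ≤ (S : Subgroup G) := Cfsg.Agent.H1.pCore_le_sylow S
  have h1 := h'.2 (A ∪ (Cfsg.pCore p G : Subgroup G)) g (Set.Nonempty.inr ⟨1, one_mem _⟩)
    (Set.union_subset hA hle) ?_
  · exact (aux h1 _ hN Set.subset_union_right).mono Set.subset_union_left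
  · rw [Cfsg.Agent.H14.rc, Set.image_union]
    refine Set.union_subset hg ?_
    rintro _ ⟨y, hy, rfl⟩
    have := hN.conj_mem y hy g⁻¹
    rw [inv_inv] at this
    exact hle this

end Cfsg.Agent.S1966
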