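import Cfsg.Statements.S1967
import Cfsg.Agent.H14.Tower

set_option autoImplicit false
open Cfsg

namespace Cfsg.Agent.S1967

open Cfsg.Agent.H14

/-- Let p be a prime, G a finite group with Sylow p-subgroup S and W a conjugacy functor for p on G. Then W controls strong fusion in G if and only if, whenever T ≤ S and g ∈ G satisfy gTg⁻¹ ≤ S, one can write g = n c with n ∈ N_G(W(S)) and c ∈ C_G(T). -/
theorem result {G : Type*} [Group G] [Finite G] {p : ℕ} [Fact p.Prime] (S : Sylow p G) (W : Subgroup G → Subgroup G) (hW : Cfsg.IsConjugacyFunctor p W) : Cfsg.ControlsStrongFusionIn p W ⊤ ↔ ∀ (T : Subgroup G) (g : G), T ≤ (S : Subgroup G) → T.map (MulAut.conj g).toMonoidHom ≤ (S : Subgroup G) → ∃ n ∈ Subgroup.normalizer ((W (S : Subgroup G) : Subgroup G) : Set G), ∃ c ∈ Subgroup.centralizer (T : Set G), g = n * c := by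
  have hS := S.isPGroup'
  constructor
  · rintro ⟨T', hT'1, hT'2, hT'3, hT'⟩ T g hT hg
    obtain ⟨x, -, hx⟩ := (Sylow.isSylIn_top S).exists_cj_eq (⟨hT'1, hT'2, hT'3⟩ : IsSylIn p T' ⊤)
    -- cj x T' = S
    have hx' : T' = cj x⁻¹ (S : Subgroup G) := by rw [← hx]; simp
    obtain ⟨y, hy, hy2⟩ := hT' ((cj x⁻¹ T : Subgroup G) : Set G) (x⁻¹ * g * x) (Subgroup.mem_top _)
      (by rw [hx']; exact cj_mono hT)
      (by
        rintro _ ⟨a, ha, rfl⟩
        rw [hx']
        change _ ∈ cj x⁻¹ (S : Subgroup G)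
        rw [SetLike.mem_coe, mem_cj, inv_inv] at ha
        rw [mem_cj, inv_inv]
        refine hg ?_
        rw [mem_cj]
        convert ha using 1
        group)
    rw [Subgroup.mem_inf] at hy
    have hyn : x * y * x⁻¹ ∈ Subgroup.normalizer ((W (S : Subgroup G) : Subgroup G) : Set G) := by
      rw [← hx, cf_cj hW hT'2, normalizer_cj]
      exact conj_mem_cj.2 hy.2
    refine ⟨_, hyn, (x * y * x⁻¹)⁻¹ * g, ?_, by group⟩
    rw [Subgroup.mem_centralizer_iff]
    intro t ht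
    have h1 : x⁻¹ * t * x ∈ cj x⁻¹ T := by
      rw [mem_cj, inv_inv]
      have ht' : t ∈ T := ht
      convert ht' using 1; group
    have h2 := hy2 _ h1
    have h3 : (x * y * x⁻¹) * t * (x * y * x⁻¹)⁻¹ = g * t * g⁻¹ := by
      calc (x * y * x⁻¹) * t * (x * y * x⁻¹)⁻¹ = x * (y * (x⁻¹ * t * x) * y⁻¹) * x⁻¹ := by group
        _ = x * (x⁻¹ * g * x * (x⁻¹ * t * x) * (x⁻¹ * g * x)⁻¹) * x⁻¹ := by rw [h2]
        _ = g * t * g⁻¹ := by group
    have h4 : t * ((x * y * x⁻¹)⁻¹ * g) = (x * y * x⁻¹)⁻¹ * ((x * y * x⁻¹) * t * (x * y * x⁻¹)⁻¹) * g := by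
      group
    rw [h4, h3]; group
  · intro h
    refine ⟨S, le_top, S.isPGroup', (Sylow.isSylIn_top S).2.2, ?_⟩
    intro A g _ hA hg
    have hcl : cj g (Subgroup.closure A) ≤ (S : Subgroup G) := by
      rw [cj_le_iff, Subgroup.closure_le]
      intro a ha
      rw [SetLike.mem_coe, mem_cj, inv_inv]
      exact hg ⟨a, ha, rfl⟩
    obtain ⟨n, hn, c, hc, hgn⟩ := h (Subgroup.closure A) g ((Subgroup.closure_le _).2 hA) hcl
    refine ⟨n, Subgroup.mem_inf.2 ⟨Subgroup.mem_top _, hn⟩, fun a ha => ?_⟩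
    have := Subgroup.mem_centralizer_iff.1 hc a (Subgroup.subset_closure ha)
    rw [hgn]
    have : c * a * c⁻¹ = a := by rw [← this]; group
    calc n * a * n⁻¹ = n * (c * a * c⁻¹) * n⁻¹ := by rw [this]
      _ = _ := by group

end Cfsg.Agent.S1967
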