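import Cfsg.Statements.S1968
import Cfsg.Agent.H14.Tower

set_option autoImplicit false
open Cfsg

namespace Cfsg.Agent.S1968

open Cfsg.Agent.H14

theorem aux {G : Type*} [Group G] {𝓕 : Set (Subgroup G)} {B : Set G} {g : G} (h : Chain 𝓕 B g)
    : ∀ A : Subgroup G, (A : Set G) = B → cj g⁻¹ A ≠ A →
    ∃ U ∈ 𝓕, A ≤ U ∧ ∃ x ∈ Subgroup.normalizer (U : Set G), cj x A ≠ A := by
  induction h with
  | nil B => intro A _ h; simp at h
  | @cons B U x g hU hB hx hc ih =>
    rintro A rfl hne
    by_cases h : cj x⁻¹ A = A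
    · refine ih A (by rw [rc_coe, h]) ?_
      rwa [mul_inv_rev, ← cj_cj, h] at hne
    · exact ⟨U, hU, hB, x⁻¹, inv_mem hx, h⟩

/-- Let p be a prime, G a finite group with Sylow p-subgroup S and W a conjugacy functor for p on G with Z(P) ≤ W(P) for every p-subgroup P. Let A be a subgroup of Z(S) normalized by N_G(W(S)) that is not weakly closed in S with respect to G. Then there is a subgroup T of S, well placed in S with respect to W, such that: A ≤ T; N_G(W(N_S(T))) normalizes A; N_S(T) is a Sylow p-subgroup of N_G(T); A ≤ Z(N_S(T)); and A is not weakly closed in N_S(T) with respect to N_G(T), that is, some N_G(T)-conjugate of A other than A lies in N_S(T). -/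
theorem result {G : Type*} [Group G] [Finite G] {p : ℕ} [Fact p.Prime] (S : Sylow p G) (W : Subgroup G → Subgroup G) (hW : Cfsg.IsConjugacyFunctor p W) (hWZ : ∀ P : Subgroup G, IsPGroup p ↥P → P ⊓ Subgroup.centralizer (P : Set G) ≤ W P) (A : Subgroup G) (hAZ : A ≤ (S : Subgroup G) ⊓ Subgroup.centralizer ((S : Subgroup G) : Set G)) (hAN : Subgroup.normalizer ((W (S : Subgroup G) : Subgroup G) : Set G) ≤ Subgroup.normalizer ((A : Subgroup G) : Set G)) (hnwc : ¬ Cfsg.IsWeaklyClosed A (S : Subgroup G)) : ∃ T : Subgroup G, Cfsg.IsWellPlaced p W (S : Subgroup G) T ∧ A ≤ T ∧ Subgroup.normalizer ((W ((S : Subgroup G) ⊓ Subgroup.normalizer ((T : Subgroup G) : Set G)) : Subgroup G) : Set G) ≤ Subgroup.normalizer ((A : Subgroup G) : Set G) ∧ ¬ p ∣ ((S : Subgroup G) ⊓ Subgroup.normalizer ((T : Subgroup G) : Set G)).relIndex (Subgroup.normalizer ((T : Subgroup G) : Set G)) ∧ A ≤ Subgroup.centralizer (((S : Subgroup G) ⊓ Subgroup.normalizer ((T : Subgroup G) : Set G) : Subgroup G) : Set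 G) ∧ ∃ g ∈ Subgroup.normalizer ((T : Subgroup G) : Set G), A.map (MulAut.conj g).toMonoidHom ≤ (S : Subgroup G) ⊓ Subgroup.normalizer ((T : Subgroup G) : Set G) ∧ A.map (MulAut.conj g).toMonoidHom ≠ A := by
  have hS := S.isPGroup'
  have hAS : A ≤ (S : Subgroup G) := hAZ.trans inf_le_left
  -- a well placed subgroup U ≥ A with N(U) moving A
  obtain ⟨U, hU, hAU, x, hx, hxA⟩ : ∃ U, Cfsg.IsWellPlaced p W (S : Subgroup G) U ∧ A ≤ U ∧
      ∃ x ∈ Subgroup.normalizer (U : Set G), cj x A ≠ A := by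
    have h1 : ∃ g : G, cj g A ≤ (S : Subgroup G) ∧ cj g A ≠ A := by
      by_contra hcon
      push Not at hcon
      exact hnwc ⟨hAS, fun g hg => hcon g hg⟩
    obtain ⟨g, hg, hgA⟩ := h1
    have h2 := chain_wp S hW (A : Set G) g⁻¹ hAS (by rw [rc_coe, inv_inv]; exact hg)
    exact aux h2 A rfl (by rwa [inv_inv])
  obtain ⟨n, hn⟩ := exists_stage_eq hW hS (S := (S : Subgroup G)) (T := U)
  -- A in all tower terms
  have hAt : ∀ i, A ≤ Cfsg.functorTower W (S : Subgroup G) U i := by
    intro i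
    induction i with
    | zero => exact hAU
    | succ i ih =>
      rw [functorTower_succ]
      refine le_trans (le_inf (ih.trans (tower_le_stage hW hS hU.1 i)) ?_) (hWZ _ (hS.to_le (stage_le _ _ _)))
      exact (hAZ.trans inf_le_right).trans (Subgroup.centralizer_le (stage_le _ _ _))
  -- last i with N(U_i) moving A
  have hlast : ∃ i, (∃ x ∈ Subgroup.normalizer ((Cfsg.functorTower W (S : Subgroup G) U i : Subgroup G) : Set G), cj x A ≠ A) ∧
      Subgroup.normalizer ((Cfsg.functorTower W (S : Subgroup G) U (i+1) : Subgroup G) : Set G) ≤ Subgroup.normalizer (A : Set G) := by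
    by_contra hcon
    push Not at hcon
    have : ∀ i, ∃ x ∈ Subgroup.normalizer ((Cfsg.functorTower W (S : Subgroup G) U i : Subgroup G) : Set G), cj x A ≠ A := by
      intro i
      induction i with
      | zero => exact ⟨x, hx, hxA⟩
      | succ i ih =>
        obtain ⟨y, hy, hy2⟩ := ih
        have h3 := hcon i ⟨y, hy, hy2⟩
        obtain ⟨z, hz, hz2⟩ := SetLike.not_le_iff_exists.1 h3
        exact ⟨z, hz, fun h => hz2 (mem_normalizer_cj.2 h)⟩
    obtain ⟨y, hy, hy2⟩ := this (n+1)
    rw [functorTower_succ, hn] at hy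
    exact hy2 (mem_normalizer_cj.1 (hAN hy))
  obtain ⟨i, ⟨y, hy, hy2⟩, hi⟩ := hlast
  have hwp := IsWellPlaced.tower hW hS hU i
  refine ⟨_, hwp, hAt i, hi, hwp.2 0, ?_, y, hy, ?_, hy2⟩
  · exact (hAZ.trans inf_le_right).trans (Subgroup.centralizer_le inf_le_left)
  · have h5 : cj y A ≤ Cfsg.functorTower W (S : Subgroup G) U i := by
      have := cj_mono (g := y) (hAt i)
      rwa [mem_normalizer_cj.1 hy] at this
    exact h5.trans (tower_le_stage hW hS hU.1 i)

end Cfsg.Agent.S1968
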