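import Cfsg.Statements.S1972
import Cfsg.Agent.L.MinTC

set_option autoImplicit false
universe u
open Cfsg

namespace Cfsg.Agent.S1972

/-- Let p be a prime, G a finite group and W an isomorphism-invariant p-group functor (W assigns to every group Q a subgroup W(Q), nontrivial whenever Q is a nontrivial finite p-group, and every isomorphism from a finite p-group Q onto a group R carries W(Q) onto W(R)). Suppose that whenever G* = K/R is a section of G with C_{G*}(O_p(G*)) ≤ O_p(G*) and S* is a Sylow p-subgroup of G* with W(S*) not normal in G*, there is an element g of S* outside O_p(G*) such that [X, g, …, g] ≤ Y with p − 1 entries g, for every chief factor X/Y of G* with X ≤ O_p(G*). Then W controls transfer in every section of G. -/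
theorem result {G : Type u} [Group G] [Finite G] {p : ℕ} [Fact p.Prime] (W : ∀ (Q : Type u) [Group Q], Subgroup Q) (hW : Cfsg.IsCharPFunctor.{u} p W) (hloc : ∀ (K R : Subgroup G) [hR : (R.subgroupOf K).Normal], Subgroup.centralizer ((Cfsg.pCore p (↥K ⧸ R.subgroupOf K) : Subgroup (↥K ⧸ R.subgroupOf K)) : Set (↥K ⧸ R.subgroupOf K)) ≤ Cfsg.pCore p (↥K ⧸ R.subgroupOf K) → ∀ T : Sylow p (↥K ⧸ R.subgroupOf K), ¬ (Cfsg.inducedFunctor (G := (↥K ⧸ R.subgroupOf K)) W ((T : Subgroup (↥K ⧸ R.subgroupOf K)))).Normal → ∃ g : (↥K ⧸ R.subgroupOf K), g ∈ (T : Subgroup (↥K ⧸ R.subgroupOf K)) ∧ g ∉ Cfsg.pCore p (↥K ⧸ R.subgroupOf K) ∧ ∀ U V : Subgroup (↥K ⧸ R.subgroupOf K), Cfsg.IsChiefFactor U V → U ≤ Cfsg.pCore p (↥K ⧸ R.subgroupOf K) → Cfsg.iterCommutator U (Subgroup.zpowers g) (p - 1) ≤ V) : ∀ (K R : Subgroup G) [hR : (R.subgroupOf K).Normal], Cfsg.ControlsTransferIn p (Cfsg.inducedFunctor (G := (↥K ⧸ R.subgroupOf K)) W) ⊤ := by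
  have h𝓦 : ∀ W' ∈ ({W} : Set (∀ (Q : Type u) [Group Q], Subgroup Q)), Cfsg.IsCharPFunctor.{u} p W' := by
    intro W' hW'; rw [Set.mem_singleton_iff] at hW'; subst hW'; exact hW
  intro K R hR
  rw [Cfsg.Agent.L.ct_of_tc hW]
  refine Cfsg.Agent.L.tc_of_sections h𝓦 ?_ _ (Cfsg.Agent.L.involves_section K R)
  intro K R hR hc h1 h2
  by_contra hcon
  set H := (↥K ⧸ R.subgroupOf K) with hH
  let T : Sylow p H := default
  have hS := Cfsg.Agent.L.sylIn_top T
  have key := Cfsg.Agent.L.min_tc h𝓦 ⟨W, rfl⟩ hS h1 h2 hcon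
  by_cases hn : (Cfsg.inducedFunctor (G := H) W ((T : Subgroup H))).Normal
  · apply hcon
    rw [Cfsg.Agent.L.tc_iff h𝓦 hS]
    refine le_trans ?_ (le_iSup₂_of_le (f := fun W' (_ : W' ∈ Cfsg.Agent.L.fam {W} H) =>
      (T : Subgroup H) ⊓ ⁅Cfsg.Agent.L.nz (W' (T : Subgroup H)), Cfsg.Agent.L.nz (W' (T : Subgroup H))⁆)
      (Cfsg.inducedFunctor W) ⟨W, rfl, rfl⟩ le_rfl)
    rw [Cfsg.Agent.L.nz, Subgroup.normalizer_eq_top_iff.2 hn]
  · obtain ⟨g, hg, hgQ, hgc⟩ := hloc K R hc T hn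
    obtain ⟨U, V, hUV, hU, hnot⟩ := key.2.2.2 g hg hgQ
    exact hnot (hgc U V hUV hU)

end Cfsg.Agent.S1972
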