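import Cfsg.Statements.S1985
import Cfsg.Agent.L.KCtl
import Cfsg.Agent.L.WeakCl

set_option autoImplicit false
universe u
open Cfsg

namespace Cfsg.Agent.S1985

/-- Let p be an odd prime and G a finite group. Then the lower K-infinity subgroup controls weak closure of elements in G: the lower K-infinity subgroup of every p-subgroup P of G contains Z(P), and for some (equivalently, every) Sylow p-subgroup S of G, with K the lower K-infinity subgroup of S, every element of S commuting with all of N_G(K) is weakly closed in S with respect to G (every G-conjugate of it lying in S equals it). -/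
theorem result {G : Type u} [Group G] [Finite G] {p : ℕ} [Fact p.Prime] (hp : p ≠ 2) : Cfsg.ControlsWeakClosureOfElementsIn p (Cfsg.inducedFunctor (G := G) Cfsg.kInfLower) ⊤ := by
  have hW := Cfsg.Agent.L.induced_isConjugacyFunctor (p := p) Cfsg.Agent.L.kInfLower_isCharP G
  have hWZ : ∀ P : Subgroup G, IsPGroup p ↥P → P ⊓ Subgroup.centralizer ((P : Subgroup G) : Set G) ≤
      Cfsg.inducedFunctor Cfsg.kInfLower P := fun P hP => (Cfsg.Agent.L.zz_le_kInf hP).1
  refine ⟨hWZ, ?_⟩
  obtain ⟨T, hT⟩ := Cfsg.Agent.L.exists_sylIn (p := p) (⊤ : Subgroup G)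
  refine ⟨T, hT.le, hT.isPGroup, hT.not_dvd, fun x hx =>
    Cfsg.Agent.L.weak_closure_elements hW hWZ ?_ ⊤ T hT x hx⟩
  intro H T hTH hTp hdvd hn
  obtain ⟨g, hg, hgT, h1, h2⟩ := Cfsg.Agent.L.kInf_elt_sub (p := p) (H := H) (T := T) ⟨hTH, hTp, hdvd⟩ hn
  refine ⟨g, hg, hgT, fun U V hUV hU => ?_⟩
  have h2p : 2 ≤ p := (Fact.out : p.Prime).two_le
  have : p - 1 = 2 + (p - 3) := by omega
  rw [this, ← Cfsg.Agent.L.iterCommutator_add]
  have h3 : Cfsg.iterCommutator (U.map H.subtype) (Subgroup.zpowers g) 2 = ⊥ := by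
    rw [← le_bot_iff, ← h2]
    exact Subgroup.commutator_mono (Subgroup.commutator_mono hU le_rfl) le_rfl
  rw [h3]
  refine le_trans (Cfsg.Agent.L.iterCommutator_le_of_normalized ?_ _) bot_le
  exact Cfsg.Agent.L.normal_le_nz inferInstance _

end Cfsg.Agent.S1985
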