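import Cfsg.Statements.S1988
import Cfsg.Agent.H14.Avg
import Cfsg.Agent.L.KCtl2

set_option autoImplicit false
universe u
open Cfsg

namespace Cfsg.Agent.S1988

open Cfsg.Agent.H14 (IsSylIn)
open Subgroup
open scoped commutatorElement

theorem cent_le {G : Type u} [Group G] [Finite G] {p : ℕ} [Fact p.Prime] (S : Sylow p G) :
    (S : Subgroup G) ⊓ centralizer ((Cfsg.inducedFunctor Cfsg.kInfLower (S : Subgroup G) : Subgroup G) : Set G) ≤
      Cfsg.inducedFunctor Cfsg.kInfLower (S : Subgroup G) := by
  intro x hx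
  obtain ⟨h1, h2⟩ := mem_inf.1 hx
  have h3 : (⟨x, h1⟩ : (S : Subgroup G)) ∈ centralizer (Cfsg.kInfLower (S : Subgroup G) : Set (S : Subgroup G)) := by
    rw [mem_centralizer_iff]
    intro y hy
    have := mem_centralizer_iff.1 h2 y ⟨y, hy, rfl⟩
    exact Subtype.ext this
  have h4 := (L.cent_kInf S.isPGroup').1 h3
  exact ⟨_, h4, rfl⟩

theorem npc_of_second {G : Type u} [Group G] [Finite G] {p : ℕ} [Fact p.Prime] (S : Sylow p G)
    (h : ∀ g ∈ Subgroup.normalizer ((Cfsg.inducedFunctor Cfsg.kInfLower (S : Subgroup G) : Subgroup G) : Set G), (orderOf g).Coprime p → g ∈ Subgroup.centralizer ((Cfsg.inducedFunctor Cfsg.kInfLower (S : Subgroup G) : Subgroup G) : Set G)) :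
    Cfsg.HasNormalPComplement p ↥(Subgroup.normalizer ((Cfsg.inducedFunctor Cfsg.kInfLower (S : Subgroup G) : Subgroup G) : Set G)) := by
  have hcf := H14.induced_isConjugacyFunctor (p := p) L.kInfLower_isCharP G
  have hKS := H14.cf_le hcf S.isPGroup'
  have hSN : (S : Subgroup G) ≤ normalizer ((Cfsg.inducedFunctor Cfsg.kInfLower (S : Subgroup G) : Subgroup G) : Set G) :=
    le_normalizer.trans (H14.cf_normalizer_le hcf S.isPGroup')
  have hc := cent_le S
  obtain ⟨K, hK⟩ : ∃ K, K = Cfsg.inducedFunctor Cfsg.kInfLower (S : Subgroup G) := ⟨_, rfl⟩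
  rw [← hK] at h hKS hSN hc ⊢
  have hCN : centralizer (K : Set G) ≤ normalizer (K : Set G) := by
    intro x hx
    exact H14.mem_normalizer_cj.2 (H14.cj_eq_of_mem_centralizer hx)
  have hNC : normalizer (K : Set G) ≤ normalizer ((centralizer (K : Set G) : Subgroup G) : Set G) := by
    intro x hx
    rw [H14.mem_normalizer_cj, ← H14.centralizer_cj, H14.mem_normalizer_cj.1 hx]
  have hS' : IsSylIn p (S : Subgroup G) (normalizer (K : Set G)) := (H14.Sylow.isSylIn_top S).mono hSN le_top
  have hSC : IsSylIn p ((S : Subgroup G) ⊓ centralizer (K : Set G)) (centralizer (K : Set G)) :=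
    hS'.inf_of_normalizes hCN hNC
  apply H2.hasNormalPComplement_of_centralizer
  intro X hX g hg hgp
  -- transfer to subgroups of `G`
  have hgC : (g : G) ∈ centralizer (K : Set G) := by
    apply h _ g.2
    rwa [Subgroup.orderOf_coe]
  have hXn : (g : G) ∈ normalizer ((X.map (normalizer (K : Set G)).subtype : Subgroup G) : Set G) :=
    H14.map_mem_normalizer _ hg
  have hXp : IsPGroup p (X.map (normalizer (K : Set G)).subtype) := hX.map _
  have h1 : ⁅X.map (normalizer (K : Set G)).subtype, zpowers (g : G)⁆ ≤ K := by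
    have hle : ⁅X.map (normalizer (K : Set G)).subtype, zpowers (g : G)⁆ ≤
        X.map (normalizer (K : Set G)).subtype ⊓ centralizer (K : Set G) := by
      refine le_inf ?_ ?_
      · rw [commutator_comm]
        apply commutator_le.2
        intro a ha b hb
        obtain ⟨n, rfl⟩ := mem_zpowers_iff.1 ha
        have h2 := (mem_normalizer_iff.1 (zpow_mem hXn n) b).1 hb
        have : ⁅(g : G) ^ n, b⁆ = ((g : G) ^ n * b * ((g : G) ^ n)⁻¹) * b⁻¹ := by rw [commutatorElement_def]
        rw [this]
        exact mul_mem h2 (inv_mem hb)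
      · apply commutator_le.2
        rintro _ ⟨a, ha, rfl⟩ b hb
        have hb' : b ∈ centralizer (K : Set G) := by
          have : zpowers (g : G) ≤ centralizer (K : Set G) := by rwa [zpowers_le]
          exact this hb
        have h2 := (mem_normalizer_iff.1 (hNC a.2) b).1 hb'
        rw [commutatorElement_def]
        exact mul_mem h2 (inv_mem hb')
    obtain ⟨x, hx, hxle⟩ := hSC.exists_cj_le (R := X.map (normalizer (K : Set G)).subtype ⊓ centralizer (K : Set G)) inf_le_right
      (hXp.to_le inf_le_left)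
    refine hle.trans ?_
    have h2 := hxle.trans hc
    rw [H14.cj_le_iff] at h2
    refine h2.trans ?_
    have h3 : (x⁻¹ : G) ∈ normalizer (K : Set G) := inv_mem (hCN hx)
    rw [H14.mem_normalizer_cj.1 h3]
  have hz : zpowers (g : G) ≤ centralizer (K : Set G) := by rwa [zpowers_le]
  have h2 : Cfsg.iterCommutator (X.map (normalizer (K : Set G)).subtype) (zpowers (g : G)) 2 = ⊥ := by
    change ⁅⁅X.map (normalizer (K : Set G)).subtype, zpowers (g : G)⁆, zpowers (g : G)⁆ = ⊥
    rw [commutator_eq_bot_iff_le_centralizer]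
    refine h1.trans ?_
    rw [le_centralizer_iff]
    exact hz
  have h3 := L.coprime_iter (p := p) hXp (m := (g : G)) (by rwa [Subgroup.orderOf_coe]) (by rwa [zpowers_le]) h2
  rw [mem_centralizer_iff]
  intro y hy
  apply Subtype.ext
  have h4 : ⁅(y : G), (g : G)⁆ = 1 := by
    have hy' : (y : G) ∈ X.map (normalizer (K : Set G)).subtype := ⟨y, hy, rfl⟩
    have := commutator_mem_commutator hy' (mem_zpowers (g : G))
    rw [h3] at this
    exact this
  exact commutatorElement_eq_one_iff_mul_comm.1 h4

/-- Let p be an odd prime, G a finite group with Sylow p-subgroup S and K the lower K-infinity subgroup of S. If N_G(K) has a normal p-complement, or if N_G(K)/C_G(K) is a p-group (every element of N_G(K) of order prime to p centralizes K), then G has a normal p-complement. -/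
theorem result {G : Type u} [Group G] [Finite G] {p : ℕ} [Fact p.Prime] (hp : p ≠ 2) (S : Sylow p G) (h : Cfsg.HasNormalPComplement p ↥(Subgroup.normalizer ((Cfsg.inducedFunctor Cfsg.kInfLower (S : Subgroup G) : Subgroup G) : Set G)) ∨ ∀ g ∈ Subgroup.normalizer ((Cfsg.inducedFunctor Cfsg.kInfLower (S : Subgroup G) : Subgroup G) : Set G), (orderOf g).Coprime p → g ∈ Subgroup.centralizer ((Cfsg.inducedFunctor Cfsg.kInfLower (S : Subgroup G) : Subgroup G) : Set G)) : Cfsg.HasNormalPComplement p G := by
  have hN : Cfsg.HasNormalPComplement p ↥(Subgroup.normalizer ((Cfsg.inducedFunctor Cfsg.kInfLower (S : Subgroup G) : Subgroup G) : Set G)) := by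
    rcases h with h | h
    · exact h
    · exact npc_of_second S h
  refine Cfsg.Agent.H14.npc_of_sections (W := Cfsg.kInfLower) (L.kInfLower_isCharP) S hN ?_
  intro K R hR hC hQ T hT
  by_contra hnn
  obtain ⟨g, hgT, hgQ, -, -, h3⟩ := L.kInf_elt (p := p) (L.sylIn_top T) (Or.inl hnn)
  obtain ⟨U, V, hUV, hUQ, hI, hne⟩ := h3 hC
  refine hne (Cfsg.Agent.H14.npc_key' (Cfsg.Agent.H14.Sylow.isSylIn_top T) hT hQ hgT hgQ hUV hUQ ?_)
  have hp2 : 2 ≤ p - 1 := by
    have := (Fact.out : p.Prime).two_le
    omega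
  haveI := hUV.2.1
  have hanti : Antitone (fun n => Cfsg.iterCommutator U (Subgroup.zpowers g) n) :=
    antitone_nat_of_succ_le (fun n => L.iterCommutator_succ_le (L.normal_le_nz hUV.2.1 _) n)
  exact (hanti hp2).trans hI

end Cfsg.Agent.S1988
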