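import Cfsg.Statements.S1989
import Cfsg.Agent.H2.QD8
import Cfsg.Agent.S1987
import Cfsg.Agent.S1981

set_option autoImplicit false
set_option linter.style.haveILetI false
set_option linter.unusedVariables false
set_option linter.unusedSectionVars false
universe u
open Cfsg

namespace Cfsg.Agent.S1989

theorem kInf_QdLike {X : Type u} [Group X] [Finite X] {p : ℕ} [hp : Fact p.Prime] {V : Subgroup X}
    (h : H2.QdLike p X V) (T : Sylow p X) :
    Cfsg.inducedFunctor Cfsg.kInfLower (T : Subgroup X) = (T : Subgroup X) := by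
  have h1 : (Cfsg.kInfLower (T : Subgroup X)) = ⊤ := by
    refine (Cfsg.Agent.S1981.result T.2 ?_).1
    -- `T` is generated by its abelian normal subgroups
    rw [eq_top_iff]
    have key : ∀ A : Subgroup X, H2.AbIn (T : Subgroup X) A →
        A.subgroupOf (T : Subgroup X) ≤ ⨆ A ∈ {A : Subgroup (T : Subgroup X) | A.Normal ∧
          IsMulCommutative ↥A}, A := by
      intro A hA
      have hcard : Nat.card A = p ^ 2 := by
        apply le_antisymm (h.card_lt_of_comm T hA.1 hA.2.1)
        rw [← h.card]
        exact hA.2.2 V (h.le_sylow T) h.isMulCommutative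
      have hidx : (A.subgroupOf (T : Subgroup X)).index = p := by
        have h2 := Subgroup.index_mul_card (A.subgroupOf (T : Subgroup X))
        rw [Nat.card_congr (Subgroup.subgroupOfEquivOfLe hA.1).toEquiv, hcard, h.sylow T,
          show p ^ 3 = p * p ^ 2 by ring] at h2
        exact Nat.eq_of_mul_eq_mul_right (pow_pos hp.out.pos 2) h2
      have hn : (A.subgroupOf (T : Subgroup X)).Normal := by
        have h3 : (Nat.card (T : Subgroup X)).minFac = p := by
          rw [h.sylow T]
          exact hp.out.pow_minFac (by norm_num)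
        exact Subgroup.normal_of_index_eq_minFac_card (by rw [hidx, h3])
      have hc : IsMulCommutative (A.subgroupOf (T : Subgroup X)) := by
        rw [H20.isMulCommutative_iff]
        intro x hx y hy
        exact Subtype.ext (H20.isMulCommutative_iff.1 hA.2.1 x hx y hy)
      exact le_iSup₂_of_le (A.subgroupOf (T : Subgroup X)) ⟨hn, hc⟩ le_rfl
    rintro ⟨x, hx⟩ -
    by_cases hxV : x ∈ V
    · exact key V (h.abIn_of_card T (h.le_sylow T) h.isMulCommutative h.card.ge) hxV
    · obtain ⟨A, hA, hxA⟩ := h.exists_abIn T hx hxV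
      exact key A hA hxA
  unfold Cfsg.inducedFunctor
  rw [h1, ← MonoidHom.range_eq_map, Subgroup.range_subtype]

/-- Let p be an odd prime and G a finite group. Then Qd(p) (the natural semidirect product of an elementary abelian group of order p² by SL₂(p)) is not involved in G if and only if, in every section K/R of G and for every Sylow p-subgroup T of K/R, the lower K-infinity subgroup of T controls strong fusion in K/R. -/
theorem result {G : Type u} [Group G] [Finite G] {p : ℕ} [Fact p.Prime] (hp : p ≠ 2) : ¬ Cfsg.Involves ↥(Cfsg.qd p) G ↔ ∀ (K R : Subgroup G) [hR : (R.subgroupOf K).Normal], ∀ T : Sylow p (↥K ⧸ R.subgroupOf K), Cfsg.ControlsStrongFusion p (Cfsg.inducedFunctor (G := (↥K ⧸ R.subgroupOf K)) Cfsg.kInfLower (T : Subgroup (↥K ⧸ R.subgroupOf K))) := by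
  constructor
  · intro hfree K R hR T
    refine Cfsg.Agent.S1987.result hp ?_ T
    intro K' R' hR'
    exact H2.normalizerPStable_of_qd_free hp
      (fun h => hfree (H2.hasSec_section (H2.hasSec_section h)))
  · rintro h ⟨K, R, hR, ⟨e⟩⟩
    obtain ⟨T⟩ : Nonempty (Sylow p (K ⧸ R.subgroupOf K)) := inferInstance
    have hq := (H2.qdLike_qd p).of_equiv e.symm
    have h1 := h K R T
    rw [kInf_QdLike hq T] at h1
    refine hq.not_controls (hq.center_lt T) (hq.center_ne_bot T) ?_ h1
    intro g hg
    rw [Subgroup.mem_normalizer_iff] at hg ⊢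
    intro x
    rw [Subgroup.mem_inf, Subgroup.mem_inf, ← hg x]
    refine and_congr_right (fun hx => ?_)
    rw [Subgroup.mem_centralizer_iff, Subgroup.mem_centralizer_iff]
    constructor
    · intro h2 y hy
      have h3 : g⁻¹ * y * g ∈ (T : Subgroup _) := by
        rw [hg]
        have : g * (g⁻¹ * y * g) * g⁻¹ = y := by group
        rw [this]; exact hy
      have h4 := h2 _ h3
      calc y * (g * x * g⁻¹) = g * ((g⁻¹ * y * g) * x) * g⁻¹ := by group
        _ = g * (x * (g⁻¹ * y * g)) * g⁻¹ := by rw [h4]
        _ = g * x * g⁻¹ * y := by group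
    · intro h2 y hy
      have h4 := h2 _ ((hg y).1 hy)
      calc y * x = g⁻¹ * ((g * y * g⁻¹) * (g * x * g⁻¹)) * g := by group
        _ = g⁻¹ * ((g * x * g⁻¹) * (g * y * g⁻¹)) * g := by rw [h4]
        _ = x * y := by group

end Cfsg.Agent.S1989
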