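import Cfsg.Statements.S1990
import Cfsg.Agent.H14.StabC

set_option autoImplicit false
universe u
open Cfsg

namespace Cfsg.Agent.S1990

/-- Let p be an odd prime, G a finite group with Sylow p-subgroup S, and W an isomorphism-invariant p-group functor (W assigns to every group Q a subgroup W(Q), nontrivial whenever Q is a nontrivial finite p-group, and every isomorphism from a finite p-group Q onto a group R carries W(Q) onto W(R)). Suppose N_G(W(S)) has a normal p-complement, and W(T) controls strong fusion in every section G* = K/R of G all of whose sections are p-stable in the normalizer form, for every Sylow p-subgroup T of G*. Then G has a normal p-complement. -/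
theorem result {G : Type u} [Group G] [Finite G] {p : ℕ} [Fact p.Prime] (hp : p ≠ 2) (W : ∀ (Q : Type u) [Group Q], Subgroup Q) (hW : Cfsg.IsCharPFunctor.{u} p W) (S : Sylow p G) (hN : Cfsg.HasNormalPComplement p ↥(Subgroup.normalizer ((Cfsg.inducedFunctor (G := G) W (S : Subgroup G) : Subgroup G) : Set G))) (hctl : ∀ (K R : Subgroup G) [hR : (R.subgroupOf K).Normal], (∀ (K' R' : Subgroup (↥K ⧸ R.subgroupOf K)) [hR' : (R'.subgroupOf K').Normal], Cfsg.IsNormalizerPStable p (↥K' ⧸ R'.subgroupOf K')) → ∀ T : Sylow p (↥K ⧸ R.subgroupOf K), Cfsg.ControlsStrongFusion p (Cfsg.inducedFunctor (G := (↥K ⧸ R.subgroupOf K)) W (T : Subgroup (↥K ⧸ R.subgroupOf K)))) : Cfsg.HasNormalPComplement p G := by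
  refine Cfsg.Agent.H14.npc_of_sections hW S hN ?_
  intro K R hR hC hQ T hT
  have hin := H14.inC_of_coatom (H14.Sylow.isSylIn_top T) hT hQ
  have hcf := H14.induced_isConjugacyFunctor hW (↥K ⧸ R.subgroupOf K)
  have hctl' := hctl K R (fun K' R' hR' => H14.nps_of_inC hp
    ((hin.of_injective K'.subtype K'.subtype_injective).of_surjective (QuotientGroup.mk' _)
      (QuotientGroup.mk'_surjective _))) T
  obtain ⟨T', hWT', hfus⟩ := hctl'
  rw [← Subgroup.normalizer_eq_top_iff, eq_top_iff]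
  intro g _
  have hOT : (Cfsg.pCore p (↥K ⧸ R.subgroupOf K)) ≤ T' := H1.pCore_le_sylow T'
  have hOT2 : (Cfsg.pCore p (↥K ⧸ R.subgroupOf K)) ≤ T := H1.pCore_le_sylow T
  haveI hOn : (Cfsg.pCore p (↥K ⧸ R.subgroupOf K)).Normal := H1.pCore_normal p _
  obtain ⟨x, hx, hxg⟩ := (hfus (Cfsg.pCore p (↥K ⧸ R.subgroupOf K) : Subgroup (↥K ⧸ R.subgroupOf K)) hOT).2 g (by
    rintro _ ⟨a, ha, rfl⟩
    exact hOT (hOn.conj_mem a ha g))
  have h1 : x⁻¹ * g ∈ Subgroup.centralizer ((Cfsg.pCore p (↥K ⧸ R.subgroupOf K) : Subgroup (↥K ⧸ R.subgroupOf K)) : Set (↥K ⧸ R.subgroupOf K)) := by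
    rw [Subgroup.mem_centralizer_iff]
    intro a ha
    have h2 := hxg a ha
    calc a * (x⁻¹ * g) = x⁻¹ * (x * a * x⁻¹) * g := by group
      _ = x⁻¹ * (g * a * g⁻¹) * g := by rw [← h2]
      _ = _ := by group
  have h2 : x⁻¹ * g ∈ Subgroup.normalizer ((Cfsg.inducedFunctor (G := (↥K ⧸ R.subgroupOf K)) W (T : Subgroup (↥K ⧸ R.subgroupOf K)) : Subgroup (↥K ⧸ R.subgroupOf K)) : Set (↥K ⧸ R.subgroupOf K)) :=
    H14.cf_normalizer_le hcf T.isPGroup' (Subgroup.le_normalizer (hOT2 (hC h1)))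
  have h3 := mul_mem hx h2
  rwa [mul_inv_cancel_left] at h3

end Cfsg.Agent.S1990
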