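import Cfsg.Statements.S1991
import Cfsg.Agent.L.SelfNorm

set_option autoImplicit false
open Cfsg

namespace Cfsg.Agent.S1991

/-- Let p ≥ 5 be a prime and S a nontrivial Sylow p-subgroup of the finite group G. If N_G(S)/C_G(S) is a p-group (every element of N_G(S) of order prime to p centralizes S), then G has a normal subgroup of index p. -/
theorem result {G : Type*} [Group G] [Finite G] {p : ℕ} [Fact p.Prime] (hp : 5 ≤ p) (S : Sylow p G) (hS : (S : Subgroup G) ≠ ⊥) (hN : ∀ g ∈ Subgroup.normalizer (((S : Subgroup G) : Subgroup G) : Set G), (orderOf g).Coprime p → g ∈ Subgroup.centralizer (((S : Subgroup G) : Subgroup G) : Set G)) : ∃ N : Subgroup G, N.Normal ∧ N.index = p := by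
  exact Cfsg.Agent.L.index_p_of_five hp (Cfsg.Agent.L.sylIn_top S) hS hN

end Cfsg.Agent.S1991
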