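import Cfsg.Statements.S1993
import Cfsg.Agent.L.KCtl2

set_option autoImplicit false
universe u
open Cfsg

namespace Cfsg.Agent.S1993

/-- Let p be a prime, G a finite group with Sylow p-subgroup S, and K the upper K-infinity subgroup of S. If p ≥ 5 then S ∩ G' = S ∩ (N_G(K))'; and if p is odd and every section of G is p-stable in the normalizer form, then K controls strong fusion in G. -/
theorem result {G : Type u} [Group G] [Finite G] {p : ℕ} [Fact p.Prime] (S : Sylow p G) : (5 ≤ p → (S : Subgroup G) ⊓ commutator G = (S : Subgroup G) ⊓ ⁅Subgroup.normalizer ((Cfsg.inducedFunctor Cfsg.kInfUpper (S : Subgroup G) : Subgroup G) : Set G), Subgroup.normalizer ((Cfsg.inducedFunctor Cfsg.kInfUpper (S : Subgroup G) : Subgroup G) : Set G)⁆) ∧ (p ≠ 2 → (∀ (K R : Subgroup G) [hR : (R.subgroupOf K).Normal], Cfsg.IsNormalizerPStable p (↥K ⧸ R.subgroupOf K)) → Cfsg.ControlsStrongFusion p (Cfsg.inducedFunctor Cfsg.kInfUpper (S : Subgroup G))) := by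
  have hW := Cfsg.Agent.L.kInfUpper_isCharP.{u} (p := p)
  have h𝓦 : ∀ W' ∈ ({Cfsg.kInfUpper} : Set (∀ (Q : Type u) [Group Q], Subgroup Q)), Cfsg.IsCharPFunctor.{u} p W' := by
    intro W' hW'; rw [Set.mem_singleton_iff] at hW'; subst hW'; exact hW
  constructor
  · intro h5
    have key := (Cfsg.Agent.L.tc_iff h𝓦 (Cfsg.Agent.L.sylIn_top S)).1 (Cfsg.Agent.L.tc_kInfUpper h5 G)
    have hK0 : Cfsg.Agent.L.K0 {Cfsg.kInfUpper} (S : Subgroup G) = (S : Subgroup G) ⊓
        ⁅Cfsg.Agent.L.nz (Cfsg.inducedFunctor Cfsg.kInfUpper (S : Subgroup G)),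
          Cfsg.Agent.L.nz (Cfsg.inducedFunctor Cfsg.kInfUpper (S : Subgroup G))⁆ := by
      rw [Cfsg.Agent.L.K0, Cfsg.Agent.L.fam, iSup_image, iSup_singleton]
    rw [hK0] at key
    apply le_antisymm
    · exact key
    · exact inf_le_inf_left _ (Subgroup.commutator_mono le_top le_top)
  · intro _ hst
    refine Cfsg.Agent.L.csf_of_fc hW ?_ S
    refine Cfsg.Agent.L.fc_of_sections h𝓦 ?_ _ (Cfsg.Agent.L.inv_refl G)
    intro K R hR hc
    refine Cfsg.Agent.L.fc_of_normal hW (fun T => ?_)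
    refine (Cfsg.Agent.L.kInf_normal_of_stable hc (fun N hN => ?_) (Cfsg.Agent.L.sylIn_top T)).2
    exact Cfsg.Agent.L.nps_section hst _ (Cfsg.Agent.L.inv_quot (Cfsg.Agent.L.involves_section K R) N)

end Cfsg.Agent.S1993
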