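import Cfsg.Statements.S1997
import Cfsg.Agent.H14.AEq

set_option autoImplicit false
universe u
open Cfsg

namespace Cfsg.Agent.S1997

open Cfsg.Agent.H14

theorem lc_elt {G : Type*} [Group G] {X R : Set G} {N : Subgroup G} (hX : X ⊆ N) {A : Set G} {g : G} (h : LC X R A g) :
    ∃ x ∈ N, ∀ a ∈ A, g * a * g⁻¹ = x * a * x⁻¹ := by
  induction h with
  | nil hA hg => exact ⟨1, one_mem _, fun a ha => by rw [hg a ha]; simp⟩
  | @cons A x g hA hx h ih =>
    obtain ⟨y, hy, hy'⟩ := ih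
    refine ⟨y * x, mul_mem hy (hX hx), fun a ha => ?_⟩
    have h1 := hy' (x * a * x⁻¹) ⟨a, ha, rfl⟩
    calc g * x * a * (g * x)⁻¹ = g * (x * a * x⁻¹) * g⁻¹ := by group
      _ = y * (x * a * x⁻¹) * y⁻¹ := h1
      _ = _ := by group

/-- Let p be a prime, G a finite group with Sylow p-subgroup S, and W₁, W₂ two isomorphism-invariant p-group functors (W assigns to every group Q a subgroup W(Q), nontrivial whenever Q is a nontrivial finite p-group, and every isomorphism from a finite p-group Q onto a group R carries W(Q) onto W(R)). Suppose that G* = C_{G*}(Ω₁Z(S*)) N_{G*}(W₁(S*)) = C_{G*}(Ω₁Z(S*)) N_{G*}(W₂(S*)) = N_{G*}(W₁(S*)) N_{G*}(W₂(S*)) whenever G* = K/R is a section of G with C_{G*}(O_p(G*)) ≤ O_p(G*) and S* is a Sylow p-subgroup of G*, where Ω₁Z denotes the subgroup generated by the elements of order dividing p in the centre. Suppose also Ω₁Z(S) ≤ W₁(S) ∩ W₂(S), and let A be the normal closure of Ω₁Z(S) in N_G(W₁(S)).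 Then A is an elementary abelian subgroup of S, strongly closed in S with respect to G, and A controls strong fusion in G. -/
theorem result {G : Type u} [Group G] [Finite G] {p : ℕ} [Fact p.Prime] (S : Sylow p G) (W₁ W₂ : ∀ (Q : Type u) [Group Q], Subgroup Q) (hW₁ : Cfsg.IsCharPFunctor.{u} p W₁) (hW₂ : Cfsg.IsCharPFunctor.{u} p W₂) (hfac : ∀ (K R : Subgroup G) [hR : (R.subgroupOf K).Normal], Subgroup.centralizer ((Cfsg.pCore p (↥K ⧸ R.subgroupOf K) : Subgroup (↥K ⧸ R.subgroupOf K)) : Set (↥K ⧸ R.subgroupOf K)) ≤ Cfsg.pCore p (↥K ⧸ R.subgroupOf K) → ∀ T : Sylow p (↥K ⧸ R.subgroupOf K), (∀ x : (↥K ⧸ R.subgroupOf K), ∃ a ∈ Subgroup.centralizer ((Cfsg.omegaOne p ((T : Subgroup (↥K ⧸ R.subgroupOf K)) ⊓ Subgroup.centralizer (((T : Subgroup (↥K ⧸ R.subgroupOf K)) : Subgroup (↥K ⧸ R.subgroupOf K)) : Set (↥K ⧸ R.subgroupOf K))) : Subgroup (↥K ⧸ R.subgroupOf K)) : Set (↥K ⧸ R.subgroupOf K)), ∃ b ∈ Subgroup.normalizer ((Cfsg.inducedFunctor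 (G := (↥K ⧸ R.subgroupOf K)) W₁ (T : Subgroup (↥K ⧸ R.subgroupOf K)) : Subgroup (↥K ⧸ R.subgroupOf K)) : Set (↥K ⧸ R.subgroupOf K)), x = a * b) ∧ (∀ x : (↥K ⧸ R.subgroupOf K), ∃ a ∈ Subgroup.centralizer ((Cfsg.omegaOne p ((T : Subgroup (↥K ⧸ R.subgroupOf K)) ⊓ Subgroup.centralizer (((T : Subgroup (↥K ⧸ R.subgroupOf K)) : Subgroup (↥K ⧸ R.subgroupOf K)) : Set (↥K ⧸ R.subgroupOf K))) : Subgroup (↥K ⧸ R.subgroupOf K)) : Set (↥K ⧸ R.subgroupOf K)), ∃ b ∈ Subgroup.normalizer ((Cfsg.inducedFunctor (G := (↥K ⧸ R.subgroupOf K)) W₂ (T : Subgroup (↥K ⧸ R.subgroupOf K)) : Subgroup (↥K ⧸ R.subgroupOf K)) : Set (↥K ⧸ R.subgroupOf K)), x = a * b) ∧ (∀ x : (↥K ⧸ R.subgroupOf K), ∃ a ∈ Subgroup.normalizer ((Cfsg.inducedFunctor (G := (↥K ⧸ R.subgroupOf K)) W₁ (T : Subgroup (↥K ⧸ R.subgroupOf K)) : Subgroup (↥K ⧸ R.subgroupOf K)) : Set (↥K ⧸ R.subgroupOf K)), ∃ b ∈ Subgroup.normalizer ((Cfsg.inducedFunctor (G := (↥K ⧸ R.subgroupOf K)) W₂ (T :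 Subgroup (↥K ⧸ R.subgroupOf K)) : Subgroup (↥K ⧸ R.subgroupOf K)) : Set (↥K ⧸ R.subgroupOf K)), x = a * b)) (hZ : Cfsg.omegaOne p ((S : Subgroup G) ⊓ Subgroup.centralizer (((S : Subgroup G) : Subgroup G) : Set G)) ≤ Cfsg.inducedFunctor (G := G) W₁ (S : Subgroup G) ⊓ Cfsg.inducedFunctor (G := G) W₂ (S : Subgroup G)) (N₁ : Subgroup G) (hN₁ : N₁ = Subgroup.normalizer ((Cfsg.inducedFunctor (G := G) W₁ (S : Subgroup G) : Subgroup G) : Set G)) (A : Subgroup G) (hA : A = (Subgroup.normalClosure (((Cfsg.omegaOne p ((S : Subgroup G) ⊓ Subgroup.centralizer (((S : Subgroup G) : Subgroup G) : Set G))).subgroupOf N₁ : Subgroup ↥N₁) : Set ↥N₁)).map N₁.subtype) : A ≤ (S : Subgroup G) ∧ Cfsg.IsElementaryAbelian p A ∧ Cfsg.IsStronglyClosed A (S : Subgroup G) ∧ Cfsg.ControlsStrongFusion p A := by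
  have h𝓦 : ∀ W ∈ ({W₁, W₂} : Set (∀ (Q : Type u) [Group Q], Subgroup Q)), Cfsg.IsCharPFunctor.{u} p W := by
    rintro W (rfl | hW)
    · exact hW₁
    · rw [Set.mem_singleton_iff] at hW; subst hW; exact hW₂
  have hyp : ∀ (H : Type u) [Group H] [Finite H], Sec G H → Constr p H → Fac3 p W₁ W₂ H := by
    refine sec_hyp (P := fun H _ => Fac3 p W₁ W₂ H) ?_ ?_
    · intro H H' _ _ _ h e
      exact h.of_equiv hW₁ hW₂ e
    · intro K R _ hC T hT
      obtain ⟨T', rfl⟩ := hT.eq_sylow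
      exact hfac K R hC T'
  have hS := Sylow.isSylIn_top S
  have hcf₁ := induced_isConjugacyFunctor hW₁ G
  have heq := ncl_eq hW₁ hW₂ hyp (Nat.card G + 1) G (Nat.lt_succ_self _) (Sec.refl G) S hS hZ
  -- `A` is the closure
  have hA' : A = ncl N₁ (om p (S : Subgroup G)) := by
    have hZN : om p (S : Subgroup G) ≤ N₁ := by
      rw [hN₁]
      exact (hZ.trans inf_le_left).trans Subgroup.le_normalizer
    rw [hA]
    apply le_antisymm
    · rw [Subgroup.map_le_iff_le_comap]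
      have hn : ((ncl N₁ (om p (S : Subgroup G))).subgroupOf N₁).Normal := by
        rw [← Subgroup.normalizer_eq_top_iff, eq_top_iff]
        intro x _
        rw [mem_normalizer_cj]
        apply Subgroup.map_injective N₁.subtype_injective
        rw [map_cj, Subgroup.subgroupOf_map_subtype, cj_inf, cj_eq_of_mem (H := N₁) (g := N₁.subtype x) x.2]
        congr 1
        exact mem_normalizer_cj.1 (le_normalizer_ncl _ _ x.2)
      change _ ≤ (ncl N₁ (om p (S : Subgroup G))).subgroupOf N₁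
      apply Subgroup.normalClosure_le_normal
      intro z hz
      exact le_ncl _ _ hz
    · apply (Subgroup.closure_le _).2
      rintro _ ⟨n, hn, z, hz, rfl⟩
      refine ⟨⟨n, hn⟩ * ⟨z, hZN hz⟩ * ⟨n, hn⟩⁻¹, ?_, rfl⟩
      apply Subgroup.normalClosure_normal.conj_mem
      exact Subgroup.subset_normalClosure hz
  obtain ⟨N₂, hN₂⟩ : ∃ N₂, N₂ = Subgroup.normalizer ((Cfsg.inducedFunctor (G := G) W₂ (S : Subgroup G) : Subgroup G) : Set G) := ⟨_, rfl⟩
  rw [← hN₁, ← hN₂] at heq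
  have hNA₁ : N₁ ≤ Subgroup.normalizer (A : Set G) := by rw [hA']; exact le_normalizer_ncl _ _
  have hNA₂ : N₂ ≤ Subgroup.normalizer (A : Set G) := by rw [hA', heq]; exact le_normalizer_ncl _ _
  have hAW : A ≤ Cfsg.inducedFunctor (G := G) W₁ (S : Subgroup G) := by
    rw [hA']; exact ncl_le (hZ.trans inf_le_left) (by rw [hN₁])
  have hAS : A ≤ (S : Subgroup G) := hAW.trans (cf_le hcf₁ S.isPGroup')
  -- control of strong fusion
  have hctl : ∀ (B : Set G) (g : G), B ⊆ (S : Subgroup G) → lc g B ⊆ (S : Subgroup G) →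
      ∃ x ∈ Subgroup.normalizer (A : Set G), ∀ a ∈ B, g * a * g⁻¹ = x * a * x⁻¹ := by
    intro B g hB hgB
    have hfc : L.FC p {W₁, W₂} G := by
      refine L.fc_of_sections h𝓦 ?_ G (L.inv_refl G)
      intro K R _ hC
      obtain ⟨T⟩ : Nonempty (Sylow p (↥K ⧸ R.subgroupOf K)) := inferInstance
      exact L.fc_of_factor hW₁ hW₂ T (hfac K R hC T).2.2
    have h1 := familyControls_at (ind_isConj h𝓦 G) hfc hS (Subgroup.mem_top g) hB hgB
    refine lc_elt ?_ h1
    rintro x hx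
    obtain ⟨W, ⟨W', hW', rfl⟩, -, hx2⟩ := hx
    rcases hW' with rfl | hW'
    · apply hNA₁; rw [hN₁]; exact hx2
    · rw [Set.mem_singleton_iff] at hW'; subst hW'
      apply hNA₂; rw [hN₂]; exact hx2
  refine ⟨hAS, ?_, ⟨hAS, ?_⟩, ⟨S, hAS, ?_⟩⟩
  · -- elementary abelian
    have hcen : A ≤ Subgroup.centralizer (Cfsg.inducedFunctor (G := G) W₁ (S : Subgroup G) : Set G) := by
      rw [hA']
      apply ncl_le
      · exact (om_le_cent _).trans (Subgroup.centralizer_le (cf_le hcf₁ S.isPGroup'))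
      · intro x hx
        rw [mem_normalizer_cj, ← centralizer_cj]
        rw [hN₁] at hx
        rw [mem_normalizer_cj.1 hx]
    have hcom : ∀ a ∈ A, ∀ b ∈ A, a * b = b * a := by
      intro a ha b hb
      exact Subgroup.mem_centralizer_iff.1 (hcen hb) a (hAW ha)
    refine ⟨⟨⟨fun a b => Subtype.ext (hcom a a.2 b b.2)⟩⟩, ?_⟩
    intro a ha
    rw [hA'] at ha
    induction ha using Subgroup.closure_induction with
    | mem x hx =>
      obtain ⟨n, hn, z, hz, rfl⟩ := hx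
      have hzp : z ^ p = 1 := by
        induction hz using Subgroup.closure_induction with
        | mem z hz => exact hz.2
        | one => exact one_pow p
        | mul x y hx hy h1 h2 =>
          have hc : Commute x y :=
            Subgroup.mem_centralizer_iff.1 (om_le_cent (S : Subgroup G) hy) x (om_le _ hx)
          rw [hc.mul_pow, h1, h2, one_mul]
        | inv x hx h1 => rw [inv_pow, h1, inv_one]
      rw [conj_pow, hzp]; simp
    | one => exact one_pow p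
    | mul x y hx hy h1 h2 =>
      have hc : Commute x y := hcom x (by rw [hA']; exact hx) y (by rw [hA']; exact hy)
      rw [hc.mul_pow, h1, h2, one_mul]
    | inv x hx h1 => rw [inv_pow, h1, inv_one]
  · intro x hx g hg
    obtain ⟨y, hy, hyx⟩ := hctl {x} g (by rintro _ rfl; exact hAS hx) (by
      rintro _ ⟨_, rfl, rfl⟩; exact hg)
    rw [hyx x rfl]
    exact (Subgroup.mem_normalizer_iff.1 hy x).1 hx
  · intro B hB
    refine ⟨hB, fun g hg => ?_⟩
    exact hctl B g hB hg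

end Cfsg.Agent.S1997
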