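import Cfsg.Statements.S1998
import Cfsg.Agent.L.MinTC

set_option autoImplicit false
universe u
open Cfsg

namespace Cfsg.Agent.S1998

/-- Let p be a prime, G a finite group with Sylow p-subgroup S, and 𝓦 a nonempty set of isomorphism-invariant p-group functors (W assigns to every group Q a subgroup W(Q), nontrivial whenever Q is a nontrivial finite p-group, and every isomorphism from a finite p-group Q onto a group R carries W(Q) onto W(R)). Suppose the induced conjugacy functors control transfer in every section of G other than G itself, but not in G. Let T be the subgroup generated by the S ∩ (N_G(W(S)))', W ∈ 𝓦, and M = N_G(T ∩ O_p(G)). Then: C_G(O_p(G)) ≤ O_p(G); M is a proper subgroup of G containing every proper subgroup of G that contains S (the unique maximal subgroup over S); [O_p(G), M] ≤ O_p(G) ∩ M' ≤ O_p(G) ∩ T; and every element u of S outside O_p(G) satisfies [X, u, …, u] ≰ Y with p − 1 entries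 u, for some chief factor X/Y of G with X ≤ O_p(G). -/
theorem result {G : Type u} [Group G] [Finite G] {p : ℕ} [Fact p.Prime] (S : Sylow p G) (𝓦 : Set (∀ (Q : Type u) [Group Q], Subgroup Q)) (h𝓦 : ∀ W ∈ 𝓦, Cfsg.IsCharPFunctor.{u} p W) (hne : 𝓦.Nonempty) (hsec : ∀ (K R : Subgroup G) [hR : (R.subgroupOf K).Normal], (K = ⊤ → R ≠ ⊥) → Cfsg.FamilyControlsTransferIn p ((fun W => Cfsg.inducedFunctor (G := (↥K ⧸ R.subgroupOf K)) W) '' 𝓦) ⊤) (hG : ¬ Cfsg.FamilyControlsTransferIn p ((fun W => Cfsg.inducedFunctor (G := G) W) '' 𝓦) ⊤) (T M : Subgroup G) (hT : T = (⨆ W ∈ 𝓦, (S : Subgroup G) ⊓ ⁅Subgroup.normalizer ((Cfsg.inducedFunctor (G := G) W (S : Subgroup G) : Subgroup G) : Set G), Subgroup.normalizer ((Cfsg.inducedFunctor (G := G) W (S : Subgroup G) : Subgroup G) : Set G)⁆)) (hM : M = Subgroup.normalizer ((T ⊓ Cfsg.pCore p G : Subgroup G) : Set G)) : Subgroup.centralizer ((Cfsg.pCore p G : Subgroup G) : Set G) ≤ Cfsg.pCore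 p G ∧ (M ≠ ⊤ ∧ ∀ H : Subgroup G, (S : Subgroup G) ≤ H → H ≠ ⊤ → H ≤ M) ∧ (⁅Cfsg.pCore p G, M⁆ ≤ Cfsg.pCore p G ⊓ ⁅M, M⁆ ∧ Cfsg.pCore p G ⊓ ⁅M, M⁆ ≤ Cfsg.pCore p G ⊓ T) ∧ ∀ u : G, u ∈ (S : Subgroup G) → u ∉ Cfsg.pCore p G → ∃ U V : Subgroup G, Cfsg.IsChiefFactor U V ∧ U ≤ Cfsg.pCore p G ∧ ¬ Cfsg.iterCommutator U (Subgroup.zpowers u) (p - 1) ≤ V := by
  have hS := Cfsg.Agent.L.sylIn_top S
  have hT' : T = Cfsg.Agent.L.K0 𝓦 (S : Subgroup G) := by
    rw [hT, Cfsg.Agent.L.K0, Cfsg.Agent.L.fam, iSup_image]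
  have e1 : ∀ L : Subgroup G, L ≠ ⊤ → Cfsg.Agent.L.TC p 𝓦 L := by
    intro L hL
    haveI : ((⊥ : Subgroup G).subgroupOf L).Normal := inferInstance
    have h1 := hsec L ⊥ (fun h => absurd h hL)
    refine Cfsg.Agent.L.tc_equiv h𝓦 ?_ h1
    exact (QuotientGroup.quotientMulEquivOfEq (by simp)).trans QuotientGroup.quotientBot
  have e2 : ∀ (N : Subgroup G) [N.Normal], N ≠ ⊥ → Cfsg.Agent.L.TC p 𝓦 (G ⧸ N) := by
    intro N hN hNb
    have h1 := hsec ⊤ N (fun _ => hNb)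
    refine Cfsg.Agent.L.tc_equiv h𝓦 ?_ h1
    exact QuotientGroup.congr _ _ Subgroup.topEquiv (by
      ext x
      simp [Subgroup.mem_map, Subgroup.mem_subgroupOf])
  have key := Cfsg.Agent.L.min_tc h𝓦 hne hS e1 e2 hG
  rw [← hT'] at key
  rw [Cfsg.Agent.L.nz, ← hM] at key
  obtain ⟨h1, h2, h3, h4⟩ := key
  exact ⟨h1, h2, h3, h4⟩

end Cfsg.Agent.S1998
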