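import Cfsg.Statements.S2007
import Cfsg.Agent.H14.Conj
import Cfsg.Agent.H2.Residual
import Cfsg.Agent.H2.Fusion

set_option autoImplicit false
open Cfsg

namespace Cfsg.Agent.S2007

open Cfsg.Agent.H14 in
/-- normal `p`-subgroup `T` of `N` with `C_P(T) ≤ T` and `O^p(N) ≤ C(T)` -/
theorem core {N : Type*} [Group N] [Finite N] {p : ℕ} [Fact p.Prime] (P : Sylow p N)
    (T : Subgroup N) (hTn : T.Normal) (hTP : T ≤ P)
    (hC : (P : Subgroup N) ⊓ Subgroup.centralizer (T : Set N) ≤ T)
    (hR : Cfsg.pResidual p N ≤ Subgroup.centralizer (T : Set N)) :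
    Cfsg.HasNormalPComplement p N := by
  obtain ⟨R, hRd⟩ : ∃ R, R = Cfsg.pResidual p N := ⟨_, rfl⟩
  rw [H2.hasNormalPComplement_iff_pResidual]
  obtain ⟨Q⟩ : Nonempty (Sylow p (Cfsg.pResidual p N)) := inferInstance
  have hQT : (Q : Subgroup (Cfsg.pResidual p N)).map (Cfsg.pResidual p N).subtype ≤ T := by
    obtain ⟨x, -, hx⟩ := (H14.Sylow.isSylIn_top P).exists_cj_le
      (R := (Q : Subgroup (Cfsg.pResidual p N)).map (Cfsg.pResidual p N).subtype) le_top
      (Q.isPGroup'.map _)
    have h1 : cj x ((Q : Subgroup (Cfsg.pResidual p N)).map (Cfsg.pResidual p N).subtype) ≤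
        Subgroup.centralizer (T : Set N) := by
      have h2 : (Q : Subgroup (Cfsg.pResidual p N)).map (Cfsg.pResidual p N).subtype ≤
        Subgroup.centralizer (T : Set N) := (Subgroup.map_subtype_le _).trans hR
      refine (cj_mono (g := x) h2).trans ?_
      rw [← centralizer_cj, mem_normalizer_cj.1 (by rw [Subgroup.normalizer_eq_top T]; trivial)]
    have h3 := (le_inf hx h1).trans hC
    rw [cj_le_iff] at h3
    rwa [mem_normalizer_cj.1 (by rw [Subgroup.normalizer_eq_top T]; trivial)] at h3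
  have hQc : Subgroup.normalizer ((Q : Subgroup (Cfsg.pResidual p N)) : Set (Cfsg.pResidual p N)) ≤
      Subgroup.centralizer ((Q : Subgroup (Cfsg.pResidual p N)) : Set (Cfsg.pResidual p N)) := by
    intro y _
    rw [Subgroup.mem_centralizer_iff]
    intro q hq
    have hq' : (q : N) ∈ T := hQT ⟨q, hq, rfl⟩
    have := Subgroup.mem_centralizer_iff.1 (hR y.2) q hq'
    exact Subtype.ext this
  have hcomp : Cfsg.HasNormalPComplement p (Cfsg.pResidual p N) :=
    ⟨Q, _, inferInstance, MonoidHom.ker_transferSylow_isComplement' Q hQc⟩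
  rw [H2.hasNormalPComplement_iff_pResidual, H2.pResidual_pResidual] at hcomp
  rwa [Subgroup.card_top] at hcomp

/-- Let p be a prime, G a finite group with Sylow p-subgroup S, and T a normal subgroup of S containing C_S(T). If N_G(T)/C_G(T) is a p-group (every element of N_G(T) of order prime to p centralizes T), then N_G(T) has a normal p-complement. -/
theorem result {G : Type*} [Group G] [Finite G] {p : ℕ} [Fact p.Prime] (S : Sylow p G) (T : Subgroup G) (hTS : T ≤ (S : Subgroup G)) (hTn : (S : Subgroup G) ≤ Subgroup.normalizer ((T : Subgroup G) : Set G)) (hC : (S : Subgroup G) ⊓ Subgroup.centralizer ((T : Subgroup G) : Set G) ≤ T) (hN : ∀ g ∈ Subgroup.normalizer ((T : Subgroup G) : Set G), (orderOf g).Coprime p → g ∈ Subgroup.centralizer ((T : Subgroup G) : Set G)) : Cfsg.HasNormalPComplement p ↥(Subgroup.normalizer ((T : Subgroup G) : Set G)) := by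
  obtain ⟨N, hNd⟩ : ∃ N, N = Subgroup.normalizer ((T : Subgroup G) : Set G) := ⟨_, rfl⟩
  rw [← hNd] at hTn hN ⊢
  have hTN : T ≤ N := hTS.trans hTn
  have hTnor : (T.subgroupOf N).Normal := by
    rw [hNd]; infer_instance
  have hSp : IsPGroup p ((S : Subgroup G).subgroupOf N) := S.isPGroup'.comap_subtype
  have hi : ¬ p ∣ ((S : Subgroup G).subgroupOf N).index := (H14.Sylow.isSylIn_of_le S hTn).ndvd
  refine core (hSp.toSylow hi) (T.subgroupOf N) hTnor ?_ ?_ ?_
  · intro x hx
    exact hTS hx
  · rintro x hx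
    obtain ⟨h1, h2⟩ := Subgroup.mem_inf.1 hx
    apply hC
    refine Subgroup.mem_inf.2 ⟨h1, ?_⟩
    rw [Subgroup.mem_centralizer_iff] at h2 ⊢
    intro t ht
    have := h2 ⟨t, hTN ht⟩ ht
    exact congrArg Subtype.val this
  · rw [Cfsg.pResidual, Subgroup.closure_le]
    intro g hg
    have hg' : (orderOf (g : G)).Coprime p := by
      rw [Subgroup.orderOf_coe]; exact hg
    have := hN g g.2 hg'
    rw [SetLike.mem_coe, Subgroup.mem_centralizer_iff]
    intro t ht
    exact Subtype.ext (Subgroup.mem_centralizer_iff.1 this t ht)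

end Cfsg.Agent.S2007
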