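import Cfsg.Statements.S2008


set_option autoImplicit false
open Cfsg

namespace Cfsg.Agent.S2008

theorem core {H : Type*} [Group H] [Finite H] (z : H)
    (hN : ∀ N : Subgroup H, N.Normal → N ≠ ⊤ → N ⊓ Subgroup.centralizer ({z} : Set H) = ⊥)
    (E : Subgroup H) (hE : IsKleinFour ↥E) (hc : ∀ e ∈ E, e ≠ 1 → IsConj z e)
    (N : Subgroup H) (hNn : N.Normal) (hab : ∀ x ∈ N, ∀ y ∈ N, x * y = y * x) (hNt : N ≠ ⊤) :
    N = ⊥ := by
  have h1 : ∀ e ∈ E, e ≠ 1 → ∀ x ∈ N, x * e = e * x → x = 1 := by
    intro e he hne x hx hxe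
    obtain ⟨g, hg⟩ := isConj_iff.1 (hc e he hne)
    have h2 : g⁻¹ * x * g ∈ N ⊓ Subgroup.centralizer ({z} : Set H) := by
      refine Subgroup.mem_inf.2 ⟨?_, ?_⟩
      · have := hNn.conj_mem x hx g⁻¹
        simpa using this
      · rw [Subgroup.mem_centralizer_singleton_iff]
        have hz' : z = g⁻¹ * e * g := by rw [← hg]; group
        rw [hz']
        calc g⁻¹ * x * g * (g⁻¹ * e * g) = g⁻¹ * (x * e) * g := by group
          _ = g⁻¹ * (e * x) * g := by rw [hxe]
          _ = _ := by group
    rw [hN N hNn hNt, Subgroup.mem_bot] at h2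
    calc x = g * (g⁻¹ * x * g) * g⁻¹ := by group
      _ = 1 := by rw [h2]; group
  have hinv : ∀ e ∈ E, e ≠ 1 → ∀ x ∈ N, e * x * e⁻¹ = x⁻¹ := by
    intro e he hne x hx
    have hee : e * e = 1 := by
      have := IsKleinFour.mul_self (⟨e, he⟩ : E)
      simpa using congrArg Subtype.val this
    have hei : e⁻¹ = e := by rw [inv_eq_iff_mul_eq_one]; exact hee
    have hex : e * x * e⁻¹ ∈ N := hNn.conj_mem x hx e
    have h3 : e * x * e⁻¹ * x = 1 := by
      apply h1 e he hne _ (N.mul_mem hex hx)
      rw [hei] at hex ⊢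
      calc e * x * e * x * e = (e * x * e) * (x * e) := by group
        _ = e * (x * (e * x * e)) := by group
        _ = e * ((e * x * e) * x) := by rw [hab x hx _ hex]
        _ = e * (e * x * e * x) := by group
    exact eq_inv_of_mul_eq_one_left h3
  rw [Subgroup.eq_bot_iff_forall]
  intro x hx
  have hcard : Nat.card E = 4 := hE.card_four
  have : Nontrivial E := by
    rw [← Finite.one_lt_card_iff_nontrivial, hcard]; norm_num
  obtain ⟨e, hne⟩ := exists_ne (1 : E)
  obtain ⟨f, hf1, hf2⟩ : ∃ f : E, f ≠ 1 ∧ f ≠ e := by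
    by_contra hcon
    push Not at hcon
    have : (Set.univ : Set E) ⊆ {1, e} := by
      intro y _
      by_cases hy : y = 1
      · simp [hy]
      · simp [hcon y hy]
    have h4 := Set.ncard_le_ncard this (Set.toFinite _)
    rw [Set.ncard_univ, hcard] at h4
    have h5 := Set.ncard_insert_le (1 : E) {e}
    rw [Set.ncard_singleton] at h5
    omega
  have hef : (e : H) * f ≠ 1 := by
    intro h
    apply hf2
    have hee := IsKleinFour.mul_self e
    have hef' : e * f = 1 := by ext; simpa using h
    rw [← hee] at hef'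
    exact mul_left_cancel hef'
  have he' := hinv e e.2 (by simpa using hne) x hx
  have hf' := hinv f f.2 (by simpa using hf1) x hx
  have hcomm : (e : H) * f * x * (e * f : H)⁻¹ = x := by
    calc (e : H) * f * x * (e * f : H)⁻¹ = e * (f * x * (f : H)⁻¹) * (e : H)⁻¹ := by group
      _ = e * x⁻¹ * (e : H)⁻¹ := by rw [hf']
      _ = (e * x * (e : H)⁻¹)⁻¹ := by group
      _ = x := by rw [he', inv_inv]
  apply h1 (e * f) (E.mul_mem e.2 f.2) hef x hx
  rw [mul_inv_eq_iff_eq_mul] at hcomm
  exact hcomm.symm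

theorem notop {H : Type*} [Group H] [Finite H] (z : H) (E : Subgroup H) (hE : IsKleinFour ↥E)
    (hc : ∀ e ∈ E, e ≠ 1 → IsConj z e)
    (hab : ∀ x y : H, x * y = y * x) : False := by
  have hcard : Nat.card E = 4 := hE.card_four
  have h1 : ∀ e : E, e = 1 ∨ (e : H) = z := by
    intro e
    by_cases he : e = 1
    · exact Or.inl he
    · right
      obtain ⟨g, hg⟩ := isConj_iff.1 (hc e e.2 (by simpa using he))
      rw [← hg, hab g z]; group
  have h2 : (Set.univ : Set E) ⊆ {1} ∪ {e | (e : H) = z} := by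
    intro e _
    rcases h1 e with h | h
    · left; exact h
    · right; exact h
  have h3 : Set.ncard {e : E | (e : H) = z} ≤ 1 := by
    rw [Set.ncard_le_one_iff]
    intro a b ha hb
    exact Subtype.ext (ha.trans hb.symm)
  have h4 := Set.ncard_le_ncard h2 (Set.toFinite _)
  rw [Set.ncard_univ, hcard] at h4
  have h5 := Set.ncard_union_le ({1} : Set E) {e | (e : H) = z}
  rw [Set.ncard_singleton] at h5
  omega

/-- Let H be a finite group and z an involution such that every proper normal subgroup of H meets the centralizer of z trivially, and suppose z lies in a Klein four-subgroup E of H all three of whose involutions are conjugate to z in H. Then H has no non-trivial abelian normal subgroup. -/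
theorem result {H : Type*} [Group H] [Finite H] (z : H) (hz : orderOf z = 2) (hN : ∀ N : Subgroup H, N.Normal → N ≠ ⊤ → N ⊓ Subgroup.centralizer ({z} : Set H) = ⊥) (E : Subgroup H) (hE : IsKleinFour ↥E) (hzE : z ∈ E) (hc : ∀ e ∈ E, e ≠ 1 → IsConj z e) (N : Subgroup H) [N.Normal] (hab : IsMulCommutative ↥N) : N = ⊥ := by
  by_cases hNt : N = ⊤
  · exfalso
    subst hNt
    refine notop z E hE hc (fun x y => ?_)
    have := hab.is_comm.comm (⟨x, Subgroup.mem_top x⟩ : (⊤ : Subgroup H)) ⟨y, Subgroup.mem_top y⟩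
    simpa using congrArg Subtype.val this
  · refine core z hN E hE hc N inferInstance ?_ hNt
    intro x hx y hy
    have := hab.is_comm.comm (⟨x, hx⟩ : N) ⟨y, hy⟩
    simpa using congrArg Subtype.val this

end Cfsg.Agent.S2008
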