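import Cfsg.Statements.S2009
import Cfsg.Agent.S2008

set_option autoImplicit false
open Cfsg

namespace Cfsg.Agent.S2009

/-- Let H be a finite group and z an involution such that every proper normal subgroup of H meets the centralizer of z trivially, and suppose z lies in a Klein four-subgroup E of H all three of whose involutions are conjugate to z in H. Then H is simple. -/
theorem result {H : Type*} [Group H] [Finite H] (z : H) (hz : orderOf z = 2) (hN : ∀ N : Subgroup H, N.Normal → N ≠ ⊤ → N ⊓ Subgroup.centralizer ({z} : Set H) = ⊥) (E : Subgroup H) (hE : IsKleinFour ↥E) (hzE : z ∈ E) (hc : ∀ e ∈ E, e ≠ 1 → IsConj z e) : IsSimpleGroup H := by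
  have hz1 : z ≠ 1 := by
    rintro rfl
    rw [orderOf_one] at hz
    exact absurd hz (by norm_num)
  have hzz : z * z = 1 := by
    have := pow_orderOf_eq_one z
    rwa [hz, pow_two] at this
  have hzi : z⁻¹ = z := by rw [inv_eq_iff_mul_eq_one]; exact hzz
  refine { exists_pair_ne := ⟨z, 1, hz1⟩, eq_bot_or_eq_top_of_normal := ?_ }
  intro N hNn
  by_cases hNt : N = ⊤
  · exact Or.inr hNt
  left
  refine S2008.core z hN E hE hc N hNn ?_ hNt
  have hcen := hN N hNn hNt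
  have hinj : ∀ n : N, z * n * z⁻¹ ∈ N := fun n => hNn.conj_mem n n.2 z
  let f : N → N := fun n => n⁻¹ * ⟨z * n * z⁻¹, hinj n⟩
  have hf : Function.Injective f := by
    intro a b hab
    have h1 : (a : H)⁻¹ * (z * a * z⁻¹) = (b : H)⁻¹ * (z * b * z⁻¹) := congrArg Subtype.val hab
    have h2 : (b : H) * (a : H)⁻¹ ∈ N ⊓ Subgroup.centralizer ({z} : Set H) := by
      refine Subgroup.mem_inf.2 ⟨N.mul_mem b.2 (N.inv_mem a.2), ?_⟩
      rw [Subgroup.mem_centralizer_singleton_iff]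
      have h3 : (b : H) * (a : H)⁻¹ = z * b * (a : H)⁻¹ * z⁻¹ := by
        calc (b : H) * (a : H)⁻¹ = b * ((a : H)⁻¹ * (z * a * z⁻¹)) * (z * (a : H)⁻¹ * z⁻¹) := by group
          _ = b * ((b : H)⁻¹ * (z * b * z⁻¹)) * (z * (a : H)⁻¹ * z⁻¹) := by rw [h1]
          _ = _ := by group
      calc (b : H) * (a : H)⁻¹ * z = z * b * (a : H)⁻¹ * z⁻¹ * z := by rw [← h3]
        _ = _ := by group
    rw [hcen, Subgroup.mem_bot] at h2
    ext
    rw [mul_inv_eq_one] at h2
    exact h2.symm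
  have hs : Function.Surjective f := Finite.injective_iff_surjective.1 hf
  have hinv : ∀ n : N, z * n * z⁻¹ = (n : H)⁻¹ := by
    intro n
    obtain ⟨a, rfl⟩ := hs n
    change z * ((a : H)⁻¹ * (z * a * z⁻¹)) * z⁻¹ = ((a : H)⁻¹ * (z * a * z⁻¹))⁻¹
    have : z * ((a : H)⁻¹ * (z * a * z⁻¹)) * z⁻¹ = z * (a : H)⁻¹ * (z * a * z) * (z * z)⁻¹ * z := by
      rw [hzi]; rw [hzz]; group
    rw [hzi] 
    calc z * ((a : H)⁻¹ * (z * a * z)) * z = z * (a : H)⁻¹ * z * a * (z * z) := by group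
      _ = z * (a : H)⁻¹ * z * a := by rw [hzz, mul_one]
      _ = z⁻¹ * (a : H)⁻¹ * z⁻¹ * a := by rw [hzi]
      _ = _ := by group
  intro x hx y hy
  have h1 := hinv ⟨x, hx⟩
  have h2 := hinv ⟨y, hy⟩
  have h3 := hinv (⟨x, hx⟩ * ⟨y, hy⟩)
  simp only [Subgroup.coe_mul] at h1 h2 h3
  have h4 : x⁻¹ * y⁻¹ = (x * y)⁻¹ := by
    rw [← h3, ← h1, ← h2]; group
  rw [mul_inv_rev] at h4
  have h5 := congrArg (·⁻¹) h4
  simp only [mul_inv_rev, inv_inv] at h5
  exact h5.symm

end Cfsg.Agent.S2009
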