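import Cfsg.Statements.S2087
import Cfsg.Agent.H12.StemRes
import Cfsg.Agent.H15.StemTwo
import Cfsg.Agent.H15.StemRed
import Cfsg.Agent.S0255
import Cfsg.Agent.H5.LinBasic
import Cfsg.Agent.H1.Hall

set_option autoImplicit false
open Cfsg

namespace Cfsg.Agent.S2087


universe u
open Subgroup

theorem upper {F : Type u} [Field F] [Fintype F] (hF : Fintype.card F = 2) (Γ : Type u) [Group Γ] [Finite Γ]
    (σ : Γ →* Matrix.ProjectiveSpecialLinearGroup (Fin 3) F) (hst : Cfsg.IsStemExtension σ) :
    Nat.card σ.ker ≤ 2 := by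
  classical
  have hcard : Nat.card (Matrix.ProjectiveSpecialLinearGroup (Fin 3) F) = 168 := by
    have h := H5.card_PSL_mul hF 3 (by norm_num)
    rw [Fin.prod_univ_three] at h
    norm_num [-Nat.card_eq_fintype_card] at h
    exact h
  haveI : Finite (Matrix.ProjectiveSpecialLinearGroup (Fin 3) F) :=
    Nat.finite_of_card_ne_zero (by rw [hcard]; norm_num)
  -- only the prime two
  have hprime : ∀ p : ℕ, p.Prime → p ≠ 2 → ¬ p ∣ Nat.card σ.ker := by
    intro p hp hp2
    haveI : Fact p.Prime := ⟨hp⟩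
    apply H15.SchurTr.not_dvd_of_cyclic σ hst.2.1 hst.2.2 p
    intro P
    apply H15.PExtN.sylow_cyclic p
    rw [hcard]
    intro h
    have hle : p ^ 2 ≤ 168 := Nat.le_of_dvd (by norm_num) h
    have hp12 : p ≤ 12 := by nlinarith
    interval_cases p <;> first | omega | (revert hp; decide) | (revert h; decide)
  have h11 : (1 : F) + 1 = 0 := by
    have hch : (Fintype.card F : F) = 0 := FiniteField.cast_card_eq_zero F
    rw [hF] at hch
    push_cast at hch
    rw [← hch]; norm_num
  let a0 : Matrix.SpecialLinearGroup (Fin 3) F := ⟨!![1, 1, 0; 0, 1, 1; 0, 0, 1], by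
    rw [Matrix.det_fin_three]; simp⟩
  let b0 : Matrix.SpecialLinearGroup (Fin 3) F := ⟨!![1, 1, 0; 0, 1, 0; 0, 0, 1], by
    rw [Matrix.det_fin_three]; simp⟩
  let c0 : Matrix.SpecialLinearGroup (Fin 3) F := ⟨!![1, 0, 0; 0, 1, 0; 1, 0, 1], by
    rw [Matrix.det_fin_three]; simp⟩
  have hb2 : b0 * b0 = 1 := by
    apply Subtype.ext
    rw [Matrix.SpecialLinearGroup.coe_mul, Matrix.SpecialLinearGroup.coe_one]
    ext i j
    fin_cases i <;> fin_cases j <;> simp [b0, Matrix.mul_apply, Fin.sum_univ_three, h11]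
  have ha2 : (a0 * a0).1 = !![1, 0, 1; 0, 1, 0; 0, 0, 1] := by
    rw [Matrix.SpecialLinearGroup.coe_mul]
    ext i j
    fin_cases i <;> fin_cases j <;> simp [a0, Matrix.mul_apply, Fin.sum_univ_three, h11]
  have ha4 : (a0 * a0) * (a0 * a0) = 1 := by
    apply Subtype.ext
    rw [Matrix.SpecialLinearGroup.coe_mul, ha2, Matrix.SpecialLinearGroup.coe_one]
    ext i j
    fin_cases i <;> fin_cases j <;> simp [Matrix.mul_apply, Fin.sum_univ_three, h11]
  have hba : b0 * a0 * b0 * a0 = 1 := by
    apply Subtype.ext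
    rw [Matrix.SpecialLinearGroup.coe_mul, Matrix.SpecialLinearGroup.coe_mul, Matrix.SpecialLinearGroup.coe_mul, Matrix.SpecialLinearGroup.coe_one]
    ext i j
    fin_cases i <;> fin_cases j <;> simp [a0, b0, Matrix.mul_apply, Fin.sum_univ_three, h11]
  set f : Matrix.SpecialLinearGroup (Fin 3) F →* Matrix.ProjectiveSpecialLinearGroup (Fin 3) F :=
    QuotientGroup.mk' _ with hf
  set a := f a0 with ha
  set b := f b0 with hb
  have hbb : b * b = 1 := by rw [hb, ← map_mul, hb2, map_one]
  have haaaa : (a * a) * (a * a) = 1 := by rw [ha, ← map_mul, ← map_mul, ha4, map_one]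
  have hbab : b * a * b⁻¹ = a⁻¹ := by
    have h1 : b * a * b * a = 1 := by rw [ha, hb, ← map_mul, ← map_mul, ← map_mul, hba, map_one]
    have h2 : b⁻¹ = b := inv_eq_of_mul_eq_one_left hbb
    rw [h2]
    exact eq_inv_of_mul_eq_one_left h1
  have haa : a * a ≠ 1 := by
    intro h
    rw [ha, ← map_mul, hf, QuotientGroup.mk'_apply, QuotientGroup.eq_one_iff] at h
    have h1 : c0.1 * (a0 * a0).1 = (a0 * a0).1 * c0.1 := congrArg Subtype.val (mem_center_iff.1 h c0)
    rw [ha2] at h1
    have h2 := congrFun (congrFun h1 0) 0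
    simp [c0, Matrix.mul_apply, Fin.sum_univ_three] at h2
  have hoa : orderOf a = 4 := by
    have : orderOf a = 2 ^ (1 + 1) := orderOf_eq_prime_pow (x := a) (p := 2) (n := 1)
      (by rw [pow_one, pow_two]; exact haa) (by
        rw [show 2 ^ (1 + 1) = 2 + 2 by norm_num, pow_add, pow_two]; exact haaaa)
    rw [this]; norm_num
  have hab1 : b ≠ 1 := by
    intro h
    rw [h, one_mul, inv_one, mul_one] at hbab
    apply haa
    nth_rewrite 1 [hbab]; exact inv_mul_cancel a
  have hob : orderOf b = 2 := orderOf_eq_prime (by rw [pow_two]; exact hbb) hab1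
  have hinf : zpowers a ⊓ zpowers b = ⊥ := by
    rw [eq_bot_iff]
    rintro x ⟨hx1, hx2⟩
    rw [mem_bot]
    obtain ⟨k, rfl⟩ := mem_zpowers_iff.1 hx2
    rcases Int.even_or_odd' k with ⟨j, rfl | rfl⟩
    · rw [zpow_mul, zpow_two, hbb, one_zpow]
    · exfalso
      have h1 : b ^ (2 * j + 1) = b := by rw [zpow_add, zpow_mul, zpow_two, hbb, one_zpow, one_mul, zpow_one]
      rw [h1] at hx1
      obtain ⟨m, hm⟩ := mem_zpowers_iff.1 hx1
      have h2 : b * a * b⁻¹ = a := by
        rw [← hm, ((Commute.refl a).zpow_left m).eq, mul_inv_cancel_right]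
      rw [h2] at hbab
      apply haa
      nth_rewrite 1 [hbab]; exact inv_mul_cancel a
  set H : Subgroup (Matrix.ProjectiveSpecialLinearGroup (Fin 3) F) := closure {a, b} with hH
  have hHsup : H = zpowers a ⊔ zpowers b := by
    rw [hH, zpowers_eq_closure, zpowers_eq_closure, ← Subgroup.closure_union, Set.singleton_union]
  have hnorm : zpowers b ≤ normalizer ((zpowers a : Subgroup _) : Set (Matrix.ProjectiveSpecialLinearGroup (Fin 3) F)) := by
    rw [zpowers_le, mem_normalizer_iff]
    have key : ∀ x ∈ zpowers a, b * x * b⁻¹ ∈ zpowers a := by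
      intro x hx
      obtain ⟨m, rfl⟩ := mem_zpowers_iff.1 hx
      rw [← conj_zpow, hbab]
      exact zpow_mem (inv_mem (mem_zpowers a)) m
    intro x
    refine ⟨key x, fun h => ?_⟩
    have h2 := key _ h
    have h3 : b⁻¹ = b := inv_eq_of_mul_eq_one_left hbb
    have h4 : b * (b * x * b⁻¹) * b⁻¹ = x := by
      calc b * (b * x * b⁻¹) * b⁻¹ = (b * b) * x * (b * b)⁻¹ := by group
        _ = x := by rw [hbb, one_mul, inv_one, mul_one]
    rwa [h4] at h2
  have hHc : Nat.card H = 8 := by
    have h1 := H1.card_sup_mul_card_inf_of_le_normalizer (H := zpowers a) (K := zpowers b) hnorm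
    rw [hinf, card_bot, ← hHsup, Nat.card_zpowers, Nat.card_zpowers, hoa, hob] at h1
    omega
  have hHi : H.index = 21 := by
    have := card_mul_index H
    rw [hHc, hcard] at this
    omega
  have hcop : (Nat.card σ.ker).Coprime H.index := by
    apply H12.coprime_of_prime_free Nat.card_pos.ne'
    intro p hp h1
    apply hprime p hp
    rintro rfl
    rw [hHi] at h1
    omega
  let a' : H := ⟨a, subset_closure (by simp)⟩
  let b' : H := ⟨b, subset_closure (by simp)⟩
  have hgen : closure ({a', b'} : Set H) = ⊤ := by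
    have h1 : closure (((↑) : H → _) ⁻¹' ({a, b} : Set _)) = (⊤ : Subgroup H) := closure_closure_coe_preimage
    have h2 : (((↑) : H → Matrix.ProjectiveSpecialLinearGroup (Fin 3) F) ⁻¹' ({a, b} : Set _)) = {a', b'} := by
      ext x
      simp only [Set.mem_preimage, Set.mem_insert_iff, Set.mem_singleton_iff]
      constructor
      · rintro (h | h)
        · left; exact Subtype.ext h
        · right; exact Subtype.ext h
      · rintro (h | h)
        · left; exact congrArg Subtype.val h
        · right; exact congrArg Subtype.val h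
    rw [← h2]; exact h1
  have hfin := H12.stem_dq σ hst H hcop a' b' hgen (Subtype.ext hbab) 4 (by norm_num)
    (Or.inl (Subtype.ext (by
      show a ^ 4 = 1
      rw [← hoa]; exact pow_orderOf_eq_one a)))
  have ho2 : orderOf (a' ^ 2) = 2 := by
    apply orderOf_eq_prime
    · apply Subtype.ext
      show (a ^ 2) ^ 2 = 1
      rw [pow_two, pow_two]; exact haaaa
    · intro h
      apply haa
      have := congrArg Subtype.val h
      rw [← pow_two]; exact this
  rw [ho2] at hfin
  omega

theorem aux {F : Type u} [Field F] [Fintype F] (hF : Fintype.card F = 2) : Cfsg.HasCyclicSchurMultiplier (Matrix.ProjectiveSpecialLinearGroup (Fin 3) F) 2 := by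
  classical
  have z1 : (2 : ZMod 7) ≠ 0 := by decide
  have z2 : (2 : ZMod 7) ^ 2 ≠ 1 := by decide
  haveI : Fact (Nat.Prime 7) := ⟨by norm_num⟩
  apply H15.PExtN.hasCyclic_two
  · obtain ⟨e⟩ := S0255.result (F := ZMod 7) (K := F) (by rw [ZMod.card]) hF
    let q : Matrix.SpecialLinearGroup (Fin 2) (ZMod 7) →* Matrix.ProjectiveSpecialLinearGroup (Fin 2) (ZMod 7) :=
      QuotientGroup.mk' _
    let σ : ULift.{u} (Matrix.SpecialLinearGroup (Fin 2) (ZMod 7)) →* Matrix.ProjectiveSpecialLinearGroup (Fin 3) F :=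
      (e.toMonoidHom.comp q).comp MulEquiv.ulift.toMonoidHom
    have hker : ∀ x, x ∈ σ.ker ↔ x.down ∈ center (Matrix.SpecialLinearGroup (Fin 2) (ZMod 7)) := by
      intro x
      rw [MonoidHom.mem_ker]
      show e (q x.down) = 1 ↔ _
      rw [map_eq_one_iff e e.injective]
      exact QuotientGroup.eq_one_iff _
    refine ⟨ULift.{u} (Matrix.SpecialLinearGroup (Fin 2) (ZMod 7)), inferInstance, inferInstance, σ,
      ⟨?_, ?_, ?_⟩, ?_⟩
    · intro y
      obtain ⟨y', rfl⟩ := e.surjective y
      obtain ⟨x, rfl⟩ := QuotientGroup.mk'_surjective _ y'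
      exact ⟨⟨x⟩, rfl⟩
    · intro x hx
      rw [mem_center_iff]
      rintro ⟨y⟩
      exact congrArg ULift.up (mem_center_iff.1 ((hker x).1 hx) y)
    · have hc : commutator (Matrix.SpecialLinearGroup (Fin 2) (ZMod 7)) = ⊤ :=
        Matrix.SL2.commutator_eq_top (a := (2 : ZMod 7)) (fun h => z1 h) (fun h => z2 h)
      have : commutator (ULift.{u} (Matrix.SpecialLinearGroup (Fin 2) (ZMod 7))) = ⊤ := by
        let f : Matrix.SpecialLinearGroup (Fin 2) (ZMod 7) →* ULift.{u} (Matrix.SpecialLinearGroup (Fin 2) (ZMod 7)) :=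
          MulEquiv.ulift.symm.toMonoidHom
        have hs : Function.Surjective f := MulEquiv.ulift.symm.surjective
        have h1 : (⊤ : Subgroup (Matrix.SpecialLinearGroup (Fin 2) (ZMod 7))).map f = ⊤ := map_top_of_surjective f hs
        calc commutator (ULift.{u} (Matrix.SpecialLinearGroup (Fin 2) (ZMod 7))) = ⁅(⊤ : Subgroup _), ⊤⁆ := rfl
          _ = ⁅(⊤ : Subgroup (Matrix.SpecialLinearGroup (Fin 2) (ZMod 7))).map f, (⊤ : Subgroup (Matrix.SpecialLinearGroup (Fin 2) (ZMod 7))).map f⁆ := by rw [h1]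
          _ = Subgroup.map f (⁅(⊤ : Subgroup (Matrix.SpecialLinearGroup (Fin 2) (ZMod 7))), (⊤ : Subgroup (Matrix.SpecialLinearGroup (Fin 2) (ZMod 7)))⁆) := (map_commutator _ _ f).symm
          _ = (⊤ : Subgroup (Matrix.SpecialLinearGroup (Fin 2) (ZMod 7))).map f := by
            rw [show ⁅(⊤ : Subgroup (Matrix.SpecialLinearGroup (Fin 2) (ZMod 7))), ⊤⁆ = ⊤ from hc]
          _ = ⊤ := h1
      rw [this]; exact le_top
    · have h1 : Nat.card σ.ker = Nat.card (center (Matrix.SpecialLinearGroup (Fin 2) (ZMod 7))) :=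
        Nat.card_congr ⟨fun x => ⟨x.1.down, (hker _).1 x.2⟩, fun x => ⟨⟨x.1⟩, (hker _).2 x.2⟩,
          fun x => rfl, fun x => rfl⟩
      rw [h1, H5.card_center_SL 2 (by norm_num), Nat.card_eq_fintype_card, ZMod.card]; rfl
  · intro Γ _ _ σ hst
    exact upper hF Γ σ hst

/-- Exceptional Schur multiplier: over the field with 2 elements, PSL₃ has Schur multiplier cyclic of order 2 (here the Schur multiplier is described through stem extensions, as in the definitions). -/
theorem result {F : Type*} [Field F] [Fintype F] (hF : Fintype.card F = 2) : Cfsg.HasCyclicSchurMultiplier (Matrix.ProjectiveSpecialLinearGroup (Fin 3) F) 2 := by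
  exact aux hF

end Cfsg.Agent.S2087
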