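import Cfsg.Statements.S2111
import Cfsg.Agent.H15.SzSchur2

set_option autoImplicit false
open Cfsg

namespace Cfsg.Agent.S2111

open Cfsg.Agent.H15.Suz

/-- Schur multipliers of the Suzuki groups: for q = 2^(2m+1) with m ≥ 2 the Schur multiplier of Sz(q) is trivial (here the Schur multiplier is described through stem extensions, as in the definitions); q = 8 is exceptional. -/
theorem result {F : Type*} [Field F] [Fintype F] {m : ℕ} (hm : 2 ≤ m) (hF : Fintype.card F = 2 ^ (2 * m + 1)) : Cfsg.HasCyclicSchurMultiplier ↥(Cfsg.Lie.Sz F (2 ^ (m + 1))) 1 := by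
  have hS : SzF F m := ⟨by omega, hF⟩
  have hfin : Finite ↥(Cfsg.Lie.Sz F (2 ^ (m + 1))) := Finite.of_equiv _ (lieEquiv F m).toEquiv
  rw [Cfsg.Agent.H15.Schur.hasCyclic_one_iff]
  intro Γ _ _ σ hσ
  let τ : Γ →* Sg F m := (lieEquiv F m).symm.toMonoidHom.comp σ
  have hk : τ.ker = σ.ker := by
    ext x
    rw [MonoidHom.mem_ker, MonoidHom.mem_ker]
    show (lieEquiv F m).symm (σ x) = 1 ↔ _
    rw [EmbeddingLike.map_eq_one_iff]
  have hτ : Cfsg.IsStemExtension τ := by
    refine ⟨(lieEquiv F m).symm.surjective.comp hσ.1, ?_, ?_⟩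
    · rw [hk]; exact hσ.2.1
    · rw [hk]; exact hσ.2.2
  rw [← hk]
  exact stem_trivial hm τ hτ

end Cfsg.Agent.S2111
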