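import Cfsg.Statements.S2117
import Cfsg.Agent.H12.SL2Stem

set_option autoImplicit false
open Cfsg

namespace Cfsg.Agent.S2117


universe u
open Subgroup

theorem aux {F : Type u} [Field F] [Fintype F] (h4 : Fintype.card F ≠ 4) (h9 : Fintype.card F ≠ 9) : Cfsg.HasCyclicSchurMultiplier (Matrix.SpecialLinearGroup (Fin 2) F) 1 := by
  classical
  obtain ⟨p, hpc⟩ := CharP.exists F
  obtain ⟨n, hp, hn⟩ := FiniteField.card F p
  haveI : Fact p.Prime := ⟨hp⟩
  apply H15.PExtN.hasCyclic_one
  intro l hl hdvd E _ _ τ z h hz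
  haveI : Fact l.Prime := ⟨hl⟩
  by_cases hlp : l = p
  · subst hlp
    rw [H5.card_SL2 rfl] at hdvd
    have hn1 : 2 ≤ (n : ℕ) := by
      by_contra hlt
      have hn1 : (n : ℕ) = 1 := by have : 0 < (n : ℕ) := n.2; omega
      rw [hn, hn1, pow_one] at hdvd
      have hdvd' : l * l ∣ l * (l ^ 2 - 1) := by rw [← pow_two]; exact hdvd
      have h1 : l ∣ l ^ 2 - 1 := Nat.dvd_of_mul_dvd_mul_left hl.pos hdvd'
      have h2 : l ∣ l ^ 2 := dvd_pow_self l (by norm_num)
      have h3 : 1 ≤ l ^ 2 := Nat.one_le_pow _ _ hl.pos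
      have := Nat.dvd_sub h2 h1
      rw [Nat.sub_sub_self h3] at this
      exact hl.one_lt.ne' (Nat.dvd_one.1 this)
    refine H12.SLS.stem_char l ?_ ?_ τ z h hz
    · rintro rfl
      have h3 : 3 ≤ (n : ℕ) := by
        by_contra hlt
        have : (n : ℕ) = 2 := by omega
        rw [this] at hn
        exact h4 (by rw [hn]; norm_num)
      rw [hn]
      calc 8 = 2 ^ 3 := by norm_num
        _ ≤ 2 ^ (n : ℕ) := Nat.pow_le_pow_right (by norm_num) h3
    · intro hl2
      have hl3 : 3 ≤ l := by have := hl.two_le; omega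
      rw [hn]
      by_cases hl4 : l = 3
      · subst hl4
        have h3 : 3 ≤ (n : ℕ) := by
          by_contra hlt
          have : (n : ℕ) = 2 := by omega
          rw [this] at hn
          exact h9 (by rw [hn]; norm_num)
        calc 14 ≤ 3 ^ 3 := by norm_num
          _ ≤ 3 ^ (n : ℕ) := Nat.pow_le_pow_right (by norm_num) h3
      · have h5 : 4 ≤ l := by omega
        calc 14 ≤ 4 ^ 2 := by norm_num
          _ ≤ l ^ 2 := Nat.pow_le_pow_left h5 2
          _ ≤ l ^ (n : ℕ) := Nat.pow_le_pow_right (by omega) hn1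
  · have hst : Cfsg.IsStemExtension τ := by
      refine ⟨h.surj, ?_, ?_⟩
      · intro x hx
        obtain ⟨k, rfl⟩ := mem_zpowers_iff.1 ((h.ker x).1 hx)
        exact zpow_mem (mem_center_iff.2 h.cent) k
      · intro x hx
        obtain ⟨k, rfl⟩ := mem_zpowers_iff.1 ((h.ker x).1 hx)
        exact zpow_mem hz k
    apply H12.SLS.stem_ne p l hlp τ hst
    have : τ.ker = zpowers z := by
      ext x
      exact h.ker x
    rw [this, Nat.card_zpowers, h.ord]

/-- For a finite field with q elements, q ≠ 4 and q ≠ 9, the special linear group SL₂ has trivial Schur multiplier (here the Schur multiplier is described through stem extensions, as in the definitions). -/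
theorem result {F : Type*} [Field F] [Fintype F] (h4 : Fintype.card F ≠ 4) (h9 : Fintype.card F ≠ 9) : Cfsg.HasCyclicSchurMultiplier (Matrix.SpecialLinearGroup (Fin 2) F) 1 := by
  exact aux h4 h9

end Cfsg.Agent.S2117
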