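import Cfsg.Statements.S2118
import Cfsg.Agent.H15.M9b
import Cfsg.Agent.H15.M9d

set_option autoImplicit false
open Cfsg

namespace Cfsg.Agent.S2118

universe u

theorem aux {F : Type u} [Field F] [Fintype F] (hF : Fintype.card F = 9) : Cfsg.HasCyclicSchurMultiplier (Matrix.SpecialLinearGroup (Fin 2) F) 3 :=
  Cfsg.Agent.H15.M9.hasCyclic_three (Cfsg.Agent.H15.M9.exists_stem hF) (fun Γ _ _ σ h => Cfsg.Agent.H15.M9.upper hF Γ σ h)

/-- For the field with 9 elements, the special linear group SL₂ has Schur multiplier cyclic of order 3 (here the Schur multiplier is described through stem extensions, as in the definitions). -/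
theorem result {F : Type*} [Field F] [Fintype F] (hF : Fintype.card F = 9) : Cfsg.HasCyclicSchurMultiplier (Matrix.SpecialLinearGroup (Fin 2) F) 3 := by
  exact aux hF

end Cfsg.Agent.S2118
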