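import Cfsg.Statements.S2149
import Cfsg.Agent.H29.GFq25B

set_option autoImplicit false
open Cfsg

namespace Cfsg.Agent.S2149

open Cfsg.Agent.H5 Cfsg.Agent.H29 in
theorem exists50 {F : Type*} [Field F] [Fintype F] (hF : Fintype.card F = 25) :
    ∃ H : Subgroup (Cfsg.PSU 3 F 5), H.index = 50 := by
  obtain ⟨h5, h2, s, hs⟩ := PsuFive.facts hF
  obtain ⟨σ, hσ, hσ2, hσ1⟩ := exists_frob (q := 5) (F := F) (by rw [hF]; norm_num)
  let f := QuotientGroup.mk' (Subgroup.center (SU 3 F 5))
  have hker : f.ker = Subgroup.center (SU 3 F 5) := QuotientGroup.ker_mk' _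
  have hcle := GFq25B.center_le_St h5 hs hσ hF
  have hne : (GFq25B.St s).map f ≠ ⊤ := by
    intro h
    have h3 : (GFq25B.St s).map f = (⊤ : Subgroup (SU 3 F 5)).map f := by
      rw [h, Subgroup.map_top_of_surjective f (QuotientGroup.mk'_surjective _)]
    have h4 := congrArg (Subgroup.comap f) h3
    rw [Subgroup.comap_map_eq, Subgroup.comap_map_eq, hker, sup_eq_left.2 hcle, top_sup_eq] at h4
    apply GFq25B.mU_not h5 hs hσ
    rw [h4]; trivial
  have h50 := PsuFive.fifty hF _ hne
  have hc := Subgroup.card_mul_index ((GFq25B.St s).map f)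
  rw [PsuFive.card_PSU5 hF] at hc
  have hcard : Nat.card (GFq25B.St s) = 3 * Nat.card ((GFq25B.St s).map f) := by
    have e1 := Subgroup.card_mul_index (GFq25B.St s)
    have e2 : ((GFq25B.St s).map f).index = (GFq25B.St s).index := by
      rw [Subgroup.index_map_eq _ (QuotientGroup.mk'_surjective _) (by rw [hker]; exact hcle)]
    rw [PsuFive.card_SU5 hF, ← e2] at e1
    have hpos : 0 < ((GFq25B.St s).map f).index := by omega
    have e3 : Nat.card (GFq25B.St s) * ((GFq25B.St s).map f).index =
        3 * Nat.card ((GFq25B.St s).map f) * ((GFq25B.St s).map f).index := by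
      rw [e1, mul_assoc, hc]
      norm_num
    exact Nat.eq_of_mul_eq_mul_right hpos e3
  have hd := GFq25B.dvd_all h5 hs hσ
  rw [hcard] at hd
  have hd2 : 2520 ∣ Nat.card ((GFq25B.St s).map f) :=
    Nat.dvd_of_mul_dvd_mul_left (by norm_num : 0 < 3) (by simpa using hd)
  obtain ⟨k, hk⟩ := hd2
  refine ⟨(GFq25B.St s).map f, ?_⟩
  rw [hk] at hc
  generalize ((GFq25B.St s).map f).index = n at *
  have h6 : k * n = 50 := by
    have : 2520 * (k * n) = 2520 * 50 := by rw [← mul_assoc, hc]
    exact Nat.eq_of_mul_eq_mul_left (by norm_num) this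
  have hk0 : 0 < k := by
    rcases Nat.eq_zero_or_pos k with h | h
    · rw [h, zero_mul] at h6; omega
    · exact h
  nlinarith

/-- Minimal index of a proper subgroup of PSU₃(5), realised over the field with 25 elements: every proper subgroup has index at least 50, and that index is attained. -/
theorem result {F : Type*} [Field F] [Fintype F] (hF : Fintype.card F = 25) : (∀ H : Subgroup (Cfsg.PSU 3 F 5), H ≠ ⊤ → 50 ≤ H.index) ∧ (∃ H : Subgroup (Cfsg.PSU 3 F 5), H.index = 50) := by
  exact ⟨fun H hH => Cfsg.Agent.H29.PsuFive.fifty hF H hH, exists50 hF⟩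

end Cfsg.Agent.S2149
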