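import Cfsg.Statements.S2158
import Cfsg.Agent.H15.ChevChr

set_option autoImplicit false
open Cfsg

namespace Cfsg.Agent.S2158

open Cfsg.Lie Cfsg.Agent.H6 Cfsg.Agent.H15.Chev

/-- In a Chevalley group of type G₂, B₂, D₄, F₄, E₆, E₇ or E₈ over any field, an element of the group whose matrix is the diagonal matrix `ĥ(χ)` of a character `χ` of the root lattice already lies in the diagonal subgroup H (the non-trivial inclusion of the statement that the group meets the group of all such diagonal matrices in H). -/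
theorem result {F : Type*} [Field F] (D : Cfsg.Lie.ChevalleyDatum) (hD : D ∈ [Cfsg.Lie.chevG2, Cfsg.Lie.chevB2, Cfsg.Lie.chevD4, Cfsg.Lie.chevF4, Cfsg.Lie.chevE6, Cfsg.Lie.chevE7, Cfsg.Lie.chevE8]) (χ : ℕ → Fˣ) (hχ : D.IsRootCharacter χ) (g : GL D.Idx F) (hg : g ∈ D.group F)
    (hgχ : (g : Matrix D.Idx D.Idx F) = D.charDiag F χ) : g ∈ D.diagonalSubgroup F := by
  obtain ⟨N, η, rc, hG, hE⟩ := exists_ext hD
  have hg1 : g = tor D F χ := Units.ext hgχ
  subst hg1
  have hc := isChr_of_rchr hG hχ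
  have key : ∀ S : Set ℕ, (∀ r ∈ S, r < D.nroots) → ∀ u ∈ US (xg D F) S,
      tor D F χ * u * (tor D F χ)⁻¹ ∈ US (xg D F) S := by
    intro S hS u hu
    unfold US at hu
    induction hu using Subgroup.closure_induction with
    | mem x hx =>
      obtain ⟨r, hr, t, rfl⟩ := hx
      rw [hG.tor_conj_xg hc (hS r hr)]
      exact mem_US hr _
    | one => rw [mul_one, mul_inv_cancel]; exact one_mem _
    | mul a b _ _ ha hb =>
      have e : tor D F χ * (a * b) * (tor D F χ)⁻¹ =
        (tor D F χ * a * (tor D F χ)⁻¹) * (tor D F χ * b * (tor D F χ)⁻¹) := by group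
      rw [e]; exact mul_mem ha hb
    | inv a _ ha =>
      have e : tor D F χ * a⁻¹ * (tor D F χ)⁻¹ = (tor D F χ * a * (tor D F χ)⁻¹)⁻¹ := by group
      rw [e]; exact inv_mem ha
  apply mem_diag_of_norm hG hE hg
  · intro u hu
    rw [hG.posUnipotent_eq_US] at hu ⊢
    exact key _ (fun r hr => hr.2) u hu
  · intro u hu
    rw [hG.negUnipotent_eq_US] at hu ⊢
    exact key _ (fun r hr => hG.lt_nroots_of_lt_N hr) u hu

end Cfsg.Agent.S2158
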