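import Cfsg.Statements.S2160
import Cfsg.Agent.H15.ChevAut1
import Cfsg.Agent.H6.ChevExtTab

set_option autoImplicit false
open Cfsg

namespace Cfsg.Agent.S2160

open Cfsg.Lie Cfsg.Agent.H6 Cfsg.Agent.H15.Chev in
theorem comm_field_graph {D : ChevalleyDatum} {N : ℕ} {η : ℕ → ℕ → ℤ} {rc : ℕ → ℕ → ℤ} {F : Type*} [Field F]
    (hG : Good D N η rc) (hE : Ext D rc) (f g : ↥(D.group F) ≃* ↥(D.group F)) (hf : D.IsFieldAut f)
    (hg : D.IsGraphAut g) (y : ↥(D.group F)) : f (g y) = g (f y) := by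
  obtain ⟨σ, hσ⟩ := (isFieldAut_iff hG).1 hf
  obtain ⟨π, -, hπ⟩ := (isGraphAut_iff hG).1 hg
  have h : (g.trans f) = (f.trans g) := by
    apply aut_ext hG hE
    · intro i hi t
      change f (g (XX hG (D.simple i) t)) = g (f (XX hG (D.simple i) t))
      rw [hσ _ _ (hG.simple_lt i hi), (hπ ⟨i, hi⟩ t).1, (hπ ⟨i, hi⟩ (σ t)).1, hσ _ _ (hG.simple_lt _ (π ⟨i, hi⟩).2), map_pow]
    · intro i hi t
      change f (g (XX hG (D.neg (D.simple i)) t)) = g (f (XX hG (D.neg (D.simple i)) t))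
      rw [hσ _ _ (hG.neg_lt' (hG.simple_lt i hi)), (hπ ⟨i, hi⟩ t).2, (hπ ⟨i, hi⟩ (σ t)).2,
        hσ _ _ (hG.neg_lt' (hG.simple_lt _ (π ⟨i, hi⟩).2)), map_pow]
  exact DFunLike.congr_fun h y

/-- In a Chevalley group of type G₂, B₂, D₄, F₄, E₆, E₇ or E₈ over a finite field, every field automorphism commutes with every graph automorphism. -/
theorem result {F : Type*} [Field F] [Finite F] (D : Cfsg.Lie.ChevalleyDatum) (hD : D ∈ [Cfsg.Lie.chevG2, Cfsg.Lie.chevB2, Cfsg.Lie.chevD4, Cfsg.Lie.chevF4, Cfsg.Lie.chevE6, Cfsg.Lie.chevE7, Cfsg.Lie.chevE8]) (f g : ↥(D.group F) ≃* ↥(D.group F))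
    (hf : D.IsFieldAut f) (hg : D.IsGraphAut g) (y : ↥(D.group F)) : f (g y) = g (f y) := by
  obtain ⟨N, η, rc, hG, hE⟩ := Cfsg.Agent.H6.exists_ext hD
  exact comm_field_graph hG hE f g hf hg y

end Cfsg.Agent.S2160
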