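import Cfsg.Statements.S2161
import Cfsg.Agent.H15.ChevGr
import Cfsg.Agent.H6.ChevExtTab

set_option autoImplicit false
open Cfsg

namespace Cfsg.Agent.S2161

open Cfsg.Lie Cfsg.Agent.H6 Cfsg.Agent.H15.Chev in
theorem perm_root {D : ChevalleyDatum} {N : ℕ} {η : ℕ → ℕ → ℤ} {rc : ℕ → ℕ → ℤ} {F : Type*} [Field F]
    (hG : Good D N η rc) (hE : Ext D rc)
    (hsym : ∀ i < D.rank, ∀ j < D.rank, D.cartan i (D.simple j) = D.cartan j (D.simple i))
    (hb : ∀ i < D.rank, ∀ j < D.rank, i ≠ j → D.cartan i (D.simple j) = - D.bonds i j)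
    (π : Equiv.Perm (Fin D.rank)) (hπ : D.IsDiagramSymmetry π) (φ : ↥(D.group F) ≃* ↥(D.group F))
    (hφ : ∀ (g : ↥(D.group F)) (i : Fin D.rank) (t : F), (((g : GL D.Idx F) : Matrix D.Idx D.Idx F) = D.x F (D.simple i) t → ((φ g : GL D.Idx F) : Matrix D.Idx D.Idx F) = D.x F (D.simple (π i)) t) ∧ (((g : GL D.Idx F) : Matrix D.Idx D.Idx F) = D.x F (D.neg (D.simple i)) t → ((φ g : GL D.Idx F) : Matrix D.Idx D.Idx F) = D.x F (D.neg (D.simple (π i))) t))
    (r : ℕ) (hr : r < D.nroots) : ∃ ε : F, (ε = 1 ∨ ε = -1) ∧ ∀ (g : ↥(D.group F)) (t : F), ((g : GL D.Idx F) : Matrix D.Idx D.Idx F) = D.x F r t → ((φ g : GL D.Idx F) : Matrix D.Idx D.Idx F) = D.x F (D.permRoot π r) (ε * t) := by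
  have hc : ∀ i k : Fin D.rank, D.cartan (π i) (D.simple (π k)) = D.cartan i (D.simple k) := by
    intro i k
    by_cases h : i = k
    · subst h
      rw [hG.cartan_diag _ (π i).2, hG.cartan_diag _ i.2]
    · rw [hb _ (π i).2 _ (π k).2 (fun h' => h (π.injective (Fin.ext h'))), hb _ i.2 _ k.2 (fun h' => h (Fin.ext h')), hπ i k h]
  obtain ⟨s, hs, h1, ε, hε, h2⟩ := graph_root hG π hc
    (fun i t => (eq_XX_iff hG).1 ((hφ _ i t).1 ((eq_XX_iff hG).2 rfl)))
    (fun i t => (eq_XX_iff hG).1 ((hφ _ i t).2 ((eq_XX_iff hG).2 rfl))) r hr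
  refine ⟨ε, hε, fun g t hg => ?_⟩
  rw [permRoot_eq hG (cor_eq_rc hG hE hsym) π hr hs h1, (eq_XX_iff hG).1 hg, h2]
  exact (eq_XX_iff hG).2 rfl

/-- For the Chevalley groups of types D₄ and E₆ (one root length) over any field: if `π` is a symmetry of the Dynkin diagram and `φ` is an automorphism sending `x_{p_i}(t)` to `x_{p_{π i}}(t)` and `x_{-p_i}(t)` to `x_{-p_{π i}}(t)` for every fundamental root `p_i`, then for every root `r` there is a sign `ε = ±1` with `φ(x_r(t)) = x_{π·r}(ε t)` for all `t`, where `π·r` is the root whose coefficients are those of `r` permuted by `π`. -/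
theorem result {F : Type*} [Field F] (D : Cfsg.Lie.ChevalleyDatum) (hD : D ∈ [Cfsg.Lie.chevD4, Cfsg.Lie.chevE6])
    (π : Equiv.Perm (Fin D.rank)) (hπ : D.IsDiagramSymmetry π) (φ : ↥(D.group F) ≃* ↥(D.group F))
    (hφ : ∀ (g : ↥(D.group F)) (i : Fin D.rank) (t : F),
      (((g : GL D.Idx F) : Matrix D.Idx D.Idx F) = D.x F (D.simple i) t →
        ((φ g : GL D.Idx F) : Matrix D.Idx D.Idx F) = D.x F (D.simple (π i)) t) ∧
      (((g : GL D.Idx F) : Matrix D.Idx D.Idx F) = D.x F (D.neg (D.simple i)) t →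
        ((φ g : GL D.Idx F) : Matrix D.Idx D.Idx F) = D.x F (D.neg (D.simple (π i))) t))
    (r : ℕ) (hr : r < D.nroots) :
    ∃ ε : F, (ε = 1 ∨ ε = -1) ∧ ∀ (g : ↥(D.group F)) (t : F),
      ((g : GL D.Idx F) : Matrix D.Idx D.Idx F) = D.x F r t →
        ((φ g : GL D.Idx F) : Matrix D.Idx D.Idx F) = D.x F (D.permRoot π r) (ε * t) := by
  simp only [List.mem_cons, List.mem_nil_iff, or_false] at hD
  rcases hD with rfl | rfl
  · exact perm_root Cfsg.Agent.H6.TD4.good Cfsg.Agent.H6.TD4.ext (by decide +kernel) (by decide +kernel) π hπ φ hφ r hr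
  · exact perm_root Cfsg.Agent.H6.TE6.good Cfsg.Agent.H6.TE6.ext (by decide +kernel) (by decide +kernel) π hπ φ hφ r hr

end Cfsg.Agent.S2161
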