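import Cfsg.Statements.S2298
import Cfsg.Agent.H16.GL2Vals

set_option autoImplicit false
open Cfsg

namespace Cfsg.Agent.S2298

/-- Over a finite field F with q elements, every irreducible complex character of GL₂ has degree 1, q − 1, q or q + 1; and when q ≥ 3 (so that these four numbers are distinct) there are exactly q − 1 irreducible characters of degree 1, exactly q − 1 of degree q, exactly (q − 1)(q − 2)/2 of degree q + 1 and exactly q(q − 1)/2 of degree q − 1. -/
theorem result {F : Type*} [Field F] [Fintype F] :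
    (∀ χ : Matrix.GeneralLinearGroup (Fin 2) F → ℂ, Cfsg.IsIrrCharacter (Matrix.GeneralLinearGroup (Fin 2) F) χ →
      χ 1 = 1 ∨ χ 1 = (Fintype.card F : ℂ) - 1 ∨ χ 1 = (Fintype.card F : ℂ) ∨ χ 1 = (Fintype.card F : ℂ) + 1) ∧
    (3 ≤ Fintype.card F →
      Nat.card {χ : Cfsg.IrrCharacter (Matrix.GeneralLinearGroup (Fin 2) F) // (χ : Matrix.GeneralLinearGroup (Fin 2) F → ℂ) 1 = 1} = Fintype.card F - 1 ∧
      Nat.card {χ : Cfsg.IrrCharacter (Matrix.GeneralLinearGroup (Fin 2) F) // (χ : Matrix.GeneralLinearGroup (Fin 2) F → ℂ) 1 = (Fintype.card F : ℂ)} = Fintype.card F - 1 ∧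
      Nat.card {χ : Cfsg.IrrCharacter (Matrix.GeneralLinearGroup (Fin 2) F) // (χ : Matrix.GeneralLinearGroup (Fin 2) F → ℂ) 1 = (Fintype.card F : ℂ) + 1} = (Fintype.card F - 1) * (Fintype.card F - 2) / 2 ∧
      Nat.card {χ : Cfsg.IrrCharacter (Matrix.GeneralLinearGroup (Fin 2) F) // (χ : Matrix.GeneralLinearGroup (Fin 2) F → ℂ) 1 = (Fintype.card F : ℂ) - 1} = Fintype.card F * (Fintype.card F - 1) / 2) := by
  classical
  haveI := Fintype.ofFinite (Cfsg.IrrCharacter (Matrix.GeneralLinearGroup (Fin 2) F))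
  constructor
  · intro χ h
    rcases H16.gl2_deg_cases h with ⟨_, h2⟩ | ⟨_, h2⟩ | ⟨_, h2⟩ | ⟨_, h2⟩
    · exact Or.inl h2
    · exact Or.inr (Or.inr (Or.inl h2))
    · exact Or.inr (Or.inr (Or.inr h2))
    · exact Or.inr (Or.inl h2)
  · intro hq
    have hP := H16.card_setP (F := F)
    have hC := H16.card_setC (F := F)
    refine ⟨?_, ?_, ?_, ?_⟩
    · rw [← H16.card_setL, Nat.card_eq_fintype_card, Fintype.card_subtype]
      congr 1
      ext χ
      rw [Finset.mem_filter, H16.mem_setL]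
      constructor
      · rintro ⟨_, h⟩; exact H16.gl2_deg_one χ.2 hq h
      · rintro ⟨α, h⟩; exact ⟨Finset.mem_univ _, by rw [h]; exact H16.dc_one α⟩
    · rw [← H16.card_setS, Nat.card_eq_fintype_card, Fintype.card_subtype]
      congr 1
      ext χ
      rw [Finset.mem_filter, H16.mem_setS]
      constructor
      · rintro ⟨_, h⟩; exact H16.gl2_deg_q χ.2 h
      · rintro ⟨α, h⟩; exact ⟨Finset.mem_univ _, by rw [h]; exact H16.StG_one α⟩
    · rw [← hP, Nat.mul_div_cancel_left _ (by norm_num : 0 < 2), Nat.card_eq_fintype_card, Fintype.card_subtype]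
      congr 1
      ext χ
      rw [Finset.mem_filter, H16.mem_setP]
      constructor
      · rintro ⟨_, h⟩; exact H16.gl2_deg_q_add χ.2 h
      · rintro ⟨α, β, _, h⟩; exact ⟨Finset.mem_univ _, by rw [h]; exact H16.PG_one α β⟩
    · rw [← hC, Nat.mul_div_cancel_left _ (by norm_num : 0 < 2), Nat.card_eq_fintype_card, Fintype.card_subtype]
      congr 1
      ext χ
      rw [Finset.mem_filter, H16.mem_setC]
      constructor
      · rintro ⟨_, h⟩; exact H16.gl2_deg_q_sub χ.2 hq h
      · intro h; exact ⟨Finset.mem_univ _, H16.cusp_one χ.2 h⟩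

end Cfsg.Agent.S2298
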