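import Cfsg.Statements.S2299
import Cfsg.Agent.H16.SL2Deg

set_option autoImplicit false
open Cfsg

namespace Cfsg.Agent.S2299

/-- Over a finite field F with q elements, q odd, every irreducible complex character of SL₂ has degree 1, q, q + 1, q − 1, (q + 1)/2 or (q − 1)/2; and when q ≥ 5 (so that these six numbers are distinct) there are exactly one irreducible character of degree 1, one of degree q, (q − 3)/2 of degree q + 1, (q − 1)/2 of degree q − 1, two of degree (q + 1)/2 and two of degree (q − 1)/2. -/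
theorem result {F : Type*} [Field F] [Fintype F] (hodd : Odd (Fintype.card F)) :
    (∀ χ : Matrix.SpecialLinearGroup (Fin 2) F → ℂ, Cfsg.IsIrrCharacter (Matrix.SpecialLinearGroup (Fin 2) F) χ →
      χ 1 = 1 ∨ χ 1 = (Fintype.card F : ℂ) ∨ χ 1 = (Fintype.card F : ℂ) + 1 ∨ χ 1 = (Fintype.card F : ℂ) - 1 ∨
        χ 1 = (((Fintype.card F + 1) / 2 : ℕ) : ℂ) ∨ χ 1 = (((Fintype.card F - 1) / 2 : ℕ) : ℂ)) ∧
    (5 ≤ Fintype.card F →
      Nat.card {χ : Cfsg.IrrCharacter (Matrix.SpecialLinearGroup (Fin 2) F) // (χ : Matrix.SpecialLinearGroup (Fin 2) F → ℂ) 1 = 1} = 1 ∧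
      Nat.card {χ : Cfsg.IrrCharacter (Matrix.SpecialLinearGroup (Fin 2) F) // (χ : Matrix.SpecialLinearGroup (Fin 2) F → ℂ) 1 = (Fintype.card F : ℂ)} = 1 ∧
      Nat.card {χ : Cfsg.IrrCharacter (Matrix.SpecialLinearGroup (Fin 2) F) // (χ : Matrix.SpecialLinearGroup (Fin 2) F → ℂ) 1 = (Fintype.card F : ℂ) + 1} = (Fintype.card F - 3) / 2 ∧
      Nat.card {χ : Cfsg.IrrCharacter (Matrix.SpecialLinearGroup (Fin 2) F) // (χ : Matrix.SpecialLinearGroup (Fin 2) F → ℂ) 1 = (Fintype.card F : ℂ) - 1} = (Fintype.card F - 1) / 2 ∧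
      Nat.card {χ : Cfsg.IrrCharacter (Matrix.SpecialLinearGroup (Fin 2) F) // (χ : Matrix.SpecialLinearGroup (Fin 2) F → ℂ) 1 = (((Fintype.card F + 1) / 2 : ℕ) : ℂ)} = 2 ∧
      Nat.card {χ : Cfsg.IrrCharacter (Matrix.SpecialLinearGroup (Fin 2) F) // (χ : Matrix.SpecialLinearGroup (Fin 2) F → ℂ) 1 = (((Fintype.card F - 1) / 2 : ℕ) : ℂ)} = 2) := by
  classical
  have := Fintype.ofFinite (Cfsg.IrrCharacter (Matrix.SpecialLinearGroup (Fin 2) F))
  have hq3 := H16.card_F_ge_three hodd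
  constructor
  · intro χ h
    obtain ⟨n, hn0, hn⟩ := H3.irr_one_eq_nat h
    rw [hn]
    obtain ⟨k, hk⟩ := hodd
    have hs : (Fintype.card F : ℂ) - 1 = ((Fintype.card F - 1 : ℕ) : ℂ) := by
      rw [Nat.cast_sub (by omega), Nat.cast_one]
    rw [hs]
    rcases H16.sl2_odd_deg h hn with ⟨_, h2⟩ | ⟨_, h2⟩ | ⟨_, h2⟩ | ⟨_, h2⟩ | ⟨_, h2⟩ | ⟨_, h2⟩
    · left; rw [h2, Nat.cast_one]
    · right; left; rw [h2]
    · right; right; left; rw [h2]; push_cast; rfl
    · right; right; right; right; left; congr 1; omega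
    · right; right; right; left; congr 1; omega
    · right; right; right; right; right; congr 1; omega
  · intro hq
    obtain ⟨α₀, ha1, ha2⟩ := H16.exists_quad hodd
    obtain ⟨χ₁, χ₂, i1', i2', hne, hsum, hdeg, _⟩ := H16.PS_halves α₀ ha2 ha1
    have hP := H16.card_setPS_odd (F := F) hodd
    obtain ⟨hC1, hC2, hC3⟩ := H16.card_cuspS_odd (F := F) hodd
    have key : ∀ (χ : Cfsg.IrrCharacter (Matrix.SpecialLinearGroup (Fin 2) F)) (n : ℕ),
        (χ : Matrix.SpecialLinearGroup (Fin 2) F → ℂ) 1 = (n : ℂ) ↔ H16.ndeg χ = n := by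
      intro χ n
      rw [H16.ndeg_eq]
      exact Nat.cast_inj
    have hs : (Fintype.card F : ℂ) - 1 = ((Fintype.card F - 1 : ℕ) : ℂ) := by
      rw [Nat.cast_sub (by omega), Nat.cast_one]
    have hs1 : (1 : ℂ) = ((1 : ℕ) : ℂ) := by simp
    have hs2 : (Fintype.card F : ℂ) + 1 = ((Fintype.card F + 1 : ℕ) : ℂ) := by push_cast; rfl
    rw [hs]
    obtain ⟨k, hk⟩ := hodd
    refine ⟨?_, ?_, ?_, ?_, ?_, ?_⟩
    · rw [Nat.card_eq_one_iff_unique]
      constructor
      · constructor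
        rintro ⟨χ, hχ⟩ ⟨χ', hχ'⟩
        have aux : ∀ χ : Cfsg.IrrCharacter (Matrix.SpecialLinearGroup (Fin 2) F), (χ : Matrix.SpecialLinearGroup (Fin 2) F → ℂ) 1 = 1 →
            (χ : Matrix.SpecialLinearGroup (Fin 2) F → ℂ) = fun _ => 1 := by
          intro χ hχ
          rw [hs1] at hχ
          rcases H16.sl2_odd_deg χ.2 hχ with ⟨h1, h2⟩ | ⟨_, h2⟩ | ⟨_, h2⟩ | ⟨_, h2⟩ | ⟨_, h2⟩ | ⟨_, h2⟩
          · exact h1
          all_goals omega
        apply Subtype.ext; apply Subtype.ext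
        rw [aux χ hχ, aux χ' hχ']
      · exact ⟨⟨H16.i1 F, rfl⟩⟩
    · rw [Nat.card_eq_one_iff_unique]
      constructor
      · constructor
        rintro ⟨χ, hχ⟩ ⟨χ', hχ'⟩
        apply Subtype.ext; apply Subtype.ext
        rw [H16.sl2_deg_q χ.2 hχ, H16.sl2_deg_q χ'.2 hχ']
      · exact ⟨⟨H16.iSt F, H16.StS_one⟩⟩
    · have : (H16.setPS F).card = (Fintype.card F - 3) / 2 := by omega
      rw [← this, Nat.card_eq_fintype_card, Fintype.card_subtype]
      congr 1
      ext χ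
      rw [Finset.mem_filter, H16.mem_setPS]
      constructor
      · rintro ⟨_, h⟩
        rw [hs2] at h
        rcases H16.sl2_odd_deg χ.2 h with ⟨_, h2⟩ | ⟨_, h2⟩ | ⟨h1, h2⟩ | ⟨_, h2⟩ | ⟨_, h2⟩ | ⟨_, h2⟩
        · omega
        · omega
        · exact h1
        all_goals omega
      · rintro ⟨α, _, h⟩
        exact ⟨Finset.mem_univ _, by rw [h]; exact H16.PS_one α⟩
    · have : (Finset.filter (fun χ => H16.ndeg χ = Fintype.card F - 1) (H16.setCS F)).card = (Fintype.card F - 1) / 2 := by omega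
      rw [← this, Nat.card_eq_fintype_card, Fintype.card_subtype]
      congr 1
      ext χ
      rw [Finset.mem_filter, Finset.mem_filter, key, H16.mem_setCS]
      constructor
      · rintro ⟨_, h⟩
        refine ⟨?_, h⟩
        rcases H16.sl2_odd_deg χ.2 ((key _ _).2 h) with ⟨_, h2⟩ | ⟨_, h2⟩ | ⟨_, h2⟩ | ⟨_, h2⟩ | ⟨h1, h2⟩ | ⟨_, h2⟩
        · omega
        · omega
        · omega
        · omega
        · exact h1.1
        · omega
      · rintro ⟨_, h⟩
        exact ⟨Finset.mem_univ _, h⟩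
    · have hne' : (⟨χ₁, i1'⟩ : Cfsg.IrrCharacter (Matrix.SpecialLinearGroup (Fin 2) F)) ≠ ⟨χ₂, i2'⟩ := fun h => hne (congrArg Subtype.val h)
      rw [Nat.card_eq_fintype_card, Fintype.card_subtype]
      refine Eq.trans ?_ (Finset.card_pair hne')
      congr 1
      ext χ
      rw [Finset.mem_filter, Finset.mem_insert, Finset.mem_singleton]
      constructor
      · rintro ⟨_, h⟩
        rcases H16.sl2_odd_deg χ.2 h with ⟨_, h2⟩ | ⟨_, h2⟩ | ⟨_, h2⟩ | ⟨h1, h2⟩ | ⟨_, h2⟩ | ⟨_, h2⟩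
        · omega
        · omega
        · omega
        · obtain ⟨α, ψ', h3, h4, h5, h6, h7, _⟩ := h1
          have hne2 : Cfsg.classInner (H16.PS α) (χ : Matrix.SpecialLinearGroup (Fin 2) F → ℂ) ≠ 0 := by
            rw [h7, H3.classInner_add_left, H3.classInner_self_of_irr χ.2, H3.classInner_of_irr_ne h5 χ.2 h6.symm]; norm_num
          rw [H16.quad_unique h4 h3 ha2 ha1, hsum] at hne2
          rcases H16.inner_add_irr i1' i2' χ.2 hne2 with h | h
          · left; exact Subtype.ext h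
          · right; exact Subtype.ext h
        · omega
        · omega
      · intro h
        refine ⟨Finset.mem_univ _, ?_⟩
        have e := congrFun hsum 1
        rw [H16.PS_one, Pi.add_apply] at e
        have e5 : (Fintype.card F + 1) / 2 = k + 1 := by omega
        rw [e5]
        rw [hk] at e
        push_cast at e ⊢
        rcases h with rfl | rfl
        · simp only
          rw [← hdeg] at e
          linear_combination (-1 / 2 : ℂ) * e
        · simp only
          rw [hdeg] at e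
          linear_combination (-1 / 2 : ℂ) * e
    · rw [Nat.card_eq_fintype_card, Fintype.card_subtype]
      refine Eq.trans ?_ hC2
      congr 1
      ext χ
      rw [Finset.mem_filter, Finset.mem_filter, H16.mem_setCS, key]
      constructor
      · rintro ⟨_, h⟩
        rcases H16.sl2_odd_deg χ.2 ((key _ _).2 h) with ⟨_, h2⟩ | ⟨_, h2⟩ | ⟨_, h2⟩ | ⟨_, h2⟩ | ⟨_, h2⟩ | ⟨h1, h2⟩
        · omega
        · omega
        · omega
        · omega
        · omega
        · refine ⟨h1.1, ?_⟩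
          omega
      · rintro ⟨h1, h2⟩
        refine ⟨Finset.mem_univ _, ?_⟩
        have := hC3 χ (H16.mem_setCS.2 h1) h2
        omega

end Cfsg.Agent.S2299
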