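import Cfsg.Statements.S2300
import Cfsg.Agent.H16.SL2Deg

set_option autoImplicit false
open Cfsg

namespace Cfsg.Agent.S2300

/-- Over a finite field F with q elements, q even, every irreducible complex character of SL₂ has degree 1, q − 1, q or q + 1; and when q ≥ 4 (so that these four numbers are distinct) there are exactly one irreducible character of degree 1, one of degree q, (q − 2)/2 of degree q + 1 and q/2 of degree q − 1. -/
theorem result {F : Type*} [Field F] [Fintype F] [CharP F 2] :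
    (∀ χ : Matrix.SpecialLinearGroup (Fin 2) F → ℂ, Cfsg.IsIrrCharacter (Matrix.SpecialLinearGroup (Fin 2) F) χ →
      χ 1 = 1 ∨ χ 1 = (Fintype.card F : ℂ) - 1 ∨ χ 1 = (Fintype.card F : ℂ) ∨ χ 1 = (Fintype.card F : ℂ) + 1) ∧
    (4 ≤ Fintype.card F →
      Nat.card {χ : Cfsg.IrrCharacter (Matrix.SpecialLinearGroup (Fin 2) F) // (χ : Matrix.SpecialLinearGroup (Fin 2) F → ℂ) 1 = 1} = 1 ∧
      Nat.card {χ : Cfsg.IrrCharacter (Matrix.SpecialLinearGroup (Fin 2) F) // (χ : Matrix.SpecialLinearGroup (Fin 2) F → ℂ) 1 = (Fintype.card F : ℂ)} = 1 ∧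
      Nat.card {χ : Cfsg.IrrCharacter (Matrix.SpecialLinearGroup (Fin 2) F) // (χ : Matrix.SpecialLinearGroup (Fin 2) F → ℂ) 1 = (Fintype.card F : ℂ) + 1} = (Fintype.card F - 2) / 2 ∧
      Nat.card {χ : Cfsg.IrrCharacter (Matrix.SpecialLinearGroup (Fin 2) F) // (χ : Matrix.SpecialLinearGroup (Fin 2) F → ℂ) 1 = (Fintype.card F : ℂ) - 1} = Fintype.card F / 2) := by
  classical
  have := Fintype.ofFinite (Cfsg.IrrCharacter (Matrix.SpecialLinearGroup (Fin 2) F))
  have hq2 := H16.card_F_ge (F := F)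
  have hcl : ∀ χ : Matrix.SpecialLinearGroup (Fin 2) F → ℂ, Cfsg.IsIrrCharacter (Matrix.SpecialLinearGroup (Fin 2) F) χ →
      (χ = (fun _ => 1) ∨ χ = H16.StS F ∨ (∃ α : MulChar F ℂ, α ^ 2 ≠ 1 ∧ χ = H16.PS α) ∨ (H16.CuspS χ ∧ χ 1 = (Fintype.card F : ℂ) - 1)) := by
    intro χ h
    rcases H16.sl2_irr_cases h with h | h | h | ⟨α, h1, h2, _⟩ | hc
    · exact Or.inl h
    · exact Or.inr (Or.inl h)
    · exact Or.inr (Or.inr (Or.inl h))
    · exact absurd (H16.sq_ne_one_even.1 h2) h1
    · exact Or.inr (Or.inr (Or.inr ⟨hc, (H16.cuspS_even_deg h hc).1⟩))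
  constructor
  · intro χ h
    rcases hcl χ h with rfl | rfl | ⟨α, _, rfl⟩ | ⟨_, h2⟩
    · exact Or.inl rfl
    · exact Or.inr (Or.inr (Or.inl H16.StS_one))
    · exact Or.inr (Or.inr (Or.inr (H16.PS_one α)))
    · exact Or.inr (Or.inl h2)
  · intro hq
    have hP := H16.card_setPS_even (F := F)
    have hC := H16.card_setCS_even (F := F)
    have hs : (Fintype.card F : ℂ) - 1 = ((Fintype.card F - 1 : ℕ) : ℂ) := by
      rw [Nat.cast_sub (by omega), Nat.cast_one]
    have key : ∀ a b : ℕ, (a : ℂ) = b → a = b := fun a b h => by exact_mod_cast h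
    have aux1 : ∀ χ : Cfsg.IrrCharacter (Matrix.SpecialLinearGroup (Fin 2) F), (χ : Matrix.SpecialLinearGroup (Fin 2) F → ℂ) 1 = 1 →
        (χ : Matrix.SpecialLinearGroup (Fin 2) F → ℂ) = fun _ => 1 := by
      intro χ hχ
      rcases hcl χ χ.2 with h | h | ⟨α, _, h⟩ | ⟨_, h⟩
      · exact h
      · rw [h, H16.StS_one] at hχ
        have := key _ 1 (by rw [hχ]; simp); omega
      · rw [h, H16.PS_one] at hχ
        have := key (Fintype.card F + 1) 1 (by push_cast; exact hχ); omega
      · rw [h, hs] at hχ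
        have := key _ 1 (by rw [hχ]; simp); omega
    refine ⟨?_, ?_, ?_, ?_⟩
    · rw [Nat.card_eq_one_iff_unique]
      constructor
      · constructor
        rintro ⟨χ, hχ⟩ ⟨χ', hχ'⟩
        apply Subtype.ext; apply Subtype.ext
        rw [aux1 χ hχ, aux1 χ' hχ']
      · exact ⟨⟨H16.i1 F, rfl⟩⟩
    · rw [Nat.card_eq_one_iff_unique]
      constructor
      · constructor
        rintro ⟨χ, hχ⟩ ⟨χ', hχ'⟩
        apply Subtype.ext; apply Subtype.ext
        rw [H16.sl2_deg_q χ.2 hχ, H16.sl2_deg_q χ'.2 hχ']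
      · exact ⟨⟨H16.iSt F, H16.StS_one⟩⟩
    · have : (H16.setPS F).card = (Fintype.card F - 2) / 2 := by omega
      rw [← this, Nat.card_eq_fintype_card, Fintype.card_subtype]
      congr 1
      ext χ
      rw [Finset.mem_filter, H16.mem_setPS]
      constructor
      · rintro ⟨_, hχ⟩
        rcases hcl χ χ.2 with h | h | h | ⟨_, h⟩
        · rw [h] at hχ
          have := key 1 (Fintype.card F + 1) (by push_cast; exact hχ); omega
        · rw [h, H16.StS_one] at hχ
          have := key _ (Fintype.card F + 1) (by push_cast; exact hχ); omega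
        · exact h
        · rw [h, hs] at hχ
          have := key _ (Fintype.card F + 1) (by push_cast; exact hχ); omega
      · rintro ⟨α, _, h⟩
        exact ⟨Finset.mem_univ _, by rw [h]; exact H16.PS_one α⟩
    · have : (H16.setCS F).card = Fintype.card F / 2 := by omega
      rw [← this, Nat.card_eq_fintype_card, Fintype.card_subtype]
      congr 1
      ext χ
      rw [Finset.mem_filter, H16.mem_setCS]
      constructor
      · rintro ⟨_, hχ⟩
        rw [hs] at hχ
        rcases hcl χ χ.2 with h | h | ⟨α, _, h⟩ | h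
        · rw [h] at hχ
          have := key 1 (Fintype.card F - 1) (by rw [Nat.cast_one]; exact hχ); omega
        · rw [h, H16.StS_one] at hχ
          have := key _ _ hχ; omega
        · rw [h, H16.PS_one] at hχ
          have := key (Fintype.card F + 1) (Fintype.card F - 1) (by rw [← hχ]; push_cast; rfl); omega
        · exact h.1
      · intro h
        exact ⟨Finset.mem_univ _, (H16.cuspS_even_deg χ.2 h).1⟩

end Cfsg.Agent.S2300
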