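import Cfsg.Statements.S2301
import Cfsg.Agent.H16.SL2Cent

set_option autoImplicit false
open Cfsg

namespace Cfsg.Agent.S2301

/-- Over a finite field with q elements of odd characteristic p, the elements of order p of SL₂ (the non-identity unipotent elements) fall into exactly two conjugacy classes, each of size (q² − 1)/2; two upper unitriangular matrices with non-zero off-diagonal entries b and b′ are conjugate exactly when bb′ is a square. -/
theorem result {F : Type*} [Field F] [Fintype F] (p : ℕ) [Fact p.Prime] [CharP F p] (hp : p ≠ 2) :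
    Nat.card {C : ConjClasses (Matrix.SpecialLinearGroup (Fin 2) F) // ∃ g : Matrix.SpecialLinearGroup (Fin 2) F, orderOf g = p ∧ ConjClasses.mk g = C} = 2 ∧
    (∀ g : Matrix.SpecialLinearGroup (Fin 2) F, orderOf g = p → Nat.card (ConjClasses.mk g).carrier = (Fintype.card F ^ 2 - 1) / 2) ∧
    ∀ g h : Matrix.SpecialLinearGroup (Fin 2) F, (g : Matrix (Fin 2) (Fin 2) F) 0 0 = 1 → (g : Matrix (Fin 2) (Fin 2) F) 1 1 = 1 → (g : Matrix (Fin 2) (Fin 2) F) 1 0 = 0 → (g : Matrix (Fin 2) (Fin 2) F) 0 1 ≠ 0 →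
      (h : Matrix (Fin 2) (Fin 2) F) 0 0 = 1 → (h : Matrix (Fin 2) (Fin 2) F) 1 1 = 1 → (h : Matrix (Fin 2) (Fin 2) F) 1 0 = 0 → (h : Matrix (Fin 2) (Fin 2) F) 0 1 ≠ 0 →
      (IsConj g h ↔ IsSquare ((g : Matrix (Fin 2) (Fin 2) F) 0 1 * (h : Matrix (Fin 2) (Fin 2) F) 0 1)) := by
  classical
  have hr : ringChar F = p := ringChar.eq F p
  have h2 : (2 : F) ≠ 0 := Ring.two_ne_zero (by rw [hr]; exact hp)
  have h11 : (2 : F) = 1 + 1 := by norm_num
  obtain ⟨ν, hν⟩ := FiniteField.exists_nonsquare (F := F) (by rw [hr]; exact hp)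
  have hν0 : ν ≠ 0 := by rintro rfl; exact hν (IsSquare.zero)
  have hcls : ∀ (c : F) (hc : c ≠ 0), orderOf (H16.cform (1 + 1) c hc) = p := by
    intro c hc
    rw [H16.sl2_orderOf_p]
    exact ⟨by rw [H16.cform_trace, h11], H16.cform_not_isScal _ _ _⟩
  refine ⟨?_, ?_, ?_⟩
  · let f : Bool → {C : ConjClasses (Matrix.SpecialLinearGroup (Fin 2) F) // ∃ g : Matrix.SpecialLinearGroup (Fin 2) F, orderOf g = p ∧ ConjClasses.mk g = C} :=
      fun b => if b then ⟨ConjClasses.mk (H16.cform (1 + 1) 1 one_ne_zero), _, hcls _ _, rfl⟩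
        else ⟨ConjClasses.mk (H16.cform (1 + 1) ν hν0), _, hcls _ _, rfl⟩
    have hne : ConjClasses.mk (H16.cform (1 + 1) 1 one_ne_zero) ≠ ConjClasses.mk (H16.cform (1 + 1) ν hν0) := by
      rw [Ne, ConjClasses.mk_eq_mk_iff_isConj, H16.cform_parabolic_conj_iff 1 (one_mul 1), one_mul]
      exact hν
    have hbij : Function.Bijective f := by
      constructor
      · intro b b' h
        cases b <;> cases b' <;> simp [f] at h ⊢
        · exact hne h.symm
        · exact hne h
      · rintro ⟨C, g, hg, rfl⟩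
        rw [H16.sl2_orderOf_p] at hg
        obtain ⟨c, hc, h1⟩ := H16.sl2_exists_conj_cform g hg.2
        rw [hg.1, h11] at h1
        by_cases hsq : IsSquare c
        · refine ⟨true, ?_⟩
          apply Subtype.ext
          simp only [f, if_true]
          rw [ConjClasses.mk_eq_mk_iff_isConj]
          refine IsConj.trans ?_ h1.symm
          rw [H16.cform_parabolic_conj_iff 1 (one_mul 1), one_mul]
          exact hsq
        · refine ⟨false, ?_⟩
          apply Subtype.ext
          simp only [f, Bool.false_eq_true, if_false]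
          rw [ConjClasses.mk_eq_mk_iff_isConj]
          refine IsConj.trans ?_ h1.symm
          rw [H16.cform_parabolic_conj_iff 1 (one_mul 1)]
          exact H16.isSquare_mul_of_nonsq hν hsq
    rw [← Nat.card_congr (Equiv.ofBijective f hbij)]
    simp
  · intro g hg
    rw [H16.sl2_orderOf_p] at hg
    have h3 := H16.card_carrier_mul g
    rw [H16.card_cent_sl2_par_odd g (one_mul 1) h2 (by rw [hg.1, h11]) hg.2, Cfsg.Agent.H5.card_SL2 (F := F) rfl] at h3
    have h4 : Fintype.card F * (Nat.card (ConjClasses.mk g).carrier * 2) = Fintype.card F * (Fintype.card F ^ 2 - 1) := by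
      rw [← h3]; ring
    have h5 := Nat.eq_of_mul_eq_mul_left Fintype.card_pos h4
    omega
  · intro g h g00 g11 g10 g01 h00 h11' h10 h01
    have key : ∀ (k : Matrix.SpecialLinearGroup (Fin 2) F), (k : Matrix (Fin 2) (Fin 2) F) 0 0 = 1 → (k : Matrix (Fin 2) (Fin 2) F) 1 1 = 1 →
        (k : Matrix (Fin 2) (Fin 2) F) 1 0 = 0 → ∀ hk : (k : Matrix (Fin 2) (Fin 2) F) 0 1 ≠ 0,
        IsConj k (H16.cform (1 + 1) (-(k : Matrix (Fin 2) (Fin 2) F) 0 1) (neg_ne_zero.2 hk)) := by
      intro k k00 k11 k10 hk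
      set b := (k : Matrix (Fin 2) (Fin 2) F) 0 1 with hb
      let Q : Matrix.SpecialLinearGroup (Fin 2) F := ⟨!![1, 0; b⁻¹, 1], by rw [Matrix.det_fin_two_of]; ring⟩
      rw [isConj_iff]
      refine ⟨Q, ?_⟩
      rw [mul_inv_eq_iff_eq_mul]
      apply H16.sl_ext
      rw [Matrix.SpecialLinearGroup.coe_mul, Matrix.SpecialLinearGroup.coe_mul, H16.cform_coe]
      have hQ : (Q : Matrix (Fin 2) (Fin 2) F) = !![1, 0; b⁻¹, 1] := rfl
      have hk2 : (k : Matrix (Fin 2) (Fin 2) F) = !![1, b; 0, 1] := by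
        ext i j
        fin_cases i <;> fin_cases j <;> simp [k00, k11, k10, hb]
      rw [hQ, hk2]
      ext i j
      fin_cases i <;> fin_cases j <;> simp [Matrix.mul_apply, Fin.sum_univ_two] <;> field_simp <;> ring
    have k1 := key g g00 g11 g10 g01
    have k2 := key h h00 h11' h10 h01
    rw [← neg_mul_neg, ← H16.cform_parabolic_conj_iff 1 (one_mul 1) _ _ (neg_ne_zero.2 g01) (neg_ne_zero.2 h01)]
    constructor
    · intro hc
      exact k1.symm.trans (hc.trans k2)
    · intro hc
      exact k1.trans (hc.trans k2.symm)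

end Cfsg.Agent.S2301
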