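import Cfsg.Statements.S2302
import Cfsg.Agent.H16.SL2Cent

set_option autoImplicit false
open Cfsg

namespace Cfsg.Agent.S2302

/-- Over a finite field with q elements of characteristic 2, the involutions of SL₂ (the non-identity unipotent elements) form a single conjugacy class, of size q² − 1. -/
theorem result {F : Type*} [Field F] [Fintype F] [CharP F 2] (g h : Matrix.SpecialLinearGroup (Fin 2) F) (hg : orderOf g = 2) (hh : orderOf h = 2) :
    IsConj g h ∧ Nat.card (ConjClasses.mk g).carrier = Fintype.card F ^ 2 - 1 := by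
  have h2 : (2 : F) = 0 := CharTwo.two_eq_zero
  rw [H16.sl2_orderOf_p] at hg hh
  rw [h2] at hg hh
  refine ⟨H16.sl2_isConj_of_universal (fun c _ => H16.nf_universal_char_two _ c) hg.2 hh.2 hg.1 hh.1, ?_⟩
  have h3 := H16.card_carrier_mul g
  rw [H16.card_cent_sl2_par_even g hg.1 hg.2, Cfsg.Agent.H5.card_SL2 (F := F) rfl, mul_comm] at h3
  exact Nat.eq_of_mul_eq_mul_left Fintype.card_pos h3

end Cfsg.Agent.S2302
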