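import Cfsg.Statements.S2308
import Cfsg.Agent.H16.PS4

set_option autoImplicit false
open Cfsg

namespace Cfsg.Agent.S2308

/-- Values of the permutation character of GL₂ over a finite field F with q elements on the cosets of its upper triangular subgroup (equivalently, the number of lines of F² that an element maps to themselves): q + 1 at a scalar matrix, 2 at a diagonal matrix with two different diagonal entries, 0 at an element with no eigenvector in F², and 1 at an upper triangular matrix with equal diagonal entries and non-zero upper right entry. -/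
theorem result {F : Type*} [Field F] [Fintype F] (g : Matrix.GeneralLinearGroup (Fin 2) F) :
    ((∃ a : F, (g : Matrix (Fin 2) (Fin 2) F) = a • (1 : Matrix (Fin 2) (Fin 2) F)) → Cfsg.fixedPointCharacter (Cfsg.upperTriangularGL 2 F) g = Fintype.card F + 1) ∧
    ((g : Matrix (Fin 2) (Fin 2) F) 0 1 = 0 → (g : Matrix (Fin 2) (Fin 2) F) 1 0 = 0 → (g : Matrix (Fin 2) (Fin 2) F) 0 0 ≠ (g : Matrix (Fin 2) (Fin 2) F) 1 1 →
      Cfsg.fixedPointCharacter (Cfsg.upperTriangularGL 2 F) g = 2) ∧
    ((∀ (c : F) (v : Fin 2 → F), v ≠ 0 → (g : Matrix (Fin 2) (Fin 2) F).mulVec v ≠ c • v) → Cfsg.fixedPointCharacter (Cfsg.upperTriangularGL 2 F) g = 0) ∧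
    ((g : Matrix (Fin 2) (Fin 2) F) 1 0 = 0 → (g : Matrix (Fin 2) (Fin 2) F) 0 0 = (g : Matrix (Fin 2) (Fin 2) F) 1 1 → (g : Matrix (Fin 2) (Fin 2) F) 0 1 ≠ 0 →
      Cfsg.fixedPointCharacter (Cfsg.upperTriangularGL 2 F) g = 1) := by
  classical
  rw [H16.fixedPoint_eq_PG]
  have hd := g.det_ne_zero
  have hu : ∀ a : F, a ≠ 0 → (1 : MulChar F ℂ) a = 1 := fun a ha => MulChar.one_apply (isUnit_iff_ne_zero.2 ha)
  refine ⟨?_, ?_, ?_, ?_⟩
  · rintro ⟨a, ha⟩
    have h := H16.ps_scal (MonoidHom.id (GL (Fin 2) F)) H16.gl_transitive 1 1 g a ha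
    have ha0 : a ≠ 0 := by rintro rfl; exact hd (by rw [ha, zero_smul, Matrix.det_zero])
    rw [hu a ha0, mul_one, mul_one] at h
    exact h
  · intro h1 h2 h3
    rw [Matrix.det_fin_two, h1, zero_mul, sub_zero] at hd
    have h := H16.ps_split (MonoidHom.id (GL (Fin 2) F)) H16.gl_transitive 1 1 g h3 (Matrix.trace_fin_two _)
      (by rw [MonoidHom.id_apply, Matrix.det_fin_two, h1, zero_mul, sub_zero])
    rw [hu _ (left_ne_zero_of_mul hd), hu _ (right_ne_zero_of_mul hd)] at h
    refine h.trans ?_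
    norm_num
  · intro h
    exact H16.ps_ell (MonoidHom.id (GL (Fin 2) F)) H16.gl_transitive 1 1 g ((H16.noEig_iff _).1 h)
  · intro h1 h2 h3
    rw [Matrix.det_fin_two, h1, mul_zero, sub_zero] at hd
    have h := H16.ps_par (MonoidHom.id (GL (Fin 2) F)) H16.gl_transitive 1 1 g (fun hs => h3 hs.1) (l := (g : Matrix (Fin 2) (Fin 2) F) 0 0)
      (by rw [MonoidHom.id_apply, Matrix.trace_fin_two, ← h2])
      (by rw [MonoidHom.id_apply, Matrix.det_fin_two, h1, mul_zero, sub_zero, ← h2])
    rw [hu _ (left_ne_zero_of_mul hd), mul_one] at h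
    exact h

end Cfsg.Agent.S2308
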