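import Cfsg.Statements.S2309
import Cfsg.Agent.H16.GL2Vals

set_option autoImplicit false
open Cfsg

namespace Cfsg.Agent.S2309

/-- Over a finite field F with q elements: every irreducible complex character of GL₂ of degree q − 1 vanishes at every diagonal matrix with two distinct entries, and every irreducible complex character of degree q + 1 vanishes at every element with no eigenvector in F². -/
theorem result {F : Type*} [Field F] [Fintype F] (χ : Matrix.GeneralLinearGroup (Fin 2) F → ℂ) (hχ : Cfsg.IsIrrCharacter (Matrix.GeneralLinearGroup (Fin 2) F) χ) (g : Matrix.GeneralLinearGroup (Fin 2) F) :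
    (χ 1 = (Fintype.card F : ℂ) - 1 → (g : Matrix (Fin 2) (Fin 2) F) 0 1 = 0 → (g : Matrix (Fin 2) (Fin 2) F) 1 0 = 0 → (g : Matrix (Fin 2) (Fin 2) F) 0 0 ≠ (g : Matrix (Fin 2) (Fin 2) F) 1 1 → χ g = 0) ∧
    (χ 1 = (Fintype.card F : ℂ) + 1 → (∀ (c : F) (v : Fin 2 → F), v ≠ 0 → (g : Matrix (Fin 2) (Fin 2) F).mulVec v ≠ c • v) → χ g = 0) := by
  classical
  constructor
  · intro h1 h2 h3 h4
    obtain ⟨a, d, ha, hd, hg⟩ := H16.eq_ub h3
    have had : a ≠ d := fun h => h4 (by rw [← ha, ← hd, h])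
    have hc := H16.gl2_deg_q_sub hχ (H16.three_le_card had) h1
    rw [hg]
    exact H16.cusp_split (H3.irr_classFun hχ) hc a d had _
  · intro h1 h2
    obtain ⟨α, β, _, rfl⟩ := H16.gl2_deg_q_add hχ h1
    exact H16.PG_noEig α β g h2

end Cfsg.Agent.S2309
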