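import Cfsg.Statements.S2310
import Cfsg.Agent.H16.GL2Vals

set_option autoImplicit false
open Cfsg

namespace Cfsg.Agent.S2310

/-- Over a finite field F with q ≥ 3 elements, let u be the upper unitriangular matrix of GL₂ with off-diagonal entry 1. An irreducible complex character χ of GL₂ takes at u the value 1 if χ has degree 1 or q + 1, the value −1 if χ has degree q − 1, and the value 0 if χ has degree q. -/
theorem result {F : Type*} [Field F] [Fintype F] (hq : 3 ≤ Fintype.card F) (χ : Matrix.GeneralLinearGroup (Fin 2) F → ℂ) (hχ : Cfsg.IsIrrCharacter (Matrix.GeneralLinearGroup (Fin 2) F) χ)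
    (u : Matrix.GeneralLinearGroup (Fin 2) F) (hu : (u : Matrix (Fin 2) (Fin 2) F) = !![1, 1; 0, 1]) :
    (χ 1 = 1 → χ u = 1) ∧ (χ 1 = (Fintype.card F : ℂ) + 1 → χ u = 1) ∧
    (χ 1 = (Fintype.card F : ℂ) - 1 → χ u = -1) ∧ (χ 1 = (Fintype.card F : ℂ) → χ u = 0) := by
  classical
  have hu' : u = H16.ub 1 1 1 := by
    apply Units.ext
    rw [hu, H16.ub_coe]
    simp
  rw [hu']
  refine ⟨?_, ?_, ?_, ?_⟩
  · intro h1
    obtain ⟨α, rfl⟩ := H16.gl2_deg_one hχ hq h1
    simp [H16.dc, H16.ub_det]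
  · intro h1
    obtain ⟨α, β, _, rfl⟩ := H16.gl2_deg_q_add hχ h1
    rw [H16.PG_ub_par α β 1 1 one_ne_zero]
    simp
  · intro h1
    exact H16.cusp_u hχ (H16.gl2_deg_q_sub hχ hq h1)
  · intro h1
    obtain ⟨α, rfl⟩ := H16.gl2_deg_q hχ h1
    rw [H16.StG_apply, H16.PG_ub_par α α 1 1 one_ne_zero]
    simp [H16.ub_det]

end Cfsg.Agent.S2310
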