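import Cfsg.Statements.S2314
import Cfsg.Agent.H16.ChB3
import Cfsg.Agent.H16.BnG

set_option autoImplicit false
open Cfsg

namespace Cfsg.Agent.S2314

/-- Steinberg's count of unipotent elements: in a Chevalley group of type G₂, B₂, D₄, F₄, E₆, E₇ or E₈ over a finite field of characteristic p with q elements, the number of elements of p-power order is q^(2N), N the number of positive roots — the square of the order of a Sylow p-subgroup. -/
theorem result {F : Type*} [Field F] [Fintype F] (p : ℕ) [Fact p.Prime] [CharP F p] (D : Cfsg.Lie.ChevalleyDatum) (hD : D ∈ [Cfsg.Lie.chevG2, Cfsg.Lie.chevB2, Cfsg.Lie.chevD4, Cfsg.Lie.chevF4, Cfsg.Lie.chevE6, Cfsg.Lie.chevE7, Cfsg.Lie.chevE8]) :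
    Nat.card {g : ↥(D.group F) // ∃ k : ℕ, orderOf g = p ^ k} = Fintype.card F ^ (2 * (D.nroots / 2)) := by
  obtain ⟨N, η, rc, hG, hE⟩ := Cfsg.Agent.H6.exists_ext hD
  have h := Cfsg.Agent.H16.BNS.card_pel _ (Cfsg.Agent.H16.BNS.chFull (F := F) hG hE p)
  rw [Cfsg.Agent.H16.BNS.chV_card] at h
  have h2 : D.nroots / 2 = N := by
    have h3 : ∀ m : ℕ, m = 2 * N → m / 2 = N := by intro m hm; omega
    exact h3 _ hG.nroots_eq
  have h4 : Fintype.card F ^ (2 * (D.nroots / 2)) = (Fintype.card F ^ N) ^ 2 := by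
    rw [h2, mul_comm 2 N, pow_mul]
  exact h.trans h4.symm

end Cfsg.Agent.S2314
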