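import Cfsg.Statements.S2319
import Cfsg.Agent.H16.GenHG
import Cfsg.Agent.H16.ChR
import Cfsg.Agent.H6.ChevNW
import Cfsg.Agent.H6.ChevExtTab
import Cfsg.Agent.H22.WeylEquiv

set_option autoImplicit false
open Cfsg

namespace Cfsg.Agent.S2319

open Cfsg.Lie Cfsg.Agent.H6 Cfsg.Agent.H16.BNS in
theorem aux {D : ChevalleyDatum} {N : ℕ} {η : ℕ → ℕ → ℤ} {rc : ℕ → ℕ → ℤ} {F : Type*} [Field F] [Fintype F] (hG : Good D N η rc) (hE : Ext D rc)
    {M : CoxeterMatrix (Fin D.rank)} (h : ∃ φ : M.Group ≃* hG.W, ∀ i, φ (M.simple i) = hG.s i) :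
    Nat.card {χ : Cfsg.IrrCharacter ↥(D.group F) //
      ∃ φ : ↥(D.group F) → ℂ, Cfsg.IsCharacter ↥(D.group F) φ ∧
        Cfsg.fixedPointCharacter ((D.borelSubgroup F).subgroupOf (D.group F)) = (χ : ↥(D.group F) → ℂ) + φ} =
      Nat.card (ConjClasses M.Group) := by
  classical
  obtain ⟨φ, -⟩ := h
  have hfin : Fintype ↥(D.group F) := Fintype.ofFinite _
  have h1 := Cfsg.Agent.H16.GenH.card_constituents (Cfsg.Agent.H16.BNS.PP hG hE F)
  refine h1.trans ?_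
  exact Cfsg.Agent.H16.GenH.card_conj_congr ((thW hG hE F).trans φ.symm)

/-- In a Chevalley group of type G₂, B₂, D₄, F₄, E₆, E₇ or E₈ over a finite field, the number of distinct irreducible constituents of the permutation character on the cosets of B = UH equals the number of conjugacy classes (equivalently, of irreducible characters) of the Weyl group, the Coxeter group of the type with nodes numbered as the fundamental roots. -/
theorem result {F : Type*} [Field F] [Fintype F]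
    (dw : Cfsg.Lie.ChevalleyDatum × (Σ n : ℕ, CoxeterMatrix (Fin n)))
    (hdw : dw ∈ [(Cfsg.Lie.chevG2, ⟨2, CoxeterMatrix.G₂⟩), (Cfsg.Lie.chevB2, ⟨2, CoxeterMatrix.B 2⟩), (Cfsg.Lie.chevD4, ⟨4, Cfsg.Lie.coxeterD4⟩), (Cfsg.Lie.chevF4, ⟨4, CoxeterMatrix.F₄⟩),
      (Cfsg.Lie.chevE6, ⟨6, CoxeterMatrix.E₆⟩), (Cfsg.Lie.chevE7, ⟨7, CoxeterMatrix.E₇⟩), (Cfsg.Lie.chevE8, ⟨8, CoxeterMatrix.E₈⟩)]) :
    Nat.card {χ : Cfsg.IrrCharacter ↥(dw.1.group F) //
      ∃ φ : ↥(dw.1.group F) → ℂ, Cfsg.IsCharacter ↥(dw.1.group F) φ ∧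
        Cfsg.fixedPointCharacter ((dw.1.borelSubgroup F).subgroupOf (dw.1.group F)) = (χ : ↥(dw.1.group F) → ℂ) + φ} =
      Nat.card (ConjClasses dw.2.2.Group) := by
  simp only [List.mem_cons, List.mem_nil_iff, or_false] at hdw
  rcases hdw with rfl | rfl | rfl | rfl | rfl | rfl | rfl
  · exact aux Cfsg.Agent.H6.TG2.good Cfsg.Agent.H6.TG2.ext Cfsg.Agent.H22.equivG2
  · exact aux Cfsg.Agent.H6.TB2.good Cfsg.Agent.H6.TB2.ext Cfsg.Agent.H22.equivB2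
  · exact aux Cfsg.Agent.H6.TD4.good Cfsg.Agent.H6.TD4.ext Cfsg.Agent.H22.equivD4
  · exact aux Cfsg.Agent.H6.TF4.good Cfsg.Agent.H6.TF4.ext Cfsg.Agent.H22.equivF4
  · exact aux Cfsg.Agent.H6.TE6.good Cfsg.Agent.H6.TE6.ext Cfsg.Agent.H22.equivE6
  · exact aux Cfsg.Agent.H6.TE7.good Cfsg.Agent.H6.TE7.ext Cfsg.Agent.H22.equivE7
  · exact aux Cfsg.Agent.H6.TE8.good Cfsg.Agent.H6.TE8.ext Cfsg.Agent.H22.equivE8

end Cfsg.Agent.S2319
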