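import Cfsg.Statements.S2320
import Cfsg.Agent.H16.GL2Vals

set_option autoImplicit false
open Cfsg

namespace Cfsg.Agent.S2320

/-- Over a finite field F with q elements, every irreducible complex character of GL₂ of degree q takes a value of absolute value 1 at every diagonal matrix with two different diagonal entries and at every element with no eigenvector in F². -/
theorem result {F : Type*} [Field F] [Fintype F] (χ : Matrix.GeneralLinearGroup (Fin 2) F → ℂ) (hχ : Cfsg.IsIrrCharacter (Matrix.GeneralLinearGroup (Fin 2) F) χ) (hdeg : χ 1 = (Fintype.card F : ℂ)) (g : Matrix.GeneralLinearGroup (Fin 2) F) :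
    ((g : Matrix (Fin 2) (Fin 2) F) 0 1 = 0 → (g : Matrix (Fin 2) (Fin 2) F) 1 0 = 0 → (g : Matrix (Fin 2) (Fin 2) F) 0 0 ≠ (g : Matrix (Fin 2) (Fin 2) F) 1 1 → ‖χ g‖ = 1) ∧
    ((∀ (c : F) (v : Fin 2 → F), v ≠ 0 → (g : Matrix (Fin 2) (Fin 2) F).mulVec v ≠ c • v) → ‖χ g‖ = 1) := by
  classical
  obtain ⟨α, rfl⟩ := H16.gl2_deg_q hχ hdeg
  constructor
  · intro h1 h2 h3
    obtain ⟨a, d, ha, hd, hg⟩ := H16.eq_ub h2
    have had : a ≠ d := fun h => h3 (by rw [← ha, ← hd, h])
    rw [H16.StG_apply, hg, H16.PG_ub_split α α a d had, H16.ub_det, map_mul]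
    have : α a * α d + α d * α a - α a * α d = α ((a * d : Fˣ) : F) := by
      rw [Units.val_mul, map_mul]; ring
    rw [this]
    exact H16.norm_mulChar α _
  · intro h1
    rw [H16.StG_apply, H16.PG_noEig α α g h1, zero_sub, norm_neg]
    have := H16.norm_mulChar α (Matrix.GeneralLinearGroup.det g)
    exact this

end Cfsg.Agent.S2320
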