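import Cfsg.Statements.S2321
import Cfsg.Agent.H16.SL2Deg

set_option autoImplicit false
open Cfsg

namespace Cfsg.Agent.S2321

/-- Over a finite field F with q elements, an irreducible complex character of SL₂ of degree q (the Steinberg character) takes the value 1 at every diagonal matrix whose diagonal entry a has a² ≠ 1, the value −1 at every element with no eigenvector in F², and the value 0 at every upper triangular matrix with equal diagonal entries and non-zero upper right entry. -/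
theorem result {F : Type*} [Field F] [Fintype F] (χ : Matrix.SpecialLinearGroup (Fin 2) F → ℂ) (hχ : Cfsg.IsIrrCharacter (Matrix.SpecialLinearGroup (Fin 2) F) χ) (hdeg : χ 1 = (Fintype.card F : ℂ)) (g : Matrix.SpecialLinearGroup (Fin 2) F) :
    ((g : Matrix (Fin 2) (Fin 2) F) 0 1 = 0 → (g : Matrix (Fin 2) (Fin 2) F) 1 0 = 0 → (g : Matrix (Fin 2) (Fin 2) F) 0 0 ^ 2 ≠ 1 → χ g = 1) ∧
    ((∀ (c : F) (v : Fin 2 → F), v ≠ 0 → (g : Matrix (Fin 2) (Fin 2) F).mulVec v ≠ c • v) → χ g = -1) ∧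
    ((g : Matrix (Fin 2) (Fin 2) F) 1 0 = 0 → (g : Matrix (Fin 2) (Fin 2) F) 0 0 = (g : Matrix (Fin 2) (Fin 2) F) 1 1 → (g : Matrix (Fin 2) (Fin 2) F) 0 1 ≠ 0 → χ g = 0) := by
  classical
  rw [H16.sl2_deg_q hχ hdeg]
  refine ⟨?_, ?_, ?_⟩
  · intro h1 h2 h3
    obtain ⟨a, ha, ha', hg⟩ := H16.eq_us h2
    rw [← ha] at h3
    rw [H16.StS_apply, hg, H16.PS_us_split 1 a (H16.unit_ne_inv h3), MulChar.one_apply_coe, MulChar.one_apply_coe]
    norm_num
  · intro h
    rw [H16.StS_apply, H16.PS_noEig 1 g h]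
    norm_num
  · intro h1 h2 h3
    have hd := g.2
    rw [Matrix.det_fin_two] at hd
    have hd' : (g : Matrix (Fin 2) (Fin 2) F) 0 0 * (g : Matrix (Fin 2) (Fin 2) F) 0 0 = 1 := by
      have : (g : Matrix (Fin 2) (Fin 2) F) 0 0 * (g : Matrix (Fin 2) (Fin 2) F) 1 1 - (g : Matrix (Fin 2) (Fin 2) F) 0 1 * (g : Matrix (Fin 2) (Fin 2) F) 1 0 = 1 := hd
      rw [h1, mul_zero, sub_zero, ← h2] at this
      exact this
    have h0 : (g : Matrix (Fin 2) (Fin 2) F) 0 0 ≠ 0 := left_ne_zero_of_mul (by rw [hd']; exact one_ne_zero)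
    rw [H16.StS_apply, H16.PS_par 1 g (fun hs => h3 hs.1) hd' (by rw [Matrix.trace_fin_two, ← h2]),
      MulChar.one_apply (isUnit_iff_ne_zero.2 h0), sub_self]

end Cfsg.Agent.S2321
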