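import Cfsg.Statements.S2322
import Cfsg.Agent.H16.SL2Three

set_option autoImplicit false
open Cfsg

namespace Cfsg.Agent.S2322

/-- Over a finite field F with q elements, q odd: every irreducible complex character of SL₂ of degree q − 1 or (q − 1)/2 vanishes at every diagonal matrix whose diagonal entry a has a² ≠ 1, and every irreducible complex character of degree q + 1 or (q + 1)/2 vanishes at every element with no eigenvector in F². -/
theorem result {F : Type*} [Field F] [Fintype F] (hodd : Odd (Fintype.card F)) (χ : Matrix.SpecialLinearGroup (Fin 2) F → ℂ) (hχ : Cfsg.IsIrrCharacter (Matrix.SpecialLinearGroup (Fin 2) F) χ) (g : Matrix.SpecialLinearGroup (Fin 2) F) :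
    ((χ 1 = (Fintype.card F : ℂ) - 1 ∨ χ 1 = (((Fintype.card F - 1) / 2 : ℕ) : ℂ)) →
      (g : Matrix (Fin 2) (Fin 2) F) 0 1 = 0 → (g : Matrix (Fin 2) (Fin 2) F) 1 0 = 0 → (g : Matrix (Fin 2) (Fin 2) F) 0 0 ^ 2 ≠ 1 → χ g = 0) ∧
    ((χ 1 = (Fintype.card F : ℂ) + 1 ∨ χ 1 = (((Fintype.card F + 1) / 2 : ℕ) : ℂ)) →
      (∀ (c : F) (v : Fin 2 → F), v ≠ 0 → (g : Matrix (Fin 2) (Fin 2) F).mulVec v ≠ c • v) → χ g = 0) := by
  classical
  have hq3 := H16.card_F_ge_three hodd
  obtain ⟨n, hn0, hn⟩ := H3.irr_one_eq_nat hχ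
  have hs : (Fintype.card F : ℂ) - 1 = ((Fintype.card F - 1 : ℕ) : ℂ) := by
    rw [Nat.cast_sub (by omega), Nat.cast_one]
  have hs2 : (Fintype.card F : ℂ) + 1 = ((Fintype.card F + 1 : ℕ) : ℂ) := by push_cast; rfl
  have hcl := H16.sl2_odd_deg hχ hn
  obtain ⟨k, hk⟩ := hodd
  rw [hs, hs2, hn]
  constructor
  · intro h1 h2 h3 h4
    have h1' : n = Fintype.card F - 1 ∨ n = (Fintype.card F - 1) / 2 := by
      rcases h1 with h | h
      · left; exact_mod_cast h
      · right; exact_mod_cast h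
    obtain ⟨a, ha, ha', hg⟩ := H16.eq_us h3
    rw [← ha] at h4
    have hq5 : 5 ≤ Fintype.card F := by
      -- the units contain `1, -1, a, a⁻¹`
      by_contra hlt
      have hq : Fintype.card F = 3 := by omega
      have hpow : a ^ (Fintype.card Fˣ) = 1 := pow_card_eq_one
      rw [Fintype.card_units, hq] at hpow
      apply h4
      have := congrArg (fun u : Fˣ => (u : F)) hpow
      simpa using this
    rw [hg]
    rcases hcl with ⟨_, h⟩ | ⟨_, h⟩ | ⟨_, h⟩ | ⟨_, h⟩ | ⟨h, _⟩ | ⟨h, _⟩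
    · omega
    · omega
    · omega
    · omega
    · exact H16.cuspS_split (H3.irr_classFun hχ) h.1 a (H16.unit_ne_inv h4) _
    · exact H16.cuspS_split (H3.irr_classFun hχ) h.1 a (H16.unit_ne_inv h4) _
  · intro h1 h2
    have h1' : n = Fintype.card F + 1 ∨ n = (Fintype.card F + 1) / 2 := by
      rcases h1 with h | h
      · left; exact_mod_cast h
      · right; exact_mod_cast h
    rcases hcl with ⟨_, h⟩ | ⟨_, h⟩ | ⟨⟨α, _, rfl⟩, _⟩ | ⟨h, _⟩ | ⟨h, h'⟩ | ⟨_, h⟩
    · omega
    · omega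
    · exact H16.PS_noEig α g h2
    · exact H16.TypD_ell hχ h g h2
    · -- q = 3, degree 2
      have hq : Fintype.card F = 3 := by omega
      exact H16.TypE_three hq hχ h g h2
    · omega

end Cfsg.Agent.S2322
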