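import Cfsg.Statements.S2323
import Cfsg.Agent.H16.SL2Deg

set_option autoImplicit false
open Cfsg

namespace Cfsg.Agent.S2323

/-- Over a finite field F with q ≥ 4 elements, let u be the upper unitriangular matrix of SL₂ with off-diagonal entry 1. An irreducible complex character of SL₂ takes at u the value 1 if its degree is q + 1 and the value −1 if its degree is q − 1. -/
theorem result {F : Type*} [Field F] [Fintype F] (hq : 4 ≤ Fintype.card F) (χ : Matrix.SpecialLinearGroup (Fin 2) F → ℂ) (hχ : Cfsg.IsIrrCharacter (Matrix.SpecialLinearGroup (Fin 2) F) χ)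
    (u : Matrix.SpecialLinearGroup (Fin 2) F) (hu : (u : Matrix (Fin 2) (Fin 2) F) = !![1, 1; 0, 1]) :
    (χ 1 = (Fintype.card F : ℂ) + 1 → χ u = 1) ∧ (χ 1 = (Fintype.card F : ℂ) - 1 → χ u = -1) := by
  classical
  have hu' : u = H16.us 1 1 := by
    apply H16.sl_ext
    rw [hu, H16.us_coe]
    simp
  rw [hu']
  obtain ⟨n, hn0, hn⟩ := H3.irr_one_eq_nat hχ
  have hs : (Fintype.card F : ℂ) - 1 = ((Fintype.card F - 1 : ℕ) : ℂ) := by
    rw [Nat.cast_sub (by omega), Nat.cast_one]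
  have hs2 : (Fintype.card F : ℂ) + 1 = ((Fintype.card F + 1 : ℕ) : ℂ) := by push_cast; rfl
  rw [hs, hs2, hn]
  constructor
  · intro h1
    have h1' : n = Fintype.card F + 1 := by exact_mod_cast h1
    rcases H16.sl2_odd_deg hχ hn with ⟨_, h⟩ | ⟨_, h⟩ | ⟨⟨α, _, rfl⟩, _⟩ | ⟨_, h⟩ | ⟨_, h⟩ | ⟨_, h⟩
    · omega
    · omega
    · exact H16.PS_us_par α 1 one_ne_zero
    all_goals omega
  · intro h1
    have h1' : n = Fintype.card F - 1 := by exact_mod_cast h1
    rcases H16.sl2_odd_deg hχ hn with ⟨_, h⟩ | ⟨_, h⟩ | ⟨_, h⟩ | ⟨_, h⟩ | ⟨h, _⟩ | ⟨_, h⟩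
    · omega
    · omega
    · omega
    · omega
    · exact H16.TypE_u h 1 one_ne_zero
    · omega

end Cfsg.Agent.S2323
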