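import Cfsg.Statements.S2324
import Cfsg.Agent.H16.SL2Gauss

set_option autoImplicit false
open Cfsg

namespace Cfsg.Agent.S2324

/-- Over a finite field F with q elements, q odd and q ≥ 5, let u be the upper unitriangular matrix of SL₂ with off-diagonal entry 1 and let δ = (−1)^((q−1)/2). Every irreducible complex character χ of SL₂ of degree (q + 1)/2 satisfies (2χ(u) − 1)² = δq, and every irreducible complex character χ of degree (q − 1)/2 satisfies (2χ(u) + 1)² = δq; that is, χ(u) = (1 ± √(δq))/2 in the first case and χ(u) = (−1 ± √(δq))/2 in the second. Moreover two different irreducible characters of degree (q + 1)/2 take the two different values (their values at u add up to 1), and likewise for degree (q − 1)/2 (values adding up to −1). -/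
theorem result {F : Type*} [Field F] [Fintype F] (hodd : Odd (Fintype.card F)) (hq : 5 ≤ Fintype.card F)
    (u : Matrix.SpecialLinearGroup (Fin 2) F) (hu : (u : Matrix (Fin 2) (Fin 2) F) = !![1, 1; 0, 1]) :
    (∀ χ : Matrix.SpecialLinearGroup (Fin 2) F → ℂ, Cfsg.IsIrrCharacter (Matrix.SpecialLinearGroup (Fin 2) F) χ → χ 1 = (((Fintype.card F + 1) / 2 : ℕ) : ℂ) → (2 * χ u - 1) ^ 2 = (-1 : ℂ) ^ ((Fintype.card F - 1) / 2) * (Fintype.card F : ℂ)) ∧
    (∀ χ : Matrix.SpecialLinearGroup (Fin 2) F → ℂ, Cfsg.IsIrrCharacter (Matrix.SpecialLinearGroup (Fin 2) F) χ → χ 1 = (((Fintype.card F - 1) / 2 : ℕ) : ℂ) → (2 * χ u + 1) ^ 2 = (-1 : ℂ) ^ ((Fintype.card F - 1) / 2) * (Fintype.card F : ℂ)) ∧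
    (∀ χ₁ χ₂ : Matrix.SpecialLinearGroup (Fin 2) F → ℂ, Cfsg.IsIrrCharacter (Matrix.SpecialLinearGroup (Fin 2) F) χ₁ → Cfsg.IsIrrCharacter (Matrix.SpecialLinearGroup (Fin 2) F) χ₂ → χ₁ ≠ χ₂ →
      χ₁ 1 = (((Fintype.card F + 1) / 2 : ℕ) : ℂ) → χ₂ 1 = (((Fintype.card F + 1) / 2 : ℕ) : ℂ) → χ₁ u + χ₂ u = 1) ∧
    (∀ χ₁ χ₂ : Matrix.SpecialLinearGroup (Fin 2) F → ℂ, Cfsg.IsIrrCharacter (Matrix.SpecialLinearGroup (Fin 2) F) χ₁ → Cfsg.IsIrrCharacter (Matrix.SpecialLinearGroup (Fin 2) F) χ₂ → χ₁ ≠ χ₂ →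
      χ₁ 1 = (((Fintype.card F - 1) / 2 : ℕ) : ℂ) → χ₂ 1 = (((Fintype.card F - 1) / 2 : ℕ) : ℂ) → χ₁ u + χ₂ u = -1) := by
  classical
  have hu' : u = H16.us 1 1 := by
    apply H16.sl_ext
    rw [hu, H16.us_coe]
    simp
  rw [hu']
  have := Fintype.ofFinite (Cfsg.IrrCharacter (Matrix.SpecialLinearGroup (Fin 2) F))
  obtain ⟨ν, hν⟩ := FiniteField.exists_nonsquare (H16.two_ne_zero_of_odd hodd)
  obtain ⟨k, hk⟩ := id hodd
  have hq0 : (Fintype.card F : ℂ) - 1 ≠ 0 := by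
    have := H16.card_sub_one_ne (F := F)
    rwa [Nat.cast_sub Fintype.card_pos, Nat.cast_one] at this
  have hD : ∀ χ : Matrix.SpecialLinearGroup (Fin 2) F → ℂ, Cfsg.IsIrrCharacter (Matrix.SpecialLinearGroup (Fin 2) F) χ → χ 1 = (((Fintype.card F + 1) / 2 : ℕ) : ℂ) → H16.TypD χ := by
    intro χ hχ h
    rcases H16.sl2_odd_deg hχ h with ⟨_, h2⟩ | ⟨_, h2⟩ | ⟨_, h2⟩ | ⟨h1, h2⟩ | ⟨_, h2⟩ | ⟨_, h2⟩
    · omega
    · omega
    · omega
    · exact h1
    · omega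
    · omega
  have hF : ∀ χ : Matrix.SpecialLinearGroup (Fin 2) F → ℂ, Cfsg.IsIrrCharacter (Matrix.SpecialLinearGroup (Fin 2) F) χ → χ 1 = (((Fintype.card F - 1) / 2 : ℕ) : ℂ) → H16.TypF χ := by
    intro χ hχ h
    rcases H16.sl2_odd_deg hχ h with ⟨_, h2⟩ | ⟨_, h2⟩ | ⟨_, h2⟩ | ⟨_, h2⟩ | ⟨_, h2⟩ | ⟨h1, h2⟩
    · omega
    · omega
    · omega
    · omega
    · omega
    · exact h1
  refine ⟨?_, ?_, ?_, ?_⟩
  · intro χ hχ h
    have hd := hD χ hχ h
    have hdeg := H16.TypD_deg hd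
    have hus := H16.usumS_u (H3.irr_classFun hχ) hodd hν
    rw [H16.TypD_usum hχ hd] at hus
    have hs : χ (H16.us 1 1) + χ (H16.us 1 ν) = 1 := by
      apply mul_left_cancel₀ hq0
      linear_combination -2 * hus - hdeg
    have hg := H16.gauss_value hodd (H3.irr_isChar hχ) hν (by rw [hs]; linear_combination (1 / 2 : ℂ) * hdeg)
    rw [← hg]
    congr 1
    linear_combination hs
  · intro χ hχ h
    have hf := hF χ hχ h
    have hdeg := H16.TypF_deg hf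
    have hus := H16.usumS_u (H3.irr_classFun hχ) hodd hν
    rw [H16.cuspS_usum (H3.irr_classFun hχ) hf.1] at hus
    have hs : χ (H16.us 1 1) + χ (H16.us 1 ν) = -1 := by
      apply mul_left_cancel₀ hq0
      linear_combination -2 * hus - hdeg
    have hg := H16.gauss_value hodd (H3.irr_isChar hχ) hν (by rw [hs]; linear_combination (1 / 2 : ℂ) * hdeg)
    rw [← hg]
    congr 1
    linear_combination hs
  · intro χ₁ χ₂ h1 h2 hne hd1 hd2
    obtain ⟨α, ψ', a1, a2, a3, a4, a5, a6, _⟩ := hD χ₁ h1 hd1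
    obtain ⟨β, ψ'', b1, b2, b3, b4, b5, b6, _⟩ := hD χ₂ h2 hd2
    have hin : Cfsg.classInner (H16.PS β) χ₂ ≠ 0 := by
      rw [b5, H3.classInner_add_left, H3.classInner_self_of_irr h2, H3.classInner_of_irr_ne b3 h2 b4.symm, add_zero]
      exact one_ne_zero
    rw [H16.quad_unique b2 b1 a2 a1, a5] at hin
    rcases H16.inner_add_irr h1 a3 h2 hin with h | h
    · exact absurd h.symm hne
    · rw [h]
      have := congrFun a5 (H16.us 1 1)
      rw [H16.PS_us_par α 1 one_ne_zero, Pi.add_apply] at this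
      exact this.symm
  · intro χ₁ χ₂ h1 h2 hne hd1 hd2
    have hf1 := hF χ₁ h1 hd1
    have hf2 := hF χ₂ h2 hd2
    obtain ⟨hc1, χ, ψ', i1, hcG, i2, hne12, hsum, hcψ, hdeg, x, hx⟩ := hf1
    obtain ⟨_, hC2, _⟩ := H16.card_cuspS_odd (F := F) hodd
    have hmem : ∀ (ψ : Matrix.SpecialLinearGroup (Fin 2) F → ℂ) (h : Cfsg.IsIrrCharacter (Matrix.SpecialLinearGroup (Fin 2) F) ψ),
        H16.CuspS ψ → ψ 1 = (((Fintype.card F - 1) / 2 : ℕ) : ℂ) →
        (⟨ψ, h⟩ : Cfsg.IrrCharacter (Matrix.SpecialLinearGroup (Fin 2) F)) ∈ Finset.filter (fun χ => ¬ H16.ndeg χ = Fintype.card F - 1) (H16.setCS F) := by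
      intro ψ h hc hd
      rw [Finset.mem_filter, H16.mem_setCS]
      refine ⟨hc, ?_⟩
      have := H16.ndeg_eq (⟨ψ, h⟩ : Cfsg.IrrCharacter (Matrix.SpecialLinearGroup (Fin 2) F))
      simp only at this
      rw [hd] at this
      have h3 : (Fintype.card F - 1) / 2 = H16.ndeg (⟨ψ, h⟩ : Cfsg.IrrCharacter (Matrix.SpecialLinearGroup (Fin 2) F)) := by exact_mod_cast this
      omega
    have m1 := hmem χ₁ h1 hc1 hd1
    have m2 := hmem χ₂ h2 hf2.1 hd2
    have m3 := hmem ψ' i2 hcψ (by rw [← hdeg]; exact hd1)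
    obtain ⟨a, b, hab, hS⟩ := Finset.card_eq_two.1 hC2
    rw [hS, Finset.mem_insert, Finset.mem_singleton] at m1 m2 m3
    have n1 : (⟨χ₁, h1⟩ : Cfsg.IrrCharacter (Matrix.SpecialLinearGroup (Fin 2) F)) ≠ ⟨χ₂, h2⟩ := fun h => hne (congrArg Subtype.val h)
    have n2 : (⟨χ₁, h1⟩ : Cfsg.IrrCharacter (Matrix.SpecialLinearGroup (Fin 2) F)) ≠ ⟨ψ', i2⟩ := fun h => hne12 (congrArg Subtype.val h)
    have h3 : (⟨χ₂, h2⟩ : Cfsg.IrrCharacter (Matrix.SpecialLinearGroup (Fin 2) F)) = ⟨ψ', i2⟩ := by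
      rcases m1 with m1 | m1 <;> rcases m2 with m2 | m2 <;> rcases m3 with m3 | m3
      · exact absurd (m1.trans m2.symm) n1
      · exact absurd (m1.trans m2.symm) n1
      · exact absurd (m1.trans m3.symm) n2
      · exact m2.trans m3.symm
      · exact m2.trans m3.symm
      · exact absurd (m1.trans m3.symm) n2
      · exact absurd (m1.trans m2.symm) n1
      · exact absurd (m1.trans m2.symm) n1
    have h4 : χ₂ = ψ' := congrArg Subtype.val h3
    rw [h4]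
    have h5 := congrFun hsum (H16.us 1 1)
    rw [Pi.add_apply] at h5
    rw [← h5]
    unfold H16.res
    rw [H16.us_one_mem]
    exact H16.cusp_u i1 hcG

end Cfsg.Agent.S2324
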