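import Cfsg.Statements.S2366
import Cfsg.Agent.H29.SpecU3c

set_option autoImplicit false
open Cfsg

namespace Cfsg.Agent.S2366

theorem aux_div {G : Type*} [Group G] [Finite G] {x : G} {m s : ℕ} (hx : orderOf x = m) (hs : s ∣ m) :
    s ∈ Set.range (orderOf : G → ℕ) := by
  have hm : 0 < m := by rw [← hx]; exact orderOf_pos x
  obtain ⟨t, ht⟩ := hs
  have ht0 : t ≠ 0 := by rintro rfl; omega
  refine ⟨x ^ t, ?_⟩
  rw [orderOf_pow_of_dvd ht0 (by rw [hx, ht]; exact Dvd.intro_left _ rfl), hx, ht]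
  exact Nat.mul_div_cancel _ (by omega)

/-- The set of element orders of PSU(3, q) for an odd prime power q = p^n: writing d = gcd(3, q + 1), a positive integer is the order of some element exactly when it divides one of q + 1, p(q + 1)/d, (q² − 1)/d, (q² − q + 1)/d. -/
theorem result {F : Type*} [Field F] [Fintype F] (p : ℕ) [Fact p.Prime] [CharP F p] (hp : p ≠ 2) (q : ℕ) (hF : Fintype.card F = q ^ 2) :
    Set.range (orderOf : Cfsg.PSU 3 F q → ℕ) =
      {s : ℕ | s ∣ q + 1} ∪ {s : ℕ | s ∣ p * (q + 1) / Nat.gcd 3 (q + 1)} ∪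
        {s : ℕ | s ∣ (q ^ 2 - 1) / Nat.gcd 3 (q + 1)} ∪ {s : ℕ | s ∣ (q ^ 2 - q + 1) / Nat.gcd 3 (q + 1)} := by
  classical
  have hF0 := hF
  set d := Nat.gcd 3 (q + 1) with hd
  have hq := Cfsg.Agent.H5.q_pos hF
  have hd0 : 0 < d := Nat.gcd_pos_of_pos_left _ (by norm_num)
  obtain ⟨e, he⟩ : d ∣ q + 1 := Nat.gcd_dvd_right _ _
  obtain ⟨f, hf⟩ : d ∣ 3 := Nat.gcd_dvd_left _ _
  have hqq : q ≤ q ^ 2 := by nlinarith
  obtain ⟨n, hn⟩ : d ∣ q ^ 2 - q + 1 := by
    have h1 : q ^ 2 - q + 1 + 3 * q = (q + 1) * (q + 1) := by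
      have : (q + 1) * (q + 1) = q ^ 2 + 2 * q + 1 := by ring
      omega
    have h2 : d ∣ (q + 1) * (q + 1) := (Nat.gcd_dvd_right 3 (q + 1)).mul_right _
    rw [← h1] at h2
    exact (Nat.dvd_add_left ((Nat.gcd_dvd_left 3 (q + 1)).mul_right q)).1 h2
  have e1 : p * (q + 1) / d = p * e := by
    rw [he, show p * (d * e) = d * (p * e) by ring, Nat.mul_div_cancel_left _ hd0]
  have e2 : (q ^ 2 - 1) / d = (q - 1) * e := by
    have h1 : q ^ 2 - 1 = d * ((q - 1) * e) := by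
      obtain ⟨r, rfl⟩ : ∃ r, q = r + 1 := ⟨q - 1, by omega⟩
      simp only [Nat.add_sub_cancel]
      have h2 : d * (r * e) = r * (r + 1 + 1) := by rw [he]; ring
      have h3 : (r + 1) ^ 2 = r * (r + 1 + 1) + 1 := by ring
      omega
    rw [h1, Nat.mul_div_cancel_left _ hd0]
  have e3 : (q ^ 2 - q + 1) / d = n := by rw [hn, Nat.mul_div_cancel_left _ hd0]
  rw [e1, e2, e3]
  haveI : Finite (Cfsg.PSU 3 F q) := inferInstance
  ext s
  simp only [Set.mem_union, Set.mem_ofPred_eq]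
  constructor
  · rintro ⟨x, rfl⟩
    rcases Cfsg.Agent.H29.SpecU3.order_dvd hp hF he hf hn x with h | h | h | h
    · exact Or.inl (Or.inl (Or.inl h))
    · exact Or.inl (Or.inl (Or.inr h))
    · exact Or.inl (Or.inr h)
    · exact Or.inr h
  · rintro (((h | h) | h) | h)
    · obtain ⟨x, hx⟩ := Cfsg.Agent.H29.SpecU3.o1 (F := F) hF
      exact aux_div hx h
    · obtain ⟨x, hx⟩ := Cfsg.Agent.H29.SpecU3.o2 (F := F) hp hF he hf hd
      exact aux_div hx h
    · obtain ⟨x, hx⟩ := Cfsg.Agent.H29.SpecU3.o3 (F := F) hF he hf hd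
      exact aux_div hx h
    · obtain ⟨x, hx⟩ := Cfsg.Agent.H29.SpecU3.o4 (F := F) hp hF he hf hd hn
      exact aux_div hx h

end Cfsg.Agent.S2366
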