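import Cfsg.Statements.S2367
-- import your own Cfsg.Agent.* helpers here

set_option autoImplicit false
open Cfsg

namespace Cfsg.Agent.S2367

open Nat

def plist : List ℕ := [2, 3, 5, 7, 11, 13, 17, 19, 23, 29, 31, 37, 41, 43, 47, 59, 67, 71]

lemma plist_prime : ∀ q ∈ plist, q.Prime := by
  intro q hq
  simp only [plist, List.mem_cons, List.not_mem_nil, or_false] at hq
  rcases hq with rfl | rfl | rfl | rfl | rfl | rfl | rfl | rfl | rfl | rfl | rfl | rfl | rfl | rfl | rfl | rfl | rfl | rfl <;> norm_num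

lemma spor_case (N a : ℕ) (hN : N ≠ 0) (h1 : N ∣ plist.prod ^ 50) (h2 : 2 ^ a ∣ N)
    (h3 : ∀ p ∈ plist, p ≠ 2 → p ^ 3 ∣ N → ¬ p ^ 4 ∣ N → p ^ 3 < 2 ^ a)
    (p : ℕ) (hp : p.Prime) (hodd : p ≠ 2) (h : N.factorization p = 3) :
    p ^ 3 < 2 ^ N.factorization 2 := by
  have hp3 : p ^ 3 ∣ N := (hp.pow_dvd_iff_le_factorization hN).2 (by rw [h])
  have hp4 : ¬ p ^ 4 ∣ N := fun h' => by
    have := (hp.pow_dvd_iff_le_factorization hN).1 h'; omega
  have hpN : p ∣ N := (dvd_pow_self p (by norm_num)).trans hp3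
  have hpp : p ∣ plist.prod := hp.dvd_of_dvd_pow (hpN.trans h1)
  have hmem : p ∈ plist := by
    obtain ⟨q, hq, hpq⟩ := (hp.prime.dvd_prod_iff).1 hpp
    rw [(Nat.prime_dvd_prime_iff_eq hp (plist_prime q hq)).1 hpq]; exact hq
  refine lt_of_lt_of_le (h3 p hmem hodd hp3 hp4) (Nat.pow_le_pow_right (by norm_num) ?_)
  exact (Nat.prime_two.pow_dvd_iff_le_factorization hN).1 h2

lemma cube_lt (k : ℕ) : (k + 5) ^ 3 < 4 ^ (k + 4) := by
  induction k with
  | zero => norm_num
  | succ k ih =>
    have : (k + 1 + 5) ^ 3 ≤ 4 * (k + 5) ^ 3 := by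
      nlinarith [sq_nonneg k, mul_nonneg (sq_nonneg k) (Nat.zero_le k)]
    calc (k + 1 + 5) ^ 3 ≤ 4 * (k + 5) ^ 3 := this
      _ < 4 * 4 ^ (k + 4) := by omega
      _ = 4 ^ (k + 1 + 4) := by ring

lemma alt_case (n : ℕ) (hn : 5 ≤ n) (p : ℕ) (hp : p.Prime) (hodd : p ≠ 2)
    (h : (n)!.factorization p = 3) : p ^ 3 < 2 ^ ((n)!.factorization 2 - 1) := by
  have hmono : ∀ {a b q : ℕ}, a ≤ b → (a)!.factorization q ≤ (b)!.factorization q := by
    intro a b q hab
    exact (Nat.factorization_le_iff_dvd (Nat.factorial_ne_zero a) (Nat.factorial_ne_zero b)).2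
      (Nat.factorial_dvd_factorial hab) q
  have hp3 : 3 ≤ p := by have := hp.two_le; omega
  have hpn3 : p ≠ 3 := by
    rintro rfl
    rcases Nat.lt_or_ge n 9 with h9 | h9
    · have h8 : (n)!.factorization 3 ≤ (8)!.factorization 3 := hmono (by omega)
      rw [Nat.factorization_factorial hp (n := 8) (b := 2) (by decide +kernel)] at h8
      simp at h8; omega
    · have h8 : (9)!.factorization 3 ≤ (n)!.factorization 3 := hmono (by omega)
      rw [Nat.factorization_factorial hp (n := 9) (b := 3) (by decide +kernel)] at h8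
      simp [Finset.sum_Ico_succ_top] at h8; omega
  have hp4 : p ≠ 4 := by rintro rfl; norm_num at hp
  have hp5 : 5 ≤ p := by omega
  have hn3 : 3 * p ≤ n := by
    by_contra hlt
    push Not at hlt
    have hlog : Nat.log p n < 2 := by
      apply Nat.log_lt_of_lt_pow (by omega)
      nlinarith
    rw [Nat.factorization_factorial hp hlog] at h
    simp at h
    have : n / p < 3 := Nat.div_lt_of_lt_mul (by linarith)
    omega
  have h2 : 2 * p - 1 ≤ (n)!.factorization 2 := by
    have hoddp : Odd p := hp.odd_of_ne_two hodd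
    obtain ⟨t, ht⟩ := hoddp
    -- 3p = 6t+3 ≥ 2(3t+1)
    have e1 : (2 * (3 * t + 1))!.factorization 2 ≤ (n)!.factorization 2 := hmono (by omega)
    rw [Nat.factorization_factorial_mul Nat.prime_two] at e1
    have e2 : (2 * ((3 * t + 1) / 2))!.factorization 2 ≤ (3 * t + 1)!.factorization 2 := hmono (by omega)
    rw [Nat.factorization_factorial_mul Nat.prime_two] at e2
    omega
  have h4 : p ^ 3 < 2 ^ (2 * p - 1 - 1) := by
    obtain ⟨k, rfl⟩ : ∃ k, p = k + 5 := ⟨p - 5, by omega⟩
    have := cube_lt k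
    have e : 2 ^ (2 * (k + 5) - 1 - 1) = 4 ^ (k + 4) := by
      rw [show 2 * (k + 5) - 1 - 1 = 2 * (k + 4) by omega, pow_mul]; norm_num
    rw [e]; exact this
  exact lt_of_lt_of_le h4 (Nat.pow_le_pow_right (by norm_num) (by omega))

/-- Let G be an alternating group of degree at least 5 or a simple group with the order of one of the 26 sporadic groups, and let p be an odd prime such that p³ is the exact power of p dividing the order of G. Then p³ is less than the 2-part of the order of G. -/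
theorem result {G : Type*} [Group G] [Finite G] (hG : Cfsg.IsAlternating G ∨ Cfsg.IsSporadic G)
    (p : ℕ) (hp : p.Prime) (hodd : p ≠ 2) (h3 : (Nat.card G).factorization p = 3) :
    p ^ 3 < 2 ^ (Nat.card G).factorization 2 := by
  rcases hG with ⟨n, hn, ⟨e⟩⟩ | hG
  · have hc : Nat.card G = Nat.card (alternatingGroup (Fin n)) := Nat.card_congr e.toEquiv
    have : Nontrivial (Fin n) := Fin.nontrivial_iff_two_le.2 (by omega)
    have h2 : 2 * Nat.card G = (n)! := by
      rw [hc, two_mul_nat_card_alternatingGroup, Nat.card_perm, Nat.card_fin]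
    have hG0 : Nat.card G ≠ 0 := Nat.card_pos.ne'
    have hf : ∀ q : ℕ, (n)!.factorization q = (2 : ℕ).factorization q + (Nat.card G).factorization q := by
      intro q
      rw [← h2, Nat.factorization_mul (by norm_num) hG0]; rfl
    have hfp : (n)!.factorization p = 3 := by
      rw [hf, h3, Nat.prime_two.factorization]
      simp [Finsupp.single_apply, Ne.symm hodd]
    have hf2 : (n)!.factorization 2 = 1 + (Nat.card G).factorization 2 := by
      rw [hf, Nat.prime_two.factorization]; simp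
    have := alt_case n hn p hp hodd hfp
    rw [hf2] at this
    simpa using this
  · have hc : ∃ N a : ℕ, Nat.card G = N ∧ N ≠ 0 ∧ N ∣ plist.prod ^ 50 ∧ 2 ^ a ∣ N ∧
        (∀ p ∈ plist, p ≠ 2 → p ^ 3 ∣ N → ¬ p ^ 4 ∣ N → p ^ 3 < 2 ^ a) := by
      rcases hG with h | h | h | h | h | h | h | h | h | h | h | h | h | h | h | h | h | h | h | h | h | h | h | h | h | h
      · exact ⟨_, 4, h.2, by decide +kernel⟩
      · exact ⟨_, 6, h.2, by decide +kernel⟩
      · exact ⟨_, 7, h.2, by decide +kernel⟩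
      · exact ⟨_, 7, h.2, by decide +kernel⟩
      · exact ⟨_, 10, h.2, by decide +kernel⟩
      · exact ⟨_, 3, h.2, by decide +kernel⟩
      · exact ⟨_, 7, h.2, by decide +kernel⟩
      · exact ⟨_, 7, h.2, by decide +kernel⟩
      · exact ⟨_, 21, h.2, by decide +kernel⟩
      · exact ⟨_, 21, h.2, by decide +kernel⟩
      · exact ⟨_, 18, h.2, by decide +kernel⟩
      · exact ⟨_, 10, h.2, by decide +kernel⟩
      · exact ⟨_, 17, h.2, by decide +kernel⟩
      · exact ⟨_, 18, h.2, by decide +kernel⟩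
      · exact ⟨_, 21, h.2, by decide +kernel⟩
      · exact ⟨_, 9, h.2, by decide +kernel⟩
      · exact ⟨_, 7, h.2, by decide +kernel⟩
      · exact ⟨_, 10, h.2, by decide +kernel⟩
      · exact ⟨_, 14, h.2, by decide +kernel⟩
      · exact ⟨_, 13, h.2, by decide +kernel⟩
      · exact ⟨_, 9, h.2, by decide +kernel⟩
      · exact ⟨_, 14, h.2, by decide +kernel⟩
      · exact ⟨_, 8, h.2, by decide +kernel⟩
      · exact ⟨_, 15, h.2, by decide +kernel⟩
      · exact ⟨_, 41, h.2, by decide +kernel⟩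
      · exact ⟨_, 46, h.2, by decide +kernel⟩
    obtain ⟨N, a, hN, hN0, h1, h2, h4⟩ := hc
    rw [hN] at h3 ⊢
    exact spor_case N a hN0 h1 h2 h4 p hp hodd h3

end Cfsg.Agent.S2367
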