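import Cfsg.Statements.S2368
import Cfsg.Agent.H16.Unip

set_option autoImplicit false
open Cfsg

namespace Cfsg.Agent.S2368

open Cfsg.Agent.H16

/-- shift matrix -/
def shiftM (m : ℕ) (F : Type*) [Field F] : Matrix (Fin m) (Fin m) F :=
  Matrix.of fun i j => if j.val = i.val + 1 then 1 else 0

lemma shiftM_pow (m : ℕ) (F : Type*) [Field F] (k : ℕ) :
    shiftM m F ^ k = Matrix.of fun i j => if j.val = i.val + k then 1 else 0 := by
  induction k with
  | zero =>
    ext i j
    simp only [pow_zero, add_zero, Matrix.of_apply, Matrix.one_apply]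
    by_cases h : i = j
    · rw [if_pos h, if_pos (by rw [h])]
    · rw [if_neg h, if_neg (fun h' => h (Fin.ext h'.symm))]
  | succ k ih =>
    ext i j
    rw [pow_succ, ih, Matrix.mul_apply]
    simp only [Matrix.of_apply, shiftM]
    by_cases h : j.val = i.val + (k + 1)
    · rw [if_pos h]
      have hj := j.2
      rw [Finset.sum_eq_single (⟨i.val + k, by omega⟩ : Fin m)]
      · simp; omega
      · intro b _ hb
        rw [if_neg (fun h' => hb (Fin.ext h')), zero_mul]
      · simp
    · rw [if_neg h]
      apply Finset.sum_eq_zero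
      intro b _
      by_cases h1 : b.val = i.val + k
      · rw [if_neg (by omega : ¬ j.val = b.val + 1), mul_zero]
      · rw [if_neg h1, zero_mul]

/-- Let F be a finite field of characteristic p and m ≥ 1. Every element of GL(m, F) of p-power order has order less than p·m, and GL(m, F) has an element of p-power order at least m; so the largest order of a p-element of GL(m, F) is the least power of p that is at least m. -/
theorem result {F : Type*} [Field F] [Fintype F] (p : ℕ) [Fact p.Prime] [CharP F p] (m : ℕ) (hm : 1 ≤ m) :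
    (∀ g : Matrix.GeneralLinearGroup (Fin m) F, (∃ j : ℕ, orderOf g = p ^ j) → orderOf g < p * m) ∧
      ∃ g : Matrix.GeneralLinearGroup (Fin m) F, (∃ j : ℕ, orderOf g = p ^ j) ∧ m ≤ orderOf g := by
  have hp : p.Prime := Fact.out
  constructor
  · rintro g ⟨j, hj⟩
    have hnil := (gl_orderOf_eq_prime_pow_iff p g).1 ⟨j, hj⟩
    have h0 := matrix_pow_card_of_isNilpotent hnil
    rw [Fintype.card_fin] at h0
    have h1 : g ^ p ^ (Nat.clog p m) = 1 :=
      (gl_pow_eq_one_iff p g _).2 (pow_eq_zero_of_le (Nat.le_pow_clog hp.one_lt m) h0)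
    have h2 : orderOf g ≤ p ^ (Nat.clog p m) :=
      Nat.le_of_dvd (pow_pos hp.pos _) (orderOf_dvd_of_pow_eq_one h1)
    refine lt_of_le_of_lt h2 ?_
    rcases Nat.lt_or_ge 1 m with hm1 | hm1
    · have h3 := Nat.pow_pred_clog_lt_self hp.one_lt hm1
      have h4 : 0 < Nat.clog p m := Nat.clog_pos hp.one_lt hm1
      have h5 : Nat.clog p m = (Nat.clog p m).pred + 1 := (Nat.succ_pred_eq_of_pos h4).symm
      rw [h5, pow_succ, mul_comm]
      exact Nat.mul_lt_mul_of_pos_left h3 hp.pos
    · have hm' : m = 1 := le_antisymm hm1 hm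
      subst hm'
      simp [hp.one_lt]
  · have hN : IsNilpotent (shiftM m F) := ⟨m, by
      rw [shiftM_pow]; ext i j
      simp only [Matrix.of_apply, Matrix.zero_apply]
      rw [if_neg]; have := j.2; omega⟩
    have hu : IsUnit (1 + shiftM m F) := hN.isUnit_one_add
    obtain ⟨g, hg⟩ := hu
    have hg1 : ((g : Matrix.GeneralLinearGroup (Fin m) F) : Matrix (Fin m) (Fin m) F) - 1 = shiftM m F := by
      rw [hg]; simp
    have hex : ∃ j : ℕ, orderOf (g : Matrix.GeneralLinearGroup (Fin m) F) = p ^ j :=
      (gl_orderOf_eq_prime_pow_iff p g).2 (by rw [hg1]; exact hN)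
    refine ⟨g, hex, ?_⟩
    obtain ⟨j, hj⟩ := hex
    rw [hj]
    by_contra hlt
    push Not at hlt
    have h1 := (gl_pow_eq_one_iff p g j).1 (by rw [← hj]; exact pow_orderOf_eq_one _)
    rw [hg1, shiftM_pow] at h1
    have h2 := congrFun (congrFun h1 ⟨0, by omega⟩) ⟨p ^ j, hlt⟩
    simp at h2

end Cfsg.Agent.S2368
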