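import Cfsg.Statements.S2370
import Cfsg.Agent.H16.ChHt
import Cfsg.Agent.H6.TwComm3
import Cfsg.Agent.S2326

set_option autoImplicit false
open Cfsg

namespace Cfsg.Agent.S2370

open Cfsg.Agent.H6 Cfsg.Lie in
lemma ht11 : ∀ r < chevF4.nroots, Cfsg.Agent.H16.BNS.htS chevF4 (cO TF4.MO) r ≤ (11 : ℕ) := by
  have h1 : ∀ r < 48, cO TF4.MO r 0 + cO TF4.MO r 1 + cO TF4.MO r 2 + cO TF4.MO r 3 ≤ 11 := by decide +kernel
  intro r hr
  have h2 : chevF4.nroots = 48 := TF4.good.nroots_eq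
  rw [h2] at hr
  have h3 := h1 r hr
  have h4 : chevF4.rank = 4 := rfl
  unfold Cfsg.Agent.H16.BNS.htS
  rw [h4, Finset.sum_range_succ, Finset.sum_range_succ, Finset.sum_range_succ, Finset.sum_range_one]
  exact h3

open Cfsg.Agent.H6 Cfsg.Lie in
lemma tw_le (K : Type*) [Field K] (e : ℕ) : twistedF4 K e ≤ chevF4.group K := by
  unfold twistedF4
  apply gen_le TF4.good
  intro w _
  unfold wg
  apply Subgroup.list_prod_mem
  intro x hx
  rw [List.mem_map] at hx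
  obtain ⟨c, -, rfl⟩ := hx
  exact TF4.good.xg_mem_group _ _

/-- Let q = 2^(2m+1) with m ≥ 1. Every element of 2-power order of the large Ree group ²F₄(q) has order at most 32. -/
theorem result {K : Type*} [Field K] [Fintype K] (m : ℕ) (hm : 1 ≤ m) (hK : Fintype.card K = 2 ^ (2 * m + 1))
    (x : ↥(Cfsg.Lie.twistedF4 K (2 ^ m))) (hx : ∃ j : ℕ, orderOf x = 2 ^ j) : orderOf x ≤ 32 := by
  classical
  have hchar : CharP K 2 := by
    obtain ⟨p, hp⟩ := CharP.exists K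
    have hpp : Fact p.Prime := ⟨CharP.char_is_prime K p⟩
    obtain ⟨n, _, hn⟩ := FiniteField.card K p
    rw [hK] at hn
    have h1 : p ∣ 2 ^ (2 * m + 1) := by rw [hn]; exact dvd_pow_self p n.pos.ne'
    have h2 : p ∣ 2 := hpp.out.dvd_of_dvd_pow h1
    have h3 : p = 2 := (Nat.prime_dvd_prime_iff_eq hpp.out Nat.prime_two).1 h2
    rwa [h3] at hp
  have : Fact (Nat.Prime 2) := ⟨Nat.prime_two⟩
  have : Finite ↥(Cfsg.Lie.chevF4.group K) := inferInstance
  obtain ⟨P, hP⟩ := Cfsg.Agent.S2326.result (F := K) 2 Cfsg.Lie.chevF4 (by simp)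
  set y : ↥(Cfsg.Lie.chevF4.group K) := ⟨(x : Matrix.GeneralLinearGroup _ K), tw_le K _ x.2⟩ with hy
  have hyx : orderOf y = orderOf x := by
    rw [← Subgroup.orderOf_coe y, ← Subgroup.orderOf_coe x]
  obtain ⟨j, hj⟩ := hx
  have hpg : IsPGroup 2 (Subgroup.zpowers y) := by
    rw [IsPGroup.iff_card]
    exact ⟨j, by rw [Nat.card_zpowers, hyx, hj]⟩
  obtain ⟨Q, hQ⟩ := hpg.exists_le_sylow
  obtain ⟨g, hg⟩ := MulAction.exists_smul_eq (Cfsg.Lie.chevF4.group K) Q P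
  have hmem : g * y * g⁻¹ ∈ (P : Subgroup ↥(Cfsg.Lie.chevF4.group K)) := by
    rw [← hg, Sylow.coe_subgroup_smul]
    exact Subgroup.smul_mem_pointwise_smul y (MulAut.conj g) _ (hQ (Subgroup.mem_zpowers y))
  rw [hP, Subgroup.mem_subgroupOf] at hmem
  have h23 := Cfsg.Agent.H16.BNS.pos_pow Cfsg.Agent.H6.TF4.good ht11 hmem
  set A : Matrix Cfsg.Lie.chevF4.Idx Cfsg.Lie.chevF4.Idx K := ((g * y * g⁻¹ : ↥(Cfsg.Lie.chevF4.group K)) : Matrix.GeneralLinearGroup Cfsg.Lie.chevF4.Idx K).val with hA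
  have hne : Nonempty Cfsg.Lie.chevF4.Idx := ⟨Sum.inl ⟨0, by decide⟩⟩
  have h32 : (A - 1) ^ 32 = 0 := by
    have : (A - 1) ^ 32 = (A - 1) ^ (2 * 11 + 1) * (A - 1) ^ 9 := by rw [← pow_add]
    rw [this, h23, zero_mul]
  have h33 : A ^ 32 = 1 := by
    have h := sub_pow_char_pow_of_commute 2 5 (Commute.one_right A)
    norm_num at h
    rw [h32] at h
    exact (sub_eq_zero.1 h.symm)
  have h34 : (g * y * g⁻¹) ^ 32 = 1 := by
    apply Subtype.ext
    apply Units.ext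
    rw [Subgroup.coe_pow, Units.val_pow_eq_pow_val, ← hA, h33]
    rfl
  have h35 : orderOf (g * y * g⁻¹) = orderOf y := orderOf_injective (MulAut.conj g).toMonoidHom (MulAut.conj g).injective y
  rw [← hyx, ← h35]
  exact Nat.le_of_dvd (by norm_num) (orderOf_dvd_of_pow_eq_one h34)

end Cfsg.Agent.S2370
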