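import Cfsg.Statements.S2371
import Cfsg.Agent.H15.CTor7
import Cfsg.Agent.S1059

set_option autoImplicit false
open Cfsg

namespace Cfsg.Agent.S2371

/-- The group G₂(q), q ≥ 3, contains a cyclic subgroup of order q² + q + 1 which is its own centralizer. -/
theorem result {F : Type*} [Field F] [Fintype F] (q : ℕ) (hF : Fintype.card F = q) (hq : 3 ≤ q) :
    ∃ H : Subgroup ↥(Cfsg.Lie.chevG2.group F), IsCyclic ↥H ∧ Nat.card ↥H = q ^ 2 + q + 1 ∧
      Subgroup.centralizer (H : Set ↥(Cfsg.Lie.chevG2.group F)) = H := by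
  have hM : (Polynomial.cyclotomic 3 ℤ).eval (q : ℤ) = ((q ^ 2 + q + 1 : ℕ) : ℤ) := by
    rw [Cfsg.Agent.H15.CTor.cyc3]; push_cast; ring
  have h9 : ¬ 3 ^ 2 ∣ q ^ 2 + q + 1 := by
    intro h
    have h1 : (q ^ 2 + q + 1) % 9 = 0 := Nat.mod_eq_zero_of_dvd h
    have h2 : q % 9 < 9 := Nat.mod_lt _ (by norm_num)
    rw [Nat.add_mod, Nat.add_mod (q ^ 2) q, Nat.pow_mod] at h1
    interval_cases q % 9 <;> simp at h1
  obtain ⟨r, hr, hrM, hr3⟩ := Cfsg.Agent.H15.CTor.exists_prime_ne Nat.prime_three h9 (by nlinarith)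
  haveI : Fact r.Prime := ⟨hr⟩
  have hprim := Cfsg.Agent.H15.CTor.prim_of_dvd hM hrM (fun h => hr3 ((Nat.prime_dvd_prime_iff_eq hr Nat.prime_three).1 h))
  have hdr := Cfsg.Agent.H15.CTor.dvd_sub_one hprim (by norm_num)
  have hr2 := hr.two_le
  have hr7 : 4 ≤ r := by
    obtain ⟨k, hk⟩ := hdr
    omega
  refine Cfsg.Agent.H15.CTor.exists_cyclic Cfsg.Agent.H6.TG2.good Cfsg.Agent.H6.TG2.ext hF
    (fun K _ => Cfsg.Agent.H6.PhiH_inj_G2) (by norm_num) (by decide) hprim ?_ ?_ hM (by positivity) ?_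
    (Cfsg.Agent.H15.CTor.hdet_of (n := 2) Cfsg.Agent.H6.TG2.good rfl Cfsg.Agent.H15.CTor.bG2 324 8100 (by norm_num)
      Cfsg.Agent.H15.CTor.bG2_det Cfsg.Agent.H15.CTor.bG2_bd ?_)
  · rw [Cfsg.Agent.H22.cardG2]
    intro h
    have h1 : r ∣ 2 ^ 2 * 3 := by simpa using h
    rcases (hr.dvd_mul).1 h1 with h2 | h2
    · have := Nat.le_of_dvd (by norm_num) (hr.dvd_of_dvd_pow h2)
      omega
    · have := Nat.le_of_dvd (by norm_num) h2
      omega
  · rw [Cfsg.Agent.S1059.result hF]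
    exact (Cfsg.Agent.H15.CTor.dvd_pow_sub_one_of_prim (k := 2) (by omega) hprim).mul_left _
  · intro p hp _ hpd h2
    rw [(Nat.prime_dvd_prime_iff_eq hp Nat.prime_three).1 hpd] at h2
    exact h9 h2
  · have : (4 : ℤ) ≤ (r : ℤ) := by exact_mod_cast hr7
    push_cast
    nlinarith

end Cfsg.Agent.S2371
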