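import Cfsg.Statements.S2372
import Cfsg.Agent.H15.CTor7
import Cfsg.Agent.S1062

set_option autoImplicit false
open Cfsg

namespace Cfsg.Agent.S2372

/-- The group F₄(q) contains a cyclic subgroup of order q⁴ + 1 which is its own centralizer. -/
theorem result {F : Type*} [Field F] [Fintype F] (q : ℕ) (hF : Fintype.card F = q) :
    ∃ H : Subgroup ↥(Cfsg.Lie.chevF4.group F), IsCyclic ↥H ∧ Nat.card ↥H = q ^ 4 + 1 ∧
      Subgroup.centralizer (H : Set ↥(Cfsg.Lie.chevF4.group F)) = H := by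
  have hM : (Polynomial.cyclotomic 8 ℤ).eval (q : ℤ) = ((q ^ 4 + 1 : ℕ) : ℤ) := by
    rw [Cfsg.Agent.H15.CTor.cyc8]; push_cast; ring
  have hq2 : 2 ≤ q := by rw [← hF]; exact Fintype.one_lt_card
  have h9 : ¬ 2 ^ 2 ∣ q ^ 4 + 1 := by
    intro h
    have h1 : (q ^ 4 + 1) % 4 = 0 := Nat.mod_eq_zero_of_dvd h
    have h2 : q % 4 < 4 := Nat.mod_lt _ (by norm_num)
    rw [Nat.add_mod, Nat.pow_mod] at h1
    interval_cases q % 4 <;> simp at h1
  have hbig : 16 ≤ q ^ 4 := by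
    calc 16 = 2 ^ 4 := by norm_num
      _ ≤ q ^ 4 := Nat.pow_le_pow_left hq2 4
  obtain ⟨r, hr, hrM, hr2⟩ := Cfsg.Agent.H15.CTor.exists_prime_ne Nat.prime_two h9 (by omega)
  haveI : Fact r.Prime := ⟨hr⟩
  have hprim := Cfsg.Agent.H15.CTor.prim_of_dvd hM hrM (fun h => hr2 ((Nat.prime_dvd_prime_iff_eq hr Nat.prime_two).1
    (hr.dvd_of_dvd_pow (show r ∣ 2 ^ 3 by simpa using h))))
  have hdr := Cfsg.Agent.H15.CTor.dvd_sub_one hprim (by norm_num)
  have hr2' := hr.two_le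
  have hr7 : 9 ≤ r := by
    obtain ⟨k, hk⟩ := hdr
    omega
  refine Cfsg.Agent.H15.CTor.exists_cyclic Cfsg.Agent.H6.TF4.good Cfsg.Agent.H6.TF4.ext hF
    (fun K _ => Cfsg.Agent.H6.PhiH_inj_F4) (by norm_num) (by decide) hprim ?_ ?_ hM (by positivity) ?_
    (Cfsg.Agent.H15.CTor.hdet_of (n := 4) Cfsg.Agent.H6.TF4.good rfl Cfsg.Agent.H15.CTor.bF4 8 64 (by norm_num)
      Cfsg.Agent.H15.CTor.bF4_det Cfsg.Agent.H15.CTor.bF4_bd ?_)
  · rw [Cfsg.Agent.H22.cardF4]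
    intro h
    have h1 : r ∣ 2 ^ 7 * 3 ^ 2 := by simpa using h
    rcases (hr.dvd_mul).1 h1 with h2 | h2
    · have := Nat.le_of_dvd (by norm_num) (hr.dvd_of_dvd_pow h2)
      omega
    · have := Nat.le_of_dvd (by norm_num) (hr.dvd_of_dvd_pow h2)
      omega
  · rw [Cfsg.Agent.S1062.result hF]
    have h1 := Cfsg.Agent.H15.CTor.dvd_pow_sub_one_of_prim (k := 1) (by omega) hprim
    exact (h1.mul_left _).mul_right _
  · intro p hp _ hpd h2
    have : p = 2 := (Nat.prime_dvd_prime_iff_eq hp Nat.prime_two).1 (hp.dvd_of_dvd_pow (show p ∣ 2 ^ 3 by simpa using hpd))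
    rw [this] at h2
    exact h9 h2
  · have : (9 : ℤ) ≤ (r : ℤ) := by exact_mod_cast hr7
    push_cast
    nlinarith

end Cfsg.Agent.S2372
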