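import Cfsg.Statements.S2375
import Cfsg.Agent.H15.CTor7
import Cfsg.Agent.S1065

set_option autoImplicit false
open Cfsg

namespace Cfsg.Agent.S2375

theorem cop30 (q : ℕ) (p : ℕ) (hp : p ∈ [2, 3, 5]) :
    ¬ ((p : ℕ) : ℤ) ∣ (q : ℤ) ^ 8 + (q : ℤ) ^ 7 - (q : ℤ) ^ 5 - (q : ℤ) ^ 4 - (q : ℤ) ^ 3 + q + 1 := by
  intro h
  rw [← ZMod.intCast_zmod_eq_zero_iff_dvd] at h
  push_cast at h
  have key : ∀ x : ZMod p, x ^ 8 + x ^ 7 - x ^ 5 - x ^ 4 - x ^ 3 + x + 1 ≠ 0 := by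
    simp only [List.mem_cons, List.not_mem_nil, or_false] at hp
    rcases hp with rfl | rfl | rfl <;> decide
  exact key _ h

/-- The group E₈(q) contains a cyclic subgroup of order q⁸ + q⁷ − q⁵ − q⁴ − q³ + q + 1 which is its own centralizer. -/
theorem result {F : Type*} [Field F] [Fintype F] (q : ℕ) (hF : Fintype.card F = q) :
    ∃ H : Subgroup ↥(Cfsg.Lie.chevE8.group F), IsCyclic ↥H ∧ Nat.card ↥H = q ^ 8 + q ^ 7 - q ^ 5 - q ^ 4 - q ^ 3 + q + 1 ∧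
      Subgroup.centralizer (H : Set ↥(Cfsg.Lie.chevE8.group F)) = H := by
  have hq2 : 2 ≤ q := by rw [← hF]; exact Fintype.one_lt_card
  have e1 : q ^ 5 ≤ q ^ 8 + q ^ 7 := by
    have : q ^ 5 ≤ q ^ 8 := Nat.pow_le_pow_right (by omega) (by norm_num)
    omega
  have e7 : q ^ 5 + q ^ 4 + q ^ 3 ≤ q ^ 7 := by
    have a1 : q ^ 4 ≤ q ^ 5 := Nat.pow_le_pow_right (by omega) (by norm_num)
    have a2 : q ^ 3 ≤ q ^ 5 := Nat.pow_le_pow_right (by omega) (by norm_num)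
    have a3 : 4 * q ^ 5 ≤ q ^ 7 := by
      calc 4 * q ^ 5 = 2 ^ 2 * q ^ 5 := by norm_num
        _ ≤ q ^ 2 * q ^ 5 := Nat.mul_le_mul_right _ (Nat.pow_le_pow_left hq2 2)
        _ = q ^ 7 := by ring
    omega
  have hcast : ((q ^ 8 + q ^ 7 - q ^ 5 - q ^ 4 - q ^ 3 + q + 1 : ℕ) : ℤ) =
      (q : ℤ) ^ 8 + (q : ℤ) ^ 7 - (q : ℤ) ^ 5 - (q : ℤ) ^ 4 - (q : ℤ) ^ 3 + q + 1 := by
    rw [Nat.cast_add, Nat.cast_add, Nat.cast_sub (by omega), Nat.cast_sub (by omega), Nat.cast_sub (by omega)]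
    push_cast; ring
  have hM : (Polynomial.cyclotomic 30 ℤ).eval (q : ℤ) = ((q ^ 8 + q ^ 7 - q ^ 5 - q ^ 4 - q ^ 3 + q + 1 : ℕ) : ℤ) := by
    rw [Cfsg.Agent.H15.CTor.cyc30, hcast]
  have hcop : ∀ p ∈ [2, 3, 5], ¬ p ∣ q ^ 8 + q ^ 7 - q ^ 5 - q ^ 4 - q ^ 3 + q + 1 := by
    intro p hp h
    apply cop30 q p hp
    rw [← hcast]
    exact_mod_cast h
  have hp30 : ∀ p : ℕ, p.Prime → p ∣ 30 → p ∈ [2, 3, 5] := by
    intro p hp h
    have h1 : p ∣ 2 * (3 * 5) := by simpa using h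
    rcases (hp.dvd_mul).1 h1 with h2 | h2
    · rw [(Nat.prime_dvd_prime_iff_eq hp Nat.prime_two).1 h2]; simp
    · rcases (hp.dvd_mul).1 h2 with h3 | h3
      · rw [(Nat.prime_dvd_prime_iff_eq hp Nat.prime_three).1 h3]; simp
      · rw [(Nat.prime_dvd_prime_iff_eq hp (by norm_num : Nat.Prime 5)).1 h3]; simp
  have hne1 : q ^ 8 + q ^ 7 - q ^ 5 - q ^ 4 - q ^ 3 + q + 1 ≠ 1 := by omega
  obtain ⟨r, hr, hrM⟩ := Nat.exists_prime_and_dvd hne1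
  haveI : Fact r.Prime := ⟨hr⟩
  have hprim := Cfsg.Agent.H15.CTor.prim_of_dvd hM hrM (fun h => hcop r (hp30 r hr h) hrM)
  have hdr := Cfsg.Agent.H15.CTor.dvd_sub_one hprim (by norm_num)
  have hr2' := hr.two_le
  have hr7 : 31 ≤ r := by
    obtain ⟨k, hk⟩ := hdr
    omega
  refine Cfsg.Agent.H15.CTor.exists_cyclic Cfsg.Agent.H6.TE8.good Cfsg.Agent.H6.TE8.ext hF
    (fun K _ => Cfsg.Agent.H6.PhiH_inj_E8) (by norm_num) (by decide) hprim ?_ ?_ hM (by positivity) ?_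
    (Cfsg.Agent.H15.CTor.hdet_of (n := 8) Cfsg.Agent.H6.TE8.good rfl Cfsg.Agent.H15.CTor.bE8 8 65536 (by norm_num)
      Cfsg.Agent.H15.CTor.bE8_det Cfsg.Agent.H15.CTor.bE8_bd ?_)
  · rw [Cfsg.Agent.H22.cardE8]
    intro h
    have h1 : r ∣ 2 ^ 14 * (3 ^ 5 * (5 ^ 2 * 7)) := by simpa using h
    rcases (hr.dvd_mul).1 h1 with h2 | h2
    · have := Nat.le_of_dvd (by norm_num) (hr.dvd_of_dvd_pow h2)
      omega
    · rcases (hr.dvd_mul).1 h2 with h3 | h3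
      · have := Nat.le_of_dvd (by norm_num) (hr.dvd_of_dvd_pow h3)
        omega
      · rcases (hr.dvd_mul).1 h3 with h4 | h4
        · have := Nat.le_of_dvd (by norm_num) (hr.dvd_of_dvd_pow h4)
          omega
        · have := Nat.le_of_dvd (by norm_num) h4
          omega
  · rw [Cfsg.Agent.S1065.result hF]
    exact (Cfsg.Agent.H15.CTor.dvd_pow_sub_one_of_prim (k := 1) (by omega) hprim).mul_left _
  · intro p hp hpM hpd h2
    exact hcop p (hp30 p hp hpd) hpM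
  · have : (31 : ℤ) ≤ (r : ℤ) := by exact_mod_cast hr7
    push_cast
    nlinarith

end Cfsg.Agent.S2375
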