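import Cfsg.Statements.S2378
import Cfsg.Agent.H15.CTor18
import Cfsg.Agent.S1059
import Cfsg.Agent.S1060
import Cfsg.Agent.S1061
import Cfsg.Agent.S1062
import Cfsg.Agent.S1063
import Cfsg.Agent.S1064
import Cfsg.Agent.S1065

set_option autoImplicit false
open Cfsg

namespace Cfsg.Agent.S2378

open Cfsg.Agent Cfsg.Agent.H15 Cfsg.Agent.H6

theorem ndvd {r a b : ℕ} (h : ¬ r ∣ a) (hb : b ∣ a) : ¬ r ∣ b := fun h' => h (h'.trans hb)

/-- Sylow subgroups for primes away from the characteristic and the Weyl group. Let `G` be the Chevalley group of type G₂, B₂, D₄, F₄, E₆, E₇ or E₈ over a field with `q` elements, with the degrees of its Weyl group listed beside the type (their product is the order of the Weyl group), and let `r` be a prime dividing the order of `G`, not dividing `q` and not dividing the order of the Weyl group. Let `d` be the multiplicative order of `q` modulo `r`, `a` the number of degrees divisible by `d`, and `m` the `r`-part of the value at `q` of the `d`-th cyclotomic polynomial. Then every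 Sylow `r`-subgroup of `G` is homocyclic: a direct product of `a` cyclic groups of order `m` (in particular abelian). -/
theorem result {F : Type*} [Field F] [Fintype F] {q : ℕ} (hq : Fintype.card F = q)
    (c : Cfsg.Lie.ChevalleyDatum × List ℕ)
    (hc : c ∈ [(Cfsg.Lie.chevG2, [2, 6]), (Cfsg.Lie.chevB2, [2, 4]), (Cfsg.Lie.chevD4, [2, 4, 4, 6]), (Cfsg.Lie.chevF4, [2, 6, 8, 12]),
      (Cfsg.Lie.chevE6, [2, 5, 6, 8, 9, 12]), (Cfsg.Lie.chevE7, [2, 6, 8, 10, 12, 14, 18]), (Cfsg.Lie.chevE8, [2, 8, 12, 14, 18, 20, 24, 30])])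
    (r : ℕ) [Fact r.Prime] (hrq : ¬ r ∣ q) (hrW : ¬ r ∣ c.2.prod) (hrG : r ∣ Nat.card ↥(c.1.group F)) (P : Sylow r ↥(c.1.group F)) :
    Nonempty (↥(P : Subgroup ↥(c.1.group F)) ≃*
      (Fin (c.2.filter (fun e => orderOf (q : ZMod r) ∣ e)).length →
        Multiplicative (ZMod (r ^ padicValNat r ((Polynomial.cyclotomic (orderOf (q : ZMod r)) ℤ).eval (q : ℤ)).natAbs)))) := by
  simp only [List.mem_cons, List.not_mem_nil, or_false] at hc
  rcases hc with rfl | rfl | rfl | rfl | rfl | rfl | rfl
  · refine CTor.sylow_homocyclic (g := 1) (n := 6) TG2.good TG2.ext hq [2, 6] (by decide) hrq hrW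
      (by rw [H22.cardG2]; rfl) (ndvd hrW (by decide)) ?_ CTor.bound_G2 hrG P
    have h := S1059.result hq
    rw [one_mul, h]
    simp only [List.map_cons, List.map_nil, List.prod_cons, List.prod_nil]
    ring
  · refine CTor.sylow_homocyclic (g := Nat.gcd 2 (q - 1)) (n := 4) TB2.good TB2.ext hq [2, 4] (by decide) hrq hrW
      (by rw [H22.cardB2]; rfl) (ndvd hrW (dvd_trans (Nat.gcd_dvd_left _ _) (by decide))) ?_ CTor.bound_B2 hrG P
    have h := S1060.result hq
    rw [h]
    simp only [List.map_cons, List.map_nil, List.prod_cons, List.prod_nil]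
    ring
  · refine CTor.sylow_homocyclic (g := Nat.gcd 2 (q - 1) ^ 2) (n := 12) TD4.good TD4.ext hq [2, 4, 4, 6] (by decide) hrq hrW
      (by rw [H22.cardD4]; rfl) (ndvd hrW (dvd_trans (pow_dvd_pow_of_dvd (Nat.gcd_dvd_left _ _) 2) (by decide))) ?_ CTor.bound_D4 hrG P
    have h := S1061.result hq
    rw [h]
    simp only [List.map_cons, List.map_nil, List.prod_cons, List.prod_nil]
    ring
  · refine CTor.sylow_homocyclic (g := 1) (n := 24) TF4.good TF4.ext hq [2, 6, 8, 12] (by decide) hrq hrW
      (by rw [H22.cardF4]; rfl) (ndvd hrW (by decide)) ?_ CTor.bound_F4 hrG P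
    have h := S1062.result hq
    rw [one_mul, h]
    simp only [List.map_cons, List.map_nil, List.prod_cons, List.prod_nil]
    ring
  · refine CTor.sylow_homocyclic (g := Nat.gcd 3 (q - 1)) (n := 36) TE6.good TE6.ext hq [2, 5, 6, 8, 9, 12] (by decide) hrq hrW
      (by rw [H22.cardE6]; rfl) (ndvd hrW (dvd_trans (Nat.gcd_dvd_left _ _) (by decide))) ?_ CTor.bound_E6 hrG P
    have h := S1063.result hq
    rw [h]
    simp only [List.map_cons, List.map_nil, List.prod_cons, List.prod_nil]
    ring
  · refine CTor.sylow_homocyclic (g := Nat.gcd 2 (q - 1)) (n := 63) TE7.good TE7.ext hq [2, 6, 8, 10, 12, 14, 18] (by decide) hrq hrW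
      (by rw [H22.cardE7]; rfl) (ndvd hrW (dvd_trans (Nat.gcd_dvd_left _ _) (by decide))) ?_ CTor.bound_E7 hrG P
    have h := S1064.result hq
    rw [h]
    simp only [List.map_cons, List.map_nil, List.prod_cons, List.prod_nil]
    ring
  · refine CTor.sylow_homocyclic (g := 1) (n := 120) TE8.good TE8.ext hq [2, 8, 12, 14, 18, 20, 24, 30] (by decide) hrq hrW
      (by rw [H22.cardE8]; rfl) (ndvd hrW (by decide)) ?_ CTor.bound_E8 hrG P
    have h := S1065.result hq
    rw [one_mul, h]
    simp only [List.map_cons, List.map_nil, List.prod_cons, List.prod_nil]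
    ring

end Cfsg.Agent.S2378
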