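import Cfsg.Statements.S2388
import Cfsg.Agent.H16.SSim2

set_option autoImplicit false
open Cfsg

namespace Cfsg.Agent.S2388

/-- In `SL_n(q)`, `q` a power of the prime `p`, two elements of order prime to `p` with the same characteristic polynomial are conjugate in `SL_n(q)` (not merely in `GL_n`). -/
theorem result {F : Type*} [Field F] [Fintype F] (p : ℕ) [Fact p.Prime] [CharP F p] (n : ℕ)
    (g h : Matrix.SpecialLinearGroup (Fin n) F) (hg : (orderOf g).Coprime p) (hh : (orderOf h).Coprime p)
    (hc : (g : Matrix (Fin n) (Fin n) F).charpoly = (h : Matrix (Fin n) (Fin n) F).charpoly) : IsConj g h := by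
  exact Cfsg.Agent.H16.SSim.sl_conj_of_charpoly (Cfsg.Agent.H16.SSim.cast_ne_zero_of_coprime (F := F) p hg)
    (Cfsg.Agent.H16.SSim.cast_ne_zero_of_coprime (F := F) p hh) (pow_orderOf_eq_one g) (pow_orderOf_eq_one h) hc

end Cfsg.Agent.S2388
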