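import Cfsg.Statements.S2392
import Cfsg.Agent.H16.LSBnd

set_option autoImplicit false
open scoped MatrixGroups
open Cfsg

namespace Cfsg.Agent.S2392

/-- A lower bound for representations in cross characteristic: for `n ≥ 3` and a field `F` with `q` elements, every homomorphism from `SL_n(F)` to `GL_d(K)`, `K` a field of characteristic different from that of `F`, whose kernel is central has `d ≥ q^(n-1) - 1`. -/
theorem result {F : Type*} [Field F] [Fintype F] {q : ℕ} (hq : Fintype.card F = q) (n : ℕ) (hn : 3 ≤ n)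
    {K : Type*} [Field K] (hK : ringChar K ≠ ringChar F) {d : ℕ}
    (ρ : Matrix.SpecialLinearGroup (Fin n) F →* GL (Fin d) K) (hker : ρ.ker ≤ Subgroup.center (Matrix.SpecialLinearGroup (Fin n) F)) :
    q ^ (n - 1) - 1 ≤ d := by
  classical
  obtain ⟨m, rfl⟩ := Nat.exists_eq_add_of_le' (show 1 ≤ n by omega)
  rw [Nat.add_sub_cancel]
  obtain ⟨p, hp⟩ := CharP.exists F
  obtain ⟨e, hpp, hqe⟩ := FiniteField.card F p
  have hchF : ringChar F = p := ringChar.eq F p
  have hqK : (Fintype.card F : K) ≠ 0 := by
    intro h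
    rw [hqe, Nat.cast_pow] at h
    have h1 : (p : K) = 0 := pow_eq_zero_iff (e.ne_zero) |>.1 h
    have h2 : ringChar K ∣ p := (ringChar.spec K p).1 h1
    rcases (Nat.dvd_prime hpp).1 h2 with h3 | h3
    · have : ((1 : ℕ) : K) = 0 := (ringChar.spec K 1).2 (by rw [h3])
      simp at this
    · exact hK (by rw [h3, hchF])
  let L := AlgebraicClosure K
  have hqL : (Fintype.card F : L) ≠ 0 := by
    intro h
    apply hqK
    apply (algebraMap K L).injective
    rw [map_natCast, map_zero]; exact h
  let Φ : GL (Fin d) K →* Module.End L (Fin d → L) :=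
    ((Matrix.toLinAlgEquiv' (R := L) (n := Fin d)).toAlgHom.toRingHom.toMonoidHom).comp
      (((algebraMap K L).mapMatrix (m := Fin d)).toMonoidHom.comp (Units.coeHom _))
  have hΦ : Function.Injective Φ := by
    intro a b h
    apply Units.ext
    have h1 : (algebraMap K L).mapMatrix (a : Matrix (Fin d) (Fin d) K) = (algebraMap K L).mapMatrix (b : Matrix (Fin d) (Fin d) K) :=
      Matrix.toLinAlgEquiv'.injective h
    ext i j
    exact (algebraMap K L).injective (congrFun (congrFun h1 i) j)
  have h := Cfsg.Agent.H16.LSB.bound (F := F) (m := m) (by omega) (L := L) hqL (V := Fin d → L) (Φ.comp ρ) (fun g hg => hker (by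
    rw [MonoidHom.mem_ker]
    apply hΦ
    rw [map_one]; exact hg))
  rw [Module.finrank_fintype_fun_eq_card, Fintype.card_fin, hq] at h
  exact h

end Cfsg.Agent.S2392
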