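import Cfsg.Statements.S2398
import Cfsg.Agent.H6.StKTab

set_option autoImplicit false
open Cfsg

namespace Cfsg.Agent.S2398

/-- Universality of the group Δ presented by Steinberg's generators with relators (R1), (R2), over a field with more than four elements (types G₂, B₂, D₄, F₄, E₆, E₇, E₈): for every central extension `π₁ : E → G₁` (surjective, central kernel) and every homomorphism `σ : Δ → G₁` there is exactly one homomorphism `τ : Δ → E` with `π₁ ∘ τ = σ`. In particular every central extension of Δ splits; together with the fact that Δ maps onto the Chevalley group with central kernel, this makes Δ the universal central extension of the Chevalley group. -/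
theorem result {K : Type*} [Field K] (hK5 : ∃ s : Finset K, 4 < s.card) (D : Cfsg.Lie.ChevalleyDatum) (hD : D ∈ [Cfsg.Lie.chevG2, Cfsg.Lie.chevB2, Cfsg.Lie.chevD4, Cfsg.Lie.chevF4, Cfsg.Lie.chevE6, Cfsg.Lie.chevE7, Cfsg.Lie.chevE8])
    {G₁ E : Type*} [Group G₁] [Group E] (π₁ : E →* G₁) (hπ : Function.Surjective π₁) (hc : π₁.ker ≤ Subgroup.center E)
    (σ : D.SteinbergCover K →* G₁) : ∃! τ : D.SteinbergCover K →* E, π₁.comp τ = σ := by
  simp only [List.mem_cons, List.not_mem_nil, or_false] at hD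
  rcases hD with rfl | rfl | rfl | rfl | rfl | rfl | rfl
  · exact Cfsg.Agent.H6.sc_univ_big H6.TG2.good H6.TG2.ext H6.TG2.cw H6.TG2.pairs H6.TG2.pb H6.TG2.sc hK5 π₁ hπ hc σ
  · exact Cfsg.Agent.H6.sc_univ_big H6.TB2.good H6.TB2.ext H6.TB2.cw H6.TB2.pairs H6.TB2.pb H6.TB2.sc hK5 π₁ hπ hc σ
  · exact Cfsg.Agent.H6.sc_univ_big H6.TD4.good H6.TD4.ext H6.TD4.cw H6.TD4.pairs H6.TD4.pb H6.TD4.sc hK5 π₁ hπ hc σ
  · exact Cfsg.Agent.H6.sc_univ_big H6.TF4.good H6.TF4.ext H6.TF4.cw H6.TF4.pairs H6.TF4.pb H6.TF4.sc hK5 π₁ hπ hc σ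
  · exact Cfsg.Agent.H6.sc_univ_big H6.TE6.good H6.TE6.ext H6.TE6.cw H6.TE6.pairs H6.TE6.pb H6.TE6.sc hK5 π₁ hπ hc σ
  · exact Cfsg.Agent.H6.sc_univ_big H6.TE7.good H6.TE7.ext H6.TE7.cw H6.TE7.pairs H6.TE7.pb H6.TE7.sc hK5 π₁ hπ hc σ
  · exact Cfsg.Agent.H6.sc_univ_big H6.TE8.good H6.TE8.ext H6.TE8.cw H6.TE8.pairs H6.TE8.pb H6.TE8.sc hK5 π₁ hπ hc σ

end Cfsg.Agent.S2398
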