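import Cfsg.Statements.S2402
import Cfsg.Agent.H16.SLCycle

set_option autoImplicit false
open Cfsg

namespace Cfsg.Agent.S2402

open Matrix Matrix.SpecialLinearGroup Cfsg.Agent.H16

lemma diag_conj {ι : Type*} [Fintype ι] [DecidableEq ι] {F : Type*} [Field F]
    {t : Matrix.SpecialLinearGroup ι F} {d : ι → F} (ht : (t : Matrix ι ι F) = Matrix.diagonal d)
    {i j : ι} (hij : i ≠ j) (hd : d j ≠ 0) (c : F) :
    t * SpecialLinearGroup.transvection hij c * t⁻¹ = SpecialLinearGroup.transvection hij (d i * c * (d j)⁻¹) := by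
  rw [mul_inv_eq_iff_eq_mul]
  apply sl_ext
  simp only [Matrix.SpecialLinearGroup.coe_mul, transvection_coe, mul_add, add_mul, mul_one, one_mul, ht]
  congr 1
  ext a b
  rw [Matrix.diagonal_mul, Matrix.mul_diagonal]
  by_cases h : i = a ∧ j = b
  · obtain ⟨rfl, rfl⟩ := h
    simp [hd]
  · rw [single_apply_of_ne _ _ _ _ _ h, single_apply_of_ne _ _ _ _ _ h]; simp

/-- Explicit two-element generation of `PSL_{n+1}(K)` for a finite field `K` with more than three elements: let `k` generate the multiplicative group of `K`, `h = diag(k, k⁻¹, 1, …, 1)`, `x = 1 + E₁₂` (the elementary transvection) and `w` the monomial matrix with entries `1` in positions `(i, i+1)` and `(−1)^n` in position `(n+1, 1)`. Then `h` and `x·w` generate `SL_{n+1}(K)` modulo its centre: the subgroup they generate together with the centre is everything. -/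
theorem result {K : Type*} [Field K] [Fintype K] (hK : 3 < Fintype.card K) (n : ℕ) (hn : 1 ≤ n)
    (k : Kˣ) (hk : ∀ u : Kˣ, u ∈ Subgroup.zpowers k)
    (h x w : Matrix.SpecialLinearGroup (Fin (n + 1)) K)
    (hh : (h : Matrix (Fin (n + 1)) (Fin (n + 1)) K) =
      Matrix.diagonal (fun i => if i.val = 0 then (k : K) else if i.val = 1 then ((k⁻¹ : Kˣ) : K) else 1))
    (hx : (x : Matrix (Fin (n + 1)) (Fin (n + 1)) K) = Matrix.transvection (0 : Fin (n + 1)) (1 : Fin (n + 1)) 1)
    (hw : (w : Matrix (Fin (n + 1)) (Fin (n + 1)) K) =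
      Matrix.of (fun i j => if j.val = i.val + 1 then 1 else if i.val = n ∧ j.val = 0 then (-1) ^ n else 0)) :
    Subgroup.closure ({h, x * w} : Set (Matrix.SpecialLinearGroup (Fin (n + 1)) K)) ⊔
      Subgroup.center (Matrix.SpecialLinearGroup (Fin (n + 1)) K) = ⊤ := by
  classical
  set G' := Subgroup.closure ({h, x * w} : Set (Matrix.SpecialLinearGroup (Fin (n + 1)) K)) with hG'
  have hhG : h ∈ G' := Subgroup.subset_closure (by simp)
  have hxwG : x * w ∈ G' := Subgroup.subset_closure (by simp)
  have h01 : (0 : Fin (n + 1)) ≠ 1 := by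
    intro h; have := congrArg Fin.val h
    have h1 : (1 : Fin (n + 1)).val = 1 % (n + 1) := rfl
    rw [h1, Nat.mod_eq_of_lt (by omega)] at this; simp at this
  have hv1 : (1 : Fin (n + 1)).val = 1 := by
    have h1 : (1 : Fin (n + 1)).val = 1 % (n + 1) := rfl
    rw [h1, Nat.mod_eq_of_lt (by omega)]
  have hx' : x = SpecialLinearGroup.transvection h01 1 := sl_ext (by rw [hx]; rfl)
  set D : Fin (n + 1) → K := fun i => if i.val = 0 then (k : K) else if i.val = 1 then ((k⁻¹ : Kˣ) : K) else 1 with hD
  set D' : Fin (n + 1) → K := fun i => if i.val = n then (k : K) else if i.val = 0 then ((k⁻¹ : Kˣ) : K) else 1 with hD'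
  set h' := w * h * w⁻¹ with hh'
  have hh'd : (h' : Matrix (Fin (n + 1)) (Fin (n + 1)) K) = Matrix.diagonal D' := by
    have e1 : (w : Matrix (Fin (n + 1)) (Fin (n + 1)) K) * Matrix.diagonal D = Matrix.diagonal D' * (w : Matrix (Fin (n + 1)) (Fin (n + 1)) K) := by
      ext a b
      rw [Matrix.diagonal_mul, Matrix.mul_diagonal, hw]
      simp only [of_apply]
      have ha := a.2
      have hb := b.2
      by_cases h1 : b.val = a.val + 1
      · rw [if_pos h1, hD, hD']
        simp only
        rw [if_neg (by omega : ¬ b.val = 0), if_neg (by omega : ¬ a.val = n)]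
        by_cases h2 : a.val = 0
        · rw [if_pos (by omega : b.val = 1), if_pos h2]; ring
        · rw [if_neg (by omega : ¬ b.val = 1), if_neg h2]
      · rw [if_neg h1]
        by_cases h2 : a.val = n ∧ b.val = 0
        · rw [if_pos h2, hD, hD']
          simp only
          rw [if_pos h2.2, if_pos h2.1]; ring
        · rw [if_neg h2]; ring
    have e2 : ((h' * w : Matrix.SpecialLinearGroup (Fin (n + 1)) K) : Matrix (Fin (n + 1)) (Fin (n + 1)) K) =
        Matrix.diagonal D' * (w : Matrix (Fin (n + 1)) (Fin (n + 1)) K) := by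
      rw [hh', inv_mul_cancel_right, Matrix.SpecialLinearGroup.coe_mul, hh, e1]
    have e3 : (h' : Matrix (Fin (n + 1)) (Fin (n + 1)) K) = ((h' * w : Matrix.SpecialLinearGroup (Fin (n + 1)) K) : Matrix (Fin (n + 1)) (Fin (n + 1)) K) *
        ((w⁻¹ : Matrix.SpecialLinearGroup (Fin (n + 1)) K) : Matrix (Fin (n + 1)) (Fin (n + 1)) K) := by
      rw [← Matrix.SpecialLinearGroup.coe_mul, mul_inv_cancel_right]
    rw [e3, e2, mul_assoc, ← Matrix.SpecialLinearGroup.coe_mul, mul_inv_cancel]
    simp
  have hcomm : h * h' = h' * h := by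
    apply sl_ext
    rw [Matrix.SpecialLinearGroup.coe_mul h h', Matrix.SpecialLinearGroup.coe_mul h' h, hh'd, hh,
      Matrix.diagonal_mul_diagonal, Matrix.diagonal_mul_diagonal]
    congr 1; ext i; ring
  have hk0 : (k : K) ≠ 0 := k.ne_zero
  -- orders
  have hordk : orderOf k = Fintype.card K - 1 := by
    rw [orderOf_eq_card_of_forall_mem_zpowers hk, Nat.card_eq_fintype_card, Fintype.card_units]
  have hk2 : (k : K) ^ 2 ≠ 1 := by
    intro h
    have : k ^ 2 = 1 := by ext; simpa using h
    have := Nat.le_of_dvd (by norm_num) (orderOf_dvd_of_pow_eq_one this)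
    omega
  have hk1 : (k : K) ≠ 1 := by intro h; apply hk2; rw [h]; ring
  have hD0 : D 0 = k := by simp [hD]
  have hD1 : D 1 = (k : K)⁻¹ := by simp only [hD]; rw [hv1]; simp
  set α : K := D' 0 * (D' 1)⁻¹ with hα
  have hD'1 : D' 1 ≠ 0 := by
    simp only [hD']; split_ifs <;> simp
  have hα1 : α ≠ 1 := by
    rw [hα]
    simp only [hD']; rw [hv1]
    have e0 : (0 : Fin (n + 1)).val = 0 := rfl
    rw [e0]
    by_cases hn1 : n = 1
    · subst hn1
      simp
      intro h
      apply hk2
      field_simp at h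
      rw [h]
    · rw [if_neg (by omega), if_pos rfl, if_neg (by omega), if_neg (by norm_num)]
      simpa using hk1
  have hconjx : ∀ c : K, h * SpecialLinearGroup.transvection h01 c * h⁻¹ = SpecialLinearGroup.transvection h01 ((k : K) ^ 2 * c) := by
    intro c
    rw [diag_conj hh h01 (by rw [hD1]; exact inv_ne_zero hk0) c]
    congr 1
    show D 0 * c * (D 1)⁻¹ = _
    rw [hD0, hD1]; field_simp
  have hconjx' : ∀ c : K, h' * SpecialLinearGroup.transvection h01 c * h'⁻¹ = SpecialLinearGroup.transvection h01 (α * c) := by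
    intro c
    rw [diag_conj hh'd h01 hD'1 c]
    congr 1
    rw [hα]; ring
  set c₀ : K := ((k : K) ^ 2 - 1) * (1 - α) with hc₀
  have hc₀0 : c₀ ≠ 0 := mul_ne_zero (sub_ne_zero.2 hk2) (sub_ne_zero.2 (Ne.symm hα1))
  have hT0 : SpecialLinearGroup.transvection h01 c₀ ∈ G' := by
    have e : SpecialLinearGroup.transvection h01 c₀ =
        h * ((x * w) * h * (x * w)⁻¹) * h⁻¹ * ((x * w) * h * (x * w)⁻¹)⁻¹ := by
      have e1 : (x * w) * h * (x * w)⁻¹ = x * h' * x⁻¹ := by rw [hh']; group
      rw [e1, hx', transvection_inv]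
      set T := fun c : K => SpecialLinearGroup.transvection h01 c with hT
      have e2 : h * (T 1 * h' * T (-1)) * h⁻¹ * (T 1 * h' * T (-1))⁻¹ =
          (h * T 1 * h⁻¹) * ((h * h' * h⁻¹) * ((h * T (-1) * h⁻¹) * (T (-1))⁻¹) * h'⁻¹) * (T 1)⁻¹ := by group
      show T c₀ = h * (T 1 * h' * T (-1)) * h⁻¹ * (T 1 * h' * T (-1))⁻¹
      rw [e2, hcomm, mul_inv_cancel_right]
      simp only [hT]
      rw [hconjx, hconjx, transvection_inv, transvection_inv, ← transvection_add, hconjx',
        ← transvection_add, ← transvection_add, hc₀]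
      congr 1; ring
    rw [e]
    have hg := G'.mul_mem (G'.mul_mem hxwG hhG) (G'.inv_mem hxwG)
    exact G'.mul_mem (G'.mul_mem (G'.mul_mem hhG hg) (G'.inv_mem hhG)) (G'.inv_mem hg)
  let A : AddSubgroup K :=
    { carrier := {c | SpecialLinearGroup.transvection h01 c ∈ G'}
      add_mem' := by
        intro a b ha hb
        show SpecialLinearGroup.transvection h01 (a + b) ∈ G'
        rw [transvection_add]; exact G'.mul_mem ha hb
      zero_mem' := by
        show SpecialLinearGroup.transvection h01 0 ∈ G'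
        rw [transvection_coeff_zero]; exact G'.one_mem
      neg_mem' := by
        intro a ha
        show SpecialLinearGroup.transvection h01 (-a) ∈ G'
        rw [← transvection_inv]; exact G'.inv_mem ha }
  have hAmul : ∀ c ∈ A, (k : K) ^ 2 * c ∈ A := by
    intro c hc
    show SpecialLinearGroup.transvection h01 _ ∈ G'
    rw [← hconjx]; exact G'.mul_mem (G'.mul_mem hhG hc) (G'.inv_mem hhG)
  have hApow : ∀ m : ℕ, ((k ^ 2) ^ m : Kˣ) * c₀ ∈ A := by
    intro m
    induction m with
    | zero => show SpecialLinearGroup.transvection h01 _ ∈ G'; simpa using hT0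
    | succ m ih =>
      have := hAmul _ ih
      have e : (((k ^ 2) ^ (m + 1) : Kˣ) : K) * c₀ = (k : K) ^ 2 * (((k ^ 2) ^ m : Kˣ) * c₀) := by
        push_cast; ring
      rw [e]; exact this
  have hcardA : orderOf (k ^ 2) + 1 ≤ Nat.card A := by
    let f : Option (Subgroup.zpowers (k ^ 2)) → A := fun o => match o with
      | none => 0
      | some u => ⟨(u : Kˣ) * c₀, by
          obtain ⟨m, hm⟩ := (mem_powers_iff_mem_zpowers (x := k ^ 2)).2 u.2
          have hm' : (k ^ 2) ^ m = (u : Kˣ) := hm
          rw [← hm']; exact hApow m⟩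
    have hf : Function.Injective f := by
      intro a b hab
      rcases a with _ | a <;> rcases b with _ | b
      · rfl
      · exfalso
        have := congrArg Subtype.val hab
        simp only [f] at this
        have h2 : ((b : Kˣ) : K) * c₀ = 0 := by rw [← this]; rfl
        exact (mul_ne_zero (b : Kˣ).ne_zero hc₀0) h2
      · exfalso
        have := congrArg Subtype.val hab
        simp only [f] at this
        have h2 : ((a : Kˣ) : K) * c₀ = 0 := by rw [this]; rfl
        exact (mul_ne_zero (a : Kˣ).ne_zero hc₀0) h2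
      · have := congrArg Subtype.val hab
        simp only [f] at this
        have h2 := mul_right_cancel₀ hc₀0 this
        have h3 : (a : Kˣ) = (b : Kˣ) := Units.ext h2
        rw [Subtype.ext h3]
    have := Nat.card_le_card_of_injective f hf
    rwa [Finite.card_option, Nat.card_zpowers] at this
  have hord2 : Fintype.card K - 1 ≤ 2 * orderOf (k ^ 2) := by
    rw [orderOf_pow, hordk]
    have hg : Nat.gcd (Fintype.card K - 1) 2 ≤ 2 := Nat.gcd_le_right _ (by norm_num)
    have hd : Nat.gcd (Fintype.card K - 1) 2 ∣ Fintype.card K - 1 := Nat.gcd_dvd_left _ _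
    calc Fintype.card K - 1 = Nat.gcd (Fintype.card K - 1) 2 * ((Fintype.card K - 1) / Nat.gcd (Fintype.card K - 1) 2) :=
          (Nat.mul_div_cancel' hd).symm
      _ ≤ _ := Nat.mul_le_mul_right _ hg
  have hAtop : A = ⊤ := by
    rw [← AddSubgroup.index_eq_one]
    have h1 := AddSubgroup.card_mul_index A
    rw [Nat.card_eq_fintype_card (α := K)] at h1
    have h2 : A.index ≠ 0 := AddSubgroup.index_ne_zero_of_finite
    by_contra h3
    have h4 : 2 ≤ A.index := by omega
    have h5 : Nat.card A * 2 ≤ Fintype.card K := by rw [← h1]; exact Nat.mul_le_mul_left _ h4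
    omega
  have hTall : ∀ c : K, SpecialLinearGroup.transvection h01 c ∈ G' := fun c => by
    have : c ∈ A := by rw [hAtop]; exact AddSubgroup.mem_top c
    exact this
  have hxG : x ∈ G' := by rw [hx']; exact hTall 1
  have hwG : w ∈ G' := by
    have : w = x⁻¹ * (x * w) := by group
    rw [this]; exact G'.mul_mem (G'.inv_mem hxG) hxwG
  have h01' : ∀ c ∈ (Set.univ : Set K), ∀ (i j : Fin (n + 1)) (hij : i ≠ j), i.val = 0 → j.val = 1 →
      SpecialLinearGroup.transvection hij c ∈ G' := by
    intro c _ i j hij hi hj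
    have hi' : i = 0 := Fin.ext hi
    have hj' : j = 1 := Fin.ext (by rw [hj, hv1])
    subst hi'; subst hj'
    exact hTall c
  obtain ⟨h1, h2⟩ := cyc_transvections_mem hn G' w hw hwG Set.univ (fun _ _ => Set.mem_univ _) h01'
  have : G' = ⊤ := eq_top_of_cyclic_transvections G' (fun i j hij c h => h1 c (Set.mem_univ _) i j hij h)
    (fun i j hij c h h' => h2 c (Set.mem_univ _) i j hij h h')
  rw [this, top_sup_eq]

end Cfsg.Agent.S2402
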