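import Cfsg.Statements.S2403
import Cfsg.Agent.H16.SLCycle

set_option autoImplicit false
open Cfsg

namespace Cfsg.Agent.S2403

open Matrix Matrix.SpecialLinearGroup Cfsg.Agent.H16

/-- Explicit two-element generation of `PSL_{n+1}(K)` over the fields with two or three elements: with `x = 1 + E₁₂` and `w` the monomial matrix with entries `1` in positions `(i, i+1)` and `(−1)^n` in position `(n+1, 1)`, the elements `x` and `w` generate `SL_{n+1}(K)` modulo its centre. -/
theorem result {K : Type*} [Field K] [Fintype K] (hK : Fintype.card K ≤ 3) (n : ℕ) (hn : 1 ≤ n)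
    (x w : Matrix.SpecialLinearGroup (Fin (n + 1)) K)
    (hx : (x : Matrix (Fin (n + 1)) (Fin (n + 1)) K) = Matrix.transvection (0 : Fin (n + 1)) (1 : Fin (n + 1)) 1)
    (hw : (w : Matrix (Fin (n + 1)) (Fin (n + 1)) K) =
      Matrix.of (fun i j => if j.val = i.val + 1 then 1 else if i.val = n ∧ j.val = 0 then (-1) ^ n else 0)) :
    Subgroup.closure ({x, w} : Set (Matrix.SpecialLinearGroup (Fin (n + 1)) K)) ⊔
      Subgroup.center (Matrix.SpecialLinearGroup (Fin (n + 1)) K) = ⊤ := by
  classical
  have hS : ∀ c : K, c = 0 ∨ c = 1 ∨ c = -1 := by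
    intro c
    by_cases h0 : c = 0
    · exact Or.inl h0
    by_cases h1 : c = 1
    · exact Or.inr (Or.inl h1)
    right; right
    by_contra h2
    by_cases h3 : (1 : K) = -1
    · -- char 2: then card K ≤ 3 with a third element... K has 0,1,c, and c+1
      have hinj : ({0, 1, c, c + 1} : Finset K).card = 4 := by
        have h4 : (2 : K) = 0 := by
          have : (1 : K) + 1 = 0 := by nth_rewrite 2 [h3]; ring
          rw [← this]; norm_num
        rw [Finset.card_insert_of_notMem, Finset.card_insert_of_notMem, Finset.card_insert_of_notMem,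
          Finset.card_singleton]
        · simp
        · simp only [Finset.mem_insert, Finset.mem_singleton, not_or]
          refine ⟨fun h => h1 h.symm, fun h => h0 ?_⟩
          have : c + 1 = 0 + 1 := by rw [← h]; ring
          exact add_right_cancel this
        · simp only [Finset.mem_insert, Finset.mem_singleton, not_or]
          refine ⟨fun h => zero_ne_one h, fun h => h0 h.symm, fun h => h2 ?_⟩
          exact (eq_neg_of_add_eq_zero_left h.symm)
      have := Finset.card_le_univ ({0, 1, c, c + 1} : Finset K)
      omega
    · have hinj : ({0, 1, -1, c} : Finset K).card = 4 := by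
        rw [Finset.card_insert_of_notMem, Finset.card_insert_of_notMem, Finset.card_insert_of_notMem,
          Finset.card_singleton]
        · simp; exact fun h => h2 h.symm
        · simp only [Finset.mem_insert, Finset.mem_singleton, not_or]
          exact ⟨h3, fun h => h1 h.symm⟩
        · simp only [Finset.mem_insert, Finset.mem_singleton, not_or]
          exact ⟨zero_ne_one, by simp, fun h => h0 h.symm⟩
      have := Finset.card_le_univ ({0, 1, -1, c} : Finset K)
      omega
  set H := Subgroup.closure ({x, w} : Set (Matrix.SpecialLinearGroup (Fin (n + 1)) K)) with hH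
  have hxH : x ∈ H := Subgroup.subset_closure (by simp)
  have hwH : w ∈ H := Subgroup.subset_closure (by simp)
  have h01 : ∀ c ∈ (Set.univ : Set K), ∀ (i j : Fin (n + 1)) (hij : i ≠ j), i.val = 0 → j.val = 1 →
      SpecialLinearGroup.transvection hij c ∈ H := by
    intro c _ i j hij hi hj
    have hi' : i = 0 := Fin.ext hi
    have hj' : j = 1 := Fin.ext (by rw [hj]; exact (Nat.mod_eq_of_lt (by omega)).symm)
    subst hi'; subst hj'
    have hx' : x = SpecialLinearGroup.transvection hij 1 := sl_ext (by rw [hx]; rfl)
    rcases hS c with rfl | rfl | rfl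
    · rw [transvection_coeff_zero]; exact H.one_mem
    · rw [← hx']; exact hxH
    · rw [← transvection_inv, ← hx']; exact H.inv_mem hxH
  obtain ⟨h1, h2⟩ := cyc_transvections_mem hn H w hw hwH Set.univ (fun _ _ => Set.mem_univ _) h01
  have : H = ⊤ := eq_top_of_cyclic_transvections H (fun i j hij c h => h1 c (Set.mem_univ _) i j hij h)
    (fun i j hij c h h' => h2 c (Set.mem_univ _) i j hij h h')
  rw [this, top_sup_eq]

end Cfsg.Agent.S2403
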