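import Cfsg.Statements.S2413
import Cfsg.Agent.H16.OrTwoE

set_option autoImplicit false
open Cfsg

namespace Cfsg.Agent.S2413

/-- The simple orthogonal group `PΩ_{2m+1}(q)` (commutator subgroup of the orthogonal group of `x₀² + Σ x_i y_i` modulo its centre) with `m ≥ 2` and `q` odd is generated by two of its elements. -/
theorem result {F : Type*} [Field F] [Fintype F] (hodd : Odd (Fintype.card F)) (m : ℕ) (hm : 2 ≤ m) :
    ∃ a b : Cfsg.POmega F (Cfsg.quadFormOdd m F), Subgroup.closure ({a, b} : Set (Cfsg.POmega F (Cfsg.quadFormOdd m F))) = ⊤ := by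
  classical
  by_cases h3 : 3 ≤ m
  · exact Cfsg.Agent.H16.OrTwoA.odd_two hodd m h3
  · have hm2 : m = 2 := by omega
    subst hm2
    obtain ⟨x, hx0, hx1⟩ : ∃ x : F, x ≠ 0 ∧ x ≠ 1 := by
      by_contra hn
      push Not at hn
      have h1 : (Finset.univ : Finset F) ⊆ {0, 1} := by
        intro x _
        rw [Finset.mem_insert, Finset.mem_singleton]
        by_cases h : x = 0
        · exact Or.inl h
        · exact Or.inr (hn x h)
      have h2 := Finset.card_le_card h1
      rw [Finset.card_univ] at h2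
      have h3 : ({0, 1} : Finset F).card ≤ 2 := Finset.card_le_two
      have h4 : 1 < Fintype.card F := Fintype.one_lt_card
      obtain ⟨k, hk⟩ := hodd
      omega
    have hB := Cfsg.Agent.S2405.result (F := F) Cfsg.Lie.chevB2 (by simp) (fun _ => ⟨x, hx0, hx1⟩)
    obtain ⟨e1⟩ := Cfsg.Agent.S1083.result (F := F) ⟨x, hx0, hx1⟩
    exact Cfsg.Agent.H16.SpTwoJ.two_of_surj e1.toMonoidHom e1.surjective hB

end Cfsg.Agent.S2413
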