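import Cfsg.Statements.S2427
import Cfsg.Agent.H16.McKay2
import Cfsg.Agent.H16.McKay3
import Cfsg.Agent.H16.SLGen

set_option autoImplicit false
open Cfsg

namespace Cfsg.Agent.S2427

open Matrix H16
open scoped Pointwise

local notation "G3" => Matrix.SpecialLinearGroup (Fin 2) (ZMod 3)

def Zm : Matrix.SpecialLinearGroup (Fin 2) (ZMod 3) := ⟨!![0, 1; 2, 0], by decide⟩
def Ym : Matrix.SpecialLinearGroup (Fin 2) (ZMod 3) := ⟨!![1, 1; 1, 2], by decide⟩

def fq : QuaternionGroup 2 → Matrix.SpecialLinearGroup (Fin 2) (ZMod 3)
  | .a i => Zm ^ i.val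
  | .xa i => Ym * Zm ^ i.val

lemma fq_mul : ∀ g h : QuaternionGroup 2, fq (g * h) = fq g * fq h := by decide +kernel
lemma fq_inj : ∀ g h : QuaternionGroup 2, fq g = fq h → g = h := by decide +kernel

def fhom : QuaternionGroup 2 →* Matrix.SpecialLinearGroup (Fin 2) (ZMod 3) := MonoidHom.mk' fq fq_mul

lemma card_G3 : Nat.card G3 = 24 := by
  rw [card_sl2, ZMod.card]; norm_num

lemma fac24 : (24 : ℕ).factorization 3 = 1 := by
  have : (24 : ℕ) = 3 ^ 1 * 8 := by norm_num
  rw [this, Nat.factorization_mul (by norm_num) (by norm_num), Finsupp.add_apply, Nat.Prime.factorization_pow Nat.prime_three,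
    Nat.factorization_eq_zero_of_not_dvd (show ¬ 3 ∣ 8 by norm_num)]
  simp

lemma quat_card : Nat.card (QuaternionGroup 2) = 8 := by
  rw [Nat.card_eq_fintype_card, QuaternionGroup.card]

/-- the package -/
lemma pkg : ∃ (S : Sylow 2 G3) (z y w : G3), S2D S z y ∧ w * z * w⁻¹ = y ∧ w * y * w⁻¹ = z * y ∧ (S : Subgroup G3).Normal ∧ Nat.card (S : Subgroup G3) = 8 ∧
    commutator G3 = (S : Subgroup G3) ∧
    (∀ x ∈ (S : Subgroup G3), x = 1 ∨ x = -1 ∨ x = z ∨ x = -z ∨ x = y ∨ x = -y ∨ x = z * y ∨ x = -(z * y)) := by
  classical
  have hodd : Odd (Fintype.card (ZMod 3)) := by rw [ZMod.card]; decide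
  obtain ⟨S⟩ : Nonempty (Sylow 2 G3) := inferInstance
  obtain ⟨z, y, h⟩ := exists_S2D hodd S
  have h8 : ¬ 8 ∣ Nat.card (Subgroup.centralizer ({z} : Set G3)) := by
    rw [h.mod8, ZMod.card]; decide
  have hc8 := h.card_eight h8
  have hN : Subgroup.normalizer ((S : Subgroup G3) : Set G3) = ⊤ := by
    apply Subgroup.eq_top_of_card_eq
    rw [h.norm_card h8, card_G3]
    change 3 * Nat.card (S : Subgroup G3) = 24
    rw [hc8]
  have hnor : (S : Subgroup G3).Normal := Subgroup.normalizer_eq_top_iff.1 hN
  obtain ⟨w, hw1, hw2⟩ := h.exists_w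
  have hidx := h.comm_index h8
  rw [hN] at hidx
  have e1 : (commutator G3).index = 3 := by
    have e2 : (commutator G3).index = (commutator (⊤ : Subgroup G3)).index :=
      (Nat.card_congr (MulEquiv.abelianizationCongr (Subgroup.topEquiv (G := G3))).toEquiv).symm
    rw [e2]; exact hidx
  have hcc : Nat.card (commutator G3) = 8 := by
    have := Subgroup.index_mul_card (commutator G3)
    rw [e1, card_G3] at this
    omega
  have hle : commutator G3 ≤ (S : Subgroup G3) := by
    have hp : IsPGroup 2 (commutator G3) := by
      apply IsPGroup.of_card (n := 3)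
      rw [hcc]; norm_num
    have hsup : IsPGroup 2 ((S : Subgroup G3) ⊔ commutator G3 : Subgroup G3) := by
      apply IsPGroup.to_sup_of_normal_right S.isPGroup' hp
    have := S.is_maximal' hsup le_sup_left
    rw [← this]
    exact le_sup_right
  refine ⟨S, z, y, w, h, hw1, hw2, hnor, hc8, ?_, fun x hx => h.mem_cases h8 hx⟩
  apply Subgroup.eq_of_le_of_card_ge hle
  rw [hc8, hcc]

/-- order-3 elements generate -/
lemma top_of_three (N : Subgroup G3) (h : ∀ g : G3, g ^ 3 = 1 → g ∈ N) : N = ⊤ := by
  apply eq_top_of_transvection_mem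
  intro i j hij c
  apply h
  revert i j c
  decide +kernel

/-- The group SL₂ over the field with 3 elements has order 24 and centre of order 2; its commutator subgroup has order 8, is isomorphic to the quaternion group of order 8 and is complemented by every Sylow 3-subgroup (so the group is a semidirect product of a quaternion group of order 8 by a cyclic group of order 3); and its only normal subgroups besides the trivial subgroup and the whole group are the centre and the commutator subgroup. -/
theorem result :
    Nat.card (Matrix.SpecialLinearGroup (Fin 2) (ZMod 3)) = 24 ∧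
    Nat.card (Subgroup.center (Matrix.SpecialLinearGroup (Fin 2) (ZMod 3))) = 2 ∧
    Nat.card (commutator (Matrix.SpecialLinearGroup (Fin 2) (ZMod 3))) = 8 ∧
    Nonempty (commutator (Matrix.SpecialLinearGroup (Fin 2) (ZMod 3)) ≃* QuaternionGroup 2) ∧
    (∀ P : Sylow 3 (Matrix.SpecialLinearGroup (Fin 2) (ZMod 3)),
      Subgroup.IsComplement' (commutator (Matrix.SpecialLinearGroup (Fin 2) (ZMod 3)))
        (P : Subgroup (Matrix.SpecialLinearGroup (Fin 2) (ZMod 3)))) ∧
    ∀ N : Subgroup (Matrix.SpecialLinearGroup (Fin 2) (ZMod 3)), N.Normal →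
      N = ⊥ ∨ N = ⊤ ∨ N = Subgroup.center (Matrix.SpecialLinearGroup (Fin 2) (ZMod 3)) ∨
        N = commutator (Matrix.SpecialLinearGroup (Fin 2) (ZMod 3)) := by
  classical
  obtain ⟨S, z, y, w, h, hw1, hw2, hnor, hc8, hcomm, hcases⟩ := pkg
  have h2 : (2 : ZMod 3) ≠ 0 := by decide
  have hcenter : ∀ x : G3, x ∈ Subgroup.center G3 ↔ x = 1 ∨ x = -1 := by
    intro x
    rw [H16.center_iff_scal, H16.isScal_sl_iff]
    constructor
    · rintro (h | h)
      · left; exact H16.sl_ext (by rw [h]; simp)
      · right; exact H16.sl_ext (by rw [h]; simp)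
    · rintro (h | h)
      · left; rw [h]; simp
      · right; rw [h]; simp
  have hm1 := H16.neg_one_ne_one (F := ZMod 3) h2
  refine ⟨card_G3, ?_, ?_, ?_, ?_, ?_⟩
  · have e : (Subgroup.center G3) ≃ ({1, -1} : Finset G3) :=
      { toFun := fun x => ⟨x.1, by
          rw [Finset.mem_insert, Finset.mem_singleton]; exact (hcenter x.1).1 x.2⟩
        invFun := fun x => ⟨x.1, by
          have := x.2
          rw [Finset.mem_insert, Finset.mem_singleton] at this
          exact (hcenter x.1).2 this⟩
        left_inv := fun _ => rfl
        right_inv := fun _ => rfl }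
    rw [Nat.card_congr e, Nat.card_eq_fintype_card, Fintype.card_coe, Finset.card_pair hm1.symm]
  · rw [hcomm, hc8]
  · have hle : fhom.range ≤ (S : Subgroup G3) := by
      have hp : IsPGroup 2 fhom.range := by
        apply IsPGroup.of_card (n := 3)
        rw [← Nat.card_congr (MonoidHom.ofInjective (f := fhom) (fun a b hab => fq_inj a b hab)).toEquiv, quat_card]
        norm_num
      have hsup : IsPGroup 2 (fhom.range ⊔ (S : Subgroup G3) : Subgroup G3) := by
        apply IsPGroup.to_sup_of_normal_right hp S.isPGroup'
      have := S.is_maximal' hsup le_sup_right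
      rw [← this]
      exact le_sup_left
    have heq : fhom.range = (S : Subgroup G3) := by
      apply Subgroup.eq_of_le_of_card_ge hle
      rw [hc8, ← Nat.card_congr (MonoidHom.ofInjective (f := fhom) (fun a b hab => fq_inj a b hab)).toEquiv, quat_card]
    rw [hcomm, ← heq]
    exact ⟨(MonoidHom.ofInjective (f := fhom) (fun a b hab => fq_inj a b hab)).symm⟩
  · intro P
    haveI : Fact (Nat.Prime 3) := ⟨Nat.prime_three⟩
    have hP : Nat.card (P : Subgroup G3) = 3 := by
      have := P.card_eq_multiplicity
      have h3 : (Nat.card G3).factorization 3 = 1 := by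
        rw [card_G3]
        exact fac24
      rw [h3, pow_one] at this
      exact this
    apply Subgroup.isComplement'_of_coprime
    · rw [hcomm, hc8, hP, card_G3]
    · rw [hcomm, hc8, hP]; norm_num
  · intro N hNn
    by_cases h3 : 3 ∣ Nat.card N
    · right; left
      apply top_of_three
      -- all Sylow 3-subgroups are contained in N
      haveI : Fact (Nat.Prime 3) := ⟨Nat.prime_three⟩
      intro g hg
      by_cases hg1 : g = 1
      · rw [hg1]; exact one_mem _
      obtain ⟨u, hu⟩ := exists_prime_orderOf_dvd_card' (G := N) 3 h3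
      have hp1 : IsPGroup 3 (Subgroup.zpowers g) := by
        apply IsPGroup.of_card (n := 1)
        rw [Nat.card_zpowers, pow_one]
        exact orderOf_eq_prime hg hg1
      have hp2 : IsPGroup 3 (Subgroup.zpowers (u : G3)) := by
        apply IsPGroup.of_card (n := 1)
        rw [Nat.card_zpowers, pow_one, Subgroup.orderOf_coe]
        exact hu
      obtain ⟨P1, hP1⟩ := hp1.exists_le_sylow
      obtain ⟨P2, hP2⟩ := hp2.exists_le_sylow
      have hcard3 : ∀ P : Sylow 3 G3, Nat.card (P : Subgroup G3) = 3 := by
        intro P
        have := P.card_eq_multiplicity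
        have h3 : (Nat.card G3).factorization 3 = 1 := by
          rw [card_G3]
          exact fac24
        rw [h3, pow_one] at this
        exact this
      have hP2N : (P2 : Subgroup G3) ≤ N := by
        have e : Subgroup.zpowers (u : G3) = (P2 : Subgroup G3) := by
          apply Subgroup.eq_of_le_of_card_ge hP2
          rw [hcard3, Nat.card_zpowers, Subgroup.orderOf_coe, hu]
        rw [← e, Subgroup.zpowers_le]
        exact u.2
      obtain ⟨x, hx⟩ := MulAction.exists_smul_eq G3 P2 P1
      have hgP : g ∈ (P1 : Subgroup G3) := hP1 (Subgroup.mem_zpowers g)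
      have hP1' : (P1 : Subgroup G3) = MulAut.conj x • (P2 : Subgroup G3) := by rw [← hx]; rfl
      rw [hP1', Subgroup.mem_pointwise_smul_iff_inv_smul_mem, ← map_inv, MulAut.smul_def, MulAut.conj_apply, inv_inv] at hgP
      have := hNn.conj_mem _ (hP2N hgP) x
      have e : x * (x⁻¹ * g * x) * x⁻¹ = g := by group
      rwa [e] at this
    · -- N is a 2-group
      have hdvd : Nat.card N ∣ 24 := by rw [← card_G3]; exact Subgroup.card_subgroup_dvd_card N
      have hd8 : Nat.card N ∣ 8 := by
        have : Nat.card N ∣ 3 * 8 := hdvd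
        exact (Nat.Coprime.dvd_of_dvd_mul_left ((Nat.Prime.coprime_iff_not_dvd Nat.prime_three).2 h3).symm this)
      have hp : IsPGroup 2 N := by
        apply IsPGroup.of_card_dvd_pow (n := 3)
        exact hd8
      have hsup : IsPGroup 2 ((S : Subgroup G3) ⊔ N : Subgroup G3) := IsPGroup.to_sup_of_normal_right S.isPGroup' hp
      have hNS : N ≤ (S : Subgroup G3) := by
        have := S.is_maximal' hsup le_sup_left
        rw [← this]; exact le_sup_right
      have hyz := h.yz
      have hzy : w * (z * y) * w⁻¹ = z := by
        calc w * (z * y) * w⁻¹ = (w * z * w⁻¹) * (w * y * w⁻¹) := by group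
          _ = y * (z * y) := by rw [hw1, hw2]
          _ = y * z * y := by group
          _ = z := by rw [h.yz, neg_mul, mul_assoc, h.sq h.yS h.yT]; simp
      have full : z ∈ N → N = (S : Subgroup G3) := by
        intro hz
        apply le_antisymm hNS
        have hy : y ∈ N := by rw [← hw1]; exact hNn.conj_mem z hz w
        have hm : (-1 : G3) ∈ N := by rw [← h.hz]; exact mul_mem hz hz
        have hneg : ∀ g ∈ N, -g ∈ N := by
          intro g hg
          have := mul_mem hm hg
          simpa using this
        intro x hx
        rcases hcases x hx with h1 | h1 | h1 | h1 | h1 | h1 | h1 | h1 <;> rw [h1]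
        · exact one_mem _
        · exact hm
        · exact hz
        · exact hneg _ hz
        · exact hy
        · exact hneg _ hy
        · exact mul_mem hz hy
        · exact hneg _ (mul_mem hz hy)
      have hnegm : ∀ g : G3, g * g = -1 → g ∈ N → -g ∈ N := by
        intro g hg hgN
        have := inv_mem hgN
        rwa [H16.inv_eq_neg_of_sq hg] at this
      have hyy := h.sq h.yS h.yT
      have hzyzy : (z * y) * (z * y) = -1 := by
        calc z * y * (z * y) = z * (y * z) * y := by group
          _ = -1 := by rw [h.yz, mul_neg, neg_mul, ← mul_assoc, h.hz, mul_assoc, hyy]; simp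
      -- conjugating back
      have hzof : (z ∈ N ∨ y ∈ N ∨ z * y ∈ N) → z ∈ N := by
        rintro (h1 | h1 | h1)
        · exact h1
        · have h3 := hNn.conj_mem y h1 w
          rw [hw2] at h3
          have h4 := hNn.conj_mem _ h3 w
          rwa [hzy] at h4
        · have h4 := hNn.conj_mem _ h1 w
          rwa [hzy] at h4
      by_cases hzN : z ∈ N
      · right; right; right
        rw [hcomm]; exact full hzN
      · have hN1 : ∀ x ∈ N, x = 1 ∨ x = -1 := by
          intro x hx
          rcases hcases x (hNS hx) with h1 | h1 | h1 | h1 | h1 | h1 | h1 | h1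
          · exact Or.inl h1
          · exact Or.inr h1
          · exact absurd (h1 ▸ hx) hzN
          · exfalso; apply hzN
            have := hnegm x (by rw [h1, neg_mul_neg, h.hz]) hx
            rwa [h1, neg_neg] at this
          · exact absurd (hzof (Or.inr (Or.inl (h1 ▸ hx)))) hzN
          · exfalso; apply hzN
            have := hnegm x (by rw [h1, neg_mul_neg, hyy]) hx
            rw [h1, neg_neg] at this
            exact hzof (Or.inr (Or.inl this))
          · exact absurd (hzof (Or.inr (Or.inr (h1 ▸ hx)))) hzN
          · exfalso; apply hzN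
            have := hnegm x (by rw [h1, neg_mul_neg, hzyzy]) hx
            rw [h1, neg_neg] at this
            exact hzof (Or.inr (Or.inr this))
        by_cases hm : (-1 : G3) ∈ N
        · right; right; left
          ext x
          rw [hcenter]
          constructor
          · exact hN1 x
          · rintro (h1 | h1)
            · rw [h1]; exact one_mem _
            · rw [h1]; exact hm
        · left
          rw [Subgroup.eq_bot_iff_forall]
          intro x hx
          rcases hN1 x hx with h1 | h1
          · exact h1
          · exact absurd (h1 ▸ hx) hm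

end Cfsg.Agent.S2427
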