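import Cfsg.Statements.S2428
import Cfsg.Agent.H16.Torus2

set_option autoImplicit false
open Cfsg

namespace Cfsg.Agent.S2428

/-- Let F be a finite field with q elements, q odd, and let d be a diagonal element of SL₂ over F whose diagonal entry a has a² ≠ 1 (such d exist exactly when q > 3). Then the centraliser of d is precisely the diagonal subgroup T; the normaliser of T has order 2(q − 1) and exactly (q + 5)/2 conjugacy classes; and every element of that normaliser outside T has square equal to −1. -/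
theorem result {F : Type*} [Field F] [Fintype F] (hodd : Odd (Fintype.card F))
    (d : Matrix.SpecialLinearGroup (Fin 2) F) (hd01 : (d : Matrix (Fin 2) (Fin 2) F) 0 1 = 0) (hd10 : (d : Matrix (Fin 2) (Fin 2) F) 1 0 = 0) (hda : (d : Matrix (Fin 2) (Fin 2) F) 0 0 ^ 2 ≠ 1) :
    (∀ g : Matrix.SpecialLinearGroup (Fin 2) F, g ∈ Subgroup.centralizer ({d} : Set (Matrix.SpecialLinearGroup (Fin 2) F)) ↔ ((g : Matrix (Fin 2) (Fin 2) F) 0 1 = 0 ∧ (g : Matrix (Fin 2) (Fin 2) F) 1 0 = 0)) ∧
    Nat.card (Subgroup.normalizer ((Subgroup.centralizer ({d} : Set (Matrix.SpecialLinearGroup (Fin 2) F))) : Set (Matrix.SpecialLinearGroup (Fin 2) F))) = 2 * (Fintype.card F - 1) ∧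
    Nat.card (ConjClasses (Subgroup.normalizer ((Subgroup.centralizer ({d} : Set (Matrix.SpecialLinearGroup (Fin 2) F))) : Set (Matrix.SpecialLinearGroup (Fin 2) F)))) = (Fintype.card F + 5) / 2 ∧
    ∀ g : Matrix.SpecialLinearGroup (Fin 2) F, g ∈ Subgroup.normalizer ((Subgroup.centralizer ({d} : Set (Matrix.SpecialLinearGroup (Fin 2) F))) : Set (Matrix.SpecialLinearGroup (Fin 2) F)) →
      g ∉ Subgroup.centralizer ({d} : Set (Matrix.SpecialLinearGroup (Fin 2) F)) → ((g * g) : Matrix (Fin 2) (Fin 2) F) = -1 := by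
  have h2 : (2 : F) ≠ 0 := by
    apply Ring.two_ne_zero
    intro h
    have := FiniteField.even_card_of_char_two h
    rw [← Nat.not_even_iff_odd] at hodd
    exact hodd (Nat.even_iff.2 this)
  have hdet := H16.sl_det d
  rw [Matrix.det_fin_two, hd01, zero_mul, sub_zero] at hdet
  have h0 : (d : Matrix (Fin 2) (Fin 2) F) 0 0 ≠ 0 := left_ne_zero_of_mul (by rw [hdet]; exact one_ne_zero)
  have h11 := eq_inv_of_mul_eq_one_right hdet
  have htr : (d : Matrix (Fin 2) (Fin 2) F).trace = (d : Matrix (Fin 2) (Fin 2) F) 0 0 + ((d : Matrix (Fin 2) (Fin 2) F) 0 0)⁻¹ := by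
    rw [Matrix.trace_fin_two, h11]
  have hsq : (d : Matrix (Fin 2) (Fin 2) F) 0 0 * (d : Matrix (Fin 2) (Fin 2) F) 0 0 ≠ 1 := by rw [← pow_two]; exact hda
  have ht : (d : Matrix (Fin 2) (Fin 2) F).trace ^ 2 ≠ 4 := by
    rw [htr]; exact H16.sq_ne_four_of_split h0 hsq
  have hns : ¬ H16.IsScal (d : Matrix (Fin 2) (Fin 2) F) := by
    rintro ⟨_, _, h⟩
    apply hsq
    nth_rewrite 2 [h]
    exact hdet
  have hc := H16.card_cent_sl2_split d h0 hsq htr
  have hq : 1 < Fintype.card F := Fintype.one_lt_card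
  refine ⟨fun g => H16.mem_cent_diag_iff hd01 hd10 hda, ?_, ?_, ?_⟩
  · rw [H16.card_norm_tor hns h2 ht, hc]
  · have := H16.card_conj_norm_tor hns h2 ht
    rw [hc] at this
    omega
  · intro g hg hgn
    exact H16.sq_neg_one hns h2 ht hg hgn

end Cfsg.Agent.S2428
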