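import Cfsg.Statements.S2429
import Cfsg.Agent.H16.Torus2

set_option autoImplicit false
open Cfsg

namespace Cfsg.Agent.S2429

/-- Let F be a finite field with q elements, q odd. Then SL₂ over F contains a cyclic subgroup T′ of order q + 1 (a non-split torus) with the following properties: T′ is its own centraliser, and indeed the centraliser of each element of T′ other than 1 and −1 is exactly T′; every element of SL₂ having no eigenvector in F² is conjugate to an element of T′; the normaliser of T′ has order 2(q + 1) and exactly (q + 7)/2 conjugacy classes; and every element of that normaliser outside T′ has square −1. -/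
theorem result {F : Type*} [Field F] [Fintype F] (hodd : Odd (Fintype.card F)) :
    ∃ T' : Subgroup (Matrix.SpecialLinearGroup (Fin 2) F), IsCyclic T' ∧ Nat.card T' = Fintype.card F + 1 ∧
      Subgroup.centralizer ((T' : Set (Matrix.SpecialLinearGroup (Fin 2) F))) = T' ∧
      (∀ g : Matrix.SpecialLinearGroup (Fin 2) F, g ∈ T' → (g : Matrix (Fin 2) (Fin 2) F) ≠ 1 → (g : Matrix (Fin 2) (Fin 2) F) ≠ -1 → Subgroup.centralizer ({g} : Set (Matrix.SpecialLinearGroup (Fin 2) F)) = T') ∧
      (∀ g : Matrix.SpecialLinearGroup (Fin 2) F, (∀ (c : F) (v : Fin 2 → F), v ≠ 0 → (g : Matrix (Fin 2) (Fin 2) F).mulVec v ≠ c • v) → ∃ h : Matrix.SpecialLinearGroup (Fin 2) F, h * g * h⁻¹ ∈ T') ∧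
      Nat.card (Subgroup.normalizer (T' : Set (Matrix.SpecialLinearGroup (Fin 2) F))) = 2 * (Fintype.card F + 1) ∧
      Nat.card (ConjClasses (Subgroup.normalizer (T' : Set (Matrix.SpecialLinearGroup (Fin 2) F)))) = (Fintype.card F + 7) / 2 ∧
      ∀ g : Matrix.SpecialLinearGroup (Fin 2) F, g ∈ Subgroup.normalizer (T' : Set (Matrix.SpecialLinearGroup (Fin 2) F)) → g ∉ T' → ((g * g) : Matrix (Fin 2) (Fin 2) F) = -1 := by
  have h2 : (2 : F) ≠ 0 := by
    apply Ring.two_ne_zero
    intro h
    have := FiniteField.even_card_of_char_two h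
    rw [← Nat.not_even_iff_odd] at hodd
    exact hodd (Nat.even_iff.2 this)
  obtain ⟨t, ht⟩ := H16.exists_elliptic F
  set d : Matrix.SpecialLinearGroup (Fin 2) F := H16.cform t 1 one_ne_zero with hd
  have htr : (d : Matrix (Fin 2) (Fin 2) F).trace = t := H16.cform_trace _ _ _
  have hns : ¬ H16.IsScal (d : Matrix (Fin 2) (Fin 2) F) := H16.cform_not_isScal _ _ _
  have hell : ∀ c : F, c ^ 2 - c * (d : Matrix (Fin 2) (Fin 2) F).trace + 1 ≠ 0 := by rw [htr]; exact ht
  have ht4 : (d : Matrix (Fin 2) (Fin 2) F).trace ^ 2 ≠ 4 := H16.sq_ne_four_of_ell hell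
  have hc := H16.card_cent_sl2_ell d hell
  have hdd : d ∈ Subgroup.centralizer ({d} : Set (Matrix.SpecialLinearGroup (Fin 2) F)) := by rw [H16.mem_cent_iff]
  refine ⟨Subgroup.centralizer ({d} : Set (Matrix.SpecialLinearGroup (Fin 2) F)), H16.cent_cyclic_ell hell, hc, ?_, ?_, ?_, ?_, ?_, ?_⟩
  · apply le_antisymm
    · apply Subgroup.centralizer_le
      rw [Set.singleton_subset_iff]
      exact hdd
    · intro x hx
      rw [Subgroup.mem_centralizer_iff]
      intro y hy
      exact H16.cent_comm hns hy hx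
  · intro g hg h1 h3
    apply H16.cent_eq_of_mem hns hg
    rw [H16.isScal_sl_iff]
    rintro (h | h)
    · exact h1 h
    · exact h3 h
  · intro g hg
    apply H16.exists_conj_mem_tor h2 hell
    have := (H16.noEig_iff _).1 hg
    rw [H16.sl_det] at this
    exact this
  · rw [H16.card_norm_tor hns h2 ht4, hc]
  · have := H16.card_conj_norm_tor hns h2 ht4
    rw [hc] at this
    omega
  · intro g hg hgn
    exact H16.sq_neg_one hns h2 ht4 hg hgn

end Cfsg.Agent.S2429
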