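import Cfsg.Statements.S2430
import Cfsg.Agent.H16.TorusSyl

set_option autoImplicit false
open Cfsg

namespace Cfsg.Agent.S2430

/-- Let F be a finite field with q elements, q odd, ℓ an odd prime, and P a Sylow ℓ-subgroup of SL₂ over F. If ℓ divides q − 1, the centraliser of P is cyclic of order q − 1 (a split torus) and the normaliser of P has order 2(q − 1); if ℓ divides q + 1, the centraliser of P is cyclic of order q + 1 (a non-split torus) and the normaliser of P has order 2(q + 1). -/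
theorem result {F : Type*} [Field F] [Fintype F] (hodd : Odd (Fintype.card F)) (ℓ : ℕ) [Fact ℓ.Prime] (hℓ : ℓ ≠ 2)
    (P : Sylow ℓ (Matrix.SpecialLinearGroup (Fin 2) F)) :
    (ℓ ∣ Fintype.card F - 1 →
      Nat.card (Subgroup.centralizer ((P : Subgroup (Matrix.SpecialLinearGroup (Fin 2) F)) : Set (Matrix.SpecialLinearGroup (Fin 2) F))) = Fintype.card F - 1 ∧
      IsCyclic (Subgroup.centralizer ((P : Subgroup (Matrix.SpecialLinearGroup (Fin 2) F)) : Set (Matrix.SpecialLinearGroup (Fin 2) F))) ∧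
      Nat.card (Subgroup.normalizer ((P : Subgroup (Matrix.SpecialLinearGroup (Fin 2) F)) : Set (Matrix.SpecialLinearGroup (Fin 2) F))) = 2 * (Fintype.card F - 1)) ∧
    (ℓ ∣ Fintype.card F + 1 →
      Nat.card (Subgroup.centralizer ((P : Subgroup (Matrix.SpecialLinearGroup (Fin 2) F)) : Set (Matrix.SpecialLinearGroup (Fin 2) F))) = Fintype.card F + 1 ∧
      IsCyclic (Subgroup.centralizer ((P : Subgroup (Matrix.SpecialLinearGroup (Fin 2) F)) : Set (Matrix.SpecialLinearGroup (Fin 2) F))) ∧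
      Nat.card (Subgroup.normalizer ((P : Subgroup (Matrix.SpecialLinearGroup (Fin 2) F)) : Set (Matrix.SpecialLinearGroup (Fin 2) F))) = 2 * (Fintype.card F + 1)) := by
  have hnot : ¬ (ℓ ∣ Fintype.card F - 1 ∧ ℓ ∣ Fintype.card F + 1) := by
    rintro ⟨h1, h2⟩
    have hq : 1 < Fintype.card F := Fintype.one_lt_card
    have := Nat.dvd_sub h2 h1
    have e : Fintype.card F + 1 - (Fintype.card F - 1) = 2 := by omega
    rw [e] at this
    exact hℓ ((Nat.prime_dvd_prime_iff_eq (Fact.out : ℓ.Prime) Nat.prime_two).1 this)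
  have h2 := H16.two_ne hodd
  constructor
  · intro h
    obtain ⟨z, hzs, ht4, hzo, hC, hN, htype⟩ := H16.sylow_odd hodd ℓ hℓ P (Or.inl h)
    rcases htype with ⟨_, l, hl, hll, ht⟩ | ⟨h', _⟩
    · rw [hC, hN, H16.card_norm_tor hzs h2 ht4, H16.card_cent_sl2_split z hl hll ht]
      exact ⟨rfl, H16.split_cyclic hzs hl hll ht, rfl⟩
    · exact absurd ⟨h, h'⟩ hnot
  · intro h
    obtain ⟨z, hzs, ht4, hzo, hC, hN, htype⟩ := H16.sylow_odd hodd ℓ hℓ P (Or.inr h)
    rcases htype with ⟨h', _⟩ | ⟨_, ht⟩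
    · exact absurd ⟨h', h⟩ hnot
    · rw [hC, hN, H16.card_norm_tor hzs h2 ht4, H16.card_cent_sl2_ell z ht]
      exact ⟨rfl, H16.cent_cyclic_ell ht, rfl⟩

end Cfsg.Agent.S2430
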