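import Cfsg.Statements.S2434
import Cfsg.Agent.H16.DL3

set_option autoImplicit false
open Cfsg

namespace Cfsg.Agent.S2434

open H16

lemma ell_noEig {F : Type*} [Field F] [Fintype F] {g : Matrix.SpecialLinearGroup (Fin 2) F}
    (h : ∀ b : F, b ^ 2 - b * (g : Matrix (Fin 2) (Fin 2) F).trace + 1 ≠ 0) :
    ∀ (c : F) (v : Fin 2 → F), v ≠ 0 → (g : Matrix (Fin 2) (Fin 2) F).mulVec v ≠ c • v := by
  rw [noEig_iff]
  intro b
  rw [g.2]
  exact h b

/-- Let F be a finite field with q elements, q odd, and C a cyclic subgroup of order q + 1 of SL₂ over F (a non-split torus; it contains the centre). For every homomorphism θ from C to the non-zero complex numbers with θ² ≠ 1 there is an irreducible complex character χ of degree q − 1 such that χ(c) = −θ(c) − θ(c)⁻¹ for every non-central c in C, χ(zg) = θ(z)χ(g) for central z in C, χ vanishes at diagonal elements with entry a, a² ≠ 1, and χ takes the value −1 at every upper unitriangular element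 other than 1. Conversely every irreducible character of degree q − 1 has, for some such θ, the values −θ(c) − θ(c)⁻¹ at the non-central elements c of C (for q ≥ 5 these are exactly the cuspidal characters of degree q − 1). -/
theorem result {F : Type*} [Field F] [Fintype F] (hodd : Odd (Fintype.card F))
    (C : Subgroup (Matrix.SpecialLinearGroup (Fin 2) F)) (hC : IsCyclic C) (hcard : Nat.card C = Fintype.card F + 1) :
    (∀ θ : C →* ℂˣ, (∃ c : C, θ c ^ 2 ≠ 1) →
      ∃ χ : Matrix.SpecialLinearGroup (Fin 2) F → ℂ, Cfsg.IsIrrCharacter (Matrix.SpecialLinearGroup (Fin 2) F) χ ∧ χ 1 = (Fintype.card F : ℂ) - 1 ∧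
        (∀ c : C, (c : Matrix.SpecialLinearGroup (Fin 2) F) ∉ Subgroup.center (Matrix.SpecialLinearGroup (Fin 2) F) → χ c = -((θ c).val + (θ c)⁻¹.val)) ∧
        (∀ c : C, (c : Matrix.SpecialLinearGroup (Fin 2) F) ∈ Subgroup.center (Matrix.SpecialLinearGroup (Fin 2) F) → ∀ g : Matrix.SpecialLinearGroup (Fin 2) F, χ ((c : Matrix.SpecialLinearGroup (Fin 2) F) * g) = (θ c).val * χ g) ∧
        (∀ g : Matrix.SpecialLinearGroup (Fin 2) F, (g : Matrix (Fin 2) (Fin 2) F) 0 1 = 0 → (g : Matrix (Fin 2) (Fin 2) F) 1 0 = 0 → (g : Matrix (Fin 2) (Fin 2) F) 0 0 ^ 2 ≠ 1 → χ g = 0) ∧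
        (∀ g : Matrix.SpecialLinearGroup (Fin 2) F, (g : Matrix (Fin 2) (Fin 2) F) 1 0 = 0 → (g : Matrix (Fin 2) (Fin 2) F) 0 0 = 1 → (g : Matrix (Fin 2) (Fin 2) F) 1 1 = 1 → (g : Matrix (Fin 2) (Fin 2) F) 0 1 ≠ 0 → χ g = -1)) ∧
    (∀ χ : Matrix.SpecialLinearGroup (Fin 2) F → ℂ, Cfsg.IsIrrCharacter (Matrix.SpecialLinearGroup (Fin 2) F) χ → χ 1 = (Fintype.card F : ℂ) - 1 →
      ∃ θ : C →* ℂˣ, (∃ c : C, θ c ^ 2 ≠ 1) ∧
        ∀ c : C, (c : Matrix.SpecialLinearGroup (Fin 2) F) ∉ Subgroup.center (Matrix.SpecialLinearGroup (Fin 2) F) → χ c = -((θ c).val + (θ c)⁻¹.val)) := by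
  classical
  have hT : H16.NST C := ⟨hodd, hC, hcard⟩
  refine ⟨?_, ?_⟩
  · intro θ hθ
    obtain ⟨α, hα⟩ := hT.exists_alpha θ
    have hirr := hT.dl_irr θ α hα hθ
    refine ⟨H16.dl C θ α, hirr, hT.dl_one θ α, ?_, ?_, ?_, ?_⟩
    · intro c hc
      rw [H16.center_iff_scal] at hc
      exact hT.dl_ell θ α hc
    · intro c hc g
      have h1 := (H16.central_scalar hirr hc).1 g
      rw [h1]
      rw [H16.center_iff_scal] at hc
      rw [hT.dl_scal θ α hα hc, hT.dl_one]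
      have hq : ((Fintype.card F : ℂ) - 1) ≠ 0 := by
        have := H16.card_sub_one_ne (F := F)
        rw [Nat.cast_sub Fintype.card_pos] at this
        exact_mod_cast this
      field_simp
    · intro g h01 h10 h00
      have hd := g.2
      rw [Matrix.det_fin_two] at hd
      have hd' : (g : Matrix (Fin 2) (Fin 2) F) 0 0 * (g : Matrix (Fin 2) (Fin 2) F) 1 1 = 1 := by
        have h2 : (g : Matrix (Fin 2) (Fin 2) F) 0 0 * (g : Matrix (Fin 2) (Fin 2) F) 1 1 - (g : Matrix (Fin 2) (Fin 2) F) 0 1 * (g : Matrix (Fin 2) (Fin 2) F) 1 0 = 1 := hd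
        rw [h10, mul_zero, sub_zero] at h2
        exact h2
      have h0 : (g : Matrix (Fin 2) (Fin 2) F) 0 0 ≠ 0 := left_ne_zero_of_mul (by rw [hd']; exact one_ne_zero)
      apply hT.dl_split θ α (l := (g : Matrix (Fin 2) (Fin 2) F) 0 0) h0
      · rw [← pow_two]; exact h00
      · rw [Matrix.trace_fin_two, eq_inv_of_mul_eq_one_right hd']
      · rintro ⟨_, _, h⟩
        apply h00
        rw [← h] at hd'
        rw [pow_two]; exact hd'
    · intro g h10 h00 h11 h01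
      have : H16.dl C θ α g = - α 1 := hT.dl_par θ α (by rintro ⟨h, _, _⟩; exact h01 h) (mul_one 1) (by
        rw [Matrix.trace_fin_two, h00, h11])
      rw [this, map_one]
  · intro χ hχ hd
    obtain ⟨θ₀, hθ₀⟩ : ∃ θ : C →* ℂˣ, ∃ c : C, θ c ^ 2 ≠ 1 := by
      haveI : Finite (C →* ℂˣ) := by
        apply Nat.finite_of_card_ne_zero
        rw [H16.card_hom_cyclic C]; exact Nat.card_pos.ne'
      haveI := Fintype.ofFinite (C →* ℂˣ)
      have h1 := hT.card_theta
      have h3 := hT.q3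
      obtain ⟨θ, hθ⟩ := Finset.card_pos.1 (lt_of_lt_of_le (by omega) h1)
      exact ⟨θ, (Finset.mem_filter.1 hθ).2⟩
    have hone : 1 ≤ Fintype.card F := Fintype.card_pos
    have hd' : χ 1 = ((Fintype.card F - 1 : ℕ) : ℂ) := by rw [hd, Nat.cast_sub hone, Nat.cast_one]
    have hcase : ∀ ψ : Matrix.SpecialLinearGroup (Fin 2) F → ℂ, Cfsg.IsIrrCharacter (Matrix.SpecialLinearGroup (Fin 2) F) ψ → ψ 1 = ((Fintype.card F - 1 : ℕ) : ℂ) →
        (H16.TypD ψ ∧ Fintype.card F = 3) ∨ H16.TypE ψ := by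
      intro ψ hψ hψ1
      have h3 := hT.q3
      rcases H16.sl2_odd_deg hψ hψ1 with ⟨_, h⟩ | ⟨_, h⟩ | ⟨_, h⟩ | ⟨h', h⟩ | ⟨h', h⟩ | ⟨_, h⟩
      · omega
      · omega
      · omega
      · exact Or.inl ⟨h', by omega⟩
      · exact Or.inr h'
      · omega
    by_cases hq3 : Fintype.card F = 3
    · refine ⟨θ₀, hθ₀, ?_⟩
      intro c hc
      rw [H16.center_iff_scal] at hc
      obtain ⟨α, hα⟩ := hT.exists_alpha θ₀
      have hz : ∀ ψ : Matrix.SpecialLinearGroup (Fin 2) F → ℂ, Cfsg.IsIrrCharacter (Matrix.SpecialLinearGroup (Fin 2) F) ψ → ψ 1 = ((Fintype.card F - 1 : ℕ) : ℂ) → ψ c = 0 := by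
        intro ψ hψ hψ1
        rcases hcase ψ hψ hψ1 with ⟨h, _⟩ | h
        · exact H16.TypD_ell hψ h _ (ell_noEig (hT.ell c.2 hc).1)
        · exact H16.TypE_three hq3 hψ h _ (ell_noEig (hT.ell c.2 hc).1)
      rw [hz χ hχ hd', ← hz (H16.dl C θ₀ α) (hT.dl_irr θ₀ α hα hθ₀) (by rw [hT.dl_one, Nat.cast_sub hone, Nat.cast_one])]
      exact hT.dl_ell θ₀ α hc
    · rcases hcase χ hχ hd' with ⟨_, h⟩ | h
      · exact absurd h hq3
      · obtain ⟨θ, hθ, α, hα, he⟩ := hT.exists_theta hχ h.1 hd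
        refine ⟨θ, hθ, ?_⟩
        intro c hc
        rw [H16.center_iff_scal] at hc
        rw [he]
        exact hT.dl_ell θ α hc

end Cfsg.Agent.S2434
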