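import Cfsg.Statements.S2435
import Cfsg.Agent.H16.DL4

set_option autoImplicit false
open Cfsg

namespace Cfsg.Agent.S2435

open H16

/-- Let F be a finite field with q elements, q odd and q ≥ 5, and χ an irreducible complex character of SL₂ over F. If χ has degree (q + 1)/2, then at a diagonal element with entry a, a² ≠ 1, χ takes the value 1 when a is a square in F and −1 otherwise. If χ has degree (q − 1)/2, then at an element g with no eigenvector in F² (so g has order dividing q + 1), χ takes the value −1 when g raised to the power (q + 1)/2 is the identity and the value 1 otherwise. -/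
theorem result {F : Type*} [Field F] [Fintype F] (hodd : Odd (Fintype.card F)) (hq : 5 ≤ Fintype.card F)
    (χ : Matrix.SpecialLinearGroup (Fin 2) F → ℂ) (hχ : Cfsg.IsIrrCharacter (Matrix.SpecialLinearGroup (Fin 2) F) χ) (g : Matrix.SpecialLinearGroup (Fin 2) F) :
    (χ 1 = (((Fintype.card F + 1) / 2 : ℕ) : ℂ) → (g : Matrix (Fin 2) (Fin 2) F) 0 1 = 0 → (g : Matrix (Fin 2) (Fin 2) F) 1 0 = 0 → (g : Matrix (Fin 2) (Fin 2) F) 0 0 ^ 2 ≠ 1 →
      (IsSquare ((g : Matrix (Fin 2) (Fin 2) F) 0 0) → χ g = 1) ∧ (¬ IsSquare ((g : Matrix (Fin 2) (Fin 2) F) 0 0) → χ g = -1)) ∧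
    (χ 1 = (((Fintype.card F - 1) / 2 : ℕ) : ℂ) → (∀ (c : F) (v : Fin 2 → F), v ≠ 0 → (g : Matrix (Fin 2) (Fin 2) F).mulVec v ≠ c • v) →
      (((g ^ ((Fintype.card F + 1) / 2)) : Matrix (Fin 2) (Fin 2) F) = 1 → χ g = -1) ∧ (((g ^ ((Fintype.card F + 1) / 2)) : Matrix (Fin 2) (Fin 2) F) ≠ 1 → χ g = 1)) := by
  classical
  have h2 := H16.two_ne hodd
  constructor
  · intro hd h01 h10 h00
    have hD : H16.TypD χ := by
      obtain ⟨k, hk⟩ := hodd
      rcases H16.sl2_odd_deg hχ hd with ⟨_, h⟩ | ⟨_, h⟩ | ⟨_, h⟩ | ⟨h', h⟩ | ⟨h', h⟩ | ⟨_, h⟩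
      · omega
      · omega
      · omega
      · exact h'
      · omega
      · omega
    obtain ⟨a, ha1, ha2, ha3⟩ := H16.eq_us h10
    have hne := H16.unit_ne_inv (a := a) (by rw [ha1]; exact h00)
    obtain ⟨α, hα1, hα2, hv⟩ := H16.TypD_split hχ hD a hne ((g : Matrix (Fin 2) (Fin 2) F) 0 1)
    rw [← ha3] at hv
    rw [H16.quad_unique hα2 hα1 H16.qc_sq (H16.qc_ne_one hodd), H16.qc_apply, ha1] at hv
    have hne0 : (g : Matrix (Fin 2) (Fin 2) F) 0 0 ≠ 0 := by rw [← ha1]; exact a.ne_zero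
    constructor
    · intro hs
      rw [hv, (quadraticChar_one_iff_isSquare hne0).2 hs]
      simp
    · intro hs
      rw [hv, (quadraticChar_neg_one_iff_not_isSquare).2 hs]
      simp
  · intro hd hg
    have hF : H16.TypF χ := by
      obtain ⟨k, hk⟩ := hodd
      rcases H16.sl2_odd_deg hχ hd with ⟨_, h⟩ | ⟨_, h⟩ | ⟨_, h⟩ | ⟨h', h⟩ | ⟨h', h⟩ | ⟨h', h⟩
      · omega
      · omega
      · omega
      · omega
      · omega
      · exact h'
    have hell := (H16.noEig_iff _).1 hg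
    rw [g.2] at hell
    have hns : ¬ H16.IsScal (g : Matrix (Fin 2) (Fin 2) F) := H16.not_isScal_of_noEig (by rw [g.2]; exact hell)
    have hT : H16.NST (Subgroup.centralizer ({g} : Set (Matrix.SpecialLinearGroup (Fin 2) F))) :=
      ⟨hodd, H16.cent_cyclic_ell hell, H16.card_cent_sl2_ell g hell⟩
    have hgm : g ∈ Subgroup.centralizer ({g} : Set (Matrix.SpecialLinearGroup (Fin 2) F)) := by
      rw [Subgroup.mem_centralizer_singleton_iff]
    obtain ⟨θ₀, h1, h3, h4⟩ := hT.exists_quad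
    have hv : χ g = _ := H16.TypF_ell hodd hχ hF hT (c := ⟨g, hgm⟩) hns θ₀ h1 h3
    have h5 := h4 ⟨g, hgm⟩
    have hiff : ((g ^ ((Fintype.card F + 1) / 2)) : Matrix (Fin 2) (Fin 2) F) = 1 ↔ θ₀ ⟨g, hgm⟩ = 1 := by
      rw [h5]
      constructor
      · intro h
        apply H16.sl_ext
        rw [Matrix.SpecialLinearGroup.coe_pow]
        exact h
      · intro h
        have := congrArg (fun m : Matrix.SpecialLinearGroup (Fin 2) F => (m : Matrix (Fin 2) (Fin 2) F)) h
        simpa using this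
    constructor
    · intro h
      rw [hv, hiff.1 h]; simp
    · intro h0
      have h := fun e => h0 (hiff.2 e)
      rw [hv]
      have h7 : ((θ₀ ⟨g, hgm⟩ : ℂˣ) : ℂ) * ((θ₀ ⟨g, hgm⟩ : ℂˣ) : ℂ) = 1 := by
        rw [← Units.val_mul, ← pow_two, h3, Units.val_one]
      rcases mul_self_eq_one_iff.1 h7 with h' | h'
      · exact absurd (Units.ext h') h
      · rw [h']; simp

end Cfsg.Agent.S2435
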