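import Cfsg.Statements.S2438
import Cfsg.Agent.H16.SL2Three

set_option autoImplicit false
open Cfsg

namespace Cfsg.Agent.S2438

open scoped ComplexConjugate in
theorem aux {F : Type*} [Field F] [Fintype F] [DecidableEq F] (χ : Matrix.SpecialLinearGroup (Fin 2) F → ℂ) :
    (∑ g : Matrix.SpecialLinearGroup (Fin 2) F, if (g : Matrix (Fin 2) (Fin 2) F) 1 0 = 0 ∧ (g : Matrix (Fin 2) (Fin 2) F) 0 0 = 1 ∧ (g : Matrix (Fin 2) (Fin 2) F) 1 1 = 1 then χ g else 0) =
      H16.usumS χ 1 := by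
  unfold H16.usumS
  rw [← Finset.sum_filter]
  symm
  refine Finset.sum_bij (fun x _ => H16.us 1 x) ?_ ?_ ?_ ?_
  · intro x _
    rw [Finset.mem_filter]
    exact ⟨Finset.mem_univ _, rfl, rfl, by simp [H16.us_coe]⟩
  · intro x _ y _ h
    have := congrArg (fun M : Matrix.SpecialLinearGroup (Fin 2) F => (M : Matrix (Fin 2) (Fin 2) F) 0 1) h
    simpa [H16.us_coe] using this
  · intro g hg
    obtain ⟨_, h1, h2, h3⟩ := Finset.mem_filter.1 hg
    refine ⟨(g : Matrix (Fin 2) (Fin 2) F) 0 1, Finset.mem_univ _, ?_⟩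
    apply H16.sl_ext
    rw [H16.us_coe]
    ext i j
    fin_cases i <;> fin_cases j <;> simp [h1, h2, h3]
  · intros; rfl

/-- Let F be a finite field with q elements, q odd, q ≥ 5, U the upper unitriangular subgroup of SL₂ over F, and χ an irreducible complex character. The sum of the values of χ over U equals 2q, q, 0, q, 0 according as the degree of χ is q + 1, q, q − 1, (q + 1)/2, (q − 1)/2; so among these five degrees the sum vanishes exactly for the degrees q − 1 and (q − 1)/2, i.e. the irreducible characters of those two degrees are the ones whose restriction to U does not contain the trivial character (the cuspidal characters), while those of degree q + 1, q and (q + 1)/2 are not cuspidal. -/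
theorem result {F : Type*} [Field F] [Fintype F] [DecidableEq F] (hodd : Odd (Fintype.card F)) (hq : 5 ≤ Fintype.card F)
    (χ : Matrix.SpecialLinearGroup (Fin 2) F → ℂ) (hχ : Cfsg.IsIrrCharacter (Matrix.SpecialLinearGroup (Fin 2) F) χ) :
    (χ 1 = (Fintype.card F : ℂ) + 1 →
      (∑ g : Matrix.SpecialLinearGroup (Fin 2) F, if (g : Matrix (Fin 2) (Fin 2) F) 1 0 = 0 ∧ (g : Matrix (Fin 2) (Fin 2) F) 0 0 = 1 ∧ (g : Matrix (Fin 2) (Fin 2) F) 1 1 = 1 then χ g else 0) = 2 * (Fintype.card F : ℂ)) ∧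
    (χ 1 = (Fintype.card F : ℂ) →
      (∑ g : Matrix.SpecialLinearGroup (Fin 2) F, if (g : Matrix (Fin 2) (Fin 2) F) 1 0 = 0 ∧ (g : Matrix (Fin 2) (Fin 2) F) 0 0 = 1 ∧ (g : Matrix (Fin 2) (Fin 2) F) 1 1 = 1 then χ g else 0) = (Fintype.card F : ℂ)) ∧
    (χ 1 = (Fintype.card F : ℂ) - 1 →
      (∑ g : Matrix.SpecialLinearGroup (Fin 2) F, if (g : Matrix (Fin 2) (Fin 2) F) 1 0 = 0 ∧ (g : Matrix (Fin 2) (Fin 2) F) 0 0 = 1 ∧ (g : Matrix (Fin 2) (Fin 2) F) 1 1 = 1 then χ g else 0) = 0) ∧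
    (χ 1 = (((Fintype.card F + 1) / 2 : ℕ) : ℂ) →
      (∑ g : Matrix.SpecialLinearGroup (Fin 2) F, if (g : Matrix (Fin 2) (Fin 2) F) 1 0 = 0 ∧ (g : Matrix (Fin 2) (Fin 2) F) 0 0 = 1 ∧ (g : Matrix (Fin 2) (Fin 2) F) 1 1 = 1 then χ g else 0) = (Fintype.card F : ℂ)) ∧
    (χ 1 = (((Fintype.card F - 1) / 2 : ℕ) : ℂ) →
      (∑ g : Matrix.SpecialLinearGroup (Fin 2) F, if (g : Matrix (Fin 2) (Fin 2) F) 1 0 = 0 ∧ (g : Matrix (Fin 2) (Fin 2) F) 0 0 = 1 ∧ (g : Matrix (Fin 2) (Fin 2) F) 1 1 = 1 then χ g else 0) = 0) := by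
  classical
  rw [aux χ]
  have hfin : Finite (MulChar F ℂ) := inferInstance
  have := Fintype.ofFinite (MulChar F ℂ)
  obtain ⟨n, hn0, hn⟩ := H3.irr_one_eq_nat hχ
  have hs : (Fintype.card F : ℂ) - 1 = ((Fintype.card F - 1 : ℕ) : ℂ) := by
    rw [Nat.cast_sub (by omega), Nat.cast_one]
  have hs2 : (Fintype.card F : ℂ) + 1 = ((Fintype.card F + 1 : ℕ) : ℂ) := by push_cast; rfl
  have hinv := H16.usumS_eq (H3.irr_classFun hχ) 1
  have hsum : ∀ z : ℂ, (starRingEnd ℂ) (H16.usumS χ 1) = (z : ℂ) → (starRingEnd ℂ) z = z → H16.usumS χ 1 = z := by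
    intro z h1 h2
    rw [← h2, ← h1, Complex.conj_conj]
  simp only [inv_one, Units.val_one, map_one, mul_one] at hinv
  have hcl := H16.sl2_odd_deg hχ hn
  obtain ⟨k, hk⟩ := hodd
  rw [hs, hs2, hn]
  refine ⟨?_, ?_, ?_, ?_, ?_⟩
  · intro h1
    have h1' : n = Fintype.card F + 1 := by exact_mod_cast h1
    rcases hcl with ⟨_, h⟩ | ⟨_, h⟩ | ⟨⟨α, hα, rfl⟩, _⟩ | ⟨_, h⟩ | ⟨_, h⟩ | ⟨_, h⟩
    · omega
    · omega
    · rw [H16.usumS_PS]
      simp
      ring
    all_goals omega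
  · intro h1
    have h1' : n = Fintype.card F := by exact_mod_cast h1
    rcases hcl with ⟨_, h⟩ | ⟨rfl, _⟩ | ⟨_, h⟩ | ⟨_, h⟩ | ⟨_, h⟩ | ⟨_, h⟩
    · omega
    · have e : H16.usumS (H16.StS F) 1 = H16.usumS (H16.PS (1 : MulChar F ℂ)) 1 - H16.usumS (F := F) (fun _ => (1 : ℂ)) 1 := by
        unfold H16.usumS
        rw [← Finset.sum_sub_distrib]
        rfl
      rw [e, H16.usumS_PS, H16.usumS_one]
      simp
      ring
    all_goals omega
  · intro h1
    have h1' : n = Fintype.card F - 1 := by exact_mod_cast h1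
    rcases hcl with ⟨_, h⟩ | ⟨_, h⟩ | ⟨_, h⟩ | ⟨_, h⟩ | ⟨h, _⟩ | ⟨_, h⟩
    · omega
    · omega
    · omega
    · omega
    · exact H16.cuspS_usum (H3.irr_classFun hχ) h.1 1
    · omega
  · intro h1
    have h1' : n = (Fintype.card F + 1) / 2 := by exact_mod_cast h1
    rcases hcl with ⟨_, h⟩ | ⟨_, h⟩ | ⟨_, h⟩ | ⟨h, _⟩ | ⟨_, h⟩ | ⟨_, h⟩
    · omega
    · omega
    · omega
    · obtain ⟨α, ψ', h1, h2, h3, h4, h5, h6, y, hy⟩ := h
      have hin : ∀ β : MulChar F ℂ, Cfsg.classInner (H16.PS β) χ = if β = α then 1 else 0 := by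
        intro β
        by_cases hβ : β = α
        · rw [if_pos hβ, hβ, h5, H3.classInner_add_left, H3.classInner_self_of_irr hχ, H3.classInner_of_irr_ne h3 hχ h4.symm, add_zero]
        · rw [if_neg hβ]
          have horth : Cfsg.classInner (H16.PS β) (H16.PS α) = 0 := by
            rw [H16.inner_PS_PS, if_neg hβ, if_neg, add_zero]
            have : α = α⁻¹ := by rwa [pow_two, mul_eq_one_iff_eq_inv] at h2
            rwa [← this]
          apply H16.inner_zero_of_orth (H16.PS_isChar β) (H16.PS_isChar α) hχ horth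
          rw [h5, H3.classInner_add_left, H3.classInner_self_of_irr hχ, H3.classInner_of_irr_ne h3 hχ h4.symm, add_zero]
          exact one_ne_zero
      simp only [hin] at hinv
      rw [Finset.sum_ite_eq' Finset.univ α, if_pos (Finset.mem_univ _), mul_one] at hinv
      exact hsum _ hinv (by simp)
    · omega
    · omega
  · intro h1
    have h1' : n = (Fintype.card F - 1) / 2 := by exact_mod_cast h1
    rcases hcl with ⟨_, h⟩ | ⟨_, h⟩ | ⟨_, h⟩ | ⟨_, h⟩ | ⟨_, h⟩ | ⟨h, _⟩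
    · omega
    · omega
    · omega
    · omega
    · omega
    · exact H16.cuspS_usum (H3.irr_classFun hχ) h.1 1

end Cfsg.Agent.S2438
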