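import Cfsg.Statements.S2441
import Cfsg.Agent.L.StB2
import Cfsg.Agent.L.StB3
import Cfsg.Agent.H16.ChR

set_option autoImplicit false
open Cfsg

namespace Cfsg.Agent.S2441

open Cfsg.Agent.LSt in
theorem aux (p : ℕ) [hp : Fact p.Prime] (M : Ideal Cfsg.AlgInt) (hM : Cfsg.IsPModular p M) (D : Cfsg.Lie.ChevalleyDatum) (hD : D ∈ [Cfsg.Lie.chevG2, Cfsg.Lie.chevB2, Cfsg.Lie.chevD4, Cfsg.Lie.chevF4, Cfsg.Lie.chevE6, Cfsg.Lie.chevE7, Cfsg.Lie.chevE8]) (hr : 0 < D.nroots) :
    Nat.card {B : Set (Cfsg.IrrCharacter (D.group (ZMod p))) // Cfsg.IsPBlock M B} = 2 := by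
  classical
  obtain ⟨N, η, rc, hG, hE⟩ := Cfsg.Agent.H6.exists_ext hD
  haveI : Finite (Matrix D.Idx D.Idx (ZMod p)) := inferInstanceAs (Finite (D.Idx → D.Idx → ZMod p))
  haveI : Finite (GL D.Idx (ZMod p)) := Finite.of_injective (fun g : GL D.Idx (ZMod p) => (g : Matrix D.Idx D.Idx (ZMod p))) fun a b h => Units.ext h
  have hfin : Fintype ↥(D.group (ZMod p)) := Fintype.ofFinite _
  have hF := Cfsg.Agent.H16.BNS.chFull (F := ZMod p) hG hE p
  have hcen := chev_cen (F := ZMod p) p D hD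
  have hpd : p ∣ Nat.card ↥(D.group (ZMod p)) := by
    have hN : N ≠ 0 := by
      rintro rfl
      rw [hG.nroots_eq] at hr
      omega
    have h3 := Cfsg.Agent.H16.BNS.card_U_dvd (S := Cfsg.Agent.H16.BNS.chSplit hG hE (ZMod p) p)
    rw [Cfsg.Agent.H16.BNS.chV_card, ZMod.card] at h3
    exact (dvd_pow_self p hN).trans h3
  rw [card_blocks_split (Cfsg.Agent.H16.BNS.chSplit hG hE (ZMod p) p) (Cfsg.Agent.H16.BNS.chRank hG hE (ZMod p) p) hF hM
    (fun Q hQ hne hrad x hx hxp => by rw [hcen Q hQ hne hrad x hx hxp]; exact one_mem _) hpd]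
  obtain ⟨Q⟩ : Nonempty (Sylow p ↥(D.group (ZMod p))) := inferInstance
  have h1 : ∀ z : ↥(D.group (ZMod p)), z ∈ Subgroup.center ↥(D.group (ZMod p)) → ¬ p ∣ orderOf z → z = 1 := by
    intro z hz hzp
    exact hcen Q Q.isPGroup' (Q.ne_bot_of_dvd_card hpd) (sylow_radical hM Q) z (Subgroup.center_le_centralizer _ hz) hzp
  have h2 : Nat.card {z : ↥(D.group (ZMod p)) // z ∈ Subgroup.center ↥(D.group (ZMod p)) ∧ ¬ p ∣ orderOf z} = 1 := by
    rw [Nat.card_eq_one_iff_unique]
    refine ⟨⟨fun a b => Subtype.ext (by rw [h1 a.1 a.2.1 a.2.2, h1 b.1 b.2.1 b.2.2])⟩, ⟨⟨1, one_mem _, by rw [orderOf_one]; exact fun h => hp.out.one_lt.ne' (Nat.dvd_one.1 h)⟩⟩⟩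
  rw [h2]

/-- For a prime p, the Chevalley groups of types G₂, F₄ and E₈ over the field with p elements (types for which the simply connected and adjoint groups coincide, so the group has trivial centre) each have exactly two p-blocks relative to any maximal ideal of the algebraic integers containing p (only the count is asserted; it arises as the defect-zero block of the Steinberg character plus a single block of maximal defect). -/
theorem result (p : ℕ) [Fact p.Prime] (M : Ideal Cfsg.AlgInt) (hM : Cfsg.IsPModular p M) :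
    Nat.card {B : Set (Cfsg.IrrCharacter (Cfsg.Lie.chevG2.group (ZMod p))) // Cfsg.IsPBlock M B} = 2 ∧
    Nat.card {B : Set (Cfsg.IrrCharacter (Cfsg.Lie.chevF4.group (ZMod p))) // Cfsg.IsPBlock M B} = 2 ∧
    Nat.card {B : Set (Cfsg.IrrCharacter (Cfsg.Lie.chevE8.group (ZMod p))) // Cfsg.IsPBlock M B} = 2 := by
  refine ⟨aux p M hM _ (by simp) (by decide), aux p M hM _ (by simp) (by decide), aux p M hM _ (by simp) (by decide)⟩

end Cfsg.Agent.S2441
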