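import Cfsg.Statements.S2531
import Mathlib

set_option autoImplicit false
open Cfsg

namespace Cfsg.Agent.S2531

open Module in
theorem card_points {F V : Type*} [Field F] [Finite F] [AddCommGroup V] [Module F V] [FiniteDimensional F V]
    (U : Submodule F V) : Nat.card {x : Projectivization F V // x.rep ∈ U} = ∑ i ∈ Finset.range (finrank F U), Nat.card F ^ i := by
  rw [← Projectivization.card_of_finrank F U rfl]
  symm
  apply Nat.card_congr
  refine Equiv.ofBijective (fun x => ⟨Projectivization.map U.subtype U.injective_subtype x, ?_⟩) ⟨?_, ?_⟩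
  · induction x using Projectivization.ind with
    | h v hv =>
      rw [Projectivization.map_mk]
      obtain ⟨a, ha⟩ := Projectivization.exists_smul_eq_mk_rep F (U.subtype v) (by simpa using hv)
      rw [← ha]
      exact U.smul_mem _ v.2
  · intro x y hxy
    exact Projectivization.map_injective (τ := RingHom.id F) U.subtype U.injective_subtype (congrArg Subtype.val hxy)
  · rintro ⟨x, hx⟩
    refine ⟨Projectivization.mk F (⟨x.rep, hx⟩ : U) (by simpa [Subtype.ext_iff] using x.rep_nonzero), ?_⟩
    apply Subtype.ext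
    show Projectivization.map U.subtype U.injective_subtype (Projectivization.mk F (⟨x.rep, hx⟩ : U) _) = x
    rw [Projectivization.map_mk]
    exact Projectivization.mk_rep x

theorem rep_mem_iff {F V : Type*} [Field F] [AddCommGroup V] [Module F V] 
    (U : Submodule F V) (v : V) (hv : v ≠ 0) : (Projectivization.mk F v hv).rep ∈ U ↔ v ∈ U := by
  obtain ⟨a, ha⟩ := Projectivization.exists_smul_eq_mk_rep F v hv
  rw [← ha]
  constructor
  · intro h
    have := U.smul_mem ((a⁻¹ : Fˣ) : F) h
    rwa [Units.smul_def, smul_smul, Units.inv_mul, one_smul] at this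
  · intro h
    exact U.smul_mem _ h

/-- Let `F` be a finite field and `n ≥ 3`. No set of permutations of the points of the projective space of `Fⁿ`, each induced by an invertible semilinear transformation of `Fⁿ` (so a subset of the full projective semilinear group), is sharply 2-transitive on the points: it is impossible that for all pairs of distinct points `(a, b)` and `(c, d)` exactly one member of the set sends `a` to `c` and `b` to `d`. -/
theorem result {F : Type*} [Field F] [Finite F]
    (n : ℕ) (hn : 3 ≤ n) (S : Set (Equiv.Perm (Projectivization F (Fin n → F))))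
    (hS : ∀ s ∈ S, ∃ (σ : F ≃+* F) (f : (Fin n → F) →ₛₗ[(σ : F →+* F)] (Fin n → F)) (hf : Function.Injective f),
      ∀ x, s x = Projectivization.map f hf x) :
    ¬ (∀ a b c d : Projectivization F (Fin n → F), a ≠ b → c ≠ d →
        ∃! s, s ∈ S ∧ s a = c ∧ s b = d) := by
  classical
  intro h
  let V := Fin n → F
  haveI : Fintype (Projectivization F (Fin n → F)) := Fintype.ofFinite _
  haveI : Nonempty (Fin n) := ⟨⟨0, by omega⟩⟩
  set q := Nat.card F with hq
  have hq1 : 1 < q := Finite.one_lt_card
  let i0 : Fin n := ⟨0, by omega⟩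
  let φ : (Fin n → F) →ₗ[F] F := LinearMap.proj i0
  let P : Projectivization F (Fin n → F) := Projectivization.mk F (Pi.single i0 1) (by simp)
  let H : Submodule F (Fin n → F) := LinearMap.ker φ
  have hPH : P.rep ∉ H := by
    rw [rep_mem_iff]
    simp [H, φ, LinearMap.mem_ker]
  let PH : Finset (Projectivization F (Fin n → F)) := Finset.univ.filter (fun x => x.rep ∈ H)
  let S' : Finset (Equiv.Perm (Projectivization F (Fin n → F))) := Finset.univ.filter (fun s => s ∈ S ∧ s P = P)
  have hmemPH : ∀ x, x ∈ PH ↔ x.rep ∈ H := by intro x; simp [PH]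
  have hmemS' : ∀ s, s ∈ S' ↔ s ∈ S ∧ s P = P := by intro s; simp [S']
  have hne : ∀ x ∈ PH, P ≠ x := by
    intro x hx hPx
    rw [hmemPH, ← hPx] at hx
    exact hPH hx
  have hzq : ((q : ℕ) : ZMod q) = 0 := ZMod.natCast_self q
  have hgeom : ∀ d : ℕ, 1 ≤ d → ((∑ i ∈ Finset.range d, q ^ i : ℕ) : ZMod q) = 1 := by
    intro d hd
    obtain ⟨d', rfl⟩ : ∃ d', d = d' + 1 := ⟨d - 1, by omega⟩
    rw [Finset.sum_range_succ']
    push_cast
    rw [Finset.sum_eq_zero]
    · simp
    · intro i _
      rw [hzq, pow_succ, mul_zero]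
  have hcardU : ∀ U : Submodule F (Fin n → F), 1 ≤ Module.finrank F U → ((Finset.univ.filter (fun x : Projectivization F (Fin n → F) => x.rep ∈ U)).card : ZMod q) = 1 := by
    intro U hU
    have h1 := card_points U
    rw [Nat.card_eq_fintype_card, Fintype.card_subtype] at h1
    rw [h1]
    exact hgeom _ hU
  have hdimφ : ∀ ψ : (Fin n → F) →ₗ[F] F, 1 ≤ Module.finrank F (LinearMap.ker (φ.prod ψ) : Submodule F (Fin n → F)) := by
    intro ψ
    have h1 := LinearMap.finrank_range_add_finrank_ker (φ.prod ψ)
    have h2 : Module.finrank F (LinearMap.range (φ.prod ψ)) ≤ Module.finrank F (F × F) := Submodule.finrank_le _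
    rw [Module.finrank_fin_fun] at h1
    rw [Module.finrank_prod, Module.finrank_self] at h2
    omega
  have hPHcard : (PH.card : ZMod q) = 1 := by
    apply hcardU
    have h1 := hdimφ 0
    have h2 : LinearMap.ker (φ.prod (0 : (Fin n → F) →ₗ[F] F)) ≤ H := by
      intro x hx
      rw [LinearMap.ker_prod] at hx
      exact hx.1
    exact h1.trans (Submodule.finrank_mono h2)
  -- count 1
  have key1 : ∀ a ∈ PH, (S'.filter (fun s => s a ∈ PH)).card = PH.card := by
    intro a ha
    apply Finset.card_bij (fun s _ => s a)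
    · intro s hs
      exact (Finset.mem_filter.mp hs).2
    · intro s hs t ht hst
      have h1 := (hmemS' s).1 (Finset.mem_filter.mp hs).1
      have h2 := (hmemS' t).1 (Finset.mem_filter.mp ht).1
      obtain ⟨r, _, hr⟩ := h P a P (s a) (hne a ha) (by
        intro h3; exact hne a ha (s.injective (h1.2.trans h3)))
      rw [hr s ⟨h1.1, h1.2, rfl⟩, hr t ⟨h2.1, h2.2, hst.symm⟩]
    · intro c hc
      obtain ⟨s, ⟨hs1, hs2, hs3⟩, _⟩ := h P a P c (hne a ha) (hne c hc)
      refine ⟨s, ?_, hs3⟩
      rw [Finset.mem_filter, hmemS']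
      exact ⟨⟨hs1, hs2⟩, by rw [hs3]; exact hc⟩
  have key2 : ∀ s ∈ S', ((PH.filter (fun a => s a ∈ PH)).card : ZMod q) = 1 := by
    intro s hs
    obtain ⟨σ, f, hf, hsf⟩ := hS s ((hmemS' s).1 hs).1
    let ψ : (Fin n → F) →ₗ[F] F :=
      { toFun := fun v => σ.symm (φ (f v))
        map_add' := by intro v w; simp
        map_smul' := by
          intro c v
          rw [map_smulₛₗ, map_smul, smul_eq_mul, map_mul]
          simp }
    have h1 : PH.filter (fun a => s a ∈ PH) = Finset.univ.filter (fun x : Projectivization F (Fin n → F) => x.rep ∈ LinearMap.ker (φ.prod ψ)) := by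
      ext a
      rw [Finset.mem_filter, hmemPH, hmemPH, Finset.mem_filter, LinearMap.ker_prod]
      have h2 : (s a).rep ∈ H ↔ a.rep ∈ LinearMap.ker ψ := by
        have h3 : s a = Projectivization.mk F (f a.rep) (by
            intro h0; apply a.rep_nonzero; apply hf; rw [h0, map_zero]) := by
          rw [hsf a]
          conv_lhs => rw [← Projectivization.mk_rep a]
          rw [Projectivization.map_mk]
        rw [h3, rep_mem_iff]
        show φ (f a.rep) = 0 ↔ σ.symm (φ (f a.rep)) = 0
        rw [map_eq_zero_iff _ σ.symm.injective]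
      rw [h2]
      simp [H]
    rw [h1]
    exact hcardU _ (hdimφ ψ)
  -- count S'
  have key3 : (S'.card : ZMod q) = 0 := by
    obtain ⟨a, ha⟩ : ∃ a, a ∈ PH := by
      by_contra hcon
      push Not at hcon
      have : PH.card = 0 := by
        rw [Finset.card_eq_zero]; exact Finset.eq_empty_of_forall_notMem hcon
      rw [this] at hPHcard
      haveI : Fact (1 < q) := ⟨hq1⟩
      simp at hPHcard
    have h1 : S'.card = (Finset.univ.erase P).card := by
      apply Finset.card_bij (fun s _ => s a)
      · intro s hs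
        rw [Finset.mem_erase]
        refine ⟨?_, Finset.mem_univ _⟩
        intro h3
        have h1 := (hmemS' s).1 hs
        exact hne a ha (s.injective (h1.2.trans h3.symm))
      · intro s hs t ht hst
        have h1 := (hmemS' s).1 hs
        have h2 := (hmemS' t).1 ht
        obtain ⟨r, _, hr⟩ := h P a P (s a) (hne a ha) (by
          intro h3; exact hne a ha (s.injective (h1.2.trans h3)))
        rw [hr s ⟨h1.1, h1.2, rfl⟩, hr t ⟨h2.1, h2.2, hst.symm⟩]
      · intro c hc
        rw [Finset.mem_erase] at hc
        obtain ⟨s, ⟨hs1, hs2, hs3⟩, _⟩ := h P a P c (hne a ha) hc.1.symm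
        exact ⟨s, (hmemS' s).2 ⟨hs1, hs2⟩, hs3⟩
    have h2 : (Finset.univ.erase P).card + 1 = ∑ i ∈ Finset.range n, q ^ i := by
      rw [Finset.card_erase_add_one (Finset.mem_univ P), Finset.card_univ, ← Nat.card_eq_fintype_card]
      exact Projectivization.card_of_finrank F _ (Module.finrank_fin_fun F)
    have h3 := hgeom n (by omega)
    rw [← h2, ← h1] at h3
    push_cast at h3
    linear_combination h3
  have hdc : ∑ s ∈ S', (PH.filter (fun a => s a ∈ PH)).card = ∑ a ∈ PH, (S'.filter (fun s => s a ∈ PH)).card := by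
    simp_rw [Finset.card_filter]
    exact Finset.sum_comm
  have h4 : ((∑ s ∈ S', (PH.filter (fun a => s a ∈ PH)).card : ℕ) : ZMod q) = 0 := by
    push_cast
    rw [Finset.sum_congr rfl key2, Finset.sum_const, nsmul_eq_mul, key3, zero_mul]
  rw [hdc, Finset.sum_congr rfl key1, Finset.sum_const, smul_eq_mul] at h4
  push_cast at h4
  rw [hPHcard] at h4
  haveI : Fact (1 < q) := ⟨hq1⟩
  simp at h4

end Cfsg.Agent.S2531
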