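import Cfsg.Statements.S2532
-- import your own Cfsg.Agent.* helpers here

set_option autoImplicit false
open Cfsg

namespace Cfsg.Agent.S2532

section
variable {m r : ℕ}

/-- permuting the second coordinate -/
def prodHom (Q : Type*) (r : ℕ) : Equiv.Perm (Fin r) →* Equiv.Perm (Q × Fin r) where
  toFun σ := Equiv.prodCongr (Equiv.refl Q) σ
  map_one' := by ext x <;> rfl
  map_mul' σ τ := by ext x <;> rfl

lemma prodHom_inj (Q : Type*) [Nonempty Q] (r : ℕ) : Function.Injective (prodHom Q r) := by
  intro σ τ h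
  obtain ⟨q⟩ := ‹Nonempty Q›
  ext i
  have h1 := congrArg (fun e : Equiv.Perm (Q × Fin r) => (e (q, i)).2) h
  exact congrArg Fin.val h1

lemma even_of_hom (Ψ : Equiv.Perm (Fin r) →* Equiv.Perm (Fin m)) {σ : Equiv.Perm (Fin r)} (hσ : σ ∈ alternatingGroup (Fin r)) :
    Ψ σ ∈ alternatingGroup (Fin m) := by
  rw [← Equiv.Perm.closure_three_cycles_eq_alternating] at hσ
  induction hσ using Subgroup.closure_induction with
  | mem x hx =>
    rw [Equiv.Perm.mem_alternatingGroup]
    have h1 : x ^ 3 = 1 := by rw [← hx.orderOf]; exact pow_orderOf_eq_one x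
    have h2 : (Equiv.Perm.sign (Ψ x)) ^ 3 = 1 := by rw [← map_pow, ← map_pow, h1, map_one, map_one]
    rcases Int.units_eq_one_or (Equiv.Perm.sign (Ψ x)) with h | h
    · exact h
    · rw [h] at h2; exact absurd h2 (by decide)
  | one => rw [map_one]; exact one_mem _
  | mul x y _ _ hx hy => rw [map_mul]; exact mul_mem hx hy
  | inv x _ hx => rw [map_inv]; exact inv_mem hx
end

/-- There is a function `f` of two natural-number arguments such that, whenever `m ≥ f(n, r)`, every subgroup of order `n` of the alternating group of degree `m` centralizes some subgroup of that alternating group isomorphic to the alternating group of degree `r`. -/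
theorem result :
    ∃ f : ℕ → ℕ → ℕ, ∀ (m r : ℕ) (H : Subgroup ↥(alternatingGroup (Fin m))), f (Nat.card H) r ≤ m →
      ∃ K : Subgroup ↥(alternatingGroup (Fin m)), Nonempty (↥K ≃* ↥(alternatingGroup (Fin r))) ∧
        K ≤ Subgroup.centralizer (H : Set ↥(alternatingGroup (Fin m))) := by
  classical
  refine ⟨fun n r => n * (2 ^ n * r), fun m r H hm => ?_⟩
  have hfin : Fintype H := Fintype.ofFinite _
  set n := Nat.card H with hn
  have hn0 : 0 < n := Nat.card_pos
  let O := MulAction.orbitRel.Quotient H (Fin m)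
  have : Fintype O := Fintype.ofFinite _
  have : Fintype (Subgroup H) := Fintype.ofFinite _
  have h1 : m ≤ n * Fintype.card O := by
    have e := MulAction.selfEquivSigmaOrbits H (Fin m)
    have h2 := Nat.card_congr e
    rw [Nat.card_sigma, Nat.card_eq_fintype_card, Fintype.card_fin] at h2
    have h3 : ∑ ω : O, Nat.card (MulAction.orbit H ω.out) ≤ ∑ _ω : O, n := by
      apply Finset.sum_le_sum
      intro ω _
      rw [hn]
      exact Nat.card_le_card_of_surjective (fun h : H => (⟨h • ω.out, MulAction.mem_orbit _ _⟩ : MulAction.orbit H ω.out)) (by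
        rintro ⟨_, h, rfl⟩
        exact ⟨h, rfl⟩)
    rw [Finset.sum_const, Finset.card_univ, smul_eq_mul, mul_comm] at h3
    exact h2.trans_le h3
  have h2 : 2 ^ n * r ≤ Fintype.card O := Nat.le_of_mul_le_mul_left (hm.trans h1) hn0
  have h3 : Fintype.card (Subgroup H) ≤ 2 ^ n := by
    have := Fintype.card_le_of_injective (fun K : Subgroup H => (Finset.univ.filter fun x : H => x ∈ K)) (by
      intro K L h
      ext x
      have := congrArg (fun s : Finset H => x ∈ s) h
      simpa using this)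
    rwa [Fintype.card_finset, ← Nat.card_eq_fintype_card (α := H), ← hn] at this
  have h4 : Fintype.card (Subgroup H) * r ≤ Fintype.card O := (Nat.mul_le_mul_right r h3).trans h2
  obtain ⟨K0, hK0⟩ := Fintype.exists_le_card_fiber_of_mul_le_card (fun ω : O => MulAction.stabilizer H ω.out) h4
  obtain ⟨g⟩ : Nonempty (Fin r ↪ {ω : O // MulAction.stabilizer H ω.out = K0}) := by
    apply Function.Embedding.nonempty_of_card_le
    rw [Fintype.card_fin, Fintype.card_subtype]
    exact hK0
  let x : Fin r → Fin m := fun i => (g i).1.out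
  have hxs : ∀ i, MulAction.stabilizer H (x i) = K0 := fun i => (g i).2
  have hxo : ∀ i j (h : H), h • x i = x j → i = j := by
    intro i j h hh
    have h5 : (Quotient.mk'' (x i) : O) = Quotient.mk'' (x j) := by
      rw [Quotient.eq'']
      exact ⟨h⁻¹, by rw [← hh]; exact inv_smul_smul h (x i)⟩
    have h6 : ((g i).1 : O) = (g j).1 := by
      have e1 : (Quotient.mk'' (x i) : O) = (g i).1 := Quotient.out_eq' _
      have e2 : (Quotient.mk'' (x j) : O) = (g j).1 := Quotient.out_eq' _
      rw [← e1, ← e2, h5]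
    exact g.injective (Subtype.ext h6)
  let ι : (H ⧸ K0) × Fin r → Fin m := fun p => Quotient.liftOn' p.1 (fun h => h • x p.2) (by
    intro a b hab
    rw [QuotientGroup.leftRel_apply, ← hxs p.2, MulAction.mem_stabilizer_iff, mul_smul] at hab
    show a • x p.2 = b • x p.2
    exact (inv_smul_eq_iff.1 hab).symm)
  have hι : ∀ (h : H) (i : Fin r), ι ((h : H ⧸ K0), i) = h • x i := fun h i => rfl
  have hιinj : Function.Injective ι := by
    rintro ⟨a, i⟩ ⟨b, j⟩ h
    obtain ⟨a, rfl⟩ := QuotientGroup.mk_surjective a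
    obtain ⟨b, rfl⟩ := QuotientGroup.mk_surjective b
    rw [hι, hι] at h
    have h5 : (b⁻¹ * a) • x i = x j := by rw [mul_smul, h, inv_smul_smul]
    have h6 := hxo i j _ h5
    subst h6
    have h7 : (a : H ⧸ K0) = b := by
      rw [eq_comm, QuotientGroup.eq, ← hxs i]; exact h5
    rw [h7]
  let E : ((H ⧸ K0) × Fin r) ↪ Fin m := ⟨ι, hιinj⟩
  let Ψ : Equiv.Perm (Fin r) →* Equiv.Perm (Fin m) := (Equiv.Perm.viaEmbeddingHom E).comp (prodHom (H ⧸ K0) r)
  have hΨinj : Function.Injective Ψ := (Equiv.Perm.viaEmbeddingHom_injective E).comp (prodHom_inj _ r)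
  have hΨ1 : ∀ σ (h : H) i, Ψ σ (h • x i) = h • x (σ i) := by
    intro σ h i
    have := Equiv.Perm.viaEmbedding_apply (prodHom (H ⧸ K0) r σ) E ((h : H ⧸ K0), i)
    exact this
  have hΨ2 : ∀ σ y, y ∉ Set.range ι → Ψ σ y = y := by
    intro σ y hy
    exact Equiv.Perm.viaEmbedding_apply_of_notMem (prodHom (H ⧸ K0) r σ) E y hy
  have hcomm : ∀ σ (h : H) y, Ψ σ (h • y) = h • Ψ σ y := by
    intro σ h y
    by_cases hy : y ∈ Set.range ι
    · obtain ⟨⟨q, i⟩, rfl⟩ := hy
      obtain ⟨a, rfl⟩ := QuotientGroup.mk_surjective q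
      rw [hι, ← mul_smul, hΨ1, hΨ1, mul_smul]
    · have hy' : h • y ∉ Set.range ι := by
        rintro ⟨⟨q, i⟩, hq⟩
        apply hy
        obtain ⟨a, rfl⟩ := QuotientGroup.mk_surjective q
        rw [hι] at hq
        refine ⟨(((h⁻¹ * a : H) : H ⧸ K0), i), ?_⟩
        rw [hι, mul_smul, hq, inv_smul_smul]
      rw [hΨ2 σ _ hy, hΨ2 σ _ hy']
  let Θ : alternatingGroup (Fin r) →* alternatingGroup (Fin m) :=
    (Ψ.comp (alternatingGroup (Fin r)).subtype).codRestrict (alternatingGroup (Fin m)) (fun σ => even_of_hom Ψ σ.2)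
  have hΘ : Function.Injective Θ := by
    intro a b h
    apply Subtype.ext
    apply hΨinj
    exact congrArg Subtype.val h
  refine ⟨Θ.range, ⟨(MonoidHom.ofInjective hΘ).symm⟩, ?_⟩
  rintro _ ⟨σ, rfl⟩
  rw [Subgroup.mem_centralizer_iff]
  intro h hh
  apply Subtype.ext
  apply Equiv.ext
  intro y
  exact (hcomm σ ⟨h, hh⟩ y).symm

end Cfsg.Agent.S2532
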