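import Cfsg.Statements.S2533
import Cfsg.Agent.H16.KroA

set_option autoImplicit false
open Cfsg

namespace Cfsg.Agent.S2533

/-- For every odd prime `p` there is a finite group `H` of order `2p³` which, for infinitely many `n`, embeds in the projective special linear group `PSL(n, p)` as a subgroup with trivial centralizer. -/
theorem result
    (p : ℕ) [Fact p.Prime] (hp : p ≠ 2) :
    ∃ (H : Type) (_ : Group H) (_ : Finite H), Nat.card H = 2 * p ^ 3 ∧
      ∀ N : ℕ, ∃ n, N ≤ n ∧ ∃ φ : H →* Matrix.ProjectiveSpecialLinearGroup (Fin n) (ZMod p),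
        Function.Injective φ ∧ Subgroup.centralizer (φ.range : Set (Matrix.ProjectiveSpecialLinearGroup (Fin n) (ZMod p))) = ⊥ := by
  refine ⟨Cfsg.Agent.H16.Kro.HH p, inferInstance, inferInstance, Cfsg.Agent.H16.Kro.card_HH, fun N => ?_⟩
  have hpp : p.Prime := Fact.out
  have hp3 : 3 ≤ p := by have := hpp.two_le; omega
  have hodd : Odd p := hpp.odd_of_ne_two hp
  have hm : Odd (p * (2 * N + 1)) := hodd.mul ⟨N, rfl⟩
  have hge : 3 * (2 * N + 1) ≤ p * (2 * N + 1) := Nat.mul_le_mul_right _ hp3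
  obtain ⟨h1, h2⟩ := Cfsg.Agent.H16.Kro.main hp hm ⟨_, rfl⟩ (by omega)
  exact ⟨Cfsg.Agent.H16.Kro.nn (p * (2 * N + 1)), by unfold Cfsg.Agent.H16.Kro.nn; omega, _, h1, h2⟩

end Cfsg.Agent.S2533
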