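import Cfsg.Statements.S2540
import Cfsg.Agent.H5.LinBasic
import Cfsg.Agent.H5.PSLSimple
import Cfsg.Agent.H10.Comp

set_option autoImplicit false
open Cfsg

namespace Cfsg.Agent.S2540

open Matrix in
lemma quasi {F : Type*} [Field F] [Fintype F] (n : ℕ) (hn : 2 ≤ n) (hex : ¬ (n = 2 ∧ Fintype.card F ≤ 3)) :
    Cfsg.IsQuasisimple (SpecialLinearGroup (Fin n) F) := by
  classical
  by_cases h3 : 3 ≤ n
  · exact ⟨⟨Cfsg.Agent.H5.SL_commutator_eq_top_of_three (by rw [Fintype.card_fin]; exact h3)⟩,
      Cfsg.Agent.H5.PSL_isSimple_of_three (by rw [Fintype.card_fin]; exact h3)⟩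
  · obtain rfl : n = 2 := by omega
    have h4 : 4 ≤ Fintype.card F := by
      by_contra h
      exact hex ⟨rfl, by omega⟩
    refine ⟨⟨?_⟩, Cfsg.Agent.H5.PSL2_isSimple (by rw [Nat.card_eq_fintype_card]; exact h4)⟩
    obtain ⟨a, ha⟩ : ∃ a : F, a ∉ ({0, 1, -1} : Finset F) := by
      by_contra hcon
      push Not at hcon
      have h5 : (Finset.univ : Finset F) ⊆ {0, 1, -1} := fun x _ => hcon x
      have h6 := Finset.card_le_card h5
      rw [Finset.card_univ] at h6
      have h7 : ({0, 1, -1} : Finset F).card ≤ 3 := Finset.card_le_three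
      omega
    simp only [Finset.mem_insert, Finset.mem_singleton, not_or] at ha
    have ha2 : a ^ 2 ≠ 1 := by
      intro h
      have h8 : (a - 1) * (a + 1) = 0 := by linear_combination h
      rcases mul_eq_zero.1 h8 with h | h
      · exact ha.2.1 (sub_eq_zero.1 h)
      · exact ha.2.2 (eq_neg_of_add_eq_zero_left h)
    exact SL2.commutator_eq_top ha.1 ha2

/-- Let F be a finite field and n ≥ 1, excluding the case n = 2 with #F ≤ 3. A subgroup of GL_n(F) that is normalized by every element of SL_n(F) either consists of scalar matrices or contains SL_n(F). -/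
theorem result {F : Type*} [Field F] [Fintype F] (n : ℕ) (hn : 1 ≤ n) (hex : ¬ (n = 2 ∧ Fintype.card F ≤ 3)) (G : Subgroup (Matrix.GeneralLinearGroup (Fin n) F)) (hG : ∀ s : Matrix.SpecialLinearGroup (Fin n) F, ∀ g ∈ G, (Matrix.SpecialLinearGroup.toGL s) * g * (Matrix.SpecialLinearGroup.toGL s)⁻¹ ∈ G) : (∀ g ∈ G, ∃ c : F, (g : Matrix (Fin n) (Fin n) F) = c • (1 : Matrix (Fin n) (Fin n) F)) ∨ (Matrix.SpecialLinearGroup.toGL : Matrix.SpecialLinearGroup (Fin n) F →* _).range ≤ G := by
  classical
  by_cases h1 : n = 1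
  · right
    subst h1
    rintro _ ⟨s, rfl⟩
    have : s = 1 := by
      apply Subtype.ext
      ext i j
      have h2 := s.2
      rw [Matrix.det_fin_one] at h2
      rw [Subsingleton.elim i 0, Subsingleton.elim j 0]
      simpa using h2
    rw [this, map_one]
    exact one_mem G
  have hn2 : 2 ≤ n := by omega
  have hQ := quasi (F := F) n hn2 hex
  set toGL : Matrix.SpecialLinearGroup (Fin n) F →* Matrix.GeneralLinearGroup (Fin n) F := Matrix.SpecialLinearGroup.toGL with htoGL
  have hN : (G.comap toGL).Normal := by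
    constructor
    intro x hx s
    rw [Subgroup.mem_comap] at hx ⊢
    rw [map_mul, map_mul, map_inv]
    exact hG s _ hx
  rcases Cfsg.Agent.H10.qs_normal_eq_top_or_le_center hQ hN with h2 | h2
  · right
    rintro _ ⟨s, rfl⟩
    have : s ∈ G.comap toGL := by rw [h2]; trivial
    exact this
  · left
    intro g hg
    have h3 : ∀ s : Matrix.SpecialLinearGroup (Fin n) F, ∃ z : Matrix.SpecialLinearGroup (Fin n) F, toGL z = toGL s * g * (toGL s)⁻¹ * g⁻¹ := by
      intro s
      have h4 : toGL s * g * (toGL s)⁻¹ * g⁻¹ ∈ (Matrix.SpecialLinearGroup.toGL : Matrix.SpecialLinearGroup (Fin n) F →* GL (Fin n) F).range := by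
        rw [Cfsg.Agent.H5.range_toGL, MonoidHom.mem_ker, map_mul, map_mul, map_mul, map_inv, map_inv]
        rw [mul_comm (Matrix.GeneralLinearGroup.det (toGL s)), mul_assoc (Matrix.GeneralLinearGroup.det g), mul_inv_cancel, mul_one, mul_inv_cancel]
      exact h4
    choose z hz using h3
    have hzG : ∀ s, z s ∈ Subgroup.center (Matrix.SpecialLinearGroup (Fin n) F) := by
      intro s
      apply h2
      rw [Subgroup.mem_comap, hz]
      exact G.mul_mem (hG s g hg) (G.inv_mem hg)
    have hinj : Function.Injective toGL := Matrix.SpecialLinearGroup.toGL_injective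
    have hmul : ∀ s t, z (s * t) = z s * z t := by
      intro s t
      have h5 := Subgroup.mem_center_iff.1 (hzG t) s
      have h6 : toGL s * toGL (z t) = toGL (z t) * toGL s := by rw [← map_mul, ← map_mul, h5]
      rw [← Subgroup.mem_center_iff.1 (hzG s) (z t)]
      apply hinj
      rw [map_mul, hz s, hz (s * t), map_mul]
      have h7 : toGL (z t) = toGL s * toGL (z t) * (toGL s)⁻¹ := by rw [h6]; group
      rw [h7, hz t]
      group
    let f : Matrix.SpecialLinearGroup (Fin n) F →* Subgroup.center (Matrix.SpecialLinearGroup (Fin n) F) :=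
      MonoidHom.mk' (fun s => ⟨z s, hzG s⟩) (fun s t => Subtype.ext (hmul s t))
    have hf : ∀ s, z s = 1 := by
      intro s
      have h8 : s ∈ commutator (Matrix.SpecialLinearGroup (Fin n) F) := by
        rw [hQ.1.commutator_eq_top]; trivial
      have h9 : commutator (Matrix.SpecialLinearGroup (Fin n) F) ≤ f.ker := by
        rw [commutator_def, Subgroup.commutator_le]
        intro a _ b _
        rw [MonoidHom.mem_ker, commutatorElement_def, map_mul, map_mul, map_mul, map_inv, map_inv]
        have : f a * f b = f b * f a := by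
          apply Subtype.ext
          exact (Subgroup.mem_center_iff.1 (f a).2 (f b)).symm
        rw [this]; group
      exact congrArg Subtype.val (h9 h8)
    have hcomm : ∀ s, toGL s * g = g * toGL s := by
      intro s
      have h10 := hz s
      rw [hf s, map_one] at h10
      have h11 : toGL s * g = (toGL s * g * (toGL s)⁻¹ * g⁻¹) * (g * toGL s) := by group
      rw [h11, ← h10, one_mul]
    have h12 : (g : Matrix (Fin n) (Fin n) F) ∈ Set.range (Matrix.scalar (Fin n)) := by
      apply Matrix.mem_range_scalar_of_commute_transvectionStruct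
      intro t
      have h13 := congrArg (fun x : GL (Fin n) F => (x : Matrix (Fin n) (Fin n) F)) (hcomm ⟨t.toMatrix, by simp⟩)
      exact h13
    obtain ⟨c, hc⟩ := h12
    refine ⟨c, ?_⟩
    rw [← hc, Matrix.scalar_apply, Matrix.smul_one_eq_diagonal]

end Cfsg.Agent.S2540
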