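import Cfsg.Statements.S2541
import Mathlib

set_option autoImplicit false
open Cfsg

namespace Cfsg.Agent.S2541

/-- Let F be a field with 9 elements. The symmetric group S_6 is not isomorphic to PGL_2(F) (although both have index-2 subgroups isomorphic to A_6). -/
theorem result {F : Type*} [Field F] [Fintype F] (hF : Fintype.card F = 9) : ¬ Nonempty (Equiv.Perm (Fin 6) ≃* Matrix.ProjGenLinGroup (Fin 2) F) := by
  classical
  rintro ⟨e⟩
  -- no element of order 8 in S_6
  have hS : ∀ σ : Equiv.Perm (Fin 6), orderOf σ ∣ 60 := by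
    intro σ
    rw [← Equiv.Perm.lcm_cycleType, Multiset.lcm_dvd]
    intro n hn
    have h1 : n ≤ σ.cycleType.sum := Multiset.le_sum_of_mem hn
    rw [Equiv.Perm.sum_cycleType] at h1
    have h2 : σ.support.card ≤ 6 := by
      have := Finset.card_le_univ σ.support
      simpa using this
    have h3 : n ≤ 6 := h1.trans h2
    have h4 := Equiv.Perm.two_le_of_mem_cycleType hn
    interval_cases n <;> decide
  -- an element of order 8 in PGL_2(9)
  obtain ⟨ζ, hζ⟩ := IsCyclic.exists_generator (α := Fˣ)
  have hord : orderOf ζ = 8 := by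
    have h1 := orderOf_eq_card_of_forall_mem_zpowers hζ
    rw [h1, Nat.card_eq_fintype_card, Fintype.card_units, hF]
  let D : GL (Fin 2) F := Matrix.GeneralLinearGroup.mkOfDetNeZero (Matrix.diagonal ![(ζ : F), 1]) (by simp [Matrix.det_diagonal])
  have hDpow : ∀ k : ℕ, ((D ^ k : GL (Fin 2) F) : Matrix (Fin 2) (Fin 2) F) = Matrix.diagonal ![(ζ : F) ^ k, 1] := by
    intro k
    rw [Units.val_pow_eq_pow_val]
    show (Matrix.diagonal ![(ζ : F), 1]) ^ k = _
    rw [Matrix.diagonal_pow]
    congr 1
    funext i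
    fin_cases i <;> simp
  have hDo : orderOf (Matrix.ProjGenLinGroup.mk D) = 8 := by
    have hk : ∀ k : ℕ, (Matrix.ProjGenLinGroup.mk D) ^ k = 1 ↔ ζ ^ k = 1 := by
      intro k
      rw [← map_pow, Matrix.ProjGenLinGroup.mk_eq_one, Matrix.GeneralLinearGroup.mem_center_iff_val_mem_range_scalar, hDpow]
      constructor
      · rintro ⟨a, ha⟩
        have h1 := congrFun (congrFun ha 0) 0
        have h2 := congrFun (congrFun ha 1) 1
        simp at h1 h2
        apply Units.ext
        push_cast
        rw [← h1, h2]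
      · intro h
        refine ⟨1, ?_⟩
        have h3 : (ζ : F) ^ k = 1 := by rw [← Units.val_pow_eq_pow_val, h, Units.val_one]
        rw [h3]
        ext i j
        fin_cases i <;> fin_cases j <;> simp
    apply Nat.dvd_antisymm
    · rw [orderOf_dvd_iff_pow_eq_one, hk, ← hord, pow_orderOf_eq_one]
    · rw [← hord, orderOf_dvd_iff_pow_eq_one, ← hk, pow_orderOf_eq_one]
  have h1 := hS (e.symm (Matrix.ProjGenLinGroup.mk D))
  rw [MulEquiv.orderOf_eq, hDo] at h1
  revert h1
  decide

end Cfsg.Agent.S2541
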