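import Cfsg.Statements.S2542
import Cfsg.Agent.S0804
import Cfsg.Agent.S0675
import Cfsg.Agent.H5.PSLSimple
import Cfsg.Agent.H5.Small

set_option autoImplicit false
open Cfsg

namespace Cfsg.Agent.S2542

/-- Let F be a field with 11 elements. PSL_2(F) has a subgroup H of index 11 isomorphic to the alternating group A_5, and the action of PSL_2(F) on the cosets of H is 2-transitive (of degree 11). -/
theorem result {F : Type*} [Field F] [Fintype F] (hF : Fintype.card F = 11) : ∃ H : Subgroup (Matrix.ProjectiveSpecialLinearGroup (Fin 2) F), H.index = 11 ∧ Nonempty (H ≃* alternatingGroup (Fin 5)) ∧ MulAction.IsMultiplyPretransitive (Matrix.ProjectiveSpecialLinearGroup (Fin 2) F) ((Matrix.ProjectiveSpecialLinearGroup (Fin 2) F) ⧸ H) 2 := by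
  classical
  obtain ⟨H, ⟨e⟩⟩ := (Cfsg.Agent.S0804.result hF).2 (by norm_num)
  have hG := Cfsg.Agent.H5.card_PSL2 hF
  have h60 : Nat.card (alternatingGroup (Fin 5)) = 60 := by
    rw [Nat.card_eq_fintype_card]
    have := two_mul_card_alternatingGroup (α := Fin 5)
    rw [Fintype.card_perm, Fintype.card_fin] at this
    have h7 : Nat.factorial 5 = 120 := rfl
    omega
  have hH : Nat.card H = 60 := by rw [Nat.card_congr e.toEquiv, h60]
  have hidx : H.index = 11 := by
    have h := H.card_mul_index
    rw [hH] at h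
    have h2 : Nat.card (Matrix.ProjectiveSpecialLinearGroup (Fin 2) F) = 660 := by
      have h3 : Nat.gcd 2 (11 - 1) = 2 := by decide
      rw [h3] at hG
      omega
    rw [h2] at h
    omega
  refine ⟨H, hidx, ⟨e⟩, ?_⟩
  letI : Fintype ((Matrix.ProjectiveSpecialLinearGroup (Fin 2) F) ⧸ H) := Fintype.ofFinite _
  have hX : Fintype.card ((Matrix.ProjectiveSpecialLinearGroup (Fin 2) F) ⧸ H) = 11 := by
    rw [← Nat.card_eq_fintype_card]; exact hidx
  let π := MulAction.toPermHom (Matrix.ProjectiveSpecialLinearGroup (Fin 2) F) ((Matrix.ProjectiveSpecialLinearGroup (Fin 2) F) ⧸ H)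
  haveI htr : MulAction.IsPretransitive π.range ((Matrix.ProjectiveSpecialLinearGroup (Fin 2) F) ⧸ H) := by
    refine ⟨fun x y => ?_⟩
    obtain ⟨g, hg⟩ := MulAction.exists_smul_eq (Matrix.ProjectiveSpecialLinearGroup (Fin 2) F) x y
    exact ⟨⟨π g, g, rfl⟩, hg⟩
  rcases Cfsg.Agent.S0675.result (by rw [hX]; norm_num) π.range with h | h
  · exfalso
    haveI hs : IsSimpleGroup (Matrix.ProjectiveSpecialLinearGroup (Fin 2) F) :=
      Cfsg.Agent.H5.PSL2_isSimple (by rw [Nat.card_eq_fintype_card, hF]; norm_num)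
    have hker : π.ker = ⊥ := by
      rcases hs.eq_bot_or_eq_top_of_normal π.ker inferInstance with h1 | h1
      · exact h1
      · exfalso
        have h2 : H = ⊤ := by
          rw [eq_top_iff]
          intro g _
          have : g ∈ π.ker := h1 ▸ Subgroup.mem_top g
          have h3 := congrArg (fun f : Equiv.Perm _ => f ((1 : Matrix.ProjectiveSpecialLinearGroup (Fin 2) F) : (Matrix.ProjectiveSpecialLinearGroup (Fin 2) F) ⧸ H)) (MonoidHom.mem_ker.1 this)
          have h4 : ((g * 1 : Matrix.ProjectiveSpecialLinearGroup (Fin 2) F) : (Matrix.ProjectiveSpecialLinearGroup (Fin 2) F) ⧸ H) = ((1 : Matrix.ProjectiveSpecialLinearGroup (Fin 2) F) : (Matrix.ProjectiveSpecialLinearGroup (Fin 2) F) ⧸ H) := h3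
          rw [mul_one] at h4
          rw [QuotientGroup.eq, mul_one] at h4
          exact (H.inv_mem_iff).1 h4
        rw [h2, Subgroup.index_top] at hidx
        omega
    have hinj := (MonoidHom.ker_eq_bot_iff π).1 hker
    haveI : Group.IsSolvable (Matrix.ProjectiveSpecialLinearGroup (Fin 2) F) :=
      Group.isSolvable_of_isSolvable_injective (f := π.rangeRestrict) (fun a b hab => hinj (congrArg Subtype.val hab))
    have hH' : Group.IsSolvable H := inferInstance
    have hA : Group.IsSolvable (alternatingGroup (Fin 5)) := Group.isSolvable_of_isSolvable_injective (f := e.symm.toMonoidHom) e.symm.injective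
    haveI := alternatingGroup.isSimpleGroup_five
    have hcomm := IsSimpleGroup.comm_iff_isSolvable.2 hA
    have h3 := hcomm ⟨Equiv.swap 0 1 * Equiv.swap 1 2, by rw [Equiv.Perm.mem_alternatingGroup]; decide⟩ ⟨Equiv.swap 2 3 * Equiv.swap 3 4, by rw [Equiv.Perm.mem_alternatingGroup]; decide⟩
    have h4 := congrArg (fun f : alternatingGroup (Fin 5) => (f : Equiv.Perm (Fin 5)) 2) h3
    revert h4
    decide
  · refine ⟨fun x y => ?_⟩
    obtain ⟨⟨_, g, rfl⟩, hg⟩ := h.exists_smul_eq x y
    refine ⟨g, ?_⟩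
    ext i
    exact congrArg (fun f => f i) hg

end Cfsg.Agent.S2542
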