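import Cfsg.Statements.S2550
import Cfsg.Agent.H16.L34A
import Cfsg.Agent.H5.LinBasic

set_option autoImplicit false
open Cfsg

namespace Cfsg.Agent.S2550

open Matrix

section
variable {F : Type*} [Field F] [CharP F 2]

def sm : Matrix (Fin 4) (Fin 4) F := !![0, 1, 0, 0; 1, 1, 0, 0; 0, 0, 1, 0; 0, 0, 0, 1]
def tm : Matrix (Fin 4) (Fin 4) F := !![1, 0, 0, 0; 0, 1, 0, 0; 0, 0, 1, 1; 0, 0, 0, 1]

lemma sm_det : (sm : Matrix (Fin 4) (Fin 4) F).det = 1 := by
  simp [sm, det_succ_row_zero, Fin.sum_univ_succ, Fin.succAbove]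
  try exact CharTwo.neg_eq _
lemma tm_det : (tm : Matrix (Fin 4) (Fin 4) F).det = 1 := by
  simp [tm, det_succ_row_zero, Fin.sum_univ_succ, Fin.succAbove]
lemma st_comm : (sm : Matrix (Fin 4) (Fin 4) F) * tm = tm * sm := by
  ext i j; fin_cases i <;> fin_cases j <;> simp [sm, tm, mul_apply, Fin.sum_univ_four]
lemma tm_sq : (tm : Matrix (Fin 4) (Fin 4) F) * tm = 1 := by
  ext i j; fin_cases i <;> fin_cases j <;> simp [tm, mul_apply, Fin.sum_univ_four, CharTwo.add_self_eq_zero]
lemma sm_cube : (sm : Matrix (Fin 4) (Fin 4) F) * sm * sm = 1 := by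
  ext i j; fin_cases i <;> fin_cases j <;> simp [sm, mul_apply, Fin.sum_univ_four, CharTwo.add_self_eq_zero]
end

/-- Let F be a field with 2 elements and K a field with 4 elements. PSL_4(F) and PSL_3(K) have the same order (20160) but are not isomorphic. -/
theorem result {F K : Type*} [Field F] [Fintype F] [Field K] [Fintype K] (hF : Fintype.card F = 2) (hK : Fintype.card K = 4) : Nat.card (Matrix.ProjectiveSpecialLinearGroup (Fin 4) F) = Nat.card (Matrix.ProjectiveSpecialLinearGroup (Fin 3) K) ∧ ¬ Nonempty (Matrix.ProjectiveSpecialLinearGroup (Fin 4) F ≃* Matrix.ProjectiveSpecialLinearGroup (Fin 3) K) := by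
  constructor
  · have h1 := Cfsg.Agent.H5.card_PSL_mul hF 4 (by norm_num)
    have h2 := Cfsg.Agent.H5.card_PSL_mul hK 3 (by norm_num)
    simp [Fin.prod_univ_succ] at h1 h2
    omega
  · rintro ⟨e⟩
    haveI : CharP F 2 := by
      haveI : Fact (Nat.Prime 2) := ⟨Nat.prime_two⟩
      exact charP_of_card_eq_prime_pow (f := 1) (by rw [hF]; norm_num)
    let s : SpecialLinearGroup (Fin 4) F := ⟨sm, sm_det⟩
    let t : SpecialLinearGroup (Fin 4) F := ⟨tm, tm_det⟩
    let π := QuotientGroup.mk' (Subgroup.center (SpecialLinearGroup (Fin 4) F))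
    have hker : ∀ z, π z = 1 ↔ z ∈ Subgroup.center (SpecialLinearGroup (Fin 4) F) := fun z => QuotientGroup.eq_one_iff z
    have hst : s * t = t * s := Subtype.ext st_comm
    have htt : t ^ 2 = 1 := by rw [pow_two]; exact Subtype.ext tm_sq
    have hsss : s ^ 3 = 1 := by rw [pow_succ, pow_two]; exact Subtype.ext sm_cube
    have hs : π s ≠ 1 := by
      rw [Ne, hker, Matrix.SpecialLinearGroup.mem_center_iff]
      rintro ⟨r, -, h⟩
      have := congrFun (congrFun h 0) 1
      simp [s, sm] at this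
    have ht : π t ≠ 1 := by
      rw [Ne, hker, Matrix.SpecialLinearGroup.mem_center_iff]
      rintro ⟨r, -, h⟩
      have := congrFun (congrFun h 2) 3
      simp [t, tm] at this
    have h := Cfsg.Agent.H16.L34.no_six hK (x := e (π s)) (y := e (π t)) (by rw [← map_pow, ← map_pow, hsss, map_one, map_one])
      (by rw [← map_pow, ← map_pow, htt, map_one, map_one]) (by rw [← map_mul, ← map_mul, hst, map_mul, map_mul])
      (fun h => ht (e.injective (by rw [h, map_one])))
    exact hs (e.injective (by rw [h, map_one]))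

end Cfsg.Agent.S2550
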