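import Cfsg.Statements.S2551
import Cfsg.Agent.H18.GL42

set_option autoImplicit false
set_option linter.style.haveILetI false
set_option linter.unusedVariables false
set_option linter.unusedSectionVars false
open Cfsg

namespace Cfsg.Agent.S2551

open Matrix

theorem modeq {G α : Type*} [Group G] [MulAction G α] [Finite α] (g : G) {r : ℕ} (hr : r.Prime) (hg : g ^ r = 1) :
    Nat.card α ≡ Nat.card {a : α // g • a = a} [MOD r] := by
  haveI : Fact r.Prime := ⟨hr⟩
  have hP : IsPGroup r (Subgroup.zpowers g) := by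
    rintro ⟨y, hy⟩
    obtain ⟨k, rfl⟩ := Subgroup.mem_zpowers_iff.1 hy
    refine ⟨1, Subtype.ext ?_⟩
    show (g ^ k) ^ (r ^ 1) = 1
    rw [pow_one, ← zpow_natCast, ← _root_.zpow_mul, mul_comm, _root_.zpow_mul, zpow_natCast, hg, _root_.one_zpow]
  have h := hP.card_modEq_card_fixedPoints α
  have heq : (MulAction.fixedPoints (Subgroup.zpowers g) α) = {a : α | g • a = a} := by
    ext x
    rw [MulAction.mem_fixedPoints]
    constructor
    · intro hx
      exact hx ⟨g, Subgroup.mem_zpowers g⟩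
    · rintro hx ⟨y, hy⟩
      have h1 : g ∈ MulAction.stabilizer G x := hx
      exact (Subgroup.zpowers_le.2 h1) hy
  rw [heq] at h
  exact h

section V
variable {F : Type*} [Field F] [Fintype F]

@[reducible] noncomputable def act {Γ : Type*} [Group Γ] (ρ : Γ →* GL (Fin 4) F) : MulAction Γ (Fin 4 → F) where
  smul g v := (ρ g : Matrix (Fin 4) (Fin 4) F).mulVec v
  one_smul v := by
    show (ρ 1 : Matrix (Fin 4) (Fin 4) F).mulVec v = v
    rw [map_one]
    exact Matrix.one_mulVec v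
  mul_smul g h v := by
    show (ρ (g * h) : Matrix (Fin 4) (Fin 4) F).mulVec v = (ρ g : Matrix (Fin 4) (Fin 4) F).mulVec ((ρ h : Matrix (Fin 4) (Fin 4) F).mulVec v)
    rw [map_mul]
    exact (Matrix.mulVec_mulVec v (ρ g : Matrix (Fin 4) (Fin 4) F) (ρ h : Matrix (Fin 4) (Fin 4) F)).symm

theorem card_V (hF : Fintype.card F = 2) : Nat.card (Fin 4 → F) = 16 := by
  rw [Nat.card_eq_fintype_card, Fintype.card_fun, hF, Fintype.card_fin]
  norm_num

theorem fix_dvd (hF : Fintype.card F = 2) (g : GL (Fin 4) F) (hg : g ≠ 1) :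
    Nat.card {v : Fin 4 → F // (g : Matrix (Fin 4) (Fin 4) F).mulVec v = v} ∣ 16 ∧
      Nat.card {v : Fin 4 → F // (g : Matrix (Fin 4) (Fin 4) F).mulVec v = v} ≠ 16 := by
  let A : AddSubgroup (Fin 4 → F) :=
    { carrier := {v | (g : Matrix (Fin 4) (Fin 4) F).mulVec v = v}
      add_mem' := by
        intro a b ha hb
        simp only [Set.mem_setOf_eq] at ha hb ⊢
        rw [Matrix.mulVec_add, ha, hb]
      zero_mem' := by
        simp only [Set.mem_setOf_eq]
        rw [Matrix.mulVec_zero]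
      neg_mem' := by
        intro a ha
        simp only [Set.mem_setOf_eq] at ha ⊢
        rw [Matrix.mulVec_neg, ha] }
  have hA : Nat.card A = Nat.card {v : Fin 4 → F // (g : Matrix (Fin 4) (Fin 4) F).mulVec v = v} := rfl
  rw [← hA]
  refine ⟨?_, ?_⟩
  · rw [← card_V hF]
    exact AddSubgroup.card_addSubgroup_dvd_card A
  · intro h
    rw [← card_V hF] at h
    have h1 := AddSubgroup.eq_top_of_card_eq A h
    apply hg
    apply Units.ext
    apply Matrix.toLin'.injective
    apply LinearMap.ext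
    intro v
    have h2 : v ∈ A := by rw [h1]; exact AddSubgroup.mem_top v
    have h3 : (g : Matrix (Fin 4) (Fin 4) F).mulVec v = v := h2
    rw [Matrix.toLin'_apply, Matrix.toLin'_apply, h3]
    exact (Matrix.one_mulVec v).symm

theorem fix_modeq (hF : Fintype.card F = 2) {Γ : Type*} [Group Γ] (ρ : Γ →* GL (Fin 4) F) (g : Γ) {r : ℕ}
    (hr : r.Prime) (hg : g ^ r = 1) :
    16 ≡ Nat.card {v : Fin 4 → F // (ρ g : Matrix (Fin 4) (Fin 4) F).mulVec v = v} [MOD r] := by
  letI := act ρ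
  have h1 := modeq (α := Fin 4 → F) g hr hg
  rw [card_V hF] at h1
  exact h1

theorem fix5 (hF : Fintype.card F = 2) {Γ : Type*} [Group Γ] (ρ : Γ →* GL (Fin 4) F) (g : Γ) (hg : ρ g ≠ 1)
    (h5 : g ^ 5 = 1) {v : Fin 4 → F}
    (hv : v ≠ 0) : (ρ g : Matrix (Fin 4) (Fin 4) F).mulVec v ≠ v := by
  intro hgv
  have h1 := fix_modeq hF ρ g (by norm_num : (5 : ℕ).Prime) h5
  obtain ⟨h2, h3⟩ := fix_dvd hF (ρ g) hg
  obtain ⟨c, hc⟩ : ∃ c, c = Nat.card {v : Fin 4 → F // (ρ g : Matrix (Fin 4) (Fin 4) F).mulVec v = v} := ⟨_, rfl⟩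
  rw [← hc] at h1 h2 h3
  have hle := Nat.le_of_dvd (by norm_num) h2
  have h4 : c = 1 := by
    unfold Nat.ModEq at h1
    interval_cases c <;> first | rfl | (exfalso; revert h1 h2 h3; decide)
  rw [h4] at hc
  haveI := (Nat.card_eq_one_iff_unique.1 hc.symm).1
  have h0 : (ρ g : Matrix (Fin 4) (Fin 4) F).mulVec (0 : Fin 4 → F) = 0 := Matrix.mulVec_zero _
  have := Subsingleton.elim (⟨v, hgv⟩ : {v : Fin 4 → F // (ρ g : Matrix (Fin 4) (Fin 4) F).mulVec v = v}) ⟨0, h0⟩
  exact hv (congrArg Subtype.val this)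

theorem fix7 (hF : Fintype.card F = 2) {Γ : Type*} [Group Γ] (ρ : Γ →* GL (Fin 4) F) (g : Γ) (hg : ρ g ≠ 1)
    (h7 : g ^ 7 = 1) {v w : Fin 4 → F}
    (hv : v ≠ 0) (hw : w ≠ 0) (hgv : (ρ g : Matrix (Fin 4) (Fin 4) F).mulVec v = v)
    (hgw : (ρ g : Matrix (Fin 4) (Fin 4) F).mulVec w = w) : v = w := by
  have h1 := fix_modeq hF ρ g (by norm_num : (7 : ℕ).Prime) h7
  obtain ⟨h2, h3⟩ := fix_dvd hF (ρ g) hg
  obtain ⟨c, hc⟩ : ∃ c, c = Nat.card {v : Fin 4 → F // (ρ g : Matrix (Fin 4) (Fin 4) F).mulVec v = v} := ⟨_, rfl⟩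
  rw [← hc] at h1 h2 h3
  have hle := Nat.le_of_dvd (by norm_num) h2
  have h4 : c = 2 := by
    unfold Nat.ModEq at h1
    interval_cases c <;> first | rfl | (exfalso; revert h1 h2 h3; decide)
  rw [h4] at hc
  have h0 : (ρ g : Matrix (Fin 4) (Fin 4) F).mulVec (0 : Fin 4 → F) = 0 := Matrix.mulVec_zero _
  by_contra hvw
  obtain ⟨x, y, -, hxy⟩ := Nat.card_eq_two_iff.1 hc.symm
  have hm : ∀ z : {v : Fin 4 → F // (ρ g : Matrix (Fin 4) (Fin 4) F).mulVec v = v}, z = x ∨ z = y := by
    intro z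
    have : z ∈ ({x, y} : Set _) := by rw [hxy]; exact Set.mem_univ z
    simpa using this
  have e0 : ∀ z : {v : Fin 4 → F // (ρ g : Matrix (Fin 4) (Fin 4) F).mulVec v = v}, z = ⟨0, h0⟩ → (z : Fin 4 → F) = 0 :=
    fun z hz => congrArg Subtype.val hz
  rcases hm ⟨0, h0⟩ with h1 | h1 <;> rcases hm ⟨v, hgv⟩ with h2 | h2 <;> rcases hm ⟨w, hgw⟩ with h3 | h3
  · exact hv (congrArg Subtype.val (h2.trans h1.symm))
  · exact hv (congrArg Subtype.val (h2.trans h1.symm))
  · exact hw (congrArg Subtype.val (h3.trans h1.symm))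
  · exact hvw (congrArg Subtype.val (h2.trans h3.symm))
  · exact hvw (congrArg Subtype.val (h2.trans h3.symm))
  · exact hw (congrArg Subtype.val (h3.trans h1.symm))
  · exact hv (congrArg Subtype.val (h2.trans h1.symm))
  · exact hv (congrArg Subtype.val (h2.trans h1.symm))

theorem two_trans (hF : Fintype.card F = 2) {H : Type*} [Group H] [Finite H] (ρ : H →* GL (Fin 4) F) (hρ : Function.Injective ρ)
    (hH : Nat.card H = 2520)
    {v w v' w' : Fin 4 → F} (hv : v ≠ 0) (hw : w ≠ 0) (hvw : v ≠ w) (hv' : v' ≠ 0) (hw' : w' ≠ 0) (hvw' : v' ≠ w') :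
    ∃ g : H, (ρ g : Matrix (Fin 4) (Fin 4) F).mulVec v = v' ∧ (ρ g : Matrix (Fin 4) (Fin 4) F).mulVec w = w' := by
  classical
  letI := act ρ
  have hne : ∀ (g : H) {a : Fin 4 → F}, a ≠ 0 → g • a ≠ 0 := by
    intro g a ha h
    apply ha
    have h0 : g⁻¹ • (0 : Fin 4 → F) = 0 := Matrix.mulVec_zero _
    have h1 : a = g⁻¹ • (g • a) := (inv_smul_smul g a).symm
    rw [h, h0] at h1
    exact h1
  -- elements of prime order
  have hρ1 : ∀ g : H, ρ g = 1 → g = 1 := fun g hg => hρ (by rw [hg, map_one])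
  have hel : ∀ r : ℕ, r.Prime → r ∣ 2520 → ∃ g : H, g ^ r = 1 ∧ ρ g ≠ 1 := by
    intro r hr hd
    haveI : Fact r.Prime := ⟨hr⟩
    rw [← hH] at hd
    obtain ⟨g, hg⟩ := exists_prime_orderOf_dvd_card' r hd
    refine ⟨g, by rw [← hg]; exact pow_orderOf_eq_one g, ?_⟩
    intro h
    have : g = 1 := hρ1 g h
    rw [this, orderOf_one] at hg
    exact hr.one_lt.ne hg
  have hndvd : ∀ (r : ℕ) (hr : r.Prime) (S : Subgroup H),
      (∀ g : H, ρ g ≠ 1 → g ^ r = 1 → g ∉ S) → ¬ r ∣ Nat.card S := by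
    intro r hr S h hd
    haveI : Fact r.Prime := ⟨hr⟩
    obtain ⟨g, hg⟩ := exists_prime_orderOf_dvd_card' r hd
    refine h (g : H) ?_ ?_ g.2
    · intro h1
      have : g = 1 := Subtype.ext (hρ1 _ h1)
      rw [this, orderOf_one] at hg
      exact hr.one_lt.ne hg
    · have h1 : g ^ r = 1 := by rw [← hg]; exact pow_orderOf_eq_one g
      exact congrArg (fun q : S => (q : H)) h1
  have hidx : ∀ (r : ℕ) (hr : r.Prime) (S : Subgroup H), r ∣ 2520 → ¬ r ∣ Nat.card S → r ∣ S.index := by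
    intro r hr S h1 h2
    rw [← hH, ← S.card_mul_index] at h1
    exact (hr.dvd_mul.1 h1).resolve_left h2
  -- orbits on nonzero vectors
  have horb : ∀ a : Fin 4 → F, a ≠ 0 → (MulAction.stabilizer H a).index = 15 := by
    intro a ha
    have h5 : 5 ∣ (MulAction.stabilizer H a).index := by
      refine hidx 5 (by norm_num) _ (by norm_num) (hndvd 5 (by norm_num) _ ?_)
      intro g hg1 hg5 hgS
      exact fix5 hF ρ g hg1 hg5 ha hgS
    have hle : (MulAction.stabilizer H a).index ≤ 15 := by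
      rw [MulAction.index_stabilizer]
      have h1 : MulAction.orbit H a ⊆ ({0}ᶜ : Set (Fin 4 → F)) := by
        rintro _ ⟨h, rfl⟩
        exact hne h ha
      have h2 := Set.ncard_le_ncard h1 (Set.toFinite _)
      rw [Set.ncard_compl, Set.ncard_singleton, card_V hF] at h2
      exact h2
    have hpos : 0 < (MulAction.stabilizer H a).index := Nat.pos_of_ne_zero Subgroup.index_ne_zero_of_finite
    obtain ⟨g, hg7, hg1⟩ := hel 7 (by norm_num) (by norm_num)
    have h7 := modeq (α := MulAction.orbit H a) g (by norm_num : (7 : ℕ).Prime) hg7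
    have hsub : Nat.card {x : MulAction.orbit H a // g • x = x} ≤ 1 := by
      rw [Finite.card_le_one_iff_subsingleton]
      refine ⟨fun x y => ?_⟩
      apply Subtype.ext
      apply Subtype.ext
      have hx0 : ((x : MulAction.orbit H a) : Fin 4 → F) ≠ 0 := by
        obtain ⟨h, hh⟩ := (x : MulAction.orbit H a).2
        rw [← hh]
        exact hne h ha
      have hy0 : ((y : MulAction.orbit H a) : Fin 4 → F) ≠ 0 := by
        obtain ⟨h, hh⟩ := (y : MulAction.orbit H a).2
        rw [← hh]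
        exact hne h ha
      exact fix7 hF ρ g hg1 hg7 hx0 hy0 (congrArg Subtype.val x.2) (congrArg Subtype.val y.2)
    have hcard : Nat.card (MulAction.orbit H a) = (MulAction.stabilizer H a).index := by
      rw [MulAction.index_stabilizer]
      rfl
    rw [hcard] at h7
    obtain ⟨c, hc⟩ : ∃ c, c = Nat.card {x : MulAction.orbit H a // g • x = x} := ⟨_, rfl⟩
    obtain ⟨i, hi⟩ : ∃ i, i = (MulAction.stabilizer H a).index := ⟨_, rfl⟩
    rw [← hc] at h7 hsub
    rw [← hi] at h7 h5 hle hpos ⊢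
    unfold Nat.ModEq at h7
    obtain ⟨k, hk⟩ := h5
    have hk3 : k ≤ 3 := by omega
    interval_cases k <;> omega
  -- an involution
  obtain ⟨t, ht2, ht1⟩ := hel 2 (by norm_num) (by norm_num)
  obtain ⟨x, hx⟩ : ∃ x : Fin 4 → F, t • x ≠ x := by
    by_contra hno
    push Not at hno
    obtain ⟨-, h3⟩ := fix_dvd hF (ρ t) ht1
    apply h3
    rw [← card_V hF]
    exact Nat.card_congr (Equiv.subtypeUnivEquiv hno)
  have hx0 : x ≠ 0 := by
    rintro rfl
    apply hx
    exact Matrix.mulVec_zero _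
  have htx0 : t • x ≠ 0 := hne _ hx0
  obtain ⟨P, hP⟩ : ∃ P : (Fin 4 → F) × (Fin 4 → F), P = (x, t • x) := ⟨_, rfl⟩
  have hO15 : 15 ∣ (MulAction.stabilizer H P).index := by
    rw [← horb x hx0]
    apply Subgroup.index_dvd_of_le
    intro g hg
    rw [MulAction.mem_stabilizer_iff] at hg ⊢
    rw [hP] at hg
    exact congrArg Prod.fst hg
  have hO7 : 7 ∣ (MulAction.stabilizer H P).index := by
    refine hidx 7 (by norm_num) _ (by norm_num) (hndvd 7 (by norm_num) _ ?_)
    intro g hg1 hg7 hgS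
    rw [MulAction.mem_stabilizer_iff, hP] at hgS
    have h1 : g • x = x := congrArg Prod.fst hgS
    have h2 : g • (t • x) = t • x := congrArg Prod.snd hgS
    exact hx (fix7 hF ρ g hg1 hg7 htx0 hx0 h2 h1)
  have hcardO : Nat.card (MulAction.orbit H P) = (MulAction.stabilizer H P).index := by
    rw [MulAction.index_stabilizer]
    rfl
  have hmemO : ∀ q ∈ MulAction.orbit H P, q.1 ≠ 0 ∧ q.2 ≠ 0 ∧ q.1 ≠ q.2 := by
    rintro _ ⟨h, rfl⟩
    refine ⟨?_, ?_, ?_⟩
    · show (h • P).1 ≠ 0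
      rw [hP]
      exact hne h hx0
    · show (h • P).2 ≠ 0
      rw [hP]
      exact hne h htx0
    · show (h • P).1 ≠ (h • P).2
      rw [hP]
      intro heq
      have h1 : h • x = h • (t • x) := heq
      exact hx (smul_left_cancel h h1).symm
  have hswap : ∀ q ∈ MulAction.orbit H P, (q.2, q.1) ∈ MulAction.orbit H P := by
    rintro _ ⟨h, rfl⟩
    refine ⟨h * t, ?_⟩
    show (h * t) • P = ((h • P).2, (h • P).1)
    rw [hP]
    have h1 : (h * t) • x = h • (t • x) := mul_smul h t x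
    have h2 : (h * t) • (t • x) = h • x := by
      rw [mul_smul, ← mul_smul t t x, ← pow_two, ht2, one_smul]
    show ((h * t) • x, (h * t) • (t • x)) = (h • (t • x), h • x)
    rw [h1, h2]
  have hO2 : 2 ∣ (MulAction.stabilizer H P).index := by
    rw [← hcardO]
    let σ : Equiv.Perm (MulAction.orbit H P) :=
      { toFun := fun q => ⟨(q.1.2, q.1.1), hswap q.1 q.2⟩
        invFun := fun q => ⟨(q.1.2, q.1.1), hswap q.1 q.2⟩
        left_inv := fun q => rfl
        right_inv := fun q => rfl }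
    have h1 := modeq (α := MulAction.orbit H P) σ Nat.prime_two (by ext q <;> rfl)
    have h2 : Nat.card {a : MulAction.orbit H P // σ • a = a} = 0 := by
      rw [Nat.card_eq_zero]
      left
      refine ⟨fun a => ?_⟩
      have h3 : (a.1.1.2, a.1.1.1) = a.1.1 := congrArg Subtype.val a.2
      exact (hmemO a.1.1 a.1.2).2.2 (congrArg Prod.snd h3)
    rw [h2] at h1
    exact (Nat.modEq_zero_iff_dvd).1 h1
  have h210 : 210 ∣ (MulAction.stabilizer H P).index := by
    obtain ⟨i, hi⟩ : ∃ i, i = (MulAction.stabilizer H P).index := ⟨_, rfl⟩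
    rw [← hi] at hO2 hO7 hO15 ⊢
    omega
  have hpos : 0 < (MulAction.stabilizer H P).index := Nat.pos_of_ne_zero Subgroup.index_ne_zero_of_finite
  have hge := Nat.le_of_dvd hpos h210
  have hsub : MulAction.orbit H P ⊆ (((Finset.univ.erase (0 : Fin 4 → F)).offDiag : Finset _) : Set ((Fin 4 → F) × (Fin 4 → F))) := by
    intro q hq
    obtain ⟨h1, h2, h3⟩ := hmemO q hq
    rw [Finset.mem_coe, Finset.mem_offDiag]
    exact ⟨Finset.mem_erase.2 ⟨h1, Finset.mem_univ _⟩, Finset.mem_erase.2 ⟨h2, Finset.mem_univ _⟩, h3⟩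
  have heq : MulAction.orbit H P = (((Finset.univ.erase (0 : Fin 4 → F)).offDiag : Finset _) : Set ((Fin 4 → F) × (Fin 4 → F))) := by
    refine Set.eq_of_subset_of_ncard_le hsub ?_ (Set.toFinite _)
    rw [Set.ncard_coe_finset, Finset.offDiag_card, Finset.card_erase_of_mem (Finset.mem_univ _),
      Finset.card_univ, ← Nat.card_eq_fintype_card, card_V hF, ← MulAction.index_stabilizer]
    exact hge
  have hin : ∀ a b : Fin 4 → F, a ≠ 0 → b ≠ 0 → a ≠ b → (a, b) ∈ MulAction.orbit H P := by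
    intro a b ha hb hab
    rw [heq, Finset.mem_coe, Finset.mem_offDiag]
    exact ⟨Finset.mem_erase.2 ⟨ha, Finset.mem_univ _⟩, Finset.mem_erase.2 ⟨hb, Finset.mem_univ _⟩, hab⟩
  obtain ⟨g1, hg1⟩ := hin v w hv hw hvw
  obtain ⟨g2, hg2⟩ := hin v' w' hv' hw' hvw'
  have h1 : g1 • P = (v, w) := hg1
  have h2 : g2 • P = (v', w') := hg2
  have h3 : (g2 * g1⁻¹) • (v, w) = (v', w') := by
    rw [← h1, ← h2, mul_smul, inv_smul_smul]
  exact ⟨g2 * g1⁻¹, congrArg Prod.fst h3, congrArg Prod.snd h3⟩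

theorem card_GL (hF : Fintype.card F = 2) : Nat.card (GL (Fin 4) F) = 20160 := by
  rw [Matrix.card_GL_field, hF, Fin.prod_univ_four]
  norm_num

end V

theorem card_A8 : Nat.card (alternatingGroup (Fin 8)) = 20160 := by
  have h := two_mul_nat_card_alternatingGroup (α := Fin 8)
  rw [Nat.card_perm, Nat.card_eq_fintype_card (α := Fin 8), Fintype.card_fin] at h
  have : Nat.factorial 8 = 40320 := by decide
  omega

theorem card_A7 : Nat.card (alternatingGroup (Fin 7)) = 2520 := by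
  have h := two_mul_nat_card_alternatingGroup (α := Fin 7)
  rw [Nat.card_perm, Nat.card_eq_fintype_card (α := Fin 7), Fintype.card_fin] at h
  have : Nat.factorial 7 = 5040 := by decide
  omega

theorem exists_A7 : ∃ K : Subgroup (alternatingGroup (Fin 8)), Nonempty (K ≃* alternatingGroup (Fin 7)) := by
  classical
  let e : Fin 7 ≃ {i : Fin 8 // i ≠ Fin.last 7} := finSuccAboveEquiv (Fin.last 7)
  let φ : alternatingGroup (Fin 7) →* alternatingGroup (Fin 8) :=
    { toFun := fun s => ⟨(s : Equiv.Perm (Fin 7)).extendDomain e, by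
        rw [Equiv.Perm.mem_alternatingGroup, Equiv.Perm.sign_extendDomain]
        exact Equiv.Perm.mem_alternatingGroup.1 s.2⟩
      map_one' := Subtype.ext (Equiv.Perm.extendDomain_one e)
      map_mul' := fun a b => Subtype.ext (Equiv.Perm.extendDomain_mul e (a : Equiv.Perm (Fin 7)) (b : Equiv.Perm (Fin 7))).symm }
  have hφ : Function.Injective φ := by
    intro a b hab
    apply Subtype.ext
    exact Equiv.Perm.extendDomainHom_injective e (congrArg Subtype.val hab)
  exact ⟨φ.range, ⟨(MonoidHom.ofInjective hφ).symm⟩⟩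

/-- Let F be the field with 2 elements. GL_4(F) (≅ A_8) has a subgroup isomorphic to the alternating group A_7, and every such subgroup acts 2-transitively on the 15 non-zero vectors of F⁴: any ordered pair of distinct non-zero vectors is carried to any other by some element of the subgroup. -/
theorem result {F : Type*} [Field F] [Fintype F] (hF : Fintype.card F = 2) : (∃ H : Subgroup (Matrix.GeneralLinearGroup (Fin 4) F), Nonempty (H ≃* alternatingGroup (Fin 7))) ∧ ∀ H : Subgroup (Matrix.GeneralLinearGroup (Fin 4) F), Nonempty (H ≃* alternatingGroup (Fin 7)) → ∀ v w v' w' : Fin 4 → F, v ≠ 0 → w ≠ 0 → v ≠ w → v' ≠ 0 → w' ≠ 0 → v' ≠ w' → ∃ g ∈ H, (g : Matrix (Fin 4) (Fin 4) F).mulVec v = v' ∧ (g : Matrix (Fin 4) (Fin 4) F).mulVec w = w' := by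
  constructor
  · obtain ⟨f, hf⟩ := H18.GL42.gl_inj hF
    have hbij : Function.Bijective f := by
      rw [Nat.bijective_iff_injective_and_card]
      refine ⟨hf, ?_⟩
      rw [card_A8]
      exact card_GL hF
    obtain ⟨K, ⟨eK⟩⟩ := exists_A7
    let e := MulEquiv.ofBijective f hbij
    refine ⟨K.map e.symm.toMonoidHom, ⟨?_⟩⟩
    exact (K.equivMapOfInjective e.symm.toMonoidHom e.symm.injective).symm.trans eK
  · rintro H ⟨eH⟩ v w v' w' hv hw hvw hv' hw' hvw'
    have hcard : Nat.card H = 2520 := by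
      rw [Nat.card_congr eH.toEquiv, card_A7]
    haveI : Finite H := Nat.finite_of_card_ne_zero (by rw [hcard]; norm_num)
    obtain ⟨g, h1, h2⟩ := two_trans hF H.subtype H.subtype_injective hcard hv hw hvw hv' hw' hvw'
    exact ⟨(g : GL (Fin 4) F), g.2, h1, h2⟩

end Cfsg.Agent.S2551
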