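import Cfsg.Statements.S2552
import Mathlib

set_option autoImplicit false
open Cfsg

namespace Cfsg.Agent.S2552

open Module in
theorem adapted {F V : Type*} [Field F] [AddCommGroup V] [Module F V] [FiniteDimensional F V] (U : Submodule F V)
    {k l : ℕ} (hk : finrank F U = k) (hl : finrank F V = k + l) :
    ∃ b : Basis (Fin k ⊕ Fin l) F V, U = Submodule.span F (Set.range (fun i : Fin k => b (Sum.inl i))) := by
  obtain ⟨W, hW⟩ := U.exists_isCompl
  have hWl : finrank F W = l := by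
    have := Submodule.finrank_add_eq_of_isCompl hW
    omega
  let bU := (finBasisOfFinrankEq F U hk)
  let bW := (finBasisOfFinrankEq F W hWl)
  let b := (bU.prod bW).map (Submodule.prodEquivOfIsCompl U W hW)
  have hb : ∀ i : Fin k, b (Sum.inl i) = (bU i : V) := by
    intro i
    simp [b]
  refine ⟨b, ?_⟩
  have h1 : (fun i : Fin k => b (Sum.inl i)) = U.subtype ∘ bU := by
    funext i; exact hb i
  rw [h1, Set.range_comp, Submodule.span_image, bU.span_eq, Submodule.map_top, Submodule.range_subtype]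

/-- Let F be a finite field and n ≥ 1. For every k, the special linear group SL_n(F) acts transitively on the set of k-dimensional subspaces of F^n: any two subspaces of the same dimension are carried onto each other by some matrix of determinant 1. -/
theorem result {F : Type*} [Field F] [Fintype F] (n : ℕ) (hn : 1 ≤ n) (U₁ U₂ : Submodule F (Fin n → F)) (h : Module.finrank F U₁ = Module.finrank F U₂) : ∃ g : Matrix.SpecialLinearGroup (Fin n) F, U₁.map ((Matrix.SpecialLinearGroup.toLin' g : (Fin n → F) ≃ₗ[F] (Fin n → F)) : (Fin n → F) →ₗ[F] (Fin n → F)) = U₂ := by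
  classical
  set k := Module.finrank F U₁ with hk
  have hkn : k ≤ n := by
    have := Submodule.finrank_le U₁
    rw [Module.finrank_fin_fun] at this
    exact this
  obtain ⟨l, hl⟩ : ∃ l, n = k + l := ⟨n - k, by omega⟩
  obtain ⟨b₁, hb₁⟩ := adapted U₁ hk.symm (l := l) (by rw [Module.finrank_fin_fun, hl])
  obtain ⟨b₂, hb₂⟩ := adapted U₂ h.symm (l := l) (by rw [Module.finrank_fin_fun, hl])
  obtain ⟨j0⟩ : Nonempty (Fin k ⊕ Fin l) := by
    rcases Nat.eq_zero_or_pos k with h0 | h0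
    · exact ⟨Sum.inr ⟨0, by omega⟩⟩
    · exact ⟨Sum.inl ⟨0, h0⟩⟩
  let a : Fˣ := (LinearEquiv.det (b₁.equiv b₂ (Equiv.refl _)))⁻¹
  let w : Fin k ⊕ Fin l → Fˣ := Function.update 1 j0 a
  let e : (Fin n → F) ≃ₗ[F] (Fin n → F) := (b₁.equiv b₂ (Equiv.refl _)).trans (b₂.equiv (b₂.unitsSMul w) (Equiv.refl _))
  have hdet2 : LinearMap.det (b₂.equiv (b₂.unitsSMul w) (Equiv.refl _) : (Fin n → F) →ₗ[F] (Fin n → F)) = a := by
    rw [← LinearMap.det_toMatrix b₂]
    have : LinearMap.toMatrix b₂ b₂ (b₂.equiv (b₂.unitsSMul w) (Equiv.refl _) : (Fin n → F) →ₗ[F] (Fin n → F)) = Matrix.diagonal (fun j => (w j : F)) := by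
      ext i j
      rw [LinearMap.toMatrix_apply, Matrix.diagonal_apply]
      simp only [LinearEquiv.coe_coe, Module.Basis.equiv_apply, Equiv.refl_apply, Module.Basis.unitsSMul_apply, Units.smul_def, map_smul, Finsupp.smul_apply, Module.Basis.repr_self, smul_eq_mul, Finsupp.single_apply]
      by_cases hij : i = j
      · subst hij; simp
      · simp [hij, Ne.symm hij]
    rw [this, Matrix.det_diagonal, Finset.prod_eq_single j0]
    · simp [w]
    · intro j _ hj; simp [w, Function.update_of_ne hj]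
    · intro hj; exact absurd (Finset.mem_univ _) hj
  have hdet : LinearMap.det (e : (Fin n → F) →ₗ[F] (Fin n → F)) = 1 := by
    have h1 : (e : (Fin n → F) →ₗ[F] (Fin n → F)) = (b₂.equiv (b₂.unitsSMul w) (Equiv.refl _) : (Fin n → F) →ₗ[F] (Fin n → F)) ∘ₗ (b₁.equiv b₂ (Equiv.refl _) : (Fin n → F) →ₗ[F] (Fin n → F)) := rfl
    rw [h1, LinearMap.det_comp, hdet2]
    have h2 : LinearMap.det (b₁.equiv b₂ (Equiv.refl _) : (Fin n → F) →ₗ[F] (Fin n → F)) = (LinearEquiv.det (b₁.equiv b₂ (Equiv.refl _)) : Fˣ) := (LinearEquiv.coe_det _).symm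
    rw [h2, ← Units.val_mul, inv_mul_cancel, Units.val_one]
  let M : Matrix (Fin n) (Fin n) F := LinearMap.toMatrix' (e : (Fin n → F) →ₗ[F] (Fin n → F))
  have hM : M.det = 1 := by
    rw [← hdet]; exact LinearMap.det_toMatrix' (e : (Fin n → F) →ₗ[F] (Fin n → F))
  refine ⟨⟨M, hM⟩, ?_⟩
  have h3 : ((Matrix.SpecialLinearGroup.toLin' (⟨M, hM⟩ : Matrix.SpecialLinearGroup (Fin n) F) : (Fin n → F) ≃ₗ[F] (Fin n → F)) : (Fin n → F) →ₗ[F] (Fin n → F)) = (e : (Fin n → F) →ₗ[F] (Fin n → F)) := by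
    apply LinearMap.ext
    intro v
    show Matrix.toLin' M v = e v
    rw [Matrix.toLin'_toMatrix']
    rfl
  rw [h3, hb₁, hb₂, Submodule.map_span, ← Set.range_comp]
  have h4 : (⇑(e : (Fin n → F) →ₗ[F] (Fin n → F)) ∘ fun i : Fin k => b₁ (Sum.inl i)) = fun i : Fin k => (w (Sum.inl i)) • b₂ (Sum.inl i) := by
    funext i
    simp [e, Module.Basis.unitsSMul_apply]
  rw [h4]
  apply le_antisymm
  · rw [Submodule.span_le]
    rintro _ ⟨i, rfl⟩
    exact Submodule.smul_mem _ _ (Submodule.subset_span ⟨i, rfl⟩)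
  · rw [Submodule.span_le]
    rintro _ ⟨i, rfl⟩
    have h5 := Submodule.smul_mem (Submodule.span F (Set.range fun i : Fin k => (w (Sum.inl i)) • b₂ (Sum.inl i))) (((w (Sum.inl i))⁻¹ : Fˣ) : F) (Submodule.subset_span ⟨i, rfl⟩)
    simp only [Units.smul_def, smul_smul, Units.inv_mul, one_smul] at h5
    exact h5

end Cfsg.Agent.S2552
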