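import Cfsg.Statements.S2561
import Cfsg.Agent.H16.QF2

set_option autoImplicit false
open Cfsg

namespace Cfsg.Agent.S2561

open Cfsg.Agent.H16.QF2 Cfsg.Agent.H5 in
lemma Qw_inj (m : ℕ) : Function.Injective (fun w : VV m => (fun v => Qw m w v)) := by
  intro w w' h
  have h1 : ∀ v, ff m v w = ff m v w' := by
    intro v
    have := congrFun h v
    simp only [Qw_apply] at this
    exact add_left_cancel this
  have h2 : w - w' = 0 := by
    apply nd_plus (m := m) (F := ZMod 2)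
    intro v
    have := h1 v
    rw [ff_symm, ff_symm m v w', ff_eq, ff_eq] at this
    rw [map_sub, LinearMap.sub_apply, this, sub_self]
  exact sub_eq_zero.1 h2

open Cfsg.Agent.H16.QF2 Cfsg.Agent.H5 in
lemma card_forms (m : ℕ) (P : (VV m → ZMod 2) → Prop) :
    Nat.card {q : VV m → ZMod 2 // IsPol m q ∧ P q} = Nat.card {w : VV m // P (fun v => Qw m w v)} := by
  symm
  apply Nat.card_congr
  refine Equiv.ofBijective (fun w => ⟨fun v => Qw m w.1 v, Qw_pol m w.1, w.2⟩) ⟨?_, ?_⟩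
  · intro w w' h
    apply Subtype.ext
    apply Qw_inj m
    exact congrArg Subtype.val h
  · rintro ⟨q, hq, hP⟩
    obtain ⟨w, hw⟩ := exists_w m hq
    have hq' : q = fun v => Qw m w v := funext hw
    subst hq'
    exact ⟨⟨w, hP⟩, rfl⟩

/-- Fix the non-singular alternating form on the 2m-dimensional space over the field of two elements obtained by polarizing the plus-type form Σ xᵢyᵢ (m ≥ 1). The functions q on the space with q(u + v) = q(u) + q(v) + f(u, v) (the quadratic forms polarizing to f) number 2^(2m); each is equivalent under an invertible linear map either to the plus-type form or to the minus-type form Σ xᵢyᵢ + (z₁² + z₁z₂ + z₂²); and those of plus type number 2^(2m−1) + 2^(m−1), those of minus type 2^(2m−1) − 2^(m−1). -/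
theorem result (m : ℕ) (hm : 1 ≤ m) :
    Nat.card {q : (Fin m ⊕ Fin m → ZMod 2) → ZMod 2 // (∀ u v : (Fin m ⊕ Fin m → ZMod 2), q (u + v) = q u + q v + (Cfsg.quadFormPlus m (ZMod 2) (u + v) - Cfsg.quadFormPlus m (ZMod 2) u - Cfsg.quadFormPlus m (ZMod 2) v))} = 2 ^ (2 * m) ∧
    (∀ q : (Fin m ⊕ Fin m → ZMod 2) → ZMod 2, (∀ u v : (Fin m ⊕ Fin m → ZMod 2), q (u + v) = q u + q v + (Cfsg.quadFormPlus m (ZMod 2) (u + v) - Cfsg.quadFormPlus m (ZMod 2) u - Cfsg.quadFormPlus m (ZMod 2) v)) →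
      (∃ g : (Fin m ⊕ Fin m → ZMod 2) ≃ₗ[ZMod 2] (Fin m ⊕ Fin m → ZMod 2), ∀ v, q v = Cfsg.quadFormPlus m (ZMod 2) (g v)) ∨
      (∃ g : (Fin m ⊕ Fin m → ZMod 2) ≃ₗ[ZMod 2] ((Fin (m - 1) ⊕ Fin (m - 1)) ⊕ Fin 2 → ZMod 2), ∀ v, q v = Cfsg.quadFormMinus (m - 1) (ZMod 2) 1 1 (g v))) ∧
    Nat.card {q : (Fin m ⊕ Fin m → ZMod 2) → ZMod 2 // (∀ u v : (Fin m ⊕ Fin m → ZMod 2), q (u + v) = q u + q v + (Cfsg.quadFormPlus m (ZMod 2) (u + v) - Cfsg.quadFormPlus m (ZMod 2) u - Cfsg.quadFormPlus m (ZMod 2) v)) ∧ ∃ g : (Fin m ⊕ Fin m → ZMod 2) ≃ₗ[ZMod 2] (Fin m ⊕ Fin m → ZMod 2), ∀ v, q v = Cfsg.quadFormPlus m (ZMod 2) (g v)} = 2 ^ (2 * m - 1) + 2 ^ (m - 1) ∧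
    Nat.card {q : (Fin m ⊕ Fin m → ZMod 2) → ZMod 2 // (∀ u v : (Fin m ⊕ Fin m → ZMod 2), q (u + v) = q u + q v + (Cfsg.quadFormPlus m (ZMod 2) (u + v) - Cfsg.quadFormPlus m (ZMod 2) u - Cfsg.quadFormPlus m (ZMod 2) v)) ∧ ∃ g : (Fin m ⊕ Fin m → ZMod 2) ≃ₗ[ZMod 2] ((Fin (m - 1) ⊕ Fin (m - 1)) ⊕ Fin 2 → ZMod 2), ∀ v, q v = Cfsg.quadFormMinus (m - 1) (ZMod 2) 1 1 (g v)} = 2 ^ (2 * m - 1) - 2 ^ (m - 1) := by
  classical
  have hcard : Nat.card (Cfsg.Agent.H16.QF2.VV m) = 2 ^ (2 * m) := by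
    rw [Nat.card_eq_fintype_card, Fintype.card_fun, ZMod.card, Fintype.card_sum, Fintype.card_fin]
    congr 1; omega
  refine ⟨?_, ?_, ?_, ?_⟩
  · have h := card_forms m (fun _ => True)
    have e1 : Nat.card {w : Cfsg.Agent.H16.QF2.VV m // True} = Nat.card (Cfsg.Agent.H16.QF2.VV m) := Nat.card_congr (Equiv.subtypeUnivEquiv fun _ => trivial)
    rw [e1, hcard] at h
    rw [← h]
    apply Nat.card_congr
    exact Equiv.subtypeEquivRight fun q => ⟨fun h => ⟨h, trivial⟩, fun h => h.1⟩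
  · intro q hq
    obtain ⟨w, hw⟩ := Cfsg.Agent.H16.QF2.exists_w m hq
    by_cases h : Cfsg.Agent.H16.QF2.q0 m w = 0
    · left
      obtain ⟨g, hg⟩ := (Cfsg.Agent.H16.QF2.plus_iff m hm w).2 h
      exact ⟨g, fun v => by rw [hw, hg]⟩
    · right
      obtain ⟨g, hg⟩ := (Cfsg.Agent.H16.QF2.minus_iff m hm w).2 h
      exact ⟨g, fun v => by rw [hw, hg]⟩
  · refine (card_forms m (fun q => ∃ g : (Fin m ⊕ Fin m → ZMod 2) ≃ₗ[ZMod 2] (Fin m ⊕ Fin m → ZMod 2), ∀ v, q v = Cfsg.quadFormPlus m (ZMod 2) (g v))).trans ?_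
    have h1 := Cfsg.Agent.H16.QF2.card_level m hm 0
    rw [if_pos rfl] at h1
    rw [← h1]
    apply Nat.card_congr
    exact Equiv.subtypeEquivRight fun w => Cfsg.Agent.H16.QF2.plus_iff m hm w
  · refine (card_forms m (fun q => ∃ g : (Fin m ⊕ Fin m → ZMod 2) ≃ₗ[ZMod 2] ((Fin (m - 1) ⊕ Fin (m - 1)) ⊕ Fin 2 → ZMod 2), ∀ v, q v = Cfsg.quadFormMinus (m - 1) (ZMod 2) 1 1 (g v))).trans ?_
    have h1 := Cfsg.Agent.H16.QF2.card_level m hm 1
    rw [if_neg one_ne_zero] at h1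
    rw [← h1]
    apply Nat.card_congr
    refine Equiv.subtypeEquivRight fun w => (Cfsg.Agent.H16.QF2.minus_iff m hm w).trans ?_
    have : ∀ x : ZMod 2, x ≠ 0 ↔ x = 1 := by decide
    exact this _

end Cfsg.Agent.S2561
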