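import Cfsg.Statements.S2563
import Cfsg.Agent.H5.PermMod
import Cfsg.Agent.H5.O6plus2
import Cfsg.Agent.H16.QF2

set_option autoImplicit false
set_option linter.all false
open Cfsg

namespace Cfsg.Agent.S2563

open Cfsg.Agent.H5

theorem bil_id {n : ℕ} {F : Type*} [CommRing F] (u v : Fin n → F) :
    (∑ p ∈ (Finset.univ : Finset (Fin n × Fin n)).filter (fun p => p.1 < p.2), (u p.1 * v p.2 + u p.2 * v p.1)) + ∑ i, u i * v i =
      (∑ i, u i) * (∑ i, v i) := by
  rw [Finset.sum_mul_sum, ← Fintype.sum_prod_type' (f := fun i j => u i * v j)]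
  rw [← Finset.sum_filter_add_sum_filter_not Finset.univ (fun p : Fin n × Fin n => p.1 < p.2)]
  rw [← Finset.sum_filter_add_sum_filter_not (Finset.univ.filter (fun p : Fin n × Fin n => ¬ p.1 < p.2)) (fun p : Fin n × Fin n => p.2 < p.1)]
  rw [Finset.sum_add_distrib, add_assoc]
  congr 1
  congr 1
  · apply Finset.sum_nbij' (i := fun p => (p.2, p.1)) (j := fun p => (p.2, p.1))
    · intro p hp
      simp only [Finset.mem_filter, Finset.mem_univ, true_and] at hp ⊢
      exact ⟨not_lt.2 hp.le, hp⟩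
    · intro p hp
      simp only [Finset.mem_filter, Finset.mem_univ, true_and] at hp ⊢
      exact hp.2
    · intro p _; rfl
    · intro p _; rfl
    · intro p _; rfl
  · apply Finset.sum_nbij' (i := fun i => (i, i)) (j := fun p => p.1)
    · intro p hp
      simp
    · intro p hp
      simp
    · intro p _; rfl
    · intro p hp
      simp only [Finset.mem_filter, Finset.mem_univ, true_and, not_lt] at hp
      exact Prod.ext rfl (le_antisymm hp.2 hp.1)
    · intro p _; rfl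

theorem esq_add {n : ℕ} {F : Type*} [CommRing F] (u v : Fin n → F) :
    esq (fun i => u i + v i) + ∑ i, u i * v i = esq u + esq v + (∑ i, u i) * (∑ i, v i) := by
  rw [← bil_id u v]
  unfold esq
  rw [← add_assoc, ← Finset.sum_add_distrib, ← Finset.sum_add_distrib]
  congr 1
  apply Finset.sum_congr rfl
  intro p _
  ring

theorem esq_sq {n : ℕ} {F : Type*} [CommRing F] (v : Fin n → F) :
    2 * esq v + ∑ i, v i * v i = (∑ i, v i) ^ 2 := by
  rw [sq, ← bil_id v v]
  unfold esq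
  rw [Finset.mul_sum]
  congr 1
  apply Finset.sum_congr rfl
  intro p _
  ring

theorem esq_map {n : ℕ} {F K : Type*} [CommRing F] [CommRing K] (f : F →+* K) (v : Fin n → F) :
    esq (fun i => f (v i)) = f (esq v) := by
  unfold esq
  rw [map_sum]
  apply Finset.sum_congr rfl
  intro p _
  rw [map_mul]

theorem esq_ones (k : ℕ) (c : ZMod 2) : esq (fun _ : Fin (4 * k + 4) => c) = 0 := by
  have h1 := esq_sq (fun _ : Fin (4 * k + 4) => (1 : ℤ))
  simp only [mul_one, Finset.sum_const, Finset.card_univ, Fintype.card_fin, nsmul_eq_mul] at h1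
  push_cast at h1
  have h2 : esq (fun _ : Fin (4 * k + 4) => (1 : ℤ)) = 2 * ((k + 1) * (4 * k + 3)) := by linarith
  have h3 := esq_map (Int.castRingHom (ZMod 2)) (fun _ : Fin (4 * k + 4) => (1 : ℤ))
  rw [h2] at h3
  simp only [map_one, map_mul] at h3
  have h4 : (Int.castRingHom (ZMod 2)) 2 = 0 := by decide
  rw [h4, zero_mul] at h3
  have hc : ∀ x : ZMod 2, x = 0 ∨ x = 1 := by decide
  rcases hc c with rfl | rfl
  · unfold esq
    simp
  · exact h3

theorem esq_const (k : ℕ) (v : Fin (4 * k + 4) → ZMod 2) (c : ZMod 2) (hs : ∑ i, v i = 0) :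
    esq (fun i => v i + c) = esq v := by
  have h1 := esq_add v (fun _ => c)
  rw [esq_ones, ← Finset.sum_mul, hs] at h1
  simpa using h1

def lft {n : ℕ} (v : Fin n → ZMod 2) : Fin n → ℤ := fun i => ((v i).val : ℤ)

theorem esq_zero_iff {n : ℕ} (v : Fin n → ZMod 2) (hs : ∑ i, v i = 0) :
    esq v = 0 ↔ (∑ i, ((v i).val : ZMod 4)) = 0 := by
  have h1 := esq_sq (lft v)
  have h2 : ∀ i, lft v i * lft v i = lft v i := by
    intro i
    unfold lft
    have : ∀ x : ZMod 2, ((x.val : ℤ) * (x.val : ℤ)) = (x.val : ℤ) := by decide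
    exact this _
  rw [Finset.sum_congr rfl (fun i _ => h2 i)] at h1
  have h3 : esq v = ((esq (lft v) : ℤ) : ZMod 2) := by
    have := esq_map (Int.castRingHom (ZMod 2)) (lft v)
    simp only [Int.coe_castRingHom] at this
    rw [← this]
    congr 1
    funext i
    unfold lft
    simp
  have h4 : (∑ i, ((v i).val : ZMod 4)) = ((∑ i, lft v i : ℤ) : ZMod 4) := by
    push_cast
    apply Finset.sum_congr rfl
    intro i _
    unfold lft
    simp
  have h5 : ((∑ i, lft v i : ℤ) : ZMod 2) = 0 := by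
    rw [← hs]
    push_cast
    apply Finset.sum_congr rfl
    intro i _
    unfold lft
    simp
  rw [h3, h4]
  generalize (∑ i, lft v i : ℤ) = w at *
  generalize esq (lft v) = q at *
  rw [show ((q : ℤ) : ZMod 2) = 0 ↔ (2 : ℤ) ∣ q from by
    rw [ZMod.intCast_zmod_eq_zero_iff_dvd]; norm_num]
  rw [show ((w : ℤ) : ZMod 4) = 0 ↔ (4 : ℤ) ∣ w from by
    rw [ZMod.intCast_zmod_eq_zero_iff_dvd]; norm_num]
  rw [show ((w : ℤ) : ZMod 2) = 0 ↔ (2 : ℤ) ∣ w from by
    rw [ZMod.intCast_zmod_eq_zero_iff_dvd]; norm_num] at h5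
  obtain ⟨t, rfl⟩ := h5
  have h6 : q = t * (2 * t - 1) := by nlinarith
  rw [h6]
  constructor
  · intro h
    have : (2 : ℤ) ∣ t := by
      have h7 : t * (2 * t - 1) = 2 * (t * t) - t := by ring
      rw [h7] at h
      obtain ⟨s, hs⟩ := h
      exact ⟨t * t - s, by linarith⟩
    obtain ⟨s, rfl⟩ := this
    exact ⟨s, by ring⟩
  · rintro ⟨s, hs⟩
    have : t = 2 * s := by linarith
    rw [this]
    exact ⟨s * (2 * (2 * s) - 1), by ring⟩

/-- the number of vectors of a given weight modulo four -/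
noncomputable def cw (n : ℕ) (r : ZMod 4) : ℕ := Nat.card {v : Fin n → ZMod 2 // (∑ i, ((v i).val : ZMod 4)) = r}

theorem cw_succ (n : ℕ) (r : ZMod 4) : cw (n + 1) r = cw n r + cw n (r - 1) := by
  unfold cw
  rw [← Nat.card_sum]
  apply Nat.card_congr
  have hz : ∀ x : ZMod 2, x = 0 ∨ x = 1 := by decide
  refine
    { toFun := fun v => if h : v.1 0 = 0 then Sum.inl ⟨fun i => v.1 i.succ, ?_⟩ else Sum.inr ⟨fun i => v.1 i.succ, ?_⟩
      invFun := fun s => s.elim (fun w => ⟨Fin.cons 0 w.1, ?_⟩) (fun w => ⟨Fin.cons 1 w.1, ?_⟩)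
      left_inv := ?_
      right_inv := ?_ }
  · have := v.2
    rw [Fin.sum_univ_succ, h] at this
    simpa using this
  · have := v.2
    rw [Fin.sum_univ_succ, (hz _).resolve_left h] at this
    have h1 : ((1 : ZMod 2).val : ZMod 4) = 1 := by decide
    rw [h1] at this
    exact eq_sub_of_add_eq' this
  · rw [Fin.sum_univ_succ]
    simpa using w.2
  · rw [Fin.sum_univ_succ]
    simp only [Fin.cons_zero, Fin.cons_succ]
    rw [w.2]
    have : ((1 : ZMod 2).val : ZMod 4) = 1 := by decide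
    rw [this]; ring
  · intro v
    by_cases h : v.1 0 = 0
    · simp only [h, dif_pos, Sum.elim_inl]
      apply Subtype.ext
      funext i
      refine Fin.cases ?_ (fun j => ?_) i
      · simp [h]
      · simp
    · simp only [h, dif_neg, not_false_eq_true, Sum.elim_inr]
      apply Subtype.ext
      funext i
      refine Fin.cases ?_ (fun j => ?_) i
      · simp [(hz _).resolve_left h]
      · simp
  · intro s
    rcases s with w | w
    · simp
    · simp

theorem cw_closed (k : ℕ) : (cw (4 * k + 3) 0 : ℤ) = 2 ^ (4 * k + 1) - (-4) ^ k ∧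
    (cw (4 * k + 3) 1 : ℤ) = 2 ^ (4 * k + 1) + (-4) ^ k ∧ (cw (4 * k + 3) 2 : ℤ) = 2 ^ (4 * k + 1) + (-4) ^ k ∧
    (cw (4 * k + 3) 3 : ℤ) = 2 ^ (4 * k + 1) - (-4) ^ k := by
  have e1 : (0 : ZMod 4) - 1 = 3 := by decide
  have e2 : (1 : ZMod 4) - 1 = 0 := by decide
  have e3 : (2 : ZMod 4) - 1 = 1 := by decide
  have e4 : (3 : ZMod 4) - 1 = 2 := by decide
  induction k with
  | zero =>
    have h0 : cw 3 0 = 1 ∧ cw 3 1 = 3 ∧ cw 3 2 = 3 ∧ cw 3 3 = 1 := by
      unfold cw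
      simp only [Nat.card_eq_fintype_card]
      decide
    simp only [mul_zero, zero_add, pow_zero, pow_one]
    rw [h0.1, h0.2.1, h0.2.2.1, h0.2.2.2]
    norm_num
  | succ k ih =>
    obtain ⟨h1, h2, h3, h4⟩ := ih
    have e : 4 * (k + 1) + 3 = (4 * k + 3) + 1 + 1 + 1 + 1 := by ring
    rw [e]
    have key : ∀ N : ℕ, (cw (N + 1 + 1 + 1 + 1) 0 : ℤ) = 2 * cw N 0 + 4 * cw N 3 + 6 * cw N 2 + 4 * cw N 1 ∧
        (cw (N + 1 + 1 + 1 + 1) 1 : ℤ) = 2 * cw N 1 + 4 * cw N 0 + 6 * cw N 3 + 4 * cw N 2 ∧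
        (cw (N + 1 + 1 + 1 + 1) 2 : ℤ) = 2 * cw N 2 + 4 * cw N 1 + 6 * cw N 0 + 4 * cw N 3 ∧
        (cw (N + 1 + 1 + 1 + 1) 3 : ℤ) = 2 * cw N 3 + 4 * cw N 2 + 6 * cw N 1 + 4 * cw N 0 := by
      intro N
      have f1 : ∀ n, cw (n + 1) 0 = cw n 0 + cw n 3 := fun n => by rw [cw_succ, e1]
      have f2 : ∀ n, cw (n + 1) 1 = cw n 1 + cw n 0 := fun n => by rw [cw_succ, e2]
      have f3 : ∀ n, cw (n + 1) 2 = cw n 2 + cw n 1 := fun n => by rw [cw_succ, e3]
      have f4 : ∀ n, cw (n + 1) 3 = cw n 3 + cw n 2 := fun n => by rw [cw_succ, e4]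
      rw [f1 (N + 1 + 1 + 1), f2 (N + 1 + 1 + 1), f3 (N + 1 + 1 + 1), f4 (N + 1 + 1 + 1), f1 (N + 1 + 1), f2 (N + 1 + 1),
        f3 (N + 1 + 1), f4 (N + 1 + 1), f1 (N + 1), f2 (N + 1), f3 (N + 1), f4 (N + 1), f1 N, f2 N, f3 N, f4 N]
      push_cast
      refine ⟨?_, ?_, ?_, ?_⟩ <;> ring
    obtain ⟨k1, k2, k3, k4⟩ := key (4 * k + 3)
    rw [k1, k2, k3, k4, h1, h2, h3, h4]
    have p1 : (2 : ℤ) ^ (4 * (k + 1) + 1) = 16 * 2 ^ (4 * k + 1) := by
      rw [show 4 * (k + 1) + 1 = (4 * k + 1) + 4 by ring, pow_add]; norm_num; ring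
    have p2 : (-4 : ℤ) ^ (k + 1) = -4 * (-4) ^ k := by rw [pow_succ]; ring
    rw [p1, p2]
    refine ⟨?_, ?_, ?_, ?_⟩ <;> ring

/-- the quadratic form -/
noncomputable def qE (N : ℕ) : QuadraticForm (ZMod 2) (E0 (ZMod 2) N) :=
  ∑ p ∈ (Finset.univ : Finset (Fin (N + 1) × Fin (N + 1))).filter (fun p => p.1 < p.2),
    QuadraticMap.linMulLin ((LinearMap.proj p.1).comp (E0 (ZMod 2) N).subtype) ((LinearMap.proj p.2).comp (E0 (ZMod 2) N).subtype)

theorem qE_apply (N : ℕ) (v : E0 (ZMod 2) N) : qE N v = esq (v : Fin (N + 1) → ZMod 2) := by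
  rw [qE, QuadraticMap.sum_apply]
  rfl

theorem pB_qE (N : ℕ) (u v : E0 (ZMod 2) N) : pB (qE N) u v = dotB (ZMod 2) N u v := by
  rw [pB_apply, QuadraticMap.polar, qE_apply, qE_apply, qE_apply, dotB_apply]
  have h1 := esq_add (u : Fin (N + 1) → ZMod 2) (v : Fin (N + 1) → ZMod 2)
  rw [u.2.1, zero_mul, add_zero] at h1
  have h2 : esq ((u + v : E0 (ZMod 2) N) : Fin (N + 1) → ZMod 2) = esq (fun i => (u : Fin (N + 1) → ZMod 2) i + (v : Fin (N + 1) → ZMod 2) i) := rfl
  rw [h2]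
  generalize esq (fun i => (u : Fin (N + 1) → ZMod 2) i + (v : Fin (N + 1) → ZMod 2) i) = a at *
  generalize esq (u : Fin (N + 1) → ZMod 2) = b at *
  generalize esq (v : Fin (N + 1) → ZMod 2) = c at *
  generalize ∑ i, (u : Fin (N + 1) → ZMod 2) i * (v : Fin (N + 1) → ZMod 2) i = d at *
  revert h1
  revert a b c d
  decide

theorem zn_qE (k : ℕ) : zn (qE (4 * k + 3)) = cw (4 * k + 3) 0 := by
  unfold zn cw
  apply Nat.card_congr
  refine
    { toFun := fun v => ⟨fun i => (v.1 : Fin (4 * k + 3 + 1) → ZMod 2) i.castSucc, ?_⟩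
      invFun := fun w => ⟨⟨Fin.snoc w.1 0, ?_⟩, ?_⟩
      left_inv := ?_
      right_inv := ?_ }
  · have h1 := v.2
    rw [qE_apply, esq_zero_iff _ v.1.2.1, Fin.sum_univ_castSucc, v.1.2.2] at h1
    simpa using h1
  · rw [mem_E0]
    constructor
    · rw [Fin.sum_univ_castSucc]
      simp only [Fin.snoc_castSucc, Fin.snoc_last, add_zero]
      have h1 := w.2
      have h2 := congrArg (ZMod.castHom (show 2 ∣ 4 by norm_num) (ZMod 2)) h1
      rw [map_sum, map_zero] at h2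
      rw [← h2]
      apply Finset.sum_congr rfl
      intro i _
      rw [map_natCast]
      simp
    · simp
  · rw [qE_apply, esq_zero_iff]
    · show (∑ i, (((Fin.snoc w.1 0 : Fin (4 * k + 3 + 1) → ZMod 2) i).val : ZMod 4)) = 0
      rw [Fin.sum_univ_castSucc]
      simp only [Fin.snoc_castSucc, Fin.snoc_last]
      simpa using w.2
    · exact (Subtype.property _ : _ ∈ E0 (ZMod 2) (4 * k + 3)).1
  · intro v
    apply Subtype.ext
    apply Subtype.ext
    funext i
    refine Fin.lastCases ?_ (fun j => ?_) i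
    · show (Fin.snoc _ 0 : Fin (4 * k + 3 + 1) → ZMod 2) (Fin.last _) = _
      rw [Fin.snoc_last]
      exact v.1.2.2.symm
    · show (Fin.snoc _ 0 : Fin (4 * k + 3 + 1) → ZMod 2) (Fin.castSucc j) = _
      rw [Fin.snoc_castSucc]
  · intro w
    apply Subtype.ext
    funext i
    show (Fin.snoc w.1 0 : Fin (4 * k + 3 + 1) → ZMod 2) (Fin.castSucc i) = _
    rw [Fin.snoc_castSucc]

theorem hN4 (k : ℕ) : ((4 * k + 3 + 1 : ℕ) : ZMod 2) = 0 := by
  have : (4 * k + 3 + 1 : ℕ) = 2 * (2 * k + 2) := by ring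
  rw [this]
  push_cast
  have h2 : (2 : ZMod 2) = 0 := by decide
  rw [h2, zero_mul]

theorem nd_qE (k : ℕ) : ND (qE (4 * k + 3)) := by
  intro x hx
  apply dotB_nondeg (by decide) (hN4 k) (by omega)
  intro w
  rw [← pB_qE]
  exact hx w

theorem fr_qE (k : ℕ) : Module.finrank (ZMod 2) (E0 (ZMod 2) (4 * k + 3)) = 2 * (2 * k + 1) := by
  have := finrank_E0 (F := ZMod 2) (N := 4 * k + 3) (by omega)
  omega

theorem emb {ι : Type} [Fintype ι] [DecidableEq ι] (k : ℕ) (hk : 1 ≤ k) (Q : QuadraticForm (ZMod 2) (ι → ZMod 2))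
    (hnd : ND Q) (hfr : Module.finrank (ZMod 2) (ι → ZMod 2) = 2 * (2 * k + 1)) (hz : zn Q = cw (4 * k + 3) 0) :
    ∃ φ : Equiv.Perm (Fin (4 * k + 4)) →* ↥(Cfsg.isometryGroup (ZMod 2) (⇑Q)), Function.Injective φ := by
  classical
  obtain ⟨φ, hφ⟩ := Cfsg.Agent.H17.class_even (2 * k + 1) hnd (nd_qE k) hfr (fr_qE k) (hz.trans (zn_qE k).symm) (c := 1) one_ne_zero
  obtain ⟨e, he⟩ := Cfsg.Agent.H17.exists_simEquiv one_ne_zero hφ hnd (hfr.trans (fr_qE k).symm)
  have h2 : (2 : ZMod 2) = 0 := by decide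
  have hρ : ∀ (g : Equiv.Perm (Fin (4 * k + 3 + 1))) (x : ι → ZMod 2),
      Q (e.symm (prep h2 (hN4 k) g (e x))) = Q x := by
    intro g x
    have h3 : ∀ y, Q (e.symm y) = esq (y : Fin (4 * k + 3 + 1) → ZMod 2) := by
      intro y
      have := he (e.symm y)
      rw [e.apply_symm_apply, one_mul, qE_apply] at this
      exact this.symm
    rw [h3, prep_apply]
    have h1 : esq ((pact h2 (hN4 k) g (e x) : E0 (ZMod 2) (4 * k + 3)) : Fin (4 * k + 3 + 1) → ZMod 2) =
        esq (fun i => ((e x : E0 (ZMod 2) (4 * k + 3)) : Fin (4 * k + 3 + 1) → ZMod 2) (g⁻¹ i) +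
          ((e x : E0 (ZMod 2) (4 * k + 3)) : Fin (4 * k + 3 + 1) → ZMod 2) (g⁻¹ (Fin.last _))) := rfl
    rw [h1, esq_const k (fun i => ((e x : E0 (ZMod 2) (4 * k + 3)) : Fin (4 * k + 3 + 1) → ZMod 2) (g⁻¹ i)) _ (by
      rw [Equiv.sum_comp g⁻¹ (fun i => ((e x : E0 (ZMod 2) (4 * k + 3)) : Fin (4 * k + 3 + 1) → ZMod 2) i)]
      exact (e x).2.1), esq_perm (fun i => ((e x : E0 (ZMod 2) (4 * k + 3)) : Fin (4 * k + 3 + 1) → ZMod 2) i) g⁻¹]
    rw [← h3 (e x), e.symm_apply_apply]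
  exact ⟨isomHom (⇑Q) e (prep h2 (hN4 k)) hρ, isomHom_inj _ _ _ _ (prep_injective h2 (hN4 k) (by omega))⟩


/-- For k ≥ 1 the symmetric group of degree 4k + 4 embeds in a full orthogonal group in dimension 4k + 2 over the field of two elements: in the isometry group of the plus-type form Σ xᵢyᵢ when k is odd, and in that of the minus-type form Σ xᵢyᵢ + (z₁² + z₁z₂ + z₂²) when k is even (through its action on even partitions of a (4k+4)-set, with the form 'half the size of a part, modulo 2'). -/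
theorem result (k : ℕ) (hk : 1 ≤ k) :
    (Odd k → ∃ φ : Equiv.Perm (Fin (4 * k + 4)) →* ↥(Cfsg.isometryGroup (ZMod 2) (Cfsg.quadFormPlus (2 * k + 1) (ZMod 2))), Function.Injective φ) ∧
    (Even k → ∃ φ : Equiv.Perm (Fin (4 * k + 4)) →* ↥(Cfsg.isometryGroup (ZMod 2) (Cfsg.quadFormMinus (2 * k) (ZMod 2) 1 1)), Function.Injective φ) := by
  constructor
  · intro hodd
    have h := emb (ι := Fin (2 * k + 1) ⊕ Fin (2 * k + 1)) k hk (Cfsg.Agent.H5.qPlus (2 * k + 1) (ZMod 2)) nd_plus (by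
      rw [Module.finrank_fintype_fun_eq_card, Fintype.card_sum, Fintype.card_fin]; omega) (by
      unfold zn
      rw [qPlus_coe, Cfsg.Agent.H16.QF2.card_level (2 * k + 1) (by omega) 0, if_pos rfl]
      have h1 := (cw_closed k).1
      rw [hodd.neg_pow] at h1
      zify
      rw [h1]
      rw [show 2 * (2 * k + 1) - 1 = 4 * k + 1 by omega, show 2 * k + 1 - 1 = 2 * k by omega, pow_mul 2 2 k]
      norm_num)
    rw [qPlus_coe] at h
    exact h
  · intro heven
    have hz := Cfsg.Agent.H16.QF2.zn_min (2 * k + 1) (by omega)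
    have h := emb (ι := (Fin (2 * k) ⊕ Fin (2 * k)) ⊕ Fin 2) k hk (Cfsg.Agent.H5.qMinus (2 * k) (ZMod 2) 1 1) (Cfsg.Agent.H16.QF2.nd_min (2 * k)) (by
      rw [Module.finrank_fintype_fun_eq_card, Fintype.card_sum, Fintype.card_sum, Fintype.card_fin, Fintype.card_fin]; omega) (by
      rw [show 2 * k + 1 - 1 = 2 * k by omega] at hz
      rw [hz]
      have h1 := (cw_closed k).1
      rw [heven.neg_pow] at h1
      have h2 : 2 ^ (2 * k) ≤ 2 ^ (2 * (2 * k + 1) - 1) := Nat.pow_le_pow_right (by norm_num) (by omega)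
      zify [h2]
      rw [h1]
      rw [show 2 * (2 * k + 1) - 1 = 4 * k + 1 by omega, pow_mul 2 2 k]
      norm_num)
    rw [qMinus_coe] at h
    exact h

end Cfsg.Agent.S2563
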