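import Cfsg.Statements.S2564
import Cfsg.Agent.H16.QF2

set_option autoImplicit false
open Cfsg

namespace Cfsg.Agent.S2564

/-- On the 2m-dimensional space over the field of two elements (m ≥ 1) let f be the alternating form obtained by polarizing the plus-type form Σ xᵢyᵢ, and let q be any quadratic form polarizing to f. For a vector w, the function q + f(·, w) again polarizes to f, and it is equivalent to q under an invertible linear map (that is, has the same type) if and only if q(w) = 0. -/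
theorem result (m : ℕ) (hm : 1 ≤ m) (q : (Fin m ⊕ Fin m → ZMod 2) → ZMod 2) (hq : (∀ u v : (Fin m ⊕ Fin m → ZMod 2), q (u + v) = q u + q v + (Cfsg.quadFormPlus m (ZMod 2) (u + v) - Cfsg.quadFormPlus m (ZMod 2) u - Cfsg.quadFormPlus m (ZMod 2) v))) (w : (Fin m ⊕ Fin m → ZMod 2)) :
    (∀ u v : (Fin m ⊕ Fin m → ZMod 2), (q (u + v) + (Cfsg.quadFormPlus m (ZMod 2) (u + v + w) - Cfsg.quadFormPlus m (ZMod 2) (u + v) - Cfsg.quadFormPlus m (ZMod 2) w)) =
        (q u + (Cfsg.quadFormPlus m (ZMod 2) (u + w) - Cfsg.quadFormPlus m (ZMod 2) u - Cfsg.quadFormPlus m (ZMod 2) w)) + (q v + (Cfsg.quadFormPlus m (ZMod 2) (v + w) - Cfsg.quadFormPlus m (ZMod 2) v - Cfsg.quadFormPlus m (ZMod 2) w)) +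
        (Cfsg.quadFormPlus m (ZMod 2) (u + v) - Cfsg.quadFormPlus m (ZMod 2) u - Cfsg.quadFormPlus m (ZMod 2) v)) ∧
    ((∃ g : (Fin m ⊕ Fin m → ZMod 2) ≃ₗ[ZMod 2] (Fin m ⊕ Fin m → ZMod 2), ∀ v, q v + (Cfsg.quadFormPlus m (ZMod 2) (v + w) - Cfsg.quadFormPlus m (ZMod 2) v - Cfsg.quadFormPlus m (ZMod 2) w) = q (g v)) ↔ q w = 0) := by
  classical
  obtain ⟨w', hw'⟩ := Cfsg.Agent.H16.QF2.exists_w m hq
  have hff : ∀ u v : Fin m ⊕ Fin m → ZMod 2, Cfsg.quadFormPlus m (ZMod 2) (u + v) - Cfsg.quadFormPlus m (ZMod 2) u - Cfsg.quadFormPlus m (ZMod 2) v = Cfsg.Agent.H16.QF2.ff m u v := fun u v => rfl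
  have hqp : Cfsg.Agent.H16.QF2.IsPol m q := hq
  simp only [hff]
  constructor
  · intro u v
    rw [hqp u v, Cfsg.Agent.H16.QF2.ff_add_left]; ring
  have hq2 : ∀ v, q v + Cfsg.Agent.H16.QF2.ff m v w = Cfsg.Agent.H16.QF2.Qw m (w' + w) v := by
    intro v
    rw [hw', Cfsg.Agent.H16.QF2.Qw_apply, Cfsg.Agent.H16.QF2.Qw_apply, Cfsg.Agent.H16.QF2.ff_add_right]; ring
  have hz2 : Cfsg.Agent.H5.zn (Cfsg.Agent.H16.QF2.Qw m (w' + w)) = Nat.card {v : Cfsg.Agent.H16.QF2.VV m // q v = q w} := by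
    rw [← Cfsg.Agent.H16.QF2.zn_shift m hqp w]
    unfold Cfsg.Agent.H5.zn
    simp only [hq2]
  have hz1 : Cfsg.Agent.H5.zn (Cfsg.Agent.H16.QF2.Qw m w') = Nat.card {v : Cfsg.Agent.H16.QF2.VV m // q v = 0} := by
    unfold Cfsg.Agent.H5.zn
    simp only [hw']
  have hfr : Module.finrank (ZMod 2) (Cfsg.Agent.H16.QF2.VV m) = 2 * m := by
    rw [Module.finrank_fintype_fun_eq_card, Fintype.card_sum, Fintype.card_fin]; omega
  constructor
  · rintro ⟨g, hg⟩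
    by_contra hc
    have h1 : q w = 1 := by
      have : ∀ x : ZMod 2, x ≠ 0 → x = 1 := by decide
      exact this _ hc
    have h2 : Cfsg.Agent.H5.zn (Cfsg.Agent.H16.QF2.Qw m (w' + w)) = Nat.card {v : Cfsg.Agent.H16.QF2.VV m // q v = 0} := by
      unfold Cfsg.Agent.H5.zn
      apply Nat.card_congr
      exact Equiv.subtypeEquiv g.toEquiv fun v => by
        rw [← hq2, hg]; rfl
    rw [h2, h1] at hz2
    have h3 : Nat.card {v : Cfsg.Agent.H16.QF2.VV m // q v = 0} + Nat.card {v : Cfsg.Agent.H16.QF2.VV m // q v = 1} = 2 ^ (2 * m) := by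
      have hcard : Nat.card (Cfsg.Agent.H16.QF2.VV m) = 2 ^ (2 * m) := by
        rw [Nat.card_eq_fintype_card, Fintype.card_fun, ZMod.card, Fintype.card_sum, Fintype.card_fin]
        congr 1; omega
      rw [← hcard, ← Nat.card_sum]
      apply Nat.card_congr
      have e : ({v : Cfsg.Agent.H16.QF2.VV m // q v = 1}) ≃ {v : Cfsg.Agent.H16.QF2.VV m // ¬ q v = 0} :=
        Equiv.subtypeEquivRight fun v => by
          have : ∀ x : ZMod 2, x = 1 ↔ ¬ x = 0 := by decide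
          exact this _
      exact (Equiv.sumCongr (Equiv.refl _) e).trans (Equiv.sumCompl _)
    rw [← hz2, ← hz1, Cfsg.Agent.H16.QF2.zn_Qw m hm] at h3
    obtain ⟨k, rfl⟩ : ∃ k, m = k + 1 := ⟨m - 1, by omega⟩
    have e1 : k + 1 - 1 = k := rfl
    have e2 : 2 * (k + 1) - 1 = 2 * k + 1 := by omega
    have e3 : 2 ^ (2 * (k + 1)) = 2 * 2 ^ (2 * k + 1) := by ring
    rw [e1, e2, e3] at h3
    have h4 : 0 < 2 ^ k := by positivity
    have h5 : 2 ^ k ≤ 2 ^ (2 * k + 1) := Nat.pow_le_pow_right (by norm_num) (by omega)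
    split_ifs at h3 <;> omega
  · intro h
    have h1 : Cfsg.Agent.H5.zn (Cfsg.Agent.H16.QF2.Qw m (w' + w)) = Cfsg.Agent.H5.zn (Cfsg.Agent.H16.QF2.Qw m w') := by
      rw [hz2, hz1, h]
    obtain ⟨φ, hφ⟩ := Cfsg.Agent.H17.class_even m (Cfsg.Agent.H16.QF2.nd_Qw m (w' + w)) (Cfsg.Agent.H16.QF2.nd_Qw m w') hfr hfr h1 (c := 1) one_ne_zero
    obtain ⟨ψ, hψ⟩ := Cfsg.Agent.H17.exists_simEquiv one_ne_zero hφ (Cfsg.Agent.H16.QF2.nd_Qw m (w' + w)) rfl
    refine ⟨ψ, fun v => ?_⟩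
    have h2 := hψ v
    rw [one_mul] at h2
    rw [hq2, ← h2, hw']

end Cfsg.Agent.S2564
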