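import Cfsg.Statements.S2565
import Cfsg.Agent.H5.O6plus2

set_option autoImplicit false
set_option linter.all false
open Cfsg

namespace Cfsg.Agent.S2565

open Cfsg.Agent

theorem comm_map {G G' : Type*} [Group G] [Group G'] (e : G ≃* G') : (commutator G).map e.toMonoidHom = commutator G' := by
  rw [commutator_def, Subgroup.map_commutator, Subgroup.map_top_of_surjective _ e.surjective, commutator_def]

/-- The commutator subgroup of the full orthogonal group of the plus-type form Σ xᵢyᵢ in dimension 6 over the field of two elements (the group Ω⁺₆(2), of index 2) is isomorphic to the alternating group of degree 8. -/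
theorem result :
    (Cfsg.Omega (ZMod 2) (Cfsg.quadFormPlus 3 (ZMod 2))).index = 2 ∧
    Nonempty (↥(Cfsg.Omega (ZMod 2) (Cfsg.quadFormPlus 3 (ZMod 2))) ≃* alternatingGroup (Fin 8)) := by
  obtain ⟨f, hf⟩ := H5.o6plus2 (F := ZMod 2) (ZMod.card 2)
  obtain ⟨e⟩ : Nonempty (Equiv.Perm (Fin 8) ≃* Cfsg.isometryGroup (ZMod 2) (Cfsg.quadFormPlus 3 (ZMod 2))) := ⟨MulEquiv.ofBijective f hf⟩
  have h1 := comm_map e
  have h2 : commutator (Equiv.Perm (Fin 8)) = alternatingGroup (Fin 8) := alternatingGroup.commutator_perm_eq (by simp)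
  constructor
  · show (commutator _).index = 2
    rw [← h1, show (commutator (Equiv.Perm (Fin 8))).map e.toMonoidHom = (commutator (Equiv.Perm (Fin 8))).map (e : Equiv.Perm (Fin 8) →* _) from rfl, Subgroup.index_map_equiv, h2, alternatingGroup.index_eq_two]
  · have e1 : ↥(commutator (Equiv.Perm (Fin 8))) ≃* ↥((commutator (Equiv.Perm (Fin 8))).map e.toMonoidHom) :=
      (commutator (Equiv.Perm (Fin 8))).equivMapOfInjective e.toMonoidHom e.injective
    have e2 := e1.trans (MulEquiv.subgroupCongr h1)
    exact ⟨e2.symm.trans (MulEquiv.subgroupCongr h2)⟩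

end Cfsg.Agent.S2565
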