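import Cfsg.Statements.S2566
import Cfsg.Agent.S0250
import Cfsg.Agent.H5.OrthForms
import Cfsg.Agent.H5.OrthOrder2
import Cfsg.Agent.H17.BlockIso

set_option autoImplicit false
open Cfsg

namespace Cfsg.Agent.S2566

open Matrix

abbrev F2 := ZMod 2
abbrev II := Fin 2 ⊕ Fin 2
def JJ : Matrix (Fin 2) (Fin 2) F2 := !![0, 1; 1, 0]
lemma JJ_sq : JJ * JJ = 1 := by decide

def ML (g : Matrix (Fin 2) (Fin 2) F2) : Matrix II II F2 := fromBlocks (g 0 0 • 1) (g 0 1 • JJ) (g 1 0 • JJ) (g 1 1 • 1)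
def MR (k : Matrix (Fin 2) (Fin 2) F2) : Matrix II II F2 := fromBlocks k 0 0 (JJ * k * JJ)

lemma ML_mul (g h : Matrix (Fin 2) (Fin 2) F2) : ML (g * h) = ML g * ML h := by
  unfold ML
  rw [fromBlocks_multiply]
  simp only [smul_mul_smul_comm, mul_one, one_mul, JJ_sq, ← add_smul, mul_apply, Fin.sum_univ_two, Matrix.smul_mul, Matrix.mul_smul, smul_smul]

lemma MR_mul (g h : Matrix (Fin 2) (Fin 2) F2) : MR (g * h) = MR g * MR h := by
  unfold MR
  rw [fromBlocks_multiply]
  simp only [Matrix.mul_zero, Matrix.zero_mul, add_zero, zero_add]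
  congr 1
  have : JJ * g * JJ * (JJ * h * JJ) = JJ * g * (JJ * JJ) * h * JJ := by simp only [Matrix.mul_assoc]
  rw [this, JJ_sq, Matrix.mul_one]
  simp only [Matrix.mul_assoc]

lemma ML_one : ML 1 = 1 := by decide
lemma MR_one : MR 1 = 1 := by decide

lemma comm_LR (g k : Matrix (Fin 2) (Fin 2) F2) : ML g * MR k = MR k * ML g := by
  unfold ML MR
  rw [fromBlocks_multiply, fromBlocks_multiply]
  simp only [Matrix.mul_zero, Matrix.zero_mul, add_zero, zero_add, Matrix.smul_mul, Matrix.mul_smul, Matrix.one_mul, Matrix.mul_one, smul_zero]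
  have e1 : JJ * (JJ * k * JJ) = k * JJ := by
    simp only [← Matrix.mul_assoc]; rw [JJ_sq, Matrix.one_mul]
  have e2 : JJ * k * JJ * JJ = JJ * k := by rw [Matrix.mul_assoc, JJ_sq, Matrix.mul_one]
  rw [e1, e2]

def homL : SpecialLinearGroup (Fin 2) F2 →* GL II F2 := MonoidHom.toHomUnits
  { toFun := fun g => ML g
    map_one' := ML_one
    map_mul' := fun g h => ML_mul g h }

def homR : SpecialLinearGroup (Fin 2) F2 →* GL II F2 := MonoidHom.toHomUnits
  { toFun := fun g => MR g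
    map_one' := MR_one
    map_mul' := fun g h => MR_mul g h }

lemma homL_coe (g : SpecialLinearGroup (Fin 2) F2) : ((homL g : GL II F2) : Matrix II II F2) = ML g := rfl
lemma homR_coe (g : SpecialLinearGroup (Fin 2) F2) : ((homR g : GL II F2) : Matrix II II F2) = MR g := rfl

lemma isoL (g : SpecialLinearGroup (Fin 2) F2) : homL g ∈ Cfsg.isometryGroup F2 (Cfsg.quadFormPlus 2 F2) := by
  rw [Cfsg.Agent.H17.mem_isometryGroup]
  intro v
  rw [homL_coe]
  have hd := g.2
  rw [det_fin_two] at hd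
  simp only [Cfsg.quadFormPlus, Fin.sum_univ_two, ML, mulVec, dotProduct, Fintype.sum_sum_type, fromBlocks_apply₁₁, fromBlocks_apply₁₂, fromBlocks_apply₂₁, fromBlocks_apply₂₂, Matrix.smul_apply, JJ, smul_eq_mul]
  generalize (g : Matrix (Fin 2) (Fin 2) F2) 0 0 = a at *
  generalize (g : Matrix (Fin 2) (Fin 2) F2) 0 1 = b at *
  generalize (g : Matrix (Fin 2) (Fin 2) F2) 1 0 = c at *
  generalize (g : Matrix (Fin 2) (Fin 2) F2) 1 1 = d at *
  generalize v (Sum.inl 0) = x at *
  generalize v (Sum.inl 1) = y at *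
  generalize v (Sum.inr 0) = z at *
  generalize v (Sum.inr 1) = w at *
  simp
  have h20 : (2 : F2) = 0 := rfl
  linear_combination (x * z + y * w) * hd + (b * d * z * w + c * b * x * z + c * b * y * w + a * c * x * y) * h20

lemma isoR (g : SpecialLinearGroup (Fin 2) F2) : homR g ∈ Cfsg.isometryGroup F2 (Cfsg.quadFormPlus 2 F2) := by
  rw [Cfsg.Agent.H17.mem_isometryGroup]
  intro v
  rw [homR_coe]
  have hd := g.2
  rw [det_fin_two] at hd
  simp only [Cfsg.quadFormPlus, Fin.sum_univ_two, MR, mulVec, dotProduct, Fintype.sum_sum_type, fromBlocks_apply₁₁, fromBlocks_apply₁₂, fromBlocks_apply₂₁, fromBlocks_apply₂₂, Matrix.smul_apply, JJ, smul_eq_mul, mul_apply]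
  generalize (g : Matrix (Fin 2) (Fin 2) F2) 0 0 = a at *
  generalize (g : Matrix (Fin 2) (Fin 2) F2) 0 1 = b at *
  generalize (g : Matrix (Fin 2) (Fin 2) F2) 1 0 = c at *
  generalize (g : Matrix (Fin 2) (Fin 2) F2) 1 1 = d at *
  generalize v (Sum.inl 0) = x at *
  generalize v (Sum.inl 1) = y at *
  generalize v (Sum.inr 0) = z at *
  generalize v (Sum.inr 1) = w at *
  simp
  have h20 : (2 : F2) = 0 := rfl
  linear_combination (x * z + y * w) * hd + (a * c * x * w + b * c * x * z + b * c * y * w + b * d * y * z) * h20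

abbrev OO : Subgroup (GL II F2) := Cfsg.isometryGroup F2 (Cfsg.quadFormPlus 2 F2)

def hL : SpecialLinearGroup (Fin 2) F2 →* OO := homL.codRestrict OO isoL
def hR : SpecialLinearGroup (Fin 2) F2 →* OO := homR.codRestrict OO isoR

lemma hL_inj : Function.Injective hL := by
  intro g h e
  have e1 : ML g = ML h := congrArg (fun x : OO => ((x : GL II F2) : Matrix II II F2)) e
  apply Subtype.ext
  unfold ML at e1
  rw [fromBlocks_inj] at e1
  obtain ⟨h1, h2, h3, h4⟩ := e1
  ext i j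
  have a1 := congrFun (congrFun h1 0) 0
  have a2 := congrFun (congrFun h2 0) 1
  have a3 := congrFun (congrFun h3 0) 1
  have a4 := congrFun (congrFun h4 0) 0
  simp only [Matrix.smul_apply, JJ] at a1 a2 a3 a4
  simp at a1 a2 a3 a4
  fin_cases i <;> fin_cases j <;> simpa

lemma hR_inj : Function.Injective hR := by
  intro g h e
  have e1 : MR g = MR h := congrArg (fun x : OO => ((x : GL II F2) : Matrix II II F2)) e
  apply Subtype.ext
  unfold MR at e1
  rw [fromBlocks_inj] at e1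
  exact e1.1

lemma LR_disj (g k : SpecialLinearGroup (Fin 2) F2) (e : hL g = hR k) : hL g = 1 := by
  have e1 : ML g = MR k := congrArg (fun x : OO => ((x : GL II F2) : Matrix II II F2)) e
  have : g = 1 := by
    unfold ML MR at e1
    rw [fromBlocks_inj] at e1
    obtain ⟨h1, h2, h3, h4⟩ := e1
    have a2 := congrFun (congrFun h2 0) 1
    have a3 := congrFun (congrFun h3 0) 1
    simp only [Matrix.smul_apply, JJ] at a2 a3
    simp at a2 a3
    have hd := g.2
    rw [det_fin_two, a2, a3] at hd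
    have key : ∀ a d : F2, a * d - 0 * 0 = 1 → a = 1 ∧ d = 1 := by decide
    obtain ⟨b1, b2⟩ := key _ _ hd
    apply Subtype.ext
    ext i j
    fin_cases i <;> fin_cases j <;> simpa
  rw [this, map_one]

lemma LR_comm (g k : SpecialLinearGroup (Fin 2) F2) : Commute (hL g) (hR k) := by
  apply Subtype.ext
  apply Units.ext
  exact comm_LR g k

def TT : Matrix II II F2 := fromBlocks !![1, 0; 0, 0] !![0, 0; 0, 1] !![0, 0; 0, 1] !![1, 0; 0, 0]
lemma TT_sq : TT * TT = 1 := by decide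

def TU : GL II F2 := ⟨TT, TT, TT_sq, TT_sq⟩

lemma TU_mem : TU ∈ OO := by
  rw [Cfsg.Agent.H17.mem_isometryGroup]
  intro v
  show Cfsg.quadFormPlus 2 F2 (TT *ᵥ v) = _
  simp only [Cfsg.quadFormPlus, Fin.sum_univ_two, TT, mulVec, dotProduct, Fintype.sum_sum_type, fromBlocks_apply₁₁, fromBlocks_apply₁₂, fromBlocks_apply₂₁, fromBlocks_apply₂₂]
  simp
  ring

lemma TT_conj (g : Matrix (Fin 2) (Fin 2) F2) : TT * ML g * TT = MR g := by
  unfold TT ML MR JJ
  rw [fromBlocks_multiply, fromBlocks_multiply]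
  congr 1 <;> ext i j <;> fin_cases i <;> fin_cases j <;> simp [mul_apply, Fin.sum_univ_two, vecMul, dotProduct]

lemma conj_TU (g : SpecialLinearGroup (Fin 2) F2) : (⟨TU, TU_mem⟩ : OO) * hL g * (⟨TU, TU_mem⟩ : OO)⁻¹ = hR g := by
  apply Subtype.ext
  apply Units.ext
  exact TT_conj g

lemma card_OO : Nat.card OO = 72 := by
  have hq : Nat.card F2 = 2 := by simp
  have h := Cfsg.Agent.H5.card_OG_plus hq 1 (Cfsg.Agent.H5.qPlus 2 F2) Cfsg.Agent.H5.nd_plus (by
      rw [Module.finrank_fintype_fun_eq_card]; simp) (by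
      rw [Cfsg.Agent.H5.zn_plus hq]; norm_num)
  have h2 := Nat.card_congr (Cfsg.Agent.H5.ogEquiv (Cfsg.Agent.H5.qPlus 2 F2)).toEquiv
  rw [h, Cfsg.Agent.H5.qPlus_coe] at h2
  rw [h2]
  simp

/-- The full orthogonal group of the plus-type form x₁y₁ + x₂y₂ in dimension 4 over the field of two elements has order 72 and is isomorphic to the wreath product of the symmetric group of degree 3 by a group of order 2: it has a normal subgroup isomorphic to the direct product of two symmetric groups of degree 3, of index 2, whose two direct factors are interchanged by conjugation by some element. -/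
theorem result :
    Nat.card ↥(Cfsg.isometryGroup (ZMod 2) (Cfsg.quadFormPlus 2 (ZMod 2))) = 72 ∧
    ∃ (A B : Subgroup ↥(Cfsg.isometryGroup (ZMod 2) (Cfsg.quadFormPlus 2 (ZMod 2)))),
      Nonempty (↥A ≃* Equiv.Perm (Fin 3)) ∧ Nonempty (↥B ≃* Equiv.Perm (Fin 3)) ∧ A ⊓ B = ⊥ ∧ (∀ a ∈ A, ∀ b ∈ B, a * b = b * a) ∧
      (A ⊔ B).index = 2 ∧ ∃ g : ↥(Cfsg.isometryGroup (ZMod 2) (Cfsg.quadFormPlus 2 (ZMod 2))), A.map (MulAut.conj g).toMonoidHom = B := by
  obtain ⟨e0⟩ := Cfsg.Agent.S0250.result (F := F2) (by simp)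
  have hsl : Nat.card (SpecialLinearGroup (Fin 2) F2) = 6 := by
    rw [Nat.card_congr e0.toEquiv, Nat.card_eq_fintype_card, Fintype.card_perm]
    rfl
  refine ⟨card_OO, hL.range, hR.range, ⟨(MonoidHom.ofInjective hL_inj).symm.trans e0⟩, ⟨(MonoidHom.ofInjective hR_inj).symm.trans e0⟩, ?_, ?_, ?_, ⟨TU, TU_mem⟩, ?_⟩
  · rw [eq_bot_iff]
    rintro x ⟨⟨g, rfl⟩, ⟨k, hk⟩⟩
    rw [Subgroup.mem_bot]
    exact LR_disj g k hk.symm
  · rintro _ ⟨g, rfl⟩ _ ⟨k, rfl⟩
    exact LR_comm g k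
  · have h1 : Nat.card ↥(hL.range ⊔ hR.range) = 36 := by
      rw [← MonoidHom.noncommCoprod_range (comm := LR_comm)]
      rw [← Nat.card_congr (MonoidHom.ofInjective (f := MonoidHom.noncommCoprod hL hR LR_comm) ?_).toEquiv, Nat.card_prod, hsl]
      rw [MonoidHom.noncommCoprod_injective]
      refine ⟨hL_inj, hR_inj, ?_⟩
      rw [Subgroup.disjoint_def]
      rintro x ⟨g, rfl⟩ ⟨k, hk⟩
      exact LR_disj g k hk.symm
    have h2 := (hL.range ⊔ hR.range).card_mul_index
    rw [h1, card_OO] at h2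
    omega
  · ext x
    constructor
    · rintro ⟨_, ⟨g, rfl⟩, rfl⟩
      exact ⟨g, (conj_TU g).symm⟩
    · rintro ⟨g, rfl⟩
      exact ⟨hL g, ⟨g, rfl⟩, conj_TU g⟩

end Cfsg.Agent.S2566
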