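import Cfsg.Statements.S2567
import Mathlib

set_option autoImplicit false
open Cfsg

namespace Cfsg.Agent.S2567

/-- Lifting elements of prime order from PGL to GL: let F be a finite field with q elements, r a prime not dividing q − 1, and x an element of order r in GL_n(F) modulo its centre (the scalar matrices). Then x has exactly one preimage in GL_n(F) of order r. -/
theorem result {F : Type*} [Field F] [Fintype F] {q n r : ℕ} (hF : Fintype.card F = q) (hr : r.Prime) (hdiv : ¬ r ∣ q - 1) (x : GL (Fin n) F ⧸ Subgroup.center (GL (Fin n) F)) (hx : orderOf x = r) : ∃! g : GL (Fin n) F, (QuotientGroup.mk g : GL (Fin n) F ⧸ Subgroup.center (GL (Fin n) F)) = x ∧ orderOf g = r := by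
  classical
  have hcen : ∀ z ∈ Subgroup.center (GL (Fin n) F), z ^ (q - 1) = 1 := by
    intro z hz
    rw [Matrix.GeneralLinearGroup.center_eq_range_scalar] at hz
    obtain ⟨a, rfl⟩ := hz
    rw [← map_pow]
    have : a ^ (q - 1) = 1 := by
      rw [← hF, ← Fintype.card_units]
      exact pow_card_eq_one
    rw [this, map_one]
  have hq1 : 1 ≤ q - 1 := by
    have : 1 < Fintype.card F := Fintype.one_lt_card
    omega
  have hcop : Nat.Coprime r (q - 1) := (Nat.Prime.coprime_iff_not_dvd hr).2 hdiv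
  obtain ⟨g0, rfl⟩ := QuotientGroup.mk_surjective x
  have hz : g0 ^ r ∈ Subgroup.center (GL (Fin n) F) := by
    have h1 : (QuotientGroup.mk g0 : GL (Fin n) F ⧸ Subgroup.center (GL (Fin n) F)) ^ r = 1 := by
      rw [← hx]; exact pow_orderOf_eq_one _
    rw [← QuotientGroup.mk_pow, QuotientGroup.eq_one_iff] at h1
    exact h1
  have hzo : r.Coprime (orderOf (g0 ^ r)) :=
    Nat.Coprime.coprime_dvd_right (orderOf_dvd_of_pow_eq_one (hcen _ hz)) hcop
  obtain ⟨m, hm⟩ := exists_pow_eq_self_of_coprime hzo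
  have hzm : (g0 ^ r) ^ m ∈ Subgroup.center (GL (Fin n) F) := Subgroup.pow_mem _ hz m
  have hcomm : Commute g0 ((g0 ^ r) ^ m)⁻¹ := (((Commute.refl g0).pow_right r).pow_right m).inv_right
  have hgr : (g0 * ((g0 ^ r) ^ m)⁻¹) ^ r = 1 := by
    rw [hcomm.mul_pow, inv_pow, ← pow_mul, mul_comm m r, pow_mul, hm]
    exact mul_inv_cancel _
  have hmk : (QuotientGroup.mk (g0 * ((g0 ^ r) ^ m)⁻¹) : GL (Fin n) F ⧸ Subgroup.center (GL (Fin n) F)) = QuotientGroup.mk g0 := by
    rw [QuotientGroup.eq]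
    have : (g0 * ((g0 ^ r) ^ m)⁻¹)⁻¹ * g0 = (g0 ^ r) ^ m := by group
    rw [this]; exact hzm
  haveI : Fact r.Prime := ⟨hr⟩
  refine ⟨g0 * ((g0 ^ r) ^ m)⁻¹, ⟨hmk, ?_⟩, ?_⟩
  · apply orderOf_eq_prime hgr
    intro h1
    rw [h1] at hmk
    rw [← hmk] at hx
    have : (QuotientGroup.mk (1 : GL (Fin n) F) : GL (Fin n) F ⧸ Subgroup.center (GL (Fin n) F)) = 1 := rfl
    rw [this, orderOf_one] at hx
    exact hr.one_lt.ne hx
  · rintro y ⟨hy1, hy2⟩
    have h1 : (g0 * ((g0 ^ r) ^ m)⁻¹)⁻¹ * y ∈ Subgroup.center (GL (Fin n) F) := by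
      rw [← QuotientGroup.eq, hmk, hy1]
    set z := (g0 * ((g0 ^ r) ^ m)⁻¹)⁻¹ * y with hzdef
    have hy : y = (g0 * ((g0 ^ r) ^ m)⁻¹) * z := by rw [hzdef]; group
    have hzr : z ^ r = 1 := by
      have h2 : Commute (g0 * ((g0 ^ r) ^ m)⁻¹) z := (Subgroup.mem_center_iff.mp h1 _)
      have h3 : y ^ r = 1 := by rw [← hy2]; exact pow_orderOf_eq_one y
      rw [hy, h2.mul_pow, hgr, one_mul] at h3
      exact h3
    have hz1 : z = 1 := by
      have h4 : orderOf z ∣ Nat.gcd r (q - 1) := Nat.dvd_gcd (orderOf_dvd_of_pow_eq_one hzr) (orderOf_dvd_of_pow_eq_one (hcen z h1))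
      rw [hcop] at h4
      exact orderOf_eq_one_iff.mp (Nat.dvd_one.mp h4)
    rw [hy, hz1, mul_one]

end Cfsg.Agent.S2567
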