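import Cfsg.Statements.S2569
import Cfsg.Agent.H16.CentDet

set_option autoImplicit false
open Cfsg

namespace Cfsg.Agent.S2569

/-- In GL_n over a finite field of characteristic p, the conjugacy class of a semisimple element (an element of order prime to p) under the special linear group is its whole GL-conjugacy class: for every such x and every invertible g there is h of determinant one with h x h⁻¹ = g x g⁻¹. -/
theorem result {F : Type*} [Field F] [Fintype F] {p : ℕ} [Fact p.Prime] [CharP F p] {n : ℕ} (x g : GL (Fin n) F) (hx : (orderOf x).Coprime p) : ∃ h : GL (Fin n) F, (h : Matrix (Fin n) (Fin n) F).det = 1 ∧ h * x * h⁻¹ = g * x * g⁻¹ := by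
  classical
  rcases Nat.eq_zero_or_pos n with h0 | h0
  · subst h0
    exact ⟨g, Matrix.det_fin_zero, rfl⟩
  haveI : NeZero n := ⟨h0.ne'⟩
  haveI : Nonempty (Fin n) := ⟨0⟩
  set φ : Module.End F (Fin n → F) := Matrix.toLin' (x : Matrix (Fin n) (Fin n) F) with hφ
  have hsq : Squarefree (minpoly F φ) := by
    have h1 : minpoly F φ ∣ (Polynomial.X ^ orderOf x - Polynomial.C 1 : Polynomial F) := by
      apply minpoly.dvd
      rw [map_sub, map_pow, Polynomial.aeval_X, Polynomial.aeval_C, map_one, hφ, ← Matrix.toLin'_pow, ← Units.val_pow_eq_pow_val, pow_orderOf_eq_one, Units.val_one, Matrix.toLin'_one, sub_eq_zero]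
      rfl
    have h2 : ¬ p ∣ orderOf x := by
      intro h
      have h3 := Nat.eq_one_of_dvd_coprimes hx h dvd_rfl
      exact (Fact.out : p.Prime).one_lt.ne' h3
    exact (Polynomial.separable_X_pow_sub_C' p (orderOf x) (1 : F) h2 one_ne_zero).squarefree.squarefree_of_dvd h1
  have hg : (g : Matrix (Fin n) (Fin n) F).det ≠ 0 := ((Matrix.isUnit_iff_isUnit_det _).1 g.isUnit).ne_zero
  obtain ⟨ψ, hc, hd⟩ := Cfsg.Agent.H16.exists_commuting_det φ hsq ((g : Matrix (Fin n) (Fin n) F).det)⁻¹
  have hd' : (LinearMap.toMatrix' ψ).det = ((g : Matrix (Fin n) (Fin n) F).det)⁻¹ := by rw [← hd, LinearMap.det_toMatrix']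
  have hc' : LinearMap.toMatrix' ψ * (x : Matrix (Fin n) (Fin n) F) = (x : Matrix (Fin n) (Fin n) F) * LinearMap.toMatrix' ψ := by
    have h1 : LinearMap.toMatrix' φ = (x : Matrix (Fin n) (Fin n) F) := by rw [hφ, LinearMap.toMatrix'_toLin']
    rw [← h1, ← LinearMap.toMatrix'_mul, ← LinearMap.toMatrix'_mul, hc]
  set C : GL (Fin n) F := Matrix.GeneralLinearGroup.mkOfDetNeZero (LinearMap.toMatrix' ψ) (by rw [hd']; exact inv_ne_zero hg) with hC
  have hCc : C * x = x * C := Units.ext hc'
  refine ⟨g * C, ?_, ?_⟩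
  · rw [Units.val_mul, Matrix.det_mul]
    have : (C : Matrix (Fin n) (Fin n) F) = LinearMap.toMatrix' ψ := rfl
    rw [this, hd', mul_inv_cancel₀ hg]
  · have : g * C * x * (g * C)⁻¹ = g * (C * x) * C⁻¹ * g⁻¹ := by group
    rw [this, hCc]; group

end Cfsg.Agent.S2569
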