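import Cfsg.Statements.S2571
import Cfsg.Agent.H17.RegNil

set_option autoImplicit false
open Cfsg

namespace Cfsg.Agent.S2571

/-- Centraliser of a regular unipotent element in GL_n(q): if u is an invertible n × n matrix over the field with q elements, n ≥ 1, with (u − 1)^n = 0 and rank(u − 1) = n − 1 (a single unipotent Jordan block), then its centraliser in GL_n(q) has order (q − 1) q^(n−1). -/
theorem result {F : Type*} [Field F] [Fintype F] {q n : ℕ} (hF : Fintype.card F = q) (hn : 1 ≤ n) (u : GL (Fin n) F) (hnil : ((u : Matrix (Fin n) (Fin n) F) - 1) ^ n = 0) (hreg : ((u : Matrix (Fin n) (Fin n) F) - 1).rank = n - 1) : Nat.card ↥(Subgroup.centralizer ({u} : Set (GL (Fin n) F))) = (q - 1) * q ^ (n - 1) := by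
  classical
  set N : (Fin n → F) →ₗ[F] (Fin n → F) := Matrix.toLin' ((u : Matrix (Fin n) (Fin n) F) - 1) with hNdef
  have hN : N ^ n = 0 := by
    rw [hNdef, ← Matrix.toLin'_pow, hnil, map_zero]
  have hk : Module.finrank F (LinearMap.ker N) ≤ 1 := by
    have h1 := LinearMap.finrank_range_add_finrank_ker N
    have h2 : ((u : Matrix (Fin n) (Fin n) F) - 1).rank = Module.finrank F (LinearMap.range N) := rfl
    rw [Module.finrank_fin_fun] at h1
    omega
  have hfin : Module.finrank F (Fin n → F) = n := Module.finrank_fin_fun F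
  obtain ⟨v, hv⟩ := Cfsg.Agent.H17.exists_cyclic N hk hn hfin hN
  have hbij := Cfsg.Agent.H17.commutant_bijective N hn hfin hN v hv
  have hcommN : ∀ g : GL (Fin n) F, g ∈ Subgroup.centralizer ({u} : Set (GL (Fin n) F)) ↔ Commute (Matrix.toLin' (g : Matrix (Fin n) (Fin n) F)) N := by
    intro g
    rw [Subgroup.mem_centralizer_singleton_iff, Units.ext_iff, Units.val_mul, Units.val_mul]
    rw [hNdef, commute_iff_eq, Module.End.mul_eq_comp, Module.End.mul_eq_comp, ← Matrix.toLin'_mul, ← Matrix.toLin'_mul]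
    rw [Matrix.mul_sub, Matrix.sub_mul, Matrix.mul_one, Matrix.one_mul]
    constructor
    · intro h; rw [h]
    · intro h
      have h1 := Matrix.toLin'.injective h
      exact sub_left_injective h1
  have e : Function.Bijective (fun g : ↥(Subgroup.centralizer ({u} : Set (GL (Fin n) F))) =>
      (⟨Matrix.toLin' ((g : GL (Fin n) F) : Matrix (Fin n) (Fin n) F) v, by
        have h1 := (hcommN g.1).1 g.2
        rw [← Cfsg.Agent.H17.commutant_injective_iff N hn hfin hN v hv _ h1]
        intro x y hxy
        have h2 := congrArg (fun z => Matrix.toLin' (((g : GL (Fin n) F)⁻¹ : GL (Fin n) F) : Matrix (Fin n) (Fin n) F) z) hxy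
        simp only [← LinearMap.comp_apply, ← Matrix.toLin'_mul, ← Units.val_mul, inv_mul_cancel] at h2
        simpa using h2⟩ : {w : Fin n → F // (N ^ (n - 1)) w ≠ 0})) := by
    constructor
    · intro g h hgh
      have h1 := @hbij.1 ⟨_, (hcommN g.1).1 g.2⟩ ⟨_, (hcommN h.1).1 h.2⟩ (congrArg Subtype.val hgh)
      have h2 := congrArg Subtype.val h1
      apply Subtype.ext
      apply Units.ext
      exact Matrix.toLin'.injective h2
    · rintro ⟨w, hw⟩
      obtain ⟨⟨T, hT⟩, hTw⟩ := hbij.2 w
      have hTw' : T v = w := hTw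
      have hinj : Function.Injective T := by
        rw [Cfsg.Agent.H17.commutant_injective_iff N hn hfin hN v hv T hT, hTw']
        exact hw
      have hunit : IsUnit T := by
        rw [Module.End.isUnit_iff]
        exact ⟨hinj, LinearMap.injective_iff_surjective.mp hinj⟩
      have hunit' : IsUnit (LinearMap.toMatrix' T) := by
        have := hunit.map (LinearMap.toMatrixAlgEquiv' : ((Fin n → F) →ₗ[F] (Fin n → F)) ≃ₐ[F] Matrix (Fin n) (Fin n) F)
        exact this
      obtain ⟨g, hg⟩ := hunit'
      refine ⟨⟨g, ?_⟩, ?_⟩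
      · rw [hcommN, hg, Matrix.toLin'_toMatrix']; exact hT
      · apply Subtype.ext
        show Matrix.toLin' (g : Matrix (Fin n) (Fin n) F) v = w
        rw [hg, Matrix.toLin'_toMatrix', hTw']
  rw [Nat.card_congr (Equiv.ofBijective _ e)]
  have hker : Module.finrank F (LinearMap.ker (N ^ (n - 1))) = n - 1 := Cfsg.Agent.H17.finrank_ker_pow_eq N hk hfin hN (by omega)
  have hcardker : Nat.card (LinearMap.ker (N ^ (n - 1))) = q ^ (n - 1) := by
    rw [Module.natCard_eq_pow_finrank (K := F), hker, Nat.card_eq_fintype_card, hF]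
  have hcompl : Nat.card {w : Fin n → F // (N ^ (n - 1)) w ≠ 0} = Nat.card (Fin n → F) - Nat.card (LinearMap.ker (N ^ (n - 1))) := by
    have h1 : Nat.card (LinearMap.ker (N ^ (n - 1))) = Nat.card {w : Fin n → F // (N ^ (n - 1)) w = 0} := by
      apply Nat.card_congr
      exact Equiv.subtypeEquivRight (fun w => LinearMap.mem_ker)
    rw [h1, Nat.card_eq_fintype_card, Nat.card_eq_fintype_card, Nat.card_eq_fintype_card]
    exact Fintype.card_subtype_compl _
  rw [hcompl, hcardker, Nat.card_eq_fintype_card, Fintype.card_fun, hF, Fintype.card_fin]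
  obtain ⟨n', rfl⟩ : ∃ n', n = n' + 1 := ⟨n - 1, by omega⟩
  simp only [Nat.add_sub_cancel]
  rw [pow_succ, Nat.sub_mul, one_mul, mul_comm]

end Cfsg.Agent.S2571
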