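import Cfsg.Statements.S2572
import Cfsg.Agent.H16.TrvB

set_option autoImplicit false
open Cfsg

namespace Cfsg.Agent.S2572

/-- Centraliser of a transvection in GL_n(q), n ≥ 2: if t − 1 has rank one and square zero, the centraliser of t in GL_n(q) has order q^(2n−3) (q − 1) |GL_(n−2)(q)| (a group of order q^(2n−3) extended by GL_1(q) × GL_(n−2)(q)). -/
theorem result {F : Type*} [Field F] [Fintype F] {q n : ℕ} (hF : Fintype.card F = q) (hn : 2 ≤ n) (t : GL (Fin n) F) (ht : Cfsg.IsTransvection (t : Matrix (Fin n) (Fin n) F)) : Nat.card ↥(Subgroup.centralizer ({t} : Set (GL (Fin n) F))) = q ^ (2 * n - 3) * (q - 1) * ∏ i : Fin (n - 2), (q ^ (n - 2) - q ^ (i : ℕ)) := by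
  classical
  obtain ⟨v, f, hv, hf, h0, ht'⟩ := Cfsg.Agent.H16.Trv.form ht
  have htv : t = Cfsg.Agent.H12.tv v f := by
    apply Units.ext
    rw [Cfsg.Agent.H12.coe_tv h0, ht']
  have h1 := Cfsg.Agent.H16.Trv.card_class hv hf h0
  have h2 : Nat.card {x : GL (Fin n) F // IsConj (Cfsg.Agent.H12.tv v f) x} * Nat.card ↥(Subgroup.centralizer ({t} : Set (GL (Fin n) F))) = Nat.card (GL (Fin n) F) := by
    rw [Subgroup.nat_card_centralizer_nat_card_stabilizer, ← htv]
    have h3 := Cfsg.Agent.H13.card_orbit_mul_card_stabilizer (G := ConjAct (GL (Fin n) F)) t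
    have h4 : Nat.card (MulAction.orbit (ConjAct (GL (Fin n) F)) t) = Nat.card {x : GL (Fin n) F // IsConj t x} := by
      apply Nat.card_congr
      exact Equiv.subtypeEquivRight fun x => by
        rw [ConjAct.mem_orbit_conjAct]
        exact isConj_comm
    rw [← h4, h3]
    rfl
  rw [Matrix.card_GL_field] at h2
  have hq : 2 ≤ q := by rw [← hF]; exact Fintype.one_lt_card
  rw [hF] at h1 h2
  obtain ⟨m, rfl⟩ : ∃ m, n = m + 2 := ⟨n - 2, by omega⟩
  set c := Nat.card ↥(Subgroup.centralizer ({t} : Set (GL (Fin (m + 2)) F))) with hc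
  set k := Nat.card {x : GL (Fin (m + 2)) F // IsConj (Cfsg.Agent.H12.tv v f) x} with hk
  have e1 : m + 2 - 1 = m + 1 := rfl
  have e2 : m + 2 - 2 = m := rfl
  have e3 : 2 * (m + 2) - 3 = 2 * m + 1 := by omega
  rw [e1] at h1
  rw [e3]
  show c = q ^ (2 * m + 1) * (q - 1) * ∏ i : Fin m, (q ^ m - q ^ (i : ℕ))
  rw [Fin.prod_univ_succ, Fin.prod_univ_succ] at h2
  simp only [Fin.val_zero, pow_zero, Fin.val_succ, zero_add, pow_one] at h2
  have h5 : q ^ (m + 2) - q = q * (q ^ (m + 1) - 1) := by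
    rw [Nat.mul_sub, mul_one]; congr 1; ring
  have h6 : ∀ i : ℕ, q ^ (m + 2) - q ^ (i + 1 + 1) = q ^ 2 * (q ^ m - q ^ i) := by
    intro i
    rw [Nat.mul_sub]; congr 1 <;> ring
  simp only [h5, h6, Finset.prod_mul_distrib, Finset.prod_const, Finset.card_univ, Fintype.card_fin] at h2
  have hA : 0 < q ^ (m + 2) - 1 := by
    have := Nat.one_lt_pow (n := m + 2) (by omega) (by omega : 1 < q)
    omega
  have hB : 0 < q ^ (m + 1) - 1 := by
    have := Nat.one_lt_pow (n := m + 1) (by omega) (by omega : 1 < q)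
    omega
  have h7 : k ≠ 0 := by
    intro h
    rw [h, zero_mul] at h1
    exact absurd h1.symm (Nat.mul_pos hA hB).ne'
  apply Nat.eq_of_mul_eq_mul_left (Nat.pos_of_ne_zero h7)
  rw [h2]
  set A := q ^ (m + 2) - 1
  set B := q ^ (m + 1) - 1
  set P := ∏ i : Fin m, (q ^ m - q ^ (i : ℕ))
  have h8 : k * (q ^ (2 * m + 1) * (q - 1) * P) = (k * (q - 1)) * (q ^ (2 * m + 1) * P) := by ring
  rw [h8, h1]
  ring

end Cfsg.Agent.S2572
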