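import Cfsg.Statements.S2573
import Cfsg.Agent.H17.RegNil

set_option autoImplicit false
open Cfsg

namespace Cfsg.Agent.S2573

/-- The invariant subspaces of a regular unipotent matrix form a chain: over a finite field, if u is an n × n matrix with (u − 1)^n = 0 and rank(u − 1) = n − 1, then every subspace W of F^n with u W ⊆ W is the kernel of (u − 1)^(dim W); so u has at most one invariant subspace of each dimension. -/
theorem result {F : Type*} [Field F] [Finite F] {n : ℕ} (u : Matrix (Fin n) (Fin n) F) (hnil : (u - 1) ^ n = 0) (hreg : (u - 1).rank = n - 1) (W : Submodule F (Fin n → F)) (hW : ∀ v ∈ W, u.mulVec v ∈ W) : W = LinearMap.ker (Matrix.mulVecLin ((u - 1) ^ Module.finrank F W)) := by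
  classical
  set N : (Fin n → F) →ₗ[F] (Fin n → F) := Matrix.toLin' (u - 1) with hNdef
  have hpow : ∀ k : ℕ, Matrix.mulVecLin ((u - 1) ^ k) = N ^ k := by
    intro k
    rw [hNdef, ← Matrix.toLin'_pow]
    rfl
  have hN : N ^ n = 0 := by
    rw [← hpow, hnil]; exact Matrix.mulVecLin_zero
  have hk : Module.finrank F (LinearMap.ker N) ≤ 1 := by
    have h1 := LinearMap.finrank_range_add_finrank_ker N
    have h2 : (u - 1).rank = Module.finrank F (LinearMap.range N) := rfl
    rw [Module.finrank_fin_fun] at h1
    omega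
  rw [hpow]
  apply Cfsg.Agent.H17.eq_ker_pow_of_invariant N hk (Module.finrank_fin_fun F) hN W
  intro v hv
  have h1 : N v = u.mulVec v - v := by
    rw [hNdef, Matrix.toLin'_apply, Matrix.sub_mulVec, Matrix.one_mulVec]
  rw [h1]
  exact W.sub_mem (hW v hv) hv

end Cfsg.Agent.S2573
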