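import Cfsg.Statements.S2574
import Cfsg.Agent.H17.RegNil

set_option autoImplicit false
open Cfsg

namespace Cfsg.Agent.S2574

/-- A regular unipotent element of the symplectic group has totally isotropic small invariant subspaces: over a finite field, if u ∈ Sp_2m(F) satisfies (u − 1)^(2m) = 0 and rank(u − 1) = 2m − 1, and W is a u-invariant subspace with 2 dim W ≤ 2m, then the alternating form vanishes identically on W. -/
theorem result {F : Type*} [Field F] [Finite F] {m : ℕ} (u : Matrix.symplecticGroup (Fin m) F) (hnil : ((u : Matrix (Fin m ⊕ Fin m) (Fin m ⊕ Fin m) F) - 1) ^ (2 * m) = 0) (hreg : ((u : Matrix (Fin m ⊕ Fin m) (Fin m ⊕ Fin m) F) - 1).rank = 2 * m - 1) (W : Submodule F (Fin m ⊕ Fin m → F)) (hW : ∀ v ∈ W, (u : Matrix (Fin m ⊕ Fin m) (Fin m ⊕ Fin m) F).mulVec v ∈ W) (hdim : 2 * Module.finrank F W ≤ 2 * m) : ∀ v ∈ W, ∀ w ∈ W, Cfsg.sympForm m F v w = 0 := by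
  classical
  set M : Matrix (Fin m ⊕ Fin m) (Fin m ⊕ Fin m) F := (u : Matrix (Fin m ⊕ Fin m) (Fin m ⊕ Fin m) F) with hM
  set N : (Fin m ⊕ Fin m → F) →ₗ[F] (Fin m ⊕ Fin m → F) := Matrix.toLin' (M - 1) with hNdef
  have hpow : ∀ k : ℕ, Matrix.mulVecLin ((M - 1) ^ k) = N ^ k := by
    intro k
    rw [hNdef, ← Matrix.toLin'_pow]
    rfl
  have hfin : Module.finrank F (Fin m ⊕ Fin m → F) = 2 * m := by
    simp [two_mul]
  have hN : N ^ (2 * m) = 0 := by
    rw [← hpow, hnil]; exact Matrix.mulVecLin_zero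
  have hk : Module.finrank F (LinearMap.ker N) ≤ 1 := by
    have h1 := LinearMap.finrank_range_add_finrank_ker N
    have h2 : (M - 1).rank = Module.finrank F (LinearMap.range N) := rfl
    rw [hfin] at h1
    omega
  have hNv : ∀ v, N v = M.mulVec v - v := by
    intro v
    rw [hNdef, Matrix.toLin'_apply, Matrix.sub_mulVec, Matrix.one_mulVec]
  -- the bilinear form
  let B : LinearMap.BilinForm F (Fin m ⊕ Fin m → F) := Matrix.toBilin' (Matrix.J (Fin m) F)
  have hB : ∀ v w, B v w = Cfsg.sympForm m F v w := by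
    intro v w
    rw [Cfsg.sympForm]
    exact Matrix.toBilin'_apply' _ _ _
  have hBnd : B.Nondegenerate := by
    apply LinearMap.BilinForm.nondegenerate_toBilin'_of_det_ne_zero'
    exact (Matrix.isUnit_det_J (l := Fin m) (R := F)).ne_zero
  have hinv : ∀ v w, B (M.mulVec v) (M.mulVec w) = B v w := by
    intro v w
    have hA := SymplecticGroup.mem_iff'.mp u.2
    rw [hB, hB]
    unfold Cfsg.sympForm
    rw [Matrix.mulVec_mulVec, ← Matrix.vecMul_transpose, ← Matrix.dotProduct_mulVec, Matrix.mulVec_mulVec, ← Matrix.mul_assoc, hA]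
  have hskew : ∀ v w, B v w = - B w v := by
    intro v w
    rw [hB, hB]
    unfold Cfsg.sympForm
    rw [Matrix.dotProduct_mulVec, ← Matrix.mulVec_transpose, Matrix.J_transpose, Matrix.neg_mulVec, neg_dotProduct, dotProduct_comm]
  have hrefl : B.IsRefl := by
    intro v w h
    rw [hskew, h, neg_zero]
  -- orthogonal complement is invariant
  have hWperp : ∀ v ∈ B.orthogonal W, N v ∈ B.orthogonal W := by
    intro v hv
    rw [LinearMap.BilinForm.mem_orthogonal_iff] at hv ⊢
    intro w hw
    -- W is mapped onto itself by M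
    have hsurj : ∃ w' ∈ W, M.mulVec w' = w := by
      have hinj : Function.Injective ((Matrix.toLin' M).restrict (p := W) (q := W) (fun x hx => by rw [Matrix.toLin'_apply]; exact hW x hx)) := by
        intro x y hxy
        have h1 : M.mulVec (x : Fin m ⊕ Fin m → F) = M.mulVec (y : Fin m ⊕ Fin m → F) := by
          have := congrArg (fun z : W => (z : Fin m ⊕ Fin m → F)) hxy
          simpa [LinearMap.restrict_coe_apply] using this
        apply Subtype.ext
        have hdet : IsUnit M.det := SymplecticGroup.symplectic_det u.2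
        have h2 := congrArg (fun z => (M⁻¹).mulVec z) h1
        simpa [Matrix.mulVec_mulVec, Matrix.nonsing_inv_mul M hdet] using h2
      obtain ⟨w', hw'⟩ := (LinearMap.injective_iff_surjective.mp hinj) ⟨w, hw⟩
      refine ⟨w', w'.2, ?_⟩
      have := congrArg (fun z : W => (z : Fin m ⊕ Fin m → F)) hw'
      simpa [LinearMap.restrict_coe_apply] using this
    obtain ⟨w', hw', rfl⟩ := hsurj
    show B _ _ = 0
    rw [hNv, map_sub, hinv]
    have h1 : B w' v = 0 := hv w' hw'
    have h2 : B (M.mulVec w') v = 0 := hv _ hw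
    rw [h1, h2, sub_zero]
  have hWN : ∀ v ∈ W, N v ∈ W := by
    intro v hv
    rw [hNv]; exact W.sub_mem (hW v hv) hv
  have h1 := Cfsg.Agent.H17.eq_ker_pow_of_invariant N hk hfin hN W hWN
  have h2 := Cfsg.Agent.H17.eq_ker_pow_of_invariant N hk hfin hN _ hWperp
  have h3 : Module.finrank F (B.orthogonal W) = 2 * m - Module.finrank F W := by
    rw [LinearMap.BilinForm.finrank_orthogonal hBnd, hfin]
  have h4 : W ≤ B.orthogonal W := by
    rw [h2, h3]
    conv_lhs => rw [h1]
    intro x hx
    rw [LinearMap.mem_ker] at hx ⊢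
    have h5 : 2 * m - Module.finrank F W = (2 * m - Module.finrank F W - Module.finrank F W) + Module.finrank F W := by omega
    rw [h5, pow_add, Module.End.mul_apply, hx, map_zero]
  intro v hv w hw
  have := (LinearMap.BilinForm.mem_orthogonal_iff.mp (h4 hw)) v hv
  rw [← hB]
  exact this

end Cfsg.Agent.S2574
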