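import Cfsg.Statements.S2575
import Mathlib

set_option autoImplicit false
open Cfsg

namespace Cfsg.Agent.S2575

theorem exists_pow_eq_neg_one {F : Type*} [Field F] [Fintype F] {q : ℕ} (hF : Fintype.card F = q) (hq : Odd q) {n : ℕ} (hn : 1 ≤ n) :
    (∃ c : F, c ≠ 0 ∧ c ^ n = -1) ↔ padicValNat 2 n < padicValNat 2 (q - 1) := by
  classical
  haveI : Fact (Nat.Prime 2) := ⟨Nat.prime_two⟩
  have hchar : ringChar F ≠ 2 := by
    intro h
    have := FiniteField.even_card_iff_char_two.mp h
    rw [hF] at this
    rcases hq with ⟨k, hk⟩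
    omega
  have h11 : (-1 : F) ≠ 1 := Ring.neg_one_ne_one_of_char_ne_two hchar
  have hq1 : 1 < q := hF ▸ Fintype.one_lt_card
  have hqpos : q - 1 ≠ 0 := by omega
  have hpow : ∀ c : F, c ≠ 0 → c ^ (q - 1) = 1 := by
    intro c hc
    rw [← hF]; exact FiniteField.pow_card_sub_one_eq_one c hc
  constructor
  · rintro ⟨c, hc, hcn⟩
    by_contra hlt
    push Not at hlt
    obtain ⟨m, hm⟩ : 2 ^ padicValNat 2 (q - 1) ∣ (q - 1) := pow_padicValNat_dvd
    have hmodd : ¬ 2 ∣ m := by
      rintro ⟨k, rfl⟩
      have h1 : 2 ^ (padicValNat 2 (q - 1) + 1) ∣ (q - 1) := ⟨k, by rw [pow_succ, mul_assoc]; exact hm⟩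
      exact pow_succ_padicValNat_not_dvd hqpos h1
    obtain ⟨k, hk⟩ : (2 ^ padicValNat 2 (q - 1)) ∣ n := (pow_dvd_pow 2 hlt).trans pow_padicValNat_dvd
    have h1 : c ^ (n * m) = 1 := by
      have : n * m = (q - 1) * k := by rw [hk]; conv_rhs => rw [hm]
                                       ring
      rw [this, pow_mul, hpow c hc, one_pow]
    rw [pow_mul, hcn, Odd.neg_one_pow (Nat.odd_iff.mpr (by omega))] at h1
    exact h11 h1
  · intro hlt
    obtain ⟨ζ, hζ⟩ := IsCyclic.exists_generator (α := Fˣ)
    have hord : orderOf ζ = q - 1 := by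
      rw [← hF, ← Fintype.card_units, ← Nat.card_eq_fintype_card]
      exact orderOf_eq_card_of_forall_mem_zpowers hζ
    obtain ⟨k, hk⟩ : 2 ^ (padicValNat 2 n + 1) ∣ q - 1 := (pow_dvd_pow 2 hlt).trans pow_padicValNat_dvd
    obtain ⟨n', hn'⟩ : 2 ^ padicValNat 2 n ∣ n := pow_padicValNat_dvd
    have hodd' : Odd n' := by
      rw [← Nat.not_even_iff_odd]
      rintro ⟨j, hj⟩
      have h1 : 2 ^ (padicValNat 2 n + 1) ∣ n := ⟨j, by rw [pow_succ, mul_assoc, two_mul, ← hj]; exact hn'⟩
      exact pow_succ_padicValNat_not_dvd (by omega) h1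
    have hneg : (ζ : F) ^ (k * 2 ^ padicValNat 2 n) = -1 := by
      have h2 : ((ζ : F) ^ (k * 2 ^ padicValNat 2 n)) ^ 2 = 1 := by
        rw [← pow_mul]
        have : k * 2 ^ padicValNat 2 n * 2 = q - 1 := by rw [hk]; ring
        rw [this]; exact hpow _ (Units.ne_zero ζ)
      rcases sq_eq_one_iff.mp h2 with h | h
      · exfalso
        have h3 : ζ ^ (k * 2 ^ padicValNat 2 n) = 1 := by
          apply Units.ext; push_cast; exact h
        have h4 := orderOf_dvd_of_pow_eq_one h3
        rw [hord, hk] at h4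
        have hkpos : 0 < k := by
          rcases Nat.eq_zero_or_pos k with h0 | h0
          · subst h0; omega
          · exact h0
        have h5 := Nat.le_of_dvd (by positivity) h4
        have h6 : 0 < k * 2 ^ padicValNat 2 n := by positivity
        have h7 : 2 ^ (padicValNat 2 n + 1) * k = 2 * (k * 2 ^ padicValNat 2 n) := by ring
        omega
      · exact h
    refine ⟨(ζ : F) ^ k, pow_ne_zero _ (Units.ne_zero ζ), ?_⟩
    conv_lhs => rw [hn']
    rw [← pow_mul, ← mul_assoc, pow_mul, hneg, hodd'.neg_one_pow]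

/-- Which diagonal involutions of PGL_n(q) lie in PSL_n(q), q odd: for the diagonal matrix t with i entries −1 and n − i entries 1, some non-zero scalar multiple of t has determinant one if and only if i is even or the 2-part of q − 1 exceeds the 2-part of n (that is, −1 is an n-th power in the field exactly in the latter case). -/
theorem result {F : Type*} [Field F] [Fintype F] {q : ℕ} (hF : Fintype.card F = q) (hq : Odd q) {n : ℕ} (hn : 1 ≤ n) (i : ℕ) (hi : i ≤ n) : (∃ c : F, c ≠ 0 ∧ (c • Matrix.diagonal (fun j : Fin n => if (j : ℕ) < i then (-1 : F) else 1)).det = 1) ↔ (Even i ∨ padicValNat 2 n < padicValNat 2 (q - 1)) := by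
  classical
  have hdet : ∀ c : F, (c • Matrix.diagonal (fun j : Fin n => if (j : ℕ) < i then (-1 : F) else 1)).det = c ^ n * (-1) ^ i := by
    intro c
    rw [Matrix.det_smul, Matrix.det_diagonal, Fintype.card_fin, Finset.prod_ite, Finset.prod_const, Finset.prod_const_one, mul_one]
    congr 2
    have h1 : (Finset.univ.filter (fun j : Fin n => (j : ℕ) < i)).card = i := by
      rw [← Fintype.card_subtype]
      have h2 : Fintype.card {j : Fin n // (j : ℕ) < i} = Fintype.card (Fin i) := by
        apply Fintype.card_congr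
        exact { toFun := fun j => ⟨j.1, j.2⟩
                invFun := fun j => ⟨⟨j.1, by omega⟩, j.2⟩
                left_inv := fun j => rfl
                right_inv := fun j => rfl }
      rw [h2, Fintype.card_fin]
    exact h1
  simp only [hdet]
  rw [← exists_pow_eq_neg_one hF hq hn]
  by_cases hi2 : Even i
  · simp only [hi2, true_or, iff_true]
    exact ⟨1, one_ne_zero, by rw [one_pow, one_mul, hi2.neg_one_pow]⟩
  · have hio : Odd i := Nat.not_even_iff_odd.mp hi2
    simp only [hi2, false_or, hio.neg_one_pow]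
    constructor
    · rintro ⟨c, hc, h⟩
      exact ⟨c, hc, by linear_combination (-1 : F) * h⟩
    · rintro ⟨c, hc, h⟩
      exact ⟨c, hc, by linear_combination (-1 : F) * h⟩

end Cfsg.Agent.S2575
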