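import Cfsg.Statements.S2576
import Mathlib

set_option autoImplicit false
open Cfsg

namespace Cfsg.Agent.S2576

/-- Which involutions of PGL_2m(q) coming from a scalar of the quadratic extension field lie in PSL_2m(q), q odd: let μ generate the Sylow 2-subgroup of the multiplicative group of the field with q elements (μ has order the 2-part of q − 1) and let t be the block-diagonal matrix with m diagonal blocks [[0, 1], [μ, 0]] (so t² is the scalar μ and t is an involution modulo scalars). Then some non-zero scalar multiple of t has determinant one if and only if q ≡ 3 (mod 4) or the 2-part of q − 1 is less than the 2-part of 2m. -/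
theorem result {F : Type*} [Field F] [Fintype F] {q : ℕ} (hF : Fintype.card F = q) (hq : Odd q) {m : ℕ} (hm : 1 ≤ m) (μ : F) (hμ : orderOf μ = 2 ^ padicValNat 2 (q - 1)) : (∃ c : F, c ≠ 0 ∧ (c • Matrix.blockDiagonal (fun _ : Fin m => !![(0 : F), 1; μ, 0])).det = 1) ↔ (q % 4 = 3 ∨ padicValNat 2 (q - 1) < padicValNat 2 (2 * m)) := by
  classical
  haveI : Fact (Nat.Prime 2) := ⟨Nat.prime_two⟩
  have hchar : ringChar F ≠ 2 := by
    intro h
    have := FiniteField.even_card_iff_char_two.mp h
    rw [hF] at this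
    rcases hq with ⟨k, hk⟩
    omega
  have h11 : (-1 : F) ≠ 1 := Ring.neg_one_ne_one_of_char_ne_two hchar
  have hq1 : 1 < q := hF ▸ Fintype.one_lt_card
  have hqpos : q - 1 ≠ 0 := by omega
  have hpow : ∀ c : F, c ≠ 0 → c ^ (q - 1) = 1 := by
    intro c hc
    rw [← hF]; exact FiniteField.pow_card_sub_one_eq_one c hc
  have hdet : ∀ c : F, (c • Matrix.blockDiagonal (fun _ : Fin m => !![(0 : F), 1; μ, 0])).det = (c ^ 2 * (-μ)) ^ m := by
    intro c
    rw [Matrix.det_smul, Matrix.det_blockDiagonal, Fintype.card_prod, Fintype.card_fin, Fintype.card_fin, Matrix.det_fin_two_of]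
    simp only [Finset.prod_const, Finset.card_univ, Fintype.card_fin]
    rw [mul_pow, ← pow_mul]
    congr 1
    simp
  simp only [hdet]
  have hμ0 : μ ≠ 0 := by
    rintro rfl
    rw [orderOf_zero] at hμ
    have : 0 < 2 ^ padicValNat 2 (q - 1) := by positivity
    omega
  set e := padicValNat 2 (q - 1) with he
  have hdvd : 2 ^ e ∣ q - 1 := pow_padicValNat_dvd
  have hndvd : ¬ 2 ^ (e + 1) ∣ q - 1 := pow_succ_padicValNat_not_dvd hqpos
  by_cases h3 : q % 4 = 3
  · simp only [h3, true_or, iff_true]
    -- e = 1, μ = -1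
    have he1 : e = 1 := by
      have h1 : 1 ≤ e := by
        by_contra h
        have h0 : e = 0 := by omega
        rw [h0] at hndvd
        apply hndvd
        rcases hq with ⟨k, hk⟩
        exact ⟨k, by omega⟩
      by_contra h
      have h2 : 2 ^ 2 ∣ q - 1 := (pow_dvd_pow 2 (by omega : 2 ≤ e)).trans hdvd
      omega
    rw [he1, pow_one] at hμ
    have hμ2 : μ ^ 2 = 1 := by rw [← hμ]; exact pow_orderOf_eq_one μ
    have hμ1 : μ ≠ 1 := by rintro rfl; simp at hμ
    have hμn : μ = -1 := by
      rcases sq_eq_one_iff.mp hμ2 with h | h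
      · exact absurd h hμ1
      · exact h
    exact ⟨1, one_ne_zero, by rw [hμn]; simp⟩
  · have h1 : q % 4 = 1 := by rcases hq with ⟨k, hk⟩; omega
    simp only [h3, false_or]
    have he2 : 2 ≤ e := by
      by_contra h
      apply hndvd
      have : 2 ^ (e + 1) ∣ 2 ^ 2 := pow_dvd_pow 2 (by omega)
      exact this.trans ⟨(q - 1) / 4, by omega⟩
    have hm2 : padicValNat 2 (2 * m) = padicValNat 2 m + 1 := by
      rw [padicValNat.mul (by norm_num) (by omega), padicValNat.self (by norm_num)]; ring
    rw [hm2]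
    have hcard2 : Fintype.card F / 2 = (q - 1) / 2 := by rw [hF]; rcases hq with ⟨k, hk⟩; omega
    -- -1 is a square
    have hsq : IsSquare (-1 : F) := by
      rw [FiniteField.isSquare_neg_one_iff, hF]; exact h3
    -- μ is a nonsquare
    have hns : ¬ IsSquare μ := by
      rw [FiniteField.isSquare_iff hchar hμ0, hcard2]
      intro h
      have h4 := orderOf_dvd_of_pow_eq_one h
      rw [hμ] at h4
      apply hndvd
      obtain ⟨k, hk⟩ := h4
      exact ⟨k, by rw [pow_succ]; rcases hq with ⟨j, hj⟩; have : q - 1 = 2 * ((q - 1) / 2) := by omega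
                   rw [this, hk]; ring⟩
    constructor
    · rintro ⟨c, hc, hcm⟩
      by_contra hlt
      push Not at hlt
      have hy : ¬ IsSquare (c ^ 2 * (-μ)) := by
        rintro ⟨d, hd⟩
        apply hns
        obtain ⟨ι, hι⟩ := hsq
        refine ⟨ι * d / c, ?_⟩
        field_simp
        linear_combination (-1 : F) * hd + (-(c ^ 2 * μ)) * 0 + d ^ 2 * hι
      apply hy
      have hy0 : c ^ 2 * (-μ) ≠ 0 := mul_ne_zero (pow_ne_zero _ hc) (neg_ne_zero.mpr hμ0)
      rw [FiniteField.isSquare_iff hchar hy0, hcard2]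
      -- order divides m and q - 1
      have ho1 : orderOf (c ^ 2 * (-μ)) ∣ m := orderOf_dvd_of_pow_eq_one hcm
      have ho2 : orderOf (c ^ 2 * (-μ)) ∣ q - 1 := orderOf_dvd_of_pow_eq_one (hpow _ hy0)
      apply orderOf_dvd_iff_pow_eq_one.mp
      set o := orderOf (c ^ 2 * (-μ)) with hodef
      -- 2-adic valuation of o is < e
      obtain ⟨k, hk⟩ := ho2
      have hko : Even k := by
        by_contra hodd
        have hkodd : ¬ 2 ∣ k := by rwa [even_iff_two_dvd] at hodd
        have hcop : Nat.Coprime (2 ^ e) k := Nat.Coprime.pow_left _ ((Nat.Prime.coprime_iff_not_dvd Nat.prime_two).2 hkodd)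
        have h5 : 2 ^ e ∣ o := by
          have := hdvd
          rw [hk] at this
          exact hcop.dvd_of_dvd_mul_right this
        have h6 : 2 ^ e ∣ m := h5.trans ho1
        have h7 : e ≤ padicValNat 2 m := (padicValNat_dvd_iff_le (by omega)).mp h6
        omega
      obtain ⟨j, hj⟩ := hko
      refine ⟨j, ?_⟩
      have : q - 1 = 2 * (o * j) := by rw [hk, hj]; ring
      omega
    · intro hlt
      refine ⟨1, one_ne_zero, ?_⟩
      obtain ⟨k, hk⟩ : 2 ^ e ∣ m := (pow_dvd_pow 2 (by omega : e ≤ padicValNat 2 m)).trans pow_padicValNat_dvd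
      rw [one_pow, one_mul, hk, pow_mul]
      have h8 : (-μ) ^ (2 ^ e) = 1 := by
        rw [neg_pow, ← hμ, pow_orderOf_eq_one, mul_one, hμ]
        have : Even (2 ^ e) := (Nat.even_pow' (by omega)).2 (by norm_num)
        exact this.neg_one_pow
      rw [h8, one_pow]

end Cfsg.Agent.S2576
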