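import Cfsg.Statements.S2580
import Cfsg.Agent.H16.TrSim

set_option autoImplicit false
open Cfsg

namespace Cfsg.Agent.S2580

/-- Over a finite field, a square matrix is similar to its transpose: for every n × n matrix A there is an invertible matrix P with P A P⁻¹ = Aᵀ (stated as conjugacy in the monoid of matrices, whose units are the invertible matrices). -/
theorem result {F : Type*} [Field F] [Finite F] {n : ℕ} (A : Matrix (Fin n) (Fin n) F) : IsConj A A.transpose := by
  classical
  obtain ⟨B, hB, hnd⟩ := Cfsg.Agent.H16.TrSim.exists_form (Matrix.toLin' A)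
  let E : Fin n → (Fin n → F) := fun k => Pi.single k 1
  have hE : ∀ y : Fin n → F, y = ∑ k, y k • E k := by
    intro y
    funext j
    rw [Finset.sum_apply, Finset.sum_eq_single j]
    · simp [E]
    · intro k _ hk
      simp only [E, Pi.smul_apply, smul_eq_mul]
      rw [Pi.single_eq_of_ne hk.symm, mul_zero]
    · intro h; exact absurd (Finset.mem_univ _) h
  set P : Matrix (Fin n) (Fin n) F := Matrix.of fun j k => B (E j) (E k) with hP
  have hBr : ∀ x y, B x y = ∑ k, y k * B x (E k) := by
    intro x y
    conv_lhs => rw [hE y]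
    rw [map_sum]
    refine Finset.sum_congr rfl fun k _ => ?_
    rw [map_smul, smul_eq_mul]
  have hBl : ∀ x y, B x y = ∑ k, x k * B (E k) y := by
    intro x y
    conv_lhs => rw [hE x]
    rw [map_sum, LinearMap.sum_apply]
    refine Finset.sum_congr rfl fun k _ => ?_
    rw [map_smul, LinearMap.smul_apply, smul_eq_mul]
  have hdet : P.det ≠ 0 := by
    intro h
    obtain ⟨v, hv, hv2⟩ := Matrix.exists_mulVec_eq_zero_iff.2 h
    apply hv
    apply hnd
    intro x
    rw [hBl]
    apply Finset.sum_eq_zero
    intro j _
    have h1 := congrFun hv2 j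
    have h2 : B (E j) v = 0 := by
      rw [hBr]
      refine Eq.trans ?_ h1
      show _ = ∑ k, P j k * v k
      refine Finset.sum_congr rfl fun k _ => ?_
      rw [mul_comm]; rfl
    rw [h2, mul_zero]
  have hA : ∀ k, Matrix.toLin' A (E k) = fun l => A l k := by
    intro k
    funext l
    rw [Matrix.toLin'_apply]
    simp [E]
  refine ⟨Matrix.GeneralLinearGroup.mkOfDetNeZero P hdet, ?_⟩
  show P * A = A.transpose * P
  ext j k
  rw [Matrix.mul_apply, Matrix.mul_apply]
  have h1 := hB (E j) (E k)
  rw [hA, hA, hBl, hBr] at h1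
  have h2 : ∑ l, P j l * A l k = ∑ l, A l k * B (E j) (E l) := Finset.sum_congr rfl fun l _ => mul_comm _ _
  rw [h2, ← h1]
  rfl

end Cfsg.Agent.S2580
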