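import Cfsg.Statements.S2581
import Cfsg.Agent.H17.UcC

set_option autoImplicit false
open Cfsg

namespace Cfsg.Agent.S2581

open Cfsg.Agent Cfsg.Agent.H17

/-- Order of the centraliser in GL of a unipotent matrix of given Jordan type over the field with q elements: if the type has a_i blocks of size i (all block sizes at least 1), the invertible matrices commuting with it number q^γ · Π_i |GL_(a_i)(q)| with γ = 2 Σ_(i<j) i a_i a_j + Σ_i (i − 1) a_i² (a group of order q^γ extended by Π GL_(a_i)(q)). -/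
theorem result {F : Type*} [Field F] [Fintype F] {q : ℕ} (hF : Fintype.card F = q) {t : ℕ} (d : Fin t → ℕ) (hd : ∀ k, 1 ≤ d k) : Nat.card {g : GL ((k : Fin t) × Fin (d k)) F // (g : Matrix ((k : Fin t) × Fin (d k)) ((k : Fin t) × Fin (d k)) F) * Cfsg.jordanTypeMatrix d F = Cfsg.jordanTypeMatrix d F * (g : Matrix ((k : Fin t) × Fin (d k)) ((k : Fin t) × Fin (d k)) F)} = q ^ (2 * (∑ i ∈ Finset.range (Finset.univ.sup d + 1), ∑ j ∈ Finset.range (Finset.univ.sup d + 1), if i < j then i * (Finset.univ.filter (fun k : Fin t => d k = i)).card * (Finset.univ.filter (fun k : Fin t => d k = j)).card else 0) + ∑ i ∈ Finset.range (Finset.univ.sup d + 1), (i - 1) * (Finset.univ.filter (fun k : Fin t => d k = i)).card ^ 2) * ∏ i ∈ Finset.range (Finset.univ.sup d + 1), ∏ j : Fin ((Finset.univ.filter (fun k : Fin t => d k = i)).card), (q ^ (Finset.univ.filter (fun k : Fin t => d k = i)).card - q ^ (j : ℕ)) := by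
  classical
  have h := card_Com_units (F := F) hd
  have hn : ∀ k, d k < Finset.univ.sup d + 1 := fun k => Nat.lt_succ_of_le (Finset.le_sup (Finset.mem_univ k))
  have hq : 0 < q := by rw [← hF]; exact Fintype.card_pos
  rw [exp_eq d hd _ hn, hF] at h
  have e : Nat.card {g : GL ((k : Fin t) × Fin (d k)) F // (g : Matrix ((k : Fin t) × Fin (d k)) ((k : Fin t) × Fin (d k)) F) * Cfsg.jordanTypeMatrix d F = Cfsg.jordanTypeMatrix d F * (g : Matrix ((k : Fin t) × Fin (d k)) ((k : Fin t) × Fin (d k)) F)} =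
      Nat.card {M : Com F d // IsUnit M.1} := by
    apply Nat.card_congr
    apply Equiv.ofBijective (fun g => (⟨⟨g.1.1, g.2⟩, g.1.isUnit⟩ : {M : Com F d // IsUnit M.1}))
    constructor
    · intro g g' hg
      apply Subtype.ext
      apply Units.ext
      exact congrArg (fun x => x.1.1) hg
    · rintro ⟨⟨M, hM⟩, hu⟩
      obtain ⟨u, hu1⟩ := hu
      have hu2 : u.1 = M := hu1
      subst hu2
      exact ⟨⟨u, hM⟩, rfl⟩
  rw [e]
  rw [Finset.sum_range (fun i => (Finset.univ.filter (fun k : Fin t => d k = i)).card ^ 2)] at h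
  rw [Finset.prod_range]
  apply Nat.eq_of_mul_eq_mul_right (pow_pos hq (∑ a : Fin (Finset.univ.sup d + 1), (Finset.univ.filter (fun k : Fin t => d k = a)).card ^ 2))
  rw [h]
  rw [pow_add]
  ring

end Cfsg.Agent.S2581
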