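import Cfsg.Statements.S2583
import Cfsg.Agent.H17.JOrth

set_option autoImplicit false
open Cfsg

namespace Cfsg.Agent.S2583

/-- Which unipotent Jordan types occur in a finite orthogonal group in odd characteristic: over a finite field of odd order, a unipotent matrix with Jordan block sizes d_1, …, d_t (sum n, all at least 1) is similar to an isometry of some quadratic form on F^n with non-degenerate polar form if and only if every even block size occurs an even number of times. -/
theorem result {F : Type*} [Field F] [Fintype F] (h2 : (2 : F) ≠ 0) {n t : ℕ} (d : Fin t → ℕ) (hd : ∀ k, 1 ≤ d k) (hsum : ∑ k, d k = n) : (∃ Q : QuadraticForm F (Fin n → F), (QuadraticMap.polarBilin Q).Nondegenerate ∧ ∃ e : ((k : Fin t) × Fin (d k)) ≃ Fin n, ∃ A : ↥(Cfsg.isometryGroup F ⇑Q), IsConj (Matrix.reindex e e (Cfsg.jordanTypeMatrix d F)) ((A : Matrix.GeneralLinearGroup (Fin n) F) : Matrix (Fin n) (Fin n) F)) ↔ ∀ j : ℕ, Even j → 0 < j → Even (Finset.univ.filter (fun k : Fin t => d k = j)).card := by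
  constructor
  · rintro ⟨Q, hQ, e, A, hA⟩ j hj hj0
    obtain ⟨u, hu, hT⟩ := Cfsg.Agent.H17.jordan_o_type hA
    have hu' := Cfsg.Agent.H17.pB_of_isom hu
    exact Cfsg.Agent.H17.parity (J := Cfsg.Agent.H5.pB Q) (Cfsg.Agent.H17.pB_refl Q) hQ hu' hT hj0 (fun x hx => Cfsg.Agent.H17.sym_cond h2 hu' hj hj0 x hx)
  · intro h
    apply Cfsg.Agent.H17.jordan_o_build rfl hsum
    apply Cfsg.Agent.H17.OS.build_odd h2
    · intro a ha
      obtain ⟨k, -, rfl⟩ := Multiset.mem_map.mp ha
      exact hd k
    · intro a ha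
      rcases Nat.eq_zero_or_pos a with rfl | ha0
      · rw [Multiset.count_eq_zero_of_notMem]
        · exact ⟨0, rfl⟩
        · intro h0
          obtain ⟨k, -, hk⟩ := Multiset.mem_map.mp h0
          have := hd k
          omega
      · rw [Cfsg.Agent.H17.count_map_d]
        exact h a ha ha0

end Cfsg.Agent.S2583
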