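import Cfsg.Statements.S2584
import Cfsg.Agent.H17.JOrth

set_option autoImplicit false
open Cfsg

namespace Cfsg.Agent.S2584

/-- Which unipotent Jordan types occur in a finite orthogonal group in characteristic two: over a finite field of characteristic 2 and in even dimension 2m, a unipotent matrix with Jordan block sizes d_1, …, d_t (sum 2m, all at least 1) is similar to an isometry of some quadratic form on F^(2m) with non-degenerate polar form if and only if every odd block size occurs an even number of times (the same condition as for the symplectic group, which contains these orthogonal groups). -/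
theorem result {F : Type*} [Field F] [Fintype F] [CharP F 2] {m t : ℕ} (d : Fin t → ℕ) (hd : ∀ k, 1 ≤ d k) (hsum : ∑ k, d k = 2 * m) : (∃ Q : QuadraticForm F (Fin (2 * m) → F), (QuadraticMap.polarBilin Q).Nondegenerate ∧ ∃ e : ((k : Fin t) × Fin (d k)) ≃ Fin (2 * m), ∃ A : ↥(Cfsg.isometryGroup F ⇑Q), IsConj (Matrix.reindex e e (Cfsg.jordanTypeMatrix d F)) ((A : Matrix.GeneralLinearGroup (Fin (2 * m)) F) : Matrix (Fin (2 * m)) (Fin (2 * m)) F)) ↔ ∀ j : ℕ, Odd j → Even (Finset.univ.filter (fun k : Fin t => d k = j)).card := by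
  have h2 : (2 : F) = 0 := CharP.cast_eq_zero F 2
  constructor
  · rintro ⟨Q, hQ, e, A, hA⟩ j hj
    obtain ⟨u, hu, hT⟩ := Cfsg.Agent.H17.jordan_o_type hA
    have hu' := Cfsg.Agent.H17.pB_of_isom hu
    exact Cfsg.Agent.H17.parity (J := Cfsg.Agent.H5.pB Q) (Cfsg.Agent.H17.pB_refl Q) hQ hu' hT (by rcases hj with ⟨r, hr⟩; omega)
      (fun x hx => Cfsg.Agent.H17.alt_cond (Cfsg.Agent.H17.pB_alt2 h2 Q) hu' hj x hx)
  · intro h
    apply Cfsg.Agent.H17.jordan_o_build rfl hsum
    apply Cfsg.Agent.H17.OS.build_even h2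
    · intro a ha
      obtain ⟨k, -, rfl⟩ := Multiset.mem_map.mp ha
      exact hd k
    · intro a ha
      rw [Cfsg.Agent.H17.count_map_d]
      exact h a ha

end Cfsg.Agent.S2584
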