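import Cfsg.Statements.S2585
import Mathlib

set_option autoImplicit false
open Cfsg

namespace Cfsg.Agent.S2585

/-- Over a finite field of characteristic two every element of the symplectic group is orthogonal for a suitable quadratic form: for each A in Sp_2m(F) there is a quadratic form Q on F^(2m) whose polar form is the alternating form defining Sp_2m(F) (so Q is non-degenerate) and which A preserves. Equivalently, for m ≥ 1, Sp_2m(F) is the union of the conjugates of its two orthogonal subgroups O⁺_2m(F) and O⁻_2m(F). -/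
theorem result {F : Type*} [Field F] [Fintype F] [CharP F 2] {m : ℕ} (A : Matrix.symplecticGroup (Fin m) F) : ∃ Q : QuadraticForm F (Fin m ⊕ Fin m → F), (∀ u v : Fin m ⊕ Fin m → F, QuadraticMap.polar ⇑Q u v = Cfsg.sympForm m F u v) ∧ ∀ v : Fin m ⊕ Fin m → F, Q ((A : Matrix (Fin m ⊕ Fin m) (Fin m ⊕ Fin m) F).mulVec v) = Q v := by
  classical
  haveI : Fact (Nat.Prime 2) := ⟨Nat.prime_two⟩
  haveI : PerfectRing F 2 := inferInstance
  -- base form
  let Q0 : QuadraticForm F (Fin m ⊕ Fin m → F) := ∑ i : Fin m, QuadraticMap.linMulLin (LinearMap.proj (Sum.inl i)) (LinearMap.proj (Sum.inr i))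
  have hQ0 : ∀ v : Fin m ⊕ Fin m → F, Q0 v = ∑ i : Fin m, v (Sum.inl i) * v (Sum.inr i) := by
    intro v
    simp [Q0, QuadraticMap.sum_apply, QuadraticMap.linMulLin_apply]
  have hneg : ∀ x : F, -x = x := fun x => CharTwo.neg_eq x
  have hf : ∀ u v : Fin m ⊕ Fin m → F, Cfsg.sympForm m F u v = ∑ i : Fin m, (u (Sum.inr i) * v (Sum.inl i) + u (Sum.inl i) * v (Sum.inr i)) := by
    intro u v
    unfold Cfsg.sympForm Matrix.J
    rw [dotProduct, Fintype.sum_sum_type]
    simp only [Matrix.mulVec, dotProduct, Fintype.sum_sum_type, Matrix.fromBlocks_apply₁₁, Matrix.fromBlocks_apply₁₂,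
      Matrix.fromBlocks_apply₂₁, Matrix.fromBlocks_apply₂₂, Matrix.zero_apply, Matrix.neg_apply, Matrix.one_apply,
      zero_mul, Finset.sum_const_zero, zero_add, add_zero, ite_mul, one_mul, neg_mul, Finset.sum_ite_eq, Finset.mem_univ, if_true,
      Finset.sum_neg_distrib, mul_neg]
    rw [hneg, Finset.sum_add_distrib, add_comm]
  have hpol : ∀ u v : Fin m ⊕ Fin m → F, Q0 (u + v) = Q0 u + Q0 v + Cfsg.sympForm m F u v := by
    intro u v
    rw [hQ0, hQ0, hQ0, hf, ← Finset.sum_add_distrib, ← Finset.sum_add_distrib]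
    refine Finset.sum_congr rfl (fun i _ => ?_)
    simp only [Pi.add_apply]; ring
  -- invariance of f
  have hAf : ∀ u v : Fin m ⊕ Fin m → F, Cfsg.sympForm m F ((A : Matrix (Fin m ⊕ Fin m) (Fin m ⊕ Fin m) F).mulVec u) ((A : Matrix (Fin m ⊕ Fin m) (Fin m ⊕ Fin m) F).mulVec v) = Cfsg.sympForm m F u v := by
    intro u v
    have hA := SymplecticGroup.mem_iff'.mp A.2
    unfold Cfsg.sympForm
    rw [Matrix.mulVec_mulVec, ← Matrix.vecMul_transpose, ← Matrix.dotProduct_mulVec, Matrix.mulVec_mulVec, ← Matrix.mul_assoc, hA]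
  let D : (Fin m ⊕ Fin m → F) → F := fun v => Q0 ((A : Matrix (Fin m ⊕ Fin m) (Fin m ⊕ Fin m) F).mulVec v) + Q0 v
  have hDadd : ∀ u v : Fin m ⊕ Fin m → F, D (u + v) = D u + D v := by
    intro u v
    show Q0 ((A : Matrix (Fin m ⊕ Fin m) (Fin m ⊕ Fin m) F).mulVec (u + v)) + Q0 (u + v) = _
    rw [Matrix.mulVec_add, hpol, hpol, hAf]
    have := CharTwo.add_self_eq_zero (Cfsg.sympForm m F u v)
    show _ = (Q0 _ + Q0 u) + (Q0 _ + Q0 v)
    linear_combination this
  have hDsmul : ∀ (c : F) (v : Fin m ⊕ Fin m → F), D (c • v) = c ^ 2 * D v := by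
    intro c v
    show Q0 ((A : Matrix (Fin m ⊕ Fin m) (Fin m ⊕ Fin m) F).mulVec (c • v)) + Q0 (c • v) = _
    rw [Matrix.mulVec_smul, QuadraticMap.map_smul, QuadraticMap.map_smul]
    show _ = c ^ 2 * (Q0 _ + Q0 v)
    simp only [smul_eq_mul]; ring
  let r : F ≃+* F := (frobeniusEquiv F 2).symm
  have hr : ∀ x : F, (r x) ^ 2 = x := by
    intro x
    have := (frobeniusEquiv F 2).apply_symm_apply x
    rwa [frobeniusEquiv_apply, frobenius_def] at this
  have hr2 : ∀ x : F, r (x ^ 2) = x := by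
    intro x
    have := (frobeniusEquiv F 2).symm_apply_apply x
    rwa [frobeniusEquiv_apply, frobenius_def] at this
  let δ : (Fin m ⊕ Fin m → F) →ₗ[F] F :=
    { toFun := fun v => r (D v)
      map_add' := by intro u v; rw [hDadd, map_add]
      map_smul' := by intro c v; rw [hDsmul, map_mul, hr2]; rfl }
  let T : (Fin m ⊕ Fin m → F) →ₗ[F] (Fin m ⊕ Fin m → F) := Matrix.mulVecLin ((A : Matrix (Fin m ⊕ Fin m) (Fin m ⊕ Fin m) F)) + LinearMap.id
  have hTker : LinearMap.ker T ≤ LinearMap.ker δ := by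
    intro v hv
    rw [LinearMap.mem_ker] at hv ⊢
    have h1 : (A : Matrix (Fin m ⊕ Fin m) (Fin m ⊕ Fin m) F).mulVec v = v := by
      have h2 : (A : Matrix (Fin m ⊕ Fin m) (Fin m ⊕ Fin m) F).mulVec v + v = 0 := hv
      have h3 : (A : Matrix (Fin m ⊕ Fin m) (Fin m ⊕ Fin m) F).mulVec v = -v := eq_neg_of_add_eq_zero_left h2
      rw [h3]; funext i; exact hneg _
    show r (D v) = 0
    have : D v = 0 := by
      show Q0 _ + Q0 v = 0
      rw [h1]; exact CharTwo.add_self_eq_zero _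
    rw [this, map_zero]
  obtain ⟨φ, hφ⟩ : ∃ φ : (Fin m ⊕ Fin m → F) →ₗ[F] F, φ.comp T = δ := by
    have h1 : δ ∈ LinearMap.range T.dualMap := by
      rw [LinearMap.range_dualMap_eq_dualAnnihilator_ker, Submodule.mem_dualAnnihilator]
      intro w hw
      exact hTker hw
    obtain ⟨φ, hφ⟩ := h1
    exact ⟨φ, hφ⟩
  refine ⟨Q0 + QuadraticMap.linMulLin φ φ, ?_, ?_⟩
  · intro u v
    unfold QuadraticMap.polar
    simp only [QuadraticMap.add_apply, QuadraticMap.linMulLin_apply, map_add, hpol]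
    have := CharTwo.add_self_eq_zero (φ u * φ v)
    linear_combination this
  · intro v
    simp only [QuadraticMap.add_apply, QuadraticMap.linMulLin_apply]
    have h1 : φ ((A : Matrix (Fin m ⊕ Fin m) (Fin m ⊕ Fin m) F).mulVec v) + φ v = r (D v) := by
      have := congrArg (fun l => l v) hφ
      simp only [LinearMap.comp_apply] at this
      rw [← map_add]
      exact this
    have h2 := hr (D v)
    rw [← h1] at h2
    have h3 : D v = Q0 ((A : Matrix (Fin m ⊕ Fin m) (Fin m ⊕ Fin m) F).mulVec v) + Q0 v := rfl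
    rw [h3] at h2
    have h4 := CharTwo.add_self_eq_zero (φ ((A : Matrix (Fin m ⊕ Fin m) (Fin m ⊕ Fin m) F).mulVec v) * φ v)
    have h5 := CharTwo.add_self_eq_zero (Q0 v)
    have h6 := CharTwo.add_self_eq_zero (φ ((A : Matrix (Fin m ⊕ Fin m) (Fin m ⊕ Fin m) F).mulVec v) * φ ((A : Matrix (Fin m ⊕ Fin m) (Fin m ⊕ Fin m) F).mulVec v))
    linear_combination (-1 : F) * h2 + h4 - h5 + h6

end Cfsg.Agent.S2585
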