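import Cfsg.Statements.S2586
import Cfsg.Agent.S2580

set_option autoImplicit false
open Cfsg

namespace Cfsg.Agent.S2586

/-- Over a finite field, every element of the symplectic group Sp_2m(F) is conjugate by an invertible matrix to its inverse. -/
theorem result {F : Type*} [Field F] [Finite F] {m : ℕ} (A : Matrix.symplecticGroup (Fin m) F) : IsConj (A : Matrix (Fin m ⊕ Fin m) (Fin m ⊕ Fin m) F) ((A⁻¹ : Matrix.symplecticGroup (Fin m) F) : Matrix (Fin m ⊕ Fin m) (Fin m ⊕ Fin m) F) := by
  classical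
  -- transfer along a bijection
  let e : Fin m ⊕ Fin m ≃ Fin (m + m) := finSumFinEquiv
  have key : ∀ M : Matrix (Fin m ⊕ Fin m) (Fin m ⊕ Fin m) F, IsConj M M.transpose := by
    intro M
    have h := Cfsg.Agent.S2580.result (Matrix.reindex e e M)
    have h2 := (Matrix.reindexRingEquiv F e.symm).toRingHom.toMonoidHom.map_isConj h
    have e1 : (Matrix.reindexRingEquiv F e.symm).toRingHom.toMonoidHom (Matrix.reindex e e M) = M := by
      ext i j
      simp [Matrix.reindexRingEquiv]
    have e2 : (Matrix.reindexRingEquiv F e.symm).toRingHom.toMonoidHom (Matrix.reindex e e M).transpose = M.transpose := by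
      ext i j
      simp [Matrix.reindexRingEquiv]
    rwa [e1, e2] at h2
  have hJ : (-(Matrix.J (Fin m) F)) * (Matrix.J (Fin m) F) = 1 := by
    rw [neg_mul, Matrix.J_squared, neg_neg]
  have hJ' : (Matrix.J (Fin m) F) * (-(Matrix.J (Fin m) F)) = 1 := by
    rw [mul_neg, Matrix.J_squared, neg_neg]
  refine (key _).trans ?_
  refine ⟨⟨-(Matrix.J (Fin m) F), Matrix.J (Fin m) F, hJ, hJ'⟩, ?_⟩
  show -(Matrix.J (Fin m) F) * _ = _ * -(Matrix.J (Fin m) F)
  rw [SymplecticGroup.coe_inv, Matrix.mul_assoc _ _ (-(Matrix.J (Fin m) F)), hJ', Matrix.mul_one]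

end Cfsg.Agent.S2586
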