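import Cfsg.Statements.S2591
import Cfsg.Agent.H17.SpReg

set_option autoImplicit false
open Cfsg

namespace Cfsg.Agent.S2591

/-- Over a finite field of odd order and for m ≥ 1, the regular unipotent elements of Sp_2m(F) (u − 1 nilpotent of rank 2m − 1, a single Jordan block) form exactly two conjugacy classes of Sp_2m(F) (one class under the similarity group, which splits in two). -/
theorem result {F : Type*} [Field F] [Fintype F] {q : ℕ} (hF : Fintype.card F = q) (hq : Odd q) {m : ℕ} (hm : 1 ≤ m) : Nat.card {C : ConjClasses ↥(Matrix.symplecticGroup (Fin m) F) // ∃ u : Matrix.symplecticGroup (Fin m) F, ConjClasses.mk u = C ∧ ((u : Matrix (Fin m ⊕ Fin m) (Fin m ⊕ Fin m) F) - 1) ^ (2 * m) = 0 ∧ ((u : Matrix (Fin m ⊕ Fin m) (Fin m ⊕ Fin m) F) - 1).rank = 2 * m - 1} = 2 := by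
  classical
  obtain ⟨p, hp⟩ := CharP.exists F
  haveI : Fact p.Prime := ⟨CharP.char_is_prime F p⟩
  have hp2 : p ≠ 2 := by
    rintro rfl
    obtain ⟨n, -, hn⟩ := FiniteField.card F 2
    rw [hF] at hn
    rw [hn] at hq
    exact absurd hq (Nat.not_odd_iff_even.mpr ((even_two).pow_of_ne_zero n.ne_zero))
  let ι₀ : ↥(Matrix.symplecticGroup (Fin m) F) →* GL (Fin m ⊕ Fin m) F := (Matrix.symplecticGroup (Fin m) F).subtype.toHomUnits
  have hι₀ : ∀ A : ↥(Matrix.symplecticGroup (Fin m) F), ((ι₀ A : GL (Fin m ⊕ Fin m) F) : Matrix (Fin m ⊕ Fin m) (Fin m ⊕ Fin m) F) = A := fun _ => rfl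
  let G := Cfsg.Agent.H17.GSpP m F
  let ι : ↥(Matrix.symplecticGroup (Fin m) F) →* G := (ι₀.prod 1).codRestrict G (fun A => by
    show (ι₀ A, (1 : Fˣ)) ∈ Cfsg.Agent.H17.GSpP m F
    rw [Cfsg.Agent.H17.mem_GSpP]
    show Cfsg.Agent.H17.sJ (A : Matrix (Fin m ⊕ Fin m) (Fin m ⊕ Fin m) F) * (A : Matrix (Fin m ⊕ Fin m) (Fin m ⊕ Fin m) F) = Matrix.scalar (Fin m ⊕ Fin m) ((1 : Fˣ) : F)
    rw [Cfsg.Agent.H17.mem_Sp_sJ.mp A.2, Units.val_one, map_one])
  let δ : G →* Fˣ := (MonoidHom.snd _ _).comp G.subtype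
  have hδ : ∀ x : G, δ x = x.1.2 := fun _ => rfl
  obtain ⟨u, hu⟩ := Cfsg.Agent.H17.exists_sp_reg F hm
  have key := Cfsg.Agent.H17.class_split δ ι (by
      intro A B h
      apply Subtype.ext
      exact congrArg (fun x : G => (x.1.1 : Matrix (Fin m ⊕ Fin m) (Fin m ⊕ Fin m) F)) h) (by
      ext x
      rw [MonoidHom.mem_range, MonoidHom.mem_ker]
      constructor
      · rintro ⟨A, rfl⟩
        rfl
      · intro hx
        have h1 := Cfsg.Agent.H17.mem_GSpP.mp x.2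
        rw [hδ] at hx
        rw [hx, Units.val_one, map_one] at h1
        refine ⟨⟨x.1.1.1, Cfsg.Agent.H17.mem_Sp_sJ.mpr h1⟩, ?_⟩
        apply Subtype.ext
        apply Prod.ext
        · apply Units.ext
          rfl
        · exact hx.symm) (fun x : G => Cfsg.Agent.H17.RU (x.1.1 : Matrix (Fin m ⊕ Fin m) (Fin m ⊕ Fin m) F) ∧ x.1.2 = 1)
      (fun x hx => hx.2) (by
      rintro x y ⟨hy1, hy2⟩
      refine ⟨hy1.conj x.1.1, ?_⟩
      show x.1.2 * y.1.2 * x.1.2⁻¹ = 1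
      rw [hy2, mul_one, mul_inv_cancel]) (by
      rintro x y ⟨hx1, hx2⟩ ⟨hy1, hy2⟩
      have h1 := Cfsg.Agent.H17.mem_GSpP.mp x.2
      have h2 := Cfsg.Agent.H17.mem_GSpP.mp y.2
      rw [hx2, Units.val_one, map_one] at h1
      rw [hy2, Units.val_one, map_one] at h2
      obtain ⟨z, hz, hzc⟩ := Cfsg.Agent.H17.ru_conj hp2 hm hx1 hy1 h1 h2
      rw [isConj_iff]
      refine ⟨⟨z, hz⟩, ?_⟩
      apply Subtype.ext
      apply Prod.ext
      · exact hzc
      · show z.2 * x.1.2 * z.2⁻¹ = y.1.2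
        rw [hx2, hy2, mul_one, mul_inv_cancel]) (u := ι u) ⟨hu, rfl⟩
  have key2 : Nat.card {C : ConjClasses ↥(Matrix.symplecticGroup (Fin m) F) // ∃ u : Matrix.symplecticGroup (Fin m) F, ConjClasses.mk u = C ∧ ((u : Matrix (Fin m ⊕ Fin m) (Fin m ⊕ Fin m) F) - 1) ^ (2 * m) = 0 ∧ ((u : Matrix (Fin m ⊕ Fin m) (Fin m ⊕ Fin m) F) - 1).rank = 2 * m - 1} =
      (Subgroup.map δ (Subgroup.centralizer {ι u})).relIndex δ.range := by
    rw [← key]
    refine Nat.card_congr (Equiv.subtypeEquivRight fun C => exists_congr fun A => and_congr_right fun _ => ?_)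
    exact ⟨fun h => ⟨h, rfl⟩, fun h => h.1⟩
  rw [key2]
  have hrange : δ.range = ⊤ := by
    rw [eq_top_iff]
    rintro c -
    have hdet : (Matrix.fromBlocks ((c : F) • (1 : Matrix (Fin m) (Fin m) F)) 0 0 1 : Matrix (Fin m ⊕ Fin m) (Fin m ⊕ Fin m) F).det ≠ 0 := by
      rw [Matrix.det_fromBlocks_zero₂₁, Matrix.det_smul, Matrix.det_one, mul_one, mul_one]
      exact pow_ne_zero _ c.ne_zero
    refine ⟨⟨⟨Matrix.GeneralLinearGroup.mkOfDetNeZero _ hdet, c⟩, ?_⟩, rfl⟩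
    rw [Cfsg.Agent.H17.mem_GSpP]
    show Cfsg.Agent.H17.sJ (Matrix.fromBlocks ((c : F) • (1 : Matrix (Fin m) (Fin m) F)) 0 0 1 : Matrix (Fin m ⊕ Fin m) (Fin m ⊕ Fin m) F) * (Matrix.fromBlocks ((c : F) • (1 : Matrix (Fin m) (Fin m) F)) 0 0 1 : Matrix (Fin m ⊕ Fin m) (Fin m ⊕ Fin m) F) = Matrix.scalar (Fin m ⊕ Fin m) (c : F)
    rw [Cfsg.Agent.H17.scalar_eq_smul]
    unfold Cfsg.Agent.H17.sJ Matrix.J
    rw [Matrix.fromBlocks_transpose, Matrix.fromBlocks_multiply, Matrix.fromBlocks_multiply, Matrix.fromBlocks_neg, Matrix.fromBlocks_multiply, ← Matrix.fromBlocks_one, Matrix.fromBlocks_smul]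
    simp
  have hmap : Subgroup.map δ (Subgroup.centralizer {ι u}) = (powMonoidHom 2 : Fˣ →* Fˣ).range := by
    ext c
    rw [Subgroup.mem_map, MonoidHom.mem_range]
    constructor
    · rintro ⟨x, hx, rfl⟩
      rw [Subgroup.mem_centralizer_singleton_iff] at hx
      have h1 : (x.1.1 : Matrix (Fin m ⊕ Fin m) (Fin m ⊕ Fin m) F) * (u : Matrix (Fin m ⊕ Fin m) (Fin m ⊕ Fin m) F) = (u : Matrix (Fin m ⊕ Fin m) (Fin m ⊕ Fin m) F) * x.1.1 :=
        congrArg (fun y : G => (y.1.1 : Matrix (Fin m ⊕ Fin m) (Fin m ⊕ Fin m) F)) hx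
      obtain ⟨d, hd⟩ := Cfsg.Agent.H17.ru_mult_sq hm hu h1 (Cfsg.Agent.H17.mem_GSpP.mp x.2)
      have hd0 : d ≠ 0 := by
        rintro rfl
        exact x.1.2.ne_zero (by rw [hd, mul_zero])
      refine ⟨Units.mk0 d hd0, ?_⟩
      apply Units.ext
      rw [hδ, hd]
      show d ^ 2 = d * d
      rw [pow_two]
    · rintro ⟨d, rfl⟩
      have hs : (Units.map (Matrix.scalar (Fin m ⊕ Fin m) : F →+* _).toMonoidHom d, d ^ 2) ∈ Cfsg.Agent.H17.GSpP m F := by
        rw [Cfsg.Agent.H17.mem_GSpP]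
        show Cfsg.Agent.H17.sJ (Matrix.scalar (Fin m ⊕ Fin m) (d : F)) * Matrix.scalar (Fin m ⊕ Fin m) (d : F) = Matrix.scalar (Fin m ⊕ Fin m) ((d ^ 2 : Fˣ) : F)
        rw [Cfsg.Agent.H17.sJ_scalar, ← map_mul, Units.val_pow_eq_pow_val, pow_two]
      refine ⟨⟨_, hs⟩, ?_, rfl⟩
      rw [Subgroup.mem_centralizer_singleton_iff]
      apply Subtype.ext
      apply Prod.ext
      · apply Units.ext
        exact (Matrix.scalar_commute (d : F) (fun r => mul_comm _ _) (u : Matrix (Fin m ⊕ Fin m) (Fin m ⊕ Fin m) F)).eq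
      · exact mul_comm _ _
  rw [hmap, hrange, Subgroup.relIndex_top_right, IsCyclic.index_powMonoidHom_range, Nat.card_eq_fintype_card, Fintype.card_units, hF]
  apply Nat.gcd_eq_right
  obtain ⟨k, hk⟩ := hq
  exact ⟨k, by omega⟩

end Cfsg.Agent.S2591
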