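import Cfsg.Statements.S2592
import Cfsg.Agent.H17.SpRegCent

set_option autoImplicit false
open Cfsg

namespace Cfsg.Agent.S2592

theorem aux_equiv {F : Type*} [Field F] {m : ℕ} (u : Matrix.symplecticGroup (Fin m) F) :
    Nat.card ↥(Subgroup.centralizer ({u} : Set ↥(Matrix.symplecticGroup (Fin m) F))) =
      Nat.card {X : Matrix (Fin m ⊕ Fin m) (Fin m ⊕ Fin m) F // X * (u : Matrix (Fin m ⊕ Fin m) (Fin m ⊕ Fin m) F) = u * X ∧ Cfsg.Agent.H17.sJ X * X = 1} := by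
  refine Nat.card_congr (Equiv.ofBijective (fun g => ⟨g.1.1, ?_, Cfsg.Agent.H17.mem_Sp_sJ.mp g.1.2⟩) ⟨?_, ?_⟩)
  · exact congrArg (fun y : Matrix.symplecticGroup (Fin m) F => (y : Matrix (Fin m ⊕ Fin m) (Fin m ⊕ Fin m) F)) (Subgroup.mem_centralizer_singleton_iff.mp g.2)
  · intro g h hgh
    have h1 : (g.1.1 : Matrix (Fin m ⊕ Fin m) (Fin m ⊕ Fin m) F) = h.1.1 := by
      have := congrArg Subtype.val hgh
      exact this
    exact Subtype.ext (Subtype.ext h1)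
  · rintro ⟨X, h1, h2⟩
    refine ⟨⟨⟨X, Cfsg.Agent.H17.mem_Sp_sJ.mpr h2⟩, ?_⟩, rfl⟩
    rw [Subgroup.mem_centralizer_singleton_iff]
    exact Subtype.ext h1

/-- Over a finite field with q elements, q odd, the centraliser in Sp_2m(F) (m ≥ 1) of a regular unipotent element (u − 1 nilpotent of rank 2m − 1) has order 2 q^m. -/
theorem result {F : Type*} [Field F] [Fintype F] {q : ℕ} (hF : Fintype.card F = q) (hq : Odd q) {m : ℕ} (hm : 1 ≤ m) (u : Matrix.symplecticGroup (Fin m) F) (hnil : ((u : Matrix (Fin m ⊕ Fin m) (Fin m ⊕ Fin m) F) - 1) ^ (2 * m) = 0) (hreg : ((u : Matrix (Fin m ⊕ Fin m) (Fin m ⊕ Fin m) F) - 1).rank = 2 * m - 1) : Nat.card ↥(Subgroup.centralizer ({u} : Set ↥(Matrix.symplecticGroup (Fin m) F))) = 2 * q ^ m := by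
  obtain ⟨p, hp⟩ := CharP.exists F
  haveI : Fact p.Prime := ⟨CharP.char_is_prime F p⟩
  have hp2 : p ≠ 2 := by
    rintro rfl
    obtain ⟨n, -, hn⟩ := FiniteField.card F 2
    rw [hF] at hn
    rw [hn] at hq
    exact absurd hq (Nat.not_odd_iff_even.mpr ((even_two).pow_of_ne_zero n.ne_zero))
  have hq' : Nat.card F = q := by rw [Nat.card_eq_fintype_card, hF]
  have hu : Cfsg.Agent.H17.RU (u : Matrix (Fin m ⊕ Fin m) (Fin m ⊕ Fin m) F) := ⟨hnil, hreg⟩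
  exact (aux_equiv u).trans (Cfsg.Agent.H17.card_cent_reg hp2 hm hq' hu (Cfsg.Agent.H17.mem_Sp_sJ.mp u.2))

end Cfsg.Agent.S2592
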