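import Cfsg.Statements.S2594
import Cfsg.Agent.H5.SpOrder
import Cfsg.Agent.H5.Sp

set_option autoImplicit false
open Cfsg

namespace Cfsg.Agent.S2594

open Cfsg Cfsg.Agent.H5 Matrix in
theorem aux_rank_one {F : Type*} [Field F] {m : ℕ} (t : Matrix.symplecticGroup (Fin m) F) (ht : ((t : Matrix (Fin m ⊕ Fin m) (Fin m ⊕ Fin m) F) - 1).rank = 1) :
    ∃ (w : Fin m ⊕ Fin m → F) (c : F), w ≠ 0 ∧ c ≠ 0 ∧ ∀ x, (t : Matrix (Fin m ⊕ Fin m) (Fin m ⊕ Fin m) F).mulVec x = x + (c * sympB m F x w) • w := by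
  classical
  have h1 : Module.finrank F (LinearMap.range (((t : Matrix (Fin m ⊕ Fin m) (Fin m ⊕ Fin m) F) - 1).mulVecLin)) = 1 := ht
  obtain ⟨⟨u, hu⟩, hu0, hu1⟩ := finrank_eq_one_iff'.mp h1
  have hu0' : u ≠ 0 := fun h => hu0 (Subtype.ext h)
  have h2 : ∀ x, ∃ a : F, (t : Matrix (Fin m ⊕ Fin m) (Fin m ⊕ Fin m) F).mulVec x = x + a • u := by
    intro x
    obtain ⟨a, ha⟩ := hu1 ⟨_, LinearMap.mem_range_self _ x⟩
    have h3 : a • u = (t : Matrix (Fin m ⊕ Fin m) (Fin m ⊕ Fin m) F).mulVec x - x := by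
      have : a • u = ((t : Matrix (Fin m ⊕ Fin m) (Fin m ⊕ Fin m) F) - 1).mulVecLin x := congrArg Subtype.val ha
      rw [this, Matrix.mulVecLin_apply, Matrix.sub_mulVec, Matrix.one_mulVec]
    refine ⟨a, ?_⟩
    rw [h3]; abel
  choose a ha using h2
  have h3 : ∀ x y, a y * sympB m F x u = a x * sympB m F y u := by
    intro x y
    have h4 := mem_Sp_iff.mp t.2 x y
    rw [ha, ha, map_add, map_add, LinearMap.add_apply, LinearMap.add_apply, map_smul, map_smul, map_smul, LinearMap.smul_apply, LinearMap.smul_apply,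
      smul_eq_mul, smul_eq_mul, smul_eq_mul, sympB_isAlt u, smul_zero, sympB_neg u y] at h4
    linear_combination h4
  obtain ⟨y, hy⟩ : ∃ y, sympB m F y u ≠ 0 := by
    by_contra h
    push Not at h
    exact hu0' (sympB_nondegenerate.1 u fun y => by rw [sympB_neg, h, neg_zero])
  refine ⟨u, a y / sympB m F y u, hu0', ?_, ?_⟩
  · intro h
    rw [div_eq_zero_iff] at h
    rcases h with h | h
    · have h5 : ∀ x, a x = 0 := by
        intro x
        have := h3 x y
        rw [h, zero_mul] at this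
        exact (mul_eq_zero.mp this.symm).resolve_right hy
      obtain ⟨x, hx⟩ := hu
      apply hu0'
      rw [← hx, Matrix.mulVecLin_apply, Matrix.sub_mulVec, Matrix.one_mulVec, ha, h5, zero_smul, add_zero, sub_self]
    · exact hy h
  · intro x
    rw [ha]
    congr 2
    field_simp
    exact (h3 x y).symm

open Cfsg Cfsg.Agent.H5 Matrix in
theorem aux_stab {F : Type*} [Field F] [Fintype F] {m : ℕ} (w : Fin m ⊕ Fin m → F) (hw : w ≠ 0) :
    Nat.card {g : Matrix.symplecticGroup (Fin m) F // (g : Matrix (Fin m ⊕ Fin m) (Fin m ⊕ Fin m) F).mulVec w = w} * (Nat.card F ^ (2 * m) - 1) =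
      Nat.card (Matrix.symplecticGroup (Fin m) F) := by
  classical
  letI act : MulAction (Matrix.symplecticGroup (Fin m) F) (Fin m ⊕ Fin m → F) :=
    { smul := fun g v => (g : Matrix (Fin m ⊕ Fin m) (Fin m ⊕ Fin m) F).mulVec v
      one_smul := fun v => Matrix.one_mulVec v
      mul_smul := fun g h v => by
        show ((g * h : Matrix.symplecticGroup (Fin m) F) : Matrix (Fin m ⊕ Fin m) (Fin m ⊕ Fin m) F).mulVec v = _
        exact (Matrix.mulVec_mulVec _ _ _).symm }
  have hsm : ∀ (g : Matrix.symplecticGroup (Fin m) F) (v : Fin m ⊕ Fin m → F), g • v = (g : Matrix (Fin m ⊕ Fin m) (Fin m ⊕ Fin m) F).mulVec v := fun _ _ => rfl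
  have horb : MulAction.orbit (Matrix.symplecticGroup (Fin m) F) w = {v | v ≠ 0} := by
    ext v
    rw [Set.mem_setOf_eq, MulAction.mem_orbit_iff]
    constructor
    · rintro ⟨g, rfl⟩ h
      rw [hsm] at h
      apply hw
      apply sympB_nondegenerate.1
      intro y
      rw [← mem_Sp_iff.mp g.2, h, map_zero, LinearMap.zero_apply]
    · intro hv
      obtain ⟨A, hA⟩ := sp_witt (m := m) (F ∙ w) ((LinearMap.toSpanSingleton F _ v) ∘ₗ (LinearEquiv.toSpanNonzeroSingleton F _ w hw).symm.toLinearMap) (by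
        rw [LinearMap.coe_comp]
        refine Function.Injective.comp ?_ (LinearEquiv.injective (LinearEquiv.toSpanNonzeroSingleton F _ w hw).symm)
        rw [injective_iff_map_eq_zero]
        intro a ha
        rw [LinearMap.toSpanSingleton_apply] at ha
        exact (smul_eq_zero.mp ha).resolve_right hv) (by
        intro x y
        obtain ⟨a, rfl⟩ := (LinearEquiv.toSpanNonzeroSingleton F _ w hw).surjective x
        obtain ⟨b, rfl⟩ := (LinearEquiv.toSpanNonzeroSingleton F _ w hw).surjective y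
        rw [LinearMap.comp_apply, LinearMap.comp_apply, LinearEquiv.coe_coe, LinearEquiv.symm_apply_apply, LinearEquiv.symm_apply_apply,
          LinearMap.toSpanSingleton_apply, LinearMap.toSpanSingleton_apply]
        show sympB m F (a • v) (b • v) = sympB m F (a • w) (b • w)
        rw [map_smul, map_smul, map_smul, map_smul, LinearMap.smul_apply, LinearMap.smul_apply, sympB_isAlt v, sympB_isAlt w])
      refine ⟨A, ?_⟩
      rw [hsm]
      have h1 := hA ⟨w, Submodule.mem_span_singleton_self w⟩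
      rw [LinearMap.comp_apply, LinearEquiv.coe_coe] at h1
      have h2 : (LinearEquiv.toSpanNonzeroSingleton F _ w hw).symm ⟨w, Submodule.mem_span_singleton_self w⟩ = 1 := by
        rw [LinearEquiv.symm_apply_eq]
        apply Subtype.ext
        show w = (1 : F) • w
        rw [one_smul]
      rw [h2, LinearMap.toSpanSingleton_apply, one_smul] at h1
      exact h1
  have h1 := MulAction.card_orbit_mul_card_stabilizer_eq_card_group (Matrix.symplecticGroup (Fin m) F) w
  rw [← Nat.card_eq_fintype_card, ← Nat.card_eq_fintype_card, ← Nat.card_eq_fintype_card] at h1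
  rw [← h1, mul_comm]
  congr 1
  rw [horb]
  have h2 : Nat.card {v : Fin m ⊕ Fin m → F | v ≠ 0} = Nat.card (Fin m ⊕ Fin m → F) - 1 := by
    rw [Nat.card_eq_fintype_card, Nat.card_eq_fintype_card]
    show Fintype.card {v : Fin m ⊕ Fin m → F // v ≠ 0} = _
    rw [Fintype.card_subtype_compl, Fintype.card_subtype_eq]
  rw [h2, Nat.card_fun]
  simp [two_mul]

/-- Over a finite field with q elements, q even, an element t of Sp_2m(F) with rank(t − 1) = 1 (a symplectic transvection) has centraliser in Sp_2m(F) of order q^(2m−1) · |Sp_(2m−2)(q)| = q^(2m−1) · q^((m−1)²) · Π_(i=1)^(m−1) (q^(2i) − 1). -/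
theorem result {F : Type*} [Field F] [Fintype F] [CharP F 2] {q : ℕ} (hF : Fintype.card F = q) {m : ℕ} (hm : 1 ≤ m) (t : Matrix.symplecticGroup (Fin m) F) (ht : ((t : Matrix (Fin m ⊕ Fin m) (Fin m ⊕ Fin m) F) - 1).rank = 1) : Nat.card ↥(Subgroup.centralizer ({t} : Set ↥(Matrix.symplecticGroup (Fin m) F))) = q ^ (2 * m - 1) * (q ^ ((m - 1) ^ 2) * ∏ i : Fin (m - 1), (q ^ (2 * ((i : ℕ) + 1)) - 1)) := by
  classical
  haveI : Fact (Nat.Prime 2) := ⟨Nat.prime_two⟩
  obtain ⟨w, c, hw, hc, hwc⟩ := aux_rank_one t ht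
  obtain ⟨s, hs⟩ : ∃ s : F, c = s * s := by
    obtain ⟨s, hs⟩ := (frobenius_inj F 2 |> Finite.injective_iff_surjective.mp) c
    exact ⟨s, by rw [← hs, frobenius_def, pow_two]⟩
  have hs0 : s ≠ 0 := by rintro rfl; exact hc (by rw [hs, mul_zero])
  set v : Fin m ⊕ Fin m → F := s • w with hv
  have hv0 : v ≠ 0 := smul_ne_zero hs0 hw
  have htv : ∀ x, (t : Matrix (Fin m ⊕ Fin m) (Fin m ⊕ Fin m) F).mulVec x = x + (Cfsg.Agent.H5.sympB m F x v) • v := by
    intro x
    rw [hwc, hv, map_smul, smul_smul, smul_eq_mul, hs]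
    congr 2
    ring
  have hcent : Nat.card ↥(Subgroup.centralizer ({t} : Set ↥(Matrix.symplecticGroup (Fin m) F))) =
      Nat.card {g : Matrix.symplecticGroup (Fin m) F // (g : Matrix (Fin m ⊕ Fin m) (Fin m ⊕ Fin m) F).mulVec v = v} := by
    refine Nat.card_congr (Equiv.subtypeEquivRight fun g => ?_)
    rw [Subgroup.mem_centralizer_singleton_iff]
    have key : g * t = t * g ↔ ∀ x, (Cfsg.Agent.H5.sympB m F x v) • ((g : Matrix (Fin m ⊕ Fin m) (Fin m ⊕ Fin m) F).mulVec v) =
        (Cfsg.Agent.H5.sympB m F ((g : Matrix (Fin m ⊕ Fin m) (Fin m ⊕ Fin m) F).mulVec x) v) • v := by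
      have e1 : ∀ x, ((g * t : Matrix.symplecticGroup (Fin m) F) : Matrix (Fin m ⊕ Fin m) (Fin m ⊕ Fin m) F).mulVec x =
          (g : Matrix (Fin m ⊕ Fin m) (Fin m ⊕ Fin m) F).mulVec x + (Cfsg.Agent.H5.sympB m F x v) • ((g : Matrix (Fin m ⊕ Fin m) (Fin m ⊕ Fin m) F).mulVec v) := by
        intro x
        show ((g : Matrix (Fin m ⊕ Fin m) (Fin m ⊕ Fin m) F) * t).mulVec x = _
        rw [← Matrix.mulVec_mulVec, htv, Matrix.mulVec_add, Matrix.mulVec_smul]
      have e2 : ∀ x, ((t * g : Matrix.symplecticGroup (Fin m) F) : Matrix (Fin m ⊕ Fin m) (Fin m ⊕ Fin m) F).mulVec x =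
          (g : Matrix (Fin m ⊕ Fin m) (Fin m ⊕ Fin m) F).mulVec x + (Cfsg.Agent.H5.sympB m F ((g : Matrix (Fin m ⊕ Fin m) (Fin m ⊕ Fin m) F).mulVec x) v) • v := by
        intro x
        show ((t : Matrix (Fin m ⊕ Fin m) (Fin m ⊕ Fin m) F) * g).mulVec x = _
        rw [← Matrix.mulVec_mulVec, htv]
      constructor
      · intro h x
        have h1 := e1 x
        rw [h, e2] at h1
        exact (add_left_cancel h1).symm
      · intro h
        apply Subtype.ext
        apply Matrix.toLin'.injective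
        apply LinearMap.ext
        intro x
        rw [Matrix.toLin'_apply, Matrix.toLin'_apply, e1, e2, h]
    rw [key]
    constructor
    · intro h
      obtain ⟨y, hy⟩ : ∃ y, Cfsg.Agent.H5.sympB m F y v ≠ 0 := by
        by_contra h
        push Not at h
        exact hv0 (Cfsg.Agent.H5.sympB_nondegenerate.1 v fun y => by rw [Cfsg.Agent.H5.sympB_neg, h, neg_zero])
      -- `g v = l v`
      obtain ⟨l, hl⟩ : ∃ l : F, (g : Matrix (Fin m ⊕ Fin m) (Fin m ⊕ Fin m) F).mulVec v = l • v := by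
        refine ⟨(Cfsg.Agent.H5.sympB m F y v)⁻¹ * Cfsg.Agent.H5.sympB m F ((g : Matrix (Fin m ⊕ Fin m) (Fin m ⊕ Fin m) F).mulVec y) v, ?_⟩
        rw [← smul_smul, ← h, smul_smul, inv_mul_cancel₀ hy, one_smul]
      have h1 := Cfsg.Agent.H5.mem_Sp_iff.mp g.2 y v
      have h2 := h y
      rw [hl, smul_smul] at h2
      have h3 : Cfsg.Agent.H5.sympB m F y v * l = Cfsg.Agent.H5.sympB m F ((g : Matrix (Fin m ⊕ Fin m) (Fin m ⊕ Fin m) F).mulVec y) v :=
        smul_left_injective F hv0 h2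
      rw [hl, map_smul, smul_eq_mul, ← h3] at h1
      have h4 : l * l = 1 := by
        have : (l * l - 1) * Cfsg.Agent.H5.sympB m F y v = 0 := by linear_combination h1
        exact sub_eq_zero.mp ((mul_eq_zero.mp this).resolve_right hy)
      have h5 : (l - 1) * (l - 1) = 0 := by
        have h2 : (2 : F) = 0 := CharP.cast_eq_zero F 2
        linear_combination h4 - (l - 1) * h2
      have h6 : l = 1 := sub_eq_zero.mp (mul_self_eq_zero.mp h5)
      rw [hl, h6, one_smul]
    · intro h x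
      have h1 := Cfsg.Agent.H5.mem_Sp_iff.mp g.2 x v
      rw [h] at h1 ⊢
      rw [h1]
  have h1 := aux_stab v hv0
  rw [Cfsg.Agent.H5.card_Sp hF m, ← hcent, Nat.card_eq_fintype_card (α := F), hF] at h1
  have hq : 2 ≤ q := by rw [← hF]; exact Fintype.one_lt_card
  have hq1 : 0 < q ^ (2 * m) - 1 := by
    have : 2 ^ 1 ≤ q ^ (2 * m) := (Nat.pow_le_pow_left hq 1).trans (Nat.pow_le_pow_right (by omega) (by omega))
    omega
  apply Nat.eq_of_mul_eq_mul_right hq1
  rw [h1]
  obtain ⟨k, rfl⟩ : ∃ k, m = k + 1 := ⟨m - 1, by omega⟩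
  rw [Finset.prod_range_succ, Finset.prod_range, Nat.add_sub_cancel]
  have e1 : q ^ (k + 1) ^ 2 = q ^ (2 * (k + 1) - 1) * q ^ k ^ 2 := by
    rw [← pow_add]
    congr 1
    have : 2 * (k + 1) - 1 = 2 * k + 1 := by omega
    rw [this]; ring
  rw [e1]
  ring

end Cfsg.Agent.S2594
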