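import Cfsg.Statements.S2597
import Cfsg.Agent.H17.InvTwoE

set_option autoImplicit false
open Cfsg

namespace Cfsg.Agent.S2597

/-- Number of conjugacy classes of involutions in Ω⁺_2m(F) (the commutator subgroup of the orthogonal group of Σ x_i y_i) over a finite field F of characteristic two, m ≥ 1, excluding the case m = 2 over the field of two elements: the involutions of Ω are those with s = rank(t − 1) even, giving two O-classes for each even s with 2 ≤ s ≤ m, each of which is a single Ω-class except that for m even the class with s = m and v ↦ f(v, tv) identically zero splits in two; in all 2⌊m/2⌋ + 1 classes if m is even and 2⌊m/2⌋ if m is odd. -/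
theorem result {F : Type*} [Field F] [Fintype F] [CharP F 2] {m : ℕ} (hm : 1 ≤ m) (h : Fintype.card F ≠ 2 ∨ m ≠ 2) : Nat.card {C : ConjClasses ↥(Cfsg.Omega F (Cfsg.quadFormPlus m F)) // ∃ g : ↥(Cfsg.Omega F (Cfsg.quadFormPlus m F)), ConjClasses.mk g = C ∧ orderOf g = 2} = 2 * (m / 2) + (if Even m then 1 else 0) := by
  have hV : Module.finrank F (Fin m ⊕ Fin m → F) = 2 * m := by rw [Module.finrank_fintype_fun_eq_card, Fintype.card_sum, Fintype.card_fin]; ring
  have hex : (∀ a : F, a = 0 ∨ a = 1) → Module.finrank F (Fin m ⊕ Fin m → F) ≠ 4 := by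
    intro h1 h4
    have hm2 : m = 2 := by omega
    rcases h with h | h
    · apply h
      classical
      have h2 : (Finset.univ : Finset F) = {0, 1} := by
        ext a
        simp only [Finset.mem_univ, Finset.mem_insert, Finset.mem_singleton, true_iff]
        exact h1 a
      rw [← Finset.card_univ, h2, Finset.card_pair zero_ne_one]
    · exact h hm2
  rw [← Cfsg.Agent.H5.qPlus_coe]
  rw [Cfsg.Agent.H17.Omega_count (Cfsg.Agent.H17.iset_plus m) Cfsg.Agent.H5.nd_plus hV (Cfsg.Agent.H5.rg_top Cfsg.Agent.H5.nd_plus hex) hm le_rfl (fun U hU => hU.finrank_le Cfsg.Agent.H5.nd_plus hV)]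
  by_cases he : Even m
  · rw [if_pos he, if_pos ⟨he, rfl⟩]
    ring
  · rw [if_neg he, if_neg (fun h => he h.1)]
    ring

end Cfsg.Agent.S2597
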