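import Cfsg.Statements.S2598
import Cfsg.Agent.H17.InvTwoE

set_option autoImplicit false
open Cfsg

namespace Cfsg.Agent.S2598

/-- Number of conjugacy classes of involutions in Ω⁻_2m(F) (the commutator subgroup of the orthogonal group of an elliptic quadratic form, Σ_(i<m−1) x_i y_i plus an anisotropic binary form) over a finite field F of characteristic two, m ≥ 1: the involutions of Ω are those with s = rank(t − 1) even, one O-class for each even s with 2 ≤ s ≤ m on which v ↦ f(v, tv) is not identically zero and one for each even s with 2 ≤ s < m on which it is zero (f the polar form; in characteristic 2, f(v, tv) = Q(v + tv)), none of which splits in Ω; in all ⌊m/2⌋ + ⌊(m − 1)/2⌋. -/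
theorem result {F : Type*} [Field F] [Fintype F] [CharP F 2] {m : ℕ} (hm : 1 ≤ m) (a b : F) (hab : ∀ z₁ z₂ : F, z₁ ^ 2 + a * z₁ * z₂ + b * z₂ ^ 2 = 0 → z₁ = 0 ∧ z₂ = 0) : Nat.card {C : ConjClasses ↥(Cfsg.Omega F (Cfsg.quadFormMinus (m - 1) F a b)) // ∃ g : ↥(Cfsg.Omega F (Cfsg.quadFormMinus (m - 1) F a b)), ConjClasses.mk g = C ∧ orderOf g = 2} = m / 2 + (m - 1) / 2 := by
  obtain ⟨k, rfl⟩ : ∃ k, m = k + 1 := ⟨m - 1, by omega⟩
  have hV : Module.finrank F ((Fin k ⊕ Fin k) ⊕ Fin 2 → F) = 2 * (k + 1) := by rw [Module.finrank_fintype_fun_eq_card, Fintype.card_sum, Fintype.card_sum, Fintype.card_fin, Fintype.card_fin]; ring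
  have hM : ∀ U : Submodule F ((Fin k ⊕ Fin k) ⊕ Fin 2 → F), Cfsg.Agent.H5.TS (Cfsg.Agent.H5.qMinus k F a b) U → Module.finrank F U ≤ k := by
    intro U hU
    apply Cfsg.Agent.H17.finrank_le_of_ts_minus k a b hab
    intro u hu
    rw [← Cfsg.Agent.H5.qMinus_coe]
    exact hU u hu
  have hnd : Cfsg.Agent.H5.ND (Cfsg.Agent.H5.qMinus k F a b) := Cfsg.Agent.H5.nd_minus hab
  rw [Nat.add_sub_cancel, ← Cfsg.Agent.H5.qMinus_coe]
  rw [Cfsg.Agent.H17.Omega_count (Cfsg.Agent.H17.iset_minus k hab) hnd hV (Cfsg.Agent.H17.rg_top_no_plane hnd (fun U hU h4 => (hM U hU).trans (by omega))) hm (Nat.le_succ k) hM]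
  rw [if_neg (fun h => absurd h.2 (by omega)), add_zero]

end Cfsg.Agent.S2598
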