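import Cfsg.Statements.S2599
import Mathlib

set_option autoImplicit false
open Cfsg

namespace Cfsg.Agent.S2599

/-- An irreducible invariant subspace of a semisimple isometry is non-degenerate or totally singular: let Q be a quadratic form on F^n (F finite of characteristic p) with non-degenerate polar form f, x an isometry of Q of order prime to p, and U a non-zero x-invariant subspace containing no x-invariant subspace other than 0 and U. Then U meets its f-orthogonal trivially, or Q vanishes on U, or p = 2, U is a line spanned by a non-singular vector and x fixes U pointwise. -/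
theorem result {F : Type*} [Field F] [Fintype F] {p : ℕ} [Fact p.Prime] [CharP F p] {n : ℕ} (Q : QuadraticForm F (Fin n → F)) (hQ : (QuadraticMap.polarBilin Q).Nondegenerate) (x : ↥(Cfsg.isometryGroup F ⇑Q)) (hx : (orderOf x).Coprime p) (U : Submodule F (Fin n → F)) (hU0 : U ≠ ⊥) (hUx : ∀ u ∈ U, ((x : Matrix.GeneralLinearGroup (Fin n) F) : Matrix (Fin n) (Fin n) F).mulVec u ∈ U) (hirr : ∀ W : Submodule F (Fin n → F), W ≤ U → (∀ w ∈ W, ((x : Matrix.GeneralLinearGroup (Fin n) F) : Matrix (Fin n) (Fin n) F).mulVec w ∈ W) → W = ⊥ ∨ W = U) : U ⊓ LinearMap.BilinForm.orthogonal (QuadraticMap.polarBilin Q) U = ⊥ ∨ (∀ u ∈ U, Q u = 0) ∨ (p = 2 ∧ Module.finrank F U = 1 ∧ (∃ u ∈ U, Q u ≠ 0) ∧ ∀ u ∈ U, ((x : Matrix.GeneralLinearGroup (Fin n) F) : Matrix (Fin n) (Fin n) F).mulVec u = u) := by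
  classical
  set A : Matrix (Fin n) (Fin n) F := ((x : Matrix.GeneralLinearGroup (Fin n) F) : Matrix (Fin n) (Fin n) F) with hA
  have hQA : ∀ v, Q (A.mulVec v) = Q v := fun v => x.2 v v
  have hpol : ∀ v w, QuadraticMap.polar Q (A.mulVec v) (A.mulVec w) = QuadraticMap.polar Q v w := by
    intro v w
    unfold QuadraticMap.polar
    rw [← Matrix.mulVec_add, hQA, hQA, hQA]
  -- A maps U onto U
  have hinj : Function.Injective (fun v => A.mulVec v) := by
    intro v w h
    have h2 := congrArg (fun z => (((x : Matrix.GeneralLinearGroup (Fin n) F)⁻¹ : GL (Fin n) F) : Matrix (Fin n) (Fin n) F).mulVec z) h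
    simpa [Matrix.mulVec_mulVec, hA, ← Units.val_mul] using h2
  have hsurj : ∀ u ∈ U, ∃ u' ∈ U, A.mulVec u' = u := by
    intro u hu
    have hinj' : Function.Injective ((Matrix.toLin' A).restrict (p := U) (q := U) (fun x hx => by rw [Matrix.toLin'_apply]; exact hUx x hx)) := by
      intro x y hxy
      have h1 : A.mulVec (x : Fin n → F) = A.mulVec (y : Fin n → F) := by
        have := congrArg (fun z : U => (z : Fin n → F)) hxy
        simpa [LinearMap.restrict_coe_apply] using this
      exact Subtype.ext (hinj h1)
    obtain ⟨w', hw'⟩ := (LinearMap.injective_iff_surjective.mp hinj') ⟨u, hu⟩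
    refine ⟨w', w'.2, ?_⟩
    have := congrArg (fun z : U => (z : Fin n → F)) hw'
    simpa [LinearMap.restrict_coe_apply] using this
  have hrad := hirr (U ⊓ LinearMap.BilinForm.orthogonal (QuadraticMap.polarBilin Q) U) inf_le_left (by
    rintro w ⟨hw1, hw2⟩
    refine ⟨hUx w hw1, ?_⟩
    rw [SetLike.mem_coe, LinearMap.BilinForm.mem_orthogonal_iff] at hw2 ⊢
    intro u hu
    obtain ⟨u', hu', rfl⟩ := hsurj u hu
    have := hw2 u' hu'
    show QuadraticMap.polar Q _ _ = 0
    rw [hpol]
    exact this)
  rcases hrad with h | h
  · exact Or.inl h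
  · right
    have hz : ∀ u ∈ U, ∀ v ∈ U, QuadraticMap.polar Q u v = 0 := by
      intro u hu v hv
      have hv' : v ∈ U ⊓ LinearMap.BilinForm.orthogonal (QuadraticMap.polarBilin Q) U := by rw [h]; exact hv
      exact (LinearMap.BilinForm.mem_orthogonal_iff.mp hv'.2) u hu
    have hadd : ∀ u ∈ U, ∀ v ∈ U, Q (u + v) = Q u + Q v := by
      intro u hu v hv
      have := hz u hu v hv
      unfold QuadraticMap.polar at this
      linear_combination this
    by_cases hp : p = 2
    · subst hp
      let U0 : Submodule F (Fin n → F) :=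
        { carrier := {u | u ∈ U ∧ Q u = 0}
          add_mem' := by
            rintro a b ⟨ha, ha'⟩ ⟨hb, hb'⟩
            exact ⟨U.add_mem ha hb, by rw [hadd a ha b hb, ha', hb', add_zero]⟩
          zero_mem' := ⟨U.zero_mem, QuadraticMap.map_zero Q⟩
          smul_mem' := by
            rintro c a ⟨ha, ha'⟩
            exact ⟨U.smul_mem c ha, by rw [QuadraticMap.map_smul, ha', smul_zero]⟩ }
      rcases hirr U0 (fun u hu => hu.1) (fun w hw => ⟨hUx w hw.1, by rw [hQA]; exact hw.2⟩) with h0 | h0
      · right
        -- injective
        have hQ0 : ∀ u ∈ U, Q u = 0 → u = 0 := by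
          intro u hu hQu
          have : u ∈ U0 := ⟨hu, hQu⟩
          rw [h0] at this
          exact this
        obtain ⟨u, hu, hune⟩ := U.ne_bot_iff.mp hU0
        have hQu : Q u ≠ 0 := fun h => hune (hQ0 u hu h)
        haveI : Fact (Nat.Prime 2) := ⟨Nat.prime_two⟩
        have hsq : ∀ c : F, ∃ d : F, d * d = c := by
          intro c
          have := (frobeniusEquiv F 2).apply_symm_apply c
          rw [frobeniusEquiv_apply, frobenius_def, pow_two] at this
          exact ⟨_, this⟩
        have hline : ∀ v ∈ U, ∃ d : F, v = d • u := by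
          intro v hv
          obtain ⟨d, hd⟩ := hsq (Q v / Q u)
          refine ⟨d, ?_⟩
          have h1 : Q (v + d • u) = 0 := by
            rw [hadd v hv _ (U.smul_mem d hu), QuadraticMap.map_smul, hd, smul_eq_mul, div_mul_cancel₀ _ hQu]
            exact CharTwo.add_self_eq_zero _
          have h2 := hQ0 _ (U.add_mem hv (U.smul_mem d hu)) h1
          have h3 : v = - (d • u) := eq_neg_of_add_eq_zero_left h2
          rw [h3]
          funext i
          exact CharTwo.neg_eq _
        have hUspan : U = F ∙ u := by
          apply le_antisymm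
          · intro v hv
            obtain ⟨d, rfl⟩ := hline v hv
            exact Submodule.smul_mem _ _ (Submodule.mem_span_singleton_self u)
          · rw [Submodule.span_singleton_le_iff_mem]; exact hu
        refine ⟨rfl, ?_, ⟨u, hu, hQu⟩, ?_⟩
        · rw [hUspan]; exact finrank_span_singleton hune
        · obtain ⟨l, hl⟩ := hline _ (hUx u hu)
          have h4 : Q (A.mulVec u) = Q u := hQA u
          rw [hl, QuadraticMap.map_smul, smul_eq_mul] at h4
          have h5 : l * l = 1 := mul_right_cancel₀ hQu (by rw [h4, one_mul])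
          have h6 : l = 1 := by
            have h7 : (l - 1) * (l - 1) = 0 := by
              have h8 : (2 : F) = 0 := CharTwo.two_eq_zero
              linear_combination h5 - (l - 1) * h8
            have := mul_self_eq_zero.mp h7
            linear_combination this
          intro v hv
          obtain ⟨d, rfl⟩ := hline v hv
          rw [Matrix.mulVec_smul, hl, h6, one_smul]
      · left
        intro u hu
        have : u ∈ U0 := by rw [h0]; exact hu
        exact this.2
    · left
      intro u hu
      have h1 := hz u hu u hu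
      rw [QuadraticMap.polar_self] at h1
      have h2 : (2 : F) ≠ 0 := by
        have : ((2 : ℕ) : F) ≠ 0 := by
          intro h
          have := (CharP.cast_eq_zero_iff F p 2).mp h
          have hp' : p.Prime := Fact.out
          exact hp ((Nat.prime_dvd_prime_iff_eq hp' Nat.prime_two).mp this)
        exact_mod_cast this
      rw [nsmul_eq_mul] at h1
      push_cast at h1
      exact (mul_eq_zero.mp h1).resolve_left h2

end Cfsg.Agent.S2599
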