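import Cfsg.Statements.S2600
import Cfsg.Agent.H17.SpOut2

set_option autoImplicit false
open Cfsg

namespace Cfsg.Agent.S2600

/-- Outer automorphism group of PSp_4(q) for q = 2^f even: it is cyclic of order 2f, generated by the class of the exceptional (graph-field) automorphism whose square is the Frobenius field automorphism. -/
theorem result {F : Type*} [Field F] [Fintype F] {f : ℕ} (hf : 1 ≤ f) (hF : Fintype.card F = 2 ^ f) : IsCyclic (Cfsg.Out (Cfsg.PSp 2 F)) ∧ Nat.card (Cfsg.Out (Cfsg.PSp 2 F)) = 2 * f := by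
  haveI : Fact (Nat.Prime 2) := ⟨Nat.prime_two⟩
  haveI : CharP F 2 := charP_of_card_eq_prime_pow hF
  have hF' : Nat.card F = 2 ^ f := by rw [Nat.card_eq_fintype_card, hF]
  have hR := (Cfsg.Agent.H17.ringAut_cyclic (F := F) 2 f (by omega) hF').2
  haveI : Finite (PSp 2 F) := inferInstance
  haveI : Finite (MulAut (PSp 2 F)) := Finite.of_injective (fun f : MulAut (PSp 2 F) => (f : PSp 2 F → PSp 2 F)) DFunLike.coe_injective
  obtain ⟨θ, hθ2, hθ⟩ := Cfsg.Agent.H17.exists_graph (F := F)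
  have hfr : ∀ τ : F ≃+* F, τ ∈ Subgroup.zpowers (frobeniusEquiv F 2) := by
    intro τ
    apply Cfsg.Agent.H17.mem_zpowers_of_fix
    intro x hx
    have h1 : x ^ 2 = x := hx
    have h2 : x * (x - 1) = 0 := by linear_combination h1
    rcases mul_eq_zero.mp h2 with h | h
    · rw [h, map_zero]
    · rw [sub_eq_zero.mp h, map_one]
  refine ⟨⟨QuotientGroup.mk θ, ?_⟩, ?_⟩
  · intro y
    obtain ⟨α, rfl⟩ := QuotientGroup.mk_surjective y
    have h1 : ∀ (g : GSp 2 F) (τ : F ≃+* F), ∃ k : ℤ, (QuotientGroup.mk θ : Out (PSp 2 F)) ^ k = QuotientGroup.mk (Cfsg.Agent.H17.cS 2 F g * Cfsg.Agent.H17.fS 2 F τ) := by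
      intro g τ
      obtain ⟨k, hk⟩ := hfr τ
      have hk' : frobeniusEquiv F 2 ^ k = τ := hk
      have hg : (QuotientGroup.mk (Cfsg.Agent.H17.cS 2 F g) : Out (PSp 2 F)) = 1 :=
        (QuotientGroup.eq_one_iff _).mpr (Cfsg.Agent.H17.inn_char_two le_rfl g)
      refine ⟨2 * k, ?_⟩
      rw [QuotientGroup.mk_mul, hg, one_mul, zpow_mul, zpow_ofNat, pow_two, ← QuotientGroup.mk_mul, hθ2, ← hk', map_zpow, QuotientGroup.mk_zpow]
    obtain ⟨g, τ, h | h⟩ := Cfsg.Agent.H17.aut_form hθ α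
    · obtain ⟨k, hk⟩ := h1 g τ
      exact ⟨k, by rw [h]; exact hk⟩
    · obtain ⟨k, hk⟩ := h1 g τ
      refine ⟨1 + k, ?_⟩
      show (QuotientGroup.mk θ : Out (PSp 2 F)) ^ (1 + k) = _
      rw [h, QuotientGroup.mk_mul, ← hk, zpow_add, zpow_one]
  · have h1 := Subgroup.card_eq_card_quotient_mul_card_subgroup (Inn (PSp 2 F))
    rw [Cfsg.Agent.H17.card_mulAut_Sp4, hR, Cfsg.Agent.H17.card_Inn_PSp le_rfl] at h1
    have h2 : 0 < Nat.card (PSp 2 F) := Nat.card_pos
    exact (Nat.eq_of_mul_eq_mul_right h2 h1).symm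

end Cfsg.Agent.S2600
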