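import Cfsg.Statements.S2601
import Cfsg.Agent.H17.AutPSL8

set_option autoImplicit false
open Cfsg

namespace Cfsg.Agent.S2601


open Cfsg.Agent.H17

/-- Structure of the outer automorphism group of PSL_n(q), n ≥ 3, q = p^f: it has a normal cyclic subgroup of order gcd(n, q − 1) (the diagonal automorphisms) whose quotient is the direct product of a cyclic group of order f (field automorphisms) and a group of order 2 (the inverse-transpose graph automorphism). -/
theorem result {F : Type*} [Field F] [Fintype F] {p f n : ℕ} [Fact p.Prime] (hf : 1 ≤ f) (hF : Fintype.card F = p ^ f) (hn : 3 ≤ n) : ∃ φ : Cfsg.Out (Matrix.ProjectiveSpecialLinearGroup (Fin n) F) →* Multiplicative (ZMod f × ZMod 2), Function.Surjective φ ∧ IsCyclic φ.ker ∧ Nat.card φ.ker = Nat.gcd n (p ^ f - 1) := by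
  classical
  have hF' : Nat.card F = p ^ f := by rw [Nat.card_eq_fintype_card, hF]
  obtain ⟨hcyc, hcard⟩ := ringAut_cyclic (F := F) p f (by omega) hF'
  haveI : Finite (F ≃+* F) := Nat.finite_of_card_ne_zero (by rw [hcard]; omega)
  let e : (F ≃+* F) ≃* Multiplicative (ZMod f) :=
    mulEquivOfCyclicCardEq (by rw [hcard]; exact (Nat.card_zmod f).symm)
  obtain ⟨T, hT⟩ := exists_typeHom (F := F) hn
  let e2 : (F ≃+* F) × Multiplicative (ZMod 2) ≃* Multiplicative (ZMod f × ZMod 2) :=
    (MulEquiv.prodCongr e (MulEquiv.refl _)).trans (MulEquiv.prodMultiplicative _ _).symm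
  let φ₀ : MulAut (Matrix.ProjectiveSpecialLinearGroup (Fin n) F) →* Multiplicative (ZMod f × ZMod 2) :=
    e2.toMonoidHom.comp T
  have hker : φ₀.ker = cPrange F n := by
    ext α
    obtain ⟨g, s, ε, rfl⟩ := aut_PSL_iPow hn α
    rw [MonoidHom.mem_ker]
    have h1 : φ₀ (cP g * fP n s * iPow F n ε) = 1 ↔ s = 1 ∧ ε = 0 := by
      change e2 (T _) = 1 ↔ _
      rw [hT, map_eq_one_iff e2 e2.injective]
      constructor
      · intro h
        exact ⟨congrArg Prod.fst h, congrArg (fun x => Multiplicative.toAdd (Prod.snd x)) h⟩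
      · rintro ⟨rfl, rfl⟩
        rfl
    rw [h1]
    constructor
    · rintro ⟨rfl, rfl⟩
      exact ⟨g, by simp [iPow, fP_one]; rfl⟩
    · rintro ⟨h, hh⟩
      have h2 := hT h 1 0
      have h3 : cP h * fP n (1 : F ≃+* F) * iPow F n 0 = cP g * fP n s * iPow F n ε := by
        rw [fP_one, mul_one]
        have : iPow F n 0 = 1 := by simp [iPow]
        rw [this, mul_one]
        exact hh
      rw [h3, hT] at h2
      exact ⟨congrArg Prod.fst h2, congrArg (fun x => Multiplicative.toAdd (Prod.snd x)) h2⟩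
  have hInn : Cfsg.Inn (Matrix.ProjectiveSpecialLinearGroup (Fin n) F) ≤ φ₀.ker := by
    rw [hker]
    rintro _ ⟨x, rfl⟩
    obtain ⟨s, rfl⟩ := mkP_surjective x
    rw [conj_mkP]
    exact ⟨_, rfl⟩
  refine ⟨QuotientGroup.lift _ φ₀ hInn, ?_, ?_⟩
  · intro y
    obtain ⟨⟨s, ε⟩, rfl⟩ := e2.surjective y
    refine ⟨QuotientGroup.mk (cP 1 * fP n s * iPow F n (Multiplicative.toAdd ε)), ?_⟩
    change e2 (T _) = _
    rw [hT]
    rfl
  · have hk : (QuotientGroup.lift _ φ₀ hInn).ker = outDiag F n := by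
      rw [QuotientGroup.ker_lift, hker]; rfl
    obtain ⟨h1, h2⟩ := outDiag_cyclic (F := F) (n := n) (by omega)
    rw [hk]
    refine ⟨h1, ?_⟩
    rw [h2, hF']

end Cfsg.Agent.S2601
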