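import Cfsg.Statements.S2602
import Cfsg.Agent.H17.AutPSL8

set_option autoImplicit false
open Cfsg

namespace Cfsg.Agent.S2602


open Cfsg.Agent.H17

/-- Structure of the outer automorphism group of PSL_2(q), q = p^f ≥ 4: it has a normal cyclic subgroup of order gcd(2, q − 1) (diagonal automorphisms) with cyclic quotient of order f (field automorphisms); there is no graph automorphism in dimension 2. -/
theorem result {F : Type*} [Field F] [Fintype F] {p f : ℕ} [Fact p.Prime] (hf : 1 ≤ f) (hF : Fintype.card F = p ^ f) (h4 : 4 ≤ p ^ f) : ∃ φ : Cfsg.Out (Matrix.ProjectiveSpecialLinearGroup (Fin 2) F) →* Multiplicative (ZMod f), Function.Surjective φ ∧ IsCyclic φ.ker ∧ Nat.card φ.ker = Nat.gcd 2 (p ^ f - 1) := by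
  classical
  have hF' : Nat.card F = p ^ f := by rw [Nat.card_eq_fintype_card, hF]
  obtain ⟨hcyc, hcard⟩ := ringAut_cyclic (F := F) p f (by omega) hF'
  haveI : Finite (F ≃+* F) := Nat.finite_of_card_ne_zero (by rw [hcard]; omega)
  let e : (F ≃+* F) ≃* Multiplicative (ZMod f) :=
    mulEquivOfCyclicCardEq (by rw [hcard]; exact (Nat.card_zmod f).symm)
  obtain ⟨T, hT⟩ := exists_typeHom_two (F := F)
  let φ₀ : MulAut (Matrix.ProjectiveSpecialLinearGroup (Fin 2) F) →* Multiplicative (ZMod f) :=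
    e.toMonoidHom.comp T
  have hker : φ₀.ker = cPrange F 2 := by
    ext α
    obtain ⟨g, s, rfl⟩ := aut_PSL_two α
    rw [MonoidHom.mem_ker]
    have h1 : φ₀ (cP g * fP 2 s) = 1 ↔ s = 1 := by
      change e (T _) = 1 ↔ _
      rw [hT, map_eq_one_iff e e.injective]
    change φ₀ (cP g * fP 2 s) = 1 ↔ cP g * fP 2 s ∈ _
    rw [h1]
    constructor
    · rintro rfl
      exact ⟨g, by rw [fP_one, mul_one]; rfl⟩
    · rintro ⟨h, hh⟩
      have h2 := hT h 1
      have h3 : cP h * fP 2 (1 : F ≃+* F) = cP g * fP 2 s := by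
        rw [fP_one, mul_one]
        exact hh
      rw [h3, hT] at h2
      exact h2
  have hInn : Cfsg.Inn (Matrix.ProjectiveSpecialLinearGroup (Fin 2) F) ≤ φ₀.ker := by
    rw [hker]
    rintro _ ⟨x, rfl⟩
    obtain ⟨s, rfl⟩ := mkP_surjective x
    rw [conj_mkP]
    exact ⟨_, rfl⟩
  refine ⟨QuotientGroup.lift _ φ₀ hInn, ?_, ?_⟩
  · intro y
    obtain ⟨s, rfl⟩ := e.surjective y
    refine ⟨QuotientGroup.mk (cP 1 * fP 2 s), ?_⟩
    change e (T _) = _
    rw [hT]
  · have hk : (QuotientGroup.lift _ φ₀ hInn).ker = outDiag F 2 := by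
      rw [QuotientGroup.ker_lift, hker]; rfl
    obtain ⟨h1, h2⟩ := outDiag_cyclic (F := F) (n := 2) le_rfl
    rw [hk]
    refine ⟨h1, ?_⟩
    rw [h2, hF']

end Cfsg.Agent.S2602
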