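import Cfsg.Statements.S2603
import Cfsg.Agent.H17.SUAut3
set_option autoImplicit false
open Cfsg

namespace Cfsg.Agent.S2603

/-- Structure of the outer automorphism group of PSU_n(q), n ≥ 3, (n, q) ≠ (3, 2), q = p^f, realised over the field with q² elements: it has a normal cyclic subgroup of order gcd(n, q + 1) (diagonal automorphisms) with cyclic quotient of order 2f (generated by the Frobenius field automorphism of the field with q² elements, whose f-th power is the graph automorphism). -/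
theorem result {K : Type*} [Field K] [Fintype K] {p f q n : ℕ} [Fact p.Prime] (hf : 1 ≤ f) (hq : q = p ^ f) (hK : Fintype.card K = q ^ 2) (hn : 3 ≤ n) (h32 : ¬ (n = 3 ∧ q = 2)) : ∃ φ : Cfsg.Out (Cfsg.PSU n K q) →* Multiplicative (ZMod (2 * f)), Function.Surjective φ ∧ IsCyclic φ.ker ∧ Nat.card φ.ker = Nat.gcd n (q + 1) := by
  obtain ⟨Φ, hΦ, hker, hsurj⟩ := Cfsg.Agent.H17.exists_typeHomU hK hn h32
  obtain ⟨hcyc, hcard⟩ := Cfsg.Agent.H17.card_ringAut hK p f hf hq
  have : NeZero (2 * f) := ⟨by omega⟩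
  have hcyc' : IsCyclic (K ≃+* K) := hcyc
  have : Finite (K ≃+* K) := Nat.finite_of_card_ne_zero (by rw [hcard]; omega)
  let e : (K ≃+* K) ≃* Multiplicative (ZMod (2 * f)) := mulEquivOfCyclicCardEq (by
    rw [hcard, Nat.card_congr Multiplicative.toAdd, Nat.card_zmod])
  let φ₀ : MulAut (Cfsg.PSU n K q) →* Multiplicative (ZMod (2 * f)) := e.toMonoidHom.comp Φ
  have hkerφ : φ₀.ker = (Cfsg.Agent.H17.cU n K q).range := by
    rw [← hker]
    ext α
    rw [MonoidHom.mem_ker, MonoidHom.mem_ker]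
    exact map_eq_one_iff e e.injective
  have hInn : Cfsg.Inn (Cfsg.PSU n K q) ≤ φ₀.ker := by
    rw [hkerφ]
    rintro _ ⟨x, rfl⟩
    induction x using QuotientGroup.induction_on with
    | H s => exact ⟨_, (Cfsg.Agent.H17.conj_mkU s).symm⟩
  refine ⟨QuotientGroup.lift _ φ₀ hInn, ?_, ?_⟩
  · intro y
    obtain ⟨τ, rfl⟩ := e.surjective y
    obtain ⟨α, rfl⟩ := hsurj τ
    exact ⟨QuotientGroup.mk α, rfl⟩
  · have hk : (QuotientGroup.lift _ φ₀ hInn).ker = Cfsg.Agent.H17.outDiagU n K q := by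
      rw [QuotientGroup.ker_lift, hkerφ]; rfl
    rw [hk]
    exact Cfsg.Agent.H17.outDiagU_cyclic hK hn

end Cfsg.Agent.S2603
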