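import Cfsg.Statements.S2604
import Cfsg.Agent.H17.SSGStd
import Cfsg.Agent.H17.OddTwo
import Cfsg.Agent.H17.AutPSL8
import Cfsg.Agent.S0816

set_option autoImplicit false
open Cfsg

namespace Cfsg.Agent.S2604

/-- Outer automorphism group of the simple orthogonal group Ω_(2m+1)(q), m ≥ 3, q = p^f odd: it is the direct product of a group of order 2 (diagonal automorphisms, from SO) and a cyclic group of order f (field automorphisms). -/
theorem result {F : Type*} [Field F] [Fintype F] {p f m : ℕ} [Fact p.Prime] (hf : 1 ≤ f) (hF : Fintype.card F = p ^ f) (hp : p ≠ 2) (hm : 3 ≤ m) : Nonempty (Cfsg.Out (Cfsg.POmega F (Cfsg.quadFormOdd m F)) ≃* Multiplicative (ZMod 2 × ZMod f)) := by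
  have hodd : Odd p := (Fact.out : p.Prime).odd_of_ne_two hp
  have hq : Odd (Fintype.card F) := by rw [hF]; exact hodd.pow
  have h2 : (2 : F) ≠ 0 := Cfsg.Agent.H17.two_ne_of_odd hq
  have hι : Fintype.card (Unit ⊕ (Fin m ⊕ Fin m)) = 2 * m + 1 := by simp; ring
  have hnd := Cfsg.Agent.H5.nd_odd (m := m) h2
  have hfr : Module.finrank F (Unit ⊕ (Fin m ⊕ Fin m) → F) = 2 * m + 1 := by
    rw [Module.finrank_fintype_fun_eq_card, hι]
  have hsurj := Cfsg.Agent.H17.aE_surj hnd (by omega) (Or.inl (fun R _ => by omega))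
  have hcard := Cfsg.Agent.S0816.result p f hf hF hodd m hm
  have e := Cfsg.Agent.H5.pomEquiv hnd (by rw [hι]; omega)
  obtain ⟨hcyc, hcF⟩ := Cfsg.Agent.H17.ringAut_cyclic (F := F) p f (by omega) (by rw [Nat.card_eq_fintype_card, hF])
  rw [← Cfsg.Agent.H5.qOdd_coe] at hcard ⊢
  rw [Nat.card_congr (MulAut.congr e).toEquiv, Nat.card_congr e.toEquiv] at hcard
  haveI : Finite (Cfsg.Agent.H17.PE (Cfsg.Agent.H5.qOdd m F)) := Finite.of_equiv _ e.toEquiv
  have h3 := Cfsg.Agent.H17.card_out (Cfsg.Agent.H17.PE_center hnd (by omega))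
  rw [hcard] at h3
  have h4 : Nat.card (Cfsg.Out (Cfsg.Agent.H17.PE (Cfsg.Agent.H5.qOdd m F))) = 2 * f :=
    Nat.eq_of_mul_eq_mul_right Nat.card_pos h3
  obtain ⟨Φ, hΦ⟩ := Cfsg.Agent.H17.exists_outπ hnd (by omega) hsurj
  have hs : ∀ σ, Φ (Cfsg.Agent.H17.outE _ (Cfsg.Agent.H17.stdSS _ Cfsg.Agent.H17.qOdd_svI σ)) = σ := fun σ => hΦ _
  have h5 := Subgroup.card_mul_index Φ.ker
  rw [Subgroup.index_ker, MonoidHom.range_eq_top.mpr (fun σ => ⟨_, hs σ⟩), Subgroup.card_top, h4, hcF] at h5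
  have h6 : Nat.card Φ.ker = 2 := Nat.eq_of_mul_eq_mul_right (by omega) h5
  obtain ⟨e1⟩ := Cfsg.Agent.H17.split_order_two Φ ((Cfsg.Agent.H17.outE _).comp (Cfsg.Agent.H17.stdSS _ Cfsg.Agent.H17.qOdd_svI)) hs h6
  haveI : Finite (F ≃+* F) := Nat.finite_of_card_ne_zero (by rw [hcF]; omega)
  let e2 : (F ≃+* F) ≃* Multiplicative (ZMod f) :=
    mulEquivOfCyclicCardEq (by rw [hcF]; exact (Nat.card_zmod f).symm)
  exact ⟨(Cfsg.Agent.H17.outCongr e).trans (e1.trans ((MulEquiv.prodCongr (MulEquiv.refl _) e2).trans (MulEquiv.prodMultiplicative _ _).symm))⟩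

end Cfsg.Agent.S2604
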