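import Cfsg.Statements.S2605
import Cfsg.Agent.H17.QModel3
import Cfsg.Agent.S0818

set_option autoImplicit false
open Cfsg

namespace Cfsg.Agent.S2605

/-- Outer automorphism group of PΩ⁻_2m(q), m ≥ 4, q = 2^f: cyclic of order 2f, generated by a semilinear map inducing the Frobenius automorphism of the field (its f-th power is a graph automorphism, an orthogonal transvection). -/
theorem result {F : Type*} [Field F] [Fintype F] {f m : ℕ} (hf : 1 ≤ f) (hF : Fintype.card F = 2 ^ f) (hm : 4 ≤ m) (a b : F) (hab : ∀ z₁ z₂ : F, z₁ ^ 2 + a * z₁ * z₂ + b * z₂ ^ 2 = 0 → z₁ = 0 ∧ z₂ = 0) : IsCyclic (Cfsg.Out (Cfsg.POmega F (Cfsg.quadFormMinus (m - 1) F a b))) ∧ Nat.card (Cfsg.Out (Cfsg.POmega F (Cfsg.quadFormMinus (m - 1) F a b))) = 2 * f := by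
  haveI : Fact (Nat.Prime 2) := ⟨Nat.prime_two⟩
  haveI : CharP F 2 := charP_of_card_eq_prime_pow hF
  have hF' : Nat.card F = 2 ^ f := by rw [Nat.card_eq_fintype_card, hF]
  have hι : Fintype.card ((Fin (m - 1) ⊕ Fin (m - 1)) ⊕ Fin 2) = 2 * m := by simp; omega
  have hnd := Cfsg.Agent.H5.nd_minus (m := m - 1) hab
  have hcard := Cfsg.Agent.S0818.result 2 f hf hF m hm a b hab
  rw [if_pos rfl] at hcard
  obtain ⟨φ, hφ⟩ := Cfsg.Agent.H17.exists_iso_minus (p := 2) (m - 1) hab one_ne_zero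
  have e0 := Cfsg.Agent.H5.pomEquiv hnd (by rw [hι]; omega)
  have e := e0.trans (Cfsg.Agent.H17.peCongr φ (fun x => by rw [hφ, one_mul]))
  have hn : 5 ≤ Module.finrank F ((Fin (m - 1) ⊕ Fin (m - 1) → F) × Cfsg.Agent.H17.KK F 2) := by
    rw [Cfsg.Agent.H17.finrank_qM]; omega
  rw [← Cfsg.Agent.H5.qMinus_coe] at hcard ⊢
  rw [Nat.card_congr (MulAut.congr e).toEquiv, Nat.card_congr e.toEquiv] at hcard
  haveI : Finite (Cfsg.Agent.H17.PE (Cfsg.Agent.H17.qM (m - 1) F 2)) := Finite.of_equiv _ e.toEquiv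
  have h3 := Cfsg.Agent.H17.card_out (Cfsg.Agent.H17.PE_center Cfsg.Agent.H17.qM_nd hn)
  rw [hcard] at h3
  have h4 : Nat.card (Cfsg.Out (Cfsg.Agent.H17.PE (Cfsg.Agent.H17.qM (m - 1) F 2))) = 2 * f :=
    Nat.eq_of_mul_eq_mul_right Nat.card_pos h3
  have h5 := Cfsg.Agent.H17.orderOf_outFr (F := F) (p := 2) (k := m - 1) (by omega) hf hF'
  haveI : Finite (Cfsg.Out (Cfsg.Agent.H17.PE (Cfsg.Agent.H17.qM (m - 1) F 2))) := Nat.finite_of_card_ne_zero (by rw [h4]; omega)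
  have h6 : IsCyclic (Cfsg.Out (Cfsg.Agent.H17.PE (Cfsg.Agent.H17.qM (m - 1) F 2))) :=
    isCyclic_of_orderOf_eq_card _ (h5.trans h4.symm)
  constructor
  · exact isCyclic_of_surjective (Cfsg.Agent.H17.outCongr e).symm.toMonoidHom (Cfsg.Agent.H17.outCongr e).symm.surjective
  · rw [Nat.card_congr (Cfsg.Agent.H17.outCongr e).toEquiv, h4]

end Cfsg.Agent.S2605
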