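import Cfsg.Statements.S2606
import Cfsg.Agent.H17.OutMinus2
import Cfsg.Agent.H17.OddTwo
import Cfsg.Agent.S0818

set_option autoImplicit false
open Cfsg

namespace Cfsg.Agent.S2606

/-- Outer automorphism group of PΩ⁻_2m(q), m ≥ 4, q = p^f odd: it is dihedral of order 8 times cyclic of order f when q ≡ 3 (mod 4) and m is odd, and otherwise the direct product of a group of order 2 with a cyclic group of order 2f. -/
theorem result {F : Type*} [Field F] [Fintype F] {p f m : ℕ} [Fact p.Prime] (hf : 1 ≤ f) (hF : Fintype.card F = p ^ f) (hp : p ≠ 2) (hm : 4 ≤ m) (a b : F) (hab : ∀ z₁ z₂ : F, z₁ ^ 2 + a * z₁ * z₂ + b * z₂ ^ 2 = 0 → z₁ = 0 ∧ z₂ = 0) : if p ^ f % 4 = 3 ∧ Odd m then Nonempty (Cfsg.Out (Cfsg.POmega F (Cfsg.quadFormMinus (m - 1) F a b)) ≃* DihedralGroup 4 × Multiplicative (ZMod f)) else Nonempty (Cfsg.Out (Cfsg.POmega F (Cfsg.quadFormMinus (m - 1) F a b)) ≃* Multiplicative (ZMod 2 × ZMod (2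 * f))) := by
  haveI : CharP F p := charP_of_card_eq_prime_pow hF
  have hpo : Odd p := (Fact.out : p.Prime).odd_of_ne_two hp
  have hqo : Odd (Fintype.card F) := by rw [hF]; exact hpo.pow
  have h2 : (2 : F) ≠ 0 := Cfsg.Agent.H17.two_ne_of_odd hqo
  have hF' : Nat.card F = p ^ f := by rw [Nat.card_eq_fintype_card, hF]
  have hι : Fintype.card ((Fin (m - 1) ⊕ Fin (m - 1)) ⊕ Fin 2) = 2 * m := by simp; omega
  have hnd := Cfsg.Agent.H5.nd_minus (m := m - 1) hab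
  have hcard := Cfsg.Agent.S0818.result p f hf hF m hm a b hab
  rw [if_neg hp] at hcard
  obtain ⟨φ, hφ⟩ := Cfsg.Agent.H17.exists_iso_minus (p := p) (m - 1) hab one_ne_zero
  have hφ' : ∀ x, Cfsg.Agent.H17.qM (m - 1) F p (φ x) = Cfsg.Agent.H5.qMinus (m - 1) F a b x := fun x => by rw [hφ, one_mul]
  have e0 := Cfsg.Agent.H5.pomEquiv hnd (by rw [hι]; omega)
  have e := e0.trans (Cfsg.Agent.H17.peCongr φ hφ')
  have hn : 5 ≤ Module.finrank F ((Fin (m - 1) ⊕ Fin (m - 1) → F) × Cfsg.Agent.H17.KK F p) := by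
    rw [Cfsg.Agent.H17.finrank_qM]; omega
  have hfr : Module.finrank F ((Fin (m - 1) ⊕ Fin (m - 1)) ⊕ Fin 2 → F) = 2 * m := by
    rw [Module.finrank_fintype_fun_eq_card, hι]
  have hq : Odd (p ^ f) := hpo.pow
  have hiff := Cfsg.Agent.S0791.result hF hq m (by omega) a b hab
  have hiff' := Cfsg.Agent.H5.exists_neg_iff (Q := Cfsg.Agent.H5.qMinus (m - 1) F a b)
  rw [← Cfsg.Agent.H5.qMinus_coe] at hcard hiff ⊢
  have hneg : Cfsg.Agent.H5.ogNeg (Cfsg.Agent.H17.qM (m - 1) F p) ∈ Cfsg.Agent.H5.EG (Cfsg.Agent.H17.qM (m - 1) F p) ↔ (p ^ f) ^ m % 4 = 3 := by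
    rw [← Cfsg.Agent.H17.neg_iff_of_iso φ hφ', Cfsg.Agent.H5.eg_eq_comm hnd (by rw [hfr]; omega)
      (Cfsg.Agent.H5.exists_sing hnd (by rw [hfr]; omega)), ← hiff']
    exact hiff
  have hpar := Cfsg.Agent.H17.even_iff_mod (q := p ^ f) hq m
  rw [Nat.card_congr (MulAut.congr e).toEquiv, Nat.card_congr e.toEquiv] at hcard
  haveI : Finite (Cfsg.Agent.H17.PE (Cfsg.Agent.H17.qM (m - 1) F p)) := Finite.of_equiv _ e.toEquiv
  have h3 := Cfsg.Agent.H17.card_out (Cfsg.Agent.H17.PE_center Cfsg.Agent.H17.qM_nd hn)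
  rw [hcard] at h3
  have h4 := Nat.eq_of_mul_eq_mul_right Nat.card_pos h3
  have hcond : (p ^ f % 4 = 3 ∧ Odd m) ↔ (p ^ f) ^ m % 4 = 3 := by
    have h5 : p ^ f % 2 = 1 := Nat.odd_iff.mp hq
    have h6 : p ^ f % 4 = 1 ∨ p ^ f % 4 = 3 := by omega
    rcases h6 with h6 | h6
    · have : (p ^ f) ^ m % 4 = 1 := by rw [Nat.pow_mod, h6, one_pow]; rfl
      rw [this, h6]; simp
    · rcases Nat.even_or_odd m with hm' | hm'
      · obtain ⟨k, rfl⟩ := hm'
        have h7 : (p ^ f) ^ (k + k) % 4 = 1 := by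
          rw [Nat.pow_mod, h6, ← two_mul, pow_mul, Nat.pow_mod, show 3 ^ 2 % 4 = 1 by norm_num, one_pow]; rfl
        rw [h7]
        simp [Nat.not_odd_iff_even]
      · obtain ⟨k, rfl⟩ := hm'
        have h7 : (p ^ f) ^ (2 * k + 1) % 4 = 3 := by
          rw [Nat.pow_mod, h6, pow_succ, pow_mul, Nat.mul_mod, Nat.pow_mod (3 ^ 2), show 3 ^ 2 % 4 = 1 by norm_num, one_pow]; rfl
        rw [h7, h6]
        simp
  by_cases hc : p ^ f % 4 = 3 ∧ Odd m
  · rw [if_pos hc]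
    rw [if_neg (fun h => (hpar.mp h) (hcond.mp hc))] at h4
    have hfo : Odd f := by
      by_contra hfe
      rw [Nat.not_odd_iff_even] at hfe
      obtain ⟨t, rfl⟩ := hfe
      have h8 : p ^ (t + t) % 4 = 1 := by
        rw [← two_mul, pow_mul, Nat.pow_mod]
        have h9 : p ^ 2 % 4 = 1 := by
          obtain ⟨s, rfl⟩ := hpo
          rw [show (2 * s + 1) ^ 2 = 4 * (s * s + s) + 1 by ring]; omega
        rw [h9, one_pow]; rfl
      omega
    obtain ⟨E⟩ := Cfsg.Agent.H17.outMinus_A (F := F) (p := p) (k := m - 1) (by omega) hf hF' h2 hpo (hneg.mpr (hcond.mp hc)) hfo h4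
    exact ⟨(Cfsg.Agent.H17.outCongr e).trans E⟩
  · rw [if_neg hc]
    rw [if_pos (hpar.mpr (fun h => hc (hcond.mpr h)))] at h4
    obtain ⟨E⟩ := Cfsg.Agent.H17.outMinus_B (F := F) (p := p) (k := m - 1) (by omega) hf hF' h2 hpo (fun h => hc (hcond.mpr (hneg.mp h))) h4
    exact ⟨(Cfsg.Agent.H17.outCongr e).trans E⟩

end Cfsg.Agent.S2606
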