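import Cfsg.Statements.S2607
import Cfsg.Agent.H17.Out8D
import Cfsg.Agent.S0817

set_option autoImplicit false
open Cfsg

namespace Cfsg.Agent.S2607

/-- Outer automorphism group of PΩ⁺_2m(q), q = 2^f: for m ≥ 5 it is the direct product of a group of order 2 (graph automorphism, an orthogonal transvection) and a cyclic group of order f (field automorphisms); for m = 4 triality enlarges it to S_3 × C_f. -/
theorem result {F : Type*} [Field F] [Fintype F] {f m : ℕ} (hf : 1 ≤ f) (hF : Fintype.card F = 2 ^ f) (hm : 4 ≤ m) : if m = 4 then Nonempty (Cfsg.Out (Cfsg.POmega F (Cfsg.quadFormPlus m F)) ≃* Equiv.Perm (Fin 3) × Multiplicative (ZMod f)) else Nonempty (Cfsg.Out (Cfsg.POmega F (Cfsg.quadFormPlus m F)) ≃* Multiplicative (ZMod 2 × ZMod f)) := by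
  haveI : Fact (Nat.Prime 2) := ⟨Nat.prime_two⟩
  have h2 : (2 : F) = 0 := by
    haveI : CharP F 2 := charP_of_card_eq_prime_pow hF
    exact CharTwo.two_eq_zero
  have hι : Fintype.card (Fin m ⊕ Fin m) = 2 * m := by simp; omega
  have hnd := Cfsg.Agent.H5.nd_plus (m := m) (F := F)
  have hfr : Module.finrank F (Fin m ⊕ Fin m → F) = 2 * m := by
    rw [Module.finrank_fintype_fun_eq_card, hι]
  have hcard := Cfsg.Agent.S0817.result 2 f hf hF m hm
  rw [if_pos rfl] at hcard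
  have e := Cfsg.Agent.H5.pomEquiv hnd (by rw [hι]; omega)
  obtain ⟨hcyc, hcF⟩ := Cfsg.Agent.H17.ringAut_cyclic (F := F) 2 f (by omega) (by rw [Nat.card_eq_fintype_card, hF])
  rw [← Cfsg.Agent.H5.qPlus_coe] at hcard ⊢
  rw [Nat.card_congr (MulAut.congr e).toEquiv, Nat.card_congr e.toEquiv] at hcard
  haveI : Finite (Cfsg.Agent.H17.PE (Cfsg.Agent.H5.qPlus m F)) := Finite.of_equiv _ e.toEquiv
  have h3 := Cfsg.Agent.H17.card_out (Cfsg.Agent.H17.PE_center hnd (by omega))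
  rw [hcard] at h3
  have h4 := Nat.eq_of_mul_eq_mul_right Nat.card_pos h3
  by_cases hm4 : m = 4
  · rw [if_pos hm4]
    rw [if_pos hm4] at h4
    subst hm4
    obtain ⟨E⟩ := Cfsg.Agent.H17.out8_even (F := F) hf hcyc hcF (by rw [h4])
    exact ⟨(Cfsg.Agent.H17.outCongr e).trans E⟩
  · rw [if_neg hm4]
    rw [if_neg hm4, one_mul] at h4
    have hsurj := Cfsg.Agent.H17.aE_surj hnd (by omega) (Or.inr (by omega))
    obtain ⟨Φ, hΦ⟩ := Cfsg.Agent.H17.exists_outπ hnd (by omega) hsurj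
    have hs : ∀ σ, Φ (Cfsg.Agent.H17.outE _ (Cfsg.Agent.H17.stdSS _ Cfsg.Agent.H17.qPlus_svI σ)) = σ := fun σ => hΦ _
    have h6 := Cfsg.Agent.H17.card_ker_of Φ (fun σ => ⟨_, hs σ⟩) h4 hcF hf
    obtain ⟨e1⟩ := Cfsg.Agent.H17.split_order_two Φ ((Cfsg.Agent.H17.outE _).comp (Cfsg.Agent.H17.stdSS _ Cfsg.Agent.H17.qPlus_svI)) hs h6
    haveI : Finite (F ≃+* F) := Nat.finite_of_card_ne_zero (by rw [hcF]; omega)
    let e2 : (F ≃+* F) ≃* Multiplicative (ZMod f) :=
      mulEquivOfCyclicCardEq (by rw [hcF]; exact (Nat.card_zmod f).symm)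
    exact ⟨(Cfsg.Agent.H17.outCongr e).trans (e1.trans ((MulEquiv.prodCongr (MulEquiv.refl _) e2).trans (MulEquiv.prodMultiplicative _ _).symm))⟩

end Cfsg.Agent.S2607
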