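import Cfsg.Statements.S2608
import Cfsg.Agent.H17.Out8D
import Cfsg.Agent.S0817
import Cfsg.Agent.H17.OddTwo

set_option autoImplicit false
open Cfsg

namespace Cfsg.Agent.S2608

/-- Outer automorphism group of PΩ⁺_2m(q), q = p^f odd: for m = 4 it is S_4 × C_f (triality); for m ≥ 5 it is C_2 × C_2 × C_f when q ≡ 3 (mod 4) and m is odd, and D_8 × C_f otherwise. -/
theorem result {F : Type*} [Field F] [Fintype F] {p f m : ℕ} [Fact p.Prime] (hf : 1 ≤ f) (hF : Fintype.card F = p ^ f) (hp : p ≠ 2) (hm : 4 ≤ m) : if m = 4 then Nonempty (Cfsg.Out (Cfsg.POmega F (Cfsg.quadFormPlus m F)) ≃* Equiv.Perm (Fin 4) × Multiplicative (ZMod f)) else if p ^ f % 4 = 3 ∧ Odd m then Nonempty (Cfsg.Out (Cfsg.POmega F (Cfsg.quadFormPlus m F)) ≃* Multiplicative (ZMod 2 × ZMod 2 × ZMod f)) else Nonempty (Cfsg.Out (Cfsg.POmega F (Cfsg.quadFormPlus m F)) ≃* DihedralGroup 4 × Multiplicative (ZMod f)) := by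
  have hpo : Odd p := (Fact.out : p.Prime).odd_of_ne_two hp
  have hq : Odd (p ^ f) := hpo.pow
  have h2 : (2 : F) ≠ 0 := Cfsg.Agent.H17.two_ne_of_odd (by rw [hF]; exact hq)
  have hι : Fintype.card (Fin m ⊕ Fin m) = 2 * m := by simp; omega
  have hnd := Cfsg.Agent.H5.nd_plus (m := m) (F := F)
  have hfr : Module.finrank F (Fin m ⊕ Fin m → F) = 2 * m := by
    rw [Module.finrank_fintype_fun_eq_card, hι]
  have hcard := Cfsg.Agent.S0817.result p f hf hF m hm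
  rw [if_neg hp] at hcard
  have e := Cfsg.Agent.H5.pomEquiv hnd (by rw [hι]; omega)
  obtain ⟨hcyc, hcF⟩ := Cfsg.Agent.H17.ringAut_cyclic (F := F) p f (by omega) (by rw [Nat.card_eq_fintype_card, hF])
  have hneg : Cfsg.Agent.H5.ogNeg (Cfsg.Agent.H5.qPlus m F) ∈ Cfsg.Agent.H5.EG (Cfsg.Agent.H5.qPlus m F) ↔ ¬ (p ^ f % 4 = 3 ∧ Odd m) := by
    rw [Cfsg.Agent.H17.neg_plus_iff h2 (by omega)]
    rcases Nat.even_or_odd m with hm' | hm'
    · rw [hm'.neg_one_pow]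
      exact ⟨fun _ h => (Nat.not_odd_iff_even.mpr hm') h.2, fun _ => IsSquare.one⟩
    · rw [hm'.neg_one_pow, FiniteField.isSquare_neg_one_iff, hF]
      exact ⟨fun h h' => h h'.1, fun h h' => h ⟨h', hm'⟩⟩
  have hpar := Cfsg.Agent.H17.even_iff_mod (q := p ^ f) hq m
  have hcond : (p ^ f % 4 = 3 ∧ Odd m) ↔ (p ^ f) ^ m % 4 = 3 := by
    have h5 : p ^ f % 2 = 1 := Nat.odd_iff.mp hq
    have h6 : p ^ f % 4 = 1 ∨ p ^ f % 4 = 3 := by omega
    rcases h6 with h6 | h6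
    · have : (p ^ f) ^ m % 4 = 1 := by rw [Nat.pow_mod, h6, one_pow]; rfl
      rw [this, h6]; simp
    · rcases Nat.even_or_odd m with hm' | hm'
      · obtain ⟨k, rfl⟩ := hm'
        have h7 : (p ^ f) ^ (k + k) % 4 = 1 := by
          rw [Nat.pow_mod, h6, ← two_mul, pow_mul, Nat.pow_mod, show 3 ^ 2 % 4 = 1 by norm_num, one_pow]; rfl
        rw [h7]
        simp [Nat.not_odd_iff_even]
      · obtain ⟨k, rfl⟩ := hm'
        have h7 : (p ^ f) ^ (2 * k + 1) % 4 = 3 := by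
          rw [Nat.pow_mod, h6, pow_succ, pow_mul, Nat.mul_mod, Nat.pow_mod (3 ^ 2), show 3 ^ 2 % 4 = 1 by norm_num, one_pow]; rfl
        rw [h7, h6]
        simp
  rw [← Cfsg.Agent.H5.qPlus_coe] at hcard ⊢
  rw [Nat.card_congr (MulAut.congr e).toEquiv, Nat.card_congr e.toEquiv] at hcard
  haveI : Finite (Cfsg.Agent.H17.PE (Cfsg.Agent.H5.qPlus m F)) := Finite.of_equiv _ e.toEquiv
  have h3 := Cfsg.Agent.H17.card_out (Cfsg.Agent.H17.PE_center hnd (by omega))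
  rw [hcard] at h3
  have h4 := Nat.eq_of_mul_eq_mul_right Nat.card_pos h3
  by_cases hm4 : m = 4
  · rw [if_pos hm4]
    rw [if_pos hm4] at h4
    subst hm4
    have hn4 : ¬ (p ^ f % 4 = 3 ∧ Odd 4) := fun h => absurd h.2 (by decide)
    rw [if_pos (hpar.mpr (fun h => hn4 (hcond.mpr h)))] at h4
    obtain ⟨E⟩ := Cfsg.Agent.H17.out8_odd (F := F) h2 hf hcyc hcF (hneg.mpr hn4) (by rw [h4])
    exact ⟨(Cfsg.Agent.H17.outCongr e).trans E⟩
  · rw [if_neg hm4]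
    rw [if_neg hm4, one_mul] at h4
    by_cases hc : p ^ f % 4 = 3 ∧ Odd m
    · rw [if_pos hc]
      rw [if_neg (fun h => (hpar.mp h) (hcond.mp hc))] at h4
      obtain ⟨E⟩ := Cfsg.Agent.H17.outP_V4 (F := F) (m := m) h2 (by omega) hf hcyc hcF (fun h => hneg.mp h hc) h4
      exact ⟨(Cfsg.Agent.H17.outCongr e).trans E⟩
    · rw [if_neg hc]
      obtain ⟨E⟩ := Cfsg.Agent.H17.outP_D8 (F := F) (m := m) h2 (by omega) hf hcyc hcF (hneg.mpr hc)
      exact ⟨(Cfsg.Agent.H17.outCongr e).trans E⟩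

end Cfsg.Agent.S2608
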