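import Cfsg.Statements.S2610
import Cfsg.Agent.H17.Spin5

set_option autoImplicit false
open Cfsg

namespace Cfsg.Agent.S2610

open Cfsg.Agent.H5 Cfsg.Agent.H17 Module

/-- For a quadratic form Q on F^n with non-degenerate polar form, F finite of odd order and n ≥ 2 even, the isometry −1 lies in Ω (the commutator subgroup of the orthogonal group) if and only if the discriminant of Q (the determinant of the Gram matrix of its polar form) is a square. -/
theorem result {F : Type*} [Field F] [Fintype F] (h2 : (2 : F) ≠ 0) {n : ℕ} (hn : 2 ≤ n) (he : Even n) (Q : QuadraticForm F (Fin n → F)) (hQ : (QuadraticMap.polarBilin Q).Nondegenerate) : (∃ g : ↥(Cfsg.isometryGroup F ⇑Q), g ∈ Cfsg.Omega F ⇑Q ∧ ((g : Matrix.GeneralLinearGroup (Fin n) F) : Matrix (Fin n) (Fin n) F) = -1) ↔ IsSquare (Matrix.of (fun i j : Fin n => QuadraticMap.polar ⇑Q (Pi.single i 1) (Pi.single j 1))).det := by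
  have hnd := nd_of hQ
  have hrg : RG Q = ⊤ := Subgroup.eq_top_iff' _ |>.mpr (rg_odd h2 hnd)
  obtain ⟨l, h1, h3, D, hD, h4⟩ := neg_eq_lsp h2 hnd
  refine (exists_neg_iff (Q := Q)).trans ?_
  rw [← h3, lsp_comm' hnd hrg, h1]
  have h5 : (gramB Q).det ≠ 0 := (nd_iff_det Q).mp hnd
  have h6 : IsSquare (D ^ 2 * (gramB Q).det) ↔ IsSquare (gramB Q).det := by
    rw [sq_mul_iff (pow_ne_zero 2 hD) h5]
    exact ⟨fun h => h.mp ⟨D, sq D⟩, fun h => ⟨fun _ => h, fun _ => ⟨D, sq D⟩⟩⟩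
  have h7 : IsSquare ((2 : F) ^ n * ((lq l : Fˣ) : F)) ↔ IsSquare ((lq l : Fˣ) : F) := by
    have h8 : IsSquare ((2 : F) ^ n) := by
      obtain ⟨k, hk⟩ := he
      exact ⟨2 ^ k, by rw [hk, pow_add]⟩
    rw [sq_mul_iff (pow_ne_zero n h2) (Units.ne_zero _)]
    exact ⟨fun h => h.mp h8, fun h => ⟨fun _ => h, fun _ => h8⟩⟩
  have h9 : (Matrix.of (fun i j : Fin n => QuadraticMap.polar ⇑Q (Pi.single i 1) (Pi.single j 1))).det = (gramB Q).det := rfl
  rw [h9, ← h6, h4, h7]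
  exact ⟨fun h => h.2, fun h => ⟨he, h⟩⟩

end Cfsg.Agent.S2610
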