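import Cfsg.Statements.S2611
import Cfsg.Agent.H17.Spin4

set_option autoImplicit false
open Cfsg

namespace Cfsg.Agent.S2611

open Cfsg.Agent.H5 Cfsg.Agent.H17 Module

/-- For the hyperbolic quadratic form Σ x_i y_i on F^(2m) (F finite, m ≥ 1, excluding m = 2 over the field of two elements) and an invertible m × m matrix A, the block-diagonal isometry diag(A, (A⁻¹)ᵀ), which stabilises the two maximal totally singular subspaces x = 0 and y = 0, lies in Ω⁺_2m(F) (the commutator subgroup of the orthogonal group) if and only if det A is a square in F. -/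
theorem result {F : Type*} [Field F] [Fintype F] {m : ℕ} (hm : 1 ≤ m) (h : Fintype.card F ≠ 2 ∨ m ≠ 2) (A : GL (Fin m) F) : (∃ g : ↥(Cfsg.isometryGroup F (Cfsg.quadFormPlus m F)), g ∈ Cfsg.Omega F (Cfsg.quadFormPlus m F) ∧ ((g : Matrix.GeneralLinearGroup (Fin m ⊕ Fin m) F) : Matrix (Fin m ⊕ Fin m) (Fin m ⊕ Fin m) F) = Matrix.fromBlocks (A : Matrix (Fin m) (Fin m) F) 0 0 ((A : Matrix (Fin m) (Fin m) F)⁻¹).transpose) ↔ IsSquare (A : Matrix (Fin m) (Fin m) F).det := by
  have hrg : RG (qPlus m F) = ⊤ := rg_top nd_plus (by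
    rw [fr_plus]
    intro h' h4
    exact card_ne_two_of (n := 2 * m) (h.imp id (by omega)) h' h4)
  rw [← qPlus_coe m F]
  refine (exists_omega_mat _ (lev m F A) (fun x => ?_)).trans (lev_comm_iff hrg A)
  rw [Matrix.fromBlocks_mulVec, lev_apply, Matrix.zero_mulVec, Matrix.zero_mulVec, add_zero, zero_add, Matrix.coe_units_inv]

end Cfsg.Agent.S2611
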