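import Cfsg.Statements.S2612
import Cfsg.Agent.H17.Spin4

set_option autoImplicit false
open Cfsg

namespace Cfsg.Agent.S2612

open Cfsg.Agent.H5 Cfsg.Agent.H17 Module

/-- For the hyperbolic quadratic form Σ x_i y_i on F^(2m) (F finite, m ≥ 1, excluding m = 2 over the field of two elements), Ω⁺_2m(F) (the commutator subgroup of the orthogonal group) contains an element interchanging the two complementary maximal totally singular subspaces {y = 0} and {x = 0} if and only if m is even (dimension divisible by 4). -/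
theorem result {F : Type*} [Field F] [Fintype F] {m : ℕ} (hm : 1 ≤ m) (h : Fintype.card F ≠ 2 ∨ m ≠ 2) : (∃ g : ↥(Cfsg.isometryGroup F (Cfsg.quadFormPlus m F)), g ∈ Cfsg.Omega F (Cfsg.quadFormPlus m F) ∧ (∀ v : Fin m ⊕ Fin m → F, (∀ i, v (Sum.inr i) = 0) → ∀ i, (((g : Matrix.GeneralLinearGroup (Fin m ⊕ Fin m) F) : Matrix (Fin m ⊕ Fin m) (Fin m ⊕ Fin m) F).mulVec v) (Sum.inl i) = 0) ∧ (∀ v : Fin m ⊕ Fin m → F, (∀ i, v (Sum.inl i) = 0) → ∀ i, (((g : Matrix.GeneralLinearGroup (Fin m ⊕ Fin m) F) : Matrix (Fin m ⊕ Fin m) (Fin m ⊕ Fin m) F).mulVec v) (Sum.inr i) = 0)) ↔ Even m := by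
  have hrg : RG (qPlus m F) = ⊤ := rg_top nd_plus (by
    rw [fr_plus]
    intro h' h4
    exact card_ne_two_of (n := 2 * m) (h.imp id (by omega)) h' h4)
  rw [← qPlus_coe m F]
  constructor
  · rintro ⟨g, hg, h1, h2⟩
    rw [omega_iff] at hg
    obtain ⟨l, hl⟩ := exists_lsp (g := ogEquiv (qPlus m F) g) (by rw [hrg]; trivial)
    have hdg : ogEquiv (qPlus m F) g ∈ DG (qPlus m F) := by
      rw [← hl] at hg ⊢
      exact (lsp_dg nd_plus l).mpr ((lsp_comm' nd_plus hrg l).mp hg).1
    have h3 : lsp (swl (F := F) (List.finRange m)) * ogEquiv (qPlus m F) g ∈ DG (qPlus m F) := by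
      rw [← (PT_plus F m).ev_og_iff' hrg]
      apply ev_of_stable (PT_plus F m) Ustd_TS Ustd_finrank
      apply imS_of_stable
      intro x hx
      rw [mem_Ustd] at hx ⊢
      intro i
      rw [og_mul, swap_full]
      exact h1 x hx i
    rw [Subgroup.mul_mem_cancel_right _ hdg, lsp_dg nd_plus, swl_len, List.length_finRange] at h3
    exact h3
  · intro he
    refine ⟨(ogEquiv (qPlus m F)).symm (lsp (swl (F := F) (List.finRange m))), ?_, ?_, ?_⟩
    · rw [omega_iff, MulEquiv.apply_symm_apply, lsp_comm' nd_plus hrg, swl_len, List.length_finRange, swl_lq, List.length_finRange, he.neg_one_pow]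
      exact ⟨he, IsSquare.one⟩
    · intro v hv i
      rw [symm_mulVec, swap_full]
      exact hv i
    · intro v hv i
      rw [symm_mulVec, swap_full]
      exact hv i

end Cfsg.Agent.S2612
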