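import Cfsg.Statements.S2614
import Cfsg.Agent.H17.Spin4

set_option autoImplicit false
open Cfsg

namespace Cfsg.Agent.S2614

open Cfsg.Agent.H5 Cfsg.Agent.H17 Module

/-- For the form x_0² + Σ x_j y_j on F^(2m+1), F finite with q elements, q odd, and 1 ≤ i ≤ m: the involution of determinant one negating the first i hyperbolic pairs (and fixing x_0 and the other pairs) lies in Ω_(2m+1)(q) (commutator subgroup of the orthogonal group) if and only if q^i ≡ 1 (mod 4); its (−1)-eigenspace is a hyperbolic 2i-space. -/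
theorem result {F : Type*} [Field F] [Fintype F] {q : ℕ} (hF : Fintype.card F = q) (hq : Odd q) {m : ℕ} (i : ℕ) (hi : 1 ≤ i) (him : i ≤ m) : (∃ g : ↥(Cfsg.isometryGroup F (Cfsg.quadFormOdd m F)), g ∈ Cfsg.Omega F (Cfsg.quadFormOdd m F) ∧ ((g : Matrix.GeneralLinearGroup (Unit ⊕ (Fin m ⊕ Fin m)) F) : Matrix (Unit ⊕ (Fin m ⊕ Fin m)) (Unit ⊕ (Fin m ⊕ Fin m)) F) = Matrix.diagonal (fun k : Unit ⊕ (Fin m ⊕ Fin m) => if (Sum.elim (fun _ : Unit => i) (Sum.elim (fun j : Fin m => (j : ℕ)) (fun j : Fin m => (j : ℕ))) k) < i then (-1 : F) else 1)) ↔ q ^ i % 4 = 1 := by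
  have hF2 : (2 : F) ≠ 0 := by
    intro h
    have h5 : CharP F 2 := CharTwo.of_one_ne_zero_of_two_eq_zero one_ne_zero h
    have h6 : Fintype.card F % 2 = 0 := FiniteField.even_card_of_char_two (ringChar.eq F 2 ▸ rfl)
    have := Nat.odd_iff.mp hq
    omega
  rw [← qOdd_coe m F]
  refine pairs_omega hF hq (nd_odd hF2) _ (fun j : Fin m => Sum.inr (Sum.inl j)) (fun j : Fin m => Sum.inr (Sum.inr j)) ?_ ?_ ?_ ?_ ?_ ?_ i him ?_
  · intro j; rw [qOdd_coe]; simp [quadFormOdd]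
  · intro j; rw [qOdd_coe]; simp [quadFormOdd]
  · intro j x; rw [pB_odd]; simp [Pi.single_apply]
  · intro j x; rw [pB_odd]; simp [Pi.single_apply]
  · intro j; rfl
  · intro j; rfl
  · rintro (k | k | k) hk
    · exact absurd hk (lt_irrefl _)
    · exact ⟨k, Or.inl rfl⟩
    · exact ⟨k, Or.inr rfl⟩

end Cfsg.Agent.S2614
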