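import Cfsg.Statements.S2615
import Cfsg.Agent.H17.Spin4

set_option autoImplicit false
open Cfsg

namespace Cfsg.Agent.S2615

open Cfsg.Agent.H5 Cfsg.Agent.H17 Module

/-- For an elliptic form Σ_(j<m−1) x_j y_j + (z₁² + a z₁z₂ + b z₂²) (anisotropic binary part) on F^(2m), F finite with q elements, q odd, and 1 ≤ i ≤ m − 1: the involution negating the first i hyperbolic pairs and fixing the rest lies in Ω⁻_2m(q) (commutator subgroup of the orthogonal group) if and only if q^i ≡ 1 (mod 4). -/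
theorem result {F : Type*} [Field F] [Fintype F] {q : ℕ} (hF : Fintype.card F = q) (hq : Odd q) {m : ℕ} (a b : F) (hab : ∀ z₁ z₂ : F, z₁ ^ 2 + a * z₁ * z₂ + b * z₂ ^ 2 = 0 → z₁ = 0 ∧ z₂ = 0) (i : ℕ) (hi : 1 ≤ i) (him : i + 1 ≤ m) : (∃ g : ↥(Cfsg.isometryGroup F (Cfsg.quadFormMinus (m - 1) F a b)), g ∈ Cfsg.Omega F (Cfsg.quadFormMinus (m - 1) F a b) ∧ ((g : Matrix.GeneralLinearGroup ((Fin (m - 1) ⊕ Fin (m - 1)) ⊕ Fin 2) F) : Matrix ((Fin (m - 1) ⊕ Fin (m - 1)) ⊕ Fin 2) ((Fin (m - 1) ⊕ Fin (m - 1)) ⊕ Fin 2) F) = Matrix.diagonal (fun k : (Fin (m - 1) ⊕ Fin (m - 1)) ⊕ Fin 2 => if (Sum.elim (Sum.elim (fun j : Fin (m - 1) => (j : ℕ)) (fun j : Fin (m - 1) => (j : ℕ))) (fun _ : Fin 2 => i) k) < i then (-1 : F) else 1)) ↔ q ^ i % 4 = 1 := by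
  rw [← qMinus_coe (m - 1) F a b]
  refine pairs_omega hF hq (nd_minus hab) _ (fun j : Fin (m - 1) => Sum.inl (Sum.inl j)) (fun j : Fin (m - 1) => Sum.inl (Sum.inr j)) ?_ ?_ ?_ ?_ ?_ ?_ i (by omega) ?_
  · intro j; rw [qMinus_coe]; simp [quadFormMinus]
  · intro j; rw [qMinus_coe]; simp [quadFormMinus]
  · intro j x; rw [pB_minus]; simp [Pi.single_apply]
  · intro j x; rw [pB_minus]; simp [Pi.single_apply]
  · intro j; rfl
  · intro j; rfl
  · rintro ((k | k) | k) hk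
    · exact ⟨k, Or.inl rfl⟩
    · exact ⟨k, Or.inr rfl⟩
    · exact absurd hk (lt_irrefl _)

end Cfsg.Agent.S2615
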