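import Cfsg.Statements.S2619
import Mathlib

set_option autoImplicit false
open Cfsg

namespace Cfsg.Agent.S2619

/-- Over a finite field of characteristic two, given an alternating bilinear form B on a finite-dimensional space, a basis (v_i) and scalars (λ_i), there is exactly one quadratic form whose polar form is B and whose value at each v_i is λ_i. -/
theorem result {F V ι : Type*} [Field F] [Finite F] [CharP F 2] [AddCommGroup V] [Module F V] [Fintype ι] (b : Module.Basis ι F V) (B : LinearMap.BilinForm F V) (hB : B.IsAlt) (c : ι → F) : ∃! Q : QuadraticForm F V, QuadraticMap.polarBilin Q = B ∧ ∀ i, Q (b i) = c i := by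
  letI : LinearOrder ι := IsWellOrder.linearOrder WellOrderingRel
  have hBs : ∀ x y, B x y = B y x := by
    intro x y
    have h1 := hB.neg_eq x y
    rw [← h1, CharTwo.neg_eq]
  let T : LinearMap.BilinForm F V := b.constr F fun i =>
    b.constr F fun j => if i = j then c i else if i < j then B (b i) (b j) else 0
  have hT : ∀ i j, T (b i) (b j) = if i = j then c i else if i < j then B (b i) (b j) else 0 := by
    intro i j
    simp only [T]
    rw [Module.Basis.constr_basis, Module.Basis.constr_basis]
  refine ⟨T.toQuadraticMap, ⟨?_, ?_⟩, ?_⟩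
  · rw [LinearMap.BilinMap.polarBilin_toQuadraticMap]
    refine b.ext fun i => b.ext fun j => ?_
    rw [LinearMap.add_apply, LinearMap.add_apply, LinearMap.flip_apply, hT, hT]
    rcases lt_trichotomy i j with h | rfl | h
    · rw [if_neg h.ne, if_pos h, if_neg h.ne', if_neg h.not_gt, add_zero]
    · rw [if_pos rfl, CharTwo.add_self_eq_zero]
      exact (hB (b i)).symm
    · rw [if_neg h.ne', if_neg h.not_gt, if_neg h.ne, if_pos h, zero_add]
      exact hBs _ _
  · intro i
    rw [LinearMap.BilinMap.toQuadraticMap_apply, hT, if_pos rfl]
  · rintro Q ⟨hQ1, hQ2⟩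
    rw [← QuadraticMap.toQuadraticMap_toBilin Q b]
    have hTT : Q.toBilin b = T := by
      refine b.ext fun i => b.ext fun j => ?_
      have : QuadraticMap.polar Q (b i) (b j) = B (b i) (b j) := by rw [← hQ1]; rfl
      rw [QuadraticMap.toBilin_apply, hT, hQ2, this]
    rw [hTT]

end Cfsg.Agent.S2619
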