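import Cfsg.Statements.S2621
import Cfsg.Agent.H17.StdForms

set_option autoImplicit false
open Cfsg

namespace Cfsg.Agent.S2621

/-- Discriminant of an elliptic quadratic form Σ_(i<m−1) x_i y_i + z₁² + a z₁z₂ + c z₂² (binary part anisotropic) in dimension 2m over a field with q elements, q odd, m ≥ 1: the determinant of the Gram matrix of its polar form in any basis is a square if and only if m(q − 1)/2 is odd (equivalently q^m ≡ 3 (mod 4)). -/
theorem result {F : Type*} [Field F] [Fintype F] {q : ℕ} (hF : Fintype.card F = q) (hq : Odd q) {m : ℕ} (hm : 1 ≤ m) (a c : F) (hac : ∀ z₁ z₂ : F, z₁ ^ 2 + a * z₁ * z₂ + c * z₂ ^ 2 = 0 → z₁ = 0 ∧ z₂ = 0) {ι : Type*} [Fintype ι] [DecidableEq ι] (b : Module.Basis ι F ((Fin (m - 1) ⊕ Fin (m - 1)) ⊕ Fin 2 → F)) : IsSquare (Matrix.of (fun i j : ι => QuadraticMap.polar (Cfsg.quadFormMinus (m - 1) F a c) (b i) (b j))).det ↔ ¬ Even (m * (q - 1) / 2) := by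
  classical
  have hchar : ringChar F ≠ 2 := by
    intro h
    have := FiniteField.even_card_iff_char_two.mp h
    rw [hF] at this
    rcases hq with ⟨k, hk⟩
    omega
  have h2 : (2 : F) ≠ 0 := Ring.two_ne_zero hchar
  have h1 : (Matrix.of (fun i j : ι => QuadraticMap.polar (Cfsg.quadFormMinus (m - 1) F a c) (b i) (b j))) =
      Matrix.of (fun i j : ι => (Cfsg.Agent.H17.qMinus (m - 1) F a c).polarBilin (b i) (b j)) := by
    ext i j
    show _ = QuadraticMap.polar (Cfsg.Agent.H17.qMinus (m - 1) F a c) (b i) (b j)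
    rw [Cfsg.Agent.H17.coe_qMinus]
    rfl
  rw [h1, Cfsg.Agent.H17.isSquare_gram_iff _ b (Pi.basisFun F _), Cfsg.Agent.H17.gram_qMinus_det,
    ← Cfsg.Agent.H17.isSquare_neg_one_pow_iff hF hq m]
  have h3 : (-1 : F) ^ (m - 1) * (4 * c - a ^ 2) = (-1) ^ m * (a ^ 2 - 4 * c) := by
    obtain ⟨k, rfl⟩ : ∃ k, m = k + 1 := ⟨m - 1, by omega⟩
    rw [Nat.add_sub_cancel, pow_succ]; ring
  rw [h3]
  have hD : ¬ IsSquare (a ^ 2 - 4 * c) := by
    rintro ⟨d, hd⟩
    have := hac ((-a + d) / 2) 1 (by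
      field_simp
      linear_combination (-1 : F) * hd)
    exact one_ne_zero this.2
  have hD0 : a ^ 2 - 4 * c ≠ 0 := by
    intro h0; rw [h0] at hD; exact hD (IsSquare.zero)
  have hx0 : ((-1 : F) ^ m) ≠ 0 := pow_ne_zero _ (neg_ne_zero.mpr one_ne_zero)
  constructor
  · rintro ⟨d, hd⟩ ⟨e, he⟩
    apply hD
    have he0 : e ≠ 0 := by rintro rfl; rw [mul_zero] at he; exact hx0 he
    refine ⟨d / e, ?_⟩
    rw [he] at hd
    field_simp
    linear_combination hd
  · intro hns
    have h4 := (FiniteField.isSquare_iff hchar hD0).not.mp hD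
    have h5 := (FiniteField.isSquare_iff hchar hx0).not.mp hns
    have h6 := (FiniteField.pow_dichotomy hchar hD0).resolve_left h4
    have h7 := (FiniteField.pow_dichotomy hchar hx0).resolve_left h5
    rw [FiniteField.isSquare_iff hchar (mul_ne_zero hx0 hD0), mul_pow, h6, h7]
    ring

end Cfsg.Agent.S2621
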