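import Cfsg.Statements.S2625
import Cfsg.Agent.H17.StdForms

set_option autoImplicit false
open Cfsg

namespace Cfsg.Agent.S2625

/-- For a quadratic form Q on F^n with non-degenerate polar form, F finite and n odd (so |F| is odd), the multiplier of any similarity is a square: if g is an invertible linear map with Q(g v) = c·Q(v) for all v then c is a square. -/
theorem result {F : Type*} [Field F] [Fintype F] {n : ℕ} (hn : Odd n) (Q : QuadraticForm F (Fin n → F)) (hQ : (QuadraticMap.polarBilin Q).Nondegenerate) (g : (Fin n → F) ≃ₗ[F] (Fin n → F)) (c : F) (hg : ∀ v, Q (g v) = c * Q v) : IsSquare c := by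
  classical
  have h1 := Cfsg.Agent.H17.gram_det_basis Q.polarBilin ((Pi.basisFun F (Fin n)).map g) (Pi.basisFun F (Fin n))
  obtain ⟨u, hu, hdet⟩ := h1
  have h2 : (Matrix.of (fun i j : Fin n => Q.polarBilin (((Pi.basisFun F (Fin n)).map g) i) (((Pi.basisFun F (Fin n)).map g) j))) =
      c • (Matrix.of (fun i j : Fin n => Q.polarBilin ((Pi.basisFun F (Fin n)) i) ((Pi.basisFun F (Fin n)) j))) := by
    ext i j
    show QuadraticMap.polar Q (g (Pi.basisFun F (Fin n) i)) (g (Pi.basisFun F (Fin n) j)) = c * QuadraticMap.polar Q (Pi.basisFun F (Fin n) i) (Pi.basisFun F (Fin n) j)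
    unfold QuadraticMap.polar
    rw [← map_add, hg, hg, hg]; ring
  rw [h2, Matrix.det_smul, Fintype.card_fin] at hdet
  have h3 : (Matrix.of (fun i j : Fin n => Q.polarBilin ((Pi.basisFun F (Fin n)) i) ((Pi.basisFun F (Fin n)) j))).det ≠ 0 := by
    have h4 : (Matrix.of (fun i j : Fin n => Q.polarBilin ((Pi.basisFun F (Fin n)) i) ((Pi.basisFun F (Fin n)) j))) = LinearMap.BilinForm.toMatrix (Pi.basisFun F (Fin n)) Q.polarBilin := by
      ext i j; rw [LinearMap.BilinForm.toMatrix_apply]; rfl
    rw [h4]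
    exact (LinearMap.BilinForm.nondegenerate_iff_det_ne_zero (Pi.basisFun F (Fin n))).mp hQ
  have h5 : c ^ n = u ^ 2 := mul_right_cancel₀ h3 hdet
  obtain ⟨k, rfl⟩ := hn
  by_cases hc : c = 0
  · rw [hc]; exact IsSquare.zero
  · refine ⟨u / c ^ k, ?_⟩
    field_simp
    rw [← h5]; ring

end Cfsg.Agent.S2625
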