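import Cfsg.Statements.S2627
import Cfsg.Agent.H17.Spin5

set_option autoImplicit false
open Cfsg

namespace Cfsg.Agent.S2627

open Cfsg.Agent.H5 Cfsg.Agent.H17 Module

/-- For an orthogonal direct sum Q = Q₁ ⊕ Q₂ of quadratic forms with non-degenerate polar forms over a finite field, an isometry g₁ of Q₁ extended by the identity on the second summand lies in Ω(Q) (the commutator subgroup of the orthogonal group of Q) if and only if g₁ lies in Ω(Q₁). (Excluded: the field of two elements when the first summand or the whole space has dimension 4, where the commutator subgroup of O⁺₄(2) is smaller than the group usually called Ω.) -/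
theorem result {F : Type*} [Field F] [Fintype F] {k l : ℕ} (h : Fintype.card F ≠ 2 ∨ (k ≠ 4 ∧ k + l ≠ 4)) (Q₁ : QuadraticForm F (Fin k → F)) (Q₂ : QuadraticForm F (Fin l → F)) (h₁ : (QuadraticMap.polarBilin Q₁).Nondegenerate) (h₂ : (QuadraticMap.polarBilin Q₂).Nondegenerate) (g₁ : ↥(Cfsg.isometryGroup F ⇑Q₁)) : (∃ g : ↥(Cfsg.isometryGroup F (fun v : Fin k ⊕ Fin l → F => Q₁ (v ∘ Sum.inl) + Q₂ (v ∘ Sum.inr))), g ∈ Cfsg.Omega F (fun v : Fin k ⊕ Fin l → F => Q₁ (v ∘ Sum.inl) + Q₂ (v ∘ Sum.inr)) ∧ ((g : Matrix.GeneralLinearGroup (Fin k ⊕ Fin l) F) : Matrix (Fin k ⊕ Fin l) (Fin k ⊕ Fin l) F) = Matrix.fromBlocks ((g₁ : Matrix.GeneralLinearGroup (Fin k) F) : Matrix (Fin k) (Fin k) F) 0 0 1) ↔ g₁ ∈ Cfsg.Omega F ⇑Q₁ := by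
  have n1 := nd_of h₁
  have n2 := nd_of h₂
  have r1 : RG Q₁ = ⊤ := rg_top n1 (by
    rw [Module.finrank_fin_fun]
    exact card_ne_two_of (h.imp id (fun h => h.1)))
  have r2 : RG (qsum Q₁ Q₂) = ⊤ := rg_top (nd_qsum n1 n2) (by
    rw [Module.finrank_fintype_fun_eq_card, Fintype.card_sum, Fintype.card_fin, Fintype.card_fin]
    exact card_ne_two_of (h.imp id (fun h => h.2)))
  rw [← qsum_coe (Q₁ := Q₁) (Q₂ := Q₂)]
  refine (exists_omega_mat _ (exs Q₁ Q₂ (ogEquiv Q₁ g₁, 1)) (fun x => ?_)).trans ?_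
  · rw [Matrix.fromBlocks_mulVec, exs_apply, Matrix.zero_mulVec, Matrix.zero_mulVec, add_zero, zero_add, Matrix.one_mulVec]
    rfl
  · rw [omega_iff]
    obtain ⟨l, hl⟩ := exists_lsp (g := ogEquiv Q₁ g₁) (by rw [r1]; trivial)
    rw [← hl, exs_lsp_l, lsp_comm' (nd_qsum n1 n2) r2, lsp_comm' n1 r1, lq_inlv, List.length_map]

end Cfsg.Agent.S2627
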