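import Cfsg.Statements.S2628
import Cfsg.Agent.H17.Spin5

set_option autoImplicit false
open Cfsg

namespace Cfsg.Agent.S2628

open Cfsg.Agent.H5 Cfsg.Agent.H17 Module

/-- For the orthogonal direct sum Q ⊕ Q of two copies of a quadratic form Q with non-degenerate polar form on F^k (F finite), every isometry g of Q acting diagonally, diag(g, g), lies in Ω(Q ⊕ Q), the commutator subgroup of the orthogonal group of Q ⊕ Q. (Excluded: k = 2 over the field of two elements, where Q ⊕ Q is the hyperbolic 4-space whose orthogonal group's commutator subgroup is smaller than the group usually called Ω.) -/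
theorem result {F : Type*} [Field F] [Fintype F] {k : ℕ} (h : Fintype.card F ≠ 2 ∨ k ≠ 2) (Q : QuadraticForm F (Fin k → F)) (hQ : (QuadraticMap.polarBilin Q).Nondegenerate) (g : ↥(Cfsg.isometryGroup F ⇑Q)) : ∃ x : ↥(Cfsg.isometryGroup F (fun v : Fin k ⊕ Fin k → F => Q (v ∘ Sum.inl) + Q (v ∘ Sum.inr))), x ∈ Cfsg.Omega F (fun v : Fin k ⊕ Fin k → F => Q (v ∘ Sum.inl) + Q (v ∘ Sum.inr)) ∧ ((x : Matrix.GeneralLinearGroup (Fin k ⊕ Fin k) F) : Matrix (Fin k ⊕ Fin k) (Fin k ⊕ Fin k) F) = Matrix.fromBlocks ((g : Matrix.GeneralLinearGroup (Fin k) F) : Matrix (Fin k) (Fin k) F) 0 0 ((g : Matrix.GeneralLinearGroup (Fin k) F) : Matrix (Fin k) (Fin k) F) := by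
  have n1 := nd_of hQ
  have r2 : RG (qsum Q Q) = ⊤ := rg_top (nd_qsum n1 n1) (by
    rw [Module.finrank_fintype_fun_eq_card, Fintype.card_sum, Fintype.card_fin]
    exact card_ne_two_of (h.imp id (fun h => by omega)))
  rw [← qsum_coe (Q₁ := Q) (Q₂ := Q)]
  refine (exists_omega_mat _ (exs Q Q (ogEquiv Q g, ogEquiv Q g)) (fun x => ?_)).mpr ?_
  · rw [Matrix.fromBlocks_mulVec, exs_apply, Matrix.zero_mulVec, Matrix.zero_mulVec, add_zero, zero_add]
    rfl
  · by_cases h2 : (2 : F) = 0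
    · rw [comm_eq_dg_two h2 (nd_qsum n1 n1) r2, dg_iff_parity (nd_qsum n1 n1) r2, fixS_exs,
        Module.finrank_fintype_fun_eq_card, Fintype.card_sum, Fintype.card_fin]
      exact ⟨finrank F (fixS (ogEquiv Q g)) + k, by ring⟩
    · have r1 : RG Q = ⊤ := Subgroup.eq_top_iff' _ |>.mpr (rg_odd h2 n1)
      obtain ⟨l, hl⟩ := exists_lsp (g := ogEquiv Q g) (by rw [r1]; trivial)
      have e : exs Q Q (ogEquiv Q g, ogEquiv Q g) = lsp (l.map (inlv (Q₂ := Q)) ++ l.map (inrv (Q₁ := Q))) := by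
        rw [lsp_append, ← exs_lsp_l, ← exs_lsp_r, ← map_mul, Prod.mk_mul_mk, mul_one, one_mul, hl]
      rw [e, lsp_comm' (nd_qsum n1 n1) r2, List.length_append, List.length_map, List.length_map, lq_append, lq_inlv, lq_inrv]
      exact ⟨⟨_, rfl⟩, ⟨((lq l : Fˣ) : F), by rw [Units.val_mul]⟩⟩

end Cfsg.Agent.S2628
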