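import Cfsg.Statements.S2634
import Cfsg.Agent.H17.Spin2

set_option autoImplicit false
open Cfsg

namespace Cfsg.Agent.S2634

open Cfsg.Agent.H5 Cfsg.Agent.H17 Module

/-- Over a finite field of characteristic two, Ω (the commutator subgroup of the orthogonal group of a quadratic form Q on F^n with non-degenerate polar form; excluding dimension 4 over the field of two elements) acts transitively on the non-singular 1-spaces: for u, v with Q(u) ≠ 0 and Q(v) ≠ 0 some element of Ω carries the line through u to the line through v. -/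
theorem result {F : Type*} [Field F] [Fintype F] [CharP F 2] {n : ℕ} (h : Fintype.card F ≠ 2 ∨ n ≠ 4) (Q : QuadraticForm F (Fin n → F)) (hQ : (QuadraticMap.polarBilin Q).Nondegenerate) (u v : Fin n → F) (hu : Q u ≠ 0) (hv : Q v ≠ 0) : ∃ g : ↥(Cfsg.isometryGroup F ⇑Q), g ∈ Cfsg.Omega F ⇑Q ∧ (F ∙ ((g : Matrix.GeneralLinearGroup (Fin n) F) : Matrix (Fin n) (Fin n) F).mulVec u) = F ∙ v := by
  have hnd := nd_of hQ
  have h2 : (2 : F) = 0 := CharTwo.two_eq_zero
  have hrg : RG Q = ⊤ := rg_top hnd (by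
    rw [Module.finrank_fin_fun]
    exact card_ne_two_of h)
  have hu0 : u ≠ 0 := fun h => hu (by rw [h, q_zero])
  have hv0 : v ≠ 0 := fun h => hv (by rw [h, q_zero])
  obtain ⟨c, hc⟩ := sq_char_two h2 (Q u * (Q v)⁻¹)
  have hc0 : c ≠ 0 := by
    rintro rfl
    rw [mul_zero] at hc
    exact mul_ne_zero hu (inv_ne_zero hv) hc
  have hQ' : Q (c • v) = Q u := by
    rw [q_smul, ← hc, mul_assoc, inv_mul_cancel₀ hv, mul_one]
  obtain ⟨g₀, hg₀⟩ := og_witt1 hnd hu0 (smul_ne_zero hc0 hv0) hQ'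
  have key : ∃ g ∈ commutator (OG Q), g u = c • v := by
    rw [comm_eq_dg_two h2 hnd hrg]
    by_cases h3 : g₀⁻¹ ∈ DG Q
    · exact ⟨g₀, by rwa [inv_mem_iff] at h3, hg₀⟩
    · have h4 := (rg_dg g₀⁻¹ (by rw [hrg]; trivial)).resolve_left h3 u hu
      refine ⟨(refl hu * g₀⁻¹)⁻¹, inv_mem h4, ?_⟩
      rw [_root_.mul_inv_rev, inv_inv, refl_inv, og_mul, refl_self, og_neg, hg₀]
      rw [neg_eq_iff_add_eq_zero, ← two_smul F, h2, zero_smul]
  obtain ⟨g, hg, hgu⟩ := key
  refine ⟨(ogEquiv Q).symm g, by rw [omega_iff, MulEquiv.apply_symm_apply]; exact hg, ?_⟩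
  rw [symm_mulVec, hgu]
  exact Submodule.span_singleton_smul_eq (IsUnit.mk0 c hc0) v

end Cfsg.Agent.S2634
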