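import Cfsg.Statements.S2635
import Cfsg.Agent.H17.Spin2

set_option autoImplicit false
open Cfsg

namespace Cfsg.Agent.S2635

open Cfsg.Agent.H5 Cfsg.Agent.H17 Module

/-- Over a finite field of characteristic two, for a quadratic form Q on F^n with non-degenerate polar form, n ≥ 2, other than dimension 4 over the field of two elements, Ω (the commutator subgroup of the orthogonal group) is exactly the subgroup generated by the products of two reflections (orthogonal transvections) x ↦ x − Q(v)⁻¹ f(x, v) v, Q(v) ≠ 0: the products of an even number of reflections. -/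
theorem result {F : Type*} [Field F] [Fintype F] [CharP F 2] {n : ℕ} (hn : 2 ≤ n) (h : Fintype.card F ≠ 2 ∨ n ≠ 4) (Q : QuadraticForm F (Fin n → F)) (hQ : (QuadraticMap.polarBilin Q).Nondegenerate) : Cfsg.Omega F ⇑Q = Subgroup.closure {g : ↥(Cfsg.isometryGroup F ⇑Q) | ∃ u v : Fin n → F, Q u ≠ 0 ∧ Q v ≠ 0 ∧ ((g : Matrix.GeneralLinearGroup (Fin n) F) : Matrix (Fin n) (Fin n) F) = Cfsg.reflectionMatrix ⇑Q u * Cfsg.reflectionMatrix ⇑Q v} := by
  have hnd := nd_of hQ
  have h2 : (2 : F) = 0 := CharTwo.two_eq_zero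
  have hrg : RG Q = ⊤ := rg_top hnd (by
    rw [Module.finrank_fin_fun]
    exact card_ne_two_of h)
  ext g
  rw [omega_iff, comm_eq_dg_two h2 hnd hrg]
  unfold DG
  rw [← mem_closure_equiv (ogEquiv Q) _ _ _ g]
  intro g
  constructor
  · rintro ⟨u, v, hu, hv, hg⟩
    exact ⟨u, v, hu, hv, (ogEquiv_eq_iff g _).mpr fun x => by
      rw [hg, ← Matrix.mulVec_mulVec, reflectionMatrix_mulVec, reflectionMatrix_mulVec, og_mul, refl_apply hu, refl_apply hv]⟩
  · rintro ⟨u, v, hu, hv, hg⟩
    refine ⟨u, v, hu, hv, ?_⟩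
    apply Matrix.toLin'.injective
    apply LinearMap.ext
    intro x
    rw [Matrix.toLin'_apply, Matrix.toLin'_apply, (ogEquiv_eq_iff g _).mp hg x, ← Matrix.mulVec_mulVec, reflectionMatrix_mulVec,
      reflectionMatrix_mulVec, og_mul, refl_apply hu, refl_apply hv]

end Cfsg.Agent.S2635
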