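import Cfsg.Statements.S2637
import Cfsg.Agent.H17.SpCent3

set_option autoImplicit false
open Cfsg

namespace Cfsg.Agent.S2637

open Cfsg Cfsg.Agent.H5 Cfsg.Agent.H17 Module in
theorem aux_omega {F : Type*} [Field F] [Finite F] {p : ℕ} [Fact p.Prime] [CharP F p] {q : ℕ} (hF : Nat.card F = q) (hq : q % 3 = 2) :
    ∃ ω : KK F p, ω * ω + ω + 1 = 0 ∧ (∀ a : F, algebraMap F (KK F p) a ≠ ω) ∧ ω * sK F p ω = 1 := by
  haveI : Finite (KK F p) := inferInstance
  letI : Fintype (KK F p) := Fintype.ofFinite _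
  classical
  have hcard : Nat.card (KK F p)ˣ = q ^ 2 - 1 := by
    rw [Nat.card_units, card_KK, hF]
  have h3 : 3 ∣ Nat.card (KK F p)ˣ := by
    rw [hcard]
    obtain ⟨k, hk⟩ : ∃ k, q = 3 * k + 2 := ⟨q / 3, by omega⟩
    refine ⟨3 * k ^ 2 + 4 * k + 1, ?_⟩
    rw [hk]
    have : (3 * k + 2) ^ 2 = 3 * (3 * k ^ 2 + 4 * k + 1) + 1 := by ring
    omega
  haveI : Fact (Nat.Prime 3) := ⟨Nat.prime_three⟩
  obtain ⟨u, hu⟩ := exists_prime_orderOf_dvd_card' 3 h3
  have hu3 : (u : KK F p) ^ 3 = 1 := by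
    rw [← Units.val_pow_eq_pow_val, ← hu, pow_orderOf_eq_one, Units.val_one]
  have hu1 : (u : KK F p) ≠ 1 := by
    intro h
    have : u = 1 := Units.ext h
    rw [this, orderOf_one] at hu
    omega
  have hω : (u : KK F p) * u + u + 1 = 0 := by
    have h1 : ((u : KK F p) - 1) * ((u : KK F p) * u + u + 1) = 0 := by linear_combination hu3
    exact (mul_eq_zero.mp h1).resolve_left (sub_ne_zero.mpr hu1)
  have hs : sK F p (u : KK F p) = (u : KK F p) * u := by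
    rw [sK_apply, hF]
    obtain ⟨k, hk⟩ : ∃ k, q = 3 * k + 2 := ⟨q / 3, by omega⟩
    rw [hk, pow_add, pow_mul, hu3, one_pow, one_mul, pow_two]
  refine ⟨u, hω, ?_, ?_⟩
  · intro a ha
    rw [← ha, sK_algebraMap, ha] at hs
    apply hu1
    have h1 : (u : KK F p) * 1 = u * u := by rw [mul_one]; exact hs
    exact (mul_left_cancel₀ u.ne_zero h1).symm
  · rw [hs]
    linear_combination hu3

/-- Centraliser of a fixed-point-free element of order three in Sp_2m(q) when q ≡ 2 (mod 3): if x ∈ Sp_2m(F) (|F| = q, m ≥ 1) satisfies x³ = 1 and x − 1 is invertible, then its centraliser in Sp_2m(F) has the order of the unitary group GU_m(q), namely q^(m(m−1)/2) Π_(i=1)^m (q^i − (−1)^i) (x lies in the centre of a subgroup GU_m(q) of Sp_2m(q)). -/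
theorem result {F : Type*} [Field F] [Fintype F] {q : ℕ} (hF : Fintype.card F = q) (hq : q % 3 = 2) {m : ℕ} (hm : 1 ≤ m) (x : Matrix.symplecticGroup (Fin m) F) (hx3 : x ^ 3 = 1) (hfpf : IsUnit ((x : Matrix (Fin m ⊕ Fin m) (Fin m ⊕ Fin m) F) - 1)) : (Nat.card ↥(Subgroup.centralizer ({x} : Set ↥(Matrix.symplecticGroup (Fin m) F))) : ℤ) = (q : ℤ) ^ (m * (m - 1) / 2) * ∏ i : Fin m, ((q : ℤ) ^ ((i : ℕ) + 1) - (-1) ^ ((i : ℕ) + 1)) := by
  classical
  obtain ⟨p, hp⟩ := CharP.exists F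
  haveI : Fact p.Prime := ⟨CharP.char_is_prime F p⟩
  have hF' : Nat.card F = q := by rw [Nat.card_eq_fintype_card, hF]
  obtain ⟨ω, hω, hωF, hωs⟩ := aux_omega (F := F) (p := p) hF' hq
  have hquad := Cfsg.Agent.H17.quad_gen (F := F) (K := Cfsg.Agent.H17.KK F p) Cfsg.Agent.H17.finrank_KK (θ := ω) (b := 1) (c := 1)
    (by rw [map_one, one_mul]; exact hω) hωF
  have h3 : ((3 : ℕ) : F) ≠ 0 := by
    intro h
    have h1 : p ∣ 3 := (CharP.cast_eq_zero_iff F p 3).mp h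
    have h2 : p = 3 := (Nat.prime_dvd_prime_iff_eq (CharP.char_is_prime F p : p.Prime) Nat.prime_three).mp h1
    subst h2
    obtain ⟨n, -, hn⟩ := FiniteField.card F 3
    rw [hF] at hn
    have : 3 ∣ q := by rw [hn]; exact dvd_pow_self _ n.ne_zero
    omega
  have hx2 : (x : Matrix (Fin m ⊕ Fin m) (Fin m ⊕ Fin m) F) * x + x + 1 = 0 := by
    have h1 : (x : Matrix (Fin m ⊕ Fin m) (Fin m ⊕ Fin m) F) ^ 3 = 1 := by
      have := congrArg (fun g : Matrix.symplecticGroup (Fin m) F => (g : Matrix (Fin m ⊕ Fin m) (Fin m ⊕ Fin m) F)) hx3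
      simpa using this
    have h2 : ((x : Matrix (Fin m ⊕ Fin m) (Fin m ⊕ Fin m) F) - 1) * ((x : Matrix (Fin m ⊕ Fin m) (Fin m ⊕ Fin m) F) * x + x + 1) = 0 := by
      have : ((x : Matrix (Fin m ⊕ Fin m) (Fin m ⊕ Fin m) F) - 1) * ((x : Matrix (Fin m ⊕ Fin m) (Fin m ⊕ Fin m) F) * x + x + 1) = (x : Matrix (Fin m ⊕ Fin m) (Fin m ⊕ Fin m) F) ^ 3 - 1 := by noncomm_ring
      rw [this, h1, sub_self]
    exact (hfpf.mul_right_eq_zero).mp h2
  have key := Cfsg.Agent.H17.card_cent_quad (F := F) (p := p) hF' (θ := ω) hquad.1 hωs x (by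
    rw [hquad.2]
    apply LinearMap.ext
    intro w
    rw [map_add, map_add, map_mul, map_pow, Polynomial.aeval_X, Polynomial.aeval_C, map_one, one_mul, pow_two]
    have h1 := congrArg (fun M : Matrix (Fin m ⊕ Fin m) (Fin m ⊕ Fin m) F => M.mulVec w) hx2
    simp only [Matrix.add_mulVec, Matrix.zero_mulVec, Matrix.one_mulVec, ← Matrix.mulVec_mulVec] at h1
    simpa [Matrix.toLin'_apply] using h1) (N := 3) h3 hx3
  letI : Fintype (Cfsg.Agent.H17.KK F p) := Fintype.ofFinite _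
  rw [key, Cfsg.Agent.H5.card_GU (F := Cfsg.Agent.H17.KK F p) (by
    rw [← Nat.card_eq_fintype_card, Cfsg.Agent.H17.card_KK, hF']) m]
  unfold Cfsg.Agent.H5.ordU
  push_cast
  rw [Finset.prod_range]
  congr 1
  refine Finset.prod_congr rfl fun i _ => ?_
  have hq1 : 1 ≤ q := by omega
  split_ifs with hi
  · rw [Odd.neg_one_pow (hi.add_one)]
    push_cast
    ring
  · rw [Even.neg_one_pow ((Nat.not_even_iff_odd.mp hi).add_one), Nat.cast_sub (Nat.one_le_pow _ _ hq1)]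
    push_cast
    ring

end Cfsg.Agent.S2637
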