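import Cfsg.Statements.S2639
import Cfsg.Agent.H17.GUEmb

set_option autoImplicit false
open Cfsg

namespace Cfsg.Agent.S2639

theorem aux_setup {K F : Type*} [Field K] [Fintype K] [Field F] [Fintype F] {q : ℕ} (hK : Fintype.card K = q ^ 2) (hF : Fintype.card F = q)
    (p : ℕ) [Fact p.Prime] [CharP F p] : Nonempty (K ≃+* Cfsg.Agent.H17.KK F p) := by
  haveI : Finite (Cfsg.Agent.H17.KK F p) := inferInstance
  letI : Fintype (Cfsg.Agent.H17.KK F p) := Fintype.ofFinite _
  exact ⟨FiniteField.ringEquivOfCardEq (by
    rw [hK, ← Nat.card_eq_fintype_card (α := Cfsg.Agent.H17.KK F p), Cfsg.Agent.H17.card_KK, Nat.card_eq_fintype_card, hF])⟩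

/-- The unitary group embeds in the symplectic group of twice the dimension over the subfield: for a field K with q² elements and a field F with q elements (isomorphic to the subfield of K of order q), there is an injective homomorphism GU_m(q) → Sp_2m(F). -/
theorem result {K F : Type*} [Field K] [Fintype K] [Field F] [Fintype F] {q : ℕ} (hK : Fintype.card K = q ^ 2) (hF : Fintype.card F = q) (m : ℕ) : ∃ φ : ↥(Cfsg.GU m K q) →* ↥(Matrix.symplecticGroup (Fin m) F), Function.Injective φ := by
  classical
  obtain ⟨p, hp⟩ := CharP.exists F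
  haveI : Fact p.Prime := ⟨CharP.char_is_prime F p⟩
  obtain ⟨e⟩ := aux_setup hK hF p
  exact Cfsg.Agent.H17.gu_sp e (by rw [Nat.card_eq_fintype_card, hF])

end Cfsg.Agent.S2639
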