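import Cfsg.Statements.S2640
import Cfsg.Agent.H17.GUEmb

set_option autoImplicit false
open Cfsg

namespace Cfsg.Agent.S2640

theorem aux_setup {K F : Type*} [Field K] [Fintype K] [Field F] [Fintype F] {q : ℕ} (hK : Fintype.card K = q ^ 2) (hF : Fintype.card F = q)
    (p : ℕ) [Fact p.Prime] [CharP F p] : Nonempty (K ≃+* Cfsg.Agent.H17.KK F p) := by
  haveI : Finite (Cfsg.Agent.H17.KK F p) := inferInstance
  letI : Fintype (Cfsg.Agent.H17.KK F p) := Fintype.ofFinite _
  exact ⟨FiniteField.ringEquivOfCardEq (by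
    rw [hK, ← Nat.card_eq_fintype_card (α := Cfsg.Agent.H17.KK F p), Cfsg.Agent.H17.card_KK, Nat.card_eq_fintype_card, hF])⟩

/-- For m even, the unitary group GU_m(q) (over the field with q² elements) embeds in the orthogonal group O⁺_2m(q) of the hyperbolic form Σ x_i y_i over the field with q elements (there is an injective homomorphism). -/
theorem result {K F : Type*} [Field K] [Fintype K] [Field F] [Fintype F] {q : ℕ} (hK : Fintype.card K = q ^ 2) (hF : Fintype.card F = q) (m : ℕ) (hm : Even m) : ∃ φ : ↥(Cfsg.GU m K q) →* ↥(Cfsg.isometryGroup F (Cfsg.quadFormPlus m F)), Function.Injective φ := by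
  classical
  obtain ⟨p, hp⟩ := CharP.exists F
  haveI : Fact p.Prime := ⟨CharP.char_is_prime F p⟩
  obtain ⟨e⟩ := aux_setup hK hF p
  have hq : Nat.card F = q := by rw [Nat.card_eq_fintype_card, hF]
  obtain ⟨ψ, hψ⟩ := Cfsg.Agent.H17.hQ_iso_plus (F := F) (p := p) hm
  rw [← Cfsg.Agent.H5.qPlus_coe]
  exact ⟨((Cfsg.Agent.H5.ogEquiv (Cfsg.Agent.H5.qPlus m F)).symm.toMonoidHom.comp (Cfsg.Agent.H17.ogCongr ψ hψ).toMonoidHom).comp (Cfsg.Agent.H17.guOG m e hq),
    ((Cfsg.Agent.H5.ogEquiv (Cfsg.Agent.H5.qPlus m F)).symm.injective.comp (Cfsg.Agent.H17.ogCongr ψ hψ).injective).comp (Cfsg.Agent.H17.guOG_inj e hq)⟩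

end Cfsg.Agent.S2640
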