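import Cfsg.Statements.S2642
import Cfsg.Agent.H17.UnipGU

set_option autoImplicit false
open Cfsg

namespace Cfsg.Agent.S2642

/-- Number of conjugacy classes of elements of order p in the general unitary group GU_n(q), q a power of p: every unipotent Jordan type occurs and the classes correspond to the partitions of n with all parts at most p other than the all-ones partition, exactly as in GL_n; so there are (number of partitions of n with parts ≤ p) − 1 classes. -/
theorem result {K : Type*} [Field K] [Fintype K] {p q n : ℕ} [Fact p.Prime] [CharP K p] (hK : Fintype.card K = q ^ 2) : Nat.card {C : ConjClasses ↥(Cfsg.GU n K q) // ∃ g : ↥(Cfsg.GU n K q), ConjClasses.mk g = C ∧ orderOf g = p} = (Finset.univ.filter (fun μ : Nat.Partition n => ∀ a ∈ μ.parts, a ≤ p)).card - 1 := by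
  classical
  rw [← Cfsg.Agent.H16.JNil.card_order_p (F := K) (n := n) p]
  let f : ConjClasses ↥(Cfsg.GU n K q) → ConjClasses (GL (Fin n) K) := ConjClasses.map (Cfsg.GU n K q).subtype
  have hf : ∀ g : ↥(Cfsg.GU n K q), f (ConjClasses.mk g) = ConjClasses.mk (g : GL (Fin n) K) := fun _ => rfl
  have ho : ∀ g : ↥(Cfsg.GU n K q), orderOf (g : GL (Fin n) K) = orderOf g := fun g => Subgroup.orderOf_coe g
  refine Nat.card_congr (Equiv.ofBijective (fun C => ⟨f C.1, ?_⟩) ⟨?_, ?_⟩)
  · obtain ⟨C, g, rfl, hg⟩ := C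
    exact ⟨g, rfl, by rw [ho, hg]⟩
  · rintro ⟨C, g, rfl, hg⟩ ⟨C', g', rfl, hg'⟩ h
    apply Subtype.ext
    have h1 : f (ConjClasses.mk g) = f (ConjClasses.mk g') := congrArg Subtype.val h
    rw [hf, hf, ConjClasses.mk_eq_mk_iff_isConj] at h1
    show ConjClasses.mk g = ConjClasses.mk g'
    rw [ConjClasses.mk_eq_mk_iff_isConj]
    exact (Cfsg.Agent.H17.gu_conj hK g g').mpr h1
  · rintro ⟨C, A, rfl, hA⟩
    have hnil : IsNilpotent ((A : Matrix (Fin n) (Fin n) K) - 1) := by
      rw [← Cfsg.Agent.H17.nilp_Ng, ← Cfsg.Agent.H16.JNil.nilp_iff p]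
      exact ⟨1, by rw [hA, pow_one]⟩
    obtain ⟨B, hB⟩ := Cfsg.Agent.H17.gu_unip hK hnil
    refine ⟨⟨ConjClasses.mk B, B, rfl, ?_⟩, ?_⟩
    · rw [← ho, ← hA]
      obtain ⟨c, hc⟩ := isConj_iff.mp hB
      rw [← hc]
      exact (MulAut.conj c).orderOf_eq A
    · apply Subtype.ext
      show ConjClasses.mk (B : GL (Fin n) K) = ConjClasses.mk A
      rw [ConjClasses.mk_eq_mk_iff_isConj]
      exact hB.symm

end Cfsg.Agent.S2642
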