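import Cfsg.Statements.S2643
import Cfsg.Agent.H17.UnipGU
import Cfsg.Agent.H17.RegUni
import Cfsg.Agent.H17.ClassSplit
import Cfsg.Agent.H5.UnitCenter

set_option autoImplicit false
open Cfsg

namespace Cfsg.Agent.S2643

open Cfsg Cfsg.Agent.H5 Cfsg.Agent.H17 in
/-- a regular nilpotent matrix in every positive size -/
theorem aux_exists_reg (K : Type*) [Field K] (n : ℕ) (hn : 1 ≤ n) : ∃ A : GL (Fin n) K, ((A : Matrix (Fin n) (Fin n) K) - 1) ^ n = 0 ∧ ((A : Matrix (Fin n) (Fin n) K) - 1).rank = n - 1 := by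
  classical
  obtain ⟨A, hA⟩ := Cfsg.Agent.H16.JNil.exists_J (F := K) (n := n) ⟨{n}, by simpa using (show 0 < n from hn), by simp⟩
  refine ⟨A, ?_, ?_⟩
  · have h1 := (hA.pow_zero_iff n).mpr (by simp)
    unfold Cfsg.Agent.H16.JNil.Ng at h1
    rw [← Matrix.toLin'_pow] at h1
    exact (LinearEquiv.map_eq_zero_iff _).mp h1
  · have h1 := hA.rank 1
    rw [finrank_Ng, pow_one] at h1
    rw [h1]
    simp

open Cfsg Cfsg.Agent.H5 Cfsg.Agent.H17 in
theorem aux_det {K : Type*} [Field K] [Fintype K] {q n : ℕ} (hK : Fintype.card K = q ^ 2) (hn : 1 ≤ n) {u : ↥(Cfsg.GU n K q)}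
    (hu1 : (((u : GL (Fin n) K) : Matrix (Fin n) (Fin n) K) - 1) ^ n = 0) (hu2 : (((u : GL (Fin n) K) : Matrix (Fin n) (Fin n) K) - 1).rank = n - 1) :
    (Subgroup.map (detGU n K q) (Subgroup.centralizer {u})).subgroupOf (detGU n K q).range = (powMonoidHom n : (detGU n K q).range →* _).range := by
  classical
  obtain ⟨σ, hσ, hσ2, hσ1⟩ := Cfsg.Agent.H5.exists_frob hK
  haveI : Nonempty (Fin n) := ⟨⟨0, hn⟩⟩
  have hcard : Fintype.card (Fin n) = n := Fintype.card_fin n
  ext ⟨z, hz⟩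
  rw [Subgroup.mem_subgroupOf, MonoidHom.mem_range]
  constructor
  · rintro ⟨f, hf, hfz⟩
    rw [SetLike.mem_coe, Subgroup.mem_centralizer_singleton_iff] at hf
    have hf' : ((f : GL (Fin n) K) : Matrix (Fin n) (Fin n) K) * (((u : GL (Fin n) K) : Matrix (Fin n) (Fin n) K) - 1) =
        (((u : GL (Fin n) K) : Matrix (Fin n) (Fin n) K) - 1) * ((f : GL (Fin n) K) : Matrix (Fin n) (Fin n) K) := by
      rw [mul_sub, sub_mul, mul_one, one_mul]
      congr 1
      exact congrArg (fun g : ↥(Cfsg.GU n K q) => ((g : GL (Fin n) K) : Matrix (Fin n) (Fin n) K)) hf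
    obtain ⟨c, hc⟩ := reg_comm hcard hn hu1 hu2 hf'
    set M : Matrix (Fin n) (Fin n) K := ((f : GL (Fin n) K) : Matrix (Fin n) (Fin n) K) with hM
    have hdet := det_of_nilp hc
    have hMu : IsUnit M := (f : GL (Fin n) K).isUnit
    have hc0 : c ≠ 0 := by
      rintro rfl
      have h1 : M.det = 0 := by rw [hdet, hcard, zero_pow (by omega)]
      exact ((Matrix.isUnit_iff_isUnit_det M).mp hMu).ne_zero h1
    have hsM : sT n σ M * M = 1 := (mem_GU_sT hσ hσ2 _).mp f.2
    have hMs : M * sT n σ M = 1 := mul_eq_one_comm.mp hsM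
    -- `sT M - σ c` is nilpotent
    have h1 : IsNilpotent (sT n σ M - Matrix.scalar (Fin n) (σ c)) := by
      obtain ⟨k, hk⟩ := hc
      refine ⟨k, ?_⟩
      have e1 : sT n σ M - Matrix.scalar (Fin n) (σ c) = sT n σ (M - Matrix.scalar (Fin n) c) := by
        rw [← sT_scalar]
        unfold sT
        rw [← Matrix.transpose_sub]
        congr 1
        ext i j
        rw [Matrix.sub_apply, Matrix.map_apply, Matrix.map_apply, Matrix.map_apply, Matrix.sub_apply, map_sub]
      have e2 : ∀ X : Matrix (Fin n) (Fin n) K, sT n σ X ^ k = sT n σ (X ^ k) := by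
        intro X
        unfold sT
        rw [← Matrix.transpose_pow]
        congr 1
        exact (map_pow (RingHom.mapMatrix σ) X k).symm
      rw [e1, e2, hk]
      unfold sT
      rw [Matrix.map_zero _ (map_zero σ), Matrix.transpose_zero]
    -- `sT M - c⁻¹` is nilpotent
    have h2 : IsNilpotent (sT n σ M - Matrix.scalar (Fin n) (c⁻¹)) := by
      have e1 : sT n σ M - Matrix.scalar (Fin n) (c⁻¹) = (-(Matrix.scalar (Fin n) c⁻¹ * sT n σ M)) * (M - Matrix.scalar (Fin n) c) := by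
        rw [mul_sub, neg_mul, neg_mul, mul_assoc, hsM, mul_one, mul_assoc, (Matrix.scalar_commute c (fun r => mul_comm _ _) (sT n σ M)).symm.eq, ← mul_assoc,
          ← map_mul, inv_mul_cancel₀ hc0, map_one, one_mul]
        abel
      rw [e1]
      apply Commute.isNilpotent_mul_left
      · have c1 : Commute (sT n σ M) M := by
          show sT n σ M * M = M * sT n σ M
          rw [hsM, hMs]
        have c2 : ∀ (a : K) (X : Matrix (Fin n) (Fin n) K), Commute (Matrix.scalar (Fin n) a) X := fun a X => Matrix.scalar_commute a (fun r => mul_comm _ _) X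
        exact (((c2 _ _).mul_left (c1.sub_right (c2 _ _).symm)).neg_left)
      · exact hc
    have h3 : IsNilpotent (Matrix.scalar (Fin n) (c⁻¹ - σ c)) := by
      have e1 : Matrix.scalar (Fin n) (c⁻¹ - σ c) = (sT n σ M - Matrix.scalar (Fin n) (σ c)) - (sT n σ M - Matrix.scalar (Fin n) (c⁻¹)) := by
        rw [map_sub]; abel
      rw [e1]
      refine Commute.isNilpotent_sub ?_ h1 h2
      have c2 : ∀ (a : K) (X : Matrix (Fin n) (Fin n) K), Commute (Matrix.scalar (Fin n) a) X := fun a X => Matrix.scalar_commute a (fun r => mul_comm _ _) X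
      exact ((Commute.refl _).sub_right (c2 _ _).symm).sub_left (c2 _ _)
    have h4 : c⁻¹ = σ c := sub_eq_zero.mp (scalar_nilp h3)
    have h5 : σ c * c = 1 := by rw [← h4, inv_mul_cancel₀ hc0]
    refine ⟨⟨unitOfNorm h5, (detGU_range hσ hn _).mpr h5⟩, ?_⟩
    apply Subtype.ext
    apply Units.ext
    show ((unitOfNorm h5 : Kˣ) ^ n : Kˣ).val = z.val
    rw [Units.val_pow_eq_pow_val]
    show c ^ n = (z : K)
    have h6 : ((detGU n K q f : Kˣ) : K) = (z : K) := congrArg Units.val hfz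
    rw [← h6, detGU_apply, ← hM, hdet, hcard]
  · rintro ⟨⟨c, hc⟩, hcz⟩
    have h5 : σ (c : K) * c = 1 := (detGU_range hσ hn c).mp hc
    have hz' : z = c ^ n := (congrArg Subtype.val hcz).symm
    let s : GL (Fin n) K := Units.map (Matrix.scalar (Fin n) : K →+* _).toMonoidHom c
    have hs : (s : Matrix (Fin n) (Fin n) K) = Matrix.scalar (Fin n) (c : K) := rfl
    have hsGU : s ∈ Cfsg.GU n K q := by
      rw [mem_GU_sT hσ hσ2, hs, sT_scalar, ← map_mul, h5, map_one]
    refine ⟨⟨s, hsGU⟩, ?_, ?_⟩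
    · rw [SetLike.mem_coe, Subgroup.mem_centralizer_singleton_iff]
      apply Subtype.ext
      apply Units.ext
      exact (Matrix.scalar_commute (c : K) (fun r => mul_comm _ _) ((u : GL (Fin n) K) : Matrix (Fin n) (Fin n) K)).eq
    · show detGU n K q ⟨s, hsGU⟩ = z
      apply Units.ext
      rw [detGU_apply, hz']
      show (Matrix.scalar (Fin n) (c : K)).det = _
      rw [Matrix.scalar_apply, Matrix.det_diagonal, Finset.prod_const, Finset.card_univ, hcard, Units.val_pow_eq_pow_val]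

/-- Regular unipotent classes of SU_n(q), n ≥ 2: the elements u of the special unitary group (isometries of Σ u_i v_i^q of determinant one over the field with q² elements) with (u − 1)^n = 0 and rank(u − 1) = n − 1 form exactly gcd(n, q + 1) conjugacy classes of SU_n(q). -/
theorem result {K : Type*} [Field K] [Fintype K] {q n : ℕ} (hK : Fintype.card K = q ^ 2) (hn : 2 ≤ n) : Nat.card {C : ConjClasses ↥(Cfsg.SU n K q) // ∃ u : ↥(Cfsg.SU n K q), ConjClasses.mk u = C ∧ (((u : GL (Fin n) K) : Matrix (Fin n) (Fin n) K) - 1) ^ n = 0 ∧ (((u : GL (Fin n) K) : Matrix (Fin n) (Fin n) K) - 1).rank = n - 1} = Nat.gcd n (q + 1) := by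
  classical
  obtain ⟨σ, hσ, hσ2, hσ1⟩ := Cfsg.Agent.H5.exists_frob hK
  have hn1 : 1 ≤ n := by omega
  have hcard : Fintype.card (Fin n) = n := Fintype.card_fin n
  obtain ⟨A, hA1, hA2⟩ := aux_exists_reg K n hn1
  obtain ⟨u, hu⟩ := Cfsg.Agent.H17.gu_unip hK (A := A) ⟨n, hA1⟩
  -- invariance of the property
  let P : ↥(Cfsg.GU n K q) → Prop := fun g => (((g : GL (Fin n) K) : Matrix (Fin n) (Fin n) K) - 1) ^ n = 0 ∧ (((g : GL (Fin n) K) : Matrix (Fin n) (Fin n) K) - 1).rank = n - 1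
  have hconj : ∀ (c B : GL (Fin n) K), ((B : Matrix (Fin n) (Fin n) K) - 1) ^ n = 0 ∧ ((B : Matrix (Fin n) (Fin n) K) - 1).rank = n - 1 →
      (((c * B * c⁻¹ : GL (Fin n) K) : Matrix (Fin n) (Fin n) K) - 1) ^ n = 0 ∧ (((c * B * c⁻¹ : GL (Fin n) K) : Matrix (Fin n) (Fin n) K) - 1).rank = n - 1 := by
    intro c B hB
    have e1 : ((c * B * c⁻¹ : GL (Fin n) K) : Matrix (Fin n) (Fin n) K) - 1 = (c : Matrix (Fin n) (Fin n) K) * ((B : Matrix (Fin n) (Fin n) K) - 1) * ((c⁻¹ : GL (Fin n) K) : Matrix (Fin n) (Fin n) K) := by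
      rw [Units.val_mul, Units.val_mul, mul_sub, sub_mul, mul_one, ← Units.val_mul c c⁻¹, mul_inv_cancel, Units.val_one]
    rw [e1]
    refine ⟨?_, ?_⟩
    · rw [Units.conj_pow, hB.1, mul_zero, zero_mul]
    · rw [Matrix.rank_mul_eq_left_of_isUnit_det _ _ ((Matrix.isUnit_iff_isUnit_det _).mp (c⁻¹).isUnit), Matrix.rank_mul_eq_right_of_isUnit_det _ _ ((Matrix.isUnit_iff_isUnit_det _).mp c.isUnit), hB.2]
  have hPu : P u := by
    obtain ⟨c, hc⟩ := isConj_iff.mp hu
    show (((u : GL (Fin n) K) : Matrix (Fin n) (Fin n) K) - 1) ^ n = 0 ∧ (((u : GL (Fin n) K) : Matrix (Fin n) (Fin n) K) - 1).rank = n - 1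
    rw [← hc]
    exact hconj c A ⟨hA1, hA2⟩
  let ι : ↥(Cfsg.SU n K q) →* ↥(Cfsg.GU n K q) :=
    { toFun := fun g => ⟨Matrix.SpecialLinearGroup.toGL (g : Matrix.SpecialLinearGroup (Fin n) K), g.2⟩
      map_one' := Subtype.ext (map_one _)
      map_mul' := fun a b => Subtype.ext (map_mul _ _ _) }
  have hιval : ∀ g : ↥(Cfsg.SU n K q), (((ι g : ↥(Cfsg.GU n K q)) : GL (Fin n) K) : Matrix (Fin n) (Fin n) K) = ((g : Matrix.SpecialLinearGroup (Fin n) K) : Matrix (Fin n) (Fin n) K) := fun _ => rfl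
  have key := Cfsg.Agent.H17.class_split (Cfsg.Agent.H5.detGU n K q) ι (by
      intro g h hgh
      apply Subtype.ext
      apply Subtype.ext
      rw [← hιval, ← hιval, hgh]) (by
      ext g
      rw [MonoidHom.mem_range, MonoidHom.mem_ker]
      constructor
      · rintro ⟨h, rfl⟩
        apply Units.ext
        rw [Cfsg.Agent.H5.detGU_apply]
        exact (h : Matrix.SpecialLinearGroup (Fin n) K).2
      · intro hg
        have h1 : ((g : GL (Fin n) K) : Matrix (Fin n) (Fin n) K).det = 1 := congrArg Units.val hg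
        refine ⟨⟨⟨g.1.1, h1⟩, g.2⟩, ?_⟩
        apply Subtype.ext
        apply Units.ext
        rfl) P (by
      intro g hg
      apply Units.ext
      rw [Cfsg.Agent.H5.detGU_apply]
      have h1 := Cfsg.Agent.H17.det_of_nilp (C := ((g : GL (Fin n) K) : Matrix (Fin n) (Fin n) K)) (c := 1) (by
        rw [map_one]; exact ⟨n, hg.1⟩)
      rw [h1, one_pow, Units.val_one]) (by
      intro g v hv
      exact hconj g v hv) (by
      intro g g' hg hg'
      rw [Cfsg.Agent.H17.gu_conj hK]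
      exact Cfsg.Agent.H17.unip_conj_rank ⟨n, hg.1⟩ ⟨n, hg'.1⟩ (fun t => by
        rw [Cfsg.Agent.H17.reg_rank_pow hcard hg.1 hg.2, Cfsg.Agent.H17.reg_rank_pow hcard hg'.1 hg'.2])) hPu
  have key2 : Nat.card {C : ConjClasses ↥(Cfsg.SU n K q) // ∃ u : ↥(Cfsg.SU n K q), ConjClasses.mk u = C ∧ (((u : GL (Fin n) K) : Matrix (Fin n) (Fin n) K) - 1) ^ n = 0 ∧ (((u : GL (Fin n) K) : Matrix (Fin n) (Fin n) K) - 1).rank = n - 1} =
      (Subgroup.map (Cfsg.Agent.H5.detGU n K q) (Subgroup.centralizer {u})).relIndex (Cfsg.Agent.H5.detGU n K q).range := key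
  rw [key2, Subgroup.relIndex, aux_det hK hn1 hPu.1 hPu.2, IsCyclic.index_powMonoidHom_range, Cfsg.Agent.H5.card_detGU_range hK hσ hn1, Nat.gcd_comm]

end Cfsg.Agent.S2643
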