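import Cfsg.Statements.S2646
import Cfsg.Agent.H17.UcG
import Cfsg.Agent.H5.UnitOrder

set_option autoImplicit false
open Cfsg

namespace Cfsg.Agent.S2646

open Cfsg.Agent Cfsg.Agent.H17

/-- Order of the centraliser in the general unitary group GU_n(q) of a unipotent element of given Jordan type: if u ∈ GU_n(q) (isometries of Σ u_i v_i^q over the field with q² elements) is similar to the unipotent matrix with a_i Jordan blocks of size i (all sizes at least 1), then its centraliser in GU_n(q) has order q^γ · Π_i |GU_(a_i)(q)| with γ = 2 Σ_(i<j) i a_i a_j + Σ_i (i − 1) a_i², the same exponent as in GL_n(q), where |GU_a(q)| = q^(a(a−1)/2) Π_(k=1)^a (q^k − (−1)^k). -/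
theorem result {K : Type*} [Field K] [Fintype K] {q n t : ℕ} (hK : Fintype.card K = q ^ 2) (d : Fin t → ℕ) (hd : ∀ k, 1 ≤ d k) (e : ((k : Fin t) × Fin (d k)) ≃ Fin n) (u : ↥(Cfsg.GU n K q)) (hu : IsConj (Matrix.reindex e e (Cfsg.jordanTypeMatrix d K)) ((u : GL (Fin n) K) : Matrix (Fin n) (Fin n) K)) : (Nat.card ↥(Subgroup.centralizer ({u} : Set ↥(Cfsg.GU n K q))) : ℤ) = (q : ℤ) ^ (2 * (∑ i ∈ Finset.range (Finset.univ.sup d + 1), ∑ j ∈ Finset.range (Finset.univ.sup d + 1), if i < j then i * (Finset.univ.filter (fun k : Fin t => d k = i)).card * (Finset.univ.filter (fun k : Fin t => d k = j)).card else 0) + ∑ i ∈ Finset.range (Finset.univ.sup d + 1), (i - 1) * (Finset.univ.filter (fun k : Fin t => d k = i)).card ^ 2) * ∏ i ∈ Finset.range (Finset.univ.sup d + 1), ((q : ℤ) ^ ((Finset.univ.filter (fun k : Fin t => d k = i)).card * ((Finset.univ.filter (fun k : Fin t => d k = i)).card - 1) / 2) * ∏ j : Fin (Finset.univ.filter (fun k : Fin t => d k = i)).card, ((q : ℤ)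 ^ ((j : ℕ) + 1) - (-1) ^ ((j : ℕ) + 1))) := by
  classical
  obtain ⟨c, hc1, hc2⟩ := gu_cent hK hd e u hu
  have hq : 1 ≤ q := by
    by_contra h
    have h1 : q = 0 := by omega
    have h2 : 0 < Fintype.card K := Fintype.card_pos
    rw [hK, h1] at h2
    omega
  have hn : ∀ k, d k < Finset.univ.sup d + 1 := fun k => Nat.lt_succ_of_le (Finset.le_sup (Finset.mem_univ k))
  rw [exp_eq d hd _ hn, hK] at hc1
  rw [Finset.sum_range (fun i => (Finset.univ.filter (fun k : Fin t => d k = i)).card ^ 2), pow_add] at hc1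
  have hBpos : 0 < (q ^ 2) ^ (∑ a : Fin (Finset.univ.sup d + 1), (Finset.univ.filter (fun k : Fin t => d k = a)).card ^ 2) :=
    pow_pos (pow_pos (by omega) 2) _
  have hc3 := Nat.eq_of_mul_eq_mul_right hBpos hc1
  rw [← pow_mul, mul_comm 2, pow_mul] at hc3
  have hc4 := Nat.pow_left_injective (n := 2) (by norm_num) hc3
  have hcpos : 0 < c := by
    have h0 : c = _ := hc4
    rw [h0]
    exact pow_pos (by omega) _
  have hX : Nat.card ↥(Subgroup.centralizer ({u} : Set ↥(Cfsg.GU n K q))) =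
      c * ∏ a : Fin (Finset.univ.sup d + 1), Nat.card ↥(Cfsg.GU (Finset.univ.filter (fun k : Fin t => d k = a)).card K q) := by
    apply Nat.eq_of_mul_eq_mul_right (pow_pos hcpos 2)
    rw [hc2]
    ring
  have hGU : ∀ m : ℕ, (Nat.card ↥(Cfsg.GU m K q) : ℤ) = (q : ℤ) ^ (m * (m - 1) / 2) * ∏ j : Fin m, ((q : ℤ) ^ ((j : ℕ) + 1) - (-1) ^ ((j : ℕ) + 1)) := by
    intro m
    rw [Cfsg.Agent.H5.card_GU hK m]
    unfold Cfsg.Agent.H5.ordU
    push_cast
    rw [Finset.prod_range]
    congr 1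
    refine Finset.prod_congr rfl fun i _ => ?_
    split_ifs with hi
    · rw [Odd.neg_one_pow (hi.add_one)]
      push_cast
      ring
    · rw [Even.neg_one_pow ((Nat.not_even_iff_odd.mp hi).add_one), Nat.cast_sub (Nat.one_le_pow _ _ hq)]
      push_cast
      ring
  rw [hX, Nat.cast_mul, Nat.cast_prod, Finset.prod_congr rfl (fun a _ => hGU _), Finset.prod_range]
  congr 1
  have h0 : c = _ := hc4
  rw [h0, Nat.cast_pow]

end Cfsg.Agent.S2646
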