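import Cfsg.Statements.S2666

set_option autoImplicit false
open Cfsg

namespace Cfsg.Agent.S2666

/-- Shintani descent, in an abstract form. Let `σ` be an automorphism of a group `X` such that the maps `a ↦ a·σ(a)⁻¹` and `a ↦ a·σᵉ(a)⁻¹` are surjective on `X` (the Lang–Steinberg property, which holds when `X` is a connected algebraic group and `σ` a Steinberg endomorphism), where `e ≥ 1`. Write `G` for the subgroup of fixed points of `σᵉ` and `H` for the subgroup of fixed points of `σ`. The `G`-conjugacy classes in the coset `G σ` of the semidirect product of `G` by `σ` correspond to the orbits of `G` on itself under twisted conjugation `g ↦ k g σ(k)⁻¹`, and the `e`-th power of `g σ` has `G`-part the norm `g σ(g) ⋯ σ^(e-1)(g)`. For `g` in `G` and any `a` with `g = a σ(a)⁻¹`, put `x = σᵉ(a)⁻¹ a`. Then: (1) `x` lies in `H`, and `a⁻¹ · (g σ(g) ⋯ σ^(e-1)(g)) · a = x`; (2) for `g, g'` in `G` with such elements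 `a, b` and `x, x'`, the elements `g, g'` are twisted-conjugate under `G` if and only if `x, x'` are conjugate in `H`; (3) every element of `H` arises as such an `x`. So `g ↦ x` induces a well-defined bijection from the twisted `G`-classes of `G` onto the conjugacy classes of `H` (the Shintani map). -/
theorem result {X : Type*} [Group X] (σ : MulAut X) (e : ℕ) (he : 1 ≤ e)
    (hL : ∀ g : X, ∃ a : X, g = a * (σ a)⁻¹) (hLe : ∀ g : X, ∃ a : X, g = a * ((σ ^ e) a)⁻¹) :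
    (∀ g ∈ (MulEquiv.toMonoidHom (σ ^ e)).eqLocus (MonoidHom.id X), ∀ a : X, g = a * (σ a)⁻¹ →
        ((σ ^ e) a)⁻¹ * a ∈ (MulEquiv.toMonoidHom σ).eqLocus (MonoidHom.id X) ∧
          a⁻¹ * ((List.range e).map (fun i => (σ ^ i) g)).prod * a = ((σ ^ e) a)⁻¹ * a) ∧
    (∀ g ∈ (MulEquiv.toMonoidHom (σ ^ e)).eqLocus (MonoidHom.id X), ∀ g' ∈ (MulEquiv.toMonoidHom (σ ^ e)).eqLocus (MonoidHom.id X), ∀ a b : X,
        g = a * (σ a)⁻¹ → g' = b * (σ b)⁻¹ →
          ((∃ k ∈ (MulEquiv.toMonoidHom (σ ^ e)).eqLocus (MonoidHom.id X), g' = k * g * (σ k)⁻¹) ↔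
            (∃ h ∈ (MulEquiv.toMonoidHom σ).eqLocus (MonoidHom.id X), ((σ ^ e) b)⁻¹ * b = h * (((σ ^ e) a)⁻¹ * a) * h⁻¹))) ∧
    (∀ x ∈ (MulEquiv.toMonoidHom σ).eqLocus (MonoidHom.id X), ∃ g ∈ (MulEquiv.toMonoidHom (σ ^ e)).eqLocus (MonoidHom.id X), ∃ a : X,
        g = a * (σ a)⁻¹ ∧ ((σ ^ e) a)⁻¹ * a = x) := by
  have hmem : ∀ (τ : MulAut X) (y : X), y ∈ (MulEquiv.toMonoidHom τ).eqLocus (MonoidHom.id X) ↔ τ y = y := fun τ y => Iff.rfl
  simp only [hmem]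
  have hcomm : ∀ m n : ℕ, ∀ y : X, (σ ^ m) ((σ ^ n) y) = (σ ^ n) ((σ ^ m) y) := by
    intro m n y
    rw [← MulAut.mul_apply, ← MulAut.mul_apply, ← pow_add, ← pow_add, add_comm]
  have hprod : ∀ g a : X, g = a * (σ a)⁻¹ → ∀ n : ℕ, ((List.range n).map (fun i => (σ ^ i) g)).prod = a * ((σ ^ n) a)⁻¹ := by
    intro g a ha n
    induction n with
    | zero => simp
    | succ n ih =>
      rw [List.range_succ, List.map_append, List.prod_append, ih]
      simp only [List.map_cons, List.map_nil, List.prod_cons, List.prod_nil, mul_one]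
      rw [ha, map_mul, map_inv, pow_succ, MulAut.mul_apply]
      group
  have hs : ∀ a : X, (σ ^ e) (σ a) = σ ((σ ^ e) a) := by
    intro a
    have := hcomm e 1 a
    simpa using this
  have hx : ∀ g a : X, g = a * (σ a)⁻¹ → ((σ ^ e) g = g ↔ σ (((σ ^ e) a)⁻¹ * a) = ((σ ^ e) a)⁻¹ * a) := by
    intro g a ha
    rw [ha, map_mul, map_inv, hs, map_mul, map_inv]
    constructor
    · intro h1
      have h2 : ((σ ^ e) a)⁻¹ = (σ ((σ ^ e) a))⁻¹ * σ a * a⁻¹ := by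
        have h3 : (σ ((σ ^ e) a))⁻¹ = ((σ ^ e) a)⁻¹ * (a * (σ a)⁻¹) := by rw [← h1]; group
        rw [h3]; group
      rw [h2]
      group
    · intro h1
      have h2 : (σ ((σ ^ e) a))⁻¹ = ((σ ^ e) a)⁻¹ * a * (σ a)⁻¹ := by rw [← h1]; group
      rw [h2]; group
  have hfixn : ∀ x : X, σ x = x → ∀ n : ℕ, (σ ^ n) x = x := by
    intro x hx n
    induction n with
    | zero => simp
    | succ n ih => rw [pow_succ, MulAut.mul_apply, hx, ih]
  refine ⟨?_, ?_, ?_⟩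
  · intro g hg a ha
    refine ⟨(hx g a ha).1 hg, ?_⟩
    rw [hprod g a ha e]; group
  · intro g hg g' hg' a b ha hb
    constructor
    · rintro ⟨k, hk, hkg⟩
      -- g' = k g σ(k)⁻¹, b σ(b)⁻¹ = k a σ(a)⁻¹σ(k)⁻¹; h := b⁻¹ k a fixed by σ
      refine ⟨b⁻¹ * k * a, ?_, ?_⟩
      · rw [map_mul, map_mul, map_inv]
        have h1 : b * (σ b)⁻¹ = k * (a * (σ a)⁻¹) * (σ k)⁻¹ := by rw [← hb, hkg, ha]
        have h2 : (σ b)⁻¹ = b⁻¹ * (k * (a * (σ a)⁻¹) * (σ k)⁻¹) := by rw [← h1]; group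
        rw [h2]; group
      · have h0 : σ (b⁻¹ * k * a) = b⁻¹ * k * a := by
          rw [map_mul, map_mul, map_inv]
          have h1 : b * (σ b)⁻¹ = k * (a * (σ a)⁻¹) * (σ k)⁻¹ := by rw [← hb, hkg, ha]
          have h2 : (σ b)⁻¹ = b⁻¹ * (k * (a * (σ a)⁻¹) * (σ k)⁻¹) := by rw [← h1]; group
          rw [h2]; group
        have h3 := hfixn _ h0 e
        rw [map_mul, map_mul, map_inv, hk] at h3
        have h4 : ((σ ^ e) b)⁻¹ = b⁻¹ * k * a * ((σ ^ e) a)⁻¹ * k⁻¹ := by rw [← h3]; group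
        rw [h4]; group
    · rintro ⟨h, hh, hbh⟩
      refine ⟨b * h * a⁻¹, ?_, ?_⟩
      · rw [map_mul, map_mul, map_inv, hfixn h hh e]
        have h1 : ((σ ^ e) b) = b * (h * (((σ ^ e) a)⁻¹ * a) * h⁻¹)⁻¹ := by rw [← hbh]; group
        rw [h1]; group
      · rw [map_mul, map_mul, map_inv, hh, ha, hb]; group
  · intro x hxx
    obtain ⟨a, ha⟩ := hLe x⁻¹
    -- x⁻¹ = a (σ^e a)⁻¹ ; want (σ^e b)⁻¹ b = x.  take b = a⁻¹·...
    -- choose b with x = (σ^e b)⁻¹ b: x⁻¹ = b⁻¹ σ^e b, so take b with b⁻¹ = c, x⁻¹ = c (σ^e c)⁻¹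
    have h1 : ((σ ^ e) a⁻¹)⁻¹ * a⁻¹ = x := by
      have : x = (a * ((σ ^ e) a)⁻¹)⁻¹ := by rw [← ha]; simp
      rw [this, map_inv]; group
    refine ⟨a⁻¹ * (σ a⁻¹)⁻¹, ?_, a⁻¹, rfl, h1⟩
    rw [hx _ _ rfl, h1]; exact hxx

end Cfsg.Agent.S2666
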