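import Cfsg.Statements.S2667

set_option autoImplicit false
open Cfsg

namespace Cfsg.Agent.S2667

/-- Shintani descent, in an abstract form. Let `σ` be an automorphism of a group `X` and `e ≥ 1` (no surjectivity of the Lang maps is needed for this part; in the classical setting `X` is a connected algebraic group and `σ` a Steinberg endomorphism). Write `G` for the subgroup of fixed points of `σᵉ` and `H` for the subgroup of fixed points of `σ`. The `G`-conjugacy classes in the coset `G σ` of the semidirect product of `G` by `σ` correspond to the orbits of `G` on itself under twisted conjugation `g ↦ k g σ(k)⁻¹`, and the `e`-th power of `g σ` has `G`-part the norm `g σ(g) ⋯ σ^(e-1)(g)`. For `g` in `G` and any `a` with `g = a σ(a)⁻¹`, put `x = σᵉ(a)⁻¹ a`. Then conjugation by `a⁻¹` carries the twisted centralizer `{k ∈ G : k g σ(k)⁻¹ = g}` (the centralizer of `g σ` in `G`) exactly onto the centralizer of `x` in `H`: an element `k` of `X` lies in `G`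 and satisfies `k g σ(k)⁻¹ = g` if and only if `a⁻¹ k a` lies in `H` and commutes with `x`. In particular the two centralizers are conjugate in `X` and have the same order. -/
theorem result {X : Type*} [Group X] (σ : MulAut X) (e : ℕ) (he : 1 ≤ e)
    (g : X) (hg : g ∈ (MulEquiv.toMonoidHom (σ ^ e)).eqLocus (MonoidHom.id X)) (a : X) (ha : g = a * (σ a)⁻¹) (k : X) :
    (k ∈ (MulEquiv.toMonoidHom (σ ^ e)).eqLocus (MonoidHom.id X) ∧ k * g * (σ k)⁻¹ = g) ↔
      (a⁻¹ * k * a ∈ (MulEquiv.toMonoidHom σ).eqLocus (MonoidHom.id X) ∧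
        (a⁻¹ * k * a) * (((σ ^ e) a)⁻¹ * a) = (((σ ^ e) a)⁻¹ * a) * (a⁻¹ * k * a)) := by
  have hmem : ∀ (τ : MulAut X) (y : X), y ∈ (MulEquiv.toMonoidHom τ).eqLocus (MonoidHom.id X) ↔ τ y = y := fun τ y => Iff.rfl
  simp only [hmem] at hg ⊢
  have hs : (σ ^ e) (σ a) = σ ((σ ^ e) a) := by
    rw [← MulAut.mul_apply, ← MulAut.mul_apply, ← pow_succ, ← pow_succ']
  -- x = (σ^e a)⁻¹ a is fixed by σ
  have hx : σ (((σ ^ e) a)⁻¹ * a) = ((σ ^ e) a)⁻¹ * a := by
    have h1 : (σ ^ e) (a * (σ a)⁻¹) = a * (σ a)⁻¹ := by rw [← ha]; exact hg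
    rw [map_mul, map_inv, hs] at h1
    rw [map_mul, map_inv]
    have h2 : ((σ ^ e) a)⁻¹ = (σ ((σ ^ e) a))⁻¹ * σ a * a⁻¹ := by
      have h3 : (σ ((σ ^ e) a))⁻¹ = ((σ ^ e) a)⁻¹ * (a * (σ a)⁻¹) := by rw [← h1]; group
      rw [h3]; group
    rw [h2]
    group
  constructor
  · rintro ⟨hk, hkg⟩
    have h3 : σ k = g⁻¹ * k * g := by
      have : k * g = g * σ k := by
        calc k * g = k * g * (σ k)⁻¹ * σ k := by group
          _ = g * σ k := by rw [hkg]
      rw [mul_assoc, this]; group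
    have h4 : σ (a⁻¹ * k * a) = a⁻¹ * k * a := by
      rw [map_mul, map_mul, map_inv, h3, ha]; group
    refine ⟨h4, ?_⟩
    have h5 : (σ ^ e) (a⁻¹ * k * a) = a⁻¹ * k * a := by
      have : ∀ n : ℕ, (σ ^ n) (a⁻¹ * k * a) = a⁻¹ * k * a := by
        intro n
        induction n with
        | zero => simp
        | succ n ih => rw [pow_succ, MulAut.mul_apply, h4, ih]
      exact this e
    rw [map_mul, map_mul, map_inv, hk] at h5
    calc a⁻¹ * k * a * (((σ ^ e) a)⁻¹ * a)
        = ((σ ^ e) a)⁻¹ * k * (σ ^ e) a * (((σ ^ e) a)⁻¹ * a) := by rw [h5]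
      _ = ((σ ^ e) a)⁻¹ * a * (a⁻¹ * k * a) := by group
  · rintro ⟨h4, hc⟩
    have h5 : (σ ^ e) (a⁻¹ * k * a) = a⁻¹ * k * a := by
      have : ∀ n : ℕ, (σ ^ n) (a⁻¹ * k * a) = a⁻¹ * k * a := by
        intro n
        induction n with
        | zero => simp
        | succ n ih => rw [pow_succ, MulAut.mul_apply, h4, ih]
      exact this e
    constructor
    · rw [map_mul, map_mul, map_inv] at h5
      have h6 : (σ ^ e) k = (σ ^ e) a * (a⁻¹ * k * a) * ((σ ^ e) a)⁻¹ := by
        rw [← h5]; group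
      have h7 : (a⁻¹ * k * a) * ((σ ^ e) a)⁻¹ = ((σ ^ e) a)⁻¹ * k := by
        calc (a⁻¹ * k * a) * ((σ ^ e) a)⁻¹ = (a⁻¹ * k * a) * (((σ ^ e) a)⁻¹ * a) * a⁻¹ := by group
          _ = (((σ ^ e) a)⁻¹ * a) * (a⁻¹ * k * a) * a⁻¹ := by rw [hc]
          _ = ((σ ^ e) a)⁻¹ * k := by group
      rw [h6, mul_assoc, h7]; group
    · rw [map_mul, map_mul, map_inv] at h4
      have h6 : σ k = σ a * (a⁻¹ * k * a) * (σ a)⁻¹ := by rw [← h4]; group
      rw [h6, ha]; group

end Cfsg.Agent.S2667
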