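import Cfsg.Statements.S2668

set_option autoImplicit false
open Cfsg

namespace Cfsg.Agent.S2668

/-- Shintani descent and powers (abstract form). Let `σ` be an automorphism of a group `X`, `e ≥ 1` and `d ≥ 1`, let `g` be fixed by `σᵉ` and let `a` satisfy `g = a σ(a)⁻¹`, so that the Shintani map of `(X, σ, e)` sends the class of `g σ` to the class of `x = σᵉ(a)⁻¹ a`. Put `h = g σ(g) ⋯ σ^(d-1)(g)`, the part in `X` of the `d`-th power `(g σ)^d = h σ^d`. Then `h = a σ^d(a)⁻¹` (so `a` also serves for `h` with respect to `σ^d`), `h` is fixed by `(σ^d)ᵉ`, and `(σ^d)ᵉ(a)⁻¹ a = x^d`: the Shintani map of `(X, σ^d, e)` sends the class of `(g σ)^d` to the class of `x^d`. (When `d` divides `e`, the Shintani map of `(X, σ^d, e/d)` sends it to the class of `x` itself, since `(σ^d)^(e/d) = σᵉ`.) -/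
theorem result {X : Type*} [Group X] (σ : MulAut X) (e d : ℕ) (he : 1 ≤ e) (hd : 1 ≤ d)
    (g : X) (hg : g ∈ (MulEquiv.toMonoidHom (σ ^ e)).eqLocus (MonoidHom.id X)) (a : X) (ha : g = a * (σ a)⁻¹) :
    ((List.range d).map (fun i => (σ ^ i) g)).prod = a * ((σ ^ d) a)⁻¹ ∧
      ((List.range d).map (fun i => (σ ^ i) g)).prod ∈ (MulEquiv.toMonoidHom ((σ ^ d) ^ e)).eqLocus (MonoidHom.id X) ∧
      (((σ ^ d) ^ e) a)⁻¹ * a = (((σ ^ e) a)⁻¹ * a) ^ d := by
  have hmem : ∀ (τ : MulAut X) (y : X), y ∈ (MulEquiv.toMonoidHom τ).eqLocus (MonoidHom.id X) ↔ τ y = y := fun τ y => Iff.rfl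
  simp only [hmem] at hg ⊢
  have hcomm : ∀ m n : ℕ, ∀ y : X, (σ ^ m) ((σ ^ n) y) = (σ ^ n) ((σ ^ m) y) := by
    intro m n y
    rw [← MulAut.mul_apply, ← MulAut.mul_apply, ← pow_add, ← pow_add, add_comm]
  have hprod : ∀ n : ℕ, ((List.range n).map (fun i => (σ ^ i) g)).prod = a * ((σ ^ n) a)⁻¹ := by
    intro n
    induction n with
    | zero => simp
    | succ n ih =>
      rw [List.range_succ, List.map_append, List.prod_append, ih]
      simp only [List.map_cons, List.map_nil, List.prod_cons, List.prod_nil, mul_one]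
      rw [ha, map_mul, map_inv, pow_succ, MulAut.mul_apply]
      group
  have hs : (σ ^ e) (σ a) = σ ((σ ^ e) a) := by
    have := hcomm e 1 a
    simpa using this
  have hx : σ (((σ ^ e) a)⁻¹ * a) = ((σ ^ e) a)⁻¹ * a := by
    have h1 : (σ ^ e) (a * (σ a)⁻¹) = a * (σ a)⁻¹ := by rw [← ha]; exact hg
    rw [map_mul, map_inv, hs] at h1
    rw [map_mul, map_inv]
    have h2 : ((σ ^ e) a)⁻¹ = (σ ((σ ^ e) a))⁻¹ * σ a * a⁻¹ := by
      have h3 : (σ ((σ ^ e) a))⁻¹ = ((σ ^ e) a)⁻¹ * (a * (σ a)⁻¹) := by rw [← h1]; group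
      rw [h3]; group
    rw [h2]
    group
  have hxn : ∀ n : ℕ, (σ ^ n) (((σ ^ e) a)⁻¹ * a) = ((σ ^ e) a)⁻¹ * a := by
    intro n
    induction n with
    | zero => simp
    | succ n ih => rw [pow_succ, MulAut.mul_apply, hx, ih]
  have hgen : ∀ n : ℕ, (((σ ^ (n * e)) a)⁻¹ * a) = (((σ ^ e) a)⁻¹ * a) ^ n := by
    intro n
    induction n with
    | zero => simp
    | succ n ih =>
      have h1 : σ ^ ((n + 1) * e) = σ ^ (n * e) * σ ^ e := by rw [← pow_add]; ring_nf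
      rw [h1, MulAut.mul_apply, pow_succ, ← ih]
      have h2 := hxn (n * e)
      rw [map_mul, map_inv] at h2
      have h3 : ((σ ^ (n * e)) ((σ ^ e) a))⁻¹ = ((σ ^ e) a)⁻¹ * a * ((σ ^ (n * e)) a)⁻¹ := by
        rw [← h2]; group
      have h4 : ((σ ^ (n * e)) a)⁻¹ * a * (((σ ^ e) a)⁻¹ * a) = (((σ ^ e) a)⁻¹ * a) * (((σ ^ (n * e)) a)⁻¹ * a) := by
        rw [ih]; exact (pow_mul_comm' _ n)
      rw [h3, h4]; group
  refine ⟨hprod d, ?_, ?_⟩
  · rw [hprod d, ← pow_mul, map_mul, map_inv, hcomm]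
    have h1 : (((σ ^ (d * e)) a)⁻¹ * a) = (((σ ^ e) a)⁻¹ * a) ^ d := hgen d
    have h2 : (σ ^ (d * e)) a = a * ((((σ ^ e) a)⁻¹ * a) ^ d)⁻¹ := by rw [← h1]; group
    rw [h2, map_mul, map_inv, map_pow, hxn d]
    group
  · rw [← pow_mul]; exact hgen d

end Cfsg.Agent.S2668
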