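import Cfsg.Statements.S2669

set_option autoImplicit false
open Cfsg

namespace Cfsg.Agent.S2669

/-- Shintani descent preserves numbers of fixed points on coset spaces (abstract form). Let `σ` be an automorphism of a group `X` and `e ≥ 1`; write `G` for the fixed points of `σᵉ` and `H` for the fixed points of `σ`, and assume `G` is finite. Let `Y` be a `σ`-stable subgroup of `X` on which the maps `a ↦ a σ(a)⁻¹` and `a ↦ a σᵉ(a)⁻¹` are surjective (as for a closed connected `σ`-stable subgroup of an algebraic group). Let `g ∈ G`, let `a ∈ X` satisfy `g = a σ(a)⁻¹` and put `x = σᵉ(a)⁻¹ a` (the Shintani image, an element of `H`). The element `g σ` of the semidirect product acts on the cosets of `Y ∩ G` in `G` by `k (Y ∩ G) ↦ g σ(k) (Y ∩ G)`, fixing that coset exactly when `k⁻¹ g σ(k) ∈ Y`; and `x` fixes the coset `h (Y ∩ H)` of `H` exactly when `h⁻¹ x h ∈ Y`. Then the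 two numbers of fixed cosets agree; in cross-multiplied form, `#{k ∈ G : k⁻¹ g σ(k) ∈ Y} · |Y ∩ H| = #{h ∈ H : h⁻¹ x h ∈ Y} · |Y ∩ G|`. -/
theorem result {X : Type*} [Group X] (σ : MulAut X) (e : ℕ) (he : 1 ≤ e)
    [Finite ↥((MulEquiv.toMonoidHom (σ ^ e)).eqLocus (MonoidHom.id X))]
    (Y : Subgroup X) (hY : ∀ y : X, y ∈ Y ↔ σ y ∈ Y)
    (hYL : ∀ y ∈ Y, ∃ a ∈ Y, y = a * (σ a)⁻¹) (hYLe : ∀ y ∈ Y, ∃ a ∈ Y, y = a * ((σ ^ e) a)⁻¹)
    (g : X) (hg : g ∈ (MulEquiv.toMonoidHom (σ ^ e)).eqLocus (MonoidHom.id X)) (a : X) (ha : g = a * (σ a)⁻¹) :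
    Nat.card {k : ↥((MulEquiv.toMonoidHom (σ ^ e)).eqLocus (MonoidHom.id X)) // (k : X)⁻¹ * g * σ k ∈ Y} *
        Nat.card ↥(Y ⊓ (MulEquiv.toMonoidHom σ).eqLocus (MonoidHom.id X)) =
      Nat.card {h : ↥((MulEquiv.toMonoidHom σ).eqLocus (MonoidHom.id X)) // (h : X)⁻¹ * (((σ ^ e) a)⁻¹ * a) * h ∈ Y} *
        Nat.card ↥(Y ⊓ (MulEquiv.toMonoidHom (σ ^ e)).eqLocus (MonoidHom.id X)) := by
  classical
  have hmem : ∀ (τ : MulAut X) (y : X), y ∈ (MulEquiv.toMonoidHom τ).eqLocus (MonoidHom.id X) ↔ τ y = y := fun τ y => Iff.rfl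
  have hcomm : ∀ m n : ℕ, ∀ y : X, (σ ^ m) ((σ ^ n) y) = (σ ^ n) ((σ ^ m) y) := by
    intro m n y
    rw [← MulAut.mul_apply, ← MulAut.mul_apply, ← pow_add, ← pow_add, add_comm]
  have hs : ∀ a : X, (σ ^ e) (σ a) = σ ((σ ^ e) a) := by
    intro a
    have := hcomm e 1 a
    simpa using this
  have hfixn : ∀ x : X, σ x = x → ∀ n : ℕ, (σ ^ n) x = x := by
    intro x hx n
    induction n with
    | zero => simp
    | succ n ih => rw [pow_succ, MulAut.mul_apply, hx, ih]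
  have hYe : ∀ n : ℕ, ∀ y ∈ Y, (σ ^ n) y ∈ Y := by
    intro n
    induction n with
    | zero => intro y hy; simpa using hy
    | succ n ih =>
      intro y hy
      rw [pow_succ, MulAut.mul_apply]
      exact ih _ ((hY y).1 hy)
  set G := (MulEquiv.toMonoidHom (σ ^ e)).eqLocus (MonoidHom.id X) with hG
  set H := (MulEquiv.toMonoidHom σ).eqLocus (MonoidHom.id X) with hH
  have hHG : ∀ h : X, h ∈ H → h ∈ G := by
    intro h hh
    exact (hmem _ _).2 (hfixn h ((hmem _ _).1 hh) e)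
  -- first choice
  have key1 : ∀ k : G, ((k : X)⁻¹ * g * σ k ∈ Y ↔ ∃ h : H, (k : X)⁻¹ * a * h ∈ Y) := by
    intro k
    constructor
    · intro hk
      obtain ⟨y, hy, hyy⟩ := hYL _ hk
      have hb : σ (y⁻¹ * (k : X)⁻¹ * a) = y⁻¹ * (k : X)⁻¹ * a := by
        rw [map_mul, map_mul, map_inv, map_inv]
        rw [ha] at hyy
        have h1 : (σ y)⁻¹ = y⁻¹ * ((k : X)⁻¹ * (a * (σ a)⁻¹) * σ k) := by rw [hyy]; group
        rw [h1]; group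
      refine ⟨⟨(y⁻¹ * (k : X)⁻¹ * a)⁻¹, ?_⟩, ?_⟩
      · exact H.inv_mem ((hmem _ _).2 hb)
      · have : (k : X)⁻¹ * a * (y⁻¹ * (k : X)⁻¹ * a)⁻¹ = y := by group
        show (k : X)⁻¹ * a * (y⁻¹ * (k : X)⁻¹ * a)⁻¹ ∈ Y
        rw [this]; exact hy
    · rintro ⟨h, hh⟩
      have hσh : σ (h : X) = h := (hmem _ _).1 h.2
      have h1 : (k : X)⁻¹ * g * σ k = ((k : X)⁻¹ * a * h) * (σ ((k : X)⁻¹ * a * h))⁻¹ := by
        rw [map_mul, map_mul, map_inv, hσh, ha]; group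
      rw [h1]
      exact Y.mul_mem hh (Y.inv_mem ((hY _).1 hh))
  have key2 : ∀ h : H, ((h : X)⁻¹ * (((σ ^ e) a)⁻¹ * a) * h ∈ Y ↔ ∃ k : G, (k : X)⁻¹ * a * h ∈ Y) := by
    intro h
    have hσh : (σ ^ e) (h : X) = h := (hmem _ _).1 (hHG h h.2)
    constructor
    · intro hh
      obtain ⟨c, hc, hcc⟩ := hYLe _ (Y.inv_mem hh)
      -- (h⁻¹ x h)⁻¹ = c (σ^e c)⁻¹ ; k = a h c
      have hk : (σ ^ e) (a * h * c) = a * h * c := by
        rw [map_mul, map_mul, hσh]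
        have h1 : (σ ^ e) c = ((h : X)⁻¹ * (((σ ^ e) a)⁻¹ * a) * h) * c := by
          have : (h : X)⁻¹ * (((σ ^ e) a)⁻¹ * a) * h = (c * ((σ ^ e) c)⁻¹)⁻¹ := by rw [← hcc]; group
          rw [this]; group
        rw [h1]; group
      refine ⟨⟨a * h * c, (hmem _ _).2 hk⟩, ?_⟩
      have : (a * h * c)⁻¹ * a * h = c⁻¹ := by group
      show (a * h * c)⁻¹ * a * h ∈ Y
      rw [this]; exact Y.inv_mem hc
    · rintro ⟨k, hk⟩
      have hσk : (σ ^ e) (k : X) = k := (hmem _ _).1 k.2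
      have h1 : (h : X)⁻¹ * (((σ ^ e) a)⁻¹ * a) * h = ((σ ^ e) ((k : X)⁻¹ * a * h))⁻¹ * ((k : X)⁻¹ * a * h) := by
        rw [map_mul, map_mul, map_inv, hσh, hσk]; group
      rw [h1]
      exact Y.mul_mem (Y.inv_mem (hYe _ _ hk)) hk
  let T := {p : G × H // (p.1 : X)⁻¹ * a * (p.2 : X) ∈ Y}
  have e1 : Nonempty (T ≃ {k : G // (k : X)⁻¹ * g * σ k ∈ Y} × ↥(Y ⊓ H)) := by
    choose! h0 hh0 using fun (k : G) (hk : (k : X)⁻¹ * g * σ k ∈ Y) => (key1 k).1 hk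
    refine ⟨{ toFun := fun p => (⟨p.1.1, (key1 _).2 ⟨p.1.2, p.2⟩⟩, ⟨((h0 p.1.1 : H) : X)⁻¹ * (p.1.2 : X), ?_, ?_⟩)
              invFun := fun q => ⟨(q.1.1, h0 q.1.1 * ⟨q.2.1, q.2.2.2⟩), ?_⟩
              left_inv := ?_
              right_inv := ?_ }⟩
    · have h1 := hh0 p.1.1 ((key1 _).2 ⟨p.1.2, p.2⟩)
      have h2 := p.2
      have h3 := Y.mul_mem (Y.inv_mem h1) h2
      have h4 : ((p.1.1 : X)⁻¹ * a * ((h0 p.1.1 : H) : X))⁻¹ * ((p.1.1 : X)⁻¹ * a * (p.1.2 : X)) = ((h0 p.1.1 : H) : X)⁻¹ * (p.1.2 : X) := by group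
      rw [h4] at h3
      exact h3
    · exact H.mul_mem (H.inv_mem (h0 p.1.1).2) p.1.2.2
    · have h1 := hh0 q.1.1 q.1.2
      have h2 := Y.mul_mem h1 q.2.2.1
      have h4 : (q.1.1 : X)⁻¹ * a * ((h0 q.1.1 : H) : X) * (q.2.1 : X) = (q.1.1 : X)⁻¹ * a * (((h0 q.1.1 * ⟨q.2.1, q.2.2.2⟩ : H)) : X) := by
        simp [mul_assoc]
      rw [h4] at h2
      exact h2
    · rintro ⟨⟨k, h⟩, hp⟩
      apply Subtype.ext
      apply Prod.ext
      · rfl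
      · apply Subtype.ext
        simp
    · rintro ⟨⟨k, hk⟩, ⟨z, hz⟩⟩
      apply Prod.ext
      · rfl
      · apply Subtype.ext
        simp
  have e2 : Nonempty (T ≃ {h : H // (h : X)⁻¹ * (((σ ^ e) a)⁻¹ * a) * h ∈ Y} × ↥(Y ⊓ G)) := by
    choose! k0 hk0 using fun (h : H) (hh : (h : X)⁻¹ * (((σ ^ e) a)⁻¹ * a) * h ∈ Y) => (key2 h).1 hh
    refine ⟨{ toFun := fun p => (⟨p.1.2, (key2 _).2 ⟨p.1.1, p.2⟩⟩, ⟨(p.1.1 : X)⁻¹ * ((k0 p.1.2 : G) : X), ?_, ?_⟩)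
              invFun := fun q => ⟨(k0 q.1.1 * ⟨q.2.1, q.2.2.2⟩⁻¹, q.1.1), ?_⟩
              left_inv := ?_
              right_inv := ?_ }⟩
    · have h1 := hk0 p.1.2 ((key2 _).2 ⟨p.1.1, p.2⟩)
      have h2 := p.2
      have h3 := Y.mul_mem h2 (Y.inv_mem h1)
      have h4 : ((p.1.1 : X)⁻¹ * a * (p.1.2 : X)) * (((k0 p.1.2 : G) : X)⁻¹ * a * (p.1.2 : X))⁻¹ = (p.1.1 : X)⁻¹ * ((k0 p.1.2 : G) : X) := by group
      rw [h4] at h3
      exact h3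
    · exact G.mul_mem (G.inv_mem p.1.1.2) (k0 p.1.2).2
    · have h1 := hk0 q.1.1 q.1.2
      have h2 := Y.mul_mem q.2.2.1 h1
      have h4 : (q.2.1 : X) * (((k0 q.1.1 : G) : X)⁻¹ * a * (q.1.1 : X)) = (((k0 q.1.1 * ⟨q.2.1, q.2.2.2⟩⁻¹ : G)) : X)⁻¹ * a * (q.1.1 : X) := by
        simp [mul_assoc]
      rw [h4] at h2
      exact h2
    · rintro ⟨⟨k, h⟩, hp⟩
      apply Subtype.ext
      apply Prod.ext
      · apply Subtype.ext
        simp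
      · rfl
    · rintro ⟨⟨k, hk⟩, ⟨z, hz⟩⟩
      apply Prod.ext
      · rfl
      · apply Subtype.ext
        simp
  rw [← Nat.card_prod, ← Nat.card_prod, ← Nat.card_congr e1.some, ← Nat.card_congr e2.some]

end Cfsg.Agent.S2669
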