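import Cfsg.Statements.S2670
import Cfsg.Agent.H17.PgE

set_option autoImplicit false
open Cfsg

namespace Cfsg.Agent.S2670

/-- Number of conjugacy classes of elements of prime order r in PGL_n(q) = GL_n(q)/scalars when r divides q − 1 (n ≥ 2): the classes of elements with a diagonalisable lift correspond to the orbits of the cyclic rotation on the r-tuples of eigenvalue multiplicities (a_0, …, a_(r−1)) summing to n with every a_j < n, and when r divides n there are r − 1 further classes (lifts acting irreducibly on blocks of size r); in all (C(n+r−1, r−1) − r − [r ∣ n])/r + r·[r ∣ n] classes. -/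
theorem result {F : Type*} [Field F] [Fintype F] {q : ℕ} (hF : Fintype.card F = q) {n r : ℕ} (hn : 2 ≤ n) (hr : r.Prime) (hrq : r ∣ q - 1) : Nat.card {C : ConjClasses (GL (Fin n) F ⧸ Subgroup.center (GL (Fin n) F)) // ∃ g : GL (Fin n) F ⧸ Subgroup.center (GL (Fin n) F), ConjClasses.mk g = C ∧ orderOf g = r} = (Nat.choose (n + r - 1) (r - 1) - r - (if r ∣ n then 1 else 0)) / r + r * (if r ∣ n then 1 else 0) := by
  have hrF : (r : F) ≠ 0 := by
    intro h0
    obtain ⟨k, hk⟩ := hrq
    have h1 : (q : F) = 0 := by rw [← hF]; exact FiniteField.cast_card_eq_zero F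
    have h2 : 1 ≤ q := by rw [← hF]; exact Fintype.card_pos
    have h3 : ((q - 1 : ℕ) : F) = 0 := by rw [hk, Nat.cast_mul, h0, zero_mul]
    rw [Nat.cast_sub h2, h1, Nat.cast_one, zero_sub] at h3
    exact one_ne_zero (neg_eq_zero.mp h3)
  have H : Cfsg.Agent.H17.PGD (K := F) n r (⊤ : Subgroup Fˣ) (MonoidHom.id (GL (Fin n) F)) :=
    { inj := fun _ _ h => h
      sc := fun _ _ _ => Subgroup.mem_top _
      conj := fun _ _ h => h
      mono := fun s w _ => ⟨_, rfl⟩
      root := by
        rintro c _ ⟨y, hy⟩
        have hy0 : y ≠ 0 := by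
          rintro rfl
          rw [zero_pow hr.ne_zero] at hy
          exact c.ne_zero hy.symm
        exact ⟨Units.mk0 y hy0, Subgroup.mem_top _, Units.ext hy⟩ }
  exact H.count hr (by
    rw [Subgroup.card_top, Nat.card_units, Nat.card_eq_fintype_card, hF]
    exact hrq) hrF (by omega)

end Cfsg.Agent.S2670
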