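import Cfsg.Statements.S2672
import Cfsg.Agent.H17.PgE
import Cfsg.Agent.H17.GUConj

set_option autoImplicit false
open Cfsg

namespace Cfsg.Agent.S2672

open Cfsg.Agent Cfsg.Agent.H17

/-- Number of conjugacy classes of elements of odd prime order r in PGU_n(q) = GU_n(q)/scalars (n ≥ 3) when r divides q + 1: as in the linear case with q − 1 replaced by q + 1, the classes correspond to the rotation orbits on r-tuples of eigenvalue multiplicities summing to n with every entry < n, plus r − 1 further classes when r divides n; in all (C(n+r−1, r−1) − r − [r ∣ n])/r + r·[r ∣ n]. -/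
theorem result {K : Type*} [Field K] [Fintype K] {q n r : ℕ} (hK : Fintype.card K = q ^ 2) (hn : 3 ≤ n) (hr : r.Prime) (hr2 : r ≠ 2) (hrq : r ∣ q + 1) : Nat.card {C : ConjClasses (↥(Cfsg.GU n K q) ⧸ Subgroup.center ↥(Cfsg.GU n K q)) // ∃ g : ↥(Cfsg.GU n K q) ⧸ Subgroup.center ↥(Cfsg.GU n K q), ConjClasses.mk g = C ∧ orderOf g = r} = (Nat.choose (n + r - 1) (r - 1) - r - (if r ∣ n then 1 else 0)) / r + r * (if r ∣ n then 1 else 0) := by
  haveI : Fact r.Prime := ⟨hr⟩
  obtain ⟨σ, hσ, hσ2, hσ1⟩ := H5.exists_frob hK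
  have hq1 : 2 ≤ q := by
    by_contra h
    have h1 : Fintype.card K ≤ 1 := by
      rw [hK]
      calc q ^ 2 ≤ 1 ^ 2 := Nat.pow_le_pow_left (by omega) 2
        _ = 1 := by norm_num
    have h2 := Fintype.one_lt_card (α := K)
    omega
  have hqK : (q : K) = 0 := by
    have h1 : ((q ^ 2 : ℕ) : K) = 0 := by rw [← hK]; exact FiniteField.cast_card_eq_zero K
    rw [Nat.cast_pow] at h1
    exact pow_eq_zero_iff (two_ne_zero) |>.mp h1
  have hrF : (r : K) ≠ 0 := by
    intro h0
    obtain ⟨k, hk⟩ := hrq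
    have h3 : ((q + 1 : ℕ) : K) = 0 := by rw [hk, Nat.cast_mul, h0, zero_mul]
    rw [Nat.cast_add, hqK, Nat.cast_one, zero_add] at h3
    exact one_ne_zero h3
  have hcop : Nat.Coprime r (q - 1) := by
    rw [Nat.Prime.coprime_iff_not_dvd hr]
    intro h
    have h1 : r ∣ (q + 1) - (q - 1) := Nat.dvd_sub hrq h
    rw [show q + 1 - (q - 1) = 2 by omega] at h1
    exact hr2 ((Nat.prime_dvd_prime_iff_eq hr Nat.prime_two).mp h1)
  let Γ : Subgroup Kˣ := (powMonoidHom (q + 1) : Kˣ →* Kˣ).ker
  have hΓ : ∀ c : Kˣ, c ∈ Γ ↔ c ^ (q + 1) = 1 := fun c => Iff.rfl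
  have hfac : q ^ 2 - 1 = (q + 1) * (q - 1) := by
    have := Nat.sq_sub_sq q 1
    rwa [one_pow] at this
  have hΓc : Nat.card Γ = q + 1 := by
    rw [IsCyclic.card_powMonoidHom_ker, Nat.card_units, Nat.card_eq_fintype_card, hK, hfac]
    exact Nat.gcd_eq_right (Dvd.intro _ rfl)
  have hw2 : ∀ c : Kˣ, c ∈ Γ → σ (c : K) * c = 1 := by
    intro c hc
    rw [hσ, ← pow_succ, ← Units.val_pow_eq_pow_val, (hΓ c).mp hc, Units.val_one]
  have H : Cfsg.Agent.H17.PGD (K := K) n r Γ (Cfsg.GU n K q).subtype :=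
    { inj := Subtype.val_injective
      sc := by
        intro g c hgc
        rw [hΓ]
        have h1 := (mem_GU_sT hσ hσ2 (g : GL (Fin n) K)).mp g.2
        have h2 : (g : GL (Fin n) K) = scG c := hgc
        rw [h2, scG_val] at h1
        have h3 := congrFun (congrFun h1 ⟨0, by omega⟩) ⟨0, by omega⟩
        unfold sT at h3
        rw [Matrix.mul_smul, Matrix.mul_one] at h3
        simp only [Matrix.smul_apply, Matrix.transpose_apply, Matrix.map_apply, Matrix.one_apply_eq, smul_eq_mul, mul_one, hσ] at h3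
        apply Units.ext
        rw [Units.val_pow_eq_pow_val, pow_succ', h3, Units.val_one]
      conj := fun g h hgh => (gu_conj hK g h).mpr hgh
      mono := by
        intro s w hw
        refine ⟨⟨moGL s w, ?_⟩, rfl⟩
        rw [mem_GU_sT hσ hσ2]
        have h1 : sT n σ ((moGL s w : GL (Fin n) K) : Matrix (Fin n) (Fin n) K) = (((moGL s w)⁻¹ : GL (Fin n) K) : Matrix (Fin n) (Fin n) K) := by
          show sT n σ (moM s w) = moM s⁻¹ (fun i => (w (s⁻¹ i))⁻¹)
          ext i j
          show σ (if s j = i then (w j : K) else 0) = if s⁻¹ i = j then (((w (s⁻¹ i))⁻¹ : Kˣ) : K) else 0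
          by_cases hij : s j = i
          · rw [if_pos hij, if_pos (by rw [← hij]; simp)]
            have h5 : s⁻¹ i = j := by rw [← hij]; simp
            rw [h5]
            rw [Units.val_inv_eq_inv_val]
            exact eq_inv_of_mul_eq_one_left (hw2 _ (hw j))
          · rw [if_neg hij, if_neg (by rintro rfl; simp at hij), map_zero]
        rw [h1, ← Units.val_mul, inv_mul_cancel, Units.val_one]
      root := by
        rintro c hc ⟨y, hy⟩
        have hy0 : y ≠ 0 := by
          rintro rfl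
          rw [zero_pow hr.ne_zero] at hy
          exact c.ne_zero hy.symm
        have hyc : (Units.mk0 y hy0) ^ r = c := Units.ext hy
        refine ⟨Units.mk0 y hy0, ?_, hyc⟩
        rw [hΓ]
        have h1 : ((Units.mk0 y hy0) ^ (q + 1)) ^ r = 1 := by
          rw [← pow_mul, mul_comm, pow_mul, hyc, (hΓ c).mp hc]
        have h2 : ((Units.mk0 y hy0) ^ (q + 1)) ^ (q - 1) = 1 := by
          rw [← pow_mul, ← hfac, ← hK, ← Nat.card_eq_fintype_card, ← Nat.card_units]
          exact pow_card_eq_one'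
        have h3 := pow_gcd_eq_one.mpr ⟨h1, h2⟩
        rwa [hcop.gcd_eq_one, pow_one] at h3 }
  exact H.count hr (by rw [hΓc]; exact hrq) hrF (by omega)

end Cfsg.Agent.S2672
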