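import Cfsg.Statements.S2677
import Cfsg.Agent.H6.FcA

set_option autoImplicit false
open Cfsg

namespace Cfsg.Agent.S2677

/-- Centraliser of a field automorphism of odd prime order in PGU_n(q): let q = q₀^r with r an odd prime, K the field with q² elements and σ a field automorphism of K of order r (fixed field of order q₀²). The elements g of GU_n(q) whose entrywise image under σ is a scalar multiple of g — those whose coset modulo the q + 1 unitary scalars is fixed by σ — number (q + 1)/(q₀ + 1) · |GU_n(q₀)|; equivalently the centraliser in PGU_n(q) of the induced automorphism has the order of PGU_n(q₀). -/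
theorem result {K : Type*} [Field K] [Fintype K] {q₀ q r n : ℕ} (hr : r.Prime) (hr2 : r ≠ 2) (hn : 1 ≤ n) (hq : q = q₀ ^ r) (hK : Fintype.card K = q ^ 2) (σ : K ≃+* K) (hσ : orderOf σ = r) : (Nat.card {g : ↥(Cfsg.GU n K q) // ∃ c : K, c ≠ 0 ∧ ((g : GL (Fin n) K) : Matrix (Fin n) (Fin n) K).map σ = c • ((g : GL (Fin n) K) : Matrix (Fin n) (Fin n) K)} : ℤ) = ((q + 1) / (q₀ + 1) : ℕ) * ((q₀ : ℤ) ^ (n * (n - 1) / 2) * ∏ i : Fin n, ((q₀ : ℤ) ^ ((i : ℕ) + 1) - (-1) ^ ((i : ℕ) + 1))) := by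
  classical
  obtain ⟨p, hcp, k, hp, hk⟩ := FiniteField.card' K
  haveI : Fact p.Prime := ⟨hp⟩
  have hr0 : r ≠ 0 := hr.ne_zero
  have hodd : Odd r := hr.odd_of_ne_two hr2
  have hqd : q ∣ p ^ (k : ℕ) := by
    have h1 : p ^ (k : ℕ) = q ^ 2 := by rw [← hK, hk]
    rw [h1]; exact dvd_pow_self q two_ne_zero
  have hq0d : q₀ ∣ p ^ (k : ℕ) := (by rw [hq]; exact dvd_pow_self q₀ hr0 : q₀ ∣ q).trans hqd
  obtain ⟨f0, -, hf0⟩ := (Nat.dvd_prime_pow hp).1 hq0d
  have hqf : q = p ^ (f0 * r) := by rw [hq, hf0, pow_mul]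
  have hf1 : 1 ≤ f0 * r := by
    by_contra hc
    have h0 : f0 * r = 0 := by omega
    rw [h0, pow_zero] at hqf
    have h2 : 1 < Fintype.card K := Fintype.one_lt_card
    rw [hK, hqf] at h2
    omega
  have hfr : f0 * r / r = f0 := Nat.mul_div_cancel _ hr.pos
  have hf01 : f0 ≠ 0 := by rintro rfl; omega
  haveI : Fintype (GaloisField p (2 * (f0 * r / r))) := Fintype.ofFinite _
  have hcard0 : Fintype.card (GaloisField p (2 * (f0 * r / r))) = p ^ (2 * (f0 * r / r)) := by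
    rw [← Nat.card_eq_fintype_card]
    exact GaloisField.card p _ (by rw [hfr]; omega)
  obtain ⟨-, U, hU⟩ := H17.exists_UFix hqf hf1 hK hσ hodd (GaloisField p (2 * (f0 * r / r))) hcard0
  have hq0 : p ^ (f0 * r / r) = q₀ := by rw [hfr, hf0]
  have hcard0' : Fintype.card (GaloisField p (2 * (f0 * r / r))) = (p ^ (f0 * r / r)) ^ 2 := by
    rw [hcard0, mul_comm, pow_mul]
  have key := H6.Fc.card_SS (n := n) (by omega) hK hcard0' U
  obtain ⟨N, hN⟩ : ∃ N, N = Nat.card (H6.Fc.SS n U) := ⟨_, rfl⟩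
  rw [← hN, hq0] at key
  have hSS : Nat.card {g : ↥(Cfsg.GU n K q) // ∃ c : K, c ≠ 0 ∧ ((g : GL (Fin n) K) : Matrix (Fin n) (Fin n) K).map σ = c • ((g : GL (Fin n) K) : Matrix (Fin n) (Fin n) K)} =
      Nat.card (H6.Fc.SS n U) := by
    refine Nat.card_congr (Equiv.subtypeEquivRight fun g => ?_)
    constructor
    · rintro ⟨c, hc, h1⟩
      refine ⟨Units.mk0 c hc, Units.ext ?_⟩
      rw [hU, Units.val_mul, H17.coe_sGL, Matrix.scalar_apply, ← Matrix.smul_eq_diagonal_mul]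
      exact h1
    · rintro ⟨c, hc⟩
      refine ⟨c, c.ne_zero, ?_⟩
      have h1 := congrArg (fun z : GL (Fin n) K => (z : Matrix (Fin n) (Fin n) K)) hc
      simp only [Units.val_mul] at h1
      rw [hU, H17.coe_sGL, Matrix.scalar_apply, ← Matrix.smul_eq_diagonal_mul] at h1
      exact h1
  rw [hSS, ← hN, ← H6.Fc.ordU_eq q₀ n (Nat.one_le_iff_ne_zero.2 (by rw [hf0]; exact pow_ne_zero _ hp.ne_zero))]
  have hdvd : (q₀ + 1) ∣ (q + 1) := by
    have := Odd.nat_add_dvd_pow_add_pow q₀ 1 hodd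
    rwa [one_pow, ← hq] at this
  obtain ⟨d, hd⟩ := hdvd
  have h3 : (q + 1) / (q₀ + 1) = d := by rw [hd, Nat.mul_div_cancel_left _ (Nat.succ_pos _)]
  rw [h3]
  have h4 : N = d * H5.ordU q₀ n := by
    apply Nat.eq_of_mul_eq_mul_right (Nat.succ_pos q₀)
    rw [Nat.succ_eq_add_one, key, hd]; ring
  rw [h4]
  push_cast
  rfl

end Cfsg.Agent.S2677
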