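import Cfsg.Statements.S2678
import Cfsg.Agent.H5.IsoG2
import Cfsg.Agent.H5.PSLEmb

set_option autoImplicit false
open Cfsg

namespace Cfsg.Agent.S2678

open Cfsg.Agent.H5 Module

/-- restriction of scalars -/
noncomputable def rsc {K F : Type*} [Field K] [Field F] [Algebra F K] {a : ℕ} (l : K →ₗ[F] F)
    (B : LinearMap.BilinForm F (Fin a ⊕ Fin a → K)) (hB : ∀ x y, B x y = l (sympB a K x y)) : IsoG (sympB a K) →* IsoG B where
  toFun g := ⟨LinearEquiv.restrictScalars F g.1, fun x y => by
    rw [hB, hB]
    exact congrArg l (g.2 x y)⟩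
  map_one' := Subtype.ext (LinearEquiv.ext (fun _ => rfl))
  map_mul' g h := Subtype.ext (LinearEquiv.ext (fun _ => rfl))

lemma rsc_inj {K F : Type*} [Field K] [Field F] [Algebra F K] {a : ℕ} (l : K →ₗ[F] F)
    (B : LinearMap.BilinForm F (Fin a ⊕ Fin a → K)) (hB : ∀ x y, B x y = l (sympB a K x y)) :
    Function.Injective (rsc l B hB) := by
  intro g h hgh
  apply Subtype.ext
  apply LinearEquiv.ext
  intro x
  exact congrArg (fun e : IsoG B => e.1 x) hgh

/-- Field-extension embedding of symplectic groups: for a field K with q² elements and a field F with q elements there is an injective homomorphism Sp_2a(K) → Sp_4a(F). -/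
theorem result {K F : Type*} [Field K] [Fintype K] [Field F] [Fintype F] {q : ℕ} (hK : Fintype.card K = q ^ 2) (hF : Fintype.card F = q) (a : ℕ) : ∃ φ : ↥(Matrix.symplecticGroup (Fin a) K) →* ↥(Matrix.symplecticGroup (Fin (2 * a)) F), Function.Injective φ := by
  have hc : Nat.card F ^ 2 = Nat.card K := by rw [Nat.card_eq_fintype_card, Nat.card_eq_fintype_card, hK, hF]
  obtain ⟨φ⟩ := exists_ringHom_of_card hc
  letI : Algebra F K := φ.toAlgebra
  have hfin : Module.Finite F K := Module.Finite.of_finite
  have hfr : finrank F K = 2 := by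
    have h1 := Module.card_eq_pow_finrank (K := F) (V := K)
    rw [hK, hF] at h1
    have hq : 2 ≤ q := by rw [← hF]; exact Fintype.one_lt_card
    exact (Nat.pow_right_injective hq h1).symm
  obtain ⟨l, hl⟩ : ∃ l : K →ₗ[F] F, l ≠ 0 := by
    let b := Module.finBasis F K
    refine ⟨b.coord ⟨0, by rw [hfr]; norm_num⟩, fun h => ?_⟩
    have h1 := congrArg (fun l : K →ₗ[F] F => l (b ⟨0, by rw [hfr]; norm_num⟩)) h
    simp at h1
  obtain ⟨k0, hk0⟩ : ∃ k0, l k0 ≠ 0 := by
    by_contra hcon
    push Not at hcon
    exact hl (LinearMap.ext hcon)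
  let B : LinearMap.BilinForm F (Fin a ⊕ Fin a → K) := LinearMap.mk₂ F (fun x y => l (sympB a K x y))
    (fun x y z => by rw [map_add, LinearMap.add_apply, map_add])
    (fun c x y => by
      have h1 : c • x = (algebraMap F K c) • x := by
        funext i
        rw [Pi.smul_apply, Pi.smul_apply, Algebra.smul_def, smul_eq_mul]
      rw [h1, map_smul, LinearMap.smul_apply, smul_eq_mul, ← Algebra.smul_def, map_smul])
    (fun x y z => by rw [map_add, map_add])
    (fun c x y => by
      have h1 : c • y = (algebraMap F K c) • y := by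
        funext i
        rw [Pi.smul_apply, Pi.smul_apply, Algebra.smul_def, smul_eq_mul]
      rw [h1, map_smul, smul_eq_mul, ← Algebra.smul_def, map_smul])
  have hB : ∀ x y, B x y = l (sympB a K x y) := fun x y => rfl
  have hAlt : B.IsAlt := by
    intro x
    rw [hB, sympB_isAlt x, map_zero]
  have hN : ∀ x, (∀ y, B x y = 0) → x = 0 := by
    intro x hx
    apply sympB_nondegenerate.1 x
    intro y
    by_contra h0
    apply hk0
    have h1 := hx ((k0 / sympB a K x y) • y)
    rw [hB, map_smul, smul_eq_mul, div_mul_cancel₀ _ h0] at h1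
    exact h1
  have hV : finrank F (Fin a ⊕ Fin a → K) = 2 * (2 * a) := by
    rw [Module.finrank_pi_fintype]
    simp [hfr]; ring
  obtain ⟨e, he⟩ := exists_symp_iso hAlt hN hV
  refine ⟨(spIso (2 * a) F).symm.toMonoidHom.comp ((isoCongr e he).toMonoidHom.comp ((rsc l B hB).comp (spIso a K).toMonoidHom)), ?_⟩
  apply (spIso (2 * a) F).symm.injective.comp
  apply (isoCongr e he).injective.comp
  exact (rsc_inj l B hB).comp (spIso a K).injective
end Cfsg.Agent.S2678
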