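import Cfsg.Statements.S2679
import Cfsg.Agent.H5.OrthForms
import Cfsg.Agent.H5.PSLEmb

set_option autoImplicit false
open Cfsg

namespace Cfsg.Agent.S2679

open Cfsg.Agent.H5

/-- base change of isometries -/
theorem bc {F K : Type*} [Field F] [Field K] {ι : Type} [Fintype ι] [DecidableEq ι] (φ : F →+* K)
    (QF : QuadraticForm F (ι → F)) (QK : QuadraticForm K (ι → K)) (h : ∀ v : ι → F, QK (fun i => φ (v i)) = φ (QF v)) :
    ∃ f : isometryGroup F ⇑QF →* isometryGroup K ⇑QK, Function.Injective f := by
  have hmul : ∀ (g : Matrix ι ι F) (v : ι → F), (g.map φ).mulVec (fun i => φ (v i)) = fun i => φ (g.mulVec v i) := by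
    intro g v
    funext i
    simp only [Matrix.mulVec, dotProduct, Matrix.map_apply, map_sum, map_mul]
  have hB : ∀ v w : ι → F, pB QK (fun i => φ (v i)) (fun i => φ (w i)) = φ (pB QF v w) := by
    intro v w
    rw [pB_apply, pB_apply, QuadraticMap.polar, QuadraticMap.polar]
    have h1 : ((fun i => φ (v i)) + fun i => φ (w i)) = fun i => φ ((v + w) i) := by
      funext i; simp
    rw [h1, h, h, h, map_sub, map_sub]
  have key : ∀ g : isometryGroup F ⇑QF, Matrix.GeneralLinearGroup.map φ g.1 ∈ isometryGroup K ⇑QK := by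
    intro g
    have hg : ∀ v, QF ((g.1 : Matrix ι ι F).mulVec v) = QF v := fun v => g.2 v v
    have hgB : ∀ v w, pB QF ((g.1 : Matrix ι ι F).mulVec v) ((g.1 : Matrix ι ι F).mulVec w) = pB QF v w := by
      intro v w
      rw [pB_apply, pB_apply, QuadraticMap.polar, QuadraticMap.polar, ← Matrix.mulVec_add, hg, hg, hg]
    have hsing : ∀ i : ι, (fun j => φ ((Pi.single i (1 : F) : ι → F) j)) = (Pi.single i (1 : K) : ι → K) := by
      intro i
      funext j
      by_cases hij : j = i
      · subst hij; simp
      · simp [Pi.single_eq_of_ne hij]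
    -- the polar form is preserved
    let T : (ι → K) →ₗ[K] (ι → K) := Matrix.toLin' ((g.1 : Matrix ι ι F).map φ)
    have hT : ∀ v, T v = ((g.1 : Matrix ι ι F).map φ).mulVec v := fun v => Matrix.toLin'_apply _ _
    have hTs : ∀ i : ι, T (Pi.single i 1) = fun j => φ ((g.1 : Matrix ι ι F).mulVec (Pi.single i 1) j) := by
      intro i
      rw [hT, ← hsing, hmul]
    have hpol : (pB QK).compl₁₂ T T = pB QK := by
      apply LinearMap.pi_ext'
      intro i
      apply LinearMap.ext_ring
      apply LinearMap.pi_ext'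
      intro j
      apply LinearMap.ext_ring
      show pB QK (T (Pi.single i 1)) (T (Pi.single j 1)) = pB QK (Pi.single i 1) (Pi.single j 1)
      rw [hTs, hTs, hB, hgB, ← hsing i, ← hsing j, hB]
    have hpol' : ∀ v w, pB QK (T v) (T w) = pB QK v w := fun v w => by
      have := congrArg (fun B => B v w) hpol
      exact this
    have hq : ∀ v : ι → K, QK (T v) = QK v := by
      intro v
      have h1 : v = ∑ i, v i • (Pi.single i (1 : K) : ι → K) := by
        funext j
        simp [Finset.sum_apply, Pi.single_apply]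
      have h2 : ∀ s : Finset ι, QK (T (∑ i ∈ s, v i • (Pi.single i (1 : K) : ι → K))) = QK (∑ i ∈ s, v i • (Pi.single i (1 : K) : ι → K)) := by
        intro s
        induction s using Finset.induction_on with
        | empty => simp
        | insert i s hi ih =>
          rw [Finset.sum_insert hi, map_add, q_add, q_add, ih, hpol', map_smul, q_smul, q_smul, hTs, h, hg, ← h, hsing]
      rw [h1]
      exact h2 _
    intro u v
    show QK (((Matrix.GeneralLinearGroup.map φ g.1 : Matrix.GeneralLinearGroup ι K) : Matrix ι ι K).mulVec u) = QK u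
    rw [← hq u, hT]
    rfl
  refine ⟨((Matrix.GeneralLinearGroup.map φ).comp (isometryGroup F ⇑QF).subtype).codRestrict _ key, ?_⟩
  intro g g' hgg
  apply Subtype.ext
  apply Units.ext
  have h1 := congrArg (fun x : isometryGroup K ⇑QK => ((x : Matrix.GeneralLinearGroup ι K) : Matrix ι ι K)) hgg
  ext i j
  have h2 := congrFun (congrFun h1 i) j
  exact φ.injective h2

/-- isometric forms have isomorphic groups -/
theorem congr {K : Type*} [Field K] {ι κ : Type} [Fintype ι] [DecidableEq ι] [Fintype κ] [DecidableEq κ]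
    (Q : QuadraticForm K (ι → K)) (Q' : QuadraticForm K (κ → K)) (e : (ι → K) ≃ₗ[K] (κ → K)) (he : ∀ v, Q' (e v) = Q v) :
    ∃ f : isometryGroup K ⇑Q →* isometryGroup K ⇑Q', Function.Injective f := by
  let f : OG Q →* OG Q' :=
    { toFun := fun g => ⟨(e.symm.trans g.1).trans e, fun x => by
        show Q' (e (g.1 (e.symm x))) = Q' x
        rw [he, g.2, ← he, e.apply_symm_apply]⟩
      map_one' := by
        apply og_ext
        intro x
        show e (e.symm x) = x
        exact e.apply_symm_apply x
      map_mul' := by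
        intro g h
        apply og_ext
        intro x
        show e (g.1 (h.1 (e.symm x))) = e (g.1 (e.symm (e (h.1 (e.symm x)))))
        rw [e.symm_apply_apply] }
  have hfi : Function.Injective f := by
    intro g h hgh
    apply og_ext
    intro x
    have h1 : e (g.1 (e.symm (e x))) = e (h.1 (e.symm (e x))) := congrArg (fun k : OG Q' => k.1 (e x)) hgh
    rw [e.symm_apply_apply] at h1
    exact e.injective h1
  exact ⟨(ogEquiv Q').symm.toMonoidHom.comp (f.comp (ogEquiv Q).toMonoidHom),
    (ogEquiv Q').symm.injective.comp (hfi.comp (ogEquiv Q).injective)⟩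

/-- the minus form splits over a field containing two roots -/
theorem split {K : Type*} [Field K] (k : ℕ) {α β a c : K} (hαβ : α ≠ β) (h1 : α + β = -a) (h2 : α * β = c) :
    ∃ e : ((Fin k ⊕ Fin k) ⊕ Fin 2 → K) ≃ₗ[K] (Fin (k + 1) ⊕ Fin (k + 1) → K),
      ∀ v, qPlus (k + 1) K (e v) = qMinus k K a c v := by
  let T : ((Fin k ⊕ Fin k) ⊕ Fin 2 → K) →ₗ[K] (Fin (k + 1) ⊕ Fin (k + 1) → K) :=
    { toFun := fun v => Sum.elim
        (@Fin.snoc k (fun _ => K) (fun j => v (Sum.inl (Sum.inl j))) (v (Sum.inr 0) - α * v (Sum.inr 1)))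
        (@Fin.snoc k (fun _ => K) (fun j => v (Sum.inl (Sum.inr j))) (v (Sum.inr 0) - β * v (Sum.inr 1)))
      map_add' := by
        intro x y
        funext i
        rcases i with i | i
        · refine Fin.lastCases ?_ (fun j => ?_) i
          · simp; ring
          · simp
        · refine Fin.lastCases ?_ (fun j => ?_) i
          · simp; ring
          · simp
      map_smul' := by
        intro r x
        funext i
        rcases i with i | i
        · refine Fin.lastCases ?_ (fun j => ?_) i
          · simp; ring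
          · simp
        · refine Fin.lastCases ?_ (fun j => ?_) i
          · simp; ring
          · simp }
  have t1 : ∀ v j, T v (Sum.inl (Fin.castSucc j)) = v (Sum.inl (Sum.inl j)) := fun v j => by
    show @Fin.snoc k (fun _ => K) (fun j => v (Sum.inl (Sum.inl j))) (v (Sum.inr 0) - α * v (Sum.inr 1)) (Fin.castSucc j) = _
    rw [Fin.snoc_castSucc]
  have t2 : ∀ v, T v (Sum.inl (Fin.last k)) = v (Sum.inr 0) - α * v (Sum.inr 1) := fun v => by
    show @Fin.snoc k (fun _ => K) (fun j => v (Sum.inl (Sum.inl j))) (v (Sum.inr 0) - α * v (Sum.inr 1)) (Fin.last k) = _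
    rw [Fin.snoc_last]
  have t3 : ∀ v j, T v (Sum.inr (Fin.castSucc j)) = v (Sum.inl (Sum.inr j)) := fun v j => by
    show @Fin.snoc k (fun _ => K) (fun j => v (Sum.inl (Sum.inr j))) (v (Sum.inr 0) - β * v (Sum.inr 1)) (Fin.castSucc j) = _
    rw [Fin.snoc_castSucc]
  have t4 : ∀ v, T v (Sum.inr (Fin.last k)) = v (Sum.inr 0) - β * v (Sum.inr 1) := fun v => by
    show @Fin.snoc k (fun _ => K) (fun j => v (Sum.inl (Sum.inr j))) (v (Sum.inr 0) - β * v (Sum.inr 1)) (Fin.last k) = _
    rw [Fin.snoc_last]
  have hinj : Function.Injective T := by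
    rw [injective_iff_map_eq_zero]
    intro v hv
    have e1 : v (Sum.inr 0) - α * v (Sum.inr 1) = 0 := by rw [← t2, hv]; rfl
    have e2 : v (Sum.inr 0) - β * v (Sum.inr 1) = 0 := by rw [← t4, hv]; rfl
    have e3 : v (Sum.inr 1) = 0 := by
      have : (α - β) * v (Sum.inr 1) = 0 := by linear_combination e2 - e1
      exact (mul_eq_zero.1 this).resolve_left (sub_ne_zero.2 hαβ)
    have e4 : v (Sum.inr 0) = 0 := by rw [e3] at e1; linear_combination e1
    funext i
    rcases i with (i | i) | i
    · exact (t1 v i).symm.trans (by rw [hv]; rfl)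
    · exact (t3 v i).symm.trans (by rw [hv]; rfl)
    · fin_cases i
      · exact e4
      · exact e3
  have hfr : Module.finrank K ((Fin k ⊕ Fin k) ⊕ Fin 2 → K) = Module.finrank K (Fin (k + 1) ⊕ Fin (k + 1) → K) := by
    simp; ring
  have hbij : Function.Bijective T := ⟨hinj, (LinearMap.injective_iff_surjective_of_finrank_eq_finrank hfr).1 hinj⟩
  refine ⟨LinearEquiv.ofBijective T hbij, ?_⟩
  intro v
  rw [LinearEquiv.ofBijective_apply, qPlus_coe, qMinus_coe, quadFormPlus, quadFormMinus, Fin.sum_univ_castSucc, t2, t4]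
  congr 1
  · apply Finset.sum_congr rfl
    intro i _
    rw [t1, t3]
  · rw [← h2]
    have : a = -(α + β) := by rw [h1, neg_neg]
    rw [this]; ring

/-- roots in the quadratic extension -/
theorem roots {F K : Type*} [Field F] [Fintype F] [Field K] [Fintype K] {q : ℕ} (hF : Fintype.card F = q)
    (hK : Fintype.card K = q ^ 2) (φ : F →+* K) (a c : F)
    (hac : ∀ z₁ z₂ : F, z₁ ^ 2 + a * z₁ * z₂ + c * z₂ ^ 2 = 0 → z₁ = 0 ∧ z₂ = 0) :
    ∃ α β : K, α ≠ β ∧ α + β = -φ a ∧ α * β = φ c := by
  letI : Algebra F K := φ.toAlgebra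
  have hfin : Module.Finite F K := Module.Finite.of_finite
  have hfr : Module.finrank F K = 2 := by
    have h1 := Module.card_eq_pow_finrank (K := F) (V := K)
    rw [hK, hF] at h1
    have hq : 2 ≤ q := by rw [← hF]; exact Fintype.one_lt_card
    exact (Nat.pow_right_injective hq h1).symm
  let P : Polynomial F := Polynomial.X ^ 2 + Polynomial.C a * Polynomial.X + Polynomial.C c
  have hPd : P.natDegree = 2 := by
    show (Polynomial.X ^ 2 + Polynomial.C a * Polynomial.X + Polynomial.C c : Polynomial F).natDegree = 2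
    compute_degree!
  have hPm : P.Monic := by
    show (Polynomial.X ^ 2 + Polynomial.C a * Polynomial.X + Polynomial.C c : Polynomial F).Monic
    monicity!
  have hirr : Irreducible P := by
    rw [Polynomial.Monic.irreducible_iff_roots_eq_zero_of_degree_le_three hPm (by omega) (by omega)]
    rw [Multiset.eq_zero_iff_forall_notMem]
    intro x hx
    have h1 := (Polynomial.mem_roots hPm.ne_zero).1 hx
    have h2 : x ^ 2 + a * x + c = 0 := by
      have : P.eval x = 0 := h1
      simpa [P] using this
    have h3 := (hac x 1 (by rw [mul_one, one_pow, mul_one]; exact h2)).2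
    exact one_ne_zero h3
  have : Fact (Irreducible P) := ⟨hirr⟩
  have hfrL : Module.finrank F (AdjoinRoot P) = 2 := by
    rw [(AdjoinRoot.powerBasis hPm.ne_zero).finrank, AdjoinRoot.powerBasis_dim, hPd]
  have hfinL : Module.Finite F (AdjoinRoot P) := (AdjoinRoot.powerBasis hPm.ne_zero).finite
  have : Finite (AdjoinRoot P) := Module.finite_of_finite F
  obtain ⟨ψ⟩ := FiniteField.nonempty_algHom_of_finrank_dvd (F := F) (K := AdjoinRoot P) (L := K) (by rw [hfrL, hfr])
  obtain ⟨α, hα⟩ : ∃ α, α = ψ (AdjoinRoot.root P) := ⟨_, rfl⟩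
  have hroot : α ^ 2 + φ a * α + φ c = 0 := by
    have h1 : Polynomial.aeval α P = 0 := by
      rw [hα, Polynomial.aeval_algHom_apply, AdjoinRoot.aeval_eq, AdjoinRoot.mk_self, map_zero]
    have h2 : Polynomial.aeval α P = α ^ 2 + φ a * α + φ c := by
      simp [P]; rfl
    rw [← h2, h1]
  refine ⟨α, -φ a - α, ?_, by ring, by linear_combination -hroot⟩
  intro heq
  by_cases h2 : (2 : F) = 0
  · -- characteristic two
    have h2K : (2 : K) = 0 := by
      have := congrArg φ h2
      rwa [map_zero, map_ofNat] at this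
    have ha : a = 0 := by
      apply φ.injective
      rw [map_zero]
      linear_combination heq - α * h2K
    have hchar : CharP F 2 := by
      obtain ⟨p, hp⟩ := CharP.exists F
      have hpp : p.Prime := CharP.char_is_prime F p
      have h3 : p ∣ 2 := (CharP.cast_eq_zero_iff F p 2).1 (by exact_mod_cast h2)
      have h4 : p = 2 := (Nat.prime_dvd_prime_iff_eq hpp Nat.prime_two).1 h3
      rw [← h4]; exact hp
    obtain ⟨s, hs⟩ := FiniteField.isSquare_of_char_two (ringChar.eq F 2 ▸ rfl) c
    have h3 := (hac s 1 (by rw [ha, hs]; linear_combination (s * s) * h2)).2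
    exact one_ne_zero h3
  · have h3 : α = φ (-a / 2) := by
      have h2K : (2 : K) ≠ 0 := by
        intro h
        apply h2
        apply φ.injective
        rw [map_ofNat, map_zero, h]
      rw [map_div₀, map_neg, map_ofNat]
      field_simp
      linear_combination heq
    have h4 : (-a / 2) ^ 2 + a * (-a / 2) + c = 0 := by
      apply φ.injective
      rw [map_add, map_add, map_mul, map_pow, ← h3, map_zero, hroot]
    have h5 := (hac (-a / 2) 1 (by rw [mul_one, one_pow, mul_one]; exact h4)).2
    exact one_ne_zero h5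

/-- An elliptic orthogonal group embeds in the hyperbolic orthogonal group of the same dimension over the quadratic extension: for a field F with q elements and a field K with q² elements there is an injective homomorphism from O⁻_2m(F) (isometries of Σ_(j<m−1) x_j y_j + z₁² + a z₁z₂ + c z₂², binary part anisotropic) to O⁺_2m(K) (isometries of Σ_(j<m) x_j y_j over K). -/
theorem result {F K : Type*} [Field F] [Fintype F] [Field K] [Fintype K] {q : ℕ} (hF : Fintype.card F = q) (hK : Fintype.card K = q ^ 2) {m : ℕ} (hm : 1 ≤ m) (a c : F) (hac : ∀ z₁ z₂ : F, z₁ ^ 2 + a * z₁ * z₂ + c * z₂ ^ 2 = 0 → z₁ = 0 ∧ z₂ = 0) : ∃ φ : ↥(Cfsg.isometryGroup F (Cfsg.quadFormMinus (m - 1) F a c)) →* ↥(Cfsg.isometryGroup K (Cfsg.quadFormPlus m K)), Function.Injective φ := by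
  have hc : Nat.card F ^ 2 = Nat.card K := by rw [Nat.card_eq_fintype_card, Nat.card_eq_fintype_card, hK, hF]
  obtain ⟨φ⟩ := exists_ringHom_of_card hc
  obtain ⟨α, β, hαβ, h1, h2⟩ := roots hF hK φ a c hac
  obtain ⟨k, rfl⟩ : ∃ k, m = k + 1 := ⟨m - 1, by omega⟩
  rw [Nat.add_sub_cancel, ← qMinus_coe, ← qPlus_coe]
  obtain ⟨f1, hf1⟩ := bc φ (qMinus k F a c) (qMinus k K (φ a) (φ c)) (fun v => by
    rw [qMinus_coe, qMinus_coe, quadFormMinus, quadFormMinus]
    simp only [map_add, map_mul, map_pow, map_sum])
  obtain ⟨e, he⟩ := split k hαβ h1 h2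
  obtain ⟨f2, hf2⟩ := congr (qMinus k K (φ a) (φ c)) (qPlus (k + 1) K) e he
  exact ⟨f2.comp f1, hf2.comp hf1⟩
end Cfsg.Agent.S2679
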