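import Cfsg.Statements.S2681
import Cfsg.Agent.H17.TcD

set_option autoImplicit false
open Cfsg

namespace Cfsg.Agent.S2681

open Cfsg.Agent Cfsg.Agent.H17 Cfsg.Agent.H5

/-- Centraliser order of an involution t of Sp_2m(q), q even, with s = rank(t − 1) even and f(v, tv) = 0 for every v, f the symplectic form (type a_s): |C(t)| = q^(2ms − (3s² − s)/2) · |Sp_s(q)| · |Sp_(2m−2s)(q)|. -/
theorem result {F : Type*} [Field F] [Fintype F] [CharP F 2] {q : ℕ} (hF : Fintype.card F = q) {m s : ℕ} (t : Matrix.symplecticGroup (Fin m) F) (ht : t ^ 2 = 1) (ht1 : t ≠ 1) (hs : ((t : Matrix (Fin m ⊕ Fin m) (Fin m ⊕ Fin m) F) - 1).rank = s) (heven : Even s) (halt : ∀ v : Fin m ⊕ Fin m → F, Cfsg.sympForm m F v ((t : Matrix (Fin m ⊕ Fin m) (Fin m ⊕ Fin m) F).mulVec v) = 0) : Nat.card ↥(Subgroup.centralizer ({t} : Set ↥(Matrix.symplecticGroup (Fin m) F))) = q ^ (2 * m * s - (3 * s ^ 2 - s) / 2) * ((q : ℕ) ^ ((s / 2) ^ 2) * ∏ i : Fin (s / 2), (q ^ (2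 * ((i : ℕ) + 1)) - 1)) * ((q : ℕ) ^ ((m - s) ^ 2) * ∏ i : Fin (m - s), (q ^ (2 * ((i : ℕ) + 1)) - 1)) := by
  classical
  rcases mat_cases m t ht with ⟨s', e, hs', h⟩ | ⟨k, e, h⟩
  · exfalso
    obtain ⟨v, hv⟩ := exists_dual_inv (iset_sp (F := F) m).nd e.2.1 (fun i => if i = ⟨0, hs'⟩ then 1 else 0)
    have h1 := halt v
    rw [← sympB_apply] at h1
    have h2 : (t : Matrix (Fin m ⊕ Fin m) (Fin m ⊕ Fin m) F).mulVec v = v + TT (sympB m F) e.1 id v := by rw [← h v]; abel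
    rw [h2, map_add, sympB_isAlt v, zero_add, TT_apply, map_sum] at h1
    simp only [map_smul, smul_eq_mul, id, hv] at h1
    rw [Finset.sum_eq_single ⟨0, hs'⟩] at h1
    · simp at h1
    · intro b _ hb
      rw [if_neg hb, zero_mul]
    · intro h; exact absurd (Finset.mem_univ _) h
  · have hr := rank_TT m t e Sum.swap_swap h
    rw [hs, Fintype.card_sum, Fintype.card_fin] at hr
    have hk : s / 2 = k := by omega
    rw [cent_formula hF m t e (Sum.swap_swap) h (s := s) (by rw [Fintype.card_sum, Fintype.card_fin]; omega), card_swap hF k, hk,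
      Finset.prod_range, Finset.prod_range]
    ring

end Cfsg.Agent.S2681
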