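import Cfsg.Statements.S2682
import Cfsg.Agent.H17.TcE

set_option autoImplicit false
open Cfsg

namespace Cfsg.Agent.S2682

open Cfsg.Agent Cfsg.Agent.H17 Cfsg.Agent.H5

/-- Centraliser order of an involution t of Sp_2m(q), q even, with s = rank(t − 1) even and f(v, tv) ≠ 0 for some v, f the symplectic form (type c_s): |C(t)| = q^(2ms − (3s² − 3s)/2 − 1) · |Sp_(s−2)(q)| · |Sp_(2m−2s)(q)|. -/
theorem result {F : Type*} [Field F] [Fintype F] [CharP F 2] {q : ℕ} (hF : Fintype.card F = q) {m s : ℕ} (t : Matrix.symplecticGroup (Fin m) F) (ht : t ^ 2 = 1) (hs : ((t : Matrix (Fin m ⊕ Fin m) (Fin m ⊕ Fin m) F) - 1).rank = s) (heven : Even s) (hna : ∃ v : Fin m ⊕ Fin m → F, Cfsg.sympForm m F v ((t : Matrix (Fin m ⊕ Fin m) (Fin m ⊕ Fin m) F).mulVec v) ≠ 0) : Nat.card ↥(Subgroup.centralizer ({t} : Set ↥(Matrix.symplecticGroup (Fin m) F))) = q ^ (2 * m * s - (3 * s ^ 2 - 3 * s) / 2 - 1) * ((q : ℕ) ^ (((s - 2) / 2) ^ 2) * ∏ i : Fin ((s -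 2) / 2), (q ^ (2 * ((i : ℕ) + 1)) - 1)) * ((q : ℕ) ^ ((m - s) ^ 2) * ∏ i : Fin (m - s), (q ^ (2 * ((i : ℕ) + 1)) - 1)) := by
  classical
  rcases mat_cases m t ht with ⟨s', e, hs', h⟩ | ⟨k, e, h⟩
  · have hr := rank_TT m t e (τ := id) (fun x => rfl) h
    rw [hs, Fintype.card_fin] at hr
    subst hr
    have hfr : Module.finrank F (Fin m ⊕ Fin m → F) = 2 * m := by
      rw [Module.finrank_fintype_fun_eq_card, Fintype.card_sum, Fintype.card_fin]; ring
    have hsm : s ≤ m := by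
      have := iso_bound sympB_isAlt.isRefl sympB_nondegenerate (m := m) hfr e.2.1 e.2.2
      rwa [Fintype.card_fin] at this
    obtain ⟨k, hk⟩ : ∃ k, s = 2 * k + 2 := by
      obtain ⟨j, hj⟩ := heven
      exact ⟨j - 1, by omega⟩
    have h1 : (s - 2) / 2 = k := by omega
    rw [cent_formula hF m t e (τ := id) (fun x => rfl) h (s := s) (Fintype.card_fin s), card_id, h1, Nat.card_eq_fintype_card, hF]
    have h2 : fON q s = q ^ (2 * k + 1) * (q ^ (k ^ 2) * ∏ i ∈ Finset.range k, (q ^ (2 * (i + 1)) - 1)) := by rw [hk]; exact fON_even k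
    have h3 : 2 * m * s - (3 * s ^ 2 - 3 * s) / 2 - 1 = (2 * k + 1) + (2 * m * s - (3 * s ^ 2 - s) / 2) := by
      obtain ⟨b, hb⟩ : ∃ b, s * (s - 1) = 2 * b := (Nat.even_mul_pred_self s).two_dvd
      have hs2 : s ^ 2 = s + 2 * b := by
        rw [← hb, hk, show 2 * k + 2 - 1 = 2 * k + 1 by omega]; ring
      have h4 : s ^ 2 ≤ m * s := by rw [pow_two]; exact Nat.mul_le_mul_right s hsm
      have h5 : 2 * m * s = 2 * (m * s) := by ring
      omega
    rw [h2, h3, pow_add, Finset.prod_range, Finset.prod_range]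
    ring
  · exfalso
    obtain ⟨v, hv⟩ := hna
    apply hv
    rw [← sympB_apply]
    have h2 : (t : Matrix (Fin m ⊕ Fin m) (Fin m ⊕ Fin m) F).mulVec v = v + TT (sympB m F) e.1 Sum.swap v := by rw [← h v]; abel
    rw [h2, map_add, sympB_isAlt v, zero_add, TT_apply, map_sum, Fintype.sum_sum_type]
    simp only [map_smul, smul_eq_mul, Sum.swap_inl, Sum.swap_inr]
    rw [← Finset.sum_add_distrib]
    apply Finset.sum_eq_zero
    intro j _
    rw [mul_comm (sympB m F v (e.1 (Sum.inr j))), ← two_mul, two_zero, zero_mul]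

end Cfsg.Agent.S2682
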