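import Cfsg.Statements.S2683
import Cfsg.Agent.H17.TdC

set_option autoImplicit false
open Cfsg

namespace Cfsg.Agent.S2683

open Cfsg.Agent Cfsg.Agent.H17 Cfsg.Agent.H5

/-- For the hyperbolic form Σ x_j y_j on F^(2m) over a finite field with q elements, q even (excluding m = 2 over the field of two elements), and an involution x of the orthogonal group with s = rank(x − 1) odd (type b_s; such x lie outside Ω): the elements of Ω (the commutator subgroup of the orthogonal group) commuting with x number q^(2m(s−1) − (3s² − 3s)/2) · |Sp_(s−1)(q)| · |Sp_(2m−2s)(q)|, where |Sp_2k(q)| = q^(k²) Π_(i=1)^k (q^(2i) − 1). -/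
theorem result {F : Type*} [Field F] [Fintype F] [CharP F 2] {q : ℕ} (hF : Fintype.card F = q) {m s : ℕ} (h : Fintype.card F ≠ 2 ∨ m ≠ 2) (x : ↥(Cfsg.isometryGroup F (Cfsg.quadFormPlus m F))) (hx : x ^ 2 = 1) (hs : (((x : Matrix.GeneralLinearGroup (Fin m ⊕ Fin m) F) : Matrix (Fin m ⊕ Fin m) (Fin m ⊕ Fin m) F) - 1).rank = s) (hodd : Odd s) : Nat.card {g : ↥(Cfsg.Omega F (Cfsg.quadFormPlus m F)) // (g : ↥(Cfsg.isometryGroup F (Cfsg.quadFormPlus m F))) * x = x * (g : ↥(Cfsg.isometryGroup F (Cfsg.quadFormPlus m F)))} = q ^ (2 * m * (s - 1) - (3 * s ^ 2 - 3 * s) / 2) * ((q : ℕ) ^ (((s - 1) / 2) ^ 2) * ∏ i : Fin ((s - 1) / 2), (q ^ (2 * ((i : ℕ) + 1)) - 1)) * ((q : ℕ) ^ ((m - s) ^ 2) * ∏ i : Fin (m - s), (q ^ (2 * ((i : ℕ) + 1)) - 1)) := by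
  classical
  have hk := omega_cent (m := m) (s := s) hF h
  rw [qPlus_coe] at hk
  obtain ⟨h1, hsm, h2⟩ := hk x hx hs (Or.inl hodd)
  rw [h2]
  obtain ⟨k, hk'⟩ := hodd
  have h3 : (s - 1) / 2 = k := by omega
  have h4 : fON q s = q ^ (k ^ 2) * ∏ i ∈ Finset.range k, (q ^ (2 * (i + 1)) - 1) := by rw [hk']; exact fON_odd k
  have h5 : 2 * (m - 1) * (s - 1) - (3 * (s - 1) ^ 2 - (s - 1)) / 2 = 2 * m * (s - 1) - (3 * s ^ 2 - 3 * s) / 2 := by
    obtain ⟨s0, rfl⟩ : ∃ s0, s = s0 + 1 := ⟨s - 1, by omega⟩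
    obtain ⟨m0, rfl⟩ : ∃ m0, m = m0 + 1 := ⟨m - 1, by omega⟩
    rw [Nat.add_sub_cancel, Nat.add_sub_cancel]
    obtain ⟨b, hb⟩ : ∃ b, s0 * (s0 - 1) = 2 * b := (Nat.even_mul_pred_self s0).two_dvd
    have hs2 : s0 ^ 2 = s0 + 2 * b := by
      rw [← hb]
      rcases s0 with _ | s0
      · rfl
      · rw [Nat.add_sub_cancel]; ring
    have e1 : 3 * (s0 + 1) ^ 2 = 3 * s0 ^ 2 + 6 * s0 + 3 := by ring
    have e2 : 2 * (m0 + 1) * s0 = 2 * (m0 * s0) + 2 * s0 := by ring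
    have e3 : 2 * m0 * s0 = 2 * (m0 * s0) := by ring
    omega
  rw [h4, h5, h3, Finset.prod_range, Finset.prod_range]
  ring

end Cfsg.Agent.S2683
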