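import Cfsg.Statements.S2685
import Cfsg.Agent.H17.TdC

set_option autoImplicit false
open Cfsg

namespace Cfsg.Agent.S2685

open Cfsg.Agent Cfsg.Agent.H17 Cfsg.Agent.H5

/-- For the hyperbolic form Q = Σ x_j y_j on F^(2m) over a finite field with q elements, q even (excluding m = 2 over the field of two elements), and an involution x of the orthogonal group with s = rank(x − 1) even and Q not vanishing on the image of x − 1 (f(v, xv) ≠ 0 for some v, where f(u, w) = Q(u + w) − Q(u) − Q(w) is the bilinear form of Q; type c_s, which lies in Ω): its centraliser in Ω (the commutator subgroup of the orthogonal group) has order q^(2m(s−1) − (3s² − 5s)/2 − 1) · |Sp_(s−2)(q)| · |Sp_(2m−2s)(q)|. -/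
theorem result {F : Type*} [Field F] [Fintype F] [CharP F 2] {q : ℕ} (hF : Fintype.card F = q) {m s : ℕ} (h : Fintype.card F ≠ 2 ∨ m ≠ 2) (x : ↥(Cfsg.isometryGroup F (Cfsg.quadFormPlus m F))) (hx : x ^ 2 = 1) (hs : (((x : Matrix.GeneralLinearGroup (Fin m ⊕ Fin m) F) : Matrix (Fin m ⊕ Fin m) (Fin m ⊕ Fin m) F) - 1).rank = s) (heven : Even s) (hna : ∃ v : Fin m ⊕ Fin m → F, Cfsg.quadFormPlus m F ((((x : Matrix.GeneralLinearGroup (Fin m ⊕ Fin m) F) : Matrix (Fin m ⊕ Fin m) (Fin m ⊕ Fin m) F) - 1).mulVec v) ≠ 0) : Nat.card {g : ↥(Cfsg.Omega F (Cfsg.quadFormPlus m F)) // (g : ↥(Cfsg.isometryGroup F (Cfsg.quadFormPlus m F))) * x = x * (g : ↥(Cfsg.isometryGroup F (Cfsg.quadFormPlus m F)))} = q ^ (2 * m * (s - 1) - (3 * s ^ 2 - 5 * s) / 2 - 1) * ((q : ℕ) ^ (((s - 2) / 2) ^ 2) * ∏ i : Fin ((s - 2) / 2), (q ^ (2 * ((i : ℕ) + 1)) - 1)) * ((q : ℕ) ^ ((m - s) ^ 2) * ∏ i : Fin (m - s), (q ^ (2 *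 ((i : ℕ) + 1)) - 1)) := by
  classical
  have hk := omega_cent (m := m) (s := s) hF h
  rw [qPlus_coe] at hk
  obtain ⟨h1, hsm, h2⟩ := hk x hx hs (Or.inr hna)
  rw [h2]
  obtain ⟨k, hk'⟩ : ∃ k, s = 2 * k + 2 := by
    obtain ⟨j, hj⟩ := heven
    exact ⟨j - 1, by omega⟩
  have h3 : (s - 2) / 2 = k := by omega
  have h4 : fON q s = q ^ (s - 1) * (q ^ (k ^ 2) * ∏ i ∈ Finset.range k, (q ^ (2 * (i + 1)) - 1)) := by
    rw [hk', show 2 * k + 2 - 1 = 2 * k + 1 by omega]; exact fON_even k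
  have h5 : 2 * m * (s - 1) - (3 * s ^ 2 - 5 * s) / 2 - 1 = (s - 1) + (2 * (m - 1) * (s - 1) - (3 * (s - 1) ^ 2 - (s - 1)) / 2) := by
    obtain ⟨s0, rfl⟩ : ∃ s0, s = s0 + 1 := ⟨s - 1, by omega⟩
    obtain ⟨m0, rfl⟩ : ∃ m0, m = m0 + 1 := ⟨m - 1, by omega⟩
    rw [Nat.add_sub_cancel, Nat.add_sub_cancel]
    obtain ⟨b, hb⟩ : ∃ b, s0 * (s0 - 1) = 2 * b := (Nat.even_mul_pred_self s0).two_dvd
    have hs2 : s0 ^ 2 = s0 + 2 * b := by
      rw [← hb]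
      rcases s0 with _ | s0
      · rfl
      · rw [Nat.add_sub_cancel]; ring
    have e1 : 3 * (s0 + 1) ^ 2 = 3 * s0 ^ 2 + 6 * s0 + 3 := by ring
    have e2 : 2 * (m0 + 1) * s0 = 2 * (m0 * s0) + 2 * s0 := by ring
    have e3 : 2 * m0 * s0 = 2 * (m0 * s0) := by ring
    have e4 : s0 ^ 2 ≤ m0 * s0 := by rw [pow_two]; exact Nat.mul_le_mul_right s0 (by omega)
    omega
  rw [h4, h5, h3, pow_add, Finset.prod_range, Finset.prod_range]
  ring

end Cfsg.Agent.S2685
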