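import Cfsg.Statements.S2689
import Cfsg.Agent.H17.AutPSL6

set_option autoImplicit false
open Cfsg

namespace Cfsg.Agent.S2689

/-- The automorphism group of a simple projective special linear group PSL_n(F) over a finite field (n ≥ 2; |F| ≥ 4 when n = 2) is generated by the automorphisms induced by invertible semilinear maps of F^n (the image of the projective semilinear group) together with the inverse-transpose automorphism. -/
theorem result {F : Type*} [Field F] [Fintype F] {p f : ℕ} [Fact p.Prime] (hF : Fintype.card F = p ^ f) (hf : 1 ≤ f) {n : ℕ} (hn : 2 ≤ n) (hs : n = 2 → 4 ≤ Fintype.card F) :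
    Cfsg.gammaPSL n F ⊔ Cfsg.autSubgroupOf (fun β : Matrix.ProjectiveSpecialLinearGroup (Fin n) F ≃* Matrix.ProjectiveSpecialLinearGroup (Fin n) F => Cfsg.IsInverseTransposeAutPSL β) = ⊤ := by
  rw [eq_top_iff]
  intro β _
  have h1 : ∀ (g : GL (Fin n) F) (s : F ≃+* F), Cfsg.Agent.H17.cP g * Cfsg.Agent.H17.fP n s ∈ Cfsg.gammaPSL n F := by
    intro g s
    exact Subgroup.subset_closure ⟨g, s, Cfsg.Agent.H17.isInducedBySemilinear_iff.mpr rfl⟩
  obtain ⟨g, s, h | ⟨_, h⟩⟩ := Cfsg.Agent.H17.aut_PSL hn β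
  · rw [h]
    exact Subgroup.mem_sup_left (h1 g s)
  · rw [h]
    refine mul_mem (Subgroup.mem_sup_left (h1 g s)) (Subgroup.mem_sup_right ?_)
    exact Subgroup.subset_closure (Cfsg.Agent.H17.isInvTr_iff.mpr rfl)

end Cfsg.Agent.S2689
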