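import Cfsg.Statements.S2693
import Cfsg.Agent.H17.SpTwo

set_option autoImplicit false
open Cfsg

namespace Cfsg.Agent.S2693

/-- The automorphism group of a simple projective symplectic group PSp_{2m}(F) over a finite field of characteristic p, with m ≥ 2 and (2m, p) ≠ (4, 2), is generated by the automorphisms induced by the semilinear maps v ↦ g σ(v) with g conformal symplectic and σ an automorphism of F (the image of the projective semilinear symplectic group). For (2m, p) = (4, 2) the statement fails: a duality of the underlying polar space gives a further automorphism. -/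
theorem result {F : Type*} [Field F] [Fintype F] {p : ℕ} [Fact p.Prime] [CharP F p] {m : ℕ} (hm : 2 ≤ m) (h4 : m = 2 → p ≠ 2) :
    Cfsg.gammaPSp m F = ⊤ := by
  have h4' : m = 2 → (2 : F) ≠ 0 := by
    intro h h2
    apply h4 h
    have h3 : (p : F) = 0 := CharP.cast_eq_zero F p
    haveI : CharP F 2 := CharTwo.of_one_ne_zero_of_two_eq_zero one_ne_zero h2
    exact CharP.eq F ‹CharP F p› this
  rw [eq_top_iff]
  intro β _
  obtain ⟨g, σ, rfl⟩ := Cfsg.Agent.H17.aut_PSp_all hm h4' β
  exact Subgroup.subset_closure ⟨g, σ, g.2, Cfsg.Agent.H17.semilinSp_iff.mpr rfl⟩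

end Cfsg.Agent.S2693
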