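import Cfsg.Statements.S2698
import Cfsg.Agent.H17.FixUnits

set_option autoImplicit false
open Cfsg

namespace Cfsg.Agent.S2698

/-- Let T = PSL_n(F) be simple over the field F with p^f elements (n ≥ 2; p^f ≥ 4 when n = 2), G = Inndiag(T) the image of PGL_n(F) in Aut(T), and x a field automorphism of T of prime order r. Then r divides f; the centralizer C_G(x) is isomorphic to PGL_n(F₀) for the subfield size |F₀| = p^(f/r); and the G-class of x is the union of exactly gcd(n, (p^f − 1)/(p^(f/r) − 1)) classes under conjugation by T (the inner automorphism group). -/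
theorem result {F : Type*} [Field F] [Fintype F] {p f : ℕ} [Fact p.Prime] (hF : Fintype.card F = p ^ f) (hf : 1 ≤ f) {n : ℕ} (hn : 2 ≤ n) (hs : n = 2 → 4 ≤ Fintype.card F) (x : MulAut (Matrix.ProjectiveSpecialLinearGroup (Fin n) F)) (hx : Cfsg.IsFieldAutClassPSL x) {r : ℕ} (hr : r.Prime) (hxr : orderOf x = r) (F₀ : Type*) [Field F₀] [Fintype F₀] (hF₀ : Fintype.card F₀ = p ^ (f / r)) :
    r ∣ f ∧ Nonempty (↥(Cfsg.inndiagPSL n F ⊓ Subgroup.centralizer {x}) ≃* Matrix.ProjGenLinGroup (Fin n) F₀) ∧ Cfsg.splitClassCount (Cfsg.inndiagPSL n F) (Cfsg.Inn (Matrix.ProjectiveSpecialLinearGroup (Fin n) F)) x = Nat.gcd n ((p ^ f - 1) / (p ^ (f / r) - 1)) := by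
  classical
  have hF' : Nat.card F = p ^ f := by rw [Nat.card_eq_fintype_card, hF]
  have hF₀' : Nat.card F₀ = p ^ (f / r) := by rw [Nat.card_eq_fintype_card, hF₀]
  obtain ⟨g, σ, hσ, hg⟩ := H17.field_form hn hx
  have hor : orderOf σ = r := by
    rw [hg, H17.orderOf_conj', H17.orderOf_fP hn] at hxr
    exact hxr
  obtain ⟨hrf, j, hj⟩ := H17.exists_fixed_emb hF' σ hor F₀ hF₀'
  refine ⟨hrf, ?_, ?_⟩
  · rw [hg]
    exact H17.cent_field hn hor hr.pos g j hj
  · have h1 : Cfsg.IsConjUnder (Cfsg.inndiagPSL n F) (H17.fP n σ) x := by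
      refine ⟨H17.cP g, ?_, hg⟩
      rw [H17.inndiag_eq]
      exact H17.mem_cPrange.mpr ⟨g, rfl⟩
    rw [← H17.splitClassCount_conj h1, H17.split_field hn σ hor hr.pos]
    congr 1
    have h2 := (H17.fixU σ).card_mul_index
    rw [H17.card_fixU (by omega) hF' σ hor, Nat.card_units, hF'] at h2
    rw [← h2]
    symm
    apply Nat.mul_div_cancel_left
    have h3 : 1 < p ^ (f / r) := by
      rw [← hF₀']
      exact Finite.one_lt_card
    omega

end Cfsg.Agent.S2698
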