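import Cfsg.Statements.S2699
import Cfsg.Agent.H6.IvH

set_option autoImplicit false
open Cfsg

namespace Cfsg.Agent.S2699

/-- Let T = PSL_n(F) over the field with p^f elements with n ≥ 3 odd, n = 2m + 1, and G = Inndiag(T) the image of PGL_n(F). Every involutory graph automorphism γ of T (an inner-diagonal automorphism followed by inverse-transpose, of order 2) has centralizer C_G(γ) isomorphic to the projective conformal orthogonal group of the form x₀² + Σ xᵢ yᵢ in dimension n (for q even this group is isomorphic to Sp_{n−1}(q)), and any two involutory graph automorphisms are G-conjugate. -/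
theorem result {F : Type*} [Field F] [Fintype F] {p f : ℕ} [Fact p.Prime] (hF : Fintype.card F = p ^ f) (hf : 1 ≤ f) {n : ℕ} (hn : 3 ≤ n) {m : ℕ} (hnm : n = 2 * m + 1) (γ γ' : MulAut (Matrix.ProjectiveSpecialLinearGroup (Fin n) F)) (hγ : Cfsg.IsGraphAutClassPSL γ) (hγ2 : orderOf γ = 2) (hγ' : Cfsg.IsGraphAutClassPSL γ') (hγ'2 : orderOf γ' = 2) :
    Nonempty (↥(Cfsg.inndiagPSL n F ⊓ Subgroup.centralizer {γ}) ≃* Cfsg.PGO F (Cfsg.quadFormOdd m F)) ∧ Cfsg.IsConjUnder (Cfsg.inndiagPSL n F) γ γ' := by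
  classical
  have hn2 : 2 ≤ n := by omega
  obtain ⟨A, rfl⟩ := H6.gr_class hγ
  obtain ⟨A', rfl⟩ := H6.gr_class hγ'
  have hsq := pow_orderOf_eq_one (H17.cP A * H17.iP F n)
  rw [hγ2, pow_two] at hsq
  have hsq' := pow_orderOf_eq_one (H17.cP A' * H17.iP F n)
  rw [hγ'2, pow_two] at hsq'
  by_cases h2 : (2 : F) = 0
  · have hm1 : (-1 : Fˣ) = 1 := by
      apply Units.ext
      rw [Units.val_neg, Units.val_one]
      linear_combination -h2
    have hsy : ∀ B : Matrix.GeneralLinearGroup (Fin n) F, (H17.cP B * H17.iP F n) * (H17.cP B * H17.iP F n) = 1 → H6.trG B = B := by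
      intro B hB
      rcases H6.gr_sq hn2 hB with h | h
      · exact h
      · rw [h, hm1, map_one, one_mul]
    have hA := hsy A hsq
    have hA' := hsy A' hsq'
    obtain ⟨e, he⟩ := H6.exists_model_odd h2 hnm hA
    obtain ⟨e', he'⟩ := H6.exists_model_odd h2 hnm hA'
    constructor
    · obtain ⟨f1⟩ := H6.cent_odd_two hn2 h2 A e he
      haveI : CharP F 2 := CharTwo.of_one_ne_zero_of_two_eq_zero one_ne_zero h2
      obtain ⟨f2⟩ := S0304.result (F := F) m
      have h3 : Nonempty (isometryGroup F (quadFormOdd m F) ≃* PGO F (quadFormOdd m F)) := by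
        rw [← H5.qOdd_coe]
        refine H6.PGO_two h2 (H5.qOdd m F) ⟨Sum.elim (fun _ => 1) (fun _ => 0), ?_⟩
        rw [H5.qOdd_coe]
        simp [quadFormOdd]
      obtain ⟨f3⟩ := h3
      exact ⟨f1.trans (f2.symm.trans f3)⟩
    · refine H6.gr_conj_of hn2 A A' (e.symm.trans e') 1 ?_
      intro x y
      obtain ⟨x, rfl⟩ := e.surjective x
      obtain ⟨y, rfl⟩ := e.surjective y
      rw [LinearEquiv.trans_apply, LinearEquiv.trans_apply, LinearEquiv.symm_apply_apply, LinearEquiv.symm_apply_apply, he, he',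
        Units.val_one, one_mul]
  · have hsy : ∀ B : Matrix.GeneralLinearGroup (Fin n) F, (H17.cP B * H17.iP F n) * (H17.cP B * H17.iP F n) = 1 → H6.trG B = B := by
      intro B hB
      rcases H6.gr_sq hn2 hB with h | h
      · exact h
      · exfalso
        have h3 := congrArg Matrix.GeneralLinearGroup.det h
        have hodd : Odd n := ⟨m, hnm⟩
        rw [H6.det_trG, map_mul, H17.det_sGL, hodd.neg_one_pow] at h3
        have h4 := congrArg Units.val h3
        rw [Units.val_mul, Units.val_neg, Units.val_one] at h4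
        have h5 : (2 : F) * (Matrix.GeneralLinearGroup.det B : Fˣ) = 0 := by linear_combination h4
        rcases mul_eq_zero.mp h5 with h6 | h6
        · exact h2 h6
        · exact (Matrix.GeneralLinearGroup.det B).ne_zero h6
    have hA := hsy A hsq
    have hA' := hsy A' hsq'
    have hfr : Module.finrank F (Fin n → F) = 2 * m + 1 := by rw [Module.finrank_fintype_fun_eq_card, Fintype.card_fin, hnm]
    obtain ⟨c, hc, ψ, hψ⟩ := H17.std_odd h2 (H6.nd_qA h2 hA) hfr
    obtain ⟨c', hc', ψ', hψ'⟩ := H17.std_odd h2 (H6.nd_qA h2 hA') hfr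
    constructor
    · rw [← H5.qOdd_coe]
      refine H6.gr_cent_Q h2 hn2 hA _ ψ.symm (Units.mk0 c hc)⁻¹ ?_
      intro v
      obtain ⟨v, rfl⟩ := ψ.surjective v
      rw [LinearEquiv.symm_apply_apply, hψ, H6.qA_apply, Units.val_inv_eq_inv_val, Units.val_mk0, inv_mul_cancel_left₀ hc]
    · have hform : ∀ x, H6.bA A' ((ψ.trans ψ'.symm) x) ((ψ.trans ψ'.symm) x) = (c'⁻¹ * c) * H6.bA A x x := by
        intro x
        rw [← H6.qA_apply, ← H6.qA_apply, LinearEquiv.trans_apply]
        have h3 := hψ' (ψ'.symm (ψ x))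
        rw [LinearEquiv.apply_symm_apply, hψ] at h3
        field_simp
        linear_combination -h3
      refine H6.gr_conj_of hn2 A A' (ψ.trans ψ'.symm) ((Units.mk0 c' hc')⁻¹ * Units.mk0 c hc) ?_
      intro x y
      rw [Units.val_mul, Units.val_inv_eq_inv_val, Units.val_mk0, Units.val_mk0]
      have h3 := hform (x + y)
      rw [map_add, H6.bA_add, H6.bA_add, hform, hform] at h3
      have e1 := H6.bA_sym hA' ((ψ.trans ψ'.symm) x) ((ψ.trans ψ'.symm) y)
      have e2 := H6.bA_sym hA x y
      apply mul_left_cancel₀ h2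
      linear_combination h3 - e1 + (c'⁻¹ * c) * e2

end Cfsg.Agent.S2699
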