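import Cfsg.Statements.S2700
import Cfsg.Agent.H6.IvC

set_option autoImplicit false
open Cfsg

namespace Cfsg.Agent.S2700

/-- Let T = PSL_n(F) over a finite field of odd order with n = 2m ≥ 4 even, and G = Inndiag(T) the image of PGL_n(F). The involutory graph automorphisms of T fall into exactly three G-classes, with representatives γ₁, γ₂, γ₃ whose centralizers in G are isomorphic respectively to the projective conformal symplectic group PGSp_n(F), the projective conformal orthogonal group of the plus-type form Σ xᵢ yᵢ, and that of a minus-type form Σ xᵢ yᵢ + z₁² + a z₁ z₂ + b z₂² (anisotropic binary part) in dimension n. -/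
theorem result {F : Type*} [Field F] [Fintype F] (hodd : Odd (Fintype.card F)) {n m : ℕ} (hm : 2 ≤ m) (hnm : n = 2 * m) :
    ∃ (γ₁ γ₂ γ₃ : MulAut (Matrix.ProjectiveSpecialLinearGroup (Fin n) F)) (a b : F), (∀ z₁ z₂ : F, z₁ ^ 2 + a * z₁ * z₂ + b * z₂ ^ 2 = 0 → z₁ = 0 ∧ z₂ = 0) ∧ Cfsg.IsGraphAutClassPSL γ₁ ∧ orderOf γ₁ = 2 ∧ Cfsg.IsGraphAutClassPSL γ₂ ∧ orderOf γ₂ = 2 ∧ Cfsg.IsGraphAutClassPSL γ₃ ∧ orderOf γ₃ = 2 ∧ ¬ Cfsg.IsConjUnder (Cfsg.inndiagPSL n F) γ₁ γ₂ ∧ ¬ Cfsg.IsConjUnder (Cfsg.inndiagPSL n F) γ₁ γ₃ ∧ ¬ Cfsg.IsConjUnder (Cfsg.inndiagPSL n F) γ₂ γ₃ ∧ (∀ γ : MulAut (Matrix.ProjectiveSpecialLinearGroup (Fin n) F), Cfsg.IsGraphAutClassPSL γ → orderOf γ = 2 → Cfsg.IsConjUnder (Cfsg.inndiagPSL n F) γ₁ γ ∨ Cfsg.IsConjUnder (Cfsg.inndiagPSL n F) γ₂ γ ∨ Cfsg.IsConjUnder (Cfsg.inndiagPSL n F) γ₃ γ) ∧ Nonempty (↥(Cfsg.inndiagPSL n F ⊓ Subgroup.centralizer {γ₁}) ≃* Cfsg.PGSp m F) ∧ Nonempty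 (↥(Cfsg.inndiagPSL n F ⊓ Subgroup.centralizer {γ₂}) ≃* Cfsg.PGO F (Cfsg.quadFormPlus m F)) ∧ Nonempty (↥(Cfsg.inndiagPSL n F ⊓ Subgroup.centralizer {γ₃}) ≃* Cfsg.PGO F (Cfsg.quadFormMinus (m - 1) F a b)) := by
  classical

  have h2 : (2 : F) ≠ 0 := H17.two_ne_of_odd hodd
  have hn3 : 3 ≤ n := by omega
  have hn2 : 2 ≤ n := by omega
  have hm1 : 1 ≤ m := by omega
  obtain ⟨ζ, hζ⟩ := H17.exists_zeta F
  have hab := H17.zeta_aniso hζ
  let e₁ : (Fin m ⊕ Fin m → F) ≃ₗ[F] (Fin n → F) := LinearEquiv.ofFinrankEq _ _ (by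
    rw [Module.finrank_fintype_fun_eq_card, Module.finrank_fintype_fun_eq_card, Fintype.card_sum, Fintype.card_fin, Fintype.card_fin]; omega)
  let e₃ : ((Fin (m - 1) ⊕ Fin (m - 1)) ⊕ Fin 2 → F) ≃ₗ[F] (Fin n → F) := LinearEquiv.ofFinrankEq _ _ (by
    rw [Module.finrank_fintype_fun_eq_card, Module.finrank_fintype_fun_eq_card, Fintype.card_sum, Fintype.card_sum, Fintype.card_fin, Fintype.card_fin, Fintype.card_fin]; omega)
  obtain ⟨A₁, t1, b1⟩ := H6.exists_alt e₁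
  obtain ⟨A₂, t2, b2⟩ := H6.exists_sym (H5.nd_plus (m := m)) e₁
  obtain ⟨A₃, t3, b3⟩ := H6.exists_sym (H5.nd_minus (m := m - 1) hab) e₃
  refine ⟨H17.cP A₁ * H17.iP F n, H17.cP A₂ * H17.iP F n, H17.cP A₃ * H17.iP F n, 1, ζ, hab, H6.gr_isClass hn3 _,
    H6.gr_ord hn3 ⟨_, t1⟩, H6.gr_isClass hn3 _, H6.gr_ord hn3 ⟨1, by rw [t2, map_one, one_mul]⟩, H6.gr_isClass hn3 _,
    H6.gr_ord hn3 ⟨1, by rw [t3, map_one, one_mul]⟩, H6.not_conj_alt_sym h2 hn2 t1 t2, H6.not_conj_alt_sym h2 hn2 t1 t3,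
    H6.not_conj_plus_minus h2 hn2 hm1 hab e₁ e₃ b2 b3, ?_, H6.gr_cent_Sp hn2 e₁ b1, ?_, ?_⟩
  · intro γ hγ hγ2
    obtain ⟨A, rfl⟩ := H6.gr_class hγ
    have hsq := pow_orderOf_eq_one (H17.cP A * H17.iP F n)
    rw [hγ2, pow_two] at hsq
    rcases H6.gr_sq hn2 hsq with hA | hA
    · rcases H6.sym_class h2 hm1 hnm hA hab with ⟨ψ, hψ⟩ | ⟨ψ, hψ⟩
      · right; left
        refine H6.gr_conj_of hn2 A₂ A (ψ.trans e₁).symm (Units.mk0 2 h2)⁻¹ ?_
        intro x y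
        obtain ⟨x, rfl⟩ := (ψ.trans e₁).surjective x
        obtain ⟨y, rfl⟩ := (ψ.trans e₁).surjective y
        rw [LinearEquiv.symm_apply_apply, LinearEquiv.symm_apply_apply, LinearEquiv.trans_apply, LinearEquiv.trans_apply, b2,
          Units.val_inv_eq_inv_val, Units.val_mk0]
        have h3 := hψ (x + y)
        rw [map_add, H5.q_add, hψ, hψ, H6.bA_add, show H6.bA A y x = H6.bA A x y by rw [← H6.bA_trG, hA]] at h3
        field_simp
        linear_combination -h3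
      · right; right
        refine H6.gr_conj_of hn2 A₃ A (ψ.trans e₃).symm (Units.mk0 2 h2)⁻¹ ?_
        intro x y
        obtain ⟨x, rfl⟩ := (ψ.trans e₃).surjective x
        obtain ⟨y, rfl⟩ := (ψ.trans e₃).surjective y
        rw [LinearEquiv.symm_apply_apply, LinearEquiv.symm_apply_apply, LinearEquiv.trans_apply, LinearEquiv.trans_apply, b3,
          Units.val_inv_eq_inv_val, Units.val_mk0]
        have h3 := hψ (x + y)
        rw [map_add, H5.q_add, hψ, hψ, H6.bA_add, show H6.bA A y x = H6.bA A x y by rw [← H6.bA_trG, hA]] at h3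
        field_simp
        linear_combination -h3
    · left
      obtain ⟨e, he⟩ := H6.alt_class h2 hnm hA
      refine H6.gr_conj_of hn2 A₁ A (e₁.symm.trans e) 1 ?_
      intro x y
      obtain ⟨x, rfl⟩ := e₁.surjective x
      obtain ⟨y, rfl⟩ := e₁.surjective y
      rw [LinearEquiv.trans_apply, LinearEquiv.trans_apply, LinearEquiv.symm_apply_apply, LinearEquiv.symm_apply_apply, he, b1,
        Units.val_one, one_mul]
  · rw [← H5.qPlus_coe]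
    refine H6.gr_cent_Q h2 hn2 t2 _ e₁ (Units.mk0 2 h2) ?_
    intro v
    rw [b2, H5.pB_self]; rfl
  · rw [← H5.qMinus_coe]
    refine H6.gr_cent_Q h2 hn2 t3 _ e₃ (Units.mk0 2 h2) ?_
    intro v
    rw [b3, H5.pB_self]; rfl

end Cfsg.Agent.S2700
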