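import Cfsg.Statements.S2701
import Cfsg.Agent.H6.IvI

set_option autoImplicit false
open Cfsg

namespace Cfsg.Agent.S2701

/-- Let T = PSL_n(F) over a finite field of characteristic 2 with n = 2m ≥ 4 even, and G = Inndiag(T) the image of PGL_n(F). The involutory graph automorphisms of T fall into exactly two G-classes, with representatives γ₁ and γ₃ whose centralizers in G are isomorphic respectively to the symplectic group Sp_n(F) and to the centralizer in Sp_n(F) of a symplectic transvection. -/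
theorem result {F : Type*} [Field F] [Fintype F] [CharP F 2] {n m : ℕ} (hm : 2 ≤ m) (hnm : n = 2 * m) :
    ∃ (γ₁ γ₃ : MulAut (Matrix.ProjectiveSpecialLinearGroup (Fin n) F)) (t : ↥(Matrix.symplecticGroup (Fin m) F)), Cfsg.IsTransvection (t : Matrix (Fin m ⊕ Fin m) (Fin m ⊕ Fin m) F) ∧ Cfsg.IsGraphAutClassPSL γ₁ ∧ orderOf γ₁ = 2 ∧ Cfsg.IsGraphAutClassPSL γ₃ ∧ orderOf γ₃ = 2 ∧ ¬ Cfsg.IsConjUnder (Cfsg.inndiagPSL n F) γ₁ γ₃ ∧ (∀ γ : MulAut (Matrix.ProjectiveSpecialLinearGroup (Fin n) F), Cfsg.IsGraphAutClassPSL γ → orderOf γ = 2 → Cfsg.IsConjUnder (Cfsg.inndiagPSL n F) γ₁ γ ∨ Cfsg.IsConjUnder (Cfsg.inndiagPSL n F) γ₃ γ) ∧ Nonempty (↥(Cfsg.inndiagPSL n F ⊓ Subgroup.centralizer {γ₁}) ≃* ↥(Matrix.symplecticGroup (Fin m) F)) ∧ Nonempty (↥(Cfsg.inndiagPSL n F ⊓ Subgroup.centralizer {γ₃}) ≃* ↥(Subgroup.centralizer ({t} : Set ↥(Matrix.symplecticGroup (Fin m) F)))) := by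
  classical
  have h2 : (2 : F) = 0 := CharTwo.two_eq_zero
  have hn3 : 3 ≤ n := by omega
  have hn2 : 2 ≤ n := by omega
  have hm1 : 1 ≤ m := by omega
  have hneg : (-1 : Fˣ) = 1 := by
    apply Units.ext
    rw [Units.val_neg, Units.val_one]
    linear_combination -h2
  let e : (Fin m ⊕ Fin m → F) ≃ₗ[F] (Fin n → F) := LinearEquiv.ofFinrankEq _ _ (by
    rw [Module.finrank_fintype_fun_eq_card, Module.finrank_fintype_fun_eq_card, Fintype.card_sum, Fintype.card_fin, Fintype.card_fin]; omega)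
  obtain ⟨A₁, t1, b1⟩ := H6.exists_alt e
  rw [hneg, map_one, one_mul] at t1
  -- the vector
  let w₀ : Fin m ⊕ Fin m → F := Pi.single (Sum.inl ⟨0, hm1⟩) 1
  have hw₀ : w₀ ≠ 0 := by
    intro h
    have := congrFun h (Sum.inl ⟨0, hm1⟩)
    simp [w₀] at this
  let B₃ : LinearMap.BilinForm F (Fin m ⊕ Fin m → F) :=
    (H5.sympB m F).compl₁₂ LinearMap.id (Matrix.toLin' ((H5.spT w₀ 1 : Matrix.symplecticGroup (Fin m) F) : Matrix (Fin m ⊕ Fin m) (Fin m ⊕ Fin m) F))
  have hB₃ : ∀ x y, B₃ x y = H6.b3 m F w₀ x y := by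
    intro x y
    rw [H6.b3_eq]
    rfl
  obtain ⟨A₃, b3'⟩ := H6.exists_model B₃ (fun y hy => by
    have h3 : ((H5.spT w₀ 1 : Matrix.symplecticGroup (Fin m) F) : Matrix (Fin m ⊕ Fin m) (Fin m ⊕ Fin m) F).mulVec y = 0 := by
      apply H5.sympB_nondegenerate.2
      intro x
      exact hy x
    have h4 := H5.sp_inv_mulVec (H5.spT w₀ 1 : Matrix.symplecticGroup (Fin m) F)⁻¹ y
    rw [inv_inv, h3, Matrix.mulVec_zero] at h4
    exact h4.symm) e
  have b3 : ∀ x y, H6.bA A₃ (e x) (e y) = H6.b3 m F w₀ x y := fun x y => by rw [b3', hB₃]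
  have t3 : H6.trG A₃ = A₃ := by
    apply H6.bA_inj
    intro x y
    obtain ⟨x, rfl⟩ := e.surjective x
    obtain ⟨y, rfl⟩ := e.surjective y
    rw [H6.bA_trG, b3, b3]
    unfold H6.b3
    rw [H5.sympB_neg x y]
    linear_combination (H5.sympB m F y x) * h2
  have halt1 : ∀ x, H6.bA A₁ x x = 0 := by
    intro x
    obtain ⟨x, rfl⟩ := e.surjective x
    rw [b1, H5.sympB_isAlt]
  refine ⟨H17.cP A₁ * H17.iP F n, H17.cP A₃ * H17.iP F n, H5.spT w₀ 1, H6.isTrv hw₀, H6.gr_isClass hn3 _,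
    H6.gr_ord hn3 ⟨1, by rw [t1, map_one, one_mul]⟩, H6.gr_isClass hn3 _, H6.gr_ord hn3 ⟨1, by rw [t3, map_one, one_mul]⟩, ?_, ?_,
    H6.cent_alt_two hn2 h2 hm1 A₁ e b1, H6.cent_three hn2 h2 hm1 A₃ w₀ e b3⟩
  · intro h
    obtain ⟨g, c, hc⟩ := H6.conj_form hn2 h
    rw [H6.form_iff] at hc
    have h4 : ∀ z, H6.bA A₃ z z = 0 := by
      intro z
      have h5 := hc ((((g⁻¹ : Matrix.GeneralLinearGroup (Fin n) F)) : Matrix (Fin n) (Fin n) F).mulVec z) ((((g⁻¹ : Matrix.GeneralLinearGroup (Fin n) F)) : Matrix (Fin n) (Fin n) F).mulVec z)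
      rw [Matrix.mulVec_mulVec, ← Units.val_mul, mul_inv_cancel, Units.val_one, Matrix.one_mulVec, halt1, mul_zero] at h5
      exact h5
    apply hw₀
    apply H5.sympB_nondegenerate.2
    intro x
    have h6 := h4 (e x)
    rw [b3] at h6
    unfold H6.b3 at h6
    rw [H5.sympB_isAlt, zero_add] at h6
    exact mul_self_eq_zero.mp h6
  · intro γ hγ hγ2
    obtain ⟨A, rfl⟩ := H6.gr_class hγ
    have hsq := pow_orderOf_eq_one (H17.cP A * H17.iP F n)
    rw [hγ2, pow_two] at hsq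
    have hA : H6.trG A = A := by
      rcases H6.gr_sq hn2 hsq with h | h
      · exact h
      · rw [h, hneg, map_one, one_mul]
    obtain ⟨w, hw⟩ := H6.exists_w h2 hA
    by_cases hw0 : w = 0
    · left
      subst hw0
      obtain ⟨e', he'⟩ := H6.alt_class' hnm (H6.bL A) (fun x => by
        rw [H6.bL_apply, hw, ← H6.bL_apply, map_zero, mul_zero]) (fun x hx => H6.bA_nd A x (fun y => by rw [← H6.bL_apply]; exact hx y))
      refine H6.gr_conj_of hn2 A₁ A (e.symm.trans e') 1 ?_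
      intro x y
      obtain ⟨x, rfl⟩ := e.surjective x
      obtain ⟨y, rfl⟩ := e.surjective y
      rw [LinearEquiv.trans_apply, LinearEquiv.trans_apply, LinearEquiv.symm_apply_apply, LinearEquiv.symm_apply_apply, b1,
        Units.val_one, one_mul, ← H6.bL_apply, he']
    · right
      obtain ⟨e', he'⟩ := H6.three_class h2 hnm hm1 hA hw hw0 hw₀
      refine H6.gr_conj_of hn2 A₃ A (e.symm.trans e') 1 ?_
      intro x y
      obtain ⟨x, rfl⟩ := e.surjective x
      obtain ⟨y, rfl⟩ := e.surjective y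
      rw [LinearEquiv.trans_apply, LinearEquiv.trans_apply, LinearEquiv.symm_apply_apply, LinearEquiv.symm_apply_apply, b3,
        Units.val_one, one_mul, he']

end Cfsg.Agent.S2701
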