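import Cfsg.Statements.S2702
import Cfsg.Agent.H6.IvE
import Cfsg.Agent.H6.IvF

set_option autoImplicit false
open Cfsg

namespace Cfsg.Agent.S2702

/-- Let T = PSL_n(F) over the field with q = p^f elements, n ≥ 3, G = Inndiag(T) the image of PGL_n(F), and γ an involutory graph automorphism of T. The G-class of γ is the union of exactly c T-classes, where: if n is even and q is odd, c = gcd(n/2, q − 1) when C_G(γ) is isomorphic to the projective conformal symplectic group PGSp_n(F) (symplectic type) and c = gcd(n, q − 1)/2 otherwise; and c = gcd(n, q − 1) when n is odd or q is even. -/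
theorem result {F : Type*} [Field F] [Fintype F] {p f : ℕ} [Fact p.Prime] (hF : Fintype.card F = p ^ f) (hf : 1 ≤ f) {n : ℕ} (hn : 3 ≤ n) (γ : MulAut (Matrix.ProjectiveSpecialLinearGroup (Fin n) F)) (hγ : Cfsg.IsGraphAutClassPSL γ) (hγ2 : orderOf γ = 2) :
    ((Even n ∧ Odd p ∧ Nonempty (↥(Cfsg.inndiagPSL n F ⊓ Subgroup.centralizer {γ}) ≃* Cfsg.PGSp (n / 2) F)) → Cfsg.splitClassCount (Cfsg.inndiagPSL n F) (Cfsg.Inn (Matrix.ProjectiveSpecialLinearGroup (Fin n) F)) γ = Nat.gcd (n / 2) (p ^ f - 1)) ∧ ((Even n ∧ Odd p ∧ ¬ Nonempty (↥(Cfsg.inndiagPSL n F ⊓ Subgroup.centralizer {γ}) ≃* Cfsg.PGSp (n / 2) F)) → Cfsg.splitClassCount (Cfsg.inndiagPSL n F) (Cfsg.Inn (Matrix.ProjectiveSpecialLinearGroup (Fin n) F)) γ = Nat.gcd n (p ^ f - 1) / 2) ∧ (¬ (Even n ∧ Odd p) → Cfsg.splitClassCount (Cfsg.inndiagPSL n F) (Cfsg.Inn (Matrix.ProjectiveSpecialLinearGroup (Fin n) F)) γ = Nat.gcd n (p ^ f - 1)) := by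
  classical
  have hn2 : 2 ≤ n := by omega
  have hcardU : Nat.card Fˣ = p ^ f - 1 := by
    rw [Nat.card_units, Nat.card_eq_fintype_card, hF]
  obtain ⟨A, rfl⟩ := H6.gr_class hγ
  have hsq := pow_orderOf_eq_one (H17.cP A * H17.iP F n)
  rw [hγ2, pow_two] at hsq
  have hqodd : Odd p → Odd (Fintype.card F) := fun h => by rw [hF]; exact h.pow
  have hidx : ∀ m : ℕ, ((powMonoidHom m : Fˣ →* Fˣ).range).index = Nat.gcd m (p ^ f - 1) := by
    intro m
    have h := H17.index_range_pow_sup (G := Fˣ) m ⊥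
    rw [sup_bot_eq, Subgroup.index_bot, hcardU] at h
    exact h
  refine ⟨?_, ?_, ?_⟩
  · rintro ⟨hev, hp, ⟨iso⟩⟩
    have h2 : (2 : F) ≠ 0 := H17.two_ne_of_odd (hqodd hp)
    obtain ⟨m, hm⟩ := hev
    have hnm : n = 2 * m := by omega
    have hm2 : 2 ≤ m := by omega
    have hdiv : n / 2 = m := by omega
    rw [hdiv] at iso ⊢
    rcases H6.gr_sq hn2 hsq with hA | hA
    · exfalso
      obtain ⟨ζ, hζ⟩ := H17.exists_zeta F
      have hab := H17.zeta_aniso hζ
      rcases H6.sym_class h2 (by omega) hnm hA hab with ⟨ψ, hψ⟩ | ⟨ψ, hψ⟩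
      · obtain ⟨iso'⟩ := H6.gr_cent_Q h2 hn2 hA (H5.qPlus m F) ψ.symm 1 (fun v => by
          rw [← hψ, LinearEquiv.apply_symm_apply, Units.val_one, one_mul])
        haveI : Nonempty (Fin m ⊕ Fin m) := ⟨Sum.inl ⟨0, by omega⟩⟩
        refine H6.PGSp_ne_PGO hm2 (H5.qPlus m F) ?_ ⟨iso.symm.trans iso'⟩
        rw [H5.qPlus_coe]
        exact H6.card_plus_lt hm2
      · obtain ⟨iso'⟩ := H6.gr_cent_Q h2 hn2 hA (H5.qMinus (m - 1) F 1 ζ) ψ.symm 1 (fun v => by
          rw [← hψ, LinearEquiv.apply_symm_apply, Units.val_one, one_mul])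
        haveI : Nonempty ((Fin (m - 1) ⊕ Fin (m - 1)) ⊕ Fin 2) := ⟨Sum.inr 0⟩
        refine H6.PGSp_ne_PGO hm2 (H5.qMinus (m - 1) F 1 ζ) ?_ ⟨iso.symm.trans iso'⟩
        rw [H5.qMinus_coe]
        exact H6.card_minus_lt hm2 hab
    · obtain ⟨e, he⟩ := H6.alt_class h2 hnm hA
      rw [H6.split_alt (by omega) hn2 A e he, hidx, hnm]
      apply Nat.gcd_eq_right
      exact (Nat.gcd_dvd_left _ _).trans (Dvd.intro_left _ rfl)
  · rintro ⟨hev, hp, hni⟩
    have h2 : (2 : F) ≠ 0 := H17.two_ne_of_odd (hqodd hp)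
    obtain ⟨m, hm⟩ := hev
    have hnm : n = 2 * m := by omega
    have hm2 : 2 ≤ m := by omega
    have hdiv : n / 2 = m := by omega
    rw [hdiv] at hni
    rcases H6.gr_sq hn2 hsq with hA | hA
    · rw [H6.split_sym h2 (by omega) hnm hA, H17.index_range_pow_sup]
      obtain ⟨r, hr⟩ : ∃ r, p ^ f - 1 = 2 * r := by
        obtain ⟨r, hr⟩ := hqodd hp
        exact ⟨r, by rw [← hF]; omega⟩
      have hord : Nat.card (Subgroup.zpowers (-1 : Fˣ)) = 2 := by
        rw [Nat.card_zpowers]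
        apply orderOf_eq_prime
        · exact neg_one_sq
        · intro h
          have h3 := congrArg Units.val h
          rw [Units.val_neg, Units.val_one] at h3
          exact h2 (by linear_combination -h3)
      have hidx2 : (Subgroup.zpowers (-1 : Fˣ)).index = r := by
        have h3 := Subgroup.index_mul_card (Subgroup.zpowers (-1 : Fˣ))
        rw [hord, hcardU, hr] at h3
        omega
      rw [hidx2, hr, hnm, Nat.gcd_mul_left, Nat.mul_div_cancel_left _ (by norm_num)]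
      apply Nat.gcd_eq_right
      exact (Nat.gcd_dvd_left _ _).trans (Dvd.intro_left _ rfl)
    · exfalso
      obtain ⟨e, he⟩ := H6.alt_class h2 hnm hA
      exact hni (H6.gr_cent_Sp hn2 e he)
  · intro hno
    rw [← hcardU]
    rcases Nat.even_or_odd n with hev | hodd
    · have hp : ¬ Odd p := fun h => hno ⟨hev, h⟩
      have hp2 : p = 2 := (Fact.out : p.Prime).eq_two_or_odd'.resolve_right hp
      have h2 : (2 : F) = 0 := by
        have h3 : ((Fintype.card F : ℕ) : F) = 0 := Nat.cast_card_eq_zero F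
        rw [hF, hp2, Nat.cast_pow] at h3
        have h4 : ((2 : ℕ) : F) = 0 := (pow_eq_zero_iff (n := f) (by omega)).mp h3
        exact_mod_cast h4
      exact H6.split_two hn2 h2 A
    · exact H6.split_odd hn2 hodd A

end Cfsg.Agent.S2702
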