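import Cfsg.Statements.S2703
import Cfsg.Agent.H6.IvD

set_option autoImplicit false
open Cfsg

namespace Cfsg.Agent.S2703

/-- Let T = PSL_n(F) over the field with q elements, q odd, n = 2m ≥ 4 even, and ι the inverse-transpose automorphism. Its centralizer in G = Inndiag(T) (the image of PGL_n(F)) is isomorphic to the projective conformal orthogonal group of the plus-type form Σ xᵢ yᵢ in dimension n when n(q − 1)/4 is even, and to that of a minus-type form (Σ xᵢ yᵢ + z₁² + a z₁ z₂ + b z₂² with anisotropic binary part) when n(q − 1)/4 is odd. -/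
theorem result {F : Type*} [Field F] [Fintype F] (hodd : Odd (Fintype.card F)) {n m : ℕ} (hm : 2 ≤ m) (hnm : n = 2 * m) (ι : MulAut (Matrix.ProjectiveSpecialLinearGroup (Fin n) F)) (hι : Cfsg.IsInverseTransposeAutPSL ι) :
    (Even (n * (Fintype.card F - 1) / 4) → Nonempty (↥(Cfsg.inndiagPSL n F ⊓ Subgroup.centralizer {ι}) ≃* Cfsg.PGO F (Cfsg.quadFormPlus m F))) ∧ (¬ Even (n * (Fintype.card F - 1) / 4) → ∃ a b : F, (∀ z₁ z₂ : F, z₁ ^ 2 + a * z₁ * z₂ + b * z₂ ^ 2 = 0 → z₁ = 0 ∧ z₂ = 0) ∧ Nonempty (↥(Cfsg.inndiagPSL n F ⊓ Subgroup.centralizer {ι}) ≃* Cfsg.PGO F (Cfsg.quadFormMinus (m - 1) F a b))) := by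
  classical
  have h2 : (2 : F) ≠ 0 := H17.two_ne_of_odd hodd
  have hn2 : 2 ≤ n := by omega
  obtain rfl : ι = H17.iP F n := H17.isInvTr_iff.mp hι
  rw [show H17.iP F n = H17.cP (1 : Matrix.GeneralLinearGroup (Fin n) F) * H17.iP F n by rw [H17.cP_one, one_mul]]
  -- sum of squares
  have hb : ∀ x, H6.bA (1 : Matrix.GeneralLinearGroup (Fin n) F) x x = ∑ i, x i * x i := by
    intro x
    unfold H6.bA
    rw [inv_one, Units.val_one, Matrix.one_mulVec]
    rfl
  obtain ⟨r, hr⟩ : ∃ r, Fintype.card F - 1 = 2 * r := by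
    obtain ⟨r, hr⟩ := hodd
    exact ⟨r, by omega⟩
  have hr' : Fintype.card F = 2 * r + 1 := by
    have := Fintype.card_pos (α := F)
    omega
  have hdiv : n * (Fintype.card F - 1) / 4 = m * r := by
    rw [hnm, hr, show 2 * m * (2 * r) = (m * r) * 4 by ring, Nat.mul_div_cancel _ (by norm_num)]
  rw [hdiv]
  obtain ⟨a, b, hab⟩ : ∃ a b : F, a * a + b * b = -1 := by
    obtain ⟨a, b, h⟩ := H5.diag_univ h2 (one_ne_zero (α := F)) (one_ne_zero (α := F)) (-1)
    exact ⟨a, b, by linear_combination h⟩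
  constructor
  · intro hev
    obtain ⟨L, hL⟩ : ∃ L : (Fin m → F) →ₗ[F] (Fin m → F), ∀ x, ∑ j, L x j * L x j = - ∑ j, x j * x j := by
      rcases Nat.even_mul.mp hev with h | h
      · obtain ⟨k, hk⟩ := h
        obtain rfl : m = 2 * k := by omega
        exact H6.exists_L_two hab
      · have h3 : IsSquare (-1 : F) := by
          rw [FiniteField.isSquare_neg_one_iff]
          obtain ⟨s, hs⟩ := h
          omega
        obtain ⟨i, hi⟩ := h3
        exact H6.exists_L_sq hi.symm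
    obtain ⟨ψ, hψ⟩ := H6.sq_plus h2 L hL
    let eq : Fin n ≃ Fin m ⊕ Fin m := Fintype.equivOfCardEq (by simp; omega)
    rw [← H5.qPlus_coe]
    refine H6.gr_cent_Q h2 hn2 H6.trG_one _ (ψ.symm.trans (LinearEquiv.funCongrLeft F F eq)) 1 ?_
    intro v
    obtain ⟨v, rfl⟩ := ψ.surjective v
    rw [hb, LinearEquiv.trans_apply, LinearEquiv.symm_apply_apply, hψ, Units.val_one, one_mul]
    exact eq.sum_comp (fun j => v j * v j)
  · intro hev
    have hev' : ¬ Even m ∧ ¬ Even r := by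
      rw [Nat.even_mul] at hev
      tauto
    obtain ⟨hm2, hr2⟩ := hev'
    rw [Nat.not_even_iff_odd] at hm2 hr2
    obtain ⟨k, hk⟩ := hm2
    have hns : ¬ IsSquare (-1 : F) := by
      rw [FiniteField.isSquare_neg_one_iff]
      obtain ⟨s, hs⟩ := hr2
      omega
    have hm1 : m - 1 = 2 * k := by omega
    obtain ⟨L, hL⟩ : ∃ L : (Fin (m - 1) → F) →ₗ[F] (Fin (m - 1) → F), ∀ x, ∑ j, L x j * L x j = - ∑ j, x j * x j := by
      rw [hm1]
      exact H6.exists_L_two hab
    obtain ⟨ψ, hψ⟩ := H6.sq_minus h2 L hL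
    refine ⟨0, 1, ?_, ?_⟩
    · intro z₁ z₂ hz
      have hz2 : z₂ = 0 := by
        by_contra hne
        apply hns
        refine ⟨z₁ / z₂, ?_⟩
        field_simp
        linear_combination -hz
      subst hz2
      refine ⟨?_, rfl⟩
      have : z₁ ^ 2 = 0 := by linear_combination hz
      exact (pow_eq_zero_iff (by norm_num)).mp this
    · let eq : Fin n ≃ ((Fin (m - 1) ⊕ Fin (m - 1)) ⊕ Fin 2) := Fintype.equivOfCardEq (by simp; omega)
      rw [← H5.qMinus_coe]
      refine H6.gr_cent_Q h2 hn2 H6.trG_one _ (ψ.symm.trans (LinearEquiv.funCongrLeft F F eq)) 1 ?_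
      intro v
      obtain ⟨v, rfl⟩ := ψ.surjective v
      rw [hb, LinearEquiv.trans_apply, LinearEquiv.symm_apply_apply, hψ, Units.val_one, one_mul]
      exact eq.sum_comp (fun j => v j * v j)

end Cfsg.Agent.S2703
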