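import Cfsg.Statements.S2704
import Cfsg.Agent.H17.GFCent

set_option autoImplicit false
open Cfsg

namespace Cfsg.Agent.S2704

/-- Let T = PSL_n(F) over the field F with p^f elements, n ≥ 3, and G = Inndiag(T) the image of PGL_n(F). If x is an involutory graph-field automorphism of T then f is even; x is G-conjugate to every other involutory graph-field automorphism; C_G(x) is isomorphic to the projective general unitary group PGU_n(q₀) with q₀² = p^f, realised over F itself through the Hermitian form Σ uᵢ vᵢ^{q₀}; and the G-class of x is the union of exactly gcd(n, q₀ − 1) T-classes. -/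
theorem result {F : Type*} [Field F] [Fintype F] {p f : ℕ} [Fact p.Prime] (hF : Fintype.card F = p ^ f) (hf : 1 ≤ f) {n : ℕ} (hn : 3 ≤ n) (x : MulAut (Matrix.ProjectiveSpecialLinearGroup (Fin n) F)) (hx : Cfsg.IsGraphFieldAutClassPSL x) (hx2 : orderOf x = 2) :
    Even f ∧ (∀ y : MulAut (Matrix.ProjectiveSpecialLinearGroup (Fin n) F), Cfsg.IsGraphFieldAutClassPSL y → orderOf y = 2 → Cfsg.IsConjUnder (Cfsg.inndiagPSL n F) x y) ∧ Nonempty (↥(Cfsg.inndiagPSL n F ⊓ Subgroup.centralizer {x}) ≃* Cfsg.PGU n F (p ^ (f / 2))) ∧ Cfsg.splitClassCount (Cfsg.inndiagPSL n F) (Cfsg.Inn (Matrix.ProjectiveSpecialLinearGroup (Fin n) F)) x = Nat.gcd n (p ^ (f / 2) - 1) := by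
  classical
  have hF' : Nat.card F = p ^ f := by rw [Nat.card_eq_fintype_card, hF]
  have hn2 : 2 ≤ n := by omega
  obtain ⟨_, g, σ, hσ, hg⟩ := H17.gf_form hx
  have hor : orderOf (H17.fP n σ * H17.iP F n) = 2 := by
    rw [hg, H17.orderOf_conj'] at hx2
    exact hx2
  obtain ⟨_, hσ2⟩ := H17.gf_order_prime hn σ Nat.prime_two hor
  have hσo : orderOf σ = 2 := H17.orderOf_two hσ hσ2
  have hcyc := H17.ringAut_cyclic (F := F) p f (by omega) hF'
  have h2f : 2 ∣ f := by
    rw [← hcyc.2, ← hσo]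
    exact orderOf_dvd_natCard σ
  -- the fixed field of an involution is the field of `q₀` elements
  have hfrob : ∀ z, σ z = z ^ (p ^ (f / 2)) := by
    obtain ⟨τ, hτ1, hτ2, hτ3⟩ := H5.exists_frob (F := F) (q := p ^ (f / 2)) (by
      rw [hF, ← pow_mul, Nat.div_mul_cancel h2f])
    have hinj : Function.Bijective τ := ⟨τ.injective, fun z => ⟨τ z, hτ2 z⟩⟩
    let τ' : F ≃+* F := RingEquiv.ofBijective τ hinj
    have hτ'2 : orderOf τ' = 2 := by
      apply H17.orderOf_two
      · intro h0
        apply hτ3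
        ext z
        exact congrArg (fun e : F ≃+* F => e z) h0
      · ext z
        exact hτ2 z
    haveI := hcyc.1
    have h3 : σ = τ' := by
      haveI : Finite (F ≃+* F) := Finite.of_injective (fun σ : F ≃+* F => (σ : F → F)) DFunLike.coe_injective
      exact H17.involution_unique hσo hτ'2
    intro z
    rw [h3]
    exact hτ1 z
  refine ⟨even_iff_two_dvd.mpr h2f, ?_, ?_, ?_⟩
  · intro y hy hy2
    obtain ⟨_, g', σ', hσ', hg'⟩ := H17.gf_form hy
    have hor' : orderOf (H17.fP n σ' * H17.iP F n) = 2 := by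
      rw [hg', H17.orderOf_conj'] at hy2
      exact hy2
    obtain ⟨_, hσ'2⟩ := H17.gf_order_prime hn σ' Nat.prime_two hor'
    have hσ'o : orderOf σ' = 2 := H17.orderOf_two hσ' hσ'2
    have h3 : σ' = σ := by
      haveI := hcyc.1
      haveI : Finite (F ≃+* F) := Finite.of_injective (fun σ : F ≃+* F => (σ : F → F)) DFunLike.coe_injective
      exact H17.involution_unique hσ'o hσo
    subst h3
    refine ⟨H17.cP (g' * g⁻¹), ?_, ?_⟩
    · rw [H17.inndiag_eq]
      exact H17.mem_cPrange.mpr ⟨_, rfl⟩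
    · rw [hg', hg, H17.cP_mul, H17.cP_inv]
      group
  · rw [hg]
    exact H17.cent_gf hn2 hσ hσ2 hfrob g
  · have h1 : Cfsg.IsConjUnder (Cfsg.inndiagPSL n F) (H17.fP n σ * H17.iP F n) x := by
      refine ⟨H17.cP g, ?_, hg⟩
      rw [H17.inndiag_eq]
      exact H17.mem_cPrange.mpr ⟨g, rfl⟩
    rw [← H17.splitClassCount_conj h1, H17.split_gf hn2 hσ hσ2,
      H17.index_ker_norm (by omega) hF' σ hσo (by norm_num)]

end Cfsg.Agent.S2704
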