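import Cfsg.Statements.S2708
import Cfsg.Agent.H6.IvM
import Cfsg.Agent.S2701

set_option autoImplicit false
open Cfsg

namespace Cfsg.Agent.S2708

/-- Let T = PSU_n(q) with n = 2m ≥ 4 even and q even, realised over the field F (of characteristic 2) with q² elements, and G = Inndiag(T) the image of PGU_n(q). The involutory graph automorphisms of T fall into exactly two G-classes, with representatives whose centralizers in G are isomorphic respectively to the symplectic group Sp_n(F₀) and to the centralizer in Sp_n(F₀) of a symplectic transvection, F₀ a field with q elements. -/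
theorem result {F : Type*} [Field F] [Fintype F] [CharP F 2] {q : ℕ} (hF : Fintype.card F = q ^ 2) {n m : ℕ} (hm : 2 ≤ m) (hnm : n = 2 * m) (F₀ : Type*) [Field F₀] [Fintype F₀] (hF₀ : Fintype.card F₀ = q) :
    ∃ (γ₁ γ₃ : MulAut (Cfsg.PSU n F q)) (t : ↥(Matrix.symplecticGroup (Fin m) F₀)), Cfsg.IsTransvection (t : Matrix (Fin m ⊕ Fin m) (Fin m ⊕ Fin m) F₀) ∧ Cfsg.IsGraphAutClassPSU γ₁ ∧ orderOf γ₁ = 2 ∧ Cfsg.IsGraphAutClassPSU γ₃ ∧ orderOf γ₃ = 2 ∧ ¬ Cfsg.IsConjUnder (Cfsg.inndiagPSU n F q) γ₁ γ₃ ∧ (∀ γ : MulAut (Cfsg.PSU n F q), Cfsg.IsGraphAutClassPSU γ → orderOf γ = 2 → Cfsg.IsConjUnder (Cfsg.inndiagPSU n F q) γ₁ γ ∨ Cfsg.IsConjUnder (Cfsg.inndiagPSU n F q) γ₃ γ) ∧ Nonempty (↥(Cfsg.inndiagPSU n F q ⊓ Subgroup.centralizer {γ₁}) ≃* ↥(Matrix.symplecticGroup (Fin m) F₀)) ∧ Nonempty (↥(Cfsg.inndiagPSU n F q ⊓ Subgroup.centralizer {γ₃}) ≃* ↥(Subgroup.centralizer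 ({t} : Set ↥(Matrix.symplecticGroup (Fin m) F₀)))) := by
  classical
  have hn3 : 3 ≤ n := by omega
  obtain ⟨κ, j, S⟩ := H6.exists_SetU hF F₀ hF₀
  haveI : CharP F₀ 2 := by
    apply CharTwo.of_one_ne_zero_of_two_eq_zero one_ne_zero
    apply j.injective
    rw [map_zero, map_ofNat]
    exact CharTwo.two_eq_zero
  obtain ⟨γ₁, γ₃, t, ht, g1, o1, g3, o3, n13, hall, c1, c3⟩ := S2701.result (F := F₀) hm hnm
  obtain ⟨B₁, A₁, rfl, R₁, q₁⟩ := H6.partner S hn3 g1 o1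
  obtain ⟨B₃, A₃, rfl, R₃, q₃⟩ := H6.partner S hn3 g3 o3
  obtain ⟨i1⟩ := H6.cent_V S hn3 R₁
  obtain ⟨i3⟩ := H6.cent_V S hn3 R₃
  obtain ⟨c1⟩ := c1
  obtain ⟨c3⟩ := c3
  refine ⟨H6.gU κ A₁, H6.gU κ A₃, t, ht, H6.gU_isClass S hn3 _, H6.gU_ord S hn3 q₁,
    H6.gU_isClass S hn3 _, H6.gU_ord S hn3 q₃, ?_, ?_, ⟨i1.trans c1⟩, ⟨i3.trans c3⟩⟩
  · rw [H6.conj_V S hn3 R₁ R₃]; exact n13
  · intro γ hγ hγ2
    obtain ⟨B, A, rfl, R, hB, hB2⟩ := H6.partner' S hn3 hγ hγ2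
    rw [H6.conj_V S hn3 R₁ R, H6.conj_V S hn3 R₃ R]
    exact hall _ hB hB2

end Cfsg.Agent.S2708
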