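import Cfsg.Statements.S2709
import Cfsg.Agent.H6.IvN
import Cfsg.Agent.H6.IvF

set_option autoImplicit false
open Cfsg

namespace Cfsg.Agent.S2709

/-- Let T = PSU_n(q) be simple (n ≥ 3, (n,q) ≠ (3,2), q = p^f), realised over the field F with q² elements, G = Inndiag(T) the image of PGU_n(q), and γ an involutory graph automorphism of T. The G-class of γ is the union of exactly c T-classes, where: if n is even and q is odd, c = gcd(n/2, q + 1) when C_G(γ) is isomorphic to PGSp_n(F₀) for a field F₀ with q elements (symplectic type) and c = gcd(n, q + 1)/2 otherwise; and c = gcd(n, q + 1) when n is odd or q is even. -/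
theorem result {F : Type*} [Field F] [Fintype F] {p f q : ℕ} [Fact p.Prime] (hq : q = p ^ f) (hf : 1 ≤ f) (hF : Fintype.card F = q ^ 2) {n : ℕ} (hn : 3 ≤ n) (hs : ¬ (n = 3 ∧ q = 2)) (F₀ : Type*) [Field F₀] [Fintype F₀] (hF₀ : Fintype.card F₀ = q) (γ : MulAut (Cfsg.PSU n F q)) (hγ : Cfsg.IsGraphAutClassPSU γ) (hγ2 : orderOf γ = 2) :
    ((Even n ∧ Odd q ∧ Nonempty (↥(Cfsg.inndiagPSU n F q ⊓ Subgroup.centralizer {γ}) ≃* Cfsg.PGSp (n / 2) F₀)) → Cfsg.splitClassCount (Cfsg.inndiagPSU n F q) (Cfsg.Inn (Cfsg.PSU n F q)) γ = Nat.gcd (n / 2) (q + 1)) ∧ ((Even n ∧ Odd q ∧ ¬ Nonempty (↥(Cfsg.inndiagPSU n F q ⊓ Subgroup.centralizer {γ}) ≃* Cfsg.PGSp (n / 2) F₀)) → Cfsg.splitClassCount (Cfsg.inndiagPSU n F q) (Cfsg.Inn (Cfsg.PSU n F q)) γ = Nat.gcd n (q + 1) / 2) ∧ (¬ (Even n ∧ Odd q) → Cfsg.splitClassCount (Cfsg.inndiagPSU n F q) (Cfsg.Inn (Cfsg.PSU n F q)) γ = Nat.gcd n (q + 1)) := by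
  classical
  obtain ⟨κ, j, S⟩ := H6.exists_SetU hF F₀ hF₀
  obtain ⟨A₀, A, rfl, ⟨h, ε, lam, s₀, R, hs, hl⟩, hB, hB2⟩ := H6.partner' S hn hγ hγ2
  have hn2 : 2 ≤ n := by omega
  obtain ⟨i⟩ := H6.cent_V S hn ⟨h, ε, lam, s₀, R, hs, hl⟩
  have hsq := pow_orderOf_eq_one (H17.cP A₀ * H17.iP F₀ n)
  rw [hB2, pow_two] at hsq
  have hcardD := H6.cardD S (n := n) (by omega)
  have hidx : ∀ m : ℕ, ((powMonoidHom m : (H5.detGU n F q).range →* (H5.detGU n F q).range).range).index = Nat.gcd m (q + 1) := by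
    intro m
    have h := H17.index_range_pow_sup (G := (H5.detGU n F q).range) m ⊥
    rw [sup_bot_eq, Subgroup.index_bot, hcardD] at h
    exact h
  refine ⟨?_, ?_, ?_⟩
  · rintro ⟨hev, hqo, ⟨iso⟩⟩
    have h2 : (2 : F₀) ≠ 0 := H17.two_ne_of_odd (by rw [hF₀]; exact hqo)
    obtain ⟨m, hm⟩ := hev
    have hnm : n = 2 * m := by omega
    have hm2 : 2 ≤ m := by omega
    have hdiv : n / 2 = m := by omega
    rw [hdiv] at iso ⊢
    rcases H6.gr_sq hn2 hsq with hA | hA
    · exfalso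
      obtain ⟨ζ, hζ⟩ := H17.exists_zeta F₀
      have hab := H17.zeta_aniso hζ
      rcases H6.sym_class h2 (by omega) hnm hA hab with ⟨ψ, hψ⟩ | ⟨ψ, hψ⟩
      · obtain ⟨iso'⟩ := H6.gr_cent_Q h2 hn2 hA (H5.qPlus m F₀) ψ.symm 1 (fun v => by
          rw [← hψ, LinearEquiv.apply_symm_apply, Units.val_one, one_mul])
        haveI : Nonempty (Fin m ⊕ Fin m) := ⟨Sum.inl ⟨0, by omega⟩⟩
        refine H6.PGSp_ne_PGO hm2 (H5.qPlus m F₀) ?_ ⟨iso.symm.trans (i.trans iso')⟩
        rw [H5.qPlus_coe]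
        exact H6.card_plus_lt hm2
      · obtain ⟨iso'⟩ := H6.gr_cent_Q h2 hn2 hA (H5.qMinus (m - 1) F₀ 1 ζ) ψ.symm 1 (fun v => by
          rw [← hψ, LinearEquiv.apply_symm_apply, Units.val_one, one_mul])
        haveI : Nonempty ((Fin (m - 1) ⊕ Fin (m - 1)) ⊕ Fin 2) := ⟨Sum.inr 0⟩
        refine H6.PGSp_ne_PGO hm2 (H5.qMinus (m - 1) F₀ 1 ζ) ?_ ⟨iso.symm.trans (i.trans iso')⟩
        rw [H5.qMinus_coe]
        exact H6.card_minus_lt hm2 hab
    · obtain ⟨e, he⟩ := H6.alt_class h2 hnm hA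
      rw [H6.splitU_alt S hn (by omega) hnm R e he, hidx, hnm]
      apply Nat.gcd_eq_right
      exact (Nat.gcd_dvd_left _ _).trans (Dvd.intro_left _ rfl)
  · rintro ⟨hev, hqo, hni⟩
    have h2 : (2 : F₀) ≠ 0 := H17.two_ne_of_odd (by rw [hF₀]; exact hqo)
    obtain ⟨m, hm⟩ := hev
    have hnm : n = 2 * m := by omega
    have hm2 : 2 ≤ m := by omega
    have hdiv : n / 2 = m := by omega
    rw [hdiv] at hni
    rcases H6.gr_sq hn2 hsq with hA | hA
    · obtain ⟨neg, hneg⟩ : ∃ neg : (H5.detGU n F q).range, (neg : Fˣ) = -1 := by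
        refine ⟨⟨-1, ?_⟩, rfl⟩
        rw [H6.memD S (by omega)]
        have : H17.uM κ (-1) = -1 := by
          apply Units.ext
          rw [H17.coe_uM, Units.val_neg, Units.val_one, map_neg, map_one]
        rw [this, neg_mul_neg, mul_one]
      rw [H6.splitU_sym S h2 hn (by omega) hnm R hA neg hneg, H17.index_range_pow_sup]
      obtain ⟨r, hr⟩ : ∃ r, q + 1 = 2 * r := by
        obtain ⟨r, hr⟩ := hqo
        exact ⟨r + 1, by omega⟩
      have hord : Nat.card (Subgroup.zpowers neg) = 2 := by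
        rw [Nat.card_zpowers]
        apply orderOf_eq_prime
        · apply Subtype.ext
          rw [Subgroup.coe_pow, hneg, neg_one_sq]
          rfl
        · intro h
          have h3 := congrArg (fun z : (H5.detGU n F q).range => ((z : Fˣ) : F)) h
          simp only [hneg, Units.val_neg, Units.val_one, Subgroup.coe_one] at h3
          apply h2
          apply j.injective
          rw [map_zero, map_ofNat]
          linear_combination -h3
      have hidx2 : (Subgroup.zpowers neg).index = r := by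
        have h3 := Subgroup.index_mul_card (Subgroup.zpowers neg)
        rw [hord, hcardD, hr] at h3
        omega
      rw [hidx2, hr, hnm, Nat.gcd_mul_left, Nat.mul_div_cancel_left _ (by norm_num)]
      apply Nat.gcd_eq_right
      exact (Nat.gcd_dvd_left _ _).trans (Dvd.intro_left _ rfl)
    · exfalso
      obtain ⟨e, he⟩ := H6.alt_class h2 hnm hA
      obtain ⟨c⟩ := H6.gr_cent_Sp hn2 e he
      exact hni ⟨i.trans c⟩
  · intro hno
    rcases Nat.even_or_odd n with hev | hodd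
    · have hqo : ¬ Odd q := fun h => hno ⟨hev, h⟩
      have hp2 : p = 2 := (Fact.out : p.Prime).eq_two_or_odd'.resolve_right (fun h => hqo (by rw [hq]; exact h.pow))
      have h2 : (2 : F) = 0 := by
        have h3 : ((Fintype.card F : ℕ) : F) = 0 := Nat.cast_card_eq_zero F
        rw [hF, hq, hp2, ← pow_mul, Nat.cast_pow] at h3
        have h4 : ((2 : ℕ) : F) = 0 := (pow_eq_zero_iff (n := f * 2) (by omega)).mp h3
        exact_mod_cast h4
      exact H6.splitU_two S hn h2 A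
    · exact H6.splitU_odd S hn hodd A

end Cfsg.Agent.S2709
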