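import Cfsg.Statements.S2710
import Cfsg.Agent.H6.IvM
import Cfsg.Agent.S2703

set_option autoImplicit false
open Cfsg

namespace Cfsg.Agent.S2710

/-- Let T = PSU_n(q) with n ≥ 4 divisible by 4 (n = 2m) and q odd, realised over the field F with q² elements, G = Inndiag(T) the image of PGU_n(q), and φ the standard field automorphism of T attached to the q-th power map of F (it induces inverse-transpose on the unitary matrices and is a graph automorphism). Its centralizer in G is isomorphic to the projective conformal orthogonal group of the plus-type form Σ xᵢ yᵢ in dimension n over a field F₀ with q elements. (Dimensions n ≡ 2 (mod 4) are not covered.) -/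
theorem result {F : Type*} [Field F] [Fintype F] {q : ℕ} (hodd : Odd q) (hF : Fintype.card F = q ^ 2) {n m : ℕ} (hm : 2 ≤ m) (hnm : n = 2 * m) (h4 : 4 ∣ n) (F₀ : Type*) [Field F₀] [Fintype F₀] (hF₀ : Fintype.card F₀ = q) (σ : F ≃+* F) (hσ : ∀ a : F, σ a = a ^ q) (φ : MulAut (Cfsg.PSU n F q)) (hφ : Cfsg.IsFieldAutPSUOf σ φ) :
    Nonempty (↥(Cfsg.inndiagPSU n F q ⊓ Subgroup.centralizer {φ}) ≃* Cfsg.PGO F₀ (Cfsg.quadFormPlus m F₀)) := by
  classical
  have hn3 : 3 ≤ n := by omega
  obtain ⟨κ, j, S⟩ := H6.exists_SetU hF F₀ hF₀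
  obtain rfl : σ = κ := RingEquiv.ext fun x => by rw [hσ, S.hκ]
  obtain rfl := H17.fieldU_iff.mp hφ
  have hR : H6.RelV σ j (1 : GU n F q) (1 : Matrix.GeneralLinearGroup (Fin n) F₀) := by
    refine ⟨1, 1, 1, 1, ⟨?_, ?_⟩, ?_, ?_⟩
    · rw [map_one, map_one, inv_one, mul_one, mul_one]; rfl
    · rw [H6.stG, map_one, inv_one, inv_one, mul_one, map_one, map_one, mul_one]
    · rw [H6.trG_one, map_one, mul_one]
    · rw [map_one, map_one, mul_one]
  obtain ⟨i⟩ := H6.cent_V S hn3 hR
  have e1 : H6.gU σ (1 : GU n F q) = H17.fU n F q σ := by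
    unfold H6.gU
    rw [map_one, one_mul]
  rw [e1] at i
  have hev : Even (n * (Fintype.card F₀ - 1) / 4) := by
    obtain ⟨k, hk⟩ := h4
    obtain ⟨r, hr⟩ := hodd
    rw [hF₀, hk, hr, Nat.add_sub_cancel, show 4 * k * (2 * r) = (k * (2 * r)) * 4 by ring, Nat.mul_div_cancel _ (by norm_num)]
    exact ⟨k * r, by ring⟩
  obtain ⟨c⟩ := (S2703.result (F := F₀) (by rw [hF₀]; exact hodd) hm hnm (H17.cP (1 : Matrix.GeneralLinearGroup (Fin n) F₀) * H17.iP F₀ n) (by
    rw [H17.cP_one, one_mul]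
    exact H17.isInvTr_iff.mpr rfl)).1 hev
  exact ⟨i.trans c⟩

end Cfsg.Agent.S2710
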