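import Cfsg.Statements.S2711
import Cfsg.Agent.H17.UFieldSplit
set_option autoImplicit false
open Cfsg

namespace Cfsg.Agent.S2711

/-- Let T = PSU_n(q) be simple (n ≥ 3, (n,q) ≠ (3,2)), realised over the field F with q² elements, and let x be a field automorphism of T (conjugate to a standard field automorphism of odd order) of prime order r. Then an element y of the coset Inndiag(T)·x (y = δ x with δ in the image of PGU_n(q)) has order r if and only if y is conjugate to x by an element of Inndiag(T). (T has no graph-field automorphisms.) -/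
theorem result {F : Type*} [Field F] [Fintype F] {p f q : ℕ} [Fact p.Prime] (hq : q = p ^ f) (hf : 1 ≤ f) (hF : Fintype.card F = q ^ 2) {n : ℕ} (hn : 3 ≤ n) (hs : ¬ (n = 3 ∧ q = 2)) (x δ : MulAut (Cfsg.PSU n F q)) (hx : Cfsg.IsFieldAutClassPSU x) {r : ℕ} (hr : r.Prime) (hxr : orderOf x = r) (hδ : δ ∈ Cfsg.inndiagPSU n F q) :
    orderOf (δ * x) = r ↔ Cfsg.IsConjUnder (Cfsg.inndiagPSU n F q) x (δ * x) := by
  classical
  have hcP : ∀ z ∈ Cfsg.inndiagPSU n F q, ∃ g : Cfsg.GU n F q, H17.cU n F q g = z := by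
    intro z hz
    rw [H17.inndiagPSU_eq] at hz
    exact hz
  have hcP' : ∀ g : Cfsg.GU n F q, H17.cU n F q g ∈ Cfsg.inndiagPSU n F q := by
    intro g
    rw [H17.inndiagPSU_eq]
    exact ⟨g, rfl⟩
  obtain ⟨d, rfl⟩ := hcP δ hδ
  obtain ⟨g, σ, hσ, hodd, hg⟩ := H17.field_form_U hF hn hs hx
  have hor : orderOf σ = r := by
    rw [hg, H17.orderOf_conj', H17.orderOf_fU hF hn] at hxr
    exact hxr
  have hro : Odd r := by rw [← hor]; exact hodd
  have hF' : Nat.card F = p ^ (2 * f) := by rw [Nat.card_eq_fintype_card, hF, hq, ← pow_mul, mul_comm]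
  have h1 : r ∣ 2 * f := by
    rw [← (H17.ringAut_cyclic p (2 * f) (by omega) hF').2, ← hor]
    exact orderOf_dvd_natCard σ
  have hrf : r ∣ f := (Nat.Coprime.dvd_mul_left (Nat.Coprime.symm (Nat.coprime_two_left.mpr hro))).mp h1
  have hfr : f / r ≠ 0 := by
    obtain ⟨m, hm⟩ := hrf
    rw [hm, Nat.mul_div_cancel_left _ hr.pos]
    rintro rfl
    omega
  haveI : Fintype (GaloisField p (2 * (f / r))) := Fintype.ofFinite _
  obtain ⟨_, U, hU⟩ := H17.exists_UFix hq hf hF hor hro (GaloisField p (2 * (f / r))) (by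
    rw [← Nat.card_eq_fintype_card]
    exact GaloisField.card p _ (by omega))
  subst hU
  constructor
  · intro h
    have e1 : H17.cU n F q d * x = H17.cU n F q g * (H17.cU n F q (g⁻¹ * d * g) * H17.fU n F q U.τ) * (H17.cU n F q g)⁻¹ := by
      rw [hg, map_mul, map_mul, map_inv]
      group
    rw [e1, H17.orderOf_conj'] at h
    obtain ⟨b, hb⟩ := H17.field_conj_U hF hn U (g⁻¹ * d * g) (by
      have := pow_orderOf_eq_one (H17.cU n F q (g⁻¹ * d * g) * H17.fU n F q U.τ)
      rwa [h] at this)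
    refine ⟨H17.cU n F q (g * b * g⁻¹), hcP' _, ?_⟩
    rw [e1, hb, hg, map_mul, map_mul, map_inv]
    group
  · rintro ⟨h, _, hh⟩
    rw [hh, H17.orderOf_conj', hxr]

end Cfsg.Agent.S2711
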