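import Cfsg.Statements.S2712
import Cfsg.Agent.H17.SpField2

set_option autoImplicit false
open Cfsg

namespace Cfsg.Agent.S2712

/-- Let T = PSp_{2m}(F) be simple over the field F with p^f elements (m ≥ 2, (2m, |F|) ≠ (4, 2)), G = Inndiag(T) the image of the projective conformal symplectic group PGSp_{2m}(F), and x a field automorphism of T of prime order r. Then r divides f; C_G(x) is isomorphic to PGSp_{2m}(F₀) for a field F₀ with p^(f/r) elements; and the G-class of x is the union of exactly gcd(gcd(2, p^f − 1), r) T-classes. -/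
theorem result {F : Type*} [Field F] [Fintype F] {p f : ℕ} [Fact p.Prime] (hF : Fintype.card F = p ^ f) (hf : 1 ≤ f) {m : ℕ} (hm : 2 ≤ m) (hs : m = 2 → 3 ≤ Fintype.card F) (x : MulAut (Cfsg.PSp m F)) (hx : Cfsg.IsFieldAutClassPSp x) {r : ℕ} (hr : r.Prime) (hxr : orderOf x = r) (F₀ : Type*) [Field F₀] [Fintype F₀] (hF₀ : Fintype.card F₀ = p ^ (f / r)) :
    r ∣ f ∧ Nonempty (↥(Cfsg.inndiagPSp m F ⊓ Subgroup.centralizer {x}) ≃* Cfsg.PGSp m F₀) ∧ Cfsg.splitClassCount (Cfsg.inndiagPSp m F) (Cfsg.Inn (Cfsg.PSp m F)) x = Nat.gcd (Nat.gcd 2 (p ^ f - 1)) r := by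
  classical
  have hF' : Nat.card F = p ^ f := by rw [Nat.card_eq_fintype_card, hF]
  have hF₀' : Nat.card F₀ = p ^ (f / r) := by rw [Nat.card_eq_fintype_card, hF₀]
  obtain ⟨α, σ, hσ, hg⟩ := H17.field_form_Sp hx
  have hor : orderOf σ = r := by
    rw [hg, H17.orderOf_transport, H17.orderOf_fS hm] at hxr
    exact hxr
  obtain ⟨hrf, j, hj⟩ := H17.exists_fixed_emb hF' σ hor F₀ hF₀'
  refine ⟨hrf, ?_, ?_⟩
  · rw [hg]
    obtain ⟨e⟩ := H17.cent_transport (H17.innSp_transport hm α) (H17.fS m F σ)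
    obtain ⟨e'⟩ := H17.cent_field_Sp (m := m) hm hor hr.pos hj
    exact ⟨e.symm.trans e'⟩
  · rw [hg, ← H17.split_transport (H17.innSp_transport hm α) (H17.mem_Inn_transport α), H17.split_field_Sp hm hor hr.pos]
    have h2 := (H17.fixU σ).card_mul_index
    rw [H17.card_fixU (by omega) hF' σ hor, Nat.card_units, hF'] at h2
    obtain ⟨k, hk⟩ := hrf
    have hfr : f / r = k := by rw [hk, Nat.mul_div_cancel_left _ hr.pos]
    rw [hfr] at h2
    have hpk : p ^ f = (p ^ k) ^ r := by rw [hk, ← pow_mul, mul_comm]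
    have h3 : 1 < p ^ k := by
      rw [← hfr, ← hF₀']
      exact Finite.one_lt_card
    have hidx : (H17.fixU σ).index = ∑ i ∈ Finset.range r, (p ^ k) ^ i := by
      have h4 := Nat.geomSum_eq h3 r
      rw [h4, ← hpk, ← h2, Nat.mul_div_cancel_left _ (by omega)]
    rw [hidx]
    rcases Nat.even_or_odd p with hp2 | hp2
    · have hpp : p = 2 := (Nat.Prime.even_iff (Fact.out : p.Prime)).mp hp2
      have hkp : k ≠ 0 := by
        rintro rfl
        rw [pow_zero] at h3
        omega
      have e1 : ∀ n : ℕ, Odd (∑ i ∈ Finset.range (n + 1), (p ^ k) ^ i) := by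
        intro n
        induction n with
        | zero => simp
        | succ n ih =>
          rw [Finset.sum_range_succ]
          apply Odd.add_even ih
          rw [hpp]
          exact (Nat.even_pow.mpr ⟨Nat.even_pow.mpr ⟨even_two, hkp⟩, Nat.succ_ne_zero n⟩)
      have e2 : Odd (∑ i ∈ Finset.range r, (p ^ k) ^ i) := by
        obtain ⟨n, rfl⟩ : ∃ n, r = n + 1 := ⟨r - 1, by have := hr.pos; omega⟩
        exact e1 n
      have e3 : Odd (p ^ f - 1) := by
        rw [hpp]
        have : Even (2 ^ f) := Nat.even_pow.mpr ⟨even_two, by omega⟩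
        obtain ⟨t, ht⟩ := this
        have hpos : 0 < 2 ^ f := by positivity
        exact ⟨t - 1, by omega⟩
      rw [Nat.Coprime.gcd_eq_one (Nat.coprime_two_left.mpr e2), Nat.Coprime.gcd_eq_one (Nat.coprime_two_left.mpr e3), Nat.gcd_one_left]
    · have e3 : 2 ∣ p ^ f - 1 := by
        have : Odd (p ^ f) := hp2.pow
        obtain ⟨t, ht⟩ := this
        exact ⟨t, by omega⟩
      rw [Nat.gcd_eq_left e3]
      have e1 : ∀ n : ℕ, (∑ i ∈ Finset.range n, (p ^ k) ^ i) % 2 = n % 2 := by
        intro n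
        induction n with
        | zero => simp
        | succ n ih =>
          rw [Finset.sum_range_succ, Nat.add_mod, ih]
          have : Odd ((p ^ k) ^ n) := (hp2.pow).pow
          rw [Nat.odd_iff] at this
          rw [this]
          omega
      rw [Nat.gcd_rec, e1 r, ← Nat.gcd_rec]

end Cfsg.Agent.S2712
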