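import Cfsg.Statements.S2713
import Cfsg.Agent.H17.SpField2

set_option autoImplicit false
open Cfsg

namespace Cfsg.Agent.S2713

/-- Let T = PSp_{2m}(F) be simple over a finite field (m ≥ 2, (2m, |F|) ≠ (4, 2)) and let x be a field automorphism of T of prime order r. Then an element y of the coset Inndiag(T)·x (y = δ x with δ in the image of the projective conformal symplectic group) has order r if and only if y is conjugate to x by an element of Inndiag(T). -/
theorem result {F : Type*} [Field F] [Fintype F] {m : ℕ} (hm : 2 ≤ m) (hs : m = 2 → 3 ≤ Fintype.card F) (x δ : MulAut (Cfsg.PSp m F)) (hx : Cfsg.IsFieldAutClassPSp x) {r : ℕ} (hr : r.Prime) (hxr : orderOf x = r) (hδ : δ ∈ Cfsg.inndiagPSp m F) :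
    orderOf (δ * x) = r ↔ Cfsg.IsConjUnder (Cfsg.inndiagPSp m F) x (δ * x) := by
  classical
  obtain ⟨p, hp⟩ := CharP.exists F
  haveI : Fact p.Prime := ⟨CharP.char_is_prime F p⟩
  obtain ⟨⟨f, hf0⟩, -, hF⟩ := FiniteField.card F p
  simp only [PNat.mk_coe] at hF
  have hF' : Nat.card F = p ^ f := by rw [Nat.card_eq_fintype_card, hF]
  obtain ⟨α, σ, hσ, hg⟩ := H17.field_form_Sp hx
  have hor : orderOf σ = r := by
    rw [hg, H17.orderOf_transport, H17.orderOf_fS hm] at hxr
    exact hxr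
  have hrf : r ∣ f := by
    have h := (H17.ringAut_cyclic (F := F) p f (by omega) hF').2
    rw [← h, ← hor]
    exact orderOf_dvd_natCard σ
  have hfr : f / r ≠ 0 := by
    obtain ⟨k, hk⟩ := hrf
    rw [hk, Nat.mul_div_cancel_left _ hr.pos]
    rintro rfl
    rw [mul_zero] at hk
    omega
  obtain ⟨_, j, hj⟩ := H17.exists_fixed_emb hF' σ hor (GaloisField p (f / r)) (GaloisField.card p (f / r) hfr)
  obtain ⟨d, hd⟩ : ∃ d : GSp m F, α⁻¹ * δ * α = H17.cS m F d := by
    have h1 : α⁻¹ * δ * α⁻¹⁻¹ ∈ inndiagPSp m F := (H17.innSp_transport hm α⁻¹ δ).mpr hδ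
    rw [inv_inv, H17.inndiagPSp_eq] at h1
    obtain ⟨d, hd⟩ := h1
    exact ⟨d, hd.symm⟩
  have e1 : δ * x = α * (H17.cS m F d * H17.fS m F σ) * α⁻¹ := by
    rw [hg, ← hd]; group
  constructor
  · intro h
    rw [e1, H17.orderOf_transport] at h
    obtain ⟨b, hb⟩ := H17.field_conj_Sp hm hor hr.pos hj d (by rw [← h, pow_orderOf_eq_one])
    rw [e1, hg, H17.isConjUnder_transport (H17.innSp_transport hm α)]
    refine ⟨H17.cS m F b, ?_, hb⟩
    rw [H17.inndiagPSp_eq]
    exact ⟨b, rfl⟩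
  · rintro ⟨h, _, hh⟩
    rw [hh, H17.orderOf_transport, hxr]

end Cfsg.Agent.S2713
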