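import Cfsg.Statements.S2715
import Cfsg.Agent.H17.PlusG

set_option autoImplicit false
open Cfsg

namespace Cfsg.Agent.S2715

/-- Let T = PΩ⁺_{2m}(F) (m ≥ 4, |F| = p^f; the form Σ xᵢ yᵢ), G = Inndiag(T) the image of the class-preserving similarities in Aut(T), and x a field automorphism of T of prime order r. Then r divides f; C_G(x) is isomorphic to Inndiag(PΩ⁺_{2m}(F₀)) for a field F₀ with p^(f/r) elements; and the G-class of x is the union of exactly c T-classes, where c = 1 if r is odd or p = 2, and otherwise (r = 2, p odd) c = 2 when m is odd and p^(f/2) ≡ 1 (mod 4), and c = 4 in the remaining cases. -/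
theorem result {F : Type*} [Field F] [Fintype F] {p f : ℕ} [Fact p.Prime] (hF : Fintype.card F = p ^ f) (hf : 1 ≤ f) {m : ℕ} (hm : 4 ≤ m) (x : MulAut (Cfsg.POmega F (Cfsg.quadFormPlus m F))) (hx : Cfsg.IsFieldAutClassPOmega (Cfsg.quadFormPlus m F) x) {r : ℕ} (hr : r.Prime) (hxr : orderOf x = r) (F₀ : Type*) [Field F₀] [Fintype F₀] (hF₀ : Fintype.card F₀ = p ^ (f / r)) :
    r ∣ f ∧ Nonempty (↥(Cfsg.inndiagPOmegaPlus m F ⊓ Subgroup.centralizer {x}) ≃* ↥(Cfsg.inndiagPOmegaPlus m F₀)) ∧ ((Odd r ∨ p = 2) → Cfsg.splitClassCount (Cfsg.inndiagPOmegaPlus m F) (Cfsg.Inn (Cfsg.POmega F (Cfsg.quadFormPlus m F))) x = 1) ∧ ((r = 2 ∧ p ≠ 2 ∧ Odd m ∧ p ^ (f / 2) % 4 = 1) → Cfsg.splitClassCount (Cfsg.inndiagPOmegaPlus m F) (Cfsg.Inn (Cfsg.POmega F (Cfsg.quadFormPlus m F))) x = 2) ∧ ((r = 2 ∧ p ≠ 2 ∧ ¬ (Odd m ∧ p ^ (f / 2) % 4 = 1)) → Cfsg.splitClassCount (Cfsg.inndiagPOmegaPlus m F) (Cfsg.Inn (Cfsg.POmega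 F (Cfsg.quadFormPlus m F))) x = 4) := by
  have h := Cfsg.Agent.H17.field_plus (p := p) (f := f) hm (by rw [Nat.card_eq_fintype_card]; exact hF)
    (Cfsg.quadFormPlus m F) (Cfsg.Agent.H5.qPlus_coe m F).symm x hx hr hxr F₀ (by rw [Nat.card_eq_fintype_card]; exact hF₀)
    (Cfsg.quadFormPlus m F₀) (Cfsg.Agent.H5.qPlus_coe m F₀).symm
  obtain ⟨h1, h2, h3, h4, h5⟩ := h
  have hchar : (2 : F) = 0 ↔ p = 2 := by
    haveI : CharP F p := charP_of_card_eq_prime_pow hF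
    constructor
    · intro h
      have h7 : ((2 : ℕ) : F) = 0 := by exact_mod_cast h
      rw [CharP.cast_eq_zero_iff F p] at h7
      exact (Nat.prime_dvd_prime_iff_eq (Fact.out : p.Prime) Nat.prime_two).mp h7
    · rintro rfl
      exact_mod_cast CharP.cast_eq_zero F 2
  have hm1 : r = 2 → p ≠ 2 → (IsSquare (-1 : F₀) ↔ p ^ (f / 2) % 4 = 1) := by
    intro hr2 hp
    subst hr2
    rw [FiniteField.isSquare_neg_one_iff, hF₀]
    have hodd : Odd (p ^ (f / 2)) := ((Fact.out : p.Prime).odd_of_ne_two hp).pow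
    have := Nat.odd_iff.mp hodd
    omega
  refine ⟨h1, h2, ?_, ?_, ?_⟩
  · rintro (h | h)
    · exact h3 (Or.inl h)
    · exact h3 (Or.inr (hchar.mpr h))
  · rintro ⟨hr2, hp, hmo, hq⟩
    exact h4 hr2 (fun h => hp (hchar.mp h)) ⟨hmo, (hm1 hr2 hp).mpr hq⟩
  · rintro ⟨hr2, hp, hnot⟩
    exact h5 hr2 (fun h => hp (hchar.mp h)) (fun h => hnot ⟨h.1, (hm1 hr2 hp).mp h.2⟩)

end Cfsg.Agent.S2715
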