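import Cfsg.Statements.S2717
import Cfsg.Agent.H17.GFPlus3

set_option autoImplicit false
open Cfsg

namespace Cfsg.Agent.S2717

/-- Let T = PΩ⁺_{2m}(F) with m ≥ 5 (dimension 2m ≠ 8) and |F| = p^f, G = Inndiag(T), and x an involutory graph-field automorphism of T. Then f is even; any two involutory graph-field automorphisms of T are G-conjugate; C_G(x) is isomorphic to Inndiag(PΩ⁻_{2m}(F₀)) for a field F₀ with p^(f/2) elements (some anisotropic binary part over F₀); and the G-class of x is the union of exactly c T-classes with c = 1 if p = 2, c = 4 if p is odd, m is odd and p^(f/2) ≡ 1 (mod 4), and c = 2 otherwise. -/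
theorem result {F : Type*} [Field F] [Fintype F] {p f : ℕ} [Fact p.Prime] (hF : Fintype.card F = p ^ f) (hf : 1 ≤ f) {m : ℕ} (hm : 5 ≤ m) (x : MulAut (Cfsg.POmega F (Cfsg.quadFormPlus m F))) (hx : Cfsg.IsGraphFieldAutClassPOmegaPlus m x) (hx2 : orderOf x = 2) (F₀ : Type*) [Field F₀] [Fintype F₀] (hF₀ : Fintype.card F₀ = p ^ (f / 2)) :
    Even f ∧ (∀ y : MulAut (Cfsg.POmega F (Cfsg.quadFormPlus m F)), Cfsg.IsGraphFieldAutClassPOmegaPlus m y → orderOf y = 2 → Cfsg.IsConjUnder (Cfsg.inndiagPOmegaPlus m F) x y) ∧ (∃ a₀ b₀ : F₀, (∀ z₁ z₂ : F₀, z₁ ^ 2 + a₀ * z₁ * z₂ + b₀ * z₂ ^ 2 = 0 → z₁ = 0 ∧ z₂ = 0) ∧ Nonempty (↥(Cfsg.inndiagPOmegaPlus m F ⊓ Subgroup.centralizer {x}) ≃* ↥(Cfsg.inndiagPOmegaMinus (m - 1) F₀ a₀ b₀))) ∧ (p = 2 → Cfsg.splitClassCount (Cfsg.inndiagPOmegaPlus m F) (Cfsg.Inn (Cfsg.POmega F (Cfsg.quadFormPlus m F))) x = 1) ∧ ((p ≠ 2 ∧ Odd m ∧ p ^ (f / 2) % 4 = 1)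 → Cfsg.splitClassCount (Cfsg.inndiagPOmegaPlus m F) (Cfsg.Inn (Cfsg.POmega F (Cfsg.quadFormPlus m F))) x = 4) ∧ ((p ≠ 2 ∧ ¬ (Odd m ∧ p ^ (f / 2) % 4 = 1)) → Cfsg.splitClassCount (Cfsg.inndiagPOmegaPlus m F) (Cfsg.Inn (Cfsg.POmega F (Cfsg.quadFormPlus m F))) x = 2) := by
  obtain ⟨n, rfl⟩ : ∃ n, m = n + 1 := ⟨m - 1, by omega⟩
  have h := Cfsg.Agent.H17.gf_plus (p := p) (f := f) (n := n) (by omega) (by rw [Nat.card_eq_fintype_card]; exact hF)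
    (Cfsg.quadFormPlus (n + 1) F) (Cfsg.Agent.H5.qPlus_coe (n + 1) F).symm x hx hx2 F₀ (by rw [Nat.card_eq_fintype_card]; exact hF₀)
    (Cfsg.quadFormMinus n F₀) (Cfsg.Agent.H17.quadFormMinus_eq n F₀)
  obtain ⟨h1, h2, h3, h4, h5, h6⟩ := h
  have hchar : (2 : F) = 0 ↔ p = 2 := by
    haveI : CharP F p := by
      apply charP_of_card_eq_prime_pow hF
    constructor
    · intro h
      have h7 : ((2 : ℕ) : F) = 0 := by exact_mod_cast h
      rw [CharP.cast_eq_zero_iff F p] at h7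
      exact (Nat.prime_dvd_prime_iff_eq (Fact.out : p.Prime) Nat.prime_two).mp h7
    · rintro rfl
      exact_mod_cast CharP.cast_eq_zero F 2
  have hm1 : p ≠ 2 → (IsSquare (-1 : F₀) ↔ p ^ (f / 2) % 4 = 1) := by
    intro hp
    rw [FiniteField.isSquare_neg_one_iff, hF₀]
    have hodd : Odd (p ^ (f / 2)) := ((Fact.out : p.Prime).odd_of_ne_two hp).pow
    have := Nat.odd_iff.mp hodd
    omega
  have hpar : Odd (n + 1) ↔ Even n := by
    rw [Nat.odd_add_one, Nat.not_odd_iff_even]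
  refine ⟨even_iff_two_dvd.mpr h1, h2, h3, ?_, ?_, ?_⟩
  · intro hp; exact h4 (hchar.mpr hp)
  · rintro ⟨hp, ho, hq⟩
    exact h5 (fun h => hp (hchar.mp h)) (hpar.mp ho) ((hm1 hp).mpr hq)
  · rintro ⟨hp, hnot⟩
    exact h6 (fun h => hp (hchar.mp h)) (fun h => hnot ⟨hpar.mpr h.1, (hm1 hp).mp h.2⟩)

end Cfsg.Agent.S2717
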