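import Cfsg.Statements.S2738
import Mathlib

set_option autoImplicit false
open Cfsg

namespace Cfsg.Agent.S2738

/-- The special linear group SL(3, 4) has centre of order 3 and does not split over it: no subgroup is a complement to the centre (so SL(3, 4) is a non-split central extension of PSL(3, 4) by a group of order 3). -/
theorem result (F : Type*) [Field F] [Fintype F] (hF : Fintype.card F = 4) : Nat.card ↥(Subgroup.center (Matrix.SpecialLinearGroup (Fin 3) F)) = 3 ∧ ¬ ∃ K : Subgroup (Matrix.SpecialLinearGroup (Fin 3) F), Subgroup.IsComplement' (Subgroup.center (Matrix.SpecialLinearGroup (Fin 3) F)) K := by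
  classical
  have hcube : ∀ u : Fˣ, u ^ 3 = 1 := by
    intro u
    have h1 : Fintype.card Fˣ = 3 := by rw [Fintype.card_units, hF]
    rw [← h1]; exact pow_card_eq_one
  constructor
  · let e := Matrix.SpecialLinearGroup.center_equiv_rootsOfUnity (n := Fin 3) (R := F)
    rw [Nat.card_congr e.toEquiv]
    have h1 : rootsOfUnity (max (Fintype.card (Fin 3)) 1) F = ⊤ := by
      rw [eq_top_iff]
      intro u _
      rw [mem_rootsOfUnity]
      exact hcube u
    rw [h1, Subgroup.card_top, Nat.card_eq_fintype_card, Fintype.card_units, hF]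
  · rintro ⟨K, hK⟩
    obtain ⟨ζ, hζ⟩ := IsCyclic.exists_generator (α := Fˣ)
    have hord : orderOf ζ = 3 := by
      have h1 := orderOf_eq_card_of_forall_mem_zpowers hζ
      rw [h1, Nat.card_eq_fintype_card, Fintype.card_units, hF]
    set w : F := (ζ : F) with hw
    have hw3 : w ^ 3 = 1 := by
      have := congrArg (fun u : Fˣ => (u : F)) (hcube ζ)
      simpa using this
    have hw1 : w ≠ 1 := by
      intro h
      have : ζ = 1 := Units.ext h
      rw [this, orderOf_one] at hord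
      norm_num at hord
    let a : Matrix.SpecialLinearGroup (Fin 3) F := ⟨!![1, 0, 0; 0, w, 0; 0, 0, w ^ 2], by
      rw [Matrix.det_fin_three]; simp; rw [← hw3]; ring⟩
    let b : Matrix.SpecialLinearGroup (Fin 3) F := ⟨!![0, 1, 0; 0, 0, 1; 1, 0, 0], by
      rw [Matrix.det_fin_three]; simp⟩
    let c : Matrix.SpecialLinearGroup (Fin 3) F := ⟨!![w, 0, 0; 0, w, 0; 0, 0, w], by
      rw [Matrix.det_fin_three]; simp; rw [← hw3]; ring⟩
    have hc : c ∈ Subgroup.center (Matrix.SpecialLinearGroup (Fin 3) F) := by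
      rw [Matrix.SpecialLinearGroup.mem_center_iff]
      refine ⟨w, by simpa using hw3, ?_⟩
      ext i j
      fin_cases i <;> fin_cases j <;> simp [c]
    have hba : b * a = c * (a * b) := by
      apply Subtype.ext
      show (b : Matrix (Fin 3) (Fin 3) F) * (a : Matrix (Fin 3) (Fin 3) F) = (c : Matrix (Fin 3) (Fin 3) F) * ((a : Matrix (Fin 3) (Fin 3) F) * (b : Matrix (Fin 3) (Fin 3) F))
      ext i j
      fin_cases i <;> fin_cases j <;> simp [a, b, c, Matrix.mul_apply, Fin.sum_univ_three]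
      · ring
      · rw [← hw3]; ring
    -- decomposition
    have hdec : ∀ g : Matrix.SpecialLinearGroup (Fin 3) F, ∃ z ∈ Subgroup.center (Matrix.SpecialLinearGroup (Fin 3) F), ∃ k ∈ K, z * k = g := by
      intro g
      obtain ⟨⟨z, k⟩, h⟩ := hK.2 g
      exact ⟨z, z.2, k, k.2, h⟩
    obtain ⟨z₁, hz₁, k₁, hk₁, ha⟩ := hdec a
    obtain ⟨z₂, hz₂, k₂, hk₂, hb⟩ := hdec b
    have hcK : c ∈ K := by
      have h1 : c = b * a * (a * b)⁻¹ := by rw [hba]; group
      have h2 : b * a * (a * b)⁻¹ = k₂ * k₁ * (k₁ * k₂)⁻¹ := by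
        have hz1 := Subgroup.mem_center_iff.mp hz₁
        have hz2 := Subgroup.mem_center_iff.mp hz₂
        have e1 : b * a = z₁ * z₂ * (k₂ * k₁) := by
          rw [← ha, ← hb]
          calc z₂ * k₂ * (z₁ * k₁) = z₂ * (k₂ * z₁) * k₁ := by group
            _ = z₂ * (z₁ * k₂) * k₁ := by rw [hz1 k₂]
            _ = (z₂ * z₁) * (k₂ * k₁) := by group
            _ = z₁ * z₂ * (k₂ * k₁) := by rw [hz1 z₂]
        have e2 : a * b = z₁ * z₂ * (k₁ * k₂) := by
          rw [← ha, ← hb]
          calc z₁ * k₁ * (z₂ * k₂) = z₁ * (k₁ * z₂) * k₂ := by group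
            _ = z₁ * (z₂ * k₁) * k₂ := by rw [hz2 k₁]
            _ = z₁ * z₂ * (k₁ * k₂) := by group
        rw [e1, e2]
        have hzz : z₁ * z₂ ∈ Subgroup.center (Matrix.SpecialLinearGroup (Fin 3) F) := Subgroup.mul_mem _ hz₁ hz₂
        have hzz' := Subgroup.mem_center_iff.mp hzz
        calc z₁ * z₂ * (k₂ * k₁) * (z₁ * z₂ * (k₁ * k₂))⁻¹
            = (z₁ * z₂) * ((k₂ * k₁) * (k₁ * k₂)⁻¹) * (z₁ * z₂)⁻¹ := by group
          _ = ((k₂ * k₁) * (k₁ * k₂)⁻¹) * (z₁ * z₂) * (z₁ * z₂)⁻¹ := by rw [← hzz' ((k₂ * k₁) * (k₁ * k₂)⁻¹)]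
          _ = k₂ * k₁ * (k₁ * k₂)⁻¹ := by group
      rw [h1, h2]
      exact K.mul_mem (K.mul_mem hk₂ hk₁) (K.inv_mem (K.mul_mem hk₁ hk₂))
    have hdisj := hK.disjoint
    have h3 : c = 1 := by
      have := Subgroup.disjoint_def.mp hdisj hc hcK
      exact this
    have h4 := congrArg (fun g : Matrix.SpecialLinearGroup (Fin 3) F => (g : Matrix (Fin 3) (Fin 3) F) 0 0) h3
    simp [c] at h4
    exact hw1 h4

end Cfsg.Agent.S2738
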