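import Cfsg.Statements.S2739

set_option autoImplicit false
set_option linter.all false
open scoped Pointwise
open Cfsg

namespace Cfsg.Agent.S2739

open Matrix

section
variable {F : Type*} [Field F]

theorem ch3 (g : Matrix (Fin 3) (Fin 3) F) : ∃ t s : F, g * g * g = t • (g * g) - s • g + g.det • 1 ∧
    ∀ a : F, (a • (1 : Matrix (Fin 3) (Fin 3) F) - g).det = a ^ 3 - t * a ^ 2 + s * a - g.det := by
  refine ⟨g 0 0 + g 1 1 + g 2 2,
    g 0 0 * g 1 1 - g 0 1 * g 1 0 + (g 0 0 * g 2 2 - g 0 2 * g 2 0) + (g 1 1 * g 2 2 - g 1 2 * g 2 1), ?_, ?_⟩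
  · ext i j
    fin_cases i <;> fin_cases j <;>
      simp [Matrix.mul_apply, Fin.sum_univ_three, Matrix.det_fin_three] <;> ring
  · intro a
    simp [Matrix.det_fin_three]
    ring

variable [Fintype F]

theorem cube_one (hF : Fintype.card F = 4) {a : F} (ha : a ≠ 0) : a ^ 3 = 1 := by
  have := FiniteField.pow_card_sub_one_eq_one a ha
  rwa [hF] at this

theorem two_zero (hF : Fintype.card F = 4) : (2 : F) = 0 := by
  have h := FiniteField.cast_card_eq_zero F
  rw [hF] at h
  have h2 : (2 : F) * 2 = 0 := by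
    have : ((4 : ℕ) : F) = 2 * 2 := by norm_num
    rw [← this]; exact h
  rcases mul_eq_zero.1 h2 with h3 | h3 <;> exact h3

theorem exists_omega (hF : Fintype.card F = 4) : ∃ w : F, w ≠ 0 ∧ w ≠ 1 ∧ w ^ 2 + w + 1 = 0 := by
  classical
  obtain ⟨w, hw⟩ : ∃ w : F, w ∉ ({0, 1} : Finset F) := by
    by_contra hcon
    push Not at hcon
    have h1 : (Finset.univ : Finset F) ⊆ {0, 1} := fun x _ => hcon x
    have h2 := Finset.card_le_card h1
    rw [Finset.card_univ, hF] at h2
    have h3 : ({0, 1} : Finset F).card ≤ 2 := Finset.card_le_two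
    omega
  simp only [Finset.mem_insert, Finset.mem_singleton, not_or] at hw
  refine ⟨w, hw.1, hw.2, ?_⟩
  have h1 := cube_one hF hw.1
  have h2 : (w - 1) * (w ^ 2 + w + 1) = 0 := by linear_combination h1
  exact (mul_eq_zero.1 h2).resolve_left (sub_ne_zero.2 hw.2)

/-- an element of `SL(3,4)` with scalar cube, not scalar itself -/
theorem cube_eq_one (hF : Fintype.card F = 4) {g : Matrix (Fin 3) (Fin 3) F} (hdet : g.det = 1) {l : F}
    (hl : g * g * g = l • 1) (hns : ∀ a : F, g ≠ a • 1) : g * g * g = 1 ∧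
      ∀ a : F, a ^ 3 = 1 → (a • (1 : Matrix (Fin 3) (Fin 3) F) - g).det = 0 := by
  obtain ⟨t, s, h1, h2⟩ := ch3 g
  rw [hl, hdet, one_smul] at h1
  have hginv : ∀ a : F, a • g = 0 → a = 0 := by
    intro a ha
    by_contra hne
    have : g = 0 := by
      have := congrArg (fun m => a⁻¹ • m) ha
      simpa [smul_smul, inv_mul_cancel₀ hne] using this
    exact hns 0 (by rw [this, zero_smul])
  -- t = 0
  have ht : t = 0 := by
    by_contra ht
    obtain ⟨α, hα⟩ : ∃ α, α = t⁻¹ * s := ⟨_, rfl⟩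
    obtain ⟨β, hβ⟩ : ∃ β, β = t⁻¹ * (l - 1) := ⟨_, rfl⟩
    have h3 : g * g = α • g + β • 1 := by
      have h4 : t • (g * g) = s • g + (l - 1) • (1 : Matrix (Fin 3) (Fin 3) F) := by
        rw [sub_smul, h1, one_smul]; abel
      have h5 := congrArg (fun m => t⁻¹ • m) h4
      simp only [smul_smul, smul_add, inv_mul_cancel₀ ht, one_smul] at h5
      rw [h5, hα, hβ]
    have h6 : g * g * g = (α ^ 2 + β) • g + (α * β) • 1 := by
      rw [h3, add_mul, smul_mul_assoc, smul_mul_assoc, one_mul, h3, smul_add, smul_smul, smul_smul, add_smul, pow_two]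
      abel
    rw [hl] at h6
    have h7 : α ^ 2 + β = 0 := by
      by_contra hne
      apply hns ((α ^ 2 + β)⁻¹ * (l - α * β))
      have h8 : (α ^ 2 + β) • g = (l - α * β) • (1 : Matrix (Fin 3) (Fin 3) F) := by
        rw [sub_smul, h6]; abel
      have h9 := congrArg (fun m => (α ^ 2 + β)⁻¹ • m) h8
      simpa [smul_smul, inv_mul_cancel₀ hne] using h9
    rw [h7, zero_smul, zero_add] at h6
    have h8 : l = α * β := by
      have := congrArg (fun m : Matrix (Fin 3) (Fin 3) F => m 0 0) h6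
      simpa using this
    -- g invertible so β ≠ 0
    by_cases hα0 : α = 0
    · have hβ0 : β = 0 := by rw [hα0] at h7; simpa using h7
      have h9 : g * g = 0 := by rw [h3, hα0, hβ0]; simp
      have h10 := congrArg Matrix.det h9
      rw [Matrix.det_mul, hdet, Matrix.det_zero] at h10
      simp at h10
    · have h9 := cube_one hF hα0
      have h10 : l = 1 := by
        have h11 : β = - α ^ 2 := by linear_combination h7
        have h12 := two_zero hF
        rw [h8, h11]
        linear_combination -h9 - h12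
      -- then t g^2 = s g, so t g = s
      rw [h10, sub_self, mul_zero] at hβ
      rw [hβ, mul_zero] at h8
      rw [h10] at h8
      exact one_ne_zero h8
  rw [ht, zero_smul, zero_sub] at h1
  have hs : s = 0 := by
    by_contra hs
    apply hns (s⁻¹ * (1 - l))
    have h3 : s • g = (1 - l) • (1 : Matrix (Fin 3) (Fin 3) F) := by
      rw [sub_smul, h1, one_smul]; abel
    have h9 := congrArg (fun m => s⁻¹ • m) h3
    simpa [smul_smul, inv_mul_cancel₀ hs] using h9
  rw [hs, zero_smul, neg_zero, zero_add] at h1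
  refine ⟨by rw [hl, h1], ?_⟩
  intro a ha
  rw [h2, ht, hs, hdet, ha]; ring

/-- diagonalisation -/
theorem exists_conj (hF : Fintype.card F = 4) {w : F} (hw0 : w ≠ 0) (hw1 : w ≠ 1) (hw : w ^ 2 + w + 1 = 0)
    {g : Matrix (Fin 3) (Fin 3) F} (hg : ∀ a : F, a ^ 3 = 1 → (a • (1 : Matrix (Fin 3) (Fin 3) F) - g).det = 0) :
    ∃ S : Matrix (Fin 3) (Fin 3) F, S.det = 1 ∧ g * S = S * Matrix.diagonal ![1, w, w ^ 2] := by
  have hw3 := cube_one hF hw0
  have hev : ∀ a : F, a ^ 3 = 1 → ∃ v : Fin 3 → F, v ≠ 0 ∧ g *ᵥ v = a • v := by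
    intro a ha
    obtain ⟨v, hv, hv2⟩ := Matrix.exists_mulVec_eq_zero_iff.2 (hg a ha)
    refine ⟨v, hv, ?_⟩
    rw [Matrix.sub_mulVec, Matrix.smul_mulVec, Matrix.one_mulVec, sub_eq_zero] at hv2
    exact hv2.symm
  obtain ⟨v0, hv0, hg0⟩ := hev 1 (one_pow 3)
  obtain ⟨v1, hv1, hg1⟩ := hev w hw3
  obtain ⟨v2, hv2, hg2⟩ := hev (w ^ 2) (by rw [← pow_mul, mul_comm, pow_mul, hw3, one_pow])
  have hw2 : w ^ 2 ≠ 1 := by
    intro h
    rw [pow_succ, h, one_mul] at hw3
    exact hw1 hw3
  have hw12 : w ^ 2 ≠ w := by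
    intro h
    apply hw1
    have : w * (w - 1) = 0 := by linear_combination h
    exact sub_eq_zero.1 ((mul_eq_zero.1 this).resolve_left hw0)
  -- S with columns v0 v1 v2
  obtain ⟨S, hS⟩ : ∃ S : Matrix (Fin 3) (Fin 3) F, S = Matrix.of (fun i j => ![v0 i, v1 i, v2 i] j) := ⟨_, rfl⟩
  have hgS : g * S = S * Matrix.diagonal ![1, w, w ^ 2] := by
    ext i j
    have e0 := congrFun hg0 i
    have e1 := congrFun hg1 i
    have e2 := congrFun hg2 i
    simp only [Matrix.mulVec, dotProduct, Fin.sum_univ_three, Pi.smul_apply, smul_eq_mul] at e0 e1 e2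
    rw [hS]
    fin_cases j
    · simp [Matrix.mul_apply, Fin.sum_univ_three]
      linear_combination e0
    · simp [Matrix.mul_apply, Fin.sum_univ_three]
      linear_combination e1
    · simp [Matrix.mul_apply, Fin.sum_univ_three]
      linear_combination e2
  have hdetS : S.det ≠ 0 := by
    intro h0
    obtain ⟨c, hc, hc2⟩ := Matrix.exists_mulVec_eq_zero_iff.2 h0
    -- c0 v0 + c1 v1 + c2 v2 = 0
    have hlin : c 0 • v0 + c 1 • v1 + c 2 • v2 = 0 := by
      ext i
      have := congrFun hc2 i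
      rw [hS] at this
      simp only [Matrix.mulVec, dotProduct, Fin.sum_univ_three, Matrix.of_apply, Pi.zero_apply] at this
      simp at this
      simp only [Pi.add_apply, Pi.smul_apply, smul_eq_mul, Pi.zero_apply]
      linear_combination this
    have hlin2 : c 0 • v0 + (c 1 * w) • v1 + (c 2 * w ^ 2) • v2 = 0 := by
      have h1 := congrArg (fun v => g *ᵥ v) hlin
      simp only [Matrix.mulVec_add, Matrix.mulVec_smul, hg0, hg1, hg2, Matrix.mulVec_zero, one_smul, smul_smul] at h1
      exact h1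
    have hlin3 : c 0 • v0 + (c 1 * w * w) • v1 + (c 2 * w ^ 2 * w ^ 2) • v2 = 0 := by
      have h1 := congrArg (fun v => g *ᵥ v) hlin2
      simp only [Matrix.mulVec_add, Matrix.mulVec_smul, hg0, hg1, hg2, Matrix.mulVec_zero, one_smul, smul_smul] at h1
      exact h1
    have hz : ∀ (a : F) (v : Fin 3 → F), v ≠ 0 → a • v = 0 → a = 0 := by
      intro a v hv h
      exact (smul_eq_zero.1 h).resolve_right hv
    have h3 : (3 : F) = 1 := by linear_combination two_zero hF
    have k0 : c 0 = 0 := by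
      apply hz _ v0 hv0
      ext i
      have a1 := congrFun hlin i
      have a2 := congrFun hlin2 i
      have a3 := congrFun hlin3 i
      simp only [Pi.add_apply, Pi.smul_apply, smul_eq_mul, Pi.zero_apply] at a1 a2 a3 ⊢
      linear_combination a1 + a2 + a3 - c 0 * v0 i * two_zero hF - c 1 * v1 i * hw - c 2 * v2 i * (hw + w * hw3)
    have k1 : c 1 = 0 := by
      apply hz _ v1 hv1
      ext i
      have a1 := congrFun hlin i
      have a2 := congrFun hlin2 i
      have a3 := congrFun hlin3 i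
      simp only [Pi.add_apply, Pi.smul_apply, smul_eq_mul, Pi.zero_apply] at a1 a2 a3 ⊢
      linear_combination a1 + w ^ 2 * a2 + w * a3 - c 0 * v0 i * hw - c 1 * v1 i * (two_zero hF + 2 * hw3) - c 2 * v2 i * (hw + w * hw3 + w ^ 2 * hw3)
    have k2 : c 2 = 0 := by
      apply hz _ v2 hv2
      rw [k0, k1] at hlin
      simpa using hlin
    apply hc
    ext i
    fin_cases i
    · exact k0
    · exact k1
    · exact k2
  -- normalise the determinant
  refine ⟨S * Matrix.diagonal ![(S.det)⁻¹, 1, 1], ?_, ?_⟩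
  · rw [Matrix.det_mul, Matrix.det_diagonal, Fin.prod_univ_three]
    simp [mul_inv_cancel₀ hdetS]
  · rw [← mul_assoc, hgS, mul_assoc, mul_assoc, Matrix.diagonal_mul_diagonal, Matrix.diagonal_mul_diagonal]
    congr 2
    ext i
    fin_cases i <;> simp

end


/-- In the projective special linear group PSL(3, 4) all subgroups of order 3 are conjugate. -/
theorem result (F : Type*) [Field F] [Fintype F] (hF : Fintype.card F = 4) (X Y : Subgroup (Matrix.ProjectiveSpecialLinearGroup (Fin 3) F)) (hX : Nat.card ↥X = 3) (hY : Nat.card ↥Y = 3) : ∃ g : Matrix.ProjectiveSpecialLinearGroup (Fin 3) F, MulAut.conj g • X = Y := by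
  classical
  obtain ⟨w, hw0, hw1, hw⟩ := exists_omega hF
  have hw3 := cube_one hF hw0
  let D : Matrix.SpecialLinearGroup (Fin 3) F := ⟨Matrix.diagonal ![1, w, w ^ 2], by
    rw [Matrix.det_diagonal, Fin.prod_univ_three]
    simp
    linear_combination hw3⟩
  have key : ∀ X : Subgroup (Matrix.ProjectiveSpecialLinearGroup (Fin 3) F), Nat.card X = 3 →
      ∃ g : Matrix.ProjectiveSpecialLinearGroup (Fin 3) F,
        X = MulAut.conj g • Subgroup.zpowers (QuotientGroup.mk' _ D : Matrix.ProjectiveSpecialLinearGroup (Fin 3) F) := by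
    intro X hX
    haveI : Fact (Nat.Prime 3) := ⟨Nat.prime_three⟩
    haveI : IsCyclic X := isCyclic_of_prime_card hX
    obtain ⟨x, hx⟩ := IsCyclic.exists_generator (α := X)
    have hxX : X = Subgroup.zpowers (x : Matrix.ProjectiveSpecialLinearGroup (Fin 3) F) := by
      apply le_antisymm
      · intro y hy
        obtain ⟨k, hk⟩ := hx ⟨y, hy⟩
        exact ⟨k, congrArg Subtype.val hk⟩
      · rw [Subgroup.zpowers_le]; exact x.2
    have hx3 : (x : Matrix.ProjectiveSpecialLinearGroup (Fin 3) F) ^ 3 = 1 := by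
      have := pow_card_eq_one' (x := x)
      rw [hX] at this
      exact congrArg Subtype.val this
    have hx1 : (x : Matrix.ProjectiveSpecialLinearGroup (Fin 3) F) ≠ 1 := by
      intro h
      rw [h, Subgroup.zpowers_one_eq_bot] at hxX
      rw [hxX, Subgroup.card_bot] at hX
      omega
    obtain ⟨g, hg⟩ := QuotientGroup.mk'_surjective (Subgroup.center (Matrix.SpecialLinearGroup (Fin 3) F)) (x : Matrix.ProjectiveSpecialLinearGroup (Fin 3) F)
    have hg3 : g ^ 3 ∈ Subgroup.center (Matrix.SpecialLinearGroup (Fin 3) F) := by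
      rw [← QuotientGroup.ker_mk' (Subgroup.center (Matrix.SpecialLinearGroup (Fin 3) F)), MonoidHom.mem_ker, map_pow, hg]
      exact hx3
    obtain ⟨l, -, hl⟩ := Matrix.SpecialLinearGroup.mem_center_iff.1 hg3
    have hl' : g.1 * g.1 * g.1 = l • 1 := by
      have e1 : ((g ^ 3 : Matrix.SpecialLinearGroup (Fin 3) F) : Matrix (Fin 3) (Fin 3) F) = g.1 * g.1 * g.1 := by
        rw [Matrix.SpecialLinearGroup.coe_pow, pow_succ, pow_two]
      rw [← e1]
      refine hl.symm.trans ?_
      rw [Matrix.scalar_apply, Matrix.smul_one_eq_diagonal]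
    have hns : ∀ a : F, g.1 ≠ a • 1 := by
      intro a ha
      apply hx1
      rw [← hg]
      have : g ∈ Subgroup.center (Matrix.SpecialLinearGroup (Fin 3) F) := by
        rw [Matrix.SpecialLinearGroup.mem_center_iff]
        have ha0 : a ≠ 0 := by
          intro h0
          have h5 := g.2
          rw [ha, h0, zero_smul, Matrix.det_zero] at h5
          exact zero_ne_one h5
        refine ⟨a, by rw [Fintype.card_fin]; exact cube_one hF ha0, ?_⟩
        rw [Matrix.scalar_apply, ← Matrix.smul_one_eq_diagonal]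
        exact ha.symm
      rwa [← QuotientGroup.ker_mk' (Subgroup.center (Matrix.SpecialLinearGroup (Fin 3) F)), MonoidHom.mem_ker] at this
    obtain ⟨-, h2⟩ := cube_eq_one hF g.2 hl' hns
    obtain ⟨S0, hS, hgS⟩ := exists_conj hF hw0 hw1 hw h2
    obtain ⟨S, hSS⟩ : ∃ S : Matrix.SpecialLinearGroup (Fin 3) F, S.1 = S0 := ⟨⟨S0, hS⟩, rfl⟩
    have h3 : g = S * D * S⁻¹ := by
      rw [eq_mul_inv_iff_mul_eq]
      apply Subtype.ext
      rw [Matrix.SpecialLinearGroup.coe_mul, Matrix.SpecialLinearGroup.coe_mul]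
      show g.1 * S.1 = S.1 * _
      rw [hSS]; exact hgS
    refine ⟨QuotientGroup.mk' _ S, ?_⟩
    rw [hxX]
    have h4 : (x : Matrix.ProjectiveSpecialLinearGroup (Fin 3) F) =
        MulAut.conj (QuotientGroup.mk' _ S : Matrix.ProjectiveSpecialLinearGroup (Fin 3) F) (QuotientGroup.mk' _ D) := by
      rw [← hg, h3, map_mul, map_mul, map_inv]; rfl
    rw [h4]
    exact (MonoidHom.map_zpowers (MulAut.conj (QuotientGroup.mk' _ S : Matrix.ProjectiveSpecialLinearGroup (Fin 3) F)).toMonoidHom _).symm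
  obtain ⟨a, ha⟩ := key X hX
  obtain ⟨b, hb⟩ := key Y hY
  refine ⟨b * a⁻¹, ?_⟩
  rw [ha, hb, smul_smul, ← map_mul, inv_mul_cancel_right]

end Cfsg.Agent.S2739
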