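import Cfsg.Statements.S2756
import Cfsg.Agent.H4.InvH

set_option autoImplicit false
open Cfsg

namespace Cfsg.Agent.S2756

open Cfsg.Agent

/-- For a finite group G the following are equivalent: (a) G has a normal Sylow 2-subgroup; (b) for every odd prime q dividing the order of G and every Sylow q-subgroup T, the normalizer of Z(J(T)) has a normal Sylow 2-subgroup; (c) for every odd prime q and every Sylow q-subgroup T, no nonidentity element of T is inverted by an element of the normalizer of Z(J(T)). Here J(T) is the Thompson subgroup generated by the abelian subgroups of T of largest order. Stated as the two equivalences (a) ⇔ (b) and (a) ⇔ (c). -/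
theorem result {G : Type*} [Group G] [Finite G] : ((∀ P : Sylow 2 G, (P : Subgroup G).Normal) ↔ ∀ (q : ℕ) [Fact q.Prime], q ≠ 2 → q ∣ Nat.card G → ∀ T : Sylow q G, ∀ P : Sylow 2 ↥(Subgroup.normalizer (Cfsg.centerThompsonAOf (T : Subgroup G) : Set G)), (P : Subgroup ↥(Subgroup.normalizer (Cfsg.centerThompsonAOf (T : Subgroup G) : Set G))).Normal) ∧ ((∀ P : Sylow 2 G, (P : Subgroup G).Normal) ↔ ∀ (q : ℕ) [Fact q.Prime], q ≠ 2 → ∀ T : Sylow q G, ∀ x ∈ (T : Subgroup G), x ≠ 1 → ∀ g ∈ Subgroup.normalizer (Cfsg.centerThompsonAOf (T : Subgroup G) : Set G), g * x * g⁻¹ ≠ x⁻¹) := by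
  have ha : (∀ P : Sylow 2 G, (P : Subgroup G).Normal) → ∀ (q : ℕ) [Fact q.Prime], q ≠ 2 → ∀ T : Sylow q G, ∀ x ∈ (T : Subgroup G), x ≠ 1 → ∀ g ∈ Subgroup.normalizer (Cfsg.centerThompsonAOf (T : Subgroup G) : Set G), g * x * g⁻¹ ≠ x⁻¹ := by
    intro h q _ hq2 T x hx hx1 g _
    exact H4.niOf_of_sylow_two_normal h hq2 x (Subgroup.mem_top _) (H18.isPGroup_of_mem T.2 hx) hx1 g
      (Subgroup.mem_top _)
  have hb : (∀ P : Sylow 2 G, (P : Subgroup G).Normal) → ∀ (q : ℕ) [Fact q.Prime], q ≠ 2 → q ∣ Nat.card G → ∀ T : Sylow q G, ∀ P : Sylow 2 ↥(Subgroup.normalizer (Cfsg.centerThompsonAOf (T : Subgroup G) : Set G)), (P : Subgroup ↥(Subgroup.normalizer (Cfsg.centerThompsonAOf (T : Subgroup G) : Set G))).Normal := by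
    intro h q _ hq2 _ T P
    exact H4.sylow_two_normal_sub h _ P
  have hbc : (∀ (q : ℕ) [Fact q.Prime], q ≠ 2 → q ∣ Nat.card G → ∀ T : Sylow q G, ∀ P : Sylow 2 ↥(Subgroup.normalizer (Cfsg.centerThompsonAOf (T : Subgroup G) : Set G)), (P : Subgroup ↥(Subgroup.normalizer (Cfsg.centerThompsonAOf (T : Subgroup G) : Set G))).Normal) → ∀ (q : ℕ) [Fact q.Prime], q ≠ 2 → ∀ T : Sylow q G, ∀ x ∈ (T : Subgroup G), x ≠ 1 → ∀ g ∈ Subgroup.normalizer (Cfsg.centerThompsonAOf (T : Subgroup G) : Set G), g * x * g⁻¹ ≠ x⁻¹ := by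
    intro h q hq hq2 T x hx hx1 g hg
    have hdvd : q ∣ Nat.card G := by
      obtain ⟨k, hk⟩ := H18.isPGroup_of_mem T.2 hx
      have h1 := orderOf_dvd_of_pow_eq_one hk
      obtain ⟨j, hj, hj2⟩ := (Nat.dvd_prime_pow hq.out).1 h1
      have h3 : j ≠ 0 := by
        rintro rfl
        rw [pow_zero] at hj2
        exact hx1 (orderOf_eq_one_iff.1 hj2)
      exact ((dvd_pow_self q h3).trans (by rw [hj2])).trans (orderOf_dvd_natCard x)
    have h1 := H4.niOf_of_sylow_two_normal (h q hq2 hdvd T) hq2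
    have h2 := H4.niOf_iff_top.2 h1
    refine h2 x ?_ (H18.isPGroup_of_mem T.2 hx) hx1 g hg
    rw [H2.centerThompsonAOf_eq]
    exact H4.le_NZ _ hx
  have hca : (∀ (q : ℕ) [Fact q.Prime], q ≠ 2 → ∀ T : Sylow q G, ∀ x ∈ (T : Subgroup G), x ≠ 1 → ∀ g ∈ Subgroup.normalizer (Cfsg.centerThompsonAOf (T : Subgroup G) : Set G), g * x * g⁻¹ ≠ x⁻¹) → (∀ P : Sylow 2 G, (P : Subgroup G).Normal) := by
    intro h
    apply H4.sylow_two_normal_of_ni
    intro q _ hq2
    exact H4.ni_of_cq hq2 _ G rfl (H4.cq_of_forall (h q hq2))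
  exact ⟨⟨hb, fun h => hca (hbc h)⟩, ⟨ha, hca⟩⟩

end Cfsg.Agent.S2756
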