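import Cfsg.Statements.S2758
import Cfsg.Agent.H18.DihInv

set_option autoImplicit false
open Cfsg
open Cfsg.Agent.H18

namespace Cfsg.Agent.S2758

/-- For an odd prime p and a finite group G the following are equivalent: the dihedral group of order 2p is involved in G; some element of 2-power order normalizes but does not centralize some p-subgroup of G; some element of 2-power order inverts some nonidentity element of p-power order. -/
theorem result {G : Type*} [Group G] [Finite G] {p : ℕ} [Fact p.Prime] (hp : p ≠ 2) : (Cfsg.Involves (DihedralGroup p) G ↔ ∃ (x : G) (P : Subgroup G), (∃ k : ℕ, orderOf x = 2 ^ k) ∧ IsPGroup p ↥P ∧ x ∈ Subgroup.normalizer (P : Set G) ∧ x ∉ Subgroup.centralizer (P : Set G)) ∧ (Cfsg.Involves (DihedralGroup p) G ↔ ∃ x y : G, (∃ k : ℕ, orderOf x = 2 ^ k) ∧ (∃ k : ℕ, orderOf y = p ^ k) ∧ y ≠ 1 ∧ x * y * x⁻¹ = y⁻¹) := by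
  refine ⟨⟨fun h => exists_of_involves_dihedral hp h, ?_⟩, ⟨?_, ?_⟩⟩
  · rintro ⟨x, P, hx, hP, h1, h2⟩
    exact involves_dihedral_of_b hp hx hP h1 h2
  · intro h
    obtain ⟨x, P, hx, hP, h1, h2⟩ := exists_of_involves_dihedral hp h
    obtain ⟨x', -, y, -, ho, hy, hy1, hinv⟩ := exists_c_of_b hx hP h1 h2
    exact ⟨x', y, ho, hy, hy1, hinv⟩
  · rintro ⟨x, y, hx, hy, hy1, hxy⟩
    exact involves_dihedral_of_inverted hp hx hy hy1 hxy

end Cfsg.Agent.S2758
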