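import Cfsg.Statements.S2760
import Cfsg.Agent.H18.Basics

set_option autoImplicit false
open Cfsg

namespace Cfsg.Agent.S2760

/-- Let G be a finite group with C_G(O₂(G)) ≤ O₂(G) and H a subgroup of G such that H is normal in G, or the subgroup O²(H) generated by the elements of H of odd order is normal in G. Then C_H(O₂(H)) ≤ O₂(H). -/
theorem result {G : Type*} [Group G] [Finite G] (hchar : Subgroup.centralizer (Cfsg.pCore 2 G : Set G) ≤ Cfsg.pCore 2 G) (H : Subgroup G) (hH : H.Normal ∨ ((Cfsg.pResidual 2 ↥H).map H.subtype).Normal) : Subgroup.centralizer (Cfsg.pCore 2 ↥H : Set ↥H) ≤ Cfsg.pCore 2 ↥H := by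
  have htop : (⊤ : Subgroup G) ⊓ Subgroup.centralizer ((Cfsg.pCoreOf 2 (⊤ : Subgroup G) : Subgroup G) : Set G) ≤
      Cfsg.pCoreOf 2 (⊤ : Subgroup G) := by
    rw [H18.pCoreOf_top, top_inf_eq]; exact hchar
  rw [H18.charP_iff_pCoreOf]
  rcases hH with hH | hH
  · exact H18.charP_normal le_top H18.le_normalizer_of_normal htop
  · set R := (Cfsg.pResidual 2 ↥H).map H.subtype with hR
    have h1 := H18.charP_normal (p := 2) (N := R) le_top H18.le_normalizer_of_normal htop
    apply H18.charPOf_of_forall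
    intro x hxH hx hxp
    have hxR : x ∈ R := H18.mem_pRes hxH hxp
    refine H18.eq_one_of_mem_centralizer_pCoreOf h1 hxR ?_ hxp
    have h2 : Cfsg.pCoreOf 2 R ≤ Cfsg.pCoreOf 2 H :=
      H18.pCoreOf_mono_of_normalizes (H18.pRes_le H) (H18.le_normalizer_pRes H)
    exact Subgroup.centralizer_le (SetLike.coe_subset_coe.2 h2) hx

end Cfsg.Agent.S2760
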