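import Cfsg.Statements.S2762
import Cfsg.Agent.H2.QDF
import Cfsg.Agent.H18.PCore

set_option autoImplicit false
set_option linter.style.haveILetI false
set_option linter.unusedVariables false
set_option linter.unusedSectionVars false
open Cfsg

namespace Cfsg.Agent.S2762

open Cfsg.Agent.H2

/-- Structure of Qd over a finite field F of characteristic p (the affine subgroup of SL₃(F)): its largest normal p-subgroup is the group of translations (matrices with upper-left block the identity), the block-diagonal matrices form a complement isomorphic to SL₂(F), and the translation subgroup is a natural SL₂(F)-module for that complement. -/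
theorem result {F : Type*} [Field F] [Fintype F] {p : ℕ} [Fact p.Prime] [CharP F p] : (∀ M : ↥(Cfsg.qdOver F), M ∈ Cfsg.pCore p ↥(Cfsg.qdOver F) ↔ ((M : Matrix.SpecialLinearGroup (Fin 3) F) : Matrix (Fin 3) (Fin 3) F) 0 0 = 1 ∧ ((M : Matrix.SpecialLinearGroup (Fin 3) F) : Matrix (Fin 3) (Fin 3) F) 0 1 = 0 ∧ ((M : Matrix.SpecialLinearGroup (Fin 3) F) : Matrix (Fin 3) (Fin 3) F) 1 0 = 0 ∧ ((M : Matrix.SpecialLinearGroup (Fin 3) F) : Matrix (Fin 3) (Fin 3) F) 1 1 = 1) ∧ ∃ K : Subgroup ↥(Cfsg.qdOver F), (∀ M : ↥(Cfsg.qdOver F), M ∈ K ↔ ((M : Matrix.SpecialLinearGroup (Fin 3) F) : Matrix (Fin 3) (Fin 3) F) 0 2 = 0 ∧ ((M : Matrix.SpecialLinearGroup (Fin 3) F) : Matrix (Fin 3) (Fin 3) F) 1 2 = 0) ∧ K ⊓ Cfsg.pCore p ↥(Cfsg.qdOver F) = ⊥ ∧ K ⊔ Cfsg.pCore p ↥(Cfsg.qdOver F) = ⊤ ∧ Nonempty (↥K ≃* Matrix.SpecialLinearGroup (Fin 2) F) ∧ Cfsg.IsNaturalSL2Module F (Cfsg.pCore p ↥(Cfsg.qdOver F)) K := by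
  obtain ⟨π, hπ⟩ := exists_projF (F := F)
  have hπs : Function.Surjective π := fun M => ⟨⟨affF M 0, affF_mem M 0⟩, hπ _ M 0 rfl⟩
  have hker : ∀ M : ↥(Cfsg.qdOver F), M ∈ π.ker ↔ ∃ s, (M : Matrix.SpecialLinearGroup (Fin 3) F) = affF 1 s := by
    intro M
    obtain ⟨A, s, hA⟩ := (mem_qdOver_iff _).1 M.2
    rw [MonoidHom.mem_ker, hπ M A s hA]
    constructor
    · rintro rfl
      exact ⟨s, hA⟩
    · rintro ⟨t, ht⟩
      rw [hA] at ht
      exact (affF_injective ht).1
  have hkp : IsPGroup p π.ker := by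
    rw [H18.isPGroup_iff_mem]
    intro M hM
    obtain ⟨s, hs⟩ := (hker M).1 hM
    refine ⟨1, ?_⟩
    have h1 : ∀ n : ℕ, (affF (F := F) 1 s) ^ n = affF 1 (n • s) := by
      intro n
      induction n with
      | zero => rw [pow_zero, zero_smul, affF_one]
      | succ n ih =>
        rw [pow_succ, ih, affF_mul, one_mul]
        have e1 : (1 : Matrix.SpecialLinearGroup (Fin 2) F).1 = 1 := rfl
        rw [e1, Matrix.one_mulVec, succ_nsmul]
    apply Subtype.ext
    rw [pow_one, Subgroup.coe_pow, hs, h1]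
    have : p • s = 0 := by
      funext i
      simp
    rw [this, affF_one]
    rfl
  have hcore : Cfsg.pCore p ↥(Cfsg.qdOver F) = π.ker := by
    apply le_antisymm
    · have h1 : (Cfsg.pCore p ↥(Cfsg.qdOver F)).map π = ⊥ := by
        apply sl2_normal_pgroup p _ _ ((H1.pCore_isPGroup p _).map π)
        exact (H1.pCore_normal p _).map π hπs
      exact (Subgroup.map_eq_bot_iff _).1 h1
    · exact H1.le_pCore inferInstance hkp
  have h1 : ∀ M : ↥(Cfsg.qdOver F), M ∈ Cfsg.pCore p ↥(Cfsg.qdOver F) ↔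
      ((M : Matrix.SpecialLinearGroup (Fin 3) F) : Matrix (Fin 3) (Fin 3) F) 0 0 = 1 ∧
      ((M : Matrix.SpecialLinearGroup (Fin 3) F) : Matrix (Fin 3) (Fin 3) F) 0 1 = 0 ∧
      ((M : Matrix.SpecialLinearGroup (Fin 3) F) : Matrix (Fin 3) (Fin 3) F) 1 0 = 0 ∧
      ((M : Matrix.SpecialLinearGroup (Fin 3) F) : Matrix (Fin 3) (Fin 3) F) 1 1 = 1 := by
    intro M
    rw [hcore, hker]
    constructor
    · rintro ⟨s, hs⟩
      rw [hs]
      exact ⟨rfl, rfl, rfl, rfl⟩
    · rintro ⟨h1, h2, h3, h4⟩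
      obtain ⟨A, s, hA⟩ := (mem_qdOver_iff _).1 M.2
      refine ⟨s, ?_⟩
      rw [hA] at h1 h2 h3 h4 ⊢
      have : A = 1 := by
        apply Subtype.ext
        ext i j
        fin_cases i <;> fin_cases j
        · exact h1
        · exact h2
        · exact h3
        · exact h4
      rw [this]
  refine ⟨h1, ?_⟩
  let j : Matrix.SpecialLinearGroup (Fin 2) F →* ↥(Cfsg.qdOver F) :=
    { toFun := fun M => ⟨affF M 0, affF_mem M 0⟩
      map_one' := Subtype.ext affF_one
      map_mul' := fun M N => Subtype.ext (by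
        show affF (M * N) 0 = affF M 0 * affF N 0
        rw [affF_mul, Matrix.mulVec_zero, add_zero]) }
  have hj : Function.Injective j := fun M N h => (affF_injective (congrArg Subtype.val h)).1
  have hπj : ∀ M, π (j M) = M := fun M => hπ _ M 0 rfl
  have hjr : ∀ M : ↥(Cfsg.qdOver F), M ∈ j.range ↔
      ((M : Matrix.SpecialLinearGroup (Fin 3) F) : Matrix (Fin 3) (Fin 3) F) 0 2 = 0 ∧
      ((M : Matrix.SpecialLinearGroup (Fin 3) F) : Matrix (Fin 3) (Fin 3) F) 1 2 = 0 := by
    intro M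
    constructor
    · rintro ⟨A, rfl⟩
      exact ⟨rfl, rfl⟩
    · rintro ⟨h1, h2⟩
      obtain ⟨A, s, hA⟩ := (mem_qdOver_iff _).1 M.2
      refine ⟨A, ?_⟩
      apply Subtype.ext
      rw [hA] at h1 h2 ⊢
      have : s = 0 := by
        funext i
        fin_cases i
        · exact h1
        · exact h2
      rw [this]
      rfl
  have hcomm : ∀ (A : Matrix.SpecialLinearGroup (Fin 2) F) (s : Fin 2 → F),
      affF A 0 * affF 1 s * (affF A 0)⁻¹ = affF 1 (A.1.mulVec s) := by
    intro A s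
    rw [mul_inv_eq_iff_eq_mul, affF_mul, affF_mul, mul_one, one_mul, Matrix.mulVec_zero, add_zero, zero_add]
  refine ⟨j.range, hjr, ?_, ?_, ⟨(MonoidHom.ofInjective hj).symm⟩, ?_, ?_⟩
  · rw [eq_bot_iff]
    rintro x ⟨⟨A, rfl⟩, hx⟩
    have hx : j A ∈ Cfsg.pCore p ↥(Cfsg.qdOver F) := hx
    rw [hcore, MonoidHom.mem_ker, hπj] at hx
    rw [hx, map_one]
    exact one_mem _
  · rw [eq_top_iff]
    intro x _
    have h3 : x = j (π x) * ((j (π x))⁻¹ * x) := by group
    rw [h3]
    refine mul_mem (Subgroup.mem_sup_left ⟨_, rfl⟩) (Subgroup.mem_sup_right ?_)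
    rw [hcore, MonoidHom.mem_ker, map_mul, map_inv, hπj, inv_mul_cancel]
  · haveI := H1.pCore_normal p ↥(Cfsg.qdOver F)
    rw [Subgroup.normalizer_eq_top]
    exact le_top
  · have hker' : ∀ v : Cfsg.pCore p ↥(Cfsg.qdOver F), ∃ s, ((v : ↥(Cfsg.qdOver F)) : Matrix.SpecialLinearGroup (Fin 3) F) = affF 1 s := by
      intro v
      have h : ∀ z ∈ Cfsg.pCore p ↥(Cfsg.qdOver F), ∃ s, (z : Matrix.SpecialLinearGroup (Fin 3) F) = affF 1 s := by
        intro z hz
        rw [hcore] at hz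
        exact (hker _).1 hz
      exact h _ v.2
    choose σ hσ using hker'
    let ψ : Additive (Cfsg.pCore p ↥(Cfsg.qdOver F)) ≃+ (Fin 2 → F) :=
      AddEquiv.mk' (Equiv.ofBijective (fun v => σ v.toMul) (by
        constructor
        · intro v w h
          have h3 : ((v.toMul : ↥(Cfsg.qdOver F)) : Matrix.SpecialLinearGroup (Fin 3) F) = ((w.toMul : ↥(Cfsg.qdOver F)) : Matrix.SpecialLinearGroup (Fin 3) F) := by
            rw [hσ, hσ]
            congr 1
          exact congrArg Additive.ofMul (Subtype.ext (Subtype.ext h3))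
        · intro s
          have hm : (⟨affF 1 s, affF_mem 1 s⟩ : ↥(Cfsg.qdOver F)) ∈ Cfsg.pCore p ↥(Cfsg.qdOver F) := by
            rw [hcore]
            exact (hker _).2 ⟨s, rfl⟩
          refine ⟨Additive.ofMul ⟨_, hm⟩, ?_⟩
          have := hσ ⟨_, hm⟩
          exact (affF_injective this).2.symm)) (by
        intro v w
        show σ (v.toMul * w.toMul) = σ v.toMul + σ w.toMul
        have h3 : affF 1 (σ (v.toMul * w.toMul)) = affF 1 (σ v.toMul) * affF 1 (σ w.toMul) := by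
          rw [← hσ, ← hσ, ← hσ]; rfl
        rw [affF_mul] at h3
        have e1 : (1 : Matrix.SpecialLinearGroup (Fin 2) F).1 = 1 := rfl
        rw [e1, Matrix.one_mulVec] at h3
        exact (affF_injective h3).2)
    have hψ : ∀ v, ψ (Additive.ofMul v) = σ v := fun v => rfl
    have hconj : ∀ (l : j.range) (v : Cfsg.pCore p ↥(Cfsg.qdOver F)), ∃ w : Cfsg.pCore p ↥(Cfsg.qdOver F),
        (w : ↥(Cfsg.qdOver F)) = (l : ↥(Cfsg.qdOver F)) * (v : ↥(Cfsg.qdOver F)) * (l : ↥(Cfsg.qdOver F))⁻¹ ∧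
          σ w = (π (l : ↥(Cfsg.qdOver F))).1.mulVec (σ v) := by
      rintro ⟨_, A, rfl⟩ v
      refine ⟨⟨_, (H1.pCore_normal p ↥(Cfsg.qdOver F)).conj_mem _ v.2 (j A)⟩, rfl, ?_⟩
      rw [hπj]
      have h3 := hσ ⟨_, (H1.pCore_normal p ↥(Cfsg.qdOver F)).conj_mem _ v.2 (j A)⟩
      have h4 : affF A 0 * ((v : ↥(Cfsg.qdOver F)) : Matrix.SpecialLinearGroup (Fin 3) F) * (affF A 0)⁻¹ = _ := h3
      rw [hσ, hcomm] at h4
      exact (affF_injective h4).2.symm
    refine ⟨π.comp j.range.subtype, ψ, ?_, ?_, ?_⟩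
    · intro M
      exact ⟨⟨j M, M, rfl⟩, hπj M⟩
    · ext l
      rw [MonoidHom.mem_ker, Subgroup.mem_subgroupOf, Subgroup.mem_centralizer_iff]
      constructor
      · intro h v hv
        have hl : (l : ↥(Cfsg.qdOver F)) = 1 := by
          obtain ⟨A, hA⟩ := l.2
          have : A = 1 := by
            rw [← hπj A, hA]
            exact h
          rw [← hA, this]
          exact map_one j
        rw [hl, mul_one, one_mul]
      · intro h
        have h5 : ∀ s : Fin 2 → F, (π (l : ↥(Cfsg.qdOver F))).1.mulVec s = s := by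
          intro s
          obtain ⟨v, hv⟩ := ψ.surjective s
          obtain ⟨w, hw1, hw2⟩ := hconj l v.toMul
          have h6 : w = v.toMul := by
            apply Subtype.ext
            rw [hw1, ← h _ (v.toMul).2, mul_inv_cancel_right]
          rw [h6] at hw2
          have h7 : σ v.toMul = s := hv
          rw [h7] at hw2
          exact hw2.symm
        apply Subtype.ext
        ext i k
        have h2 := congrFun (h5 (Pi.single k 1)) i
        rw [Matrix.mulVec_single_one] at h2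
        have h3 : (π (l : ↥(Cfsg.qdOver F))).1 i k = (Pi.single k 1 : Fin 2 → F) i := h2
        show (π (l : ↥(Cfsg.qdOver F))).1 i k = (1 : Matrix (Fin 2) (Fin 2) F) i k
        rw [h3, Matrix.one_apply, Pi.single_apply]
    · intro l v
      obtain ⟨w, hw1, hw2⟩ := hconj l v
      exact ⟨w, hw1, by rw [hψ, hψ]; exact hw2⟩

end Cfsg.Agent.S2762
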