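import Cfsg.Statements.S2763
import Cfsg.Agent.H2.QD10
import Cfsg.Agent.H18.CharP
import Cfsg.Agent.H23.Coprime3

set_option autoImplicit false
set_option linter.style.haveILetI false
set_option linter.unusedVariables false
set_option linter.unusedSectionVars false
open Cfsg

namespace Cfsg.Agent.S2763

/-- In the group Qd(p) (p prime; the natural semidirect product of an elementary abelian group of order p² by SL₂(p)), the normalizer of every nontrivial characteristic subgroup of a Sylow p-subgroup S equals the normalizer of S, which is a proper subgroup; in particular no such characteristic subgroup is normal. -/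
theorem result {p : ℕ} [Fact p.Prime] (S : Sylow p ↥(Cfsg.qd p)) (T : Subgroup ↥(S : Subgroup ↥(Cfsg.qd p))) (hT : T ≠ ⊥) (hTc : T.Characteristic) : Subgroup.normalizer ((T.map (S : Subgroup ↥(Cfsg.qd p)).subtype : Subgroup ↥(Cfsg.qd p)) : Set ↥(Cfsg.qd p)) = Subgroup.normalizer ((S : Subgroup ↥(Cfsg.qd p)) : Set ↥(Cfsg.qd p)) ∧ Subgroup.normalizer ((S : Subgroup ↥(Cfsg.qd p)) : Set ↥(Cfsg.qd p)) ≠ ⊤ := by
  have hq := H2.qdLike_qd p
  haveI := hq.normal
  obtain ⟨V, hV⟩ : ∃ V, V = (H2.trans p).range := ⟨_, rfl⟩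
  rw [← hV] at hq
  obtain ⟨Z, hZ⟩ : ∃ Z, Z = (S : Subgroup ↥(Cfsg.qd p)) ⊓
    Subgroup.centralizer ((S : Subgroup ↥(Cfsg.qd p)) : Set ↥(Cfsg.qd p)) := ⟨_, rfl⟩
  have hZV : Z < V := by rw [hZ]; exact hq.center_lt S
  have hZ1 : Z ≠ ⊥ := by rw [hZ]; exact hq.center_ne_bot S
  have hp := (Fact.out : p.Prime)
  haveI hVn := hq.normal
  have hZcard : Nat.card Z = p := by
    obtain ⟨k, hk⟩ := IsPGroup.iff_card.1 (hq.isPGroup.to_le hZV.le)
    have h1 : Nat.card Z < Nat.card V := by
      have h5 := Subgroup.card_le_of_le hZV.le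
      rcases h5.lt_or_eq with h6 | h6
      · exact h6
      · exact absurd (Subgroup.eq_of_le_of_card_ge hZV.le h6.ge) hZV.ne
    rw [hq.card, hk] at h1
    have h2 := (Nat.pow_lt_pow_iff_right hp.one_lt).1 h1
    have h3 : k ≠ 0 := by
      rintro rfl
      rw [pow_zero] at hk
      exact hZ1 (Subgroup.card_eq_one.1 hk)
    have h4 : k = 1 := by omega
    rw [hk, h4, pow_one]
  refine ⟨?_, ?_⟩
  · obtain ⟨W, hW⟩ : ∃ W, W = T.map (S : Subgroup ↥(Cfsg.qd p)).subtype := ⟨_, rfl⟩
    rw [← hW]
    have hWS : W ≤ S := by rw [hW]; exact Subgroup.map_subtype_le _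
    have hW1 : W ≠ ⊥ := by
      rw [hW, Ne, Subgroup.map_eq_bot_iff_of_injective _ (Subgroup.subtype_injective _)]
      exact hT
    have hNle : Subgroup.normalizer ((S : Subgroup ↥(Cfsg.qd p)) : Set ↥(Cfsg.qd p)) ≤
        Subgroup.normalizer (W : Set ↥(Cfsg.qd p)) := by
      rw [hW]
      exact H23.normalizer_le_normalizer_map T
    refine le_antisymm ?_ hNle
    have hSW : (S : Subgroup ↥(Cfsg.qd p)) ≤ Subgroup.normalizer (W : Set ↥(Cfsg.qd p)) :=
      Subgroup.le_normalizer.trans hNle
    -- `V ≰ W` unless `W = S`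
    by_cases hVW : V ≤ W
    · by_cases hWSe : W = S
      · rw [hWSe]
      exfalso
      have hWV : W = V := by
        symm
        apply Subgroup.eq_of_le_of_card_ge hVW
        obtain ⟨k, hk⟩ := IsPGroup.iff_card.1 (S.2.to_le hWS)
        have h1 : Nat.card W < Nat.card (S : Subgroup ↥(Cfsg.qd p)) := by
          have h5 := Subgroup.card_le_of_le hWS
          rcases h5.lt_or_eq with h6 | h6
          · exact h6
          · exact absurd (Subgroup.eq_of_le_of_card_ge hWS h6.ge) hWSe
        rw [hq.sylow S, hk] at h1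
        have h2 := (Nat.pow_lt_pow_iff_right hp.one_lt).1 h1
        rw [hq.card, hk]
        exact Nat.pow_le_pow_right hp.pos (by omega)
      obtain ⟨ψ, x, hx, hψx⟩ := H2.exists_aut_moving S
      rw [← hV, ← hWV, hW] at hx hψx
      apply hψx
      obtain ⟨y, hy, hyx⟩ := hx
      have hyx' : y = x := Subtype.ext hyx
      rw [hyx'] at hy
      refine ⟨ψ x, ?_, rfl⟩
      have h3 := hTc.fixed ψ
      rw [← h3] at hy
      exact hy
    · -- `V ⊓ W = Z`
      have h1 : Z ≤ V ⊓ W := by
        have h2 := H18.inf_centralizer_ne_bot (p := p) (S.2.to_le hWS) S.2 hSW hW1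
        have h3 : W ⊓ Subgroup.centralizer ((S : Subgroup ↥(Cfsg.qd p)) : Set ↥(Cfsg.qd p)) ≤ Z := by
          rw [hZ]
          exact inf_le_inf_right _ hWS
        have h4 : W ⊓ Subgroup.centralizer ((S : Subgroup ↥(Cfsg.qd p)) : Set ↥(Cfsg.qd p)) = Z := by
          apply Subgroup.eq_of_le_of_card_ge h3
          rw [hZcard]
          obtain ⟨k, hk⟩ := IsPGroup.iff_card.1 (S.2.to_le ((inf_le_left (b :=
            Subgroup.centralizer ((S : Subgroup ↥(Cfsg.qd p)) : Set ↥(Cfsg.qd p)))).trans hWS))
          rw [hk]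
          have h5 : k ≠ 0 := by
            rintro rfl
            rw [pow_zero] at hk
            exact h2 (Subgroup.card_eq_one.1 hk)
          calc p = p ^ 1 := (pow_one p).symm
            _ ≤ p ^ k := Nat.pow_le_pow_right hp.pos (by omega)
        refine le_inf hZV.le ?_
        rw [← h4]
        exact inf_le_left
      have h2 : V ⊓ W = Z := by
        symm
        apply Subgroup.eq_of_le_of_card_ge h1
        have h3 : V ⊓ W < V := lt_of_le_of_ne inf_le_left (fun h => hVW (inf_eq_left.1 h))
        obtain ⟨k, hk⟩ := IsPGroup.iff_card.1 (hq.isPGroup.to_le h3.le)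
        have h4 : Nat.card ↥(V ⊓ W) < Nat.card V := by
          have h5 := Subgroup.card_le_of_le h3.le
          rcases h5.lt_or_eq with h6 | h6
          · exact h6
          · exact absurd (Subgroup.eq_of_le_of_card_ge h3.le h6.ge) h3.ne
        rw [hq.card, hk] at h4
        have h5 := (Nat.pow_lt_pow_iff_right hp.one_lt).1 h4
        rw [hZcard, hk]
        calc p ^ k ≤ p ^ 1 := Nat.pow_le_pow_right hp.pos (by omega)
          _ = p := pow_one p
      intro g hg
      apply H2.qd_sylow_center S
      rw [← hZ, ← h2, Subgroup.mem_normalizer_iff]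
      intro x
      rw [Subgroup.mem_inf, Subgroup.mem_inf, ← Subgroup.mem_normalizer_iff.1 hg x]
      refine and_congr_left (fun _ => ?_)
      constructor
      · intro h; exact hVn.conj_mem x h g
      · intro h
        have := hVn.conj_mem _ h g⁻¹
        have e1 : g⁻¹ * (g * x * g⁻¹) * g⁻¹⁻¹ = x := by group
        rwa [e1] at this
  · intro htop
    haveI hSn : (S : Subgroup ↥(Cfsg.qd p)).Normal := Subgroup.normalizer_eq_top_iff.1 htop
    have hZn : Z.Normal := by rw [hZ]; infer_instance
    rcases hq.irr Z hZn hZV.le with h | h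
    · exact hZ1 h
    · exact hZV.ne h

end Cfsg.Agent.S2763
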