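import Cfsg.Statements.S2779
import Cfsg.Agent.H18.NatSL2b

set_option autoImplicit false
open Cfsg

namespace Cfsg.Agent.S2779

/-- Let L act on the elementary abelian p-group V (inside a finite group, by conjugation, faithfully) as SL₂(F) on its natural module, F a field with p^n elements, and let S be a Sylow p-subgroup of L. Then [V, S, S] = 1; |V| = p^(2n) and |C_V(S)| = p^n; and for every nonidentity s ∈ S and every v ∈ V outside C_V(S): C_V(s) = C_V(S) = [V, S] = [V, s] = the subgroup generated by the commutators [v, t], t ∈ S. -/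
theorem result {G : Type*} [Group G] [Finite G] {p : ℕ} [Fact p.Prime] {F : Type*} [Field F] [Fintype F] (n : ℕ) (hF : Fintype.card F = p ^ n) (V L : Subgroup G) (hnat : Cfsg.IsNaturalSL2Module F V L) (hf : L ⊓ Subgroup.centralizer (V : Set G) = ⊥) (S : Sylow p ↥L) (T : Subgroup G) (hT : T = ((S : Subgroup ↥L).map L.subtype)) : ⁅⁅V, T⁆, T⁆ = ⊥ ∧ Nat.card V = p ^ (2 * n) ∧ Nat.card ↥(V ⊓ Subgroup.centralizer ((T : Subgroup G) : Set G)) = p ^ n ∧ ∀ s ∈ T, s ≠ 1 → (V ⊓ Subgroup.centralizer ({s} : Set G)) = (V ⊓ Subgroup.centralizer ((T : Subgroup G) : Set G)) ∧ ⁅V, T⁆ = (V ⊓ Subgroup.centralizer ((T : Subgroup G) : Set G)) ∧ ⁅V, Subgroup.zpowers s⁆ = (V ⊓ Subgroup.centralizer ((T : Subgroup G) : Set G)) ∧ ∀ v ∈ V, v ∉ Subgroup.centralizer (T : Set G) → Subgroup.closure {x : G | ∃ t ∈ T, x = v * t * v⁻¹ * t⁻¹} = (V ⊓ Subgroup.centralizer ((T : Subgroup G) : Set G)) := by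
  haveI : CharP F p := charP_of_card_eq_prime_pow hF
  obtain ⟨D⟩ := Cfsg.Agent.H18.exists_natCo V L hnat hf S T hT
  have hFc : Nat.card F = p ^ n := by rw [Nat.card_eq_fintype_card, hF]
  refine ⟨D.comm_V_T_T, ?_, ?_, ?_⟩
  · rw [D.card_V, hFc, ← pow_mul, mul_comm]
  · rw [D.card_CV, hFc]
  · intro s hs hs1
    have hle : ⁅V, Subgroup.zpowers s⁆ ≤ ⁅V, T⁆ :=
      Subgroup.commutator_mono le_rfl ((Subgroup.zpowers_le).2 hs)
    refine ⟨?_, ?_, ?_, ?_⟩
    · obtain ⟨t, rfl⟩ := (D.memT s).1 hs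
      have ht : t ≠ 0 := by
        rintro rfl
        exact hs1 D.tr_zero
      ext x
      rw [D.mem_CV, Subgroup.mem_inf]
      constructor
      · rintro ⟨h1, h2⟩
        obtain ⟨a, b, rfl⟩ := (D.memV x).1 h1
        have h3 := (D.mem_cent_tr ht).1 h2
        exact ⟨a, by rw [h3]⟩
      · rintro ⟨a, rfl⟩
        exact ⟨D.pt_mem a 0, (D.mem_cent_tr ht).2 rfl⟩
    · exact le_antisymm D.comm_V_T_le ((D.le_comm_V_zpowers hs hs1).trans hle)
    · exact le_antisymm (hle.trans D.comm_V_T_le) (D.le_comm_V_zpowers hs hs1)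
    · intro v hv hvT
      exact D.closure_eq hv hvT

end Cfsg.Agent.S2779
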