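import Cfsg.Statements.S2781
import Cfsg.Agent.H18.PCore
import Cfsg.Agent.H18.PRes
import Cfsg.Agent.H23.Coprime
import Cfsg.Agent.H2.Residual

set_option autoImplicit false
open Cfsg
open Cfsg.Agent Cfsg.Agent.H18
open scoped commutatorElement

namespace Cfsg.Agent.S2781

open scoped IsMulCommutative in
theorem avg {G : Type*} [Group G] [Finite G] {p : ℕ} [hp : Fact p.Prime] (V R : Subgroup G)
    (hV : IsElementaryAbelian p V) (hRV : R ≤ Subgroup.normalizer (V : Set G)) (S : Sylow p R)
    {v : G} (hv : v ∈ V) (hvS : ∀ s ∈ (S : Subgroup R), (s : G) * v * (s : G)⁻¹ = v) :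
    v ∈ ⁅V, R⁆ ⊔ (V ⊓ Subgroup.centralizer (R : Set G)) := by
  classical
  haveI := hV.1
  haveI : Fintype (R ⧸ (S : Subgroup R)) := Fintype.ofFinite _
  let g : R → V := fun r => ⟨r * v * (r : G)⁻¹, H23.mem_normalizer_conj hRV r.2 hv⟩
  have hg : ∀ (r : R) (s : R), s ∈ (S : Subgroup R) → g (r * s) = g r := by
    intro r s hs
    apply Subtype.ext
    show ((r * s : R) : G) * v * ((r * s : R) : G)⁻¹ = r * v * (r : G)⁻¹
    calc ((r * s : R) : G) * v * ((r * s : R) : G)⁻¹ = r * ((s : G) * v * (s : G)⁻¹) * (r : G)⁻¹ := by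
          rw [Subgroup.coe_mul]; group
      _ = r * v * (r : G)⁻¹ := by rw [hvS s hs]
  set u : V := ∏ q : R ⧸ (S : Subgroup R), g q.out with hu
  have hmk : ∀ (r : R), g r = g (Quotient.out (QuotientGroup.mk r : R ⧸ (S : Subgroup R))) := by
    intro r
    have h1 : (Quotient.out (QuotientGroup.mk r : R ⧸ (S : Subgroup R)))⁻¹ * r ∈ (S : Subgroup R) := by
      rw [← QuotientGroup.eq]
      exact QuotientGroup.out_eq' _
    have h2 := hg (Quotient.out (QuotientGroup.mk r : R ⧸ (S : Subgroup R))) _ h1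
    rw [mul_inv_cancel_left] at h2
    exact h2
  have hfix : ∀ x : R, (x : G) * (u : G) * (x : G)⁻¹ = u := by
    intro x
    let c : V →* V :=
      { toFun := fun w => ⟨(x : G) * w * (x : G)⁻¹, H23.mem_normalizer_conj hRV x.2 w.2⟩
        map_one' := by apply Subtype.ext; simp
        map_mul' := by intro a b; apply Subtype.ext; simp [mul_assoc] }
    have h1 : c u = u := by
      rw [hu, map_prod]
      have h2 : ∀ q : R ⧸ (S : Subgroup R), c (g q.out) = g (Quotient.out (x • q)) := by
        intro q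
        have h3 : c (g q.out) = g (x * q.out) := by
          apply Subtype.ext
          show (x : G) * ((q.out : R) * v * ((q.out : R) : G)⁻¹) * (x : G)⁻¹ =
            ((x * q.out : R) : G) * v * ((x * q.out : R) : G)⁻¹
          rw [Subgroup.coe_mul]; group
        rw [h3, hmk (x * q.out)]
        congr 2
        conv_rhs => rw [← QuotientGroup.out_eq' q]
        rfl
      simp only [h2]
      exact Fintype.prod_equiv (MulAction.toPerm x) _ _ (fun q => rfl)
    exact congrArg Subtype.val h1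
  have huC : (u : G) ∈ V ⊓ Subgroup.centralizer (R : Set G) := by
    refine Subgroup.mem_inf.2 ⟨u.2, ?_⟩
    rw [Subgroup.mem_centralizer_iff]
    intro x hx
    have := hfix ⟨x, hx⟩
    rw [mul_inv_eq_iff_eq_mul] at this
    exact this
  set m := Fintype.card (R ⧸ (S : Subgroup R)) with hm
  have hmp : ¬ p ∣ m := by
    rw [hm, ← Nat.card_eq_fintype_card]
    exact S.not_dvd_index
  set vv : V := ⟨v, hv⟩ with hvv
  have h1 : ((u * (vv ^ m)⁻¹ : V) : G) ∈ ⁅V, R⁆ := by
    have h2 : u * (vv ^ m)⁻¹ = ∏ q : R ⧸ (S : Subgroup R), (g q.out * vv⁻¹) := by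
      rw [Finset.prod_mul_distrib, ← hu, Finset.prod_const, Finset.card_univ, ← hm, inv_pow]
    rw [h2]
    have h3 : ∀ q : R ⧸ (S : Subgroup R), g q.out * vv⁻¹ ∈ (⁅V, R⁆).subgroupOf V := by
      intro q
      rw [Subgroup.mem_subgroupOf]
      show ((q.out : R) : G) * v * ((q.out : R) : G)⁻¹ * v⁻¹ ∈ ⁅V, R⁆
      rw [Subgroup.commutator_comm]
      exact Subgroup.commutator_mem_commutator (q.out : R).2 hv
    exact Subgroup.prod_mem ((⁅V, R⁆).subgroupOf V) (fun q _ => h3 q)
  have h2 : v ^ m ∈ ⁅V, R⁆ ⊔ (V ⊓ Subgroup.centralizer (R : Set G)) := by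
    have h3 : v ^ m = ((u * (vv ^ m)⁻¹ : V) : G)⁻¹ * (u : G) := by
      have h4 : vv ^ m = (u * (vv ^ m)⁻¹)⁻¹ * u := by group
      have h5 : ((vv ^ m : V) : G) = (((u * (vv ^ m)⁻¹)⁻¹ * u : V) : G) := congrArg Subtype.val h4
      exact h5
    rw [h3]
    exact Subgroup.mul_mem _ (Subgroup.inv_mem _ (Subgroup.mem_sup_left h1)) (Subgroup.mem_sup_right huC)
  have hcop : (orderOf v).Coprime m := by
    have h3 : orderOf v ∣ p := orderOf_dvd_of_pow_eq_one (hV.2 v hv)
    exact Nat.Coprime.coprime_dvd_left h3 ((Nat.Prime.coprime_iff_not_dvd hp.out).2 hmp)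
  obtain ⟨j, hj⟩ := exists_pow_eq_self_of_coprime hcop.symm
  rw [← hj]
  exact Subgroup.pow_mem _ h2 j

/-- Let H act faithfully by conjugation on the elementary abelian p-subgroup V of a finite group, let O^p(H) be the subgroup of H generated by its elements of order prime to p, and T a Sylow p-subgroup of O^p(H). If V is generated by the H-conjugates of C_V(T) (V is the smallest H-invariant subgroup containing C_V(T)), then V = [V, O^p(H)]·C_V(O^p(H)). -/
theorem result {G : Type*} [Group G] [Finite G] {p : ℕ} [Fact p.Prime] (V H : Subgroup G) (hV : Cfsg.IsElementaryAbelian p V) (hHV : H ≤ Subgroup.normalizer (V : Set G)) (hf : H ⊓ Subgroup.centralizer (V : Set G) = ⊥) (R : Subgroup G) (hR : R = (Cfsg.pResidual p ↥H).map H.subtype) (S : Sylow p ↥R) (T : Subgroup G) (hT : T = ((S : Subgroup ↥R).map R.subtype)) (hgen : ∀ W : Subgroup G, H ≤ Subgroup.normalizer (W : Set G) → (V ⊓ Subgroup.centralizer ((T : Subgroup G) : Set G)) ≤ W → V ≤ W) : ⁅V, R⁆ ⊔ (V ⊓ Subgroup.centralizer ((R : Subgroup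 G) : Set G)) = V := by
  have hRn : (pResidual p H).Normal := H2.pResidual_normal
  have hRH : R ≤ H := by rw [hR]; exact Subgroup.map_subtype_le _
  have hHR : H ≤ Subgroup.normalizer (R : Set G) := by
    have hc : (pResidual p H).Characteristic := H2.pResidual_characteristic
    rw [hR]
    exact le_normalizer_map_of_characteristic Subgroup.le_normalizer _
  have hRV : R ≤ Subgroup.normalizer (V : Set G) := hRH.trans hHV
  apply le_antisymm
  · exact sup_le (H23.commutator_le_of_le_normalizer hRV) inf_le_left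
  · apply hgen
    · exact le_normalizer_sup (le_normalizer_commutator hHV hHR)
        (le_normalizer_inf hHV (le_normalizer_centralizer hHR))
    · rintro v ⟨hvV, hvT⟩
      apply avg V R hV hRV S hvV
      intro s hs
      have h1 : (s : G) ∈ T := by rw [hT]; exact ⟨s, hs, rfl⟩
      rw [Subgroup.mem_centralizer_iff.1 hvT s h1, mul_inv_cancel_right]

end Cfsg.Agent.S2781
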