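import Cfsg.Statements.S2792
import Cfsg.Agent.H18.Yosh5

set_option autoImplicit false
open Cfsg
open Subgroup Cfsg.Agent.H18.Yo

namespace Cfsg.Agent.S2792

/-- Let S be a Sylow p-subgroup of the finite group G and W a subgroup of S weakly closed in S with respect to G. If S ∩ G' ≠ S ∩ (N_G(W))', then there are x ∈ S, z ∈ W and a maximal subgroup W₀ of W such that the iterated commutator [x, z; p−1] (with [x, z] = x⁻¹z⁻¹xz and [x, z; i+1] = [[x, z; i], z]) lies in W₀ but not in the Frattini subgroup of W₀; in particular [x, z; p−1] ≠ 1. -/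
theorem result {G : Type*} [Group G] [Finite G] {p : ℕ} [Fact p.Prime] (S : Sylow p G) (W : Subgroup G) (hW : Cfsg.IsWeaklyClosed W (S : Subgroup G)) (h : (S : Subgroup G) ⊓ commutator G ≠ (S : Subgroup G) ⊓ ⁅Subgroup.normalizer (W : Set G), Subgroup.normalizer (W : Set G)⁆) : ∃ x ∈ (S : Subgroup G), ∃ z ∈ W, ∃ W₀ : Subgroup ↥W, IsCoatom W₀ ∧ (fun y : G => y⁻¹ * z⁻¹ * y * z)^[p - 1] x ∈ W₀.map W.subtype ∧ (fun y : G => y⁻¹ * z⁻¹ * y * z)^[p - 1] x ∉ ((frattini ↥W₀).map W₀.subtype).map W.subtype := by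
  classical
  have hx : ∃ x ∈ (S : Subgroup G), x ∈ _root_.commutator G ∧
      x ∉ ⁅Subgroup.normalizer (W : Set G), Subgroup.normalizer (W : Set G)⁆ := by
    by_contra hcon
    push Not at hcon
    apply h
    apply le_antisymm
    · intro x hx
      exact ⟨hx.1, hcon x hx.1 hx.2⟩
    · intro x hx
      exact ⟨hx.1, Subgroup.commutator_mono le_top le_top hx.2⟩
  obtain ⟨x, hxS, hxG, hxN⟩ := hx
  obtain ⟨y, z, S₁, M₁, T, h1, h2, h3, h4, h5, h6, h7, h8, h9, h10, h11, h12⟩ :=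
    main S W hW hxS hxG hxN
  have hp := Fact.out (p := p.Prime)
  have hz : z ∈ normalizer (M₁ : Set G) := h6 (h2 h8)
  have hyS₁ : y ∈ S₁ := h3 h7
  have hWn : S₁ ≤ normalizer (W : Set G) := by
    intro s hs
    have hsS := h1 hs
    have ha : W.map (MulAut.conj s).toMonoidHom ≤ (S : Subgroup G) := by
      rintro _ ⟨w, hw, rfl⟩
      exact mul_mem (mul_mem hsS (hW.1 hw)) (inv_mem hsS)
    have hb := hW.2 s ha
    rw [mem_normalizer_iff]
    intro w
    constructor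
    · intro hw
      rw [← hb]
      exact ⟨w, hw, rfl⟩
    · intro hw
      rw [← hb] at hw
      obtain ⟨w', hw', hc⟩ := hw
      have hd : s * w' * s⁻¹ = s * w * s⁻¹ := hc
      have he : w' = w := mul_left_cancel (mul_right_cancel hd)
      rw [← he]; exact hw'
  have hcW : ∀ k, (fun y : G => y⁻¹ * z⁻¹ * y * z)^[k + 1] y ∈ W := by
    intro k
    rw [Function.iterate_succ_apply']
    have ha : (fun y : G => y⁻¹ * z⁻¹ * y * z)^[k] y ∈ M₁ := (F_iter h10 hz h7 k).1
    have hb := hWn (h3 ha)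
    have hc := (mem_normalizer_iff.1 (inv_mem hb) z⁻¹).1 (inv_mem h8)
    rw [inv_inv] at hc
    exact mul_mem hc h8
  have hp1 : p - 1 = (p - 2) + 1 := by have := hp.two_le; omega
  refine ⟨y, h1 hyS₁, z, h8, M₁.subgroupOf W, isCoatom_inter hp h3 h2 h4 h5 h6 h8 h9, ?_, ?_⟩
  · have ha : (fun y : G => y⁻¹ * z⁻¹ * y * z)^[p - 1] y ∈ W := by
      rw [hp1]; exact hcW _
    exact ⟨⟨_, ha⟩, Subgroup.mem_subgroupOf.2 (F_iter h10 hz h7 (p - 1)).1, rfl⟩
  · intro hd
    exact last_ne h10 hz h7 h12 (frat_ker h10 hd)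

end Cfsg.Agent.S2792
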