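import Cfsg.Statements.S2794
import Cfsg.Agent.H2.QD8

set_option autoImplicit false
set_option linter.style.haveILetI false
set_option linter.unusedVariables false
set_option linter.unusedSectionVars false
open Cfsg

namespace Cfsg.Agent.S2794

universe u

theorem isCharPFunctor_ZJa {p : ℕ} [Fact p.Prime] (hp : p ≠ 2) :
    Cfsg.IsCharPFunctor.{u} p (fun (S : Type u) [Group S] =>
      H2.Zf (fun U A => H2.AbIn U A) (⊤ : Subgroup S)) :=
  ⟨fun Q _ _ hQ hn => (H2.npcFun_ZJa hp).ne_bot Q hQ hn,
    fun Q R _ _ _ _ φ => (H2.npcFun_ZJa hp).equiv φ⟩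

/-- For an odd prime p and a finite group G, the group Qd(p) is not involved in G if and only if in every section K/R of G, for every Sylow p-subgroup S* of K/R, the centre of J(S*) (J generated by the abelian subgroups of largest order) controls strong fusion in K/R. -/
theorem result {G : Type*} [Group G] [Finite G] {p : ℕ} [Fact p.Prime] (hp : p ≠ 2) : ¬ Cfsg.Involves ↥(Cfsg.qd p) G ↔ ∀ (K R : Subgroup G) [hR : (R.subgroupOf K).Normal], ∀ T : Sylow p (K ⧸ R.subgroupOf K), Cfsg.ControlsStrongFusion p (Cfsg.centerThompsonAOf (T : Subgroup (K ⧸ R.subgroupOf K))) := by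
  constructor
  · intro hfree K R hR T
    have hW := isCharPFunctor_ZJa (p := p) hp
    have hno : ¬ H2.HasSec (K ⧸ R.subgroupOf K) ↥(Cfsg.qd p) :=
      fun h => hfree (H2.hasSec_section h)
    have hFC := L.fc_of_sections (p := p)
      (𝓦 := {fun (S : Type _) [Group S] => H2.Zf (fun U A => H2.AbIn U A) (⊤ : Subgroup S)}) (by
      intro W' hW'; rw [Set.mem_singleton_iff] at hW'; subst hW'; exact hW)
      (G := K ⧸ R.subgroupOf K) (by
      intro K' R' hR' hc
      apply L.fc_of_normal hW
      intro T'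
      have hno' : ¬ H2.HasSec (K' ⧸ R'.subgroupOf K') ↥(Cfsg.qd p) :=
        fun h => hno (H2.hasSec_section h)
      have h2 := (H2.abFam hp).ZJ_normal T' hc
        (fun P _ hP => H2.isPStableOn_of_qd_free hp hno' P hP)
      rw [← H2.centerThompsonAOf_eq, ← H2.WA_Zf] at h2
      exact h2) (K ⧸ R.subgroupOf K) (L.inv_refl _)
    have h1 := L.csf_of_fc hW hFC T
    have h3 := H2.WA_Zf (T : Subgroup (K ⧸ R.subgroupOf K))
    rw [← h3]
    exact h1
  · rintro h ⟨K, R, hR, ⟨e⟩⟩
    obtain ⟨T⟩ : Nonempty (Sylow p (K ⧸ R.subgroupOf K)) := inferInstance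
    exact ((H2.qdLike_qd p).of_equiv e.symm).ZJ_not_controls T (h K R T)

end Cfsg.Agent.S2794
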