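import Cfsg.Statements.S2807
import Cfsg.Agent.H18.Yosh5

set_option autoImplicit false
open Cfsg
open Subgroup Cfsg.Agent.H18.Yo

namespace Cfsg.Agent.S2807

/-- Let S be a Sylow p-subgroup of the finite group G. If S ∩ G' ≠ S ∩ (N_G(S))' (derived subgroups), then the wreath product Z_p ≀ Z_p — realised as a Sylow p-subgroup of the symmetric group of degree p² — is a homomorphic image of S. -/
theorem result {G : Type*} [Group G] [Finite G] {p : ℕ} [Fact p.Prime] (S : Sylow p G) (h : (S : Subgroup G) ⊓ commutator G ≠ (S : Subgroup G) ⊓ ⁅Subgroup.normalizer ((S : Subgroup G) : Set G), Subgroup.normalizer ((S : Subgroup G) : Set G)⁆) : ∃ (P : Sylow p (Equiv.Perm (Fin (p ^ 2)))) (f : ↥(S : Subgroup G) →* ↥(P : Subgroup (Equiv.Perm (Fin (p ^ 2))))), Function.Surjective f := by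
  classical
  have hx : ∃ x ∈ (S : Subgroup G), x ∈ _root_.commutator G ∧
      x ∉ ⁅Subgroup.normalizer ((S : Subgroup G) : Set G), Subgroup.normalizer ((S : Subgroup G) : Set G)⁆ := by
    by_contra hcon
    push Not at hcon
    apply h
    apply le_antisymm
    · intro x hx
      exact ⟨hx.1, hcon x hx.1 hx.2⟩
    · intro x hx
      exact ⟨hx.1, Subgroup.commutator_mono le_top le_top hx.2⟩
  obtain ⟨x, hxS, hxG, hxN⟩ := hx
  have hW : Cfsg.IsWeaklyClosed (S : Subgroup G) (S : Subgroup G) := by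
    refine ⟨le_rfl, fun g hg => ?_⟩
    apply Subgroup.eq_of_le_of_card_ge hg
    rw [Subgroup.card_map_of_injective (MulAut.conj g).injective]
  obtain ⟨y, z, S₁, M₁, T, h1, h2, h3, h4, h5, h6, h7, h8, h9, h10, h11, h12⟩ :=
    main S (S : Subgroup G) hW hxS hxG hxN
  have hp := Fact.out (p := p.Prime)
  obtain rfl : S₁ = (S : Subgroup G) := le_antisymm h1 h2
  have hz : z ∈ normalizer (M₁ : Set G) := h6 h8
  -- the homomorphism to the base of the wreath product
  let Θ : ↥M₁ →* (Fin p → Multiplicative (ZMod p)) :=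
    { toFun := fun m i => T ((z ^ (i : ℕ))⁻¹ * m * z ^ (i : ℕ))
      map_one' := by
        funext i
        show T ((z ^ (i : ℕ))⁻¹ * (1 : G) * z ^ (i : ℕ)) = 1
        rw [mul_one, inv_mul_cancel, T_one h10]
      map_mul' := by
        intro a b
        funext i
        show T ((z ^ (i : ℕ))⁻¹ * ((a : G) * b) * z ^ (i : ℕ)) =
          T ((z ^ (i : ℕ))⁻¹ * (a : G) * z ^ (i : ℕ)) * T ((z ^ (i : ℕ))⁻¹ * (b : G) * z ^ (i : ℕ))
        rw [← h10 _ (conj_mem' hz a.2 i) _ (conj_mem' hz b.2 i)]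
        congr 1; group }
  have hzp : z ^ p ∈ M₁ := by
    have ha : M₁.relIndex (S : Subgroup G) = p := h5
    haveI : (M₁.subgroupOf (S : Subgroup G)).Normal := (Subgroup.normal_subgroupOf_iff_le_normalizer h3).2 h6
    have hb := Subgroup.pow_index_mem (M₁.subgroupOf (S : Subgroup G)) ⟨z, h8⟩
    have hc : (M₁.subgroupOf (S : Subgroup G)).index = p := ha
    rw [hc, Subgroup.mem_subgroupOf] at hb
    exact hb
  have hsurj : Function.Surjective Θ := by
    intro v
    have hf : ∀ i, F T z y (i + p) = F T z y i := by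
      intro i
      unfold F
      have ha := conj_mem' hz h7 i
      have e : (z ^ (i + p))⁻¹ * y * z ^ (i + p) = (z ^ p)⁻¹ * ((z ^ i)⁻¹ * y * z ^ i) * z ^ p := by
        rw [pow_add]; group
      rw [e, h10 _ (mul_mem (inv_mem hzp) ha) _ hzp, h10 _ (inv_mem hzp) _ ha, T_inv h10 hzp,
        inv_mul_cancel_comm]
    have hs : ∑ j ∈ Finset.range p, F T z y j ≠ 0 := by
      rw [sum_F]
      intro hc
      exact h12 (Multiplicative.toAdd.injective hc)
    obtain ⟨e, he⟩ := D_span (F T z y) hf hs (fun i => Multiplicative.toAdd (v i))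
    let c : ℕ → G := fun k => (fun y : G => y⁻¹ * z⁻¹ * y * z)^[k] y
    have hc : ∀ k, c k ∈ M₁ := fun k => (F_iter h10 hz h7 k).1
    refine ⟨(List.ofFn fun k : Fin p => (⟨c k, hc k⟩ : M₁) ^ (e k).val).prod, ?_⟩
    rw [map_list_prod, List.map_ofFn, List.prod_ofFn]
    funext i
    rw [Finset.prod_apply]
    apply Multiplicative.toAdd.injective
    rw [toAdd_prod, he i]
    apply Finset.sum_congr rfl
    intro k _
    show Multiplicative.toAdd (Θ ((⟨c k, hc k⟩ : M₁) ^ (e k).val) i) = _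
    rw [map_pow, Pi.pow_apply, toAdd_pow]
    have ha : Multiplicative.toAdd (Θ ⟨c k, hc k⟩ i) = D (F T z y) k i := (F_iter h10 hz h7 k).2 i
    rw [ha, nsmul_eq_mul, ZMod.natCast_val, ZMod.cast_id]
  -- the action on `p²` points
  let K : Subgroup ↥(S : Subgroup G) :=
    { carrier := {s | (s : G) ∈ M₁ ∧ T s = 1}
      one_mem' := ⟨one_mem _, T_one h10⟩
      mul_mem' := fun {a b} ha hb => ⟨mul_mem ha.1 hb.1, by
        show T ((a : G) * b) = 1
        rw [h10 _ ha.1 _ hb.1, ha.2, hb.2, one_mul]⟩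
      inv_mem' := fun {a} ha => ⟨inv_mem ha.1, by
        show T ((a : G)⁻¹) = 1
        rw [T_inv h10 ha.1, ha.2, inv_one]⟩ }
  have hcard1 : Nat.card ↥(S : Subgroup G) = p * Nat.card M₁ := by
    have ha : M₁.relIndex (S : Subgroup G) * Nat.card M₁ = Nat.card ↥(S : Subgroup G) := by
      have := Subgroup.index_mul_card (M₁.subgroupOf (S : Subgroup G))
      rw [Nat.card_congr (Subgroup.subgroupOfEquivOfLe h3).toEquiv] at this
      exact this
    rw [← ha, h5]
  have hcard2 : Nat.card M₁ = p ^ p * Nat.card Θ.ker := by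
    have ha := Subgroup.index_mul_card Θ.ker
    rw [Subgroup.index_ker, MonoidHom.range_eq_top.2 hsurj] at ha
    rw [← ha]
    congr 1
    rw [Subgroup.card_top, Nat.card_fun, Nat.card_fin]
    congr 1
    rw [Nat.card_congr Multiplicative.toAdd, Nat.card_zmod]
  have hcard3 : Nat.card M₁ = p * Nat.card K := by
    let τ : ↥M₁ →* Multiplicative (ZMod p) :=
      { toFun := fun m => T m
        map_one' := T_one h10
        map_mul' := fun a b => h10 _ a.2 _ b.2 }
    have hτ : Function.Surjective τ := by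
      intro v
      obtain ⟨m, hm⟩ := hsurj (fun _ => v)
      refine ⟨m, ?_⟩
      have := congrFun hm ⟨0, hp.pos⟩
      have ha : T ((z ^ 0)⁻¹ * (m : G) * z ^ 0) = v := this
      rw [pow_zero, inv_one, one_mul, mul_one] at ha
      exact ha
    have ha := Subgroup.index_mul_card τ.ker
    rw [Subgroup.index_ker, MonoidHom.range_eq_top.2 hτ, Subgroup.card_top,
      Nat.card_congr Multiplicative.toAdd, Nat.card_zmod] at ha
    rw [← ha]
    congr 1
    refine Nat.card_congr ⟨fun m => ⟨⟨(m : M₁), h3 (m : M₁).2⟩, (m : M₁).2, m.2⟩,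
      fun k => ⟨⟨((k : ↥(S : Subgroup G)) : G), k.2.1⟩, k.2.2⟩, fun _ => rfl, fun _ => rfl⟩
  have hKidx : K.index = p ^ 2 := by
    have ha := Subgroup.index_mul_card K
    rw [hcard1, hcard3, ← mul_assoc, ← pow_two] at ha
    exact Nat.eq_of_mul_eq_mul_right Nat.card_pos ha
  have e : (↥(S : Subgroup G) ⧸ K) ≃ Fin (p ^ 2) := Finite.equivFinOfCardEq hKidx
  let f : ↥(S : Subgroup G) →* Equiv.Perm (Fin (p ^ 2)) :=
    (e.permCongrHom.toMonoidHom).comp (MulAction.toPermHom _ (↥(S : Subgroup G) ⧸ K))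
  have hker : ∀ s, f s = 1 → ∃ hs : (s : G) ∈ M₁, Θ ⟨s, hs⟩ = 1 := by
    intro s hs
    have ha : MulAction.toPermHom _ (↥(S : Subgroup G) ⧸ K) s = 1 := by
      apply e.permCongrHom.injective
      rw [map_one]
      exact hs
    have hb : ∀ g : ↥(S : Subgroup G), g⁻¹ * s * g ∈ K := by
      intro g
      have hc := congrArg (fun σ => σ ((g : ↥(S : Subgroup G)) : ↥(S : Subgroup G) ⧸ K)) ha
      have hd : ((s * g : ↥(S : Subgroup G)) : ↥(S : Subgroup G) ⧸ K) = (g : ↥(S : Subgroup G) ⧸ K) := hc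
      rw [eq_comm, QuotientGroup.eq] at hd
      rw [mul_assoc]; exact hd
    have hc := hb 1
    rw [inv_one, one_mul, mul_one] at hc
    refine ⟨hc.1, ?_⟩
    funext i
    exact (hb (⟨z, h8⟩ ^ (i : ℕ))).2
  have hcard4 : Nat.card f.ker ≤ Nat.card Θ.ker := by
    apply Nat.card_le_card_of_injective (fun s : f.ker => (⟨⟨((s : ↥(S : Subgroup G)) : G), (hker s s.2).1⟩,
      (hker s s.2).2⟩ : Θ.ker))
    intro a b hab
    apply Subtype.ext
    apply Subtype.ext
    exact congrArg (fun u : Θ.ker => ((u : M₁) : G)) hab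
  have hcard5 : p ^ (p + 1) ≤ Nat.card f.range := by
    have ha := Subgroup.index_mul_card f.ker
    rw [Subgroup.index_ker, hcard1, hcard2, ← mul_assoc, ← pow_succ'] at ha
    by_contra hb
    push Not at hb
    have hc : Nat.card f.range * Nat.card f.ker < p ^ (p + 1) * Nat.card Θ.ker := by
      calc Nat.card f.range * Nat.card f.ker ≤ Nat.card f.range * Nat.card Θ.ker :=
            Nat.mul_le_mul_left _ hcard4
        _ < p ^ (p + 1) * Nat.card Θ.ker := Nat.mul_lt_mul_of_pos_right hb Nat.card_pos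
    omega
  have hpr : IsPGroup p f.range := by
    have := S.2
    exact this.of_surjective f.rangeRestrict f.rangeRestrict_surjective
  obtain ⟨P, hP⟩ := hpr.exists_le_sylow
  have hcardP : Nat.card P = p ^ (p + 1) := by
    rw [P.card_eq_multiplicity]
    congr 1
    rw [Nat.card_perm, Nat.card_fin, Nat.factorization_def _ hp, pow_two, padicValNat_factorial_mul]
    have ha : padicValNat p (p * 1).factorial = padicValNat p (1).factorial + 1 := padicValNat_factorial_mul 1
    rw [mul_one] at ha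
    rw [ha]
    simp [add_comm]
  have hPeq : f.range = (P : Subgroup (Equiv.Perm (Fin (p ^ 2)))) := by
    apply Subgroup.eq_of_le_of_card_ge hP
    exact hcardP.le.trans hcard5
  refine ⟨P, f.codRestrict _ (fun s => hP ⟨s, rfl⟩), ?_⟩
  rintro ⟨q, hq⟩
  rw [← hPeq] at hq
  obtain ⟨s, rfl⟩ := hq
  exact ⟨s, rfl⟩

end Cfsg.Agent.S2807
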