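import Cfsg.Statements.S2941
import Cfsg.Agent.H18.PRes
import Cfsg.Agent.H1.Coprime

set_option autoImplicit false
set_option linter.style.haveILetI false
open Cfsg

namespace Cfsg.Agent.S2941


theorem coprime_two_iff_odd {n : ℕ} : n.Coprime 2 ↔ Odd n := by
  rw [Nat.coprime_comm, Nat.coprime_two_left]

/-- if `K = O^2(K)`, `[K,J] = K`, `J` a `2`-group, `Q` normalizes `J` and is normalized by `K`, then `Q` normalizes `K` -/
theorem aux {G : Type*} [Group G] [Finite G] {K J Q : Subgroup G}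
    (hK1 : Subgroup.closure {g : G | g ∈ K ∧ Odd (orderOf g)} = K) (hK2 : ⁅K, J⁆ = K) (hJ : IsPGroup 2 J)
    (hQ1 : K ≤ Subgroup.normalizer (Q : Set G)) (hQ2 : Q ≤ Subgroup.normalizer (J : Set G)) :
    Q ≤ Subgroup.normalizer (K : Set G) := by
  haveI h2 : Fact (Nat.Prime 2) := ⟨Nat.prime_two⟩
  have hJK : J ≤ Subgroup.normalizer (K : Set G) := by
    have := Cfsg.Agent.H1.right_le_normalizer_commutator K J
    rwa [hK2] at this
  set S : Set G := {x | ∃ k ∈ K, ∃ j ∈ J, x = k * j * k⁻¹} with hS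
  have hJS : J ≤ Subgroup.closure S := fun j hj => Subgroup.subset_closure ⟨1, K.one_mem, j, hj, by simp⟩
  have hKS : K ≤ Subgroup.closure S := by
    rw [← hK2, Subgroup.commutator_le]
    intro k hk j hj
    have h1 : k * j * k⁻¹ ∈ Subgroup.closure S := Subgroup.subset_closure ⟨k, hk, j, hj, rfl⟩
    exact mul_mem h1 (inv_mem (hJS hj))
  have hM : Subgroup.closure S = K ⊔ J := by
    apply le_antisymm
    · rw [Subgroup.closure_le]
      rintro _ ⟨k, hk, j, hj, rfl⟩
      exact mul_mem (mul_mem ((le_sup_left : K ≤ K ⊔ J) hk) ((le_sup_right : J ≤ K ⊔ J) hj))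
        (inv_mem ((le_sup_left : K ≤ K ⊔ J) hk))
    · exact sup_le hKS hJS
  have hQM : Q ≤ Subgroup.normalizer ((K ⊔ J : Subgroup G) : Set G) := by
    rw [← hM]
    refine Cfsg.Agent.H18.le_normalizer_of_conj_mem fun q hq x hx => ?_
    refine Subgroup.closure_induction (p := fun x _ => q * x * q⁻¹ ∈ Subgroup.closure S) ?_ ?_ ?_ ?_ hx
    · rintro _ ⟨k, hk, j, hj, rfl⟩
      have h1 : k⁻¹ * q * k ∈ Q := by
        have := (Subgroup.mem_normalizer_iff.mp (inv_mem (hQ1 hk)) q).mp hq
        simpa using this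
      have h3 : (k⁻¹ * q * k) * j * (k⁻¹ * q * k)⁻¹ ∈ J := (Subgroup.mem_normalizer_iff.mp (hQ2 h1) j).mp hj
      refine Subgroup.subset_closure ⟨k, hk, _, h3, ?_⟩
      group
    · simp
    · intro x y _ _ hx hy
      have := mul_mem hx hy
      simpa [mul_assoc] using this
    · intro x _ hx
      have := inv_mem hx
      simpa [mul_assoc] using this
  have h4 : Subgroup.map (Subgroup.subtype K) (Cfsg.pResidual 2 ↥K) = K := by
    rw [Cfsg.Agent.H18.pRes_eq_closure]
    conv_rhs => rw [← hK1]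
    congr 1
    ext x
    simp only [Set.mem_setOf_eq, coprime_two_iff_odd]
  have h5 := Cfsg.Agent.H18.pRes_sup_eq hJ hJK
  rw [h4] at h5
  have h6 := hQM.trans (Cfsg.Agent.H18.normalizer_le_normalizer_pRes (p := 2) (K ⊔ J))
  rwa [h5] at h6

theorem thompsonSubgroupOf_le {G : Type*} [Group G] (p : ℕ) (P : Subgroup G) : thompsonSubgroupOf p P ≤ P :=
  Subgroup.map_subtype_le _
/-- Let G be a finite group of characteristic 2 type in which every 2-local subgroup is solvable and the centralizer of Ω₁(Z(S)) lies in N_G(S) for every Sylow 2-subgroup S, and let T be a nontrivial 2-subgroup and K a J(T)-component (J the Thompson subgroup generated by the elementary abelian 2-subgroups of largest order). If a subgroup Q is normalized by ⟨K, J(T)⟩ and normalizes J(T), then Q normalizes K. -/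
theorem result {G : Type*} [Group G] [Finite G] (hL : Cfsg.IsCharacteristicTwoType G) (hN : ∀ N : Subgroup G, Cfsg.IsTwoLocal N → Group.IsSolvable ↥N)
    (hZ : ∀ S : Sylow 2 G, Subgroup.centralizer (Cfsg.omegaCenterOf (S : Subgroup G) : Set G) ≤ Subgroup.normalizer ((S : Subgroup G) : Set G)) (T : Subgroup G) (hT : IsPGroup 2 ↥T) (hT1 : T ≠ ⊥) (K : Subgroup G) (hK : Cfsg.IsJComponent T K)
    (Q : Subgroup G) (hQ1 : K ⊔ Cfsg.thompsonSubgroupOf 2 T ≤ Subgroup.normalizer (Q : Set G)) (hQ2 : Q ≤ Subgroup.normalizer (Cfsg.thompsonSubgroupOf 2 T : Set G)) :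
    Q ≤ Subgroup.normalizer (K : Set G) := by

  exact aux hK.1 hK.2.1 (hT.to_le (thompsonSubgroupOf_le 2 T)) (le_sup_left.trans hQ1) hQ2


end Cfsg.Agent.S2941
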