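import Cfsg.Statements.S2947
import Cfsg.Agent.H19.Sylow2
import Cfsg.Agent.H19.CharP
import Cfsg.Agent.H1.Cores
import Cfsg.Agent.H2.Conj
import Cfsg.Agent.H19.Thompson

set_option autoImplicit false
set_option linter.style.haveILetI false
open Cfsg

namespace Cfsg.Agent.S2947


open scoped Pointwise

theorem normalizer_conj_le {G : Type*} [Group G] {M T : Subgroup G} {g : G}
    (h : Subgroup.normalizer ((T.map (MulAut.conj g⁻¹).toMonoidHom : Subgroup G) : Set G) ≤ M) :
    Subgroup.normalizer (T : Set G) ≤ M.map (MulAut.conj g).toMonoidHom := by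
  intro n hn
  have h1 : g⁻¹ * n * g ∈ M := by
    apply h
    rw [Cfsg.Agent.H18.mem_normalizer_iff_conj] at hn ⊢
    intro x
    rw [Cfsg.Agent.H2.mem_map_conj, Cfsg.Agent.H2.mem_map_conj]
    rw [hn]
    apply iff_of_eq
    congr 1
    group
  exact ⟨_, h1, by simp [mul_assoc]⟩
/-- Let G be a finite group of characteristic 2 type in which every 2-local subgroup is solvable and the centralizer of Ω₁(Z(S)) lies in N_G(S) for every Sylow 2-subgroup S; suppose O₂(G) = 1, fix a Sylow 2-subgroup S and a 2-local subgroup M containing N_G(J(S)) (J the Thompson subgroup generated by the elementary abelian 2-subgroups of largest order). Then M is strongly embedded in G (a proper subgroup of even order whose intersection with each conjugate by an element outside M has odd order) if and only if no nontrivial 2-subgroup of M lies in a 2-local subgroup of G not contained in M. -/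
theorem result {G : Type*} [Group G] [Finite G] (hL : Cfsg.IsCharacteristicTwoType G) (hN : ∀ N : Subgroup G, Cfsg.IsTwoLocal N → Group.IsSolvable ↥N)
    (hZ : ∀ S : Sylow 2 G, Subgroup.centralizer (Cfsg.omegaCenterOf (S : Subgroup G) : Set G) ≤ Subgroup.normalizer ((S : Subgroup G) : Set G)) (hO : Cfsg.pCore 2 G = ⊥) (S : Sylow 2 G) (M : Subgroup G) (hM : Cfsg.IsTwoLocal M)
    (hMJ : Subgroup.normalizer (Cfsg.thompsonSubgroupOf 2 (S : Subgroup G) : Set G) ≤ M) :
    Cfsg.IsStronglyEmbedded M ↔ Cfsg.straddlingTwoSubgroups M = ∅ := by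

  classical
  haveI h2 : Fact (Nat.Prime 2) := ⟨Nat.prime_two⟩
  obtain ⟨T₀, hT₀, hT₀1, hMT₀⟩ := hM
  have hMtop : M ≠ ⊤ := by
    intro h
    apply hT₀1
    rw [hMT₀] at h
    have h3 : T₀.Normal := Subgroup.normalizer_eq_top_iff.mp h
    rw [eq_bot_iff, ← hO]
    exact Cfsg.Agent.H1.le_pCore h3 hT₀
  have hT₀M : T₀ ≤ M := by rw [hMT₀]; exact Subgroup.le_normalizer
  have heven : Even (Nat.card M) := by
    obtain ⟨n, hn⟩ := hT₀.exists_card_eq
    have hn0 : n ≠ 0 := by
      rintro rfl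
      exact hT₀1 (Subgroup.card_eq_one.mp (by simpa using hn))
    rw [even_iff_two_dvd]
    exact ((dvd_pow_self 2 hn0).trans (by rw [hn])).trans (Subgroup.card_dvd_of_le hT₀M)
  have hSM : (S : Subgroup G) ≤ M := by
    refine le_trans ?_ hMJ
    exact Subgroup.le_normalizer.trans (Cfsg.Agent.H19.normalizer_le_normalizer_thompson 2 _)
  constructor
  · rintro ⟨-, -, hodd⟩
    have hse : ∀ g : G, g ∉ M → ¬ 2 ∣ Nat.card ↥(M ⊓ M.map (MulAut.conj g).toMonoidHom) := by
      intro g hg h
      have := hodd g hg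
      rw [← Nat.not_even_iff_odd] at this
      exact this (even_iff_two_dvd.mpr h)
    rw [Set.eq_empty_iff_forall_notMem]
    rintro T ⟨hT, hT1, hTM, L, ⟨R, hR, hR1, hL'⟩, hTL, hLM⟩
    apply hLM
    have hTR : T ≤ Subgroup.normalizer (R : Set G) := by rw [← hL']; exact hTL
    have hU : IsPGroup 2 (T ⊔ R : Subgroup G) := Cfsg.Agent.H18.isPGroup_sup_of_le_normalizer hT hR hTR
    have hUM : (T ⊔ R) ≤ M := by
      by_contra hcon
      have hlt : (T ⊔ R) ⊓ M < T ⊔ R := lt_of_le_of_ne inf_le_left fun h => hcon (h ▸ inf_le_right)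
      obtain ⟨u, hu, huM⟩ := SetLike.exists_of_lt (Cfsg.Agent.H19.lt_inf_normalizer_of_lt hU hlt)
      have h3 := Cfsg.Agent.H19.normalizer_le_of_strongly hse (X := (T ⊔ R) ⊓ M) inf_le_right
        (hU.to_le inf_le_left) (fun h => hT1 (eq_bot_iff.mpr (h ▸ le_inf le_sup_left hTM)))
      exact huM ⟨hu.1, h3 hu.2⟩
    rw [hL']
    exact Cfsg.Agent.H19.normalizer_le_of_strongly hse (le_sup_right.trans hUM) hR hR1
  · intro hemp
    have hN' : ∀ T : Subgroup G, IsPGroup 2 T → T ≠ ⊥ → T ≤ M → Subgroup.normalizer (T : Set G) ≤ M := by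
      intro T hT hT1 hTM
      by_contra hcon
      have : T ∈ Cfsg.straddlingTwoSubgroups M :=
        ⟨hT, hT1, hTM, _, ⟨T, hT, hT1, rfl⟩, Subgroup.le_normalizer, hcon⟩
      rw [hemp] at this
      exact this
    refine ⟨hMtop, heven, fun g hg => ?_⟩
    by_contra hcon
    rw [Nat.not_odd_iff_even, even_iff_two_dvd] at hcon
    set D := M ⊓ M.map (MulAut.conj g).toMonoidHom with hD
    obtain ⟨T, hT⟩ := Cfsg.Agent.H23.exists_isSylowOf 2 D
    have hT1 : T ≠ ⊥ := Cfsg.Agent.H19.IsSylowOf.ne_bot hT hcon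
    have h3 : Subgroup.normalizer (T : Set G) ≤ M := hN' T hT.isPGroup hT1 (hT.le.trans inf_le_left)
    have h4 : Subgroup.normalizer (T : Set G) ≤ M.map (MulAut.conj g).toMonoidHom := by
      apply normalizer_conj_le
      refine hN' _ (hT.isPGroup.map _) ?_ ?_
      · rw [Ne, Subgroup.map_eq_bot_iff_of_injective _ (MulAut.conj g⁻¹).injective]
        exact hT1
      · rintro _ ⟨t, ht, rfl⟩
        obtain ⟨m, hm, hmt⟩ := (hT.le ht).2
        have : (MulAut.conj g⁻¹).toMonoidHom t = m := by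
          rw [← hmt]
          simp [mul_assoc]
        rw [this]
        exact hm
    have h5 := Cfsg.Agent.H19.isSylowOf_top_of_normalizer_le hT (le_inf h3 h4)
    have hStop := Cfsg.Agent.H19.isSylowOf_top_of_sylow S
    have hSsyl : Cfsg.Agent.H23.IsSylowOf 2 (S : Subgroup G) M := Cfsg.Agent.H19.IsSylowOf.mono hStop hSM le_top
    have hTM := Cfsg.Agent.H19.IsSylowOf.mono h5 (hT.le.trans inf_le_left) le_top
    obtain ⟨m, hm, hmT⟩ := hSsyl.exists_conj hTM
    have hT' : Cfsg.Agent.H23.IsSylowOf 2 (MulAut.conj g⁻¹ • T) M := by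
      refine Cfsg.Agent.H19.IsSylowOf.mono (h5.conj (g := g⁻¹) ?_) ?_ le_top
      · rw [Subgroup.normalizer_eq_top_iff.mpr (inferInstance : (⊤ : Subgroup G).Normal)]
        exact Subgroup.mem_top _
      · intro y hy
        rw [Cfsg.Agent.H1.mem_conj_smul] at hy
        obtain ⟨k, hk, hky⟩ := (hT.le hy).2
        have : y = k := by
          have h6 : g * k * g⁻¹ = g⁻¹⁻¹ * y * g⁻¹ := hky
          have h7 := congrArg (fun z => g⁻¹ * z * g) h6
          simpa [mul_assoc] using h7.symm
        rw [this]; exact hk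
    obtain ⟨m', hm', hmT'⟩ := hSsyl.exists_conj hT'
    -- `m⁻¹ g m' ∈ N(S)`
    have h6 : m⁻¹ * g * m' ∈ Subgroup.normalizer ((S : Subgroup G) : Set G) := by
      rw [Cfsg.Agent.H1.mem_normalizer_iff_conj_smul, ← Cfsg.Agent.H1.conj_smul_smul,
        ← Cfsg.Agent.H1.conj_smul_smul, hmT', Cfsg.Agent.H1.conj_smul_smul g, mul_inv_cancel,
        Cfsg.Agent.H1.conj_one_smul, ← hmT, Cfsg.Agent.H1.conj_smul_smul, inv_mul_cancel,
        Cfsg.Agent.H1.conj_one_smul]
    have hS1 : (S : Subgroup G) ≠ ⊥ := by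
      intro h
      rw [h] at hmT
      apply hT1
      rw [← hmT]
      simp
    have h7 := hN' S S.isPGroup' hS1 hSM h6
    apply hg
    have : g = m * (m⁻¹ * g * m') * m'⁻¹ := by group
    rw [this]
    exact M.mul_mem (M.mul_mem hm h7) (M.inv_mem hm')


end Cfsg.Agent.S2947
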