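import Cfsg.Statements.S3084
import Cfsg.Agent.H19.Cl4

set_option autoImplicit false
set_option linter.style.haveILetI false
open Cfsg

namespace Cfsg.Agent.S3084


set_option maxHeartbeats 4000000

/-- Let K be a group acting faithfully and linearly on a finite-dimensional vector space U of dimension 2n ≥ 2 over the field with two elements, preserving a quadratic form q whose polar bilinear form is non-degenerate and which vanishes on some n-dimensional subspace (a non-singular form of plus type). Then there is a finite group R with a normal extraspecial 2-subgroup Q of order 2^(2n+1), an isomorphism of R/Q with K, and a surjective homomorphism χ from Q onto (the additive group of) U with kernel the centre of Q, such that χ carries conjugation by any r in R to the action of the image of r in K, and an element a of Q squares to the identity exactly when q vanishes at χ(a). -/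
theorem result {K : Type*} [Group K] {U : Type*} [AddCommGroup U] [Module (ZMod 2) U] [Module.Finite (ZMod 2) U] (n : ℕ) (hn1 : 1 ≤ n) (hn : Module.finrank (ZMod 2) U = 2 * n) (ρ : Representation (ZMod 2) K U) (hρ : Function.Injective ρ) (q : QuadraticForm (ZMod 2) U) (hq : ∀ (k : K) (u : U), q (ρ k u) = q u) (hnd : (QuadraticMap.polarBilin q).Nondegenerate) (hplus : ∃ W : Submodule (ZMod 2) U, Module.finrank (ZMod 2) ↥W = n ∧ ∀ w ∈ W, q w = 0) : ∃ (R : Type) (_ : Group R) (_ : Finite R) (Q : Subgroup R) (hN : Q.Normal) (e : R ⧸ Q ≃* K) (χ : ↥Q →* Multiplicative U), Cfsg.IsExtraspecial 2 ↥Q ∧ Nat.card ↥Q = 2 ^ (2 * n + 1) ∧ Function.Surjective χ ∧ χ.ker = Subgroup.center ↥Q ∧ (∀ (r : R) (a : ↥Q), χ ⟨r * a * r⁻¹, hN.conj_mem (a : R) a.2 r⟩ = Multiplicative.ofAdd (ρ (e (r : R ⧸ Q)) (Multiplicative.toAdd (χ a)))) ∧ ∀ a : ↥Q, a * a = 1 ↔ q (Multiplicative.toAdd (χ a)) = 0 := by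

  classical
  set W := Fin (2 * n) → ZMod 2 with hW
  obtain ⟨e₀⟩ : Nonempty (U ≃ₗ[ZMod 2] W) := by
    refine ⟨LinearEquiv.ofFinrankEq U W ?_⟩
    rw [hn]
    exact (Module.finrank_fin_fun (ZMod 2)).symm
  set q' : QuadraticForm (ZMod 2) W := q.comp e₀.symm.toLinearMap with hq'
  obtain ⟨β, hβ⟩ := LinearMap.BilinMap.toQuadraticMap_surjective q'
  have hβq : ∀ w, β w w = q (e₀.symm w) := by
    intro w
    have := congrArg (fun Q : QuadraticForm (ZMod 2) W => Q w) hβ
    exact this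
  let ρ' : Representation (ZMod 2) K W :=
    { toFun := fun k => e₀.toLinearMap.comp ((ρ k).comp e₀.symm.toLinearMap)
      map_one' := by
        ext w
        simp
      map_mul' := fun k k' => by
        apply LinearMap.ext
        intro w
        simp [Module.End.mul_apply] }
  have hρ'a : ∀ k w, ρ' k w = e₀ (ρ k (e₀.symm w)) := fun k w => rfl
  have hρ' : Function.Injective ρ' := by
    intro k k' h
    apply hρ
    apply LinearMap.ext
    intro u
    have h1 := congrArg (fun f : W →ₗ[ZMod 2] W => f (e₀ u)) h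
    have h2 : ρ' k (e₀ u) = ρ' k' (e₀ u) := h1
    rw [hρ'a, hρ'a, LinearEquiv.symm_apply_apply] at h2
    exact e₀.injective h2
  have hB : ∀ u, (∀ v, H19.Cl.B β u v = 0) → u = 0 := by
    intro u hu
    have h1 : e₀.symm u = 0 := by
      apply hnd.1
      intro y
      have h2 := hu (e₀ y)
      have h3 : QuadraticMap.polarBilin q (e₀.symm u) y = H19.Cl.B β u (e₀ y) := by
        have h4 : q (e₀.symm u + y) = β (u + e₀ y) (u + e₀ y) := by
          rw [hβq, e₀.symm.map_add, e₀.symm_apply_apply]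
        rw [QuadraticMap.polarBilin_apply_apply, QuadraticMap.polar, h4, ← hβq u,
          show q y = β (e₀ y) (e₀ y) by rw [hβq, LinearEquiv.symm_apply_apply]]
        simp only [H19.Cl.B, map_add, LinearMap.add_apply]
        ring
      rw [h3, h2]
    rw [← e₀.apply_symm_apply u, h1, map_zero]
  have hqi : ∀ k u, β (ρ' k u) (ρ' k u) = β u u := by
    intro k u
    rw [hβq, hβq, hρ'a, LinearEquiv.symm_apply_apply, hq]
  have hsurj := H19.Cl.φ_surj β ρ' hρ' hB hqi
  have hxs := H19.Cl.xs β ρ' hρ' hB (by omega : 0 < 2 * n)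
  have hfin : Finite (H19.Cl.R β ρ') := inferInstance
  let χ₀ := H19.Cl.χ β ρ' hρ' hB
  let es : Multiplicative W →* Multiplicative U := AddMonoidHom.toMultiplicative e₀.symm.toLinearMap.toAddMonoidHom
  have hes : ∀ w, es w = Multiplicative.ofAdd (e₀.symm (Multiplicative.toAdd w)) := fun w => rfl
  refine ⟨H19.Cl.R β ρ', inferInstance, hfin, (H19.Cl.φ β ρ' hρ').ker, inferInstance,
    QuotientGroup.quotientKerEquivOfSurjective _ hsurj, es.comp χ₀, hxs.isExtraspecial, ?_, ?_, ?_, ?_, ?_⟩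
  · let F : W × ZMod 2 → (H19.Cl.φ β ρ' hρ').ker := fun x =>
      ⟨H19.Cl.Er β ρ' x.1 x.2, H19.Cl.Er_mem β ρ' hρ' x.1 x.2⟩
    have hF : Function.Bijective F := by
      constructor
      · rintro ⟨w, s⟩ ⟨w', s'⟩ h
        obtain ⟨h1, h2⟩ := H19.Cl.Er_inj β ρ' (congrArg Subtype.val h)
        exact Prod.ext h1 h2
      · rintro ⟨M, hM⟩
        obtain ⟨w, s, h1⟩ := H19.Cl.exists_Er β ρ' hB hρ' M hM
        exact ⟨(w, s), Subtype.ext h1.symm⟩
    rw [← Nat.card_congr (Equiv.ofBijective F hF), Nat.card_prod, Nat.card_eq_fintype_card,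
      Nat.card_eq_fintype_card, Fintype.card_pi, Finset.prod_const, ZMod.card, Finset.card_univ, Fintype.card_fin,
      pow_succ]
  · intro u
    refine ⟨⟨H19.Cl.Er β ρ' (e₀ (Multiplicative.toAdd u)) 0, H19.Cl.Er_mem β ρ' hρ' _ _⟩, ?_⟩
    rw [MonoidHom.comp_apply, hes, H19.Cl.χ_eq β ρ' hρ' hB _ rfl, LinearEquiv.symm_apply_apply]
    rfl
  · ext a
    obtain ⟨s, hs⟩ := H19.Cl.χ_spec β ρ' hρ' hB a
    rw [MonoidHom.mem_ker, MonoidHom.comp_apply, hes, ofAdd_eq_one]
    have h1 : e₀.symm (Multiplicative.toAdd (χ₀ a)) = 0 ↔ Multiplicative.toAdd (χ₀ a) = 0 :=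
      e₀.symm.map_eq_zero_iff
    rw [h1]
    constructor
    · intro h2
      rw [show Multiplicative.toAdd (H19.Cl.χ β ρ' hρ' hB a) = 0 from h2] at hs
      rw [Subgroup.mem_center_iff]
      intro b
      apply Subtype.ext
      rw [Subgroup.coe_mul, Subgroup.coe_mul, hs]
      have : ∀ s : ZMod 2, s = 0 ∨ s = 1 := by decide
      rcases this s with rfl | rfl
      · rw [H19.Cl.Er_zero, one_mul, mul_one]
      · exact hxs.z_comm b b.2
    · intro h2
      have h3 := hxs.cent a a.2 (fun y hy => by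
        have := Subgroup.mem_center_iff.1 h2 ⟨y, hy⟩
        exact (congrArg Subtype.val this).symm)
      rcases h3 with h3 | h3
      · rw [← H19.Cl.Er_zero β ρ'] at h3
        exact H19.Cl.χ_eq β ρ' hρ' hB a h3
      · exact H19.Cl.χ_eq β ρ' hρ' hB a h3
  · intro r a
    obtain ⟨s, hs⟩ := H19.Cl.χ_spec β ρ' hρ' hB a
    have hact := H19.Cl.φ_spec β ρ' hρ' r
    obtain ⟨t, ht⟩ := hact (Multiplicative.toAdd (χ₀ a))
    have hr : r * (a : H19.Cl.R β ρ') * r⁻¹ =
        H19.Cl.Er β ρ' (ρ' (H19.Cl.φ β ρ' hρ' r) (Multiplicative.toAdd (χ₀ a))) (s + t) := by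
      rw [hs, mul_inv_eq_iff_eq_mul]
      apply Subtype.ext
      apply Units.ext
      show ((r : (Matrix W W (ZMod 3))ˣ) : Matrix W W (ZMod 3)) *
        (H19.Cl.eps s • H19.Cl.E β (Multiplicative.toAdd (χ₀ a))) = (H19.Cl.eps (s + t) •
          H19.Cl.E β (ρ' (H19.Cl.φ β ρ' hρ' r) (Multiplicative.toAdd (χ₀ a)))) *
            ((r : (Matrix W W (ZMod 3))ˣ) : Matrix W W (ZMod 3))
      rw [Matrix.mul_smul, ht, smul_smul, ← H19.Cl.eps_add, Matrix.smul_mul]
    rw [MonoidHom.comp_apply, hes, MonoidHom.comp_apply, hes]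
    have h2 := H19.Cl.χ_eq β ρ' hρ' hB ⟨r * (a : H19.Cl.R β ρ') * r⁻¹,
      (inferInstance : ((H19.Cl.φ β ρ' hρ').ker).Normal).conj_mem (a : H19.Cl.R β ρ') a.2 r⟩ hr
    refine congrArg Multiplicative.ofAdd ?_
    exact (congrArg e₀.symm h2).trans (e₀.symm_apply_apply _)
  · intro a
    obtain ⟨s, hs⟩ := H19.Cl.χ_spec β ρ' hρ' hB a
    rw [MonoidHom.comp_apply, hes, toAdd_ofAdd, ← hβq]
    have h1 : a * a = 1 ↔ (a : H19.Cl.R β ρ') * a = 1 :=
      ⟨fun h => congrArg Subtype.val h, fun h => Subtype.ext h⟩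
    rw [h1, hs, H19.Cl.Er_mul, H19.Cl.add_self, H19.Cl.z2_add_self, zero_add]
    constructor
    · intro h2
      rw [← H19.Cl.Er_zero] at h2
      exact (H19.Cl.Er_inj β ρ' h2).2
    · intro h2
      have h3 : β (Multiplicative.toAdd (H19.Cl.χ β ρ' hρ' hB a))
        (Multiplicative.toAdd (H19.Cl.χ β ρ' hρ' hB a)) = 0 := h2
      rw [h3, H19.Cl.Er_zero]

end Cfsg.Agent.S3084
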