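import Cfsg.Statements.S3085

set_option autoImplicit false
open Cfsg

namespace Cfsg.Agent.S3085

open Subgroup

variable {Q : Type*} [Group Q]

/-- Data extracted from an extraspecial 2-group: a central element `z` of order 2 such that every
commutator is `1` or `z`. -/
structure Dat (Q : Type*) [Group Q] (z : Q) : Prop where
  ne : z ≠ 1
  cen : ∀ y : Q, z * y = y * z
  sq : z * z = 1
  center : ∀ c : Q, (∀ y, c * y = y * c) → c = 1 ∨ c = z
  com : ∀ x y : Q, x * y = y * x ∨ x * y = z * (y * x)

theorem Dat.sq_mem {z : Q} (h : Dat Q z) (x : Q) : x * x = 1 ∨ x * x = z := by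
  refine h.center _ fun y => ?_
  rcases h.com x y with hxy | hxy
  · rw [mul_assoc, hxy, ← mul_assoc, hxy, mul_assoc]
  · rw [mul_assoc, hxy, ← mul_assoc x, ← h.cen x, mul_assoc z, ← mul_assoc x, hxy]
    simp only [← mul_assoc, h.sq, one_mul]

theorem Dat.com' {z : Q} (h : Dat Q z) {x y : Q} (hxy : ¬ x * y = y * x) :
    x * y = z * (y * x) := (h.com x y).resolve_left hxy

open Classical in
/-- the transvection attached to `x`, as a function -/
noncomputable def tf (x : Q) (y : Q) : Q := if x * y = y * x then y else x * y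

theorem tf_of {x y : Q} (h : x * y = y * x) : tf x y = y := if_pos h
theorem tf_of_not {x y : Q} (h : ¬ x * y = y * x) : tf x y = x * y := if_neg h

theorem Dat.tf_mul {z : Q} (h : Dat Q z) {x : Q} (hx : x * x = z) (a b : Q) :
    tf x (a * b) = tf x a * tf x b := by
  by_cases ha : x * a = a * x
  · by_cases hb : x * b = b * x
    · rw [tf_of ha, tf_of hb, tf_of]
      rw [← mul_assoc, ha, mul_assoc, hb, mul_assoc]
    · have hab : ¬ x * (a * b) = (a * b) * x := by
        intro hh
        apply hb
        rw [← mul_assoc, ha, mul_assoc, mul_assoc] at hh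
        exact mul_left_cancel hh
      rw [tf_of ha, tf_of_not hb, tf_of_not hab, ← mul_assoc, ha, mul_assoc]
  · by_cases hb : x * b = b * x
    · have hab : ¬ x * (a * b) = (a * b) * x := by
        intro hh
        apply ha
        rw [mul_assoc a b x, ← hb, ← mul_assoc, ← mul_assoc] at hh
        exact mul_right_cancel hh
      rw [tf_of_not ha, tf_of hb, tf_of_not hab, mul_assoc]
    · have e1 := h.com' ha
      have e2 := h.com' hb
      have hab : x * (a * b) = (a * b) * x := by
        rw [← mul_assoc, e1, mul_assoc z, mul_assoc a, e2, ← mul_assoc a, ← h.cen a,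
          mul_assoc z a, ← mul_assoc z, h.sq, one_mul, mul_assoc]
      rw [tf_of hab, tf_of_not ha, tf_of_not hb]
      -- x a x b = z a x x b = z z a b
      rw [e1, mul_assoc z, mul_assoc a, ← mul_assoc x x b, hx, ← mul_assoc a z b, ← h.cen a,
        mul_assoc z a b, ← mul_assoc z z, h.sq, one_mul]

theorem Dat.tf_inj {z : Q} (h : Dat Q z) {x : Q} (hx : x * x = z) :
    Function.Injective (tf x) := by
  have : Function.Injective (MonoidHom.mk' (tf x) (h.tf_mul hx)) := by
    rw [injective_iff_map_eq_one]
    intro a ha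
    change tf x a = 1 at ha
    by_cases hc : x * a = a * x
    · rwa [tf_of hc] at ha
    · exfalso
      rw [tf_of_not hc] at ha
      apply hc
      rw [ha]
      have : a = x⁻¹ := (eq_inv_of_mul_eq_one_right ha)
      rw [this]; simp
  exact this

/-- The transvection as an automorphism. -/
noncomputable def Dat.tau [Finite Q] {z : Q} (h : Dat Q z) {x : Q} (hx : x * x = z) : MulAut Q :=
  MulEquiv.ofBijective (MonoidHom.mk' (tf x) (h.tf_mul hx))
    ⟨h.tf_inj hx, Finite.surjective_of_injective (h.tf_inj hx)⟩

theorem Dat.tau_apply [Finite Q] {z : Q} (h : Dat Q z) {x : Q} (hx : x * x = z) (y : Q) :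
    h.tau hx y = tf x y := rfl

theorem Dat.tau_sq [Finite Q] {z : Q} (h : Dat Q z) {x : Q} (hx : x * x = z) :
    h.tau hx * h.tau hx = MulAut.conj x := by
  ext y
  rw [MulAut.mul_apply, h.tau_apply, h.tau_apply, MulAut.conj_apply]
  by_cases hy : x * y = y * x
  · rw [tf_of hy, tf_of hy, hy, mul_inv_cancel_right]
  · have hy' : ¬ x * (x * y) = (x * y) * x := by
      intro hh
      apply hy
      rw [mul_assoc x y x] at hh
      exact mul_left_cancel hh
    rw [tf_of_not hy, tf_of_not hy', ← mul_assoc, hx, h.com' hy, ← mul_assoc z y x,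
      mul_inv_cancel_right]

theorem Dat.tau_comm [Finite Q] {z : Q} (h : Dat Q z) {x v : Q} (hx : x * x = z) (hv : v * v = z)
    (hxv : x * v = v * x) : h.tau hx * h.tau hv = h.tau hv * h.tau hx := by
  ext y
  simp only [MulAut.mul_apply, h.tau_apply]
  by_cases h1 : x * y = y * x
  · by_cases h2 : v * y = y * v
    · rw [tf_of h1, tf_of h2, tf_of h1]
    · rw [tf_of h1, tf_of_not h2, tf_of]
      rw [← mul_assoc, hxv, mul_assoc, h1, mul_assoc]
  · by_cases h2 : v * y = y * v
    · rw [tf_of_not h1, tf_of h2, tf_of_not h1, tf_of]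
      rw [← mul_assoc, ← hxv, mul_assoc, h2, mul_assoc]
    · have h3 : ¬ x * (v * y) = (v * y) * x := by
        intro hh
        apply h1
        rw [← mul_assoc, hxv, mul_assoc, mul_assoc] at hh
        exact mul_left_cancel hh
      have h4 : ¬ v * (x * y) = (x * y) * v := by
        intro hh
        apply h2
        rw [← mul_assoc, ← hxv, mul_assoc, mul_assoc] at hh
        exact mul_left_cancel hh
      rw [tf_of_not h1, tf_of_not h2, tf_of_not h3, tf_of_not h4, ← mul_assoc, hxv, mul_assoc]

theorem aut_conj (τ : MulAut Q) (a : Q) : τ * MulAut.conj a = MulAut.conj (τ a) * τ := by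
  ext y
  simp [MulAut.mul_apply, MulAut.conj_apply]

theorem conj_eq_one {a : Q} (h : MulAut.conj a = 1) (y : Q) : a * y = y * a := by
  have := congrArg (fun φ : MulAut Q => φ y) h
  simp only [MulAut.conj_apply, MulAut.one_apply] at this
  rw [mul_inv_eq_iff_eq_mul] at this
  exact this

/-- The heart of the matter. -/
theorem Dat.main [Finite Q] {z : Q} (h : Dat Q z) (L : Subgroup (MulAut Q))
    (hdisj : ∀ l ∈ L, (∃ a : Q, MulAut.conj a = l) → l = 1)
    (hcov : ∀ φ : MulAut Q, ∃ a : Q, MulAut.conj a * φ ∈ L)
    (x w₁ w₂ : Q) (hx : x * x = z) (h1 : w₁ * w₁ = z) (h2 : w₂ * w₂ = z)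
    (hx1 : x * w₁ = w₁ * x) (hx2 : x * w₂ = w₂ * x) (h12 : w₁ * w₂ = w₂ * w₁)
    (n1 : w₁ ≠ x) (n1' : w₁ ≠ z * x) (n2 : w₂ ≠ x) (n2' : w₂ ≠ z * x)
    (n3 : w₂ ≠ w₁) (n3' : w₂ ≠ z * w₁) : False := by
  -- noncentrality
  have hnc : ∀ y : Q, y * y = z → ¬ ∀ u, y * u = u * y := by
    intro y hy hc
    rcases h.center y hc with rfl | rfl
    · exact h.ne (by rw [← hy, one_mul])
    · exact h.ne (by rw [← hy, h.sq])
  -- commuting property
  have key : ∀ (a : Q), MulAut.conj a * h.tau hx ∈ L → ∀ v : Q, v * v = z → x * v = v * x →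
      v ≠ x → v ≠ z * x → v * a = a * v := by
    intro a ha v hv hxv hvx hvx'
    by_contra hav
    obtain ⟨b, hb⟩ := hcov (h.tau hv)
    have e1 : (MulAut.conj a * h.tau hx) * (MulAut.conj b * h.tau hv) =
        MulAut.conj (a * tf x b) * (h.tau hx * h.tau hv) := by
      calc _ = MulAut.conj a * (h.tau hx * MulAut.conj b) * h.tau hv := by
            simp only [mul_assoc]
        _ = _ := by rw [aut_conj, h.tau_apply, map_mul]; simp only [mul_assoc]
    have e2 : (MulAut.conj b * h.tau hv) * (MulAut.conj a * h.tau hx) =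
        MulAut.conj (b * tf v a) * (h.tau hx * h.tau hv) := by
      calc _ = MulAut.conj b * (h.tau hv * MulAut.conj a) * h.tau hx := by
            simp only [mul_assoc]
        _ = _ := by
            rw [aut_conj, h.tau_apply, map_mul, h.tau_comm hx hv hxv]; simp only [mul_assoc]
    have e3 : MulAut.conj ((a * tf x b) * (b * tf v a)⁻¹) =
        ((MulAut.conj a * h.tau hx) * (MulAut.conj b * h.tau hv)) *
          ((MulAut.conj b * h.tau hv) * (MulAut.conj a * h.tau hx))⁻¹ := by
      rw [e1, e2, map_mul MulAut.conj, map_inv]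
      group
    have e4 : MulAut.conj ((a * tf x b) * (b * tf v a)⁻¹) = 1 := by
      apply hdisj _ _ ⟨_, rfl⟩
      rw [e3]
      exact L.mul_mem (L.mul_mem ha hb) (L.inv_mem (L.mul_mem hb ha))
    have e5 := h.center _ (conj_eq_one e4)
    have e6 : a * tf x b = b * tf v a ∨ a * tf x b = z * (b * tf v a) := by
      rcases e5 with e | e
      · left; exact mul_inv_eq_one.mp e
      · right; exact mul_inv_eq_iff_eq_mul.mp e
    rw [tf_of_not hav] at e6
    -- now a * tf x b = (1 or z) * (b * (v * a))
    have hcz : ∀ y : Q, z * y = y * z := h.cen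
    by_cases hxb : x * b = b * x
    · rw [tf_of hxb] at e6
      -- a b = ζ b v a ; a b = ζ' b a
      have e7 : v = 1 ∨ v = z := by
        rcases h.com a b with hab | hab
        · rw [hab] at e6
          rcases e6 with e | e
          · left
            have := mul_left_cancel e
            exact (right_eq_mul.mp this)
          · right
            rw [← mul_assoc z, hcz b, mul_assoc] at e
            have := mul_left_cancel e
            rw [← mul_assoc] at this
            have := right_eq_mul.mp this
            have h' : v = z⁻¹ := (inv_eq_of_mul_eq_one_right this).symm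
            rw [h', inv_eq_of_mul_eq_one_right h.sq]
        · rw [hab] at e6
          rcases e6 with e | e
          · right
            rw [← mul_assoc z, hcz b, mul_assoc] at e
            have := mul_left_cancel e
            exact (mul_right_cancel this).symm
          · left
            have := mul_left_cancel (mul_left_cancel e)
            exact (right_eq_mul.mp this)
      rcases e7 with rfl | rfl
      · exact hav (by simp)
      · exact hav (hcz a)
    · rw [tf_of_not hxb] at e6
      -- a x b = ζ b v a
      have hxb' := h.com' hxb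
      -- a * (x*b) = a * z * b * x ; b * (v * a)
      have e7 : v = x ∨ v = z * x := by
        have c1 : ∃ ζ : Q, (ζ = 1 ∨ ζ = z) ∧ a * (x * b) = ζ * (b * (x * a)) := by
          have c2 : a * (x * b) = z * (a * (b * x)) := by
            rw [hxb', ← mul_assoc a, ← hcz a, mul_assoc]
          rcases h.com a b with hab | hab
          · rcases h.com a x with hax | hax
            · refine ⟨z, Or.inr rfl, ?_⟩
              rw [c2, ← mul_assoc a b x, hab, mul_assoc b a x, hax]
            · refine ⟨1, Or.inl rfl, ?_⟩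
              rw [c2, ← mul_assoc a b x, hab, mul_assoc b a x, hax, ← mul_assoc b z, ← hcz b,
                mul_assoc z b, ← mul_assoc z z, h.sq]
          · rcases h.com a x with hax | hax
            · refine ⟨1, Or.inl rfl, ?_⟩
              rw [c2, ← mul_assoc a b x, hab, mul_assoc z (b * a) x, mul_assoc b a x, hax,
                ← mul_assoc z z, h.sq]
            · refine ⟨z, Or.inr rfl, ?_⟩
              rw [c2, ← mul_assoc a b x, hab, mul_assoc z (b * a) x, mul_assoc b a x, hax,
                ← mul_assoc b z, ← hcz b, mul_assoc z b, ← mul_assoc z z, h.sq, one_mul]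
        obtain ⟨ζ, hζ, c3⟩ := c1
        rw [c3] at e6
        rcases hζ with hζ | hζ
        · rw [hζ, one_mul] at e6
          rcases e6 with e | e
          · left
            exact (mul_right_cancel (mul_left_cancel e)).symm
          · right
            have : b * (z * (x * a)) = b * (v * a) := by
              rw [← mul_assoc b z, ← hcz b, mul_assoc z b, e, ← mul_assoc z z, h.sq, one_mul]
            have := mul_left_cancel this
            rw [← mul_assoc] at this
            exact (mul_right_cancel this).symm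
        · rw [hζ] at e6
          rcases e6 with e | e
          · right
            have : b * (z * (x * a)) = b * (v * a) := by
              rw [← mul_assoc b z, ← hcz b, mul_assoc z b, e]
            have := mul_left_cancel this
            rw [← mul_assoc] at this
            exact (mul_right_cancel this).symm
          · left
            exact (mul_right_cancel (mul_left_cancel (mul_left_cancel e))).symm
      rcases e7 with e | e
      · exact hvx e
      · exact hvx' e
  obtain ⟨a, ha⟩ := hcov (h.tau hx)
  -- `a` does not commute with `x`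
  have hax : ¬ x * a = a * x := by
    intro hxa
    have e1 : (MulAut.conj a * h.tau hx) * (MulAut.conj a * h.tau hx) =
        MulAut.conj (a * a * x) := by
      calc _ = MulAut.conj a * (h.tau hx * MulAut.conj a) * h.tau hx := by
            simp only [mul_assoc]
        _ = _ := by
            rw [aut_conj, h.tau_apply, tf_of hxa, mul_assoc, mul_assoc, h.tau_sq hx, ← map_mul,
              ← map_mul, mul_assoc]
    have e2 : MulAut.conj (a * a * x) = 1 := by
      apply hdisj _ _ ⟨_, rfl⟩
      rw [← e1]
      exact L.mul_mem ha ha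
    have e3 := h.center _ (conj_eq_one e2)
    apply hnc x hx
    rcases h.sq_mem a with e | e
    · rw [e, one_mul] at e3
      rcases e3 with e3 | e3
      · rw [e3]; simp
      · rw [e3]; exact h.cen
    · rw [e] at e3
      rcases e3 with e3 | e3
      · have : x = z⁻¹ := (inv_eq_of_mul_eq_one_right e3).symm
        rw [this, inv_eq_of_mul_eq_one_right h.sq]; exact h.cen
      · have : x = 1 := left_eq_mul.mp e3.symm
        rw [this]; simp
  have k1 := key a ha w₁ h1 hx1 n1 n1'
  have k2 := key a ha w₂ h2 hx2 n2 n2'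
  have hv3 : (w₁ * w₂ * x) * (w₁ * w₂ * x) = z := by
    have : (w₁ * w₂ * x) * (w₁ * w₂ * x) = (w₁ * w₁) * (w₂ * w₂) * (x * x) := by
      have c1 : x * (w₁ * w₂) = (w₁ * w₂) * x := by
        rw [← mul_assoc, hx1, mul_assoc, hx2, mul_assoc]
      calc (w₁ * w₂ * x) * (w₁ * w₂ * x) = (w₁ * w₂) * (x * (w₁ * w₂)) * x := by
            simp only [mul_assoc]
        _ = (w₁ * w₂) * (w₁ * w₂) * (x * x) := by rw [c1]; simp only [mul_assoc]
        _ = (w₁ * (w₂ * w₁) * w₂) * (x * x) := by simp only [mul_assoc]
        _ = _ := by rw [← h12]; simp only [mul_assoc]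
    rw [this, h1, h2, hx, h.sq, one_mul]
  have hxv3 : x * (w₁ * w₂ * x) = (w₁ * w₂ * x) * x := by
    rw [← mul_assoc, ← mul_assoc, hx1, mul_assoc w₁, hx2, ← mul_assoc]
  have hzinv : z⁻¹ = z := inv_eq_of_mul_eq_one_right h.sq
  have hw1inv : w₁⁻¹ = z * w₁ := by
    apply inv_eq_of_mul_eq_one_right
    rw [← mul_assoc, ← h.cen w₁, mul_assoc, h1, h.sq]
  have n4 : w₁ * w₂ * x ≠ x := by
    intro e
    have : w₁ * w₂ = 1 := right_eq_mul.mp e.symm
    have : w₂ = w₁⁻¹ := (inv_eq_of_mul_eq_one_right this).symm
    exact n3' (by rw [this, hw1inv])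
  have n5 : w₁ * w₂ * x ≠ z * x := by
    intro e
    have e' : w₁ * w₂ = z := mul_right_cancel e
    apply n3
    have : w₂ = w₁⁻¹ * z := by rw [← e']; group
    rw [this, hw1inv, mul_assoc, ← h.cen w₁, ← mul_assoc, h.sq, one_mul]
  have k3 := key a ha _ hv3 hxv3 n4 n5
  apply hax
  -- a commutes with w₁, w₂, w₁ w₂ x
  have c : (w₁ * w₂) * a = a * (w₁ * w₂) := by
    rw [mul_assoc, k2, ← mul_assoc, k1, mul_assoc]
  rw [mul_assoc (w₁ * w₂) x a, ← mul_assoc a, ← c, mul_assoc (w₁ * w₂) a x] at k3
  exact mul_left_cancel k3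

/-- Extraction of `Dat` from extraspeciality. -/
theorem dat_of_extraspecial [Finite Q] (hQ : Cfsg.IsExtraspecial 2 Q) : ∃ z : Q, Dat Q z := by
  obtain ⟨⟨hp, hfr, hcomm⟩, hc⟩ := hQ
  obtain ⟨z, hz⟩ : ∃ z : Subgroup.center Q, z ≠ 1 := by
    have : Nontrivial (Subgroup.center Q) := by
      rw [← Finite.one_lt_card_iff_nontrivial, hc]; norm_num
    exact exists_ne 1
  have hall : ∀ c : Subgroup.center Q, c = 1 ∨ c = z := by
    intro c
    by_contra hcon
    push Not at hcon
    have h3 : 2 < Nat.card (Subgroup.center Q) := by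
      classical
      haveI : Fintype (Subgroup.center Q) := Fintype.ofFinite _
      rw [Nat.card_eq_fintype_card, Fintype.two_lt_card_iff]
      exact ⟨1, z, c, hz.symm, hcon.1.symm, fun e => hcon.2 e.symm⟩
    omega
  have hcen : ∀ c : Q, (∀ y, c * y = y * c) → c = 1 ∨ c = (z : Q) := by
    intro c hc
    have : c ∈ Subgroup.center Q := Subgroup.mem_center_iff.mpr fun g => (hc g).symm
    rcases hall ⟨c, this⟩ with e | e
    · left; exact congrArg Subtype.val e
    · right; exact congrArg Subtype.val e
  refine ⟨z, ⟨fun e => hz (Subtype.ext e), fun y => ?_, ?_, hcen, fun x y => ?_⟩⟩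
  · exact (Subgroup.mem_center_iff.mp z.2 y).symm
  · have : (z * z : Subgroup.center Q) = 1 := by
      have h1 : z ^ Nat.card (Subgroup.center Q) = 1 := pow_card_eq_one'
      rwa [hc, pow_two] at h1
    exact congrArg Subtype.val this
  · have h1 : x * y * x⁻¹ * y⁻¹ ∈ Subgroup.center Q := by
      rw [← hcomm]
      exact Subgroup.commutator_mem_commutator (Subgroup.mem_top x) (Subgroup.mem_top y)
    rcases hall ⟨_, h1⟩ with e | e
    · left
      have e := congrArg Subtype.val e
      simp only [Subgroup.coe_one] at e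
      rw [mul_inv_eq_one, mul_inv_eq_iff_eq_mul] at e
      exact e
    · right
      have e := congrArg Subtype.val e
      simp only at e
      rw [mul_inv_eq_iff_eq_mul, mul_inv_eq_iff_eq_mul] at e
      rw [e, mul_assoc]

/-- centralizer of a set -/
theorem Dat.index_centralizer [Finite Q] {z : Q} (h : Dat Q z) (x : Q) (H : Subgroup Q) :
    Nat.card H ≤ 2 * Nat.card (H ⊓ Subgroup.centralizer {x} : Subgroup Q) := by
  have h1 := Subgroup.card_mul_index ((Subgroup.centralizer {x}).subgroupOf H)
  have h2 : ((Subgroup.centralizer {x}).subgroupOf H).index ≤ 2 := by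
    by_cases hall : ∀ y : H, (y : Q) * x = x * y
    · have : (Subgroup.centralizer {x}).subgroupOf H = ⊤ := by
        rw [eq_top_iff]
        intro y _
        rw [Subgroup.mem_subgroupOf, Subgroup.mem_centralizer_singleton_iff]
        exact hall y
      rw [this]; simp
    · push Not at hall
      obtain ⟨y, hy⟩ := hall
      refine le_of_eq ?_
      rw [Subgroup.index_eq_two_iff]
      refine ⟨y, fun b => ?_⟩
      simp only [Subgroup.mem_subgroupOf, Subgroup.mem_centralizer_singleton_iff]
      rw [xor_iff_iff_not]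
      have hy' := h.com' hy
      constructor
      · intro hb hb2
        apply hy
        simp only [Subgroup.coe_mul] at hb
        rw [mul_assoc, hy', ← mul_assoc (b : Q) z, ← h.cen (b:Q), mul_assoc z, ← mul_assoc (b : Q) x, hb2,
          mul_assoc x b y] at hb
        exfalso
        have := right_eq_mul.mp hb.symm
        exact h.ne this
      · intro hb
        have hb' := h.com' hb
        simp only [Subgroup.coe_mul]
        rw [mul_assoc, hy', ← mul_assoc (b : Q) z, ← h.cen (b:Q), mul_assoc z, ← mul_assoc (b : Q) x, hb',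
          mul_assoc z (x * b) y, ← mul_assoc z z, h.sq, one_mul, mul_assoc]
  have h3 : Nat.card ((Subgroup.centralizer {x}).subgroupOf H) =
      Nat.card (H ⊓ Subgroup.centralizer {x} : Subgroup Q) := by
    rw [← Subgroup.inf_subgroupOf_left, Nat.card_congr (Subgroup.subgroupOfEquivOfLe inf_le_left).toEquiv]
  rw [← h1, h3]
  nlinarith [Nat.zero_le (Nat.card (H ⊓ Subgroup.centralizer {x} : Subgroup Q))]

/-- In a subgroup `H` centralizing `x` with `x * x = z`, avoiding a "z, x"-closed finite set of few
elements, we find an element squaring to `z`. -/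
theorem Dat.exists_sq [Finite Q] {z : Q} (h : Dat Q z) {x : Q} (hx : x * x = z) (H : Subgroup Q)
    (hxH : x ∈ H) (hHx : ∀ y ∈ H, x * y = y * x) (S : Finset Q) (hS : S.card < Nat.card H)
    (hSx : ∀ s ∈ S, s * x ∈ S) : ∃ w ∈ H, w ∉ S ∧ w * w = z := by
  classical
  obtain ⟨w, hw, hwS⟩ : ∃ w ∈ H, w ∉ S := by
    by_contra hcon
    push Not at hcon
    have : Nat.card H ≤ S.card := by
      have h1 : (H : Set Q) ⊆ (S : Set Q) := fun y hy => hcon y hy
      have h2 := Set.ncard_le_ncard h1 S.finite_toSet
      rwa [Set.ncard_coe_finset, ← Nat.card_coe_set_eq] at h2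
    omega
  rcases h.sq_mem w with e | e
  · refine ⟨w * x, H.mul_mem hw hxH, fun hin => hwS ?_, ?_⟩
    · have h1 := hSx _ (hSx _ (hSx _ hin))
      have h2 : w * x * x * x * x = w := by
        have : x * x * (x * x) = 1 := by rw [hx, h.sq]
        calc w * x * x * x * x = w * (x * x * (x * x)) := by simp only [mul_assoc]
          _ = w := by rw [this, mul_one]
      rwa [h2] at h1
    · calc w * x * (w * x) = w * (x * w) * x := by simp only [mul_assoc]
        _ = (w * w) * (x * x) := by rw [hHx w hw]; simp only [mul_assoc]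
        _ = z := by rw [e, hx, one_mul]
  · exact ⟨w, hw, hwS, e⟩

/-- Let Q be an extraspecial 2-group of order 2^(2n+1) with n ≥ 3 that is of plus type (it contains an elementary abelian subgroup of order 2^(n+1)). Then the group of inner automorphisms of Q has no complement in the full automorphism group of Q: the extension of the inner automorphism group (elementary abelian of order 2^(2n)) by the outer automorphism group (the orthogonal group of plus type) does not split. -/
theorem result {Q : Type*} [Group Q] [Finite Q] (n : ℕ) (hn : 3 ≤ n) (hQ : Cfsg.IsExtraspecial 2 Q) (hcard : Nat.card Q = 2 ^ (2 * n + 1)) (hplus : ∃ E : Subgroup Q, Cfsg.IsElementaryAbelian 2 E ∧ Nat.card ↥E = 2 ^ (n + 1)) (L : Subgroup (MulAut Q)) : ¬ (Cfsg.Inn Q).IsComplement' L := by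
  classical
  intro hcompl
  obtain ⟨z, h⟩ := dat_of_extraspecial hQ
  -- find x with x * x = z
  obtain ⟨x, hx⟩ : ∃ x : Q, x * x = z := by
    by_contra hcon
    push Not at hcon
    have hsq : ∀ y : Q, y * y = 1 := fun y => (h.sq_mem y).resolve_right (hcon y)
    have hab : ∀ a b : Q, a * b = b * a := by
      intro a b
      have h1 : ∀ y : Q, y⁻¹ = y := fun y => inv_eq_of_mul_eq_one_right (hsq y)
      calc a * b = (a * b)⁻¹ := (h1 _).symm
        _ = b⁻¹ * a⁻¹ := mul_inv_rev a b
        _ = b * a := by rw [h1, h1]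
    have hle : Nat.card Q ≤ 2 := by
      rw [← hQ.2]
      have : Subgroup.center Q = ⊤ := by
        rw [eq_top_iff]; intro y _; rw [Subgroup.mem_center_iff]; intro g; exact hab g y
      rw [this]; simp
    have : 2 ^ 3 ≤ Nat.card Q := by
      rw [hcard]; exact Nat.pow_le_pow_right (by norm_num) (by omega)
    omega
  have hbig : 2 ^ 7 ≤ Nat.card Q := by
    rw [hcard]; exact Nat.pow_le_pow_right (by norm_num) (by omega)
  -- the subgroups
  set H₁ : Subgroup Q := ⊤ ⊓ Subgroup.centralizer {x} with hH₁
  have hc1 : 2 ^ 6 ≤ Nat.card H₁ := by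
    have := h.index_centralizer x ⊤
    rw [Subgroup.card_top] at this
    rw [← hH₁] at this
    omega
  have hzcen : ∀ y : Q, z * y = y * z := h.cen
  have hxx : x * x = z := hx
  have hzx : z * x * x = 1 := by rw [mul_assoc, hx, h.sq]
  have hH1mem : ∀ y : Q, y ∈ H₁ ↔ y * x = x * y := by
    intro y
    rw [hH₁, top_inf_eq, Subgroup.mem_centralizer_singleton_iff]
  set S₁ : Finset Q := {1, z, x, z * x} with hS₁
  obtain ⟨w₁, hw₁, hw₁S, hw₁sq⟩ := h.exists_sq hx H₁ ((hH1mem x).mpr rfl)
    (fun y hy => ((hH1mem y).mp hy).symm) S₁ (by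
      have : S₁.card ≤ 4 := Finset.card_le_four
      omega) (by
      intro s hs
      simp only [hS₁, Finset.mem_insert, Finset.mem_singleton] at hs ⊢
      rcases hs with rfl | rfl | rfl | rfl
      · right; right; left; rw [one_mul]
      · right; right; right; rfl
      · right; left; exact hx
      · left; exact hzx)
  set H₂ : Subgroup Q := H₁ ⊓ Subgroup.centralizer {w₁} with hH₂
  have hc2 : 2 ^ 5 ≤ Nat.card H₂ := by
    have := h.index_centralizer w₁ H₁
    rw [← hH₂] at this
    omega
  have hH2mem : ∀ y : Q, y ∈ H₂ ↔ y * x = x * y ∧ y * w₁ = w₁ * y := by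
    intro y
    rw [hH₂, Subgroup.mem_inf, hH1mem, Subgroup.mem_centralizer_singleton_iff]
  have hxw : w₁ * x = x * w₁ := (hH1mem w₁).mp hw₁
  set S₂ : Finset Q := ({1, z, x, z * x} : Finset Q) ∪ {w₁, z * w₁, w₁ * x, z * (w₁ * x)} with hS₂
  obtain ⟨w₂, hw₂, hw₂S, hw₂sq⟩ := h.exists_sq hx H₂ ((hH2mem x).mpr ⟨rfl, hxw.symm⟩)
    (fun y hy => ((hH2mem y).mp hy).1.symm) S₂ (by
      have h8 : S₂.card ≤ 4 + 4 :=
        (Finset.card_union_le _ _).trans (Nat.add_le_add Finset.card_le_four Finset.card_le_four)
      omega) (by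
      intro s hs
      simp only [hS₂, Finset.mem_union, Finset.mem_insert, Finset.mem_singleton] at hs ⊢
      rcases hs with (rfl | rfl | rfl | rfl) | (rfl | rfl | rfl | rfl)
      · left; right; right; left; rw [one_mul]
      · left; right; right; right; rfl
      · left; right; left; exact hx
      · left; left; exact hzx
      · right; right; right; left; rfl
      · right; right; right; right; rw [mul_assoc]
      · right; right; left; rw [mul_assoc, hx, hzcen]
      · right; left
        rw [mul_assoc, mul_assoc, hx, ← hzcen w₁, ← mul_assoc, h.sq, one_mul])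
  have hw2 := (hH2mem w₂).mp hw₂
  simp only [hS₁, Finset.mem_insert, Finset.mem_singleton, not_or] at hw₁S
  simp only [hS₂, Finset.mem_union, Finset.mem_insert, Finset.mem_singleton, not_or] at hw₂S
  refine h.main L ?_ ?_ x w₁ w₂ hx hw₁sq hw₂sq hxw.symm hw2.1.symm hw2.2.symm hw₁S.2.2.1 hw₁S.2.2.2
    hw₂S.1.2.2.1 hw₂S.1.2.2.2 hw₂S.2.1 hw₂S.2.2.1
  · intro l hl hinn
    have hd : Disjoint (Cfsg.Inn Q) L := hcompl.disjoint
    have : l ∈ Cfsg.Inn Q ⊓ L := ⟨by obtain ⟨a, ha⟩ := hinn; exact ⟨a, ha⟩, hl⟩
    rw [disjoint_iff.mp hd] at this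
    exact Subgroup.mem_bot.mp this
  · intro φ
    obtain ⟨⟨⟨i, a, hi⟩, l⟩, hl⟩ := hcompl.2 φ
    refine ⟨a⁻¹, ?_⟩
    simp only at hl
    rw [← hl, ← hi, map_inv, inv_mul_cancel_left]
    exact l.2

end Cfsg.Agent.S3085
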