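import Cfsg.Statements.S3117
import Cfsg.Agent.H20.TI6

set_option autoImplicit false
open Cfsg


namespace Cfsg.Agent.S3117


theorem aux {X : Type*} [Group X] [Finite X] (h2 : IsPGroup 2 X) (Ω : Subgroup X)
    (hΩ : ∀ x, x ∈ Ω ↔ x * x = 1) (hΩ4 : Nat.card Ω = 4) :
    ∀ (n : ℕ) (L : Subgroup (MulAut X)), Nat.card L = n → Group.IsSolvable L := by
  intro n
  induction n using Nat.strong_induction_on with
  | _ n ih =>
  intro L hn
  by_cases hL : commutator L = ⊤
  · have htriv : ∀ l : L, ∀ x : X, l • x = x := fun l x =>
      Cfsg.Agent.H20.TI.triv hL h2 Ω hΩ hΩ4 _ ⊤ rfl (fun _ _ _ => Subgroup.mem_top _) l x (Subgroup.mem_top _)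
    have hone : ∀ l : L, l = 1 := by
      intro l
      refine Subtype.ext (MulEquiv.ext fun x => ?_)
      exact htriv l x
    exact Group.isSolvable_of_comm (fun a b => by rw [hone a, hone b])
  · have hcard : Nat.card ((commutator L).map L.subtype) < n := by
      rw [Subgroup.card_map_of_injective L.subtype_injective, ← hn]
      by_contra hlt
      push Not at hlt
      exact hL (Subgroup.eq_top_of_le_card _ hlt)
    have h1 := ih _ hcard ((commutator L).map L.subtype) rfl
    have h3 : Group.IsSolvable (commutator L) :=
      Group.isSolvable_of_isSolvable_injective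
        (f := ((commutator L).equivMapOfInjective L.subtype L.subtype_injective).toMonoidHom)
        ((commutator L).equivMapOfInjective L.subtype L.subtype_injective).injective
    have h4 : Group.IsSolvable (L ⧸ commutator L) := Group.isSolvable_of_comm (fun a b => by
      exact mul_comm (G := Abelianization L) a b)
    exact Group.isSolvable_of_ker_le_range (commutator L).subtype (QuotientGroup.mk' (commutator L)) (by
      rw [QuotientGroup.ker_mk', Subgroup.range_subtype])

/-- If X is a finite 2-group containing exactly three involutions, then the automorphism group of X is solvable. -/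
theorem result {X : Type*} [Group X] [Finite X] (h2 : IsPGroup 2 X) (h3 : Nat.card {x : X // orderOf x = 2} = 3) : Group.IsSolvable (MulAut X) := by
  have hcomm := Cfsg.Agent.H20.TI.omega_comm h2 h3
  let Ω : Subgroup X :=
    { carrier := {x | x * x = 1}
      one_mem' := by simp
      mul_mem' := by
        intro a b ha hb
        have hab := hcomm a b ha hb
        show a * b * (a * b) = 1
        have ha' : a * a = 1 := ha
        have hb' : b * b = 1 := hb
        calc a * b * (a * b) = a * (b * a) * b := by group
          _ = a * (a * b) * b := by rw [hab]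
          _ = (a * a) * (b * b) := by group
          _ = 1 := by rw [ha', hb', one_mul]
      inv_mem' := by
        intro a ha
        have ha' : a * a = 1 := ha
        show a⁻¹ * a⁻¹ = 1
        rw [← mul_inv_rev, ha', inv_one] }
  have hΩ : ∀ x, x ∈ Ω ↔ x * x = 1 := fun x => Iff.rfl
  have hΩ4 : Nat.card Ω = 4 := by
    have e1 : (Ω : Set X) = insert 1 {x : X | orderOf x = 2} := by
      ext x
      rw [Set.mem_insert_iff, Set.mem_ofPred_eq, orderOf_eq_prime_iff, sq, SetLike.mem_coe, hΩ]
      constructor
      · intro h
        by_cases hx : x = 1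
        · exact Or.inl hx
        · exact Or.inr ⟨h, hx⟩
      · rintro (rfl | ⟨h, -⟩)
        · simp
        · exact h
    have e2 : Nat.card Ω = (Ω : Set X).ncard := rfl
    rw [e2, e1, Set.ncard_insert_of_notMem, ← Nat.card_coe_set_eq]
    · have : Nat.card {x : X | orderOf x = 2} = 3 := h3
      rw [this]
    · simp
  have h := aux h2 Ω hΩ hΩ4 _ (⊤ : Subgroup (MulAut X)) rfl
  exact Group.isSolvable_of_isSolvable_injective
    (f := (Subgroup.topEquiv (G := MulAut X)).symm.toMonoidHom)
    (Subgroup.topEquiv (G := MulAut X)).symm.injective


end Cfsg.Agent.S3117
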