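import Cfsg.Statements.S3356
import Mathlib
import Cfsg.Agent.H2.Basic

set_option autoImplicit false
set_option linter.all false
open Cfsg

namespace Cfsg.Agent.S3356

open scoped Pointwise

section P
variable {A Y : Type*} [Group A] [Finite A] [MulAction A Y] [Finite Y]

theorem lemP {s : ℕ} (S : Set Y) (hs : ∀ y ∈ S, Nat.card (MulAction.stabilizer A y) = s)
    (hcop : ∀ r : ℕ, r.Prime → r ∣ Nat.card A / s → ¬ r ∣ Nat.card S) (B : Subgroup A)
    (hB : ∀ b ∈ B, ∀ y ∈ S, b • y ∈ S) (hst : ∀ y ∈ S, MulAction.stabilizer A y ≤ B) :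
    ∀ y ∈ S, ∀ b ∈ B, b • y = y := by
  intro y hy
  have hsd : s ∣ Nat.card B := by rw [← hs y hy]; exact Subgroup.card_dvd_of_le (hst y hy)
  obtain ⟨d', hd'⟩ := hsd
  have hs0 : 0 < s := by rw [← hs y hy]; exact Nat.card_pos
  have hd1 : d' = 1 := by
    by_contra hne
    obtain ⟨r, hr, hrd⟩ := Nat.exists_prime_and_dvd hne
    haveI : Fact r.Prime := ⟨hr⟩
    have h1 : r ∣ Nat.card A / s := by
      have h2 := Subgroup.card_mul_index B
      rw [← h2, hd', mul_assoc, Nat.mul_div_cancel_left _ hs0]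
      exact dvd_mul_of_dvd_left hrd _
    have h2 := hcop r hr h1
    obtain ⟨R⟩ : Nonempty (Sylow r B) := inferInstance
    let T : SubMulAction (R : Subgroup B) Y :=
      { carrier := S
        smul_mem' := fun c {x} hx => hB ((c : B) : A) (c : B).2 x hx }
    have h3 := R.isPGroup'.nonempty_fixed_point_of_prime_not_dvd_card T h2
    obtain ⟨⟨z, hz⟩, hzf⟩ := h3
    have h4 : (R : Subgroup B) ≤ (MulAction.stabilizer A z).subgroupOf B := by
      intro x hx
      rw [Subgroup.mem_subgroupOf, MulAction.mem_stabilizer_iff]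
      exact congrArg Subtype.val (hzf ⟨x, hx⟩)
    have h5 : ((MulAction.stabilizer A z).subgroupOf B).index = d' := by
      have h6 := Subgroup.card_mul_index ((MulAction.stabilizer A z).subgroupOf B)
      rw [Nat.card_congr (Subgroup.subgroupOfEquivOfLe (hst z hz)).toEquiv, hs z hz, hd'] at h6
      exact Nat.eq_of_mul_eq_mul_left hs0 h6
    have h6 := Subgroup.index_dvd_of_le h4
    rw [h5] at h6
    exact R.not_dvd_index (hrd.trans h6)
  rw [hd1, mul_one] at hd'
  have h7 : MulAction.stabilizer A y = B :=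
    Subgroup.eq_of_le_of_card_ge (hst y hy) (by rw [hs y hy, hd'])
  intro b hb
  rw [← h7] at hb
  exact hb

theorem lemC {s : ℕ} (a : Y) (ha : ∀ g : A, g • a = a) (hs : ∀ y ≠ a, Nat.card (MulAction.stabilizer A y) = s)
    (r : ℕ) (hr : r.Prime) (hrY : r ∣ Nat.card Y) : ¬ r ∣ Nat.card A / s := by
  intro hrd
  haveI : Fact r.Prime := ⟨hr⟩
  obtain ⟨R⟩ : Nonempty (Sylow r A) := inferInstance
  have h1 := R.isPGroup'.card_modEq_card_fixedPoints Y
  have h2 : r ∣ Nat.card (MulAction.fixedPoints (R : Subgroup A) Y) := by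
    exact (Nat.modEq_zero_iff_dvd.1 (h1.symm.trans (Nat.modEq_zero_iff_dvd.2 hrY)))
  have h3 : 1 < Nat.card (MulAction.fixedPoints (R : Subgroup A) Y) := by
    haveI : Nonempty (MulAction.fixedPoints (R : Subgroup A) Y) := ⟨⟨a, fun g => ha g⟩⟩
    exact lt_of_lt_of_le hr.one_lt (Nat.le_of_dvd Nat.card_pos h2)
  haveI := (Finite.one_lt_card_iff_nontrivial).1 h3
  obtain ⟨⟨z, hz⟩, hza⟩ := exists_ne (⟨a, fun g => ha g⟩ : MulAction.fixedPoints (R : Subgroup A) Y)
  have hza' : z ≠ a := fun h => hza (Subtype.ext h)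
  have h4 : (R : Subgroup A) ≤ MulAction.stabilizer A z := fun x hx => hz ⟨x, hx⟩
  have h5 : (MulAction.stabilizer A z).index = Nat.card A / s := by
    rw [← Subgroup.card_mul_index (MulAction.stabilizer A z), hs z hza', Nat.mul_div_cancel_left]
    rw [← hs z hza']; exact Nat.card_pos
  have h6 := Subgroup.index_dvd_of_le h4
  rw [h5] at h6
  exact R.not_dvd_index (hrd.trans h6)

theorem stab_of {g : A} {S : Set Y} (h : ∀ y ∈ S, g • y ∈ S) : g ∈ MulAction.stabilizer A S := by
  rw [MulAction.mem_stabilizer_iff]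
  apply Set.eq_of_subset_of_ncard_le
  · rintro _ ⟨y, hy, rfl⟩
    exact h y hy
  · exact (Set.ncard_image_of_injective S (MulAction.injective g)).ge
  · exact S.toFinite

theorem stab_card_eq {y z : Y} (h : Nat.card (MulAction.orbit A y) = Nat.card (MulAction.orbit A z)) :
    Nat.card (MulAction.stabilizer A y) = Nat.card (MulAction.stabilizer A z) := by
  have h1 := Subgroup.card_mul_index (MulAction.stabilizer A y)
  have h2 := Subgroup.card_mul_index (MulAction.stabilizer A z)
  rw [MulAction.index_stabilizer, ← Nat.card_coe_set_eq] at h1 h2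
  rw [← h2, h] at h1
  have h3 : 0 < Nat.card (MulAction.orbit A z) := by
    rw [Nat.card_coe_set_eq, ← MulAction.index_stabilizer]
    exact Nat.pos_of_ne_zero Subgroup.index_ne_zero_of_finite
  exact Nat.eq_of_mul_eq_mul_right h3 h1
end P

/-- Let G be a finite 3/2-transitive permutation group: G acts faithfully and transitively on a finite set, the point stabilizers are non-trivial, and for each point a all orbits of G_a on the remaining points have the same size. Suppose G has a regular normal subgroup N and G is not a Frobenius group (some two-point stabilizer is non-trivial). Then N is an elementary abelian p-group for some prime p, and every non-trivial normal subgroup of G contains N (so N is the unique minimal normal subgroup). -/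
theorem result {G Ω : Type*} [Group G] [Finite G]
    [MulAction G Ω] [FaithfulSMul G Ω] [Finite Ω] (htrans : MulAction.IsPretransitive G Ω)
    (hne : ∀ a : Ω, MulAction.stabilizer G a ≠ ⊥)
    (hhalf : ∀ a b c : Ω, b ≠ a → c ≠ a →
      Nat.card (MulAction.orbit (MulAction.stabilizer G a) b) = Nat.card (MulAction.orbit (MulAction.stabilizer G a) c))
    (N : Subgroup G) [hN : N.Normal] (hNt : MulAction.IsPretransitive N Ω) (hNr : ∀ a : Ω, MulAction.stabilizer N a = ⊥)
    (hnotF : ∃ a b : Ω, a ≠ b ∧ MulAction.stabilizer G a ⊓ MulAction.stabilizer G b ≠ ⊥) :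
    (∃ p : ℕ, p.Prime ∧ IsMulCommutative N ∧ ∀ x ∈ N, x ^ p = 1) ∧
    (∀ M : Subgroup G, M.Normal → M ≠ ⊥ → N ≤ M) := by
  classical
  obtain ⟨a, b, hab, hnot⟩ := hnotF
  set A := MulAction.stabilizer G a with hA
  have hAm : ∀ g : G, g ∈ A ↔ g • a = a := fun g => Iff.rfl
  -- regular normal subgroup
  have reg : ∀ n ∈ N, ∀ x : Ω, n • x = x → n = 1 := by
    intro n hn x hx
    have h1 : (⟨n, hn⟩ : N) ∈ MulAction.stabilizer N x := hx
    rw [hNr x, Subgroup.mem_bot] at h1
    exact congrArg Subtype.val h1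
  have reg2 : ∀ n ∈ N, ∀ m ∈ N, n • a = m • a → n = m := by
    intro n hn m hm h
    have h1 := reg (m⁻¹ * n) (mul_mem (inv_mem hm) hn) a (by rw [← smul_smul, h, smul_smul, inv_mul_cancel, one_smul])
    exact (inv_mul_eq_one.1 h1).symm
  have surj : ∀ x : Ω, ∃ n ∈ N, n • a = x := by
    intro x
    obtain ⟨n, hn⟩ := hNt.exists_smul_eq a x
    exact ⟨n, n.2, hn⟩
  have hact : ∀ g ∈ A, ∀ n : G, g • (n • a) = (g * n * g⁻¹) • a := by
    intro g hg n
    have h1 : g⁻¹ • a = a := (hAm _).1 (inv_mem hg)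
    rw [← smul_smul, h1, smul_smul]
  have hcomm : ∀ g ∈ A, ∀ n ∈ N, (g • (n • a) = n • a ↔ g * n * g⁻¹ = n) := by
    intro g hg n hn
    rw [hact g hg n]
    exact ⟨reg2 _ (hN.conj_mem n hn g) n hn, fun h => by rw [h]⟩
  -- common order of stabilizers
  set s := Nat.card (MulAction.stabilizer A b) with hs
  have hst : ∀ y ≠ a, Nat.card (MulAction.stabilizer A y) = s := by
    intro y hy
    exact stab_card_eq (hhalf a y b hy hab.symm)
  have hAa : ∀ g : A, g • a = a := fun g => g.2
  have hcardN : Nat.card N = Nat.card Ω := by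
    apply Nat.card_congr
    refine Equiv.ofBijective (fun n : N => (n : G) • a) ⟨?_, ?_⟩
    · intro n m h
      exact Subtype.ext (reg2 n n.2 m m.2 h)
    · intro x
      obtain ⟨n, hn, h⟩ := surj x
      exact ⟨⟨n, hn⟩, h⟩
  have hC := lemC (A := A) (Y := Ω) a hAa hst
  -- stabilizers of nontrivial elements do not act trivially
  have hne1 : ∀ n ∈ N, n ≠ 1 → n • a ≠ a := fun n hn h1 h => h1 (reg n hn a h)
  have hs1 : 1 < s := by
    rw [hs, Finite.one_lt_card_iff_nontrivial]
    rw [← Subgroup.nontrivial_iff_ne_bot] at hnot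
    obtain ⟨⟨g, hg⟩, hg1⟩ := exists_ne (1 : (MulAction.stabilizer G a ⊓ MulAction.stabilizer G b : Subgroup G))
    refine ⟨⟨⟨⟨g, (Subgroup.mem_inf.1 hg).1⟩, (Subgroup.mem_inf.1 hg).2⟩, 1, ?_⟩⟩
    intro h
    apply hg1
    apply Subtype.ext
    exact congrArg (fun t : MulAction.stabilizer A b => ((t : A) : G)) h
  -- relation C x y : every g in A commuting with x commutes with y
  let R : G → G → Prop := fun x y => ∀ g ∈ A, g * x * g⁻¹ = x → g * y * g⁻¹ = y
  have hstab : ∀ x ∈ N, ∀ g : A, g ∈ MulAction.stabilizer A (x • a) ↔ (g : G) * x * (g : G)⁻¹ = x := by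
    intro x hx g
    exact hcomm g g.2 x hx
  have Rsymm : ∀ x ∈ N, x ≠ 1 → ∀ y ∈ N, y ≠ 1 → R x y → R y x := by
    intro x hx hx1 y hy hy1 hxy
    have h1 : MulAction.stabilizer A (x • a) ≤ MulAction.stabilizer A (y • a) := by
      intro g hg
      rw [hstab x hx] at hg
      rw [hstab y hy]
      exact hxy g g.2 hg
    have h2 : MulAction.stabilizer A (x • a) = MulAction.stabilizer A (y • a) :=
      Subgroup.eq_of_le_of_card_ge h1 (by rw [hst _ (hne1 x hx hx1), hst _ (hne1 y hy hy1)])
    intro g hg hgy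
    have h3 : (⟨g, hg⟩ : A) ∈ MulAction.stabilizer A (y • a) := (hstab y hy ⟨g, hg⟩).2 hgy
    rw [← h2, hstab x hx] at h3
    exact h3
  have Rtrans : ∀ x y z, R x y → R y z → R x z := fun x y z h1 h2 g hg h => h2 g hg (h1 g hg h)
  have Rmul : ∀ x y z, R x y → R x z → R x (y * z) := by
    intro x y z h1 h2 g hg h
    have h3 := h1 g hg h
    have h4 := h2 g hg h
    calc g * (y * z) * g⁻¹ = (g * y * g⁻¹) * (g * z * g⁻¹) := by group
      _ = y * z := by rw [h3, h4]
  have Rinv : ∀ x y, R x y → R x y⁻¹ := by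
    intro x y h1 g hg h
    have h3 := h1 g hg h
    calc g * y⁻¹ * g⁻¹ = (g * y * g⁻¹)⁻¹ := by group
      _ = y⁻¹ := by rw [h3]
  have Rone : ∀ x, R x 1 := by intro x g hg h; group
  have Rself : ∀ x, R x x := fun x g hg h => h
  -- no element is related to everything
  have hnot : ∀ x ∈ N, x ≠ 1 → ∃ w ∈ N, ¬ R x w := by
    intro x hx hx1
    by_contra hcon
    push Not at hcon
    have h1 : MulAction.stabilizer A (x • a) = ⊥ := by
      rw [eq_bot_iff]
      intro g hg
      rw [hstab x hx] at hg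
      rw [Subgroup.mem_bot]
      apply Subtype.ext
      apply FaithfulSMul.eq_of_smul_eq_smul (α := Ω)
      intro y
      obtain ⟨n, hn, rfl⟩ := surj y
      have h2 := hcon n hn g g.2 hg
      rw [(hcomm g g.2 n hn).2 h2]
      show n • a = (1 : G) • n • a
      rw [one_smul]
    have h2 := hst _ (hne1 x hx hx1)
    rw [h1, Subgroup.card_bot] at h2
    omega
  -- step 1 : conjugates
  have step1 : ∀ x ∈ N, x ≠ 1 → ∀ m ∈ N, R x (m * x * m⁻¹) := by
    intro x hx hx1
    let S : Set Ω := {y | ∃ m ∈ N, y = (m * x * m⁻¹) • a}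
    have hmN : ∀ m ∈ N, m * x * m⁻¹ ∈ N := fun m hm => mul_mem (mul_mem hm hx) (inv_mem hm)
    have hm1 : ∀ m : G, m * x * m⁻¹ ≠ 1 := fun m h => hx1 (by
      have : m⁻¹ * (m * x * m⁻¹) * m = x := by group
      rw [← this, h]; group)
    let B : Subgroup A := MulAction.stabilizer A S
    have hSa : ∀ y ∈ S, y ≠ a := by
      rintro y ⟨m, hm, rfl⟩
      exact hne1 _ (hmN m hm) (hm1 m)
    have hP := lemP (A := A) (s := s) S (fun y hy => hst y (hSa y hy)) ?_ B ?_ ?_
    · intro m hm g hg hgx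
      have h1 : x • a ∈ S := ⟨1, one_mem _, by rw [one_mul, inv_one, mul_one]⟩
      have h2 : (⟨g, hg⟩ : A) ∈ B := by
        apply stab_of
        rintro _ ⟨m', hm', rfl⟩
        refine ⟨g * m' * g⁻¹, hN.conj_mem m' hm' g, ?_⟩
        show g • (m' * x * m'⁻¹) • a = _
        rw [hact g hg]
        congr 1
        calc g * (m' * x * m'⁻¹) * g⁻¹ = (g * m' * g⁻¹) * (g * x * g⁻¹) * (g * m' * g⁻¹)⁻¹ := by group
          _ = _ := by rw [hgx]
      have h3 := hP ((m * x * m⁻¹) • a) ⟨m, hm, rfl⟩ ⟨g, hg⟩ h2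
      exact (hcomm g hg _ (hmN m hm)).1 h3
    · intro r hr hrd hrS
      apply hC r hr _ hrd
      rw [← hcardN]
      refine hrS.trans ?_
      have h1 : Nat.card (MulAction.orbit (ConjAct N) (⟨x, hx⟩ : N)) ∣ Nat.card N := by
        rw [Nat.card_coe_set_eq, ← MulAction.index_stabilizer]
        exact Subgroup.index_dvd_card _
      have h2 : Nat.card (MulAction.orbit (ConjAct N) (⟨x, hx⟩ : N)) = Nat.card S := by
        apply Nat.card_congr
        refine Equiv.ofBijective (fun n => ⟨(((n : N) : G)) • a, ?_⟩) ⟨?_, ?_⟩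
        · obtain ⟨n, ⟨c, rfl⟩⟩ := n
          refine ⟨(ConjAct.ofConjAct c : N), (ConjAct.ofConjAct c : N).2, ?_⟩
          show ((c • (⟨x, hx⟩ : N) : N) : G) • a = _
          rw [ConjAct.smul_def]
          rfl
        · intro n m h
          apply Subtype.ext
          apply Subtype.ext
          exact reg2 _ (n : N).2 _ (m : N).2 (congrArg Subtype.val h)
        · rintro ⟨y, m, hm, rfl⟩
          refine ⟨⟨⟨m * x * m⁻¹, hmN m hm⟩, ⟨ConjAct.toConjAct ⟨m, hm⟩, ?_⟩⟩, rfl⟩
          show ConjAct.toConjAct (⟨m, hm⟩ : N) • (⟨x, hx⟩ : N) = _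
          rw [ConjAct.smul_def]
          rfl
      rw [← h2]; exact h1
    · intro g hg y hy
      have : g • y ∈ g • S := Set.smul_mem_smul_set hy
      rwa [MulAction.mem_stabilizer_iff.1 hg] at this
    · rintro y ⟨m, hm, rfl⟩ g hg
      rw [hstab _ (hmN m hm)] at hg
      apply stab_of
      rintro _ ⟨m', hm', rfl⟩
      refine ⟨(g * m' * (g : G)⁻¹) * (g * m * (g : G)⁻¹)⁻¹ * m, mul_mem (mul_mem (hN.conj_mem m' hm' g) (inv_mem (hN.conj_mem m hm g))) hm, ?_⟩
      show (g : G) • (m' * x * m'⁻¹) • a = _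
      rw [hact g g.2]
      congr 1
      have h4 : (g : G) * x * (g : G)⁻¹ = (g * m * (g : G)⁻¹)⁻¹ * (m * x * m⁻¹) * (g * m * (g : G)⁻¹) := by
        calc (g : G) * x * (g : G)⁻¹ = (g * m * (g : G)⁻¹)⁻¹ * (g * (m * x * m⁻¹) * (g : G)⁻¹) * (g * m * (g : G)⁻¹) := by group
          _ = _ := by rw [hg]
      calc (g : G) * (m' * x * m'⁻¹) * (g : G)⁻¹ = (g * m' * (g : G)⁻¹) * (g * x * (g : G)⁻¹) * (g * m' * (g : G)⁻¹)⁻¹ := by group
        _ = _ := by rw [h4]; group
  -- N is abelian
  have hdisj : ∀ x ∈ N, x ≠ 1 → ∀ y ∈ N, y ≠ 1 → ¬ R x y → x * y = y * x := by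
    intro x hx hx1 y hy hy1 hxy
    have h1 : R x (x * y * x⁻¹ * y⁻¹) := by
      have : x * y * x⁻¹ * y⁻¹ = x * (y * x * y⁻¹)⁻¹ := by group
      rw [this]
      exact Rmul _ _ _ (Rself x) (Rinv _ _ (step1 x hx hx1 y hy))
    have h2 : R y (x * y * x⁻¹ * y⁻¹) := by
      have : x * y * x⁻¹ * y⁻¹ = (x * y * x⁻¹) * y⁻¹ := by group
      rw [this]
      exact Rmul _ _ _ (step1 y hy hy1 x hx) (Rinv _ _ (Rself y))
    by_contra hne
    have h3 : x * y * x⁻¹ * y⁻¹ ≠ 1 := by
      intro h
      apply hne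
      rw [mul_inv_eq_one, mul_inv_eq_iff_eq_mul] at h
      exact h
    have h4 : x * y * x⁻¹ * y⁻¹ ∈ N := mul_mem (mul_mem (mul_mem hx hy) (inv_mem hx)) (inv_mem hy)
    exact hxy (Rtrans _ _ _ h1 (Rsymm _ hy hy1 _ h4 h3 h2))
  have hNc : ∀ x ∈ N, ∀ y ∈ N, x * y = y * x := by
    intro x hx y hy
    by_cases hx1 : x = 1
    · rw [hx1]; simp
    by_cases hy1 : y = 1
    · rw [hy1]; simp
    by_cases hxy : R x y
    · obtain ⟨w, hw, hwx⟩ := hnot x hx hx1
      have hw1 : w ≠ 1 := fun h => hwx (h ▸ Rone x)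
      have h1 : ¬ R x (w * y) := by
        intro h
        apply hwx
        have : w = (w * y) * y⁻¹ := by group
        rw [this]
        exact Rmul _ _ _ h (Rinv _ _ hxy)
      have hwy1 : w * y ≠ 1 := fun h => h1 (h ▸ Rone x)
      have h2 := hdisj x hx hx1 w hw hw1 hwx
      have h3 := hdisj x hx hx1 (w * y) (mul_mem hw hy) hwy1 h1
      have h4 : w * (x * y) = w * (y * x) := by
        calc w * (x * y) = (w * x) * y := by group
          _ = x * w * y := by rw [h2]
          _ = x * (w * y) := by group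
          _ = (w * y) * x := h3
          _ = w * (y * x) := by group
      exact mul_left_cancel h4
    · exact hdisj x hx hx1 y hy hy1 hxy
  have hN1 : Nat.card N ≠ 1 := by
    intro h
    rw [Subgroup.card_eq_one] at h
    obtain ⟨n, hn, hnb⟩ := surj b
    rw [h, Subgroup.mem_bot] at hn
    rw [hn, one_smul] at hnb
    exact hab hnb
  constructor
  · obtain ⟨p, hpp, hpd⟩ := Nat.exists_prime_and_dvd hN1
    haveI : Fact p.Prime := ⟨hpp⟩
    obtain ⟨⟨z, hz⟩, hzo⟩ := exists_prime_orderOf_dvd_card' (G := N) p hpd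
    rw [Subgroup.orderOf_mk] at hzo
    have hz1 : z ≠ 1 := by
      rintro rfl
      rw [orderOf_one] at hzo
      exact hpp.one_lt.ne hzo
    have hzp : z ^ p = 1 := by rw [← hzo]; exact pow_orderOf_eq_one z
    have hout : ∀ x ∈ N, ¬ R z x → x ^ p = 1 := by
      intro x hx hzx
      by_contra hxp
      have hx1 : x ≠ 1 := fun h => hzx (h ▸ Rone z)
      have hxpN : x ^ p ∈ N := pow_mem hx p
      have h1 : ∀ y, ∀ n : ℕ, R y (y ^ n) := by
        intro y n
        induction n with
        | zero => rw [pow_zero]; exact Rone y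
        | succ n ih => rw [pow_succ]; exact Rmul _ _ _ ih (Rself y)
      have hzx1 : z * x ≠ 1 := by
        intro h
        apply hzx
        rw [← inv_eq_of_mul_eq_one_right h]
        exact Rinv _ _ (Rself z)
      have h2 : (z * x) ^ p = x ^ p := by
        rw [(show Commute z x from hNc z hz x hx).mul_pow, hzp, one_mul]
      have h3 : R (z * x) (x ^ p) := by rw [← h2]; exact h1 _ _
      have h4 : R x (z * x) := Rtrans _ _ _ (h1 x p) (Rsymm _ (mul_mem hz hx) hzx1 _ hxpN hxp h3)
      have h5 : R x z := by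
        have : z = (z * x) * x⁻¹ := by group
        rw [this]
        exact Rmul _ _ _ h4 (Rinv _ _ (Rself x))
      exact hzx (Rsymm _ hx hx1 _ hz hz1 h5)
    refine ⟨p, hpp, ⟨⟨fun u v => Subtype.ext (hNc u u.2 v v.2)⟩⟩, ?_⟩
    intro x hx
    by_cases hzx : R z x
    · obtain ⟨w, hw, hwz⟩ := hnot z hz hz1
      have h1 : ¬ R z (w * x) := by
        intro h
        apply hwz
        have : w = (w * x) * x⁻¹ := by group
        rw [this]
        exact Rmul _ _ _ h (Rinv _ _ hzx)
      have h2 := hout w hw hwz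
      have h3 := hout (w * x) (mul_mem hw hx) h1
      rw [(show Commute w x from hNc w hw x hx).mul_pow, h2, one_mul] at h3
      exact h3
    · exact hout x hx hzx
  · intro M hM hMne
    set K := M ⊓ N with hK
    have hKn : K.Normal := inferInstance
    have hKN : K ≤ N := inf_le_right
    have hKne : K ≠ ⊥ := by
      intro hKb
      apply hMne
      rw [eq_bot_iff]
      intro g hg
      have hgN : ∀ n ∈ N, g * n * g⁻¹ = n := by
        intro n hn
        have h1 : g * n * g⁻¹ * n⁻¹ ∈ K := by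
          refine Subgroup.mem_inf.2 ⟨?_, mul_mem (hN.conj_mem n hn g) (inv_mem hn)⟩
          have : g * n * g⁻¹ * n⁻¹ = g * (n * g⁻¹ * n⁻¹) := by group
          rw [this]
          exact mul_mem hg (hM.conj_mem _ (inv_mem hg) n)
        rw [hKb, Subgroup.mem_bot, mul_inv_eq_one] at h1
        exact h1
      obtain ⟨n, hn, hna⟩ := surj (g • a)
      have h2 : g = n := by
        have h3 : n⁻¹ * g = 1 := by
          apply FaithfulSMul.eq_of_smul_eq_smul (α := Ω)
          intro y
          obtain ⟨m, hm, rfl⟩ := surj y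
          have h4 : (n⁻¹ * g) * m = m * (n⁻¹ * g) := by
            have h5 := hgN m hm
            rw [mul_inv_eq_iff_eq_mul] at h5
            calc (n⁻¹ * g) * m = n⁻¹ * (g * m) := by group
              _ = n⁻¹ * (m * g) := by rw [h5]
              _ = (n⁻¹ * m) * g := by group
              _ = (m * n⁻¹) * g := by rw [hNc n⁻¹ (inv_mem hn) m hm]
              _ = m * (n⁻¹ * g) := by group
          rw [smul_smul, h4, ← smul_smul, ← smul_smul, ← hna, smul_smul n⁻¹, inv_mul_cancel, one_smul, one_smul]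
        exact (inv_mul_eq_one.1 h3).symm
      have h3 : g ∈ K := Subgroup.mem_inf.2 ⟨hg, h2 ▸ hn⟩
      rw [hKb] at h3
      exact h3
    have hKeq : N ≤ K := by
      by_contra hcon
      obtain ⟨y0, hy0, hy0K⟩ := Set.not_subset.1 hcon
      have hy0K : y0 ∉ K := hy0K
      have hy0 : y0 ∈ N := hy0
      have step2 : ∀ y ∈ N, y ∉ K → ∀ k ∈ K, R y k := by
        intro y hy hyK
        let S : Set Ω := {x | ∃ k ∈ K, x = (y * k) • a}
        have hmN : ∀ k ∈ K, y * k ∈ N := fun k hk => mul_mem hy (hKN hk)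
        have hm1 : ∀ k ∈ K, y * k ≠ 1 := fun k hk h => hyK (by
          rw [eq_inv_of_mul_eq_one_left h]; exact inv_mem hk)
        let B : Subgroup A := MulAction.stabilizer A S
        have hSa : ∀ x ∈ S, x ≠ a := by
          rintro x ⟨k, hk, rfl⟩
          exact hne1 _ (hmN k hk) (hm1 k hk)
        have hP := lemP (A := A) (s := s) S (fun x hx => hst x (hSa x hx)) ?_ B ?_ ?_
        · intro k hk g hg hgy
          have h2 : (⟨g, hg⟩ : A) ∈ B := by
            apply stab_of
            rintro _ ⟨k', hk', rfl⟩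
            refine ⟨g * k' * g⁻¹, hKn.conj_mem k' hk' g, ?_⟩
            show g • (y * k') • a = _
            rw [hact g hg]
            congr 1
            calc g * (y * k') * g⁻¹ = (g * y * g⁻¹) * (g * k' * g⁻¹) := by group
              _ = _ := by rw [hgy]
          have h3 := hP ((y * k) • a) ⟨k, hk, rfl⟩ ⟨g, hg⟩ h2
          have h4 := (hcomm g hg _ (hmN k hk)).1 h3
          have h5 : y * (g * k * g⁻¹) = y * k := by
            calc y * (g * k * g⁻¹) = (g * y * g⁻¹) * (g * k * g⁻¹) := by rw [hgy]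
              _ = g * (y * k) * g⁻¹ := by group
              _ = _ := h4
          exact mul_left_cancel h5
        · intro r hr hrd hrS
          apply hC r hr _ hrd
          rw [← hcardN]
          refine hrS.trans ?_
          have h2 : Nat.card K = Nat.card S := by
            apply Nat.card_congr
            refine Equiv.ofBijective (fun k => ⟨(y * (k : G)) • a, ⟨k, k.2, rfl⟩⟩) ⟨?_, ?_⟩
            · intro k m h
              apply Subtype.ext
              exact mul_left_cancel (reg2 _ (hmN k k.2) _ (hmN m m.2) (congrArg Subtype.val h))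
            · rintro ⟨x, k, hk, rfl⟩
              exact ⟨⟨k, hk⟩, rfl⟩
          rw [← h2]
          exact Subgroup.card_dvd_of_le hKN
        · intro g hg y hy
          have : g • y ∈ g • S := Set.smul_mem_smul_set hy
          rwa [MulAction.mem_stabilizer_iff.1 hg] at this
        · rintro x ⟨k, hk, rfl⟩ g hg
          rw [hstab _ (hmN k hk)] at hg
          apply stab_of
          rintro _ ⟨k', hk', rfl⟩
          refine ⟨k * (g * (k⁻¹ * k') * (g : G)⁻¹), mul_mem hk (hKn.conj_mem _ (mul_mem (inv_mem hk) hk') g), ?_⟩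
          show (g : G) • (y * k') • a = _
          rw [hact g g.2]
          congr 1
          calc (g : G) * (y * k') * (g : G)⁻¹ = (g * (y * k) * (g : G)⁻¹) * (g * (k⁻¹ * k') * (g : G)⁻¹) := by group
            _ = _ := by rw [hg]; group
      obtain ⟨k0, hk0, hk01⟩ : ∃ k0 ∈ K, k0 ≠ 1 := by
        by_contra hcon'
        push Not at hcon'
        apply hKne
        rw [eq_bot_iff]
        intro k hk
        rw [Subgroup.mem_bot]
        exact hcon' k hk
      obtain ⟨w, hw, hwk⟩ := hnot k0 (hKN hk0) hk01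
      have hy1 : ∀ y ∈ N, y ∉ K → y ≠ 1 := fun y _ hyK h => hyK (h ▸ one_mem K)
      apply hwk
      by_cases hwK : w ∈ K
      · by_cases hw1 : w = 1
        · rw [hw1]; exact Rone k0
        · exact Rtrans _ _ _ (Rsymm _ hy0 (hy1 y0 hy0 hy0K) _ (hKN hk0) hk01 (step2 y0 hy0 hy0K k0 hk0))
            (step2 y0 hy0 hy0K w hwK)
      · exact Rsymm _ hw (hy1 w hw hwK) _ (hKN hk0) hk01 (step2 w hw hwK k0 hk0)
    exact hKeq.trans inf_le_left

end Cfsg.Agent.S3356
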