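import Cfsg.Statements.S3358
import Cfsg.Agent.S4291
import Cfsg.Agent.H10.FC1
import Cfsg.Agent.H10.FC2
import Cfsg.Agent.H21.ZFmain

set_option autoImplicit false
open Cfsg

namespace Cfsg.Agent.S3358

open Cfsg.Agent.H10.FC Cfsg.Agent.H21.ZF

theorem dvd_rad {n d : ℕ} (hn : n ≠ 0) (hd : d ∣ n) (h : ∀ p ∈ n.primeFactors, d ∣ n / p) :
    d ∣ n / ∏ p ∈ n.primeFactors, p := by
  have key : ∀ s ⊆ n.primeFactors, d * ∏ p ∈ s, p ∣ n := by
    intro s
    induction s using Finset.induction_on with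
    | empty => intro _; simpa using hd
    | insert p s hps ih =>
      intro hs
      have h1 := ih ((Finset.subset_insert p s).trans hs)
      have hp := hs (Finset.mem_insert_self p s)
      have hpd : p ∣ n := Nat.dvd_of_mem_primeFactors hp
      have h2 : d * p ∣ n := by
        obtain ⟨c, hc⟩ := h p hp
        refine ⟨c, ?_⟩
        have := Nat.div_mul_cancel hpd
        rw [← this, hc]; ring
      have hcop : Nat.Coprime p (∏ q ∈ s, q) := by
        apply Nat.Coprime.prod_right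
        intro q hq
        refine (Nat.coprime_primes (Nat.prime_of_mem_primeFactors hp)
          (Nat.prime_of_mem_primeFactors (hs (Finset.mem_insert_of_mem hq)))).2 ?_
        rintro rfl; exact hps hq
      rw [Finset.prod_insert hps, ← hcop.lcm_eq_mul, ← Nat.lcm_mul_left]
      exact Nat.lcm_dvd h2 h1
  apply Nat.dvd_div_of_mul_dvd
  rw [mul_comm]
  exact key _ (Finset.Subset.refl _)

theorem struct {K : Type*} [Group K] [Finite K] (hz : IsZGroup K)
    (hc : ∀ (p : ℕ) (x y : K), p.Prime → orderOf x = p → x * y * x⁻¹ ∈ Subgroup.zpowers y → x * y = y * x) :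
    ∃ n m r : ℕ, 0 < n ∧ 0 < m ∧ Nat.Coprime (r - 1) m ∧ Nat.Coprime n m ∧ 1 ≤ r ∧
        r ^ (n / ∏ p ∈ n.primeFactors, p) % m = 1 % m ∧ Nonempty (K ≃* PresentedGroup (rels n m r)) := by
  obtain ⟨x, y, ⟨r, hr1, hr, hcop⟩, hxy, hcard, htop, hn⟩ := exists_gens (K := K)
  refine ⟨orderOf x, orderOf y, r, orderOf_pos x, orderOf_pos y, hcop, hxy, hr1, ?_, pres hr hcard htop⟩
  have hpow : ∀ k : ℕ, (x ^ k)⁻¹ * y * x ^ k = y ^ (r ^ k) := by
    intro k
    induction k with
    | zero => simp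
    | succ k ih =>
      have e : (x ^ (k + 1))⁻¹ * y * x ^ (k + 1) = x⁻¹ * ((x ^ k)⁻¹ * y * x ^ k) * x := by
        rw [pow_succ]; group
      have h2 := conj_pow (a := x⁻¹) (b := y) (i := r ^ k)
      rw [inv_inv] at h2
      rw [e, ih, ← h2, hr, ← pow_mul, pow_succ, mul_comm]
  have hS : ∀ k : ℕ, (x ^ k) * y = y * x ^ k → ((r : ℕ) : ZMod (orderOf y)) ^ k = 1 := by
    intro k hk
    have h1 := hpow k
    rw [mul_assoc, ← hk, inv_mul_cancel_left] at h1
    have h2 : y ^ 1 = y ^ (r ^ k) := by rw [pow_one]; exact h1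
    have h3 := (pow_eq_pow_iff_modEq.1 h2).symm
    have h4 := (ZMod.natCast_eq_natCast_iff _ _ _).2 h3
    push_cast at h4
    exact h4
  have hxn : ∀ i : ℕ, x ^ i * y * (x ^ i)⁻¹ ∈ Subgroup.zpowers y := by
    intro i
    induction i with
    | zero => simp
    | succ i ih =>
      obtain ⟨k, hk⟩ := ih
      have hk' : y ^ k = x ^ i * y * (x ^ i)⁻¹ := hk
      have e : x ^ (i + 1) * y * (x ^ (i + 1))⁻¹ = (x * y * x⁻¹) ^ k := by
        rw [conj_zpow, hk', pow_succ']; group
      rw [e]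
      exact Subgroup.zpow_mem _ hn k
  have hd := dvd_rad (n := orderOf x) (d := orderOf ((r : ℕ) : ZMod (orderOf y))) (orderOf_pos x).ne'
    (orderOf_dvd_iff_pow_eq_one.2 (hS _ (by rw [pow_orderOf_eq_one]; simp))) (by
      intro p hp
      have hpp := Nat.prime_of_mem_primeFactors hp
      have hpd := Nat.dvd_of_mem_primeFactors hp
      apply orderOf_dvd_iff_pow_eq_one.2
      apply hS
      apply hc p _ _ hpp _ (hxn _)
      rw [orderOf_pow' _ (Nat.div_pos (Nat.le_of_dvd (orderOf_pos x) hpd) hpp.pos).ne',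
        Nat.gcd_eq_right (Nat.div_dvd_of_dvd hpd)]
      exact Nat.div_div_self hpd (orderOf_pos x).ne')
  have h5 := orderOf_dvd_iff_pow_eq_one.1 hd
  rw [← Nat.cast_pow, ← Nat.cast_one (R := ZMod (orderOf y)), ZMod.natCast_eq_natCast_iff'] at h5
  exact h5

/-- Structure of solvable Frobenius complements. Let G be a finite solvable group that occurs as a Frobenius complement. Then G has a normal subgroup G₀ such that G/G₀ is isomorphic to a subgroup of Sym(4) (G₀ is the kernel of a homomorphism to Sym(4)), all Sylow subgroups of G₀ are cyclic, and G₀ has a presentation ⟨x, y | x^n = 1, y^m = 1, x⁻¹ y x = y^r⟩ with n, m ≥ 1, gcd(r − 1, m) = gcd(n, m) = 1 and r^(n/n′) ≡ 1 (mod m), where n′ is the product of the distinct primes dividing n. -/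
theorem result {G : Type*} [Group G] [Finite G] (hsol : Group.IsSolvable G)
    (hFC : ∃ (L : Type) (_ : Group L) (_ : Finite L) (H : Subgroup L), Cfsg.IsFrobeniusComplement H ∧ Nonempty (G ≃* H)) :
    ∃ G₀ : Subgroup G, G₀.Normal ∧
      (∃ f : G →* Equiv.Perm (Fin 4), f.ker = G₀) ∧
      (∀ (p : ℕ) [Fact p.Prime] (P : Sylow p G₀), IsCyclic P) ∧
      ∃ n m r : ℕ, 0 < n ∧ 0 < m ∧ Nat.Coprime (r - 1) m ∧ Nat.Coprime n m ∧ 1 ≤ r ∧
        r ^ (n / ∏ p ∈ n.primeFactors, p) % m = 1 % m ∧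
        Nonempty (G₀ ≃* PresentedGroup
          ({FreeGroup.of (0 : Fin 2) ^ n, FreeGroup.of (1 : Fin 2) ^ m,
            (FreeGroup.of (0 : Fin 2))⁻¹ * FreeGroup.of 1 * FreeGroup.of 0 * (FreeGroup.of (1 : Fin 2) ^ r)⁻¹} :
            Set (FreeGroup (Fin 2)))) := by
  classical
  obtain ⟨N, ⟨hN, hcyc, halt⟩, -⟩ := S4291.result hFC
  haveI := hN
  haveI := hsol
  have hf : ∃ f : G →* Equiv.Perm (Fin 4), f.ker = N := by
    have hcomp : ∀ (T : Type) [Group T] (ι : T →* Equiv.Perm (Fin 4)) (_ : Function.Injective ι)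
        (f : G →* T), f.ker = N → ∃ f : G →* Equiv.Perm (Fin 4), f.ker = N := by
      intro T _ ι hι f hf
      refine ⟨ι.comp f, ?_⟩
      rw [← hf]
      ext g
      rw [MonoidHom.mem_ker, MonoidHom.mem_ker, MonoidHom.comp_apply]
      constructor
      · intro h; exact hι (by rw [h, map_one])
      · intro h; rw [h, map_one]
    have hns : ∀ f : G →* alternatingGroup (Fin 5), ¬ Function.Surjective f := by
      intro f hf
      exact H2.Six.a5_not_solvable (Group.isSolvable_of_surjective hf)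
    rcases halt with h | ⟨f, -, hf⟩ | ⟨f, -, hf⟩ | ⟨f, -, hf⟩ | ⟨f, hs, -⟩ | ⟨f, hs, -⟩
    · exact ⟨1, by rw [h]; exact MonoidHom.ker_one⟩
    · have e : DihedralGroup 2 ≃ Fin 4 := by
        apply Nonempty.some
        rw [← Fintype.card_eq, DihedralGroup.card, Fintype.card_fin]
      refine hcomp _ (e.permCongrHom.toMonoidHom.comp (MulAction.toPermHom (DihedralGroup 2) (DihedralGroup 2))) ?_ f hf
      exact e.permCongrHom.injective.comp MulAction.toPerm_injective
    · exact hcomp _ (alternatingGroup (Fin 4)).subtype (Subgroup.subtype_injective _) f hf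
    · exact ⟨f, hf⟩
    · exact absurd hs (hns f)
    · exfalso
      haveI : Group.IsSolvable (Equiv.Perm (Fin 5)) := Group.isSolvable_of_surjective hs
      exact H2.Six.a5_not_solvable (Group.isSolvable_of_isSolvable_injective
        (Subgroup.subtype_injective (alternatingGroup (Fin 5))))
  refine ⟨N, hN, hf, hcyc, ?_⟩
  have hz : IsZGroup N := ⟨fun p hp P => by haveI : Fact p.Prime := ⟨hp⟩; exact hcyc p P⟩
  obtain ⟨A, i1, i2, i3, ρ, D⟩ := zd_of_free ((freeAct_of_hFC hFC).sub N)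
  exact struct hz (fun p x y hp hx hn => comm_of_norm D hp hx hn)

end Cfsg.Agent.S3358
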