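import Cfsg.Statements.S3362
import Cfsg.Agent.H18.M12Gen

set_option autoImplicit false
open Cfsg

namespace Cfsg.Agent.S3362

open Cfsg.Agent.H18.M12Ext in
/-- moving any 5-tuple of distinct points to `(2, 1, 0, 3, 4)` -/
theorem move (y : Fin 5 ↪ Fin 12) : ∃ g ∈ M12, g (y 0) = 2 ∧ g (y 1) = 1 ∧ g (y 2) = 0 ∧ g (y 3) = 3 ∧ g (y 4) = 4 := by
  have hy : ∀ i j : Fin 5, i ≠ j → y i ≠ y j := fun i j h h2 => h (y.injective h2)
  obtain ⟨g1, hg1, e1⟩ := good5.tr (y 0) (by generalize y 0 = a; revert a; decide)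
  have k1 : ∀ i : Fin 5, i ≠ 0 → g1 (y i) ≠ 2 := fun i hi h => hy i 0 hi (g1.injective (h.trans e1.symm))
  obtain ⟨g2, hg2, e2⟩ := good4.tr (g1 (y 1)) (by
    have := k1 1 (by decide); revert this; generalize g1 (y 1) = a; revert a; decide)
  have f2 : g2 2 = 2 := good5.fa g2 hg2
  have k2 : ∀ i : Fin 5, i ≠ 0 → i ≠ 1 → (g2 (g1 (y i)) ≠ 2 ∧ g2 (g1 (y i)) ≠ 1) := fun i hi hi' =>
    ⟨fun h => k1 i hi (g2.injective (h.trans f2.symm)), fun h => hy i 1 hi' (g1.injective (g2.injective (h.trans e2.symm)))⟩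
  obtain ⟨g3, hg3, e3⟩ := good3.tr (g2 (g1 (y 2))) (by
    have := k2 2 (by decide) (by decide); revert this; generalize g2 (g1 (y 2)) = a; revert a; decide)
  have f3 : g3 2 = 2 := good5.fa g3 (good4.le hg3)
  have f3' : g3 1 = 1 := good4.fa g3 hg3
  have k3 : ∀ i : Fin 5, i ≠ 0 → i ≠ 1 → i ≠ 2 → (g3 (g2 (g1 (y i))) ≠ 2 ∧ g3 (g2 (g1 (y i))) ≠ 1 ∧ g3 (g2 (g1 (y i))) ≠ 0) :=
    fun i hi hi' hi'' =>
    ⟨fun h => (k2 i hi hi').1 (g3.injective (h.trans f3.symm)), fun h => (k2 i hi hi').2 (g3.injective (h.trans f3'.symm)),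
      fun h => hy i 2 hi'' (g1.injective (g2.injective (g3.injective (h.trans e3.symm))))⟩
  obtain ⟨g4, hg4, e4⟩ := good2.tr (g3 (g2 (g1 (y 3)))) (by
    have := k3 3 (by decide) (by decide) (by decide); revert this; generalize g3 (g2 (g1 (y 3))) = a; revert a; decide)
  have f4 : g4 2 = 2 := good5.fa g4 (good4.le (good3.le hg4))
  have f4' : g4 1 = 1 := good4.fa g4 (good3.le hg4)
  have f4'' : g4 0 = 0 := good3.fa g4 hg4
  obtain ⟨g5, hg5, e5⟩ := good1.tr (g4 (g3 (g2 (g1 (y 4))))) (by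
    obtain ⟨a1, a2, a3⟩ := k3 4 (by decide) (by decide) (by decide)
    have b1 : g4 (g3 (g2 (g1 (y 4)))) ≠ 2 := fun h => a1 (g4.injective (h.trans f4.symm))
    have b2 : g4 (g3 (g2 (g1 (y 4)))) ≠ 1 := fun h => a2 (g4.injective (h.trans f4'.symm))
    have b3 : g4 (g3 (g2 (g1 (y 4)))) ≠ 0 := fun h => a3 (g4.injective (h.trans f4''.symm))
    have b4 : g4 (g3 (g2 (g1 (y 4)))) ≠ 3 := fun h =>
      hy 4 3 (by decide) (g1.injective (g2.injective (g3.injective (g4.injective (h.trans e4.symm)))))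
    revert b1 b2 b3 b4; generalize g4 (g3 (g2 (g1 (y 4)))) = a; revert a; decide)
  have f5 : g5 2 = 2 := good1.fix g5 hg5 2 (by decide)
  have f5' : g5 1 = 1 := good1.fix g5 hg5 1 (by decide)
  have f5'' : g5 0 = 0 := good1.fix g5 hg5 0 (by decide)
  have f5''' : g5 3 = 3 := good1.fix g5 hg5 3 (by decide)
  refine ⟨g5 * g4 * g3 * g2 * g1, ?_, ?_, ?_, ?_, ?_, ?_⟩
  · exact mul_mem (mul_mem (mul_mem (mul_mem (good5.le (good4.le (good3.le (good2.le hg5)))) (good5.le (good4.le (good3.le hg4))))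
      (good5.le (good4.le hg3))) (good5.le hg2)) hg1
  · simp only [Equiv.Perm.mul_apply, e1, f2, f3, f4, f5]
  · simp only [Equiv.Perm.mul_apply, e2, f3', f4', f5']
  · simp only [Equiv.Perm.mul_apply, e3, f4'', f5'']
  · simp only [Equiv.Perm.mul_apply, e4, f5''']
  · simp only [Equiv.Perm.mul_apply, e5]

open Cfsg.Agent.H18.M12Ext in
theorem triv {g : Equiv.Perm (Fin 12)} (hg : g ∈ M12) (h2 : g 2 = 2) (h1 : g 1 = 1) (h0 : g 0 = 0) (h3 : g 3 = 3)
    (h4 : g 4 = 4) : g = 1 := by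
  have a1 := good5.st g hg h2
  have a2 := good4.st g a1 h1
  have a3 := good3.st g a2 h0
  have a4 := good2.st g a3 h3
  have a5 := good1.st g a4 h4
  rwa [Subgroup.mem_bot] at a5

open Cfsg.Agent.H18.M12Ext in
theorem main : MulAction.IsMultiplyPretransitive M12 (Fin 12) 5 ∧ (∀ y : Fin 5 ↪ Fin 12, MulAction.stabilizer M12 y = ⊥) ∧
    Nat.card M12 = 95040 ∧ Nat.card M11 = 7920 ∧
    M11 = M12 ⊓ MulAction.stabilizer (Equiv.Perm (Fin 12)) (2 : Fin 12) := by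
  have hst : M11 = M12 ⊓ MulAction.stabilizer (Equiv.Perm (Fin 12)) (2 : Fin 12) := by
    apply le_antisymm
    · exact le_inf good5.le fun g hg => good5.fa g hg
    · rintro g ⟨hg, hg2⟩
      exact good5.st g hg hg2
  have hpre : MulAction.IsPretransitive M12 (Fin 5 ↪ Fin 12) := by
    constructor
    intro y z
    obtain ⟨g, hg, a0, a1, a2, a3, a4⟩ := move y
    obtain ⟨h, hh, b0, b1, b2, b3, b4⟩ := move z
    refine ⟨(⟨h, hh⟩ : M12)⁻¹ * (⟨g, hg⟩ : M12), ?_⟩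
    have key : ∀ i, g (y i) = h (z i) := by
      intro i
      fin_cases i
      exacts [a0.trans b0.symm, a1.trans b1.symm, a2.trans b2.symm, a3.trans b3.symm, a4.trans b4.symm]
    apply Function.Embedding.ext
    intro i
    show h⁻¹ (g (y i)) = z i
    rw [key, ← Equiv.Perm.mul_apply, inv_mul_cancel, Equiv.Perm.one_apply]
  have hbot : ∀ y : Fin 5 ↪ Fin 12, MulAction.stabilizer M12 y = ⊥ := by
    intro y
    rw [eq_bot_iff]
    rintro ⟨k, hk⟩ hky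
    rw [MulAction.mem_stabilizer_iff] at hky
    have hky' : ∀ i, k (y i) = y i := fun i => congrArg (fun f : Fin 5 ↪ Fin 12 => f i) hky
    obtain ⟨g, hg, a0, a1, a2, a3, a4⟩ := move y
    have hgi : ∀ i c, g (y i) = c → (g * k * g⁻¹) c = c := by
      rintro i c rfl
      simp only [Equiv.Perm.mul_apply]
      rw [← Equiv.Perm.mul_apply g⁻¹ g, inv_mul_cancel, Equiv.Perm.one_apply, hky']
    have h1 := triv (mul_mem (mul_mem hg hk) (inv_mem hg)) (hgi 0 2 a0) (hgi 1 1 a1) (hgi 2 0 a2) (hgi 3 3 a3) (hgi 4 4 a4)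
    rw [Subgroup.mem_bot]
    apply Subtype.ext
    show k = 1
    have : k = g⁻¹ * (g * k * g⁻¹) * g := by group
    rw [this, h1]; group
  have hcard : Nat.card M12 = 95040 := by
    let y₀ : Fin 5 ↪ Fin 12 := ⟨![2, 1, 0, 3, 4], by decide⟩
    haveI : @MulAction.IsPretransitive M12 (Fin 5 ↪ Fin 12) (inferInstance : MulAction M12 (Fin 5 ↪ Fin 12)).toSMul := hpre
    have h1 := @MulAction.index_stabilizer_of_transitive M12 (Fin 5 ↪ Fin 12) _ (inferInstance) y₀ this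
    rw [hbot, Subgroup.index_bot] at h1
    rw [h1, Nat.card_eq_fintype_card, Fintype.card_embedding_eq]
    decide
  have hpre1 : MulAction.IsPretransitive M12 (Fin 12) := by
    constructor
    intro a b
    have ha : a ∈ ({2, 1, 0, 3, 4, 5, 6, 7, 8, 9, 10, 11} : Finset (Fin 12)) := by revert a; decide
    have hb : b ∈ ({2, 1, 0, 3, 4, 5, 6, 7, 8, 9, 10, 11} : Finset (Fin 12)) := by revert b; decide
    obtain ⟨g, hg, e⟩ := good5.tr2 ha hb
    exact ⟨⟨g, hg⟩, e⟩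
  refine ⟨hpre, hbot, hcard, ?_, hst⟩
  have h1 := MulAction.index_stabilizer_of_transitive M12 (2 : Fin 12)
  have h2 : MulAction.stabilizer M12 (2 : Fin 12) = M11.subgroupOf M12 := by
    ext ⟨g, hg⟩
    rw [MulAction.mem_stabilizer_iff, Subgroup.mem_subgroupOf]
    exact ⟨fun h => good5.st g hg h, fun h => good5.fa g h⟩
  rw [h2] at h1
  have h3 := (M11.subgroupOf M12).index_mul_card
  rw [h1, hcard, Nat.card_congr (Subgroup.subgroupOfEquivOfLe good5.le).toEquiv, Nat.card_eq_fintype_card,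
    Fintype.card_fin] at h3
  omega

/-- An explicit construction of the Mathieu groups of degrees 11 and 12. On the points 0, …, 11 let s = (3 4 5)(6 7 8)(9 10 11), t = (3 6 9)(4 7 10)(5 8 11), u = (4 6 5 9)(7 8 11 10), v = (4 7 5 11)(6 10 9 8), w = (4 10 5 8)(6 11 9 7), x₁ = (0 3)(6 7)(8 10)(9 11), x₂ = (0 1)(6 9)(7 10)(8 11), x₃ = (1 2)(6 11)(7 9)(8 10) (each written as a product of transpositions). Then the group M₁₂ generated by all eight permutations is sharply 5-transitive on the 12 points and has order 95040, and the group M₁₁ generated by the first seven has order 7920 and is the stabilizer of the point 2 in M₁₂. -/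
theorem result
    (s t u v w x₁ x₂ x₃ : Equiv.Perm (Fin 12))
    (hs : s = Equiv.swap (3 : Fin 12) 5 * Equiv.swap (3 : Fin 12) 4 * Equiv.swap (6 : Fin 12) 8 * Equiv.swap (6 : Fin 12) 7 * Equiv.swap (9 : Fin 12) 11 * Equiv.swap (9 : Fin 12) 10) (ht : t = Equiv.swap (3 : Fin 12) 9 * Equiv.swap (3 : Fin 12) 6 * Equiv.swap (4 : Fin 12) 10 * Equiv.swap (4 : Fin 12) 7 * Equiv.swap (5 : Fin 12) 11 * Equiv.swap (5 : Fin 12) 8)
    (hu : u = Equiv.swap (4 : Fin 12) 9 * Equiv.swap (4 : Fin 12) 5 * Equiv.swap (4 : Fin 12) 6 * Equiv.swap (7 : Fin 12) 10 * Equiv.swap (7 : Fin 12) 11 * Equiv.swap (7 : Fin 12) 8) (hv : v = Equiv.swap (4 : Fin 12) 11 * Equiv.swap (4 : Fin 12) 5 * Equiv.swap (4 : Fin 12) 7 * Equiv.swap (6 : Fin 12) 8 * Equiv.swap (6 : Fin 12) 9 * Equiv.swap (6 : Fin 12) 10) (hw : w = Equiv.swap (4 : Fin 12) 8 * Equiv.swap (4 : Fin 12) 5 * Equiv.swap (4 : Fin 12) 10 * Equiv.swap (6 : Fin 12) 7 *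 Equiv.swap (6 : Fin 12) 9 * Equiv.swap (6 : Fin 12) 11)
    (hx₁ : x₁ = Equiv.swap (0 : Fin 12) 3 * Equiv.swap (6 : Fin 12) 7 * Equiv.swap (8 : Fin 12) 10 * Equiv.swap (9 : Fin 12) 11) (hx₂ : x₂ = Equiv.swap (0 : Fin 12) 1 * Equiv.swap (6 : Fin 12) 9 * Equiv.swap (7 : Fin 12) 10 * Equiv.swap (8 : Fin 12) 11)
    (hx₃ : x₃ = Equiv.swap (1 : Fin 12) 2 * Equiv.swap (6 : Fin 12) 11 * Equiv.swap (7 : Fin 12) 9 * Equiv.swap (8 : Fin 12) 10)
    (M₁₂ M₁₁ : Subgroup (Equiv.Perm (Fin 12))) (hM₁₂ : M₁₂ = Subgroup.closure {s, t, u, v, w, x₁, x₂, x₃})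
    (hM₁₁ : M₁₁ = Subgroup.closure {s, t, u, v, w, x₁, x₂}) :
    MulAction.IsMultiplyPretransitive M₁₂ (Fin 12) 5 ∧ (∀ y : Fin 5 ↪ Fin 12, MulAction.stabilizer M₁₂ y = ⊥) ∧
    Nat.card M₁₂ = 95040 ∧ Nat.card M₁₁ = 7920 ∧
    M₁₁ = M₁₂ ⊓ MulAction.stabilizer (Equiv.Perm (Fin 12)) (2 : Fin 12) := by
  have e1 : M₁₂ = H18.M12Ext.M12 := by
    rw [H18.M12Ext.M12_eq, hM₁₂, hs, ht, hu, hv, hw, hx₁, hx₂, hx₃]; rfl
  have e2 : M₁₁ = H18.M12Ext.M11 := by
    rw [H18.M12Ext.M11_eq, hM₁₁, hs, ht, hu, hv, hw, hx₁, hx₂]; rfl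
  rw [e1, e2]
  exact main

end Cfsg.Agent.S3362
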