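import Cfsg.Statements.S3370
import Mathlib
import Cfsg.Agent.H21.NumPow
import Cfsg.Agent.H21.Ord8

set_option autoImplicit false
set_option linter.style.haveILetI false
set_option linter.unusedVariables false
open Cfsg

namespace Cfsg.Agent.S3370

/-- Let q be a prime, V a non-trivial finite vector space over the field with q elements, and G a non-trivial finite p-group (p prime) acting faithfully and linearly on V and transitively on the non-zero vectors. Then either q = 2 and G has prime order p = |V| − 1; or p = 2, V has q elements with q = 2^m + 1 and G is cyclic of order 2^m; or p = 2, q = 3, V has 9 elements and G is cyclic of order 8, quaternion of order 8, or semidihedral of order 16. -/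
theorem result (q : ℕ) [Fact q.Prime] {V : Type*} [AddCommGroup V] [Module (ZMod q) V] [Finite V] [Nontrivial V]
    {G : Type*} [Group G] [Finite G] [Nontrivial G] (p : ℕ) [Fact p.Prime] (hG : IsPGroup p G)
    (ρ : G →* (V ≃ₗ[ZMod q] V)) (hρ : Function.Injective ρ)
    (htrans : ∀ v w : V, v ≠ 0 → w ≠ 0 → ∃ g : G, ρ g v = w) :
    (q = 2 ∧ p = Nat.card V - 1 ∧ Nat.card G = p) ∨
    (p = 2 ∧ Nat.card V = q ∧ (∃ m : ℕ, q = 2 ^ m + 1 ∧ Nat.card G = 2 ^ m) ∧ IsCyclic G) ∨
    (p = 2 ∧ q = 3 ∧ Nat.card V = 9 ∧
      ((IsCyclic G ∧ Nat.card G = 8) ∨ Nonempty (G ≃* QuaternionGroup 2) ∨ (Cfsg.IsQuasiDihedral G ∧ Nat.card G = 16))) := by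
  classical
  haveI : Fintype V := Fintype.ofFinite V
  haveI : Module.Finite (ZMod q) V := Module.Finite.of_finite
  have hp : p.Prime := Fact.out
  have hqp : q.Prime := Fact.out
  have hmulv : ∀ (g h : G) (v : V), ρ (g * h) v = ρ g (ρ h v) := fun g h v => by rw [map_mul]; rfl
  have h1v : ∀ v : V, ρ 1 v = v := fun v => by rw [map_one]; rfl
  have hne0 : ∀ (g : G) (v : V), v ≠ 0 → ρ g v ≠ 0 := fun g v hv h => hv ((map_eq_zero_iff _ (ρ g).injective).1 h)
  letI act : MulAction G {v : V // v ≠ 0} :=
    { smul := fun g v => ⟨ρ g v.1, hne0 g v.1 v.2⟩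
      one_smul := fun v => Subtype.ext (h1v v.1)
      mul_smul := fun g h v => Subtype.ext (hmulv g h v.1) }
  have hsm : ∀ (g : G) (v : {v : V // v ≠ 0}), (g • v).1 = ρ g v.1 := fun g v => rfl
  haveI htr : MulAction.IsPretransitive G {v : V // v ≠ 0} := ⟨fun v w => by
    obtain ⟨g, hg⟩ := htrans v.1 w.1 v.2 w.2
    exact ⟨g, Subtype.ext hg⟩⟩
  obtain ⟨v₀, hv₀⟩ := exists_ne (0 : V)
  set w₀ : {v : V // v ≠ 0} := ⟨v₀, hv₀⟩ with hw₀
  have hcardV0 : Nat.card {v : V // v ≠ 0} = Nat.card V - 1 := by
    rw [Nat.card_eq_fintype_card, Nat.card_eq_fintype_card, Fintype.card_subtype_compl, Fintype.card_subtype_eq]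
  have hmul : Nat.card (MulAction.stabilizer G w₀) * (Nat.card V - 1) = Nat.card G := by
    rw [← hcardV0, ← MulAction.index_stabilizer_of_transitive G w₀, Subgroup.card_mul_index]
  have hstab : ∀ g : G, g ∈ MulAction.stabilizer G w₀ ↔ ρ g v₀ = v₀ := by
    intro g
    rw [MulAction.mem_stabilizer_iff]
    exact Subtype.ext_iff
  obtain ⟨j, hj⟩ := (IsPGroup.iff_card (p := p)).1 hG
  have hj1 : 1 ≤ j := by
    rcases j with _ | j
    · rw [pow_zero] at hj
      have := Finite.one_lt_card (α := G)
      omega
    · omega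
  have hVn : Nat.card V = q ^ Module.finrank (ZMod q) V := by
    rw [Module.natCard_eq_pow_finrank (K := ZMod q) (V := V), Nat.card_zmod]
  set n := Module.finrank (ZMod q) V with hn
  have hn1 : 1 ≤ n := Module.finrank_pos
  obtain ⟨k, hkj, hk⟩ := (Nat.dvd_prime_pow hp).1 (hj ▸ Dvd.intro_left _ hmul)
  have hV1 : 1 < Nat.card V := Finite.one_lt_card
  have hVk : q ^ n = p ^ k + 1 := by omega
  have hfaith : ∀ g : G, (∀ v, ρ g v = v) → g = 1 := by
    intro g hg
    apply hρ
    rw [map_one]
    ext v
    exact hg v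
  by_cases hq2 : q = 2
  · left
    have hk1 : 1 ≤ k := by
      rcases k with _ | k
      · exfalso
        rw [pow_zero] at hk
        have h2 : Nat.card {v : V // v ≠ 0} = 1 := by rw [hcardV0, hk]
        rw [Nat.card_eq_one_iff_unique] at h2
        obtain ⟨g, hg⟩ := exists_ne (1 : G)
        apply hg
        apply hfaith
        intro v
        by_cases hv : v = 0
        · rw [hv, map_zero]
        · exact congrArg Subtype.val (h2.1.elim (⟨ρ g v, hne0 g v hv⟩ : {v : V // v ≠ 0}) ⟨v, hv⟩)
      · omega
    have h2 : k = 1 := by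
      apply Cfsg.Agent.H21.two_pow_eq_pow_add_one n k p hp hk1
      rw [← hVk, hq2]
    rw [h2, pow_one] at hk
    refine ⟨hq2, hk.symm, ?_⟩
    -- |G| divides p!
    have hinj : Function.Injective (MulAction.toPermHom G {v : V // v ≠ 0}) := by
      rw [injective_iff_map_eq_one]
      intro g hg
      apply hfaith
      intro v
      by_cases hv : v = 0
      · rw [hv, map_zero]
      · have := congrFun (congrArg DFunLike.coe hg) (⟨v, hv⟩ : {v : V // v ≠ 0})
        exact congrArg Subtype.val this
    have hdvd := Subgroup.card_dvd_of_injective _ hinj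
    rw [Nat.card_perm, hcardV0, hk, hj] at hdvd
    have hj2 : j = 1 := by
      by_contra hcon
      have h3 : p ^ 2 ∣ p.factorial := (pow_dvd_pow p (by omega)).trans hdvd
      obtain ⟨m, rfl⟩ : ∃ m, p = m + 1 := ⟨p - 1, by have := hp.pos; omega⟩
      rw [Nat.factorial_succ, pow_two] at h3
      have h4 := Nat.dvd_of_mul_dvd_mul_left hp.pos h3
      rw [hp.dvd_factorial] at h4
      omega
    rw [hj, hj2, pow_one]
  · right
    have hqodd : q % 2 = 1 := hqp.eq_two_or_odd.resolve_left hq2
    have hp2 : p = 2 := by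
      have h1 : q ^ n % 2 = 1 := by rw [Nat.pow_mod, hqodd, one_pow]; rfl
      have h2 : 2 ∣ p ^ k := by omega
      exact ((Nat.prime_dvd_prime_iff_eq Nat.prime_two hp).1 (Nat.prime_two.dvd_of_dvd_pow h2)).symm
    subst hp2
    rcases Cfsg.Agent.H21.pow_eq_two_pow_add_one n k q hqp hq2 hn1 hVk with h1 | ⟨h3, h2⟩
    · left
      rw [h1, pow_one] at hVk hVn
      -- scalars
      have hsc : ∀ (w : V), ∃ c : ZMod q, c • v₀ = w := by
        have := (finrank_eq_one_iff_of_nonzero' v₀ hv₀).1 h1
        exact this
      have hst : MulAction.stabilizer G w₀ = ⊥ := by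
        rw [Subgroup.eq_bot_iff_forall]
        intro g hg
        rw [hstab] at hg
        apply hfaith
        intro v
        obtain ⟨c, rfl⟩ := hsc v
        rw [map_smul, hg]
      rw [hst, Subgroup.card_bot, one_mul] at hmul
      refine ⟨rfl, hVn, ⟨k, hVk, by rw [← hmul, hk]⟩, ?_⟩
      let f : G →* ZMod q :=
        { toFun := fun g => LinearMap.det ((ρ g : V →ₗ[ZMod q] V))
          map_one' := by
            have : ((ρ 1 : V ≃ₗ[ZMod q] V) : V →ₗ[ZMod q] V) = LinearMap.id := by rw [map_one]; rfl
            rw [this, LinearMap.det_id]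
          map_mul' := by
            intro g h
            have : ((ρ (g * h) : V ≃ₗ[ZMod q] V) : V →ₗ[ZMod q] V) = (ρ g : V →ₗ[ZMod q] V) * (ρ h : V →ₗ[ZMod q] V) := by rw [map_mul]; rfl
            rw [this, map_mul] }
      apply isCyclic_of_subgroup_isDomain f
      rw [injective_iff_map_eq_one]
      intro g hg
      have hg' : LinearMap.det ((ρ g : V →ₗ[ZMod q] V)) = 1 := hg
      obtain ⟨c, hc⟩ := hsc (ρ g v₀)
      have e : (ρ g : V →ₗ[ZMod q] V) = c • LinearMap.id := by
        ext v
        obtain ⟨d, rfl⟩ := hsc v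
        show ρ g (d • v₀) = c • (d • v₀)
        rw [map_smul, ← hc, smul_comm]
      rw [e, LinearMap.det_smul, LinearMap.det_id, mul_one, ← hn, h1, pow_one] at hg'
      apply hfaith
      intro v
      have := congrArg (fun L : V →ₗ[ZMod q] V => L v) e
      simp only [hg', one_smul] at this
      exact this
    · right
      subst h3
      rw [h2] at hVn hVk
      have hV9 : Nat.card V = 9 := by rw [hVn]; norm_num
      have hk3 : Nat.card V - 1 = 8 := by omega
      rw [hk3] at hmul
      refine ⟨rfl, rfl, hV9, ?_⟩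
      have hneg : ∀ v : V, v + v = 0 → v = 0 := by
        intro v hv
        rw [← two_smul (ZMod 3) v] at hv
        refine (smul_eq_zero.1 hv).resolve_left ?_
        intro h
        have : ((2 : ℕ) : ZMod 3) = 0 := by exact_mod_cast h
        rw [ZMod.natCast_eq_zero_iff] at this
        omega
      by_cases hst : MulAction.stabilizer G w₀ = ⊥
      · rw [hst, Subgroup.card_bot, one_mul] at hmul
        -- involutions act as -1
        have hinv : ∀ t : G, orderOf t = 2 → ∀ v, ρ t v = -v := by
          intro t ht v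
          have htt : t * t = 1 := by rw [← pow_two, ← ht, pow_orderOf_eq_one]
          by_contra hcon
          have ha : v + ρ t v ≠ 0 := fun h => hcon (eq_neg_of_add_eq_zero_right h)
          obtain ⟨g, hg⟩ := htrans v₀ _ hv₀ ha
          have h4 : ρ (g⁻¹ * t * g) v₀ = v₀ := by
            rw [hmulv, hmulv, hg, map_add, ← hmulv t t, htt, h1v, add_comm (ρ t v) v, ← hg, ← hmulv, inv_mul_cancel, h1v]
          rw [← hstab, hst, Subgroup.mem_bot] at h4
          have h5 : t = 1 := by
            calc t = g * (g⁻¹ * t * g) * g⁻¹ := by group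
              _ = 1 := by rw [h4]; group
          rw [h5, orderOf_one] at ht
          omega
        rcases Cfsg.Agent.H21.cyc_or_quat hmul.symm (by
          intro x y hx hy
          apply hρ
          ext v
          show ρ x v = ρ y v
          rw [hinv x hx, hinv y hy]) with h | h
        · exact Or.inl ⟨h, hmul.symm⟩
        · exact Or.inr (Or.inl h)
      · right; right
        -- the embedding in GL(2,3)
        let b : Module.Basis (Fin 2) (ZMod 3) V := Module.finBasisOfFinrankEq (ZMod 3) V h2
        let Φ : (V ≃ₗ[ZMod 3] V) ≃* GL (Fin 2) (ZMod 3) :=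
          (LinearMap.GeneralLinearGroup.generalLinearEquiv (ZMod 3) V).symm.trans
            (Units.mapEquiv (LinearMap.toMatrixAlgEquiv b).toMulEquiv)
        let f : G →* GL (Fin 2) (ZMod 3) := Φ.toMonoidHom.comp ρ
        have hf : Function.Injective f := Φ.injective.comp hρ
        have hfv : ∀ (g : G) (v : V), ((f g : GL (Fin 2) (ZMod 3)) : Matrix (Fin 2) (Fin 2) (ZMod 3)).mulVec (b.repr v) = b.repr (ρ g v) := by
          intro g v
          have : ((f g : GL (Fin 2) (ZMod 3)) : Matrix (Fin 2) (Fin 2) (ZMod 3)) = LinearMap.toMatrix b b (ρ g : V →ₗ[ZMod 3] V) := rfl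
          rw [this, LinearMap.toMatrix_mulVec_repr]; rfl
        haveI : Finite (GL (Fin 2) (ZMod 3)) := inferInstance
        have hdvd := Subgroup.card_dvd_of_injective f hf
        rw [Cfsg.Agent.H21.card_gl23, hj] at hdvd
        have hj4 : j ≤ 4 := by
          by_contra hcon
          have h5 : 2 ^ 5 ∣ 48 := (pow_dvd_pow 2 (by omega)).trans hdvd
          revert h5; decide
        have hst2 : 1 < Nat.card (MulAction.stabilizer G w₀) := by
          by_contra hcon
          have : 0 < Nat.card (MulAction.stabilizer G w₀) := Nat.card_pos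
          exact hst (Subgroup.card_eq_one.1 (by omega))
        have hG16 : Nat.card G = 16 := by
          have h5 : 2 ^ j ≤ 2 ^ 4 := Nat.pow_le_pow_right (by norm_num) hj4
          rw [hj] at hmul ⊢
          omega
        have hst2' : Nat.card (MulAction.stabilizer G w₀) = 2 := by omega
        obtain ⟨y, hy⟩ := exists_prime_orderOf_dvd_card' (G := MulAction.stabilizer G w₀) 2 (by rw [hst2'])
        have hyv : ρ (y : G) v₀ = v₀ := (hstab y).1 y.2
        refine ⟨Cfsg.Agent.H21.qd16 hG16 f hf (y : G) (by rw [Subgroup.orderOf_coe, hy]) (b.repr v₀) ?_ ?_, hG16⟩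
        · intro h
          apply hv₀
          have : b.repr v₀ = 0 := by
            ext i
            exact congrFun h i
          exact (map_eq_zero_iff _ b.repr.injective).1 this
        · rw [hfv, hyv]

end Cfsg.Agent.S3370
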