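import Cfsg.Statements.S3374
import Mathlib
import Cfsg.Agent.H21.Ord120
import Cfsg.Agent.H21.FrobSemi

set_option autoImplicit false
set_option linter.style.haveILetI false
set_option linter.unusedVariables false
open Cfsg

namespace Cfsg.Agent.S3374

open Cfsg.Agent.H21

abbrev SL11 := Matrix.SpecialLinearGroup (Fin 2) (ZMod 11)
def X11 : SL11 := ⟨!![0, -1; 1, -1], by decide⟩
def Y11 : SL11 := ⟨!![0, 3; 7, 7], by decide⟩
def Z11 : SL11 := ⟨!![-1, 0; 0, -1], by decide⟩

theorem e1 : X11 ^ 3 = 1 := by decide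
theorem e2 : Y11 ^ 5 = 1 := by decide
theorem e3 : Z11 ^ 2 = 1 := by decide
theorem e4 : Z11 * X11 = X11 * Z11 := by decide
theorem e5 : Z11 * Y11 = Y11 * Z11 := by decide
theorem e6 : (X11 * Y11) ^ 2 = Z11 := by decide
theorem e7 : Z11 ≠ 1 := by decide
theorem e8 : X11 ≠ 1 := by decide
theorem e9 : Y11 ≠ 1 := by decide

theorem sl25_inv : ∀ a b c d : ZMod 5, a * d - b * c = 1 → a * a + b * c = 1 → a * b + b * d = 0 → c * a + d * c = 0 → c * b + d * d = 1 →
    (a = 1 ∧ b = 0 ∧ c = 0 ∧ d = 1) ∨ (a = -1 ∧ b = 0 ∧ c = 0 ∧ d = -1) := by decide +kernel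

theorem sl25_unique_involution (g : SL25) (hg : g * g = 1) : g = 1 ∨ g = slZ := by
  have hd := g.det_coe
  rw [Matrix.det_fin_two] at hd
  have h : ∀ i j, ((g : Matrix (Fin 2) (Fin 2) (ZMod 5)) * (g : Matrix (Fin 2) (Fin 2) (ZMod 5))) i j = (1 : Matrix (Fin 2) (Fin 2) (ZMod 5)) i j := by
    intro i j
    have := congrArg Subtype.val hg
    exact congrFun (congrFun this i) j
  simp only [Matrix.mul_apply, Fin.sum_univ_two] at h
  rcases sl25_inv _ _ _ _ hd (h 0 0) (h 0 1) (h 1 0) (h 1 1) with ⟨h1, h2, h3, h4⟩ | ⟨h1, h2, h3, h4⟩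
  · left
    apply Subtype.ext
    ext i j
    fin_cases i <;> fin_cases j
    · exact h1
    · exact h2
    · exact h3
    · exact h4
  · right
    apply Subtype.ext
    ext i j
    fin_cases i <;> fin_cases j
    · exact h1
    · exact h2
    · exact h3
    · exact h4

theorem exists_embedding : ∃ ψ : SL25 →* SL11, Function.Injective ψ := by
  obtain ⟨φ, h0, h1, h2⟩ := exists_hom X11 Y11 Z11 e1 e2 e3 e4 e5 e6
  obtain ⟨ε⟩ := presSL25
  haveI := pres_card.1
  haveI : Fact (Nat.Prime 5) := ⟨by norm_num⟩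
  haveI : Fact (Nat.Prime 3) := ⟨by norm_num⟩
  let ψ : SL25 →* SL11 := φ.comp ε.symm.toMonoidHom
  refine ⟨ψ, ?_⟩
  have hx : X11 ∈ ψ.range := ⟨ε (PresentedGroup.of 0), by show φ (ε.symm (ε _)) = _; rw [ε.symm_apply_apply, h0]⟩
  have hy : Y11 ∈ ψ.range := ⟨ε (PresentedGroup.of 1), by show φ (ε.symm (ε _)) = _; rw [ε.symm_apply_apply, h1]⟩
  haveI : Finite SL11 := inferInstance
  have hdvd : ∀ g ∈ ψ.range, orderOf g ∣ Nat.card ψ.range := by
    intro g hg
    have := orderOf_dvd_natCard (⟨g, hg⟩ : ψ.range)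
    rwa [Subgroup.orderOf_mk] at this
  have h3 : 3 ∣ Nat.card ψ.range := by
    have := hdvd _ hx
    rwa [orderOf_eq_prime e1 e8] at this
  have h5 : 5 ∣ Nat.card ψ.range := by
    have := hdvd _ hy
    rwa [orderOf_eq_prime e2 e9] at this
  have h4 : 4 ∣ Nat.card ψ.range := by
    have := hdvd _ (ψ.range.mul_mem hx hy)
    have ho := orderOf_eq_prime_pow (x := X11 * Y11) (p := 2) (n := 1) (by rw [pow_one, e6]; exact e7)
      (by rw [show 2 ^ (1 + 1) = 2 * 2 by norm_num, pow_mul, e6, e3])
    rw [ho] at this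
    exact this
  have h60 : 60 ∣ Nat.card ψ.range := by
    have h12 : 4 * 3 ∣ Nat.card ψ.range := Nat.Coprime.mul_dvd_of_dvd_of_dvd (by norm_num) h4 h3
    have : 4 * 3 * 5 ∣ Nat.card ψ.range := Nat.Coprime.mul_dvd_of_dvd_of_dvd (by norm_num) h12 h5
    exact this
  have hker : Nat.card ψ.ker * Nat.card ψ.range = 120 := by
    rw [← card_sl25, ← Subgroup.index_ker, Subgroup.card_mul_index]
  obtain ⟨c, hc⟩ := h60
  rw [hc] at hker
  have hk : Nat.card ψ.ker * c = 2 := by nlinarith
  have hidx : Nat.card ψ.ker = 1 ∨ Nat.card ψ.ker = 2 := (Nat.dvd_prime Nat.prime_two).1 ⟨c, hk.symm⟩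
  rw [← MonoidHom.ker_eq_bot_iff]
  rcases hidx with h | h
  · exact Subgroup.card_eq_one.1 h
  · exfalso
    obtain ⟨t, ht⟩ := exists_prime_orderOf_dvd_card' (G := ψ.ker) 2 (by rw [h])
    have ht' : orderOf (t : SL25) = 2 := by rw [Subgroup.orderOf_coe, ht]
    have htt : (t : SL25) * t = 1 := by
      have := pow_orderOf_eq_one (t : SL25)
      rwa [ht', pow_two] at this
    rcases sl25_unique_involution _ htt with h6 | h6
    · rw [h6, orderOf_one] at ht'
      omega
    · have h7 : ψ slZ = 1 := by rw [← h6]; exact t.2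
      -- slZ = ε (of 2)
      have h8 : ψ (ε (PresentedGroup.of 2)) = Z11 := by show φ (ε.symm (ε _)) = _; rw [ε.symm_apply_apply, h2]
      have h9 : (ε (PresentedGroup.of 2)) * (ε (PresentedGroup.of 2)) = 1 := by
        have : (PresentedGroup.of 2 : PresentedGroup relSL25) ^ 2 = 1 :=
          PresentedGroup.one_of_mem (rels := relSL25) (x := FreeGroup.of (2 : Fin 3) ^ 2) (by simp)
        rw [← map_mul, ← pow_two, this, map_one]
      rcases sl25_unique_involution _ h9 with h10 | h10
      · rw [h10, map_one] at h8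
        exact e7 h8.symm
      · rw [h10, h7] at h8
        exact e7 h8.symm

/-- SL(2,5) occurs as a Frobenius complement: there is a finite group L with a subgroup H isomorphic to SL(2,5) which is a non-trivial proper subgroup meeting each conjugate gHg⁻¹ with g outside H trivially. -/
theorem result :
    ∃ (L : Type) (_ : Group L) (_ : Finite L) (H : Subgroup L),
      Cfsg.IsFrobeniusComplement H ∧ Nonempty (H ≃* Matrix.SpecialLinearGroup (Fin 2) (ZMod 5)) := by
  obtain ⟨ψ, hψ⟩ := exists_embedding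
  haveI : Fact (Nat.Prime 11) := ⟨by norm_num⟩
  haveI : Finite (Multiplicative (Fin 2 → ZMod 11)) := inferInstanceAs (Finite (Fin 2 → ZMod 11))
  let L := (Multiplicative (Fin 2 → ZMod 11)) ⋊[Cfsg.Agent.H21.linAct ψ] Cfsg.Agent.H21.SL25
  haveI : Finite L := Finite.of_equiv _ SemidirectProduct.equivProd.symm
  refine ⟨L, inferInstance, inferInstance, (SemidirectProduct.inr : Cfsg.Agent.H21.SL25 →* L).range, ?_, ?_⟩
  · apply Cfsg.Agent.H21.frob_of_fpf
    · intro a ha v hv
      by_contra hv1
      apply ha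
      -- the matrix
      set A : Matrix (Fin 2) (Fin 2) (ZMod 11) := (ψ a : Matrix (Fin 2) (Fin 2) (ZMod 11)) with hA
      have hAv : A.mulVec (Multiplicative.toAdd v) = Multiplicative.toAdd v := congrArg Multiplicative.toAdd hv
      set w := Multiplicative.toAdd v with hw
      have hw0 : w ≠ 0 := fun h => hv1 (Multiplicative.toAdd.injective h)
      have hd : A.det = 1 := (ψ a).det_coe
      have hdet0 : (A - 1).det = 0 := by
        rw [← Matrix.exists_mulVec_eq_zero_iff]
        exact ⟨w, hw0, by rw [Matrix.sub_mulVec, hAv, Matrix.one_mulVec, sub_self]⟩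
      have htr : A.trace = 2 := by
        rw [Matrix.det_fin_two] at hdet0 hd
        rw [Matrix.trace_fin_two]
        simp at hdet0
        linear_combination hd - hdet0
      have hN : (A - 1) * (A - 1) = 0 := by
        rw [Matrix.det_fin_two] at hd
        rw [Matrix.trace_fin_two] at htr
        ext i j
        fin_cases i <;> fin_cases j <;> simp [Matrix.mul_apply, Fin.sum_univ_two]
        · linear_combination (A 0 0) * htr - hd
        · linear_combination (A 0 1) * htr
        · linear_combination (A 1 0) * htr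
        · linear_combination (A 1 1) * htr - hd
      have hA11 : A ^ 11 = 1 := by
        have h1 : A = 1 + (A - 1) := by abel
        have h2 : ∀ n : ℕ, A ^ n = 1 + (n : Matrix (Fin 2) (Fin 2) (ZMod 11)) * (A - 1) := by
          intro n
          induction n with
          | zero => simp
          | succ n ih =>
            rw [pow_succ, ih]
            nth_rw 2 [h1]
            rw [add_mul, one_mul, mul_add, mul_one, mul_assoc, hN, mul_zero, add_zero]
            push_cast
            rw [add_mul, one_mul]; abel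
        rw [h2]
        have : ((11 : ℕ) : Matrix (Fin 2) (Fin 2) (ZMod 11)) = 0 := by
          have h3 : ((11 : ℕ) : ZMod 11) = 0 := ZMod.natCast_self 11
          ext i j
          fin_cases i <;> fin_cases j <;> simp <;> exact h3
        rw [this, zero_mul, add_zero]
      have h11 : a ^ 11 = 1 := by
        apply hψ
        rw [map_one, map_pow]
        apply Subtype.ext
        rw [Matrix.SpecialLinearGroup.coe_pow, ← hA, hA11, Matrix.SpecialLinearGroup.coe_one]
      have h1 := orderOf_dvd_of_pow_eq_one h11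
      have h2 := orderOf_dvd_natCard a
      rw [Cfsg.Agent.H21.card_sl25] at h2
      have h3 := Nat.dvd_gcd h1 h2
      norm_num at h3
      exact h3
    · refine ⟨Multiplicative.ofAdd (fun _ => 1), 1, ?_⟩
      intro h
      have := congrFun (congrArg Multiplicative.toAdd h) 0
      have h2 : (1 : ZMod 11) = 0 := this
      exact one_ne_zero h2
    · exact ⟨Cfsg.Agent.H21.slZ, 1, Cfsg.Agent.H21.slZ1⟩
  · exact ⟨(MonoidHom.ofInjective (SemidirectProduct.inr_injective (φ := Cfsg.Agent.H21.linAct ψ))).symm⟩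

end Cfsg.Agent.S3374
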