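import Cfsg.Statements.S3375
import Mathlib

set_option autoImplicit false
set_option linter.style.haveILetI false
set_option linter.unusedVariables false
open Cfsg

namespace Cfsg.Agent.S3375

theorem key {H : Type*} [Group H] [Finite H] (γ : MulAut H) (hγ : ∀ h, γ (γ h) = h)
    (h2 : Nat.card {h : H // γ h = h} = 2) (A : Subgroup H) (hA : A.index = 2) (hinv : ∀ a, a ∈ A ↔ γ a ∈ A) :
    IsMulCommutative A ∧ (∀ a ∈ A, γ a ∈ A) ∧ ∀ a ∈ A, γ a = a⁻¹ := by
  classical
  haveI := Fintype.ofFinite H
  let f : H → H := fun h => h⁻¹ * γ h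
  have hfA : ∀ h, f h ∈ A := by
    intro h
    show h⁻¹ * γ h ∈ A
    rw [Subgroup.mul_mem_iff_of_index_two hA, A.inv_mem_iff]
    exact hinv h
  have hcard : Fintype.card H ≤ 2 * (Finset.univ.image f).card := by
    rw [← Finset.card_univ]
    apply Finset.card_le_mul_card_image
    intro b hb
    obtain ⟨h₀, -, rfl⟩ := Finset.mem_image.mp hb
    have : (Finset.univ.filter (fun a => f a = f h₀)).card ≤ Fintype.card {h : H // γ h = h} := by
      rw [← Fintype.card_coe]
      apply Fintype.card_le_of_injective (fun a : {x // x ∈ Finset.univ.filter (fun a => f a = f h₀)} => (⟨(a : H) * h₀⁻¹, by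
        have ha := (Finset.mem_filter.mp a.2).2
        simp only [f] at ha
        have h3 : γ (a : H) = a * (h₀⁻¹ * γ h₀) := by rw [← ha]; group
        rw [map_mul, map_inv, h3]; group⟩ : {h : H // γ h = h}))
      intro a b hab
      have h4 := congrArg Subtype.val hab
      simp only at h4
      exact Subtype.ext (mul_right_cancel h4)
    rw [Nat.card_eq_fintype_card] at h2
    omega
  have hAc : 2 * Nat.card A = Fintype.card H := by
    rw [← Nat.card_eq_fintype_card, ← Subgroup.card_mul_index A, hA, mul_comm]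
  have hsub : ((Finset.univ.image f : Finset H) : Set H) ⊆ (A : Set H) := by
    intro x hx
    obtain ⟨h, -, rfl⟩ := Finset.mem_image.mp (Finset.mem_coe.mp hx)
    exact hfA h
  have heq : ((Finset.univ.image f : Finset H) : Set H) = (A : Set H) := by
    apply Set.eq_of_subset_of_ncard_le hsub
    rw [Set.ncard_coe_finset]
    have : (A : Set H).ncard = Nat.card A := rfl
    rw [this]; omega
  have hinvA : ∀ a ∈ A, γ a = a⁻¹ := by
    intro a ha
    have h5 : a ∈ ((Finset.univ.image f : Finset H) : Set H) := by rw [heq]; exact ha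
    obtain ⟨h, -, rfl⟩ := Finset.mem_image.mp (Finset.mem_coe.mp h5)
    simp only [f]
    rw [map_mul, map_inv, hγ]; group
  refine ⟨⟨⟨?_⟩⟩, fun a ha => (hinv a).mp ha, hinvA⟩
  rintro ⟨a, ha⟩ ⟨b, hb⟩
  apply Subtype.ext
  show a * b = b * a
  have h6 := hinvA _ (A.mul_mem ha hb)
  rw [map_mul, hinvA a ha, hinvA b hb, mul_inv_rev] at h6
  -- a⁻¹ b⁻¹ = b⁻¹ a⁻¹
  have h7 := congrArg (fun x => a * b * x * (b * a)) h6
  have h8 : a * b * (a⁻¹ * b⁻¹) * (b * a) = a * b := by group
  have h9 : a * b * (b⁻¹ * a⁻¹) * (b * a) = b * a := by group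
  exact h8.symm.trans (h7.trans h9)

/-- Let γ be an automorphism of order 2 of a finite group H. (i) If γ fixes only the identity, then H is abelian and γ inverts every element. (ii) If γ has exactly two fixed points and H has a subgroup of index 2, then H has a γ-invariant abelian subgroup of index 2 on which γ acts by inversion. -/
theorem result {H : Type*} [Group H] [Finite H] (γ : MulAut H) (hγ : orderOf γ = 2) :
    ((∀ h : H, γ h = h → h = 1) → (∀ a b : H, a * b = b * a) ∧ ∀ h : H, γ h = h⁻¹) ∧
    ((Nat.card {h : H // γ h = h} = 2 ∧ ∃ M : Subgroup H, M.index = 2) →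
      ∃ A : Subgroup H, A.index = 2 ∧ IsMulCommutative A ∧ (∀ a ∈ A, γ a ∈ A) ∧ ∀ a ∈ A, γ a = a⁻¹) := by
  classical
  have hγ2 : ∀ h, γ (γ h) = h := by
    intro h
    have h1 : γ ^ 2 = 1 := by rw [← hγ]; exact pow_orderOf_eq_one γ
    have h2 : (γ ^ 2) h = h := by rw [h1]; rfl
    rw [pow_two] at h2
    exact h2
  constructor
  · intro hf
    have hff : MonoidHom.FixedPointFree (γ : H → H) := fun g hg => hf g hg
    have hinvol : Function.Involutive (γ : H → H) := hγ2
    have h1 := MonoidHom.FixedPointFree.coe_eq_inv_of_involutive (φ := γ.toMonoidHom) hff hinvol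
    constructor
    · intro a b
      exact MonoidHom.FixedPointFree.commute_all_of_involutive (φ := γ.toMonoidHom) hff hinvol a b
    · intro h
      exact congrFun h1 h
  · rintro ⟨h2, M, hM⟩
    by_cases hinv : ∀ a, a ∈ M ↔ γ a ∈ M
    · exact ⟨M, hM, key γ hγ2 h2 M hM hinv⟩
    · let A : Subgroup H :=
        { carrier := {x | x ∈ M ↔ γ x ∈ M}
          one_mem' := by simp [M.one_mem]
          mul_mem' := by
            intro a b ha hb
            simp only [Set.mem_ofPred_eq] at ha hb ⊢
            rw [map_mul, Subgroup.mul_mem_iff_of_index_two hM, Subgroup.mul_mem_iff_of_index_two hM, ha, hb]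
          inv_mem' := by
            intro a ha
            simp only [Set.mem_ofPred_eq] at ha ⊢
            rw [map_inv, M.inv_mem_iff, M.inv_mem_iff, ha] }
      have memA : ∀ x, x ∈ A ↔ (x ∈ M ↔ γ x ∈ M) := fun x => Iff.rfl
      have hAi : A.index = 2 := by
        rw [Subgroup.index_eq_two_iff]
        push Not at hinv
        obtain ⟨a, ha⟩ := hinv
        refine ⟨a, fun b => ?_⟩
        rw [memA, memA, map_mul, Subgroup.mul_mem_iff_of_index_two hM, Subgroup.mul_mem_iff_of_index_two hM]
        rw [xor_iff_iff_not]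
        tauto
      refine ⟨A, hAi, key γ hγ2 h2 A hAi ?_⟩
      intro a
      rw [memA, memA, hγ2]
      tauto

end Cfsg.Agent.S3375
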