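import Cfsg.Statements.S3379
import Mathlib

set_option autoImplicit false
set_option linter.style.haveILetI false
set_option linter.unusedVariables false
open Cfsg

namespace Cfsg.Agent.S3379

/-- Let G be a finite group all of whose Sylow subgroups are cyclic. Then G is generated by two elements x and y of coprime orders n and m with x⁻¹yx = y^r, where gcd(r − 1, m) = 1 and r^n ≡ 1 (mod m). -/
theorem result {G : Type*} [Group G] [Finite G]
    (hZ : ∀ (p : ℕ) [Fact p.Prime] (P : Sylow p G), IsCyclic (P : Subgroup G)) :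
    ∃ (x y : G) (n m r : ℕ), Subgroup.closure {x, y} = ⊤ ∧ orderOf x = n ∧ orderOf y = m ∧
      x⁻¹ * y * x = y ^ r ∧ Nat.Coprime (r - 1) m ∧ Nat.Coprime n m ∧ 1 ≤ r ∧ r ^ n % m = 1 % m := by
  haveI hZG : IsZGroup G := ⟨fun p hp P => by haveI : Fact p.Prime := ⟨hp⟩; exact hZ p P⟩
  obtain ⟨H, hH⟩ := Subgroup.exists_right_complement'_of_coprime hZG.coprime_commutator_index
  have h1 : Abelianization G ≃* H := hH.symm.QuotientMulEquiv
  have hHc : IsCyclic H := isCyclic_of_surjective _ h1.surjective
  have hNc : IsCyclic (commutator G) := hZG.isCyclic_commutator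
  have hcop : (Nat.card (commutator G)).Coprime (Nat.card H) := Nat.card_congr h1.toEquiv ▸ hZG.coprime_commutator_index
  obtain ⟨x, hx⟩ := hHc.exists_generator
  obtain ⟨y, hy⟩ := hNc.exists_generator
  have hxo : orderOf (x : G) = Nat.card H := by
    rw [Subgroup.orderOf_coe]; exact orderOf_eq_card_of_forall_mem_zpowers hx
  have hyo : orderOf (y : G) = Nat.card (commutator G) := by
    rw [Subgroup.orderOf_coe]; exact orderOf_eq_card_of_forall_mem_zpowers hy
  have hyN : ∀ g ∈ commutator G, g ∈ Subgroup.zpowers (y : G) := by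
    intro g hg
    obtain ⟨k, hk⟩ := Subgroup.mem_zpowers_iff.1 (hy ⟨g, hg⟩)
    exact Subgroup.mem_zpowers_iff.2 ⟨k, by rw [← Subgroup.coe_zpow, hk]⟩
  have hxH : ∀ g ∈ H, g ∈ Subgroup.zpowers (x : G) := by
    intro g hg
    obtain ⟨k, hk⟩ := Subgroup.mem_zpowers_iff.1 (hx ⟨g, hg⟩)
    exact Subgroup.mem_zpowers_iff.2 ⟨k, by rw [← Subgroup.coe_zpow, hk]⟩
  set m := Nat.card (commutator G) with hm
  set n := Nat.card H with hn
  have hm0 : 0 < m := Nat.card_pos
  have hgen : Subgroup.closure {(x : G), (y : G)} = ⊤ := by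
    have h2 := hH.sup_eq_top
    rw [eq_top_iff, ← h2]
    apply sup_le
    · intro g hg
      have := hyN g hg
      rw [Subgroup.zpowers_eq_closure] at this
      exact Subgroup.closure_mono (by simp) this
    · intro g hg
      have := hxH g hg
      rw [Subgroup.zpowers_eq_closure] at this
      exact Subgroup.closure_mono (by simp) this
  have hconj : (x : G)⁻¹ * y * x ∈ commutator G := by
    have : (commutator G).Normal := inferInstance
    have h3 := this.conj_mem (y : G) y.2 (x : G)⁻¹
    rwa [inv_inv] at h3
  obtain ⟨k, hk⟩ := (Submonoid.mem_powers_iff _ _).1 (mem_powers_iff_mem_zpowers.2 (hyN _ hconj))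
  set r := k + m with hr
  have hr1 : 1 ≤ r := by omega
  have hxy : (x : G)⁻¹ * y * x = (y : G) ^ r := by
    rw [hr, pow_add, hk, ← hyo, pow_orderOf_eq_one, mul_one]
  refine ⟨x, y, n, m, r, hgen, hxo, hyo, hxy, ?_, hcop.symm, hr1, ?_⟩
  · -- coprimality
    set M := Subgroup.zpowers ((y : G) ^ (r - 1)) with hM
    have hcx : ∀ g ∈ M, (x : G)⁻¹ * g * x ∈ M := by
      intro g hg
      obtain ⟨j, rfl⟩ := Subgroup.mem_zpowers_iff.1 hg
      have e : (x : G)⁻¹ * ((y : G) ^ (r - 1)) ^ j * x = (((y : G) ^ (r - 1)) ^ j) ^ r := by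
        have h5 : (x : G)⁻¹ * ((y : G) ^ (r - 1)) ^ j * x = (((x : G)⁻¹ * y * x) ^ (r - 1)) ^ j := by
          have h6 := map_zpow (MulAut.conj (x : G)⁻¹) ((y : G) ^ (r - 1)) j
          rw [map_pow] at h6
          simpa [MulAut.conj_apply] using h6
        rw [h5, hxy, ← pow_mul, mul_comm r, pow_mul]
        have := zpow_comm ((y : G) ^ (r - 1)) (r : ℤ) j
        simpa using this
      rw [e]
      exact M.pow_mem hg r
    have hMn : M.Normal := by
      have key : ∀ g ∈ Subgroup.closure {(x : G), (y : G)}, g ∈ Subgroup.normalizer (M : Set G) := by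
        have hle : Subgroup.closure {(x : G), (y : G)} ≤ Subgroup.normalizer (M : Set G) := by
          rw [Subgroup.closure_le]
          rintro g (rfl | rfl)
          · -- x normalises
            have h7 : ((x : G)⁻¹) ∈ Subgroup.normalizer (M : Set G) := by
              rw [Subgroup.mem_normalizer_iff]
              intro g
              rw [inv_inv]
              constructor
              · exact hcx g
              · intro hg
                -- injectivity by finiteness
                have h8 : ∀ i : ℕ, ((x : G)⁻¹) ^ i * ((x : G)⁻¹ * g * x) * ((x : G)) ^ i ∈ M := by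
                  intro i
                  induction i with
                  | zero => simpa using hg
                  | succ i ih =>
                    have h9 := hcx _ ih
                    have e : (x : G)⁻¹ * (((x : G)⁻¹) ^ i * ((x : G)⁻¹ * g * x) * ((x : G)) ^ i) * x = ((x : G)⁻¹) ^ (i + 1) * ((x : G)⁻¹ * g * x) * ((x : G)) ^ (i + 1) := by
                      rw [pow_succ', pow_succ]; group
                    rwa [e] at h9
                have h10 := h8 (n - 1)
                have hn0 : 0 < n := Nat.card_pos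
                have e1 : (x : G) ^ (n - 1) = (x : G)⁻¹ := by
                  have : (x : G) ^ (n - 1) * x = 1 := by
                    rw [← pow_succ, Nat.sub_add_cancel hn0, ← hxo, pow_orderOf_eq_one]
                  exact eq_inv_of_mul_eq_one_left this
                rw [inv_pow, e1, inv_inv] at h10
                have e2 : (x : G) * ((x : G)⁻¹ * g * x) * (x : G)⁻¹ = g := by group
                rwa [e2] at h10
            have := Subgroup.inv_mem _ h7
            rwa [inv_inv] at this
          · -- y centralises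
            rw [SetLike.mem_coe, Subgroup.mem_normalizer_iff]
            intro g
            constructor
            · intro hg
              obtain ⟨j, rfl⟩ := Subgroup.mem_zpowers_iff.1 hg
              have hc : Commute (y : G) (((y : G) ^ (r - 1)) ^ j) := ((Commute.refl (y : G)).pow_right _).zpow_right _
              rw [hc.eq, mul_inv_cancel_right]
              exact hg
            · intro hg
              obtain ⟨j, hj⟩ := Subgroup.mem_zpowers_iff.1 hg
              have hc : Commute (y : G) (((y : G) ^ (r - 1)) ^ j) := ((Commute.refl (y : G)).pow_right _).zpow_right _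
              have e : g = (((y : G) ^ (r - 1)) ^ j) := by
                have h11 : g = (y : G)⁻¹ * (y * g * (y : G)⁻¹) * y := by group
                rw [h11, ← hj, mul_assoc, ← hc.eq, inv_mul_cancel_left]
              rw [e]
              exact Subgroup.zpow_mem _ (Subgroup.mem_zpowers _) j
        exact fun g hg => hle hg
      constructor
      intro g hg h
      have := key h (by rw [hgen]; trivial)
      exact (Subgroup.mem_normalizer_iff.1 this g).1 hg
    -- commutativity of the quotient
    have hcomm : ∀ a b : G ⧸ M, a * b = b * a := by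
      have hcl : IsMulCommutative (Subgroup.closure {((x : G) : G ⧸ M), ((y : G) : G ⧸ M)}) := by
        apply Subgroup.isMulCommutative_closure
        have h12 : ((x : G) : G ⧸ M) * ((y : G) : G ⧸ M) = ((y : G) : G ⧸ M) * ((x : G) : G ⧸ M) := by
          symm
          rw [← QuotientGroup.mk_mul, ← QuotientGroup.mk_mul, QuotientGroup.eq]
          -- (y x)⁻¹ (x y) = x⁻¹ y⁻¹ x y
          have e : ((y : G) * x)⁻¹ * (x * y) = ((y : G) ^ (r - 1))⁻¹ := by
            have e1 : ((y : G) * x)⁻¹ * (x * y) = ((x : G)⁻¹ * y * x)⁻¹ * y := by group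
            rw [e1, hxy]
            obtain ⟨s, hs⟩ : ∃ s, r = s + 1 := ⟨r - 1, by omega⟩
            rw [hs, Nat.add_sub_cancel, pow_succ', mul_inv_rev]; group
          rw [e]
          exact M.inv_mem (Subgroup.mem_zpowers _)
        rintro a (rfl | rfl) b (rfl | rfl)
        · rfl
        · exact h12
        · exact h12.symm
        · rfl
      have htop : Subgroup.closure {((x : G) : G ⧸ M), ((y : G) : G ⧸ M)} = ⊤ := by
        have h13 : Subgroup.map (QuotientGroup.mk' M) (Subgroup.closure {(x : G), (y : G)}) = ⊤ := by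
          rw [hgen, ← MonoidHom.range_eq_map, MonoidHom.range_eq_top]
          exact QuotientGroup.mk'_surjective M
        rw [MonoidHom.map_closure, Set.image_pair] at h13
        exact h13
      intro a b
      have ha : a ∈ Subgroup.closure {((x : G) : G ⧸ M), ((y : G) : G ⧸ M)} := by rw [htop]; trivial
      have hb : b ∈ Subgroup.closure {((x : G) : G ⧸ M), ((y : G) : G ⧸ M)} := by rw [htop]; trivial
      exact congrArg Subtype.val (hcl.is_comm.comm (⟨a, ha⟩ : Subgroup.closure {((x : G) : G ⧸ M), ((y : G) : G ⧸ M)}) ⟨b, hb⟩)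
    have hle : commutator G ≤ M := by
      rw [commutator_def, Subgroup.commutator_le]
      intro a _ b _
      rw [commutatorElement_def]
      have h14 := hcomm (a : G ⧸ M) (b : G ⧸ M)
      rw [← QuotientGroup.eq_one_iff]
      show (a : G ⧸ M) * (b : G ⧸ M) * (a : G ⧸ M)⁻¹ * (b : G ⧸ M)⁻¹ = 1
      rw [h14]; group
    obtain ⟨j, hj⟩ := (Submonoid.mem_powers_iff _ _).1 (mem_powers_iff_mem_zpowers.2 (hle y.2))
    rw [← pow_mul] at hj
    have h15 : (y : G) ^ ((r - 1) * j) = (y : G) ^ 1 := by rw [hj, pow_one]
    rw [pow_eq_pow_iff_modEq, hyo] at h15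
    apply Nat.Coprime.symm
    rw [Nat.coprime_comm]
    have h16 : Nat.gcd (r - 1) m ∣ 1 := by
      have h17 : ((r - 1) * j) ≡ 1 [MOD Nat.gcd (r - 1) m] := h15.of_dvd (Nat.gcd_dvd_right _ _)
      have h18 : ((r - 1) * j) ≡ 0 [MOD Nat.gcd (r - 1) m] := (Nat.modEq_zero_iff_dvd).2 ((Nat.gcd_dvd_left _ _).mul_right j)
      exact (Nat.modEq_zero_iff_dvd).1 (h17.symm.trans h18)
    exact Nat.dvd_one.1 h16
  · have key : ∀ i : ℕ, ((x : G)⁻¹) ^ i * y * (x : G) ^ i = (y : G) ^ r ^ i := by
      intro i
      induction i with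
      | zero => simp
      | succ i ih =>
        have e : ((x : G)⁻¹) ^ (i + 1) * y * (x : G) ^ (i + 1) = (x : G)⁻¹ * (((x : G)⁻¹) ^ i * y * (x : G) ^ i) * x := by
          rw [pow_succ', pow_succ]; group
        rw [e, ih]
        have h6 := map_pow (MulAut.conj (x : G)⁻¹) (y : G) (r ^ i)
        have h7 : (x : G)⁻¹ * (y : G) ^ r ^ i * x = ((x : G)⁻¹ * y * x) ^ r ^ i := by
          simpa [MulAut.conj_apply] using h6
        rw [h7, hxy, ← pow_mul, pow_succ']
    have h1 := key n
    rw [inv_pow, ← hxo, pow_orderOf_eq_one, inv_one, one_mul, mul_one] at h1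
    have h2 : (y : G) ^ 1 = (y : G) ^ r ^ n := by rw [pow_one, hxo] at *; exact h1
    rw [pow_eq_pow_iff_modEq, hyo] at h2
    exact h2.symm

end Cfsg.Agent.S3379
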