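import Cfsg.Statements.S3380
import Cfsg.Agent.H10.RQ1

set_option autoImplicit false
open Cfsg

namespace Cfsg.Agent.S3380

open Cfsg.Agent.H10.RQ in
/-- linear version. -/
theorem exists_lin {q : ℕ} [Fact q.Prime] {V : Type*} [AddCommGroup V] [Module (ZMod q) V]
    {G : Type*} [Group G] (p : ℕ) (ρ : G →* (V ≃ₗ[ZMod q] V)) (x : G) :
    ∃ f : V →ₗ[ZMod q] V, ∀ v, f v = Nm p ρ x v := by
  refine ⟨∑ k ∈ Finset.range p, ((ρ (x ^ k) : V ≃ₗ[ZMod q] V) : V →ₗ[ZMod q] V), fun v => ?_⟩
  rw [LinearMap.sum_apply]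
  rfl

/-- Let a finite p-group G act faithfully and irreducibly on a non-trivial finite vector space V over the field with q elements (q prime), and suppose G is not cyclic, generalized quaternion, dihedral or semidihedral. Then G has a subgroup H of index p and V is the direct sum of p subspaces, each invariant under H, on none of which H acts faithfully, and which every element of G outside H permutes in a single p-cycle. -/
theorem result
    (q : ℕ) [Fact q.Prime] {V : Type*} [AddCommGroup V] [Module (ZMod q) V] [Finite V] [Nontrivial V]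
    {G : Type*} [Group G] [Finite G] (p : ℕ) [Fact p.Prime] (hG : IsPGroup p G)
    (ρ : G →* (V ≃ₗ[ZMod q] V)) (hρ : Function.Injective ρ)
    (hirr : ∀ W : Submodule (ZMod q) V, (∀ g : G, ∀ w ∈ W, ρ g w ∈ W) → W = ⊥ ∨ W = ⊤)
    (hnc : ¬ IsCyclic G) (hnq : ∀ n : ℕ, ¬ Nonempty (G ≃* QuaternionGroup n))
    (hnd : ∀ n : ℕ, ¬ Nonempty (G ≃* DihedralGroup n)) (hnsd : ¬ Cfsg.IsQuasiDihedral G) :
    ∃ (H : Subgroup G) (W : Fin p → Submodule (ZMod q) V), H.index = p ∧
      iSup W = ⊤ ∧ iSupIndep W ∧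
      (∀ h ∈ H, ∀ i, ∀ w ∈ W i, ρ h w ∈ W i) ∧
      (∀ i, ∃ h ∈ H, h ≠ 1 ∧ ∀ w ∈ W i, ρ h w = w) ∧
      ∀ g : G, g ∉ H → ∃ σ : Equiv.Perm (Fin p), orderOf σ = p ∧ ∀ i, (W i).map (ρ g : V →ₗ[ZMod q] V) = W (σ i) := by
  classical
  have hp : p.Prime := Fact.out
  have hqp : q.Prime := Fact.out
  haveI : Fintype V := Fintype.ofFinite V
  haveI : NeZero p := ⟨hp.ne_zero⟩
  -- the normal elementary abelian subgroup
  obtain ⟨E, hEn, hEc, hEp⟩ : ∃ E : Subgroup G, E.Normal ∧ Nat.card E = p ^ 2 ∧ ∀ a ∈ E, a ^ p = 1 := by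
    by_contra hcon
    rcases H23.cyclic_or_dqs hG (fun E h1 h2 h3 => hcon ⟨E, h1, h2, h3⟩) with h | ⟨-, n, h⟩
    · exact hnc h
    · rcases h.named with h | h | h
      · exact hnd _ h
      · exact hnq _ h
      · exact hnsd h.2
  have hEab : ∀ a ∈ E, ∀ b ∈ E, a * b = b * a := H23.comm_of_card_sq hEc
  -- invariant submodules
  have hfixc : ∀ z : G, z ∈ Subgroup.center G → z ≠ 1 → H10.RQ.fixS ρ z = ⊥ := by
    intro z hz hz1
    rcases hirr (H10.RQ.fixS ρ z) (by
      intro g w hw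
      rw [H10.RQ.mem_fixS, ← H10.RQ.mulv, ← Subgroup.mem_center_iff.1 hz g, H10.RQ.mulv]
      rw [show ρ z w = w from hw]) with h | h
    · exact h
    · exfalso
      apply hz1
      apply hρ
      rw [map_one]
      ext v
      have : v ∈ H10.RQ.fixS ρ z := by rw [h]; exact Submodule.mem_top
      exact this
  have hpq : p ≠ q := by
    intro hpq
    letI act : MulAction G V :=
      { smul := fun g v => ρ g v
        one_smul := fun v => H10.RQ.onev ρ v
        mul_smul := fun g h v => H10.RQ.mulv ρ g h v }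
    have hdvd : p ∣ Nat.card V := by
      obtain ⟨v, hv⟩ := exists_ne (0 : V)
      have h1 : addOrderOf v = q := by
        apply addOrderOf_eq_prime _ hv
        have : ((q : ℕ) : ZMod q) • v = 0 := by rw [ZMod.natCast_self, zero_smul]
        rwa [Nat.cast_smul_eq_nsmul] at this
      rw [hpq, ← h1]
      exact addOrderOf_dvd_natCard v
    obtain ⟨v, hv, hv0⟩ := hG.exists_fixed_point_of_prime_dvd_card_of_fixed_point (α := V) hdvd
      (a := 0) (fun g => (map_zero (ρ g) : ρ g 0 = 0))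
    have hv' : ∀ g : G, ρ g v = v := fun g => hv g
    rcases hirr (Submodule.span (ZMod q) {v}) (by
      intro g w hw
      obtain ⟨c, rfl⟩ := Submodule.mem_span_singleton.1 hw
      rw [map_smul, hv' g]
      exact hw) with h | h
    · rw [Submodule.span_singleton_eq_bot] at h
      exact hv0 h.symm
    · apply hnc
      have h1 : ∀ g : G, g = 1 := by
        intro g
        apply hρ
        rw [map_one]
        ext w
        have : w ∈ Submodule.span (ZMod q) {v} := by rw [h]; exact Submodule.mem_top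
        obtain ⟨c, rfl⟩ := Submodule.mem_span_singleton.1 this
        rw [map_smul, hv' g]; rfl
      haveI : Subsingleton G := ⟨fun a b => by rw [h1 a, h1 b]⟩
      infer_instance
  have hpu : ∀ v : V, (p : ℕ) • v = 0 → v = 0 := by
    intro v hv
    have h1 : ((p : ℕ) : ZMod q) • v = 0 := by rw [Nat.cast_smul_eq_nsmul]; exact hv
    rcases smul_eq_zero.1 h1 with h | h
    · exfalso
      rw [ZMod.natCast_eq_zero_iff] at h
      exact hpq ((Nat.prime_dvd_prime_iff_eq hqp hp).1 h).symm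
    · exact h
  -- central element z
  have hE1 : E ≠ ⊥ := by
    rintro rfl
    rw [Subgroup.card_bot] at hEc
    have := Nat.one_lt_pow (n := 2) (by norm_num) hp.one_lt
    omega
  have hinf := H2.inf_center_ne_bot_of_normal hG E hE1
  obtain ⟨z, hz, hz1⟩ : ∃ z : G, z ∈ E ⊓ Subgroup.center G ∧ z ≠ 1 := by
    obtain ⟨a, ha⟩ := Subgroup.ne_bot_iff_exists_ne_one.1 hinf
    exact ⟨a.1, a.2, fun h => ha (Subtype.ext h)⟩
  obtain ⟨hzE, hzZ⟩ := Subgroup.mem_inf.1 hz
  have hzp : z ^ p = 1 := hEp z hzE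
  have hoz : orderOf z = p := orderOf_eq_prime hzp hz1
  have hzc : ∀ g : G, g * z = z * g := fun g => Subgroup.mem_center_iff.1 hzZ g
  have hzcp : ∀ (g : G) (k : ℕ), g * z ^ k = z ^ k * g := fun g k =>
    ((show Commute g z from hzc g).pow_right k).eq
  have hznorm : (Subgroup.zpowers z).Normal := by
    constructor
    intro n hn g
    obtain ⟨k, rfl⟩ := Subgroup.mem_zpowers_iff.1 hn
    have : g * z ^ k * g⁻¹ = z ^ k := by
      rw [((show Commute g z from hzc g).zpow_right k).eq]; group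
    rw [this]; exact zpow_mem (Subgroup.mem_zpowers z) k
  have hzlt : Subgroup.zpowers z < E := by
    refine lt_of_le_of_ne (Subgroup.zpowers_le.2 hzE) ?_
    intro h
    have h1 : Nat.card (Subgroup.zpowers z) = p := by rw [Nat.card_zpowers, hoz]
    rw [h, hEc] at h1
    have := hp.one_lt
    nlinarith
  obtain ⟨B', hB'n, hBB', hB'E, hB'c, e, heB', hec, hB'⟩ := H10.AB.exists_next hG E (Subgroup.zpowers z) hzlt
  have heE : e ∈ E := hB'E heB'
  have hepw : e ^ p = 1 := hEp e heE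
  have henz : e ∉ Subgroup.zpowers z := by
    intro h
    have h1 : B' ≤ Subgroup.zpowers z := hB'.trans (sup_le le_rfl (Subgroup.zpowers_le.2 h))
    exact absurd h1 (not_le_of_gt hBB')
  have hfz : ∀ k : ℕ, z ^ k ≠ 1 → H10.RQ.fixS ρ (z ^ k) = ⊥ := fun k hk =>
    hfixc _ (pow_mem hzZ k) hk
  have hsum := fun v => H10.RQ.sum_Nm (p := p) ρ (hzc e) hzp hz1 hfz v
  have heNZ : e ∉ Subgroup.center G := by
    intro he
    obtain ⟨v, hv⟩ := exists_ne (0 : V)
    apply hv
    apply hpu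
    rw [← hsum v]
    apply Finset.sum_eq_zero
    intro i _
    apply H10.RQ.Nm_zero ρ (hEp _ (mul_mem heE (pow_mem hzE i)))
    apply hfixc _ (mul_mem he (pow_mem hzZ i))
    intro h
    apply henz
    have : e = (z ^ i)⁻¹ := eq_inv_of_mul_eq_one_left h
    rw [this]
    exact inv_mem (pow_mem (Subgroup.mem_zpowers z) i)
  -- the homomorphism
  let f : G →* Subgroup.zpowers z := MonoidHom.mk' (fun g => ⟨g * e * g⁻¹ * e⁻¹, hec g⟩) (by
    intro a b
    apply Subtype.ext
    show a * b * e * (a * b)⁻¹ * e⁻¹ = (a * e * a⁻¹ * e⁻¹) * (b * e * b⁻¹ * e⁻¹)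
    obtain ⟨k, hk⟩ := Subgroup.mem_zpowers_iff.1 (hec b)
    have h1 : b * e * b⁻¹ * e⁻¹ = z ^ k := hk.symm
    have h2 : b * e * b⁻¹ = z ^ k * e := by rw [← h1]; group
    have h3 : a * z ^ k = z ^ k * a := ((show Commute a z from hzc a).zpow_right k).eq
    have h4 : (a * e * a⁻¹ * e⁻¹) * z ^ k = z ^ k * (a * e * a⁻¹ * e⁻¹) :=
      ((show Commute (a * e * a⁻¹ * e⁻¹) z from hzc _).zpow_right k).eq
    calc a * b * e * (a * b)⁻¹ * e⁻¹ = a * (b * e * b⁻¹) * a⁻¹ * e⁻¹ := by group
      _ = a * (z ^ k * e) * a⁻¹ * e⁻¹ := by rw [h2]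
      _ = (a * z ^ k) * e * a⁻¹ * e⁻¹ := by group
      _ = z ^ k * (a * e * a⁻¹ * e⁻¹) := by rw [h3]; group
      _ = _ := by rw [h1, h4])
  have hf : ∀ g, ((f g : Subgroup.zpowers z) : G) = g * e * g⁻¹ * e⁻¹ := fun g => rfl
  have hfk : ∀ g, g ∈ f.ker ↔ g * e = e * g := by
    intro g
    rw [MonoidHom.mem_ker]
    constructor
    · intro h
      have h1 : g * e * g⁻¹ * e⁻¹ = 1 := by rw [← hf g, h]; rfl
      have h2 : g * e * g⁻¹ = e := mul_inv_eq_one.1 h1
      calc g * e = (g * e * g⁻¹) * g := by group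
        _ = e * g := by rw [h2]
    · intro h
      apply Subtype.ext
      rw [hf g, h]
      show e * g * g⁻¹ * e⁻¹ = 1
      group
  have hidx : f.ker.index = p := by
    rw [Subgroup.index_ker]
    have h1 : Nat.card f.range ∣ p := by
      have := Subgroup.card_subgroup_dvd_card f.range
      rwa [Nat.card_zpowers, hoz] at this
    rcases (Nat.dvd_prime hp).1 h1 with h | h
    · exfalso
      apply heNZ
      rw [Subgroup.mem_center_iff]
      intro g
      rw [← hfk, MonoidHom.mem_ker]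
      have : f g ∈ (⊥ : Subgroup (Subgroup.zpowers z)) := by
        rw [← Subgroup.card_eq_one.1 h]; exact ⟨g, rfl⟩
      exact Subgroup.mem_bot.1 this
    · exact h
  -- exponent
  have hκ : ∀ g : G, ∃ k : Fin p, g * e * g⁻¹ = e * z ^ (k : ℕ) := by
    intro g
    obtain ⟨k, hk⟩ := (isOfFinOrder_of_finite z).mem_powers_iff_mem_zpowers.2 (hec g)
    have hk' : z ^ k = g * e * g⁻¹ * e⁻¹ := hk
    refine ⟨⟨k % p, Nat.mod_lt _ hp.pos⟩, ?_⟩
    show g * e * g⁻¹ = e * z ^ (k % p)
    have h1 : z ^ (k % p) = z ^ k := by rw [← hoz]; exact pow_mod_orderOf z k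
    rw [h1, hzcp e k, hk']; group
  choose κ hκ using hκ
  have hzmod : ∀ a : ℕ, z ^ (a % p) = z ^ a := by
    intro a; rw [← hoz]; exact pow_mod_orderOf z a
  let W : Fin p → Submodule (ZMod q) V := fun i => H10.RQ.fixS ρ (e * z ^ (i : ℕ))
  have hW : ∀ i v, v ∈ W i ↔ ρ (e * z ^ (i : ℕ)) v = v := fun i v => Iff.rfl
  have hcomm2 : ∀ i j : ℕ, (e * z ^ i) * (z ^ j) = (z ^ j) * (e * z ^ i) := fun i j => hzcp _ j
  have hkill : ∀ i j : Fin p, i ≠ j → ∀ v ∈ W j, H10.RQ.Nm p ρ (e * z ^ (i : ℕ)) v = 0 := by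
    intro i j hij v hv
    -- e z^i = (e z^j) z^(i + p - j)
    have h1 : e * z ^ (i : ℕ) = (e * z ^ (j : ℕ)) * z ^ ((i : ℕ) + (p - j)) := by
      rw [mul_assoc, ← pow_add]
      congr 1
      have h2 : (j : ℕ) + ((i : ℕ) + (p - j)) = i + p := by have := j.2; omega
      rw [h2, pow_add, hzp, mul_one]
    rw [h1]
    apply H10.RQ.Nm_kill ρ (hcomm2 _ _) (by rw [← pow_mul, mul_comm, pow_mul, hzp, one_pow]) _ hv
    apply hfz
    intro h2
    have h3 := orderOf_dvd_of_pow_eq_one h2
    rw [hoz] at h3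
    obtain ⟨c, hc⟩ := h3
    have hi := i.2
    have hj := j.2
    have h4 : (i : ℕ) ≠ j := fun h => hij (Fin.ext h)
    have h5 : c = 1 := by
      have h6 : p * c < p * 2 := by rw [← hc]; omega
      have h7 : c < 2 := Nat.lt_of_mul_lt_mul_left h6
      have h8 : 0 < p * c := by rw [← hc]; omega
      have h9 : 0 < c := Nat.pos_of_mul_pos_left h8 |> fun _ => by
        rcases Nat.eq_zero_or_pos c with h | h
        · rw [h] at h8; simp at h8
        · exact h
      omega
    rw [h5, mul_one] at hc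
    omega
  refine ⟨f.ker, W, hidx, ?_, ?_, ?_, ?_, ?_⟩
  · rw [eq_top_iff]
    intro v _
    -- p v = sum
    have h1 : (p : ℕ) • v ∈ iSup W := by
      rw [← hsum v]
      apply Submodule.sum_mem
      intro i hi
      have hi' := Finset.mem_range.1 hi
      apply Submodule.mem_iSup_of_mem (⟨i, hi'⟩ : Fin p)
      exact H10.RQ.Nm_mem ρ (hEp _ (mul_mem heE (pow_mem hzE i))) v
    have h2 : (((p : ℕ) : ZMod q)⁻¹) • ((p : ℕ) • v) ∈ iSup W := Submodule.smul_mem _ _ h1
    rw [← Nat.cast_smul_eq_nsmul (ZMod q), smul_smul, inv_mul_cancel₀, one_smul] at h2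
    · exact h2
    · intro h
      rw [ZMod.natCast_eq_zero_iff] at h
      exact hpq ((Nat.prime_dvd_prime_iff_eq hqp hp).1 h).symm
  · intro i
    rw [Submodule.disjoint_def]
    intro v hv1 hv2
    apply hpu
    rw [← H10.RQ.Nm_eq_smul (p := p) ρ (x := e * z ^ (i : ℕ)) hv1]
    obtain ⟨L, hL⟩ := exists_lin p ρ (e * z ^ (i : ℕ))
    have h3 : (⨆ j, ⨆ (_ : j ≠ i), W j) ≤ LinearMap.ker L := by
      apply iSup₂_le
      intro j hj w hw
      rw [LinearMap.mem_ker, hL]
      exact hkill i j (Ne.symm hj) w hw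
    rw [← hL]
    exact LinearMap.mem_ker.1 (h3 hv2)
  · intro h hh i w hw
    rw [hfk] at hh
    rw [hW] at hw ⊢
    rw [← H10.RQ.mulv]
    have h1 : e * z ^ (i : ℕ) * h = h * (e * z ^ (i : ℕ)) := by
      rw [mul_assoc, ← hzcp h, ← mul_assoc, ← hh, mul_assoc]
    rw [h1, H10.RQ.mulv, hw]
  · intro i
    refine ⟨e * z ^ (i : ℕ), ?_, ?_, fun w hw => hw⟩
    · rw [hfk]
      exact hEab _ (mul_mem heE (pow_mem hzE i)) _ heE
    · intro h
      apply henz
      have : e = (z ^ (i : ℕ))⁻¹ := eq_inv_of_mul_eq_one_left h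
      rw [this]
      exact inv_mem (pow_mem (Subgroup.mem_zpowers z) i)
  · intro g hg
    have hκ0 : κ g ≠ 0 := by
      intro h
      apply hg
      rw [hfk]
      have h1 := hκ g
      rw [h] at h1
      simp only [Fin.val_zero, pow_zero, mul_one] at h1
      calc g * e = (g * e * g⁻¹) * g := by group
        _ = e * g := by rw [h1]
    refine ⟨Equiv.addRight (κ g), ?_, ?_⟩
    · apply orderOf_eq_prime
      · have h0 : (p : ℕ) • κ g = 0 := by
          have := card_nsmul_eq_zero' (x := κ g)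
          rwa [Nat.card_eq_fintype_card, Fintype.card_fin] at this
        have h1 : ∀ (n : ℕ) (i : Fin p), ((Equiv.addRight (κ g) : Equiv.Perm (Fin p)) ^ n) i = i + n • κ g := by
          intro n
          induction n with
          | zero => intro i; simp
          | succ n ih =>
            intro i
            rw [pow_succ, Equiv.Perm.mul_apply, ih, Equiv.coe_addRight, succ_nsmul, add_assoc, add_comm (κ g)]
        ext i
        rw [h1, h0, add_zero]
        rfl
      · intro h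
        apply hκ0
        have := congrArg (fun s : Equiv.Perm (Fin p) => s 0) h
        simpa using this
    · intro i
      have hconj : ∀ j : ℕ, g * (e * z ^ j) * g⁻¹ = e * z ^ ((j + κ g) % p) := by
        intro j
        rw [hzmod]
        calc g * (e * z ^ j) * g⁻¹ = (g * e * g⁻¹) * (g * z ^ j * g⁻¹) := by group
          _ = (e * z ^ (κ g : ℕ)) * (z ^ j) := by rw [hκ g, hzcp g j]; group
          _ = e * z ^ (j + κ g) := by rw [mul_assoc, ← pow_add, add_comm]
      have hval : ((Equiv.addRight (κ g) i : Fin p) : ℕ) = ((i : ℕ) + κ g) % p := by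
        rw [Equiv.coe_addRight, Fin.val_add]
      apply le_antisymm
      · rintro _ ⟨w, hw, rfl⟩
        rw [hW, hval, ← hconj]
        show ρ (g * (e * z ^ (i : ℕ)) * g⁻¹) (ρ g w) = ρ g w
        rw [← H10.RQ.mulv]
        have : g * (e * z ^ (i : ℕ)) * g⁻¹ * g = g * (e * z ^ (i : ℕ)) := by group
        rw [this, H10.RQ.mulv]
        congr 1
      · intro w hw
        rw [hW, hval, ← hconj] at hw
        refine ⟨ρ g⁻¹ w, ?_, ?_⟩
        · show ρ (e * z ^ (i : ℕ)) (ρ g⁻¹ w) = ρ g⁻¹ w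
          rw [← H10.RQ.mulv]
          have : e * z ^ (i : ℕ) * g⁻¹ = g⁻¹ * (g * (e * z ^ (i : ℕ)) * g⁻¹) := by group
          rw [this, H10.RQ.mulv, hw]
        · show ρ g (ρ g⁻¹ w) = w
          rw [← H10.RQ.mulv, mul_inv_cancel, H10.RQ.onev]

end Cfsg.Agent.S3380
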