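import Cfsg.Statements.S3381
import Mathlib

set_option autoImplicit false
set_option linter.style.haveILetI false
set_option linter.unusedVariables false
open Cfsg

namespace Cfsg.Agent.S3381

/-- Let G be a finite group acting faithfully and linearly on a non-trivial finite vector space V over the field with q elements (q prime) so that every non-zero vector has a stabilizer of order 2, and suppose G has a central involution. Then V has q^(2r) elements for some r and G contains exactly q^r + 1 non-central involutions. -/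
theorem result
    (q : ℕ) [Fact q.Prime] {V : Type*} [AddCommGroup V] [Module (ZMod q) V] [Finite V] [Nontrivial V]
    {G : Type*} [Group G] [Finite G] (ρ : G →* (V ≃ₗ[ZMod q] V)) (hρ : Function.Injective ρ)
    (hstab : ∀ v : V, v ≠ 0 → Nat.card {g : G // ρ g v = v} = 2)
    (z : G) (hz : orderOf z = 2) (hzc : z ∈ Subgroup.center G) :
    ∃ r : ℕ, Nat.card V = q ^ (2 * r) ∧
      Nat.card {g : G // orderOf g = 2 ∧ g ∉ Subgroup.center G} = q ^ r + 1 := by
  classical
  haveI : Fintype V := Fintype.ofFinite V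
  haveI : Fintype G := Fintype.ofFinite G
  haveI : Module.Finite (ZMod q) V := Module.Finite.of_finite
  have hmulv : ∀ (g h : G) (v : V), ρ (g * h) v = ρ g (ρ h v) := fun g h v => by rw [map_mul]; rfl
  have h1v : ∀ v : V, ρ 1 v = v := fun v => by rw [map_one]; rfl
  -- the nontrivial element of a stabiliser
  have hst : ∀ v : V, v ≠ 0 → ∃ t : G, t ≠ 1 ∧ ρ t v = v ∧ ∀ g, ρ g v = v → g = 1 ∨ g = t := by
    intro v hv
    obtain ⟨a, b, hab, huniv⟩ := Nat.card_eq_two_iff.1 (hstab v hv)
    have hall : ∀ g : {g : G // ρ g v = v}, g = a ∨ g = b := by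
      intro g
      have : g ∈ ({a, b} : Set {g : G // ρ g v = v}) := by rw [huniv]; trivial
      simpa using this
    rcases hall ⟨1, h1v v⟩ with h | h
    · refine ⟨b, ?_, b.2, ?_⟩
      · intro hb
        apply hab
        rw [← h]; exact Subtype.ext hb.symm
      · intro g hg
        rcases hall ⟨g, hg⟩ with h' | h'
        · left; exact congrArg Subtype.val (h'.trans h.symm)
        · right; exact congrArg Subtype.val h'
    · refine ⟨a, ?_, a.2, ?_⟩
      · intro hb
        apply hab
        rw [← h]; exact Subtype.ext hb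
      · intro g hg
        rcases hall ⟨g, hg⟩ with h' | h'
        · right; exact congrArg Subtype.val h'
        · left; exact congrArg Subtype.val (h'.trans h.symm)
  have huni : ∀ (v : V), v ≠ 0 → ∀ g h : G, g ≠ 1 → h ≠ 1 → ρ g v = v → ρ h v = v → g = h := by
    intro v hv g h hg hh hgv hhv
    obtain ⟨t, _, _, ht⟩ := hst v hv
    rw [(ht g hgv).resolve_left hg, (ht h hhv).resolve_left hh]
  have hinvol : ∀ (v : V), v ≠ 0 → ∀ g : G, ρ g v = v → g * g = 1 := by
    intro v hv g hg
    by_contra h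
    have h1 : g ≠ 1 := by rintro rfl; exact h (one_mul 1)
    have := huni v hv (g * g) g h h1 (by rw [hmulv, hg, hg]) hg
    exact h1 (mul_left_cancel (this.trans (mul_one g).symm))
  have hz1 : z ≠ 1 := by rintro rfl; rw [orderOf_one] at hz; omega
  have hzz : z * z = 1 := by rw [← pow_two, ← hz, pow_orderOf_eq_one]
  -- q ≠ 2
  have hne : ∀ c : G, c ≠ 1 → ∃ w : V, ρ c w ≠ w := by
    intro c hc
    by_contra hcon
    push Not at hcon
    apply hc
    apply hρ
    rw [map_one]
    ext v
    exact hcon v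
  have hq2 : q ≠ 2 := by
    intro hq
    have h2 : ∀ v : V, v + v = 0 := by
      intro v
      rw [← two_smul (ZMod q) v]
      have : (2 : ZMod q) = 0 := by
        subst hq
        have := CharP.cast_eq_zero (ZMod 2) 2
        simpa using this
      rw [this, zero_smul]
    obtain ⟨w, hw⟩ := hne z hz1
    have hw0 : w ≠ 0 := by rintro rfl; exact hw (map_zero _)
    obtain ⟨t, ht1, htw, _⟩ := hst w hw0
    set b := w + ρ z w with hb
    have hb0 : b ≠ 0 := by
      intro h
      apply hw
      have h3 := h2 w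
      have : ρ z w = w := by
        have h4 : w + ρ z w = w + w := by rw [h3]; exact h
        exact add_left_cancel h4
      exact this
    have hzb : ρ z b = b := by rw [hb, map_add, ← hmulv, hzz, h1v, add_comm]
    have htb : ρ t b = b := by
      rw [hb, map_add, htw, ← hmulv, (Subgroup.mem_center_iff.1 hzc t), hmulv, htw]
    have := huni b hb0 t z ht1 hz1 htb hzb
    rw [this] at htw
    exact hw htw
  have h2ne : (2 : ZMod q) ≠ 0 := by
    intro h
    have h3 : ((2 : ℕ) : ZMod q) = 0 := by exact_mod_cast h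
    rw [ZMod.natCast_eq_zero_iff] at h3
    exact hq2 ((Nat.prime_dvd_prime_iff_eq (Fact.out : q.Prime) Nat.prime_two).1 h3)
  have hdbl : ∀ v : V, v + v = 0 → v = 0 := by
    intro v hv
    rw [← two_smul (ZMod q) v] at hv
    exact (smul_eq_zero.1 hv).resolve_left h2ne
  -- central involutions act as -1
  have hcent : ∀ c : G, c ≠ 1 → c * c = 1 → c ∈ Subgroup.center G → ∀ v, ρ c v = -v := by
    intro c hc1 hcc hcc' v
    by_contra hcon
    set a := v + ρ c v with ha
    have ha0 : a ≠ 0 := fun h => hcon (eq_neg_of_add_eq_zero_right h)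
    have hca : ρ c a = a := by rw [ha, map_add, ← hmulv, hcc, h1v, add_comm]
    obtain ⟨w, hw⟩ := hne c hc1
    set b := w - ρ c w with hb
    have hb0 : b ≠ 0 := fun h => hw (sub_eq_zero.1 h).symm
    have hcb : ρ c b = -b := by rw [hb, map_sub, ← hmulv, hcc, h1v, neg_sub]
    by_cases hab : a + b = 0
    · apply hb0
      apply hdbl
      have h1 : b = -a := eq_neg_of_add_eq_zero_right hab
      have h2 : ρ c b = b := by rw [h1, map_neg, hca]
      have h3 : b = -b := h2.symm.trans hcb
      exact add_eq_zero_iff_eq_neg.2 h3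
    · obtain ⟨s, hs1, hs, _⟩ := hst (a + b) hab
      have hs' : ρ s (a - b) = a - b := by
        have h1 : a - b = ρ c (a + b) := by rw [map_add, hca, hcb, sub_eq_add_neg]
        rw [h1, ← hmulv, (Subgroup.mem_center_iff.1 hcc' s), hmulv, hs]
      have hsa : ρ s a = a := by
        have h1 : ρ s (a + a) = a + a := by
          have : a + a = (a + b) + (a - b) := by abel
          rw [this, map_add, hs, hs']
        rw [map_add] at h1
        have h2 : (ρ s a - a) + (ρ s a - a) = 0 := by
          have : (ρ s a - a) + (ρ s a - a) = (ρ s a + ρ s a) - (a + a) := by abel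
          rw [this, h1, sub_self]
        exact sub_eq_zero.1 (hdbl _ h2)
      have hsc := huni a ha0 s c hs1 hc1 hsa hca
      rw [hsc, map_add, hca, hcb] at hs
      have h1 : -b = b := add_left_cancel hs
      exact hb0 (hdbl b (add_eq_zero_iff_eq_neg.2 h1.symm))
  have hzneg : ∀ v, ρ z v = -v := hcent z hz1 hzz hzc
  have hcz : ∀ c : G, c ≠ 1 → c * c = 1 → c ∈ Subgroup.center G → c = z := by
    intro c hc1 hcc hcc'
    apply hρ
    ext v
    show ρ c v = ρ z v
    rw [hcent c hc1 hcc hcc', hzneg]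
  -- the set of non-central involutions
  have hI : ∀ t : G, (orderOf t = 2 ∧ t ∉ Subgroup.center G) ↔ (t ≠ 1 ∧ t * t = 1 ∧ t ≠ z) := by
    intro t
    constructor
    · rintro ⟨h1, h2⟩
      refine ⟨?_, ?_, ?_⟩
      · rintro rfl; rw [orderOf_one] at h1; omega
      · rw [← pow_two, ← h1, pow_orderOf_eq_one]
      · rintro rfl; exact h2 hzc
    · rintro ⟨h1, h2, h3⟩
      refine ⟨orderOf_eq_prime (by rw [pow_two, h2]) h1, fun h => h3 (hcz t h1 h2 h)⟩
  let W : G → Submodule (ZMod q) V := fun t => LinearMap.ker ((ρ t : V →ₗ[ZMod q] V) - LinearMap.id)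
  have hW : ∀ t v, v ∈ W t ↔ ρ t v = v := by
    intro t v
    show v ∈ LinearMap.ker _ ↔ _
    rw [LinearMap.mem_ker, LinearMap.sub_apply, LinearMap.id_apply, sub_eq_zero]; rfl
  have hzt : ∀ t, t ≠ 1 ∧ t * t = 1 ∧ t ≠ z → z * t ≠ 1 ∧ z * t * (z * t) = 1 ∧ z * t ≠ z := by
    rintro t ⟨h1, h2, h3⟩
    have hc : z * t = t * z := (Subgroup.mem_center_iff.1 hzc t).symm
    refine ⟨?_, ?_, ?_⟩
    · intro h
      apply h3
      have : t = z⁻¹ := eq_inv_of_mul_eq_one_right h
      rw [this]; exact inv_eq_of_mul_eq_one_left hzz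
    · calc z * t * (z * t) = z * (t * z) * t := by group
        _ = z * (z * t) * t := by rw [hc]
        _ = (z * z) * (t * t) := by group
        _ = 1 := by rw [hzz, h2, one_mul]
    · intro h
      exact h1 (mul_left_cancel (h.trans (mul_one z).symm))
  have hztW : ∀ t v, v ∈ W (z * t) ↔ ρ t v = -v := by
    intro t v
    rw [hW, hmulv, hzneg, neg_eq_iff_eq_neg]
  -- nonzero
  have hWne : ∀ t, t ≠ 1 ∧ t * t = 1 ∧ t ≠ z → ∃ v ∈ W t, v ≠ 0 := by
    rintro t ⟨h1, h2, h3⟩
    by_contra hcon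
    push Not at hcon
    apply h3
    apply hρ
    ext v
    show ρ t v = ρ z v
    rw [hzneg]
    have := hcon (v + ρ t v) (by rw [hW, map_add, ← hmulv, h2, h1v, add_comm])
    exact eq_neg_of_add_eq_zero_right this
  -- products
  have hprod : ∀ t, t ≠ 1 ∧ t * t = 1 ∧ t ≠ z → Nat.card (W t) * Nat.card (W (z * t)) = Nat.card V := by
    rintro t ⟨h1, h2, h3⟩
    rw [← Nat.card_prod]
    apply Nat.card_eq_of_bijective (fun p : W t × W (z * t) => (p.1 : V) + p.2)
    constructor
    · rintro ⟨⟨a, ha⟩, ⟨b, hb⟩⟩ ⟨⟨c, hc⟩, ⟨d, hd⟩⟩ h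
      have h' : a + b = c + d := h
      rw [hW] at ha hc
      rw [hztW] at hb hd
      have h4 : a - b = c - d := by
        have := congrArg (ρ t) h'
        rw [map_add, map_add, ha, hb, hc, hd, ← sub_eq_add_neg, ← sub_eq_add_neg] at this
        exact this
      have h5 : a = c := by
        have : (a - c) + (a - c) = 0 := by
          have e : (a - c) + (a - c) = ((a + b) - (c + d)) + ((a - b) - (c - d)) := by abel
          rw [e, h', h4, sub_self, sub_self, add_zero]
        exact sub_eq_zero.1 (hdbl _ this)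
      subst h5
      have h6 : b = d := add_left_cancel h'
      subst h6
      rfl
    · intro v
      obtain ⟨u, hu⟩ : ∃ u : V, u + u = v := ⟨(2 : ZMod q)⁻¹ • v, by rw [← two_smul (ZMod q), smul_inv_smul₀ h2ne]⟩
      refine ⟨(⟨u + ρ t u, ?_⟩, ⟨u - ρ t u, ?_⟩), ?_⟩
      · rw [hW, map_add, ← hmulv, h2, h1v, add_comm]
      · rw [hztW, map_sub, ← hmulv, h2, h1v, neg_sub]
      · show u + ρ t u + (u - ρ t u) = v
        rw [← hu]; abel
  have hle : ∀ s t, s ≠ 1 → t ≠ 1 → s ≠ t → Nat.card (W s) * Nat.card (W t) ≤ Nat.card V := by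
    intro s t hs ht hst'
    rw [← Nat.card_prod]
    apply Nat.card_le_card_of_injective (fun p : W s × W t => (p.1 : V) + p.2)
    rintro ⟨⟨a, ha⟩, ⟨b, hb⟩⟩ ⟨⟨c, hc⟩, ⟨d, hd⟩⟩ h
    have h' : a + b = c + d := h
    have h1 : a - c = d - b := by
      rw [sub_eq_sub_iff_add_eq_add, h', add_comm]
    have h2 : a - c ∈ W s := (W s).sub_mem ha hc
    have h3 : a - c ∈ W t := by rw [h1]; exact (W t).sub_mem hd hb
    have h4 : a - c = 0 := by
      by_contra h0
      rw [hW] at h2 h3
      exact hst' (huni _ h0 s t hs ht h2 h3)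
    have h5 : a = c := sub_eq_zero.1 h4
    subst h5
    have h6 : b = d := add_left_cancel h'
    subst h6
    rfl
  -- squares
  have hsq : ∀ t, t ≠ 1 ∧ t * t = 1 ∧ t ≠ z → Nat.card (W t) * Nat.card (W t) = Nat.card V := by
    intro t ht
    obtain ⟨s, hs, hst1, hst2⟩ : ∃ s, (s ≠ 1 ∧ s * s = 1 ∧ s ≠ z) ∧ s ≠ t ∧ s ≠ z * t := by
      obtain ⟨a, ha, ha0⟩ := hWne t ht
      obtain ⟨b, hb, hb0⟩ := hWne (z * t) (hzt t ht)
      have hta : t ≠ z * t := by
        intro h
        apply hz1
        have : 1 * t = z * t := by rw [one_mul]; exact h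
        exact (mul_right_cancel this).symm
      rw [hW] at ha hb
      have hab : a + b ≠ 0 := by
        intro h
        have h1 : b = -a := eq_neg_of_add_eq_zero_right h
        have h2 : ρ t b = b := by rw [h1, map_neg, ha]
        exact hta (huni b hb0 t (z * t) ht.1 (hzt t ht).1 h2 hb)
      obtain ⟨s, hs1, hs, _⟩ := hst (a + b) hab
      refine ⟨s, ⟨hs1, hinvol _ hab s hs, ?_⟩, ?_, ?_⟩
      · rintro rfl
        rw [hzneg] at hs
        exact hab (hdbl _ (add_eq_zero_iff_eq_neg.2 hs.symm))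
      · rintro rfl
        rw [map_add, ha] at hs
        have h2 : ρ s b = b := add_left_cancel hs
        exact hta (huni b hb0 s (z * s) hs1 (hzt s ht).1 h2 hb)
      · rintro rfl
        rw [map_add, hb] at hs
        have h2 : ρ (z * t) a = a := add_right_cancel hs
        exact hta (huni a ha0 t (z * t) ht.1 hs1 ha h2)
    have hpos : ∀ x, 0 < Nat.card (W x) := fun x => Nat.card_pos
    have e1 := hprod t ht
    have e2 := hprod s hs
    have i1 := hle s t hs.1 ht.1 hst1
    have i2 := hle s (z * t) hs.1 (hzt t ht).1 hst2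
    have i3 := hle (z * s) t (hzt s hs).1 ht.1 (by
      rintro rfl
      apply hst2
      rw [← mul_assoc, hzz, one_mul])
    have i4 := hle (z * s) (z * t) (hzt s hs).1 (hzt t ht).1 (fun h => hst1 (mul_left_cancel h))
    have p1 := hpos t
    have p2 := hpos (z * t)
    generalize Nat.card (W t) = a at *
    generalize Nat.card (W (z * t)) = b at *
    generalize Nat.card (W s) = c at *
    generalize Nat.card (W (z * s)) = d at *
    rw [← e1] at i1 i2 i3 i4 e2 ⊢
    have j1 : c ≤ b := by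
      have : c * a ≤ b * a := by rw [mul_comm b a]; exact i1
      exact Nat.le_of_mul_le_mul_right this p1
    have j2 : c ≤ a := Nat.le_of_mul_le_mul_right i2 p2
    have j3 : d ≤ b := by
      have : d * a ≤ b * a := by rw [mul_comm b a]; exact i3
      exact Nat.le_of_mul_le_mul_right this p1
    have j4 : d ≤ a := Nat.le_of_mul_le_mul_right i4 p2
    have hab : a = b := by
      rcases lt_trichotomy a b with h | h | h
      · exfalso
        have : c * d ≤ a * a := Nat.mul_le_mul j2 j4
        have : a * a < a * b := Nat.mul_lt_mul_of_pos_left h p1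
        omega
      · exact h
      · exfalso
        have h5 : c * d ≤ b * b := Nat.mul_le_mul j1 j3
        have h6 : b * b < a * b := Nat.mul_lt_mul_of_pos_right h p2
        omega
    rw [← hab]
  -- dimension
  obtain ⟨v₀, hv₀⟩ := exists_ne (0 : V)
  have hIv : ∀ v : V, v ≠ 0 → ∀ t, t ≠ 1 → ρ t v = v → t ≠ 1 ∧ t * t = 1 ∧ t ≠ z := by
    intro v hv t ht1 htv
    refine ⟨ht1, hinvol v hv t htv, ?_⟩
    rintro rfl
    rw [hzneg] at htv
    exact hv (hdbl _ (add_eq_zero_iff_eq_neg.2 htv.symm))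
  obtain ⟨t₀, ht₀1, ht₀v, _⟩ := hst v₀ hv₀
  have ht₀ := hIv v₀ hv₀ t₀ ht₀1 ht₀v
  have hcardW : ∀ t, Nat.card (W t) = q ^ Module.finrank (ZMod q) (W t) := by
    intro t
    rw [Module.natCard_eq_pow_finrank (K := ZMod q) (V := W t), Nat.card_zmod]
  set r := Module.finrank (ZMod q) (W t₀) with hr
  have hV : Nat.card V = q ^ (2 * r) := by
    rw [← hsq t₀ ht₀, hcardW, ← hr, ← pow_add]; congr 1; omega
  refine ⟨r, hV, ?_⟩
  have hWr : ∀ t, t ≠ 1 ∧ t * t = 1 ∧ t ≠ z → Nat.card (W t) = q ^ r := by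
    intro t ht
    have h1 := hsq t ht
    rw [hV, two_mul, pow_add] at h1
    exact Nat.mul_self_inj.1 h1
  -- counting
  let I := {g : G // orderOf g = 2 ∧ g ∉ Subgroup.center G}
  have hbij : Nat.card {v : V // v ≠ 0} = Nat.card (Σ t : I, {v : W t.1 // v ≠ 0}) := by
    symm
    apply Nat.card_eq_of_bijective (fun x : (Σ t : I, {v : W t.1 // v ≠ 0}) => (⟨((x.2 : W x.1.1) : V), fun h => x.2.2 (Subtype.ext h)⟩ : {v : V // v ≠ 0}))
    constructor
    · rintro ⟨⟨t, ht⟩, ⟨⟨v, hv⟩, hv0⟩⟩ ⟨⟨s, hs⟩, ⟨⟨w, hw⟩, hw0⟩⟩ h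
      have h' : v = w := congrArg Subtype.val h
      subst h'
      have hv0' : v ≠ 0 := fun h => hv0 (Subtype.ext h)
      have e : t = s := huni v hv0' t s ((hI t).1 ht).1 ((hI s).1 hs).1 ((hW t v).1 hv) ((hW s v).1 hw)
      subst e
      rfl
    · rintro ⟨v, hv⟩
      obtain ⟨t, ht1, htv, _⟩ := hst v hv
      exact ⟨⟨⟨t, (hI t).2 (hIv v hv t ht1 htv)⟩, ⟨⟨v, (hW t v).2 htv⟩, fun h => hv (congrArg Subtype.val h)⟩⟩, rfl⟩
  have hsub : ∀ (M : Type _) [Fintype M] [Zero M], Nat.card {v : M // v ≠ 0} = Nat.card M - 1 := by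
    intro M _ _
    rw [Nat.card_eq_fintype_card, Nat.card_eq_fintype_card, Fintype.card_subtype_compl, Fintype.card_subtype_eq]
  rw [hsub, Nat.card_sigma] at hbij
  have hterm : ∀ t : I, Nat.card {v : W t.1 // v ≠ 0} = q ^ r - 1 := by
    intro t
    rw [hsub, hWr t.1 ((hI t.1).1 t.2)]
  rw [Finset.sum_congr rfl (fun t _ => hterm t), Finset.sum_const, Finset.card_univ, smul_eq_mul, ← Nat.card_eq_fintype_card, hV] at hbij
  have hr0 : 1 < q ^ r := by
    rw [← hWr t₀ ht₀]
    obtain ⟨v, hv, hv0⟩ := hWne t₀ ht₀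
    rw [Nat.card_eq_fintype_card]
    exact Fintype.one_lt_card_iff.2 ⟨⟨v, hv⟩, 0, fun h => hv0 (congrArg Subtype.val h)⟩
  obtain ⟨k, hk⟩ : ∃ k, q ^ r = k + 1 := ⟨q ^ r - 1, by omega⟩
  have hk0 : 0 < k := by omega
  rw [two_mul, pow_add, hk] at hbij
  show Nat.card I = q ^ r + 1
  rw [hk]
  have e1 : (k + 1) * (k + 1) - 1 = (k + 1 + 1) * k := by
    have : (k + 1) * (k + 1) = (k + 1 + 1) * k + 1 := by ring
    omega
  rw [e1, Nat.add_sub_cancel] at hbij
  exact (Nat.eq_of_mul_eq_mul_right hk0 hbij).symm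

end Cfsg.Agent.S3381
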