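import Cfsg.Statements.S3382
import Mathlib
import Cfsg.Agent.H17.GLOrders

set_option autoImplicit false
set_option linter.style.haveILetI false
set_option linter.unusedVariables false
open Cfsg

namespace Cfsg.Agent.S3382

/-- fixed points of an automorphism of odd prime order on an invariant set of 2-power size -/
theorem exists_fixed {T : Type*} [Group T] [Finite T] (α : MulAut T) (ℓ : ℕ) [hl : Fact ℓ.Prime] (hl2 : ℓ ≠ 2) (hα : α ^ ℓ = 1)
    (P : T → Prop) (hP : ∀ x, P x → P (α x)) (k : ℕ) (hk : Nat.card {x // P x} = 2 ^ k) : ∃ x, P x ∧ α x = x := by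
  classical
  haveI := Fintype.ofFinite T
  let f : Function.End {x // P x} := fun x => ⟨α x.1, hP x.1 x.2⟩
  have hf : ∀ n : ℕ, ∀ x : {x // P x}, ((f ^ n) x).1 = (α ^ n) x.1 := by
    intro n
    induction n with
    | zero => intro x; rfl
    | succ n ih =>
      intro x
      rw [pow_succ', pow_succ', MulAut.mul_apply, ← ih]; rfl
  have hfl : f ^ ℓ ^ 1 = 1 := by
    funext x
    apply Subtype.ext
    rw [hf, pow_one, hα]; rfl
  have h1 := Equiv.Perm.card_fixedPoints_modEq (p := ℓ) (n := 1) hfl
  by_contra hcon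
  push Not at hcon
  have h2 : Fintype.card f.fixedPoints = 0 := by
    rw [Fintype.card_eq_zero_iff]
    constructor
    rintro ⟨x, hx⟩
    exact hcon x.1 x.2 (congrArg Subtype.val hx)
  rw [h2, ← Nat.card_eq_fintype_card, hk] at h1
  have h3 : ℓ ∣ 2 ^ k := (Nat.modEq_zero_iff_dvd).1 h1
  have h4 := hl.out.dvd_of_dvd_pow h3
  exact hl2 ((Nat.prime_dvd_prime_iff_eq hl.out Nat.prime_two).1 h4)

theorem exists_fixed_ind2 {T : Type*} [Group T] [Finite T] (hT : IsPGroup 2 T) (α : MulAut T) (ℓ : ℕ) [hl : Fact ℓ.Prime] (hl2 : ℓ ≠ 2) (hα : α ^ ℓ = 1)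
    (A B : Subgroup T) (hAB : A ≤ B) (b : T) (hb : b ∈ B) (hbA : b ∉ A) (h : ∀ x ∈ B, x ∉ A → b⁻¹ * x ∈ A)
    (hinv : ∀ x, x ∈ B → x ∉ A → α x ∈ B ∧ α x ∉ A) : ∃ x, (x ∈ B ∧ x ∉ A) ∧ α x = x := by
  obtain ⟨k, hk⟩ := (IsPGroup.iff_card (p := 2)).1 hT
  obtain ⟨j, _, hj⟩ := (Nat.dvd_prime_pow Nat.prime_two).1 (hk ▸ Subgroup.card_subgroup_dvd_card A)
  apply exists_fixed α ℓ hl2 hα (fun x => x ∈ B ∧ x ∉ A) (fun x hx => hinv x hx.1 hx.2) j
  rw [← hj]
  apply Nat.card_eq_of_bijective (fun x : {x // x ∈ B ∧ x ∉ A} => (⟨b⁻¹ * x.1, h x.1 x.2.1 x.2.2⟩ : A))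
  constructor
  · rintro ⟨x, hx⟩ ⟨y, hy⟩ hxy
    exact Subtype.ext (mul_left_cancel (congrArg Subtype.val hxy))
  · rintro ⟨a, ha⟩
    refine ⟨⟨b * a, B.mul_mem hb (hAB ha), fun hc => hbA ?_⟩, ?_⟩
    · have := A.mul_mem hc (A.inv_mem ha)
      rwa [mul_inv_cancel_right] at this
    · apply Subtype.ext
      show b⁻¹ * (b * a) = a
      rw [inv_mul_cancel_left]

theorem fixed_of_sq_fixed {T : Type*} [Group T] (α : MulAut T) (ℓ : ℕ) (hl : ℓ % 2 = 1) (hα : α ^ ℓ = 1) (x : T) (hx : α (α x) = x) : α x = x := by
  have h1 : ∀ n : ℕ, (α ^ (2 * n)) x = x := by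
    intro n
    induction n with
    | zero => rfl
    | succ n ih =>
      rw [mul_add, pow_add, MulAut.mul_apply]
      have : (α ^ (2 * 1)) x = x := by rw [mul_one, pow_two, MulAut.mul_apply, hx]
      rw [this, ih]
  have h2 : α ^ ℓ * α = α ^ (2 * ((ℓ + 1) / 2)) := by
    rw [← pow_succ]; congr 1; omega
  rw [hα, one_mul] at h2
  have h3 := h1 ((ℓ + 1) / 2)
  rwa [← h2] at h3

theorem z2a : ∀ a : ZMod 2, a ≠ 0 → a = 1 := by decide
theorem z2b : ∀ s : ZMod 2, (s = 1 ∨ s = -1) → s = 1 := by decide
theorem z3a : ∀ a : ZMod 3, a ≠ 0 → a = 1 ∨ a = -1 := by decide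
theorem z3b : (-1 : ZMod 3) ≠ 1 := by decide
theorem z3c : ¬ ((-1 : ZMod 3) = 1) := by decide

/-- Let q = 2^m + 1 be a prime other than 5. Then the automorphism group of the group of linear maps of F_q² of the forms (x, y) ↦ (a x, ± a⁻¹ y) and (x, y) ↦ (± a⁻¹ y, a x) with a ≠ 0 is itself a 2-group. -/
theorem result (q m : ℕ) [Fact q.Prime] (hq : q = 2 ^ m + 1) (hq5 : q ≠ 5)
    (T : Subgroup ((Fin 2 → ZMod q) ≃ₗ[ZMod q] (Fin 2 → ZMod q)))
    (hT : ∀ f, f ∈ T ↔ ∃ a s : ZMod q, a ≠ 0 ∧ (s = 1 ∨ s = -1) ∧
      ((∀ v, f v = ![a * v 0, s * a⁻¹ * v 1]) ∨ (∀ v, f v = ![s * a⁻¹ * v 1, a * v 0]))) :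
    IsPGroup 2 (MulAut T) := by
  classical
  have hqp : q.Prime := Fact.out
  haveI : Finite ((Fin 2 → ZMod q) ≃ₗ[ZMod q] (Fin 2 → ZMod q)) :=
    Finite.of_injective (fun f => (f : (Fin 2 → ZMod q) → (Fin 2 → ZMod q))) DFunLike.coe_injective
  haveI hTfin : Finite T := inferInstance
  let isD : T → ZMod q → ZMod q → Prop := fun x a s => ∀ v, x.1 v = ![a * v 0, s * a⁻¹ * v 1]
  let isA : T → ZMod q → ZMod q → Prop := fun x a s => ∀ v, x.1 v = ![s * a⁻¹ * v 1, a * v 0]
  have hs2 : ∀ s : ZMod q, (s = 1 ∨ s = -1) → s * s = 1 := by rintro s (rfl | rfl) <;> ring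
  have hsm : ∀ s t : ZMod q, (s = 1 ∨ s = -1) → (t = 1 ∨ t = -1) → (s * t = 1 ∨ s * t = -1) := by
    rintro s t (rfl | rfl) (rfl | rfl) <;> simp
  have hcases : ∀ x : T, ∃ a s : ZMod q, a ≠ 0 ∧ (s = 1 ∨ s = -1) ∧ (isD x a s ∨ isA x a s) := fun x => (hT x.1).1 x.2
  have hvec : ∀ a b c d : ZMod q, (∀ v : Fin 2 → ZMod q, ![a * v 0, b * v 1] = ![c * v 1, d * v 0]) → a = 0 := by
    intro a b c d h
    have := congrFun (h ![1, 0]) 0
    simpa using this
  have hnot : ∀ (x : T) (a s b t : ZMod q), a ≠ 0 → isD x a s → isA x b t → False := by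
    intro x a s b t ha h1 h2
    exact ha (hvec a (s * a⁻¹) (t * b⁻¹) b (fun v => (h1 v).symm.trans (h2 v)))
  have extD : ∀ (x y : T) (a s : ZMod q), isD x a s → isD y a s → x = y := by
    intro x y a s h1 h2
    apply Subtype.ext
    apply LinearEquiv.ext
    intro v
    rw [h1 v, h2 v]
  have mulDD : ∀ (x y : T) (a s b t : ZMod q), isD x a s → isD y b t → isD (x * y) (a * b) (s * t) := by
    intro x y a s b t h1 h2 v
    show x.1 (y.1 v) = _
    rw [h2, h1, mul_inv]
    ext i; fin_cases i <;> simp <;> ring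
  have mulDA : ∀ (x y : T) (a s b t : ZMod q), a ≠ 0 → (s = 1 ∨ s = -1) → isD x a s → isA y b t → isA (x * y) (s * a⁻¹ * b) (s * t) := by
    intro x y a s b t ha hs h1 h2 v
    show x.1 (y.1 v) = _
    have hs0 : s * s = 1 := hs2 s hs
    have hsi : s⁻¹ = s := inv_eq_of_mul_eq_one_right hs0
    rw [h2, h1, mul_inv, mul_inv, inv_inv, hsi]
    ext i
    fin_cases i
    · simp
      linear_combination (-(a * t * b⁻¹ * v 1)) * hs0
    · simp; ring
  have mulAD : ∀ (x y : T) (a s b t : ZMod q), isA x a s → isD y b t → isA (x * y) (a * b) (s * t) := by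
    intro x y a s b t h1 h2 v
    show x.1 (y.1 v) = _
    rw [h2, h1, mul_inv]
    ext i; fin_cases i <;> simp <;> ring
  have mulAA : ∀ (x y : T) (a s b t : ZMod q), a ≠ 0 → (s = 1 ∨ s = -1) → isA x a s → isA y b t → isD (x * y) (s * a⁻¹ * b) (s * t) := by
    intro x y a s b t ha hs h1 h2 v
    show x.1 (y.1 v) = _
    have hs0 : s * s = 1 := hs2 s hs
    have hsi : s⁻¹ = s := inv_eq_of_mul_eq_one_right hs0
    rw [h2, h1, mul_inv, mul_inv, inv_inv, hsi]
    ext i
    fin_cases i
    · simp; ring
    · simp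
      linear_combination (-(a * t * b⁻¹ * v 1)) * hs0
  have oneD : isD 1 1 1 := by
    intro v
    show v = _
    ext i; fin_cases i <;> simp
  have powD : ∀ (x : T) (a s : ZMod q) (n : ℕ), isD x a s → isD (x ^ n) (a ^ n) (s ^ n) := by
    intro x a s n h
    induction n with
    | zero => simpa using oneD
    | succ n ih =>
      rw [pow_succ, pow_succ, pow_succ]
      exact mulDD _ _ _ _ _ _ ih h
  have exD : ∀ (a s : ZMod q), a ≠ 0 → (s = 1 ∨ s = -1) → ∃ x : T, isD x a s := by
    intro a s ha hs
    have hs0 : s * s = 1 := hs2 s hs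
    let f : (Fin 2 → ZMod q) ≃ₗ[ZMod q] (Fin 2 → ZMod q) :=
      { toFun := fun v => ![a * v 0, s * a⁻¹ * v 1]
        invFun := fun v => ![a⁻¹ * v 0, s * a * v 1]
        left_inv := by
          intro v; ext i; fin_cases i
          · simp [ha]
          · simp
            have : s * a * (s * a⁻¹ * v 1) = (s * s) * (a * a⁻¹) * v 1 := by ring
            rw [this, hs0, mul_inv_cancel₀ ha]; ring
        right_inv := by
          intro v; ext i; fin_cases i
          · simp [ha]
          · simp
            have : s * a⁻¹ * (s * a * v 1) = (s * s) * (a * a⁻¹) * v 1 := by ring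
            rw [this, hs0, mul_inv_cancel₀ ha]; ring
        map_add' := by intro v w; ext i; fin_cases i <;> simp <;> ring
        map_smul' := by intro c v; ext i; fin_cases i <;> simp <;> ring }
    exact ⟨⟨f, (hT f).2 ⟨a, s, ha, hs, Or.inl (fun v => rfl)⟩⟩, fun v => rfl⟩
  have exA : ∀ (a s : ZMod q), a ≠ 0 → (s = 1 ∨ s = -1) → ∃ x : T, isA x a s := by
    intro a s ha hs
    have hs0 : s * s = 1 := hs2 s hs
    let f : (Fin 2 → ZMod q) ≃ₗ[ZMod q] (Fin 2 → ZMod q) :=
      { toFun := fun v => ![s * a⁻¹ * v 1, a * v 0]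
        invFun := fun v => ![a⁻¹ * v 1, s * a * v 0]
        left_inv := by
          intro v; ext i; fin_cases i
          · simp [ha]
          · simp
            have : s * a * (s * a⁻¹ * v 1) = (s * s) * (a * a⁻¹) * v 1 := by ring
            rw [this, hs0, mul_inv_cancel₀ ha]; ring
        right_inv := by
          intro v; ext i; fin_cases i
          · simp
            have : s * a⁻¹ * (s * a * v 0) = (s * s) * (a * a⁻¹) * v 0 := by ring
            rw [this, hs0, mul_inv_cancel₀ ha]; ring
          · simp [ha]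
        map_add' := by intro v w; ext i; fin_cases i <;> simp <;> ring
        map_smul' := by intro c v; ext i; fin_cases i <;> simp <;> ring }
    exact ⟨⟨f, (hT f).2 ⟨a, s, ha, hs, Or.inr (fun v => rfl)⟩⟩, fun v => rfl⟩
  have extA : ∀ (x y : T) (a s : ZMod q), isA x a s → isA y a s → x = y := by
    intro x y a s h1 h2
    apply Subtype.ext
    apply LinearEquiv.ext
    intro v
    rw [h1 v, h2 v]
  have uniqD : ∀ (x : T) (a s b t : ZMod q), b ≠ 0 → isD x a s → isD x b t → a = b ∧ s = t := by
    intro x a s b t hb h1 h2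
    have e0 := congrFun ((h1 ![1, 0]).symm.trans (h2 ![1, 0])) 0
    have e1 := congrFun ((h1 ![0, 1]).symm.trans (h2 ![0, 1])) 1
    simp at e0 e1
    subst e0
    exact ⟨rfl, mul_right_cancel₀ (inv_ne_zero hb) e1⟩
  let D : Subgroup T :=
    { carrier := {x | ∃ a s, a ≠ 0 ∧ (s = 1 ∨ s = -1) ∧ isD x a s}
      one_mem' := ⟨1, 1, one_ne_zero, Or.inl rfl, oneD⟩
      mul_mem' := by
        rintro x y ⟨a, s, ha, hs, h1⟩ ⟨b, t, hb, ht, h2⟩
        exact ⟨a * b, s * t, mul_ne_zero ha hb, hsm s t hs ht, mulDD _ _ _ _ _ _ h1 h2⟩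
      inv_mem' := by
        rintro x ⟨a, s, ha, hs, h1⟩
        obtain ⟨y, hy⟩ := exD a⁻¹ s (inv_ne_zero ha) hs
        have h2 : x * y = 1 := by
          apply extD _ _ 1 1 ?_ oneD
          have := mulDD _ _ _ _ _ _ h1 hy
          rwa [mul_inv_cancel₀ ha, hs2 s hs] at this
        have h3 : x⁻¹ = y := inv_eq_of_mul_eq_one_right h2
        rw [h3]
        exact ⟨a⁻¹, s, inv_ne_zero ha, hs, hy⟩ }
  have memD : ∀ x, x ∈ D ↔ ∃ a s, a ≠ 0 ∧ (s = 1 ∨ s = -1) ∧ isD x a s := fun x => Iff.rfl
  have notD : ∀ x, x ∉ D → ∃ a s, a ≠ 0 ∧ (s = 1 ∨ s = -1) ∧ isA x a s := by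
    intro x hx
    obtain ⟨a, s, ha, hs, h | h⟩ := hcases x
    · exact absurd ⟨a, s, ha, hs, h⟩ hx
    · exact ⟨a, s, ha, hs, h⟩
  have notD' : ∀ x a s, a ≠ 0 → isA x a s → x ∉ D := by
    rintro x a s ha h ⟨b, t, hb, ht, h'⟩
    exact hnot x b t a s hb h' h
  have commD : ∀ x ∈ D, ∀ y ∈ D, x * y = y * x := by
    rintro x ⟨a, s, ha, hs, h1⟩ y ⟨b, t, hb, ht, h2⟩
    apply extD _ _ (a * b) (s * t) (mulDD _ _ _ _ _ _ h1 h2)
    have := mulDD _ _ _ _ _ _ h2 h1
    rwa [mul_comm b, mul_comm t] at this
  have sqA : ∀ x a s, a ≠ 0 → (s = 1 ∨ s = -1) → isA x a s → isD (x * x) s 1 := by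
    intro x a s ha hs h
    have := mulAA x x a s a s ha hs h h
    rwa [mul_assoc, inv_mul_cancel₀ ha, mul_one, hs2 s hs] at this
  have hord : ∀ a : ZMod q, a ≠ 0 → a ^ (2 ^ m) = 1 := by
    intro a ha
    have := ZMod.pow_card_sub_one_eq_one ha
    rwa [show q - 1 = 2 ^ m by rw [hq, Nat.add_sub_cancel]] at this
  have hspow : ∀ s : ZMod q, (s = 1 ∨ s = -1) → ∀ n, n % 2 = 0 → s ^ n = 1 := by
    intro s hs n hn
    obtain ⟨k, rfl⟩ : ∃ k, n = 2 * k := ⟨n / 2, by omega⟩
    rw [pow_mul, pow_two, hs2 s hs, one_pow]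
  have hTp : IsPGroup 2 T := by
    intro x
    refine ⟨m + 2, ?_⟩
    by_cases hx : x ∈ D
    · obtain ⟨a, s, ha, hs, h⟩ := hx
      apply extD _ _ 1 1 ?_ oneD
      have := powD x a s (2 ^ (m + 2)) h
      rw [pow_add, pow_mul a, hord a ha, one_pow, hspow s hs _ (by rw [Nat.mul_mod]; norm_num)] at this
      rw [pow_add]; exact this
    · obtain ⟨a, s, ha, hs, h⟩ := notD x hx
      have h1 := sqA x a s ha hs h
      have h2 : x ^ 4 = 1 := by
        apply extD _ _ 1 1 ?_ oneD
        have := mulDD _ _ _ _ _ _ h1 h1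
        rw [hs2 s hs, one_mul] at this
        rwa [show x ^ 4 = x * x * (x * x) by rw [pow_succ, pow_succ, pow_two, mul_assoc]]
      rw [pow_add, mul_comm, pow_mul, show (2 : ℕ) ^ 2 = 4 by norm_num, h2, one_pow]
  -- the main claim
  have main : ∀ (α : MulAut T) (ℓ : ℕ) (hl : ℓ.Prime), ℓ ≠ 2 → α ^ ℓ = 1 → α = 1 := by
    intro α ℓ hl hl2 hα
    haveI : Fact ℓ.Prime := ⟨hl⟩
    have hlodd : ℓ % 2 = 1 := (hl.eq_two_or_odd).resolve_left hl2
    apply MulEquiv.ext
    show ∀ x, α x = x
    obtain ⟨u, hu⟩ := exA 1 1 one_ne_zero (Or.inl rfl)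
    obtain ⟨e, he⟩ := exD 1 (-1) one_ne_zero (Or.inr rfl)
    have hee : e * e = 1 := by
      apply extD _ _ 1 1 ?_ oneD
      have := mulDD _ _ _ _ _ _ he he
      simpa using this
    have hei : e⁻¹ = e := inv_eq_of_mul_eq_one_right hee
    have huu : u * u = 1 := extD _ _ 1 1 (sqA u 1 1 one_ne_zero (Or.inl rfl) hu) oneD
    have hui : u⁻¹ = u := inv_eq_of_mul_eq_one_right huu
    rcases Nat.lt_or_ge m 3 with hm | hm
    · interval_cases m
      · -- q = 2
        obtain rfl : q = 2 := by omega
        have h2 : ∀ a : ZMod 2, a ≠ 0 → a = 1 := z2a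
        have h3 : ∀ s : ZMod 2, (s = 1 ∨ s = -1) → s = 1 := z2b
        have hall : ∀ x : T, x = 1 ∨ x = u := by
          intro x
          obtain ⟨a, s, ha, hs, h | h⟩ := hcases x
          · left
            rw [h2 a ha, h3 s hs] at h
            exact extD _ _ _ _ h oneD
          · right
            rw [h2 a ha, h3 s hs] at h
            exact extA _ _ _ _ h hu
        intro x
        rcases hall x with rfl | rfl
        · exact map_one α
        · rcases hall (α x) with h | h
          · have : x = 1 := by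
              apply α.injective; rw [h, map_one]
            rw [this, map_one]
          · exact h
      · -- q = 3
        obtain rfl : q = 3 := by omega
        obtain ⟨c, hc⟩ := exA 1 (-1) one_ne_zero (Or.inr rfl)
        have hcc := sqA c 1 (-1) one_ne_zero (Or.inr rfl) hc
        obtain ⟨c', hc'⟩ := exA (-1) (-1) (neg_ne_zero.2 one_ne_zero) (Or.inr rfl)
        have hsqall : ∀ x : T, x * x ≠ 1 → x = c ∨ x = c' := by
          intro x hx
          obtain ⟨a, s, ha, hs, h | h⟩ := hcases x
          · exfalso; apply hx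
            apply extD _ _ 1 1 ?_ oneD
            have := mulDD _ _ _ _ _ _ h h
            rw [hs2 s hs, show a * a = 1 by rcases z3a a ha with rfl | rfl <;> ring] at this
            exact this
          · have h1 := sqA x a s ha hs h
            rcases hs with rfl | rfl
            · exact absurd (extD _ _ 1 1 h1 oneD) hx
            · rcases z3a a ha with rfl | rfl
              · left; exact extA _ _ _ _ h hc
              · right; exact extA _ _ _ _ h hc'
        have hcc1 : c * c ≠ 1 := by
          intro h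
          rw [h] at hcc
          have := (uniqD _ _ _ _ _ one_ne_zero hcc oneD).1
          exact z3b this
        have hαc : α c = c := by
          have himg : ∀ x : T, x * x ≠ 1 → α x * α x ≠ 1 := by
            intro x hx h
            apply hx
            apply α.injective
            rw [map_mul, h, map_one]
          have h1 := hsqall (α c) (himg c hcc1)
          rcases h1 with h1 | h1
          · exact h1
          · apply fixed_of_sq_fixed α ℓ hlodd hα
            have h2 := hsqall (α (α c)) (himg _ (himg c hcc1))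
            rcases h2 with h2 | h2
            · exact h2
            · rw [h1] at h2
              have h3 : c' = c := α.injective (h2.trans h1.symm)
              rw [h1, h2, h3]
        have hc2D : c * c ∈ Subgroup.zpowers c := Subgroup.mul_mem _ (Subgroup.mem_zpowers c) (Subgroup.mem_zpowers c)
        have hc3 : c * c * c = c' := by
          apply extA _ _ _ _ ?_ hc'
          have := mulDA _ _ _ _ _ _ (neg_ne_zero.2 one_ne_zero) (Or.inl rfl) hcc hc
          have e1 : (1 : ZMod 3) * (-1)⁻¹ * 1 = -1 := by rw [inv_neg, inv_one]; ring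
          have e2 : (1 : ZMod 3) * (-1) = -1 := by ring
          rw [e1, e2] at this
          exact this
        have hallC : ∀ x : T, x ∈ Subgroup.zpowers c ∨ e⁻¹ * x ∈ Subgroup.zpowers c := by
          intro x
          have e1 : (1 : ZMod 3) * 1 = 1 := by ring
          have e2 : (-1 : ZMod 3) * (1 : ZMod 3)⁻¹ * 1 = -1 := by rw [inv_one]; ring
          have e3 : (-1 : ZMod 3) * (1 : ZMod 3)⁻¹ * (-1) = 1 := by rw [inv_one]; ring
          have e4 : (-1 : ZMod 3) * (-1 : ZMod 3) = 1 := by ring
          have e5 : (1 : ZMod 3) * (-1 : ZMod 3) = -1 := by ring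
          have e6 : (-1 : ZMod 3) * (1 : ZMod 3) = -1 := by ring
          obtain ⟨a, s, ha, hs, h | h⟩ := hcases x
          · rcases z3a a ha with rfl | rfl <;> rcases hs with rfl | rfl
            · left
              rw [extD _ _ _ _ h oneD]; exact Subgroup.one_mem _
            · right
              rw [extD _ _ _ _ h he, inv_mul_cancel]; exact Subgroup.one_mem _
            · left
              rw [extD _ _ _ _ h hcc]; exact hc2D
            · right
              rw [hei]
              have : e * x = c * c := by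
                apply extD _ _ _ _ ?_ hcc
                have := mulDD _ _ _ _ _ _ he h
                rwa [e5, e4] at this
              rw [this]; exact hc2D
          · rcases z3a a ha with rfl | rfl <;> rcases hs with rfl | rfl
            · right
              rw [hei]
              have : e * x = c' := by
                apply extA _ _ _ _ ?_ hc'
                have := mulDA _ _ _ _ _ _ one_ne_zero (Or.inr rfl) he h
                rwa [e2, e6] at this
              rw [this, ← hc3]
              exact Subgroup.mul_mem _ hc2D (Subgroup.mem_zpowers c)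
            · left
              rw [extA _ _ _ _ h hc]; exact Subgroup.mem_zpowers c
            · right
              rw [hei]
              have : e * x = c := by
                apply extA _ _ _ _ ?_ hc
                have := mulDA _ _ _ _ _ _ one_ne_zero (Or.inr rfl) he h
                rwa [e3, e6] at this
              rw [this]
              exact Subgroup.mem_zpowers c
            · left
              rw [extA _ _ _ _ h hc', ← hc3]
              exact Subgroup.mul_mem _ hc2D (Subgroup.mem_zpowers c)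
        have hαC : ∀ x ∈ Subgroup.zpowers c, α x = x := by
          intro x hx
          obtain ⟨k, rfl⟩ := Subgroup.mem_zpowers_iff.1 hx
          rw [map_zpow, hαc]
        have heC : e ∉ Subgroup.zpowers c := by
          intro h
          have : e * c = c * e := by
            obtain ⟨k, hk⟩ := Subgroup.mem_zpowers_iff.1 h
            rw [← hk]
            exact ((Commute.refl c).zpow_left k).eq
          have h1 := mulDA _ _ _ _ _ _ one_ne_zero (Or.inr rfl) he hc
          have h2 := mulAD _ _ _ _ _ _ hc he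
          rw [this] at h1
          have h3 := congrFun ((h1 ![1, 0]).symm.trans (h2 ![1, 0])) 1
          simp at h3
          exact z3c h3
        obtain ⟨e', ⟨_, he'⟩, he'α⟩ := exists_fixed_ind2 hTp α ℓ hl2 hα (Subgroup.zpowers c) ⊤ le_top e (Subgroup.mem_top _) heC
          (fun x _ hx => (hallC x).resolve_left hx) (by
            intro x _ hx
            refine ⟨Subgroup.mem_top _, fun h => hx ?_⟩
            have h1 := hαC _ h
            have h2 : α x = x := α.injective h1
            rwa [h2] at h)
        intro x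
        by_cases hx : x ∈ Subgroup.zpowers c
        · exact hαC x hx
        · have h1 := (hallC x).resolve_left hx
          have h2 := (hallC e').resolve_left he'
          have h3 : e'⁻¹ * x ∈ Subgroup.zpowers c := by
            have := Subgroup.mul_mem _ (Subgroup.inv_mem _ h2) h1
            rwa [mul_inv_rev, inv_inv, mul_assoc, mul_inv_cancel_left] at this
          have h4 := hαC _ h3
          rw [map_mul, map_inv, he'α] at h4
          exact mul_left_cancel h4
      · exfalso; omega
    · -- m ≥ 3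
      have hq2 : (2 : ZMod q) ≠ 0 := by
        intro h
        have h3 : ((2 : ℕ) : ZMod q) = 0 := by exact_mod_cast h
        rw [ZMod.natCast_eq_zero_iff] at h3
        have h4 := (Nat.prime_dvd_prime_iff_eq hqp Nat.prime_two).1 h3
        have h5 : 2 ^ 3 ≤ 2 ^ m := Nat.pow_le_pow_right (by norm_num) hm
        rw [h4] at hq
        have h6 : (2 : ℕ) ^ 3 = 8 := by norm_num
        rw [h6] at h5
        generalize 2 ^ m = w at *
        omega
      have hm1 : (-1 : ZMod q) ≠ 1 := by
        intro h
        apply hq2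
        linear_combination -h
      obtain ⟨k, rfl⟩ : ∃ k, m = k + 3 := ⟨m - 3, by omega⟩
      have hhalf : ∀ a : ZMod q, a ≠ 0 → a ^ (2 ^ (k + 2)) = 1 ∨ a ^ (2 ^ (k + 2)) = -1 := by
        intro a ha
        apply mul_self_eq_one_iff.1
        rw [← pow_two, ← pow_mul, ← pow_succ]
        exact hord a ha
      have hgen : ∀ a : ZMod q, a ≠ 0 → a ^ (2 ^ (k + 2)) = -1 → ∀ b : ZMod q, b ≠ 0 → ∃ n : ℕ, a ^ n = b := by
        intro a ha ha1 b hb
        let A : (ZMod q)ˣ := Units.mk0 a ha
        have hA : orderOf A = 2 ^ (k + 3) := by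
          apply orderOf_eq_prime_pow
          · intro h
            have := congrArg Units.val h
            rw [Units.val_pow_eq_pow_val, Units.val_one] at this
            exact hm1 (ha1.symm.trans this)
          · ext
            rw [Units.val_pow_eq_pow_val, Units.val_one]
            exact hord a ha
        have hcard : Nat.card (ZMod q)ˣ = 2 ^ (k + 3) := by
          rw [Nat.card_eq_fintype_card, ZMod.card_units_eq_totient, Nat.totient_prime hqp, hq, Nat.add_sub_cancel]
        have htop : Subgroup.zpowers A = ⊤ := by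
          apply Subgroup.eq_top_of_card_eq
          rw [Nat.card_zpowers, hA, hcard]
        have hmem : Units.mk0 b hb ∈ Subgroup.zpowers A := by rw [htop]; trivial
        obtain ⟨n, hn⟩ := (Submonoid.mem_powers_iff _ _).1 (mem_powers_iff_mem_zpowers.2 hmem)
        refine ⟨n, ?_⟩
        have := congrArg Units.val hn
        rwa [Units.val_pow_eq_pow_val] at this
      have hordA : ∀ a : ZMod q, a ≠ 0 → a ^ (2 ^ (k + 2)) = -1 → ∀ n : ℕ, a ^ n = 1 → n % 2 = 0 := by
        intro a ha ha1 n hn
        let A : (ZMod q)ˣ := Units.mk0 a ha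
        have hA : orderOf A = 2 ^ (k + 3) := by
          apply orderOf_eq_prime_pow
          · intro h
            have := congrArg Units.val h
            rw [Units.val_pow_eq_pow_val, Units.val_one] at this
            exact hm1 (ha1.symm.trans this)
          · ext
            rw [Units.val_pow_eq_pow_val, Units.val_one]
            exact hord a ha
        have h1 : A ^ n = 1 := by
          ext
          rw [Units.val_pow_eq_pow_val, Units.val_one]
          exact hn
        have h2 := orderOf_dvd_of_pow_eq_one h1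
        rw [hA] at h2
        have h3 : 2 ∣ n := (dvd_pow_self 2 (by omega)).trans h2
        omega
      -- a generator
      obtain ⟨g, hg, hg1⟩ : ∃ g : ZMod q, g ≠ 0 ∧ g ^ (2 ^ (k + 2)) = -1 := by
        obtain ⟨ζ, hζ⟩ := Cfsg.Agent.H17.exists_orderOf_eq_card_units (ZMod q)
        refine ⟨ζ, ζ.ne_zero, ?_⟩
        rcases hhalf (ζ : ZMod q) ζ.ne_zero with h | h
        · exfalso
          have h1 : ζ ^ (2 ^ (k + 2)) = 1 := by
            ext
            rw [Units.val_pow_eq_pow_val, Units.val_one]
            exact h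
          have h2 := Nat.le_of_dvd (by positivity) (orderOf_dvd_of_pow_eq_one h1)
          rw [hζ, Nat.card_zmod, hq, Nat.add_sub_cancel] at h2
          have h3 : 2 ^ (k + 2) < 2 ^ (k + 3) := Nat.pow_lt_pow_right (by norm_num) (by omega)
          omega
        · exact h
      obtain ⟨d0, hd0⟩ := exD g 1 hg (Or.inl rfl)
      have hd0D : d0 ∈ D := ⟨g, 1, hg, Or.inl rfl, hd0⟩
      have hN2 : 2 ^ (k + 2) % 2 = 0 := by rw [pow_succ]; omega
      have hd04 : d0 ^ 4 ≠ 1 := by
        intro h
        have h1 := powD d0 g 1 4 hd0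
        rw [h] at h1
        have h2 := (uniqD _ _ _ _ _ (pow_ne_zero 4 hg) oneD h1).1
        apply hm1
        rw [← hg1, show 2 ^ (k + 2) = 4 * 2 ^ k by rw [pow_add]; ring, pow_mul, ← h2, one_pow]
      have hchar : ∀ x, x ∈ D ↔ ∀ y, y ^ 4 ≠ 1 → x * y = y * x := by
        intro x
        constructor
        · intro hx y hy
          apply commD x hx
          by_contra hyD
          obtain ⟨a, s, ha, hs, h⟩ := notD y hyD
          apply hy
          have h1 := sqA y a s ha hs h
          apply extD _ _ 1 1 ?_ oneD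
          have := mulDD _ _ _ _ _ _ h1 h1
          rw [hs2 s hs, one_mul] at this
          rwa [show y ^ 4 = y * y * (y * y) by rw [pow_succ, pow_succ, pow_two, mul_assoc]]
        · intro h
          by_contra hxD
          obtain ⟨a, s, ha, hs, hx⟩ := notD x hxD
          have h1 := h d0 hd04
          have h2 := mulAD _ _ _ _ _ _ hx hd0
          have h3 := mulDA _ _ _ _ _ _ hg (Or.inl rfl) hd0 hx
          rw [h1] at h2
          have h4 := congrFun ((h2 ![1, 0]).symm.trans (h3 ![1, 0])) 1
          simp at h4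
          have h5 : g ^ 2 = 1 := by
            have h6 : a * g * g = a := by rw [h4, mul_comm g⁻¹, mul_assoc, inv_mul_cancel₀ hg, mul_one]
            have h7 : a * (g ^ 2) = a * 1 := by rw [pow_two, ← mul_assoc, h6, mul_one]
            exact mul_left_cancel₀ ha h7
          apply hm1
          rw [← hg1, show 2 ^ (k + 2) = 2 * 2 ^ (k + 1) by rw [pow_succ]; ring, pow_mul, h5, one_pow]
      have hαD : ∀ x, x ∈ D ↔ α x ∈ D := by
        intro x
        rw [hchar, hchar]
        constructor
        · intro h y hy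
          obtain ⟨z, rfl⟩ := α.surjective y
          rw [← map_mul, ← map_mul, h z (fun hz => hy (by rw [← map_pow, hz, map_one]))]
        · intro h y hy
          apply α.injective
          rw [map_mul, map_mul]
          apply h
          rw [← map_pow]
          intro h1
          exact hy (α.injective (h1.trans (map_one α).symm))
      let D1 : Subgroup T :=
        { carrier := {x | x ∈ D ∧ x ^ (2 ^ (k + 2)) = 1}
          one_mem' := ⟨D.one_mem, one_pow _⟩
          mul_mem' := by
            rintro x y ⟨hx, hx1⟩ ⟨hy, hy1⟩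
            refine ⟨D.mul_mem hx hy, ?_⟩
            rw [(show Commute x y from commD x hx y hy).mul_pow, hx1, hy1, one_mul]
          inv_mem' := by
            rintro x ⟨hx, hx1⟩
            exact ⟨D.inv_mem hx, by rw [inv_pow, hx1, inv_one]⟩ }
      have memD1 : ∀ x, x ∈ D1 ↔ x ∈ D ∧ x ^ (2 ^ (k + 2)) = 1 := fun x => Iff.rfl
      obtain ⟨n1, hn1⟩ := exD (-1) 1 (neg_ne_zero.2 one_ne_zero) (Or.inl rfl)
      have hpowN : ∀ x ∈ D, x ∉ D1 → x ^ (2 ^ (k + 2)) = n1 := by
        rintro x ⟨a, s, ha, hs, h⟩ hx1
        have h1 := powD x a s (2 ^ (k + 2)) h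
        rw [hspow s hs _ hN2] at h1
        rcases hhalf a ha with h2 | h2
        · exfalso
          apply hx1
          rw [memD1]
          refine ⟨⟨a, s, ha, hs, h⟩, ?_⟩
          rw [h2] at h1
          exact extD _ _ _ _ h1 oneD
        · rw [h2] at h1
          exact extD _ _ _ _ h1 hn1
      have hd0D1 : d0 ∉ D1 := by
        rw [memD1]
        rintro ⟨_, h⟩
        have h1 := powD d0 g 1 (2 ^ (k + 2)) hd0
        rw [h, hg1] at h1
        exact hm1 (uniqD _ _ _ _ _ (neg_ne_zero.2 one_ne_zero) oneD h1).1.symm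
      obtain ⟨d, ⟨hdD, hdD1⟩, hdα⟩ := exists_fixed_ind2 hTp α ℓ hl2 hα D1 D (fun x hx => hx.1) d0 hd0D hd0D1 (by
        intro x hx hx1
        rw [memD1]
        refine ⟨D.mul_mem (D.inv_mem hd0D) hx, ?_⟩
        rw [(show Commute d0⁻¹ x from commD _ (D.inv_mem hd0D) x hx).mul_pow, inv_pow, hpowN x hx hx1, hpowN d0 hd0D hd0D1, inv_mul_cancel]) (by
        intro x hx hx1
        refine ⟨(hαD x).1 hx, fun h => hx1 ?_⟩
        rw [memD1]
        refine ⟨hx, ?_⟩
        have := h.2
        rw [← map_pow] at this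
        exact α.injective (this.trans (map_one α).symm))
      obtain ⟨a, s, ha, hs, hd⟩ := hdD
      have ha1 : a ^ (2 ^ (k + 2)) = -1 := by
        rcases hhalf a ha with h | h
        · exfalso
          apply hdD1
          rw [memD1]
          refine ⟨⟨a, s, ha, hs, hd⟩, ?_⟩
          have h1 := powD d a s (2 ^ (k + 2)) hd
          rw [hspow s hs _ hN2, h] at h1
          exact extD _ _ _ _ h1 oneD
        · exact h
      have hdD : d ∈ D := ⟨a, s, ha, hs, hd⟩
      have heD : e ∈ D := ⟨1, -1, one_ne_zero, Or.inr rfl, he⟩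
      have hαC : ∀ x ∈ Subgroup.zpowers d, α x = x := by
        intro x hx
        obtain ⟨k, rfl⟩ := Subgroup.mem_zpowers_iff.1 hx
        rw [map_zpow, hdα]
      have hsn : ∀ n : ℕ, s ^ n = 1 ∨ s ^ n = -1 := by
        intro n
        rcases hs with rfl | rfl
        · left; exact one_pow n
        · exact neg_one_pow_eq_or _ n
      have hCle : Subgroup.zpowers d ≤ D := by
        rw [Subgroup.zpowers_le]; exact hdD
      have hallD : ∀ x ∈ D, x ∈ Subgroup.zpowers d ∨ e⁻¹ * x ∈ Subgroup.zpowers d := by
        rintro x ⟨b, t, hb, ht, hx⟩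
        obtain ⟨n, hn⟩ := hgen a ha ha1 b hb
        have h1 := powD d a s n hd
        rw [hn] at h1
        by_cases hst : s ^ n = t
        · left
          rw [hst] at h1
          rw [extD _ _ _ _ hx h1]
          exact Subgroup.pow_mem _ (Subgroup.mem_zpowers d) n
        · right
          rw [hei]
          have h2 := mulDD _ _ _ _ _ _ he hx
          rw [one_mul] at h2
          have h3 : -1 * t = s ^ n := by
            rcases hsn n with h | h <;> rcases ht with rfl | rfl
            · exact absurd h hst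
            · rw [h]; ring
            · rw [h]; ring
            · exact absurd h hst
          rw [h3] at h2
          rw [extD _ _ _ _ h2 h1]
          exact Subgroup.pow_mem _ (Subgroup.mem_zpowers d) n
      have heC : e ∉ Subgroup.zpowers d := by
        intro h
        haveI : Finite T := hTfin
        obtain ⟨n, hn⟩ := (Submonoid.mem_powers_iff _ _).1 (mem_powers_iff_mem_zpowers.2 h)
        have h1 := powD d a s n hd
        rw [hn] at h1
        obtain ⟨h2, h3⟩ := uniqD _ _ _ _ _ one_ne_zero h1 he
        have h4 := hordA a ha ha1 n h2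
        rw [hspow s hs n h4] at h3
        exact hm1 h3.symm
      obtain ⟨e', ⟨he'D, he'⟩, he'α⟩ := exists_fixed_ind2 hTp α ℓ hl2 hα (Subgroup.zpowers d) D hCle e heD heC
        (fun x hxD hx => (hallD x hxD).resolve_left hx) (by
          intro x hxD hx
          refine ⟨(hαD x).1 hxD, fun h => hx ?_⟩
          have h1 := hαC _ h
          have h2 : α x = x := α.injective h1
          rwa [h2] at h)
      have hDfix : ∀ x ∈ D, α x = x := by
        intro x hxD
        by_cases hx : x ∈ Subgroup.zpowers d
        · exact hαC x hx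
        · have h1 := (hallD x hxD).resolve_left hx
          have h2 := (hallD e' he'D).resolve_left he'
          have h3 : e'⁻¹ * x ∈ Subgroup.zpowers d := by
            have := Subgroup.mul_mem _ (Subgroup.inv_mem _ h2) h1
            rwa [mul_inv_rev, inv_inv, mul_assoc, mul_inv_cancel_left] at this
          have h4 := hαC _ h3
          rw [map_mul, map_inv, he'α] at h4
          exact mul_left_cancel h4
      have huD : u ∉ D := notD' u 1 1 one_ne_zero hu
      have hallT : ∀ x, x ∉ D → u⁻¹ * x ∈ D := by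
        intro x hx
        obtain ⟨b, t, hb, ht, h⟩ := notD x hx
        rw [hui]
        have := mulAA _ _ _ _ _ _ one_ne_zero (Or.inl rfl) hu h
        exact ⟨_, _, by simpa using hb, hsm 1 t (Or.inl rfl) ht, this⟩
      obtain ⟨u', ⟨_, hu'⟩, hu'α⟩ := exists_fixed_ind2 hTp α ℓ hl2 hα D ⊤ le_top u (Subgroup.mem_top _) huD
        (fun x _ hx => hallT x hx) (by
          intro x _ hx
          exact ⟨Subgroup.mem_top _, fun h => hx ((hαD x).2 h)⟩)
      intro x
      by_cases hx : x ∈ D
      · exact hDfix x hx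
      · have h1 := hallT x hx
        have h2 := hallT u' hu'
        have h3 : u'⁻¹ * x ∈ D := by
          have := D.mul_mem (D.inv_mem h2) h1
          rwa [mul_inv_rev, inv_inv, mul_assoc, mul_inv_cancel_left] at this
        have h4 := hDfix _ h3
        rw [map_mul, map_inv, hu'α] at h4
        exact mul_left_cancel h4
  -- conclusion
  haveI : Finite (MulAut T) := Finite.of_injective (fun f : MulAut T => (f : T → T)) DFunLike.coe_injective
  apply IsPGroup.of_card (n := (Nat.card (MulAut T)).primeFactorsList.length)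
  apply Nat.eq_prime_pow_of_unique_prime_dvd Nat.card_pos.ne'
  intro d hd hdvd
  by_contra hd2
  haveI : Fact d.Prime := ⟨hd⟩
  obtain ⟨α, hα⟩ := exists_prime_orderOf_dvd_card' d hdvd
  have := main α d hd hd2 (by rw [← hα, pow_orderOf_eq_one])
  rw [this, orderOf_one] at hα
  exact hd.one_lt.ne hα

end Cfsg.Agent.S3382
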