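import Cfsg.Statements.S3383
import Mathlib
import Cfsg.Agent.H21.Frob

set_option autoImplicit false
set_option linter.style.haveILetI false
set_option linter.unusedVariables false
open Cfsg

namespace Cfsg.Agent.S3383

/-- Let H be a Frobenius complement in a finite group L and K the Frobenius kernel (as a subgroup). Then K is characteristic in L, and every normal subgroup of L either contains K or is contained in K. -/
theorem result {L : Type*} [Group L] [Finite L]
    (H : Subgroup L) (hH : Cfsg.IsFrobeniusComplement H)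
    (K : Subgroup L) (hK : (K : Set L) = Cfsg.frobeniusKernel H) :
    K.Characteristic ∧ ∀ N : Subgroup L, N.Normal → K ≤ N ∨ N ≤ K := by
  classical
  have hmem : ∀ x, x ∈ K ↔ Nat.Coprime (orderOf x) (Nat.card H) := by
    intro x
    have h1 : x ∈ K ↔ x ∈ Cfsg.frobeniusKernel H := by rw [← hK]; rfl
    rw [h1]
    apply Cfsg.Agent.H21.frob_mem_kernel_iff hH
    intro hx n
    rw [← h1] at hx
    have h2 := K.pow_mem hx n
    rw [← hK]; exact h2
  have hchar : K.Characteristic := by
    rw [Subgroup.characteristic_iff_comap_eq]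
    intro φ
    ext x
    rw [Subgroup.mem_comap, hmem, hmem]
    have : orderOf (φ.toMonoidHom x) = orderOf x := orderOf_injective φ.toMonoidHom φ.injective x
    rw [this]
  refine ⟨hchar, ?_⟩
  haveI := hchar
  haveI hKn : K.Normal := inferInstance
  intro N hN
  by_cases hNK : N ≤ K
  · right; exact hNK
  · left
    obtain ⟨x, hxN, hxK⟩ := SetLike.not_le_iff_exists.mp hNK
    have h1 : ¬ x ∈ Cfsg.frobeniusKernel H := by rw [← hK]; exact hxK
    obtain ⟨hx1, g, hg⟩ := Cfsg.Agent.H21.frob_not_mem_kernel h1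
    set a := g⁻¹ * x * g with ha
    have haN : a ∈ N := by
      have := hN.conj_mem x hxN g⁻¹
      rwa [inv_inv] at this
    have ha1 : a ≠ 1 := by
      intro h
      apply hx1
      have : x = g * a * g⁻¹ := by rw [ha]; group
      rw [this, h]; group
    -- H ∩ K = 1
    have hHK : ∀ y, y ∈ H → y ∈ K → y = 1 := by
      intro y hyH hyK
      rw [hmem] at hyK
      have h3 : orderOf y ∣ Nat.card H := by
        have := orderOf_dvd_natCard (⟨_, hyH⟩ : H)
        rwa [← Subgroup.orderOf_coe] at this
      have h4 : orderOf y ∣ 1 := by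
        rw [← hyK.gcd_eq_one]; exact Nat.dvd_gcd dvd_rfl h3
      exact orderOf_eq_one_iff.mp (Nat.dvd_one.mp h4)
    let f : K → K := fun k => ⟨k * a * (k : L)⁻¹ * a⁻¹, by
      have h5 := hKn.conj_mem _ (K.inv_mem k.2) a
      have h6 := K.mul_mem k.2 h5
      have h7 : (k : L) * (a * (k : L)⁻¹ * a⁻¹) = k * a * (k : L)⁻¹ * a⁻¹ := by group
      rwa [h7] at h6⟩
    have hf : Function.Injective f := by
      intro k l hkl
      have h5 : (k : L) * a * (k : L)⁻¹ * a⁻¹ = l * a * (l : L)⁻¹ * a⁻¹ := congrArg Subtype.val hkl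
      have h6 := mul_right_cancel h5
      have h7 : ((l : L)⁻¹ * k) * a = a * ((l : L)⁻¹ * k) := by
        calc ((l : L)⁻¹ * k) * a = (l : L)⁻¹ * (k * a * (k : L)⁻¹) * k := by group
          _ = (l : L)⁻¹ * (l * a * (l : L)⁻¹) * k := by rw [h6]
          _ = a * ((l : L)⁻¹ * k) := by group
      have h8 := Cfsg.Agent.H21.frob_commute_mem hH hg ha1 h7
      have h9 := hHK _ h8 (K.mul_mem (K.inv_mem l.2) k.2)
      exact Subtype.ext (inv_mul_eq_one.mp h9).symm
    have hfs := Finite.surjective_of_injective hf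
    intro k hk
    obtain ⟨l, hl⟩ := hfs ⟨k, hk⟩
    have h10 : (l : L) * a * (l : L)⁻¹ * a⁻¹ = k := congrArg Subtype.val hl
    rw [← h10]
    exact N.mul_mem (hN.conj_mem a haN l) (N.inv_mem haN)

end Cfsg.Agent.S3383
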