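import Cfsg.Statements.S3704
import Cfsg.Agent.H22.Perm

set_option autoImplicit false
set_option linter.all false
open Cfsg

namespace Cfsg.Agent.S3704

open scoped Matrix

section
variable {G Ω : Type*} [Group G] [Finite G] [MulAction G Ω] [Fintype Ω] [DecidableEq Ω]

/-- the invariant matrix attached to an `H`-invariant function -/
noncomputable def mat (H : Subgroup G) (f : Ω → ℚ) (hf : ∀ h ∈ H, ∀ x, f (h • x) = f x) :
    Matrix (G ⧸ H) Ω ℚ := fun d x => Quotient.liftOn' d (fun g => f (g⁻¹ • x)) (by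
      intro a b hab
      rw [QuotientGroup.leftRel_apply] at hab
      show f (a⁻¹ • x) = f (b⁻¹ • x)
      have : a⁻¹ • x = (a⁻¹ * b) • b⁻¹ • x := by rw [mul_smul, smul_inv_smul]
      rw [this, hf _ hab])

omit [Finite G] [Fintype Ω] [DecidableEq Ω] in
theorem mat_mk (H : Subgroup G) (f : Ω → ℚ) (hf : ∀ h ∈ H, ∀ x, f (h • x) = f x) (g : G) (x : Ω) :
    mat H f hf (g : G ⧸ H) x = f (g⁻¹ • x) := rfl

omit [Finite G] [Fintype Ω] [DecidableEq Ω] in
theorem mat_smul (H : Subgroup G) (f : Ω → ℚ) (hf : ∀ h ∈ H, ∀ x, f (h • x) = f x) (g : G)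
    (d : G ⧸ H) (x : Ω) :
    mat H f hf (g • d) (g • x) = mat H f hf d x := by
  induction d using QuotientGroup.induction_on with
  | H a =>
    rw [MulAction.Quotient.smul_mk, mat_mk, mat_mk, smul_eq_mul, _root_.mul_inv_rev, mul_smul, inv_smul_smul]

theorem gram (H : Subgroup G) (h2 : MulAction.IsMultiplyPretransitive G Ω 2) [Fintype (G ⧸ H)]
    (hidx : Fintype.card (G ⧸ H) = Fintype.card Ω) (hn : 2 ≤ Fintype.card Ω)
    (f1 f2 : Ω → ℚ) (hf1 : ∀ h ∈ H, ∀ x, f1 (h • x) = f1 x) (hf2 : ∀ h ∈ H, ∀ x, f2 (h • x) = f2 x)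
    (hs2 : ∑ x, f2 x = 0) :
    ∀ x y, ((mat H f1 hf1)ᵀ * mat H f2 hf2) x y =
      if x = y then ∑ z, f1 z * f2 z else - (∑ z, f1 z * f2 z) / (Fintype.card Ω - 1) := by
  set A := (mat H f1 hf1)ᵀ * mat H f2 hf2 with hA
  have hAxy : ∀ x y, A x y = ∑ d, mat H f1 hf1 d x * mat H f2 hf2 d y := fun x y => by
    rw [hA, Matrix.mul_apply]; rfl
  have hinv : ∀ (g : G) x y, A (g • x) (g • y) = A x y := by
    intro g x y
    rw [hAxy, hAxy, ← Equiv.sum_comp (MulAction.toPerm g : Equiv.Perm (G ⧸ H))]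
    apply Finset.sum_congr rfl
    intro d _
    simp only [MulAction.toPerm_apply]
    rw [mat_smul, mat_smul]
  have ht : MulAction.IsPretransitive G Ω := by
    rw [← MulAction.is_one_pretransitive_iff]
    exact MulAction.isMultiplyPretransitive_of_le (n := 2) (by norm_num) (by simpa using hn)
  obtain ⟨a, b, hab⟩ : ∃ a b : Ω, a ≠ b := by
    haveI : Nontrivial Ω := Fintype.one_lt_card_iff_nontrivial.1 (by omega)
    exact exists_pair_ne Ω
  have hdiag : ∀ x, A x x = A a a := fun x => by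
    obtain ⟨g, rfl⟩ := ht.exists_smul_eq a x
    exact hinv g a a
  have hoff : ∀ x y, x ≠ y → A x y = A a b := fun x y hxy => by
    obtain ⟨g, hg1, hg2⟩ := (MulAction.is_two_pretransitive_iff (G := G) (α := Ω)).1 h2 hab hxy
    rw [← hg1, ← hg2]
    exact hinv g a b
  have hsum2 : ∀ d, ∑ y, mat H f2 hf2 d y = 0 := by
    intro d
    induction d using QuotientGroup.induction_on with
    | H c =>
      simp only [mat_mk]
      rw [← hs2]
      exact Equiv.sum_comp (MulAction.toPerm c⁻¹ : Equiv.Perm Ω) f2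
  have hrow : ∀ x, ∑ y, A x y = 0 := by
    intro x
    simp only [hAxy]
    rw [Finset.sum_comm]
    apply Finset.sum_eq_zero
    intro d _
    rw [← Finset.mul_sum, hsum2, mul_zero]
  have hsum12 : ∀ d, ∑ y, mat H f1 hf1 d y * mat H f2 hf2 d y = ∑ z, f1 z * f2 z := by
    intro d
    induction d using QuotientGroup.induction_on with
    | H c =>
      simp only [mat_mk]
      exact Equiv.sum_comp (MulAction.toPerm c⁻¹ : Equiv.Perm Ω) (fun z => f1 z * f2 z)
  have htr : ∑ x, A x x = Fintype.card Ω * ∑ z, f1 z * f2 z := by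
    simp only [hAxy]
    rw [Finset.sum_comm]
    rw [Finset.sum_congr rfl (fun d _ => hsum12 d)]
    rw [Finset.sum_const, Finset.card_univ, hidx, nsmul_eq_mul]
  have hn0 : (Fintype.card Ω : ℚ) ≠ 0 := by
    have : Fintype.card Ω ≠ 0 := by omega
    exact_mod_cast this
  have hn1 : (Fintype.card Ω : ℚ) - 1 ≠ 0 := by
    have : (2 : ℚ) ≤ Fintype.card Ω := by exact_mod_cast hn
    intro h; linarith
  have hAaa : A a a = ∑ z, f1 z * f2 z := by
    rw [Finset.sum_congr rfl (fun x _ => hdiag x), Finset.sum_const, Finset.card_univ, nsmul_eq_mul] at htr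
    exact mul_left_cancel₀ hn0 htr
  have hAab : A a b = - (∑ z, f1 z * f2 z) / (Fintype.card Ω - 1) := by
    have h1 := hrow a
    rw [← Finset.add_sum_erase _ _ (Finset.mem_univ a)] at h1
    rw [Finset.sum_congr rfl (fun y hy => hoff a y (Finset.ne_of_mem_erase hy).symm),
      Finset.sum_const, Finset.card_erase_of_mem (Finset.mem_univ a), Finset.card_univ, nsmul_eq_mul,
      Nat.cast_sub (by omega), hAaa] at h1
    rw [eq_div_iff hn1]
    push_cast at h1
    linarith
  intro x y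
  by_cases hxy : x = y
  · subst hxy; rw [if_pos rfl, hdiag, hAaa]
  · rw [if_neg hxy, hoff x y hxy, hAab]

theorem key (H : Subgroup G) (h2 : MulAction.IsMultiplyPretransitive G Ω 2) [Fintype (G ⧸ H)] [DecidableEq (G ⧸ H)]
    (hidx : Fintype.card (G ⧸ H) = Fintype.card Ω) (hn : 3 ≤ Fintype.card Ω)
    (f1 f2 : Ω → ℚ) (hf1 : ∀ h ∈ H, ∀ x, f1 (h • x) = f1 x) (hf2 : ∀ h ∈ H, ∀ x, f2 (h • x) = f2 x)
    (hs1 : ∑ x, f1 x = 0) (hs2 : ∑ x, f2 x = 0) (h12 : ∑ x, f1 x * f2 x = 0)
    (hp1 : 0 < ∑ x, f1 x * f1 x) (hp2 : 0 < ∑ x, f2 x * f2 x) : False := by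
  have hn' : (3 : ℚ) ≤ Fintype.card Ω := by exact_mod_cast hn
  have hn1 : (Fintype.card Ω : ℚ) - 1 ≠ 0 := by intro h; linarith
  have hn0 : (Fintype.card Ω : ℚ) ≠ 0 := by intro h; linarith
  set n : ℚ := (Fintype.card Ω : ℚ) with hnn
  set M1 := mat H f1 hf1 with hM1
  set M2 := mat H f2 hf2 with hM2
  have hone : ∀ (f : Ω → ℚ) (hf : ∀ h ∈ H, ∀ x, f (h • x) = f x) (hs : ∑ x, f x = 0) (hp : 0 < ∑ x, f x * f x),
      ∃ c : ℚ, 0 < c ∧ mat H f hf * ((mat H f hf)ᵀ * mat H f hf) = c • mat H f hf ∧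
        Matrix.trace ((mat H f hf)ᵀ * mat H f hf) = c * (n - 1) := by
    intro f hf hs hp
    set q := ∑ x, f x * f x with hq
    refine ⟨q * n / (n - 1), ?_, ?_, ?_⟩
    · apply div_pos (mul_pos hp (by linarith)) (by linarith)
    · have hg : (mat H f hf)ᵀ * mat H f hf = (q * n / (n - 1)) • (1 : Matrix Ω Ω ℚ) - (q / (n - 1)) • Matrix.of (fun _ _ => (1 : ℚ)) := by
        ext x y
        rw [gram H h2 hidx (by omega) f f hf hf hs, ← hq, ← hnn]
        simp only [Matrix.sub_apply, Matrix.smul_apply, Matrix.one_apply, Matrix.of_apply, smul_eq_mul]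
        by_cases hxy : x = y
        · rw [if_pos hxy, if_pos hxy]
          field_simp
          try ring
        · rw [if_neg hxy, if_neg hxy]
          field_simp
          try ring
      have hz : mat H f hf * Matrix.of (fun (_ : Ω) (_ : Ω) => (1 : ℚ)) = 0 := by
        ext d y
        rw [Matrix.mul_apply]
        simp only [Matrix.of_apply, mul_one, Matrix.zero_apply]
        induction d using QuotientGroup.induction_on with
        | H c =>
          simp only [mat_mk]
          rw [← hs]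
          exact Equiv.sum_comp (MulAction.toPerm c⁻¹ : Equiv.Perm Ω) f
      rw [hg, Matrix.mul_sub, Matrix.mul_smul, Matrix.mul_smul, hz, Matrix.mul_one, smul_zero, sub_zero]
    · rw [Matrix.trace]
      simp only [Matrix.diag_apply]
      rw [Finset.sum_congr rfl (fun x _ => gram H h2 hidx (by omega) f f hf hf hs x x)]
      simp only [if_true]
      rw [Finset.sum_const, Finset.card_univ, nsmul_eq_mul, ← hq, ← hnn]
      field_simp
  obtain ⟨c1, hc1, he1, ht1⟩ := hone f1 hf1 hs1 hp1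
  obtain ⟨c2, hc2, he2, ht2⟩ := hone f2 hf2 hs2 hp2
  have h12' : M1ᵀ * M2 = 0 := by
    ext x y
    rw [gram H h2 hidx (by omega) f1 f2 hf1 hf2 hs2, h12]
    simp
  have h21' : M2ᵀ * M1 = 0 := by
    have := congrArg Matrix.transpose h12'
    simpa using this
  set P1 := c1⁻¹ • (M1 * M1ᵀ) with hP1
  set P2 := c2⁻¹ • (M2 * M2ᵀ) with hP2
  have e1 : P1 * P1 = P1 := by
    rw [hP1, Matrix.smul_mul, Matrix.mul_smul, smul_smul]
    have : M1 * M1ᵀ * (M1 * M1ᵀ) = c1 • (M1 * M1ᵀ) := by
      rw [← Matrix.mul_assoc, Matrix.mul_assoc M1, he1, Matrix.smul_mul]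
    rw [this, smul_smul]
    congr 1
    field_simp
  have e2 : P2 * P2 = P2 := by
    rw [hP2, Matrix.smul_mul, Matrix.mul_smul, smul_smul]
    have : M2 * M2ᵀ * (M2 * M2ᵀ) = c2 • (M2 * M2ᵀ) := by
      rw [← Matrix.mul_assoc, Matrix.mul_assoc M2, he2, Matrix.smul_mul]
    rw [this, smul_smul]
    congr 1
    field_simp
  have e12 : P1 * P2 = 0 := by
    rw [hP1, hP2, Matrix.smul_mul, Matrix.mul_smul, ← Matrix.mul_assoc, Matrix.mul_assoc M1, h12']
    simp
  have e21 : P2 * P1 = 0 := by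
    rw [hP1, hP2, Matrix.smul_mul, Matrix.mul_smul, ← Matrix.mul_assoc, Matrix.mul_assoc M2, h21']
    simp
  set R := (1 : Matrix (G ⧸ H) (G ⧸ H) ℚ) - P1 - P2 with hR
  have hRR : R * R = R := by
    rw [hR]
    simp only [Matrix.mul_sub, Matrix.sub_mul, Matrix.mul_one, Matrix.one_mul, e1, e2, e12, e21]
    abel
  have hRT : Rᵀ = R := by
    rw [hR, hP1, hP2]
    simp [Matrix.transpose_sub, Matrix.transpose_smul, Matrix.transpose_mul]
  have htrR : Matrix.trace R = n - (n - 1) - (n - 1) := by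
    rw [hR, Matrix.trace_sub, Matrix.trace_sub, Matrix.trace_one, hP1, hP2, Matrix.trace_smul, Matrix.trace_smul,
      Matrix.trace_mul_comm M1, Matrix.trace_mul_comm M2, ht1, ht2, hidx]
    simp only [smul_eq_mul]
    rw [← mul_assoc, ← mul_assoc, inv_mul_cancel₀ hc1.ne', inv_mul_cancel₀ hc2.ne', one_mul]
  have hpos : 0 ≤ Matrix.trace R := by
    have : R = Rᵀ * R := by rw [hRT, hRR]
    rw [this, Matrix.trace]
    apply Finset.sum_nonneg
    intro i _
    rw [Matrix.diag_apply, Matrix.mul_apply]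
    apply Finset.sum_nonneg
    intro j _
    rw [Matrix.transpose_apply]
    exact mul_self_nonneg _
  rw [htrR] at hpos
  linarith

end


/-- Let G be a finite group acting faithfully and 2-transitively on a finite set Ω of size n, and let H be a subgroup of index n in G which is not transitive on Ω and fixes no point of Ω. Then H has exactly two orbits on Ω. -/
theorem result {G Ω : Type*} [Group G] [Finite G] [MulAction G Ω] [FaithfulSMul G Ω] [Finite Ω] (h2 : MulAction.IsMultiplyPretransitive G Ω 2) (H : Subgroup G) (hidx : H.index = Nat.card Ω) (hnt : ¬ MulAction.IsPretransitive H Ω) (hfix : ∀ a : Ω, ∃ h : H, h • a ≠ a) : Nat.card (MulAction.orbitRel.Quotient H Ω) = 2 := by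
  classical
  haveI := Fintype.ofFinite Ω
  haveI := Fintype.ofFinite (G ⧸ H)
  have hidx' : Fintype.card (G ⧸ H) = Fintype.card Ω := by
    rw [← Nat.card_eq_fintype_card, ← Nat.card_eq_fintype_card]; exact hidx
  haveI hfinQ : Finite (MulAction.orbitRel.Quotient H Ω) := inferInstance
  -- at least two orbits
  have hge : 2 ≤ Nat.card (MulAction.orbitRel.Quotient H Ω) := by
    by_contra hcon
    apply hnt
    rw [MulAction.pretransitive_iff_subsingleton_quotient]
    exact Finite.card_le_one_iff_subsingleton.1 (by omega)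
  by_contra hne
  have h3 : 3 ≤ Nat.card (MulAction.orbitRel.Quotient H Ω) := by omega
  obtain ⟨o1, o2, o3, h12, h13, h23⟩ : ∃ o1 o2 o3 : MulAction.orbitRel.Quotient H Ω, o1 ≠ o2 ∧ o1 ≠ o3 ∧ o2 ≠ o3 := by
    haveI := Fintype.ofFinite (MulAction.orbitRel.Quotient H Ω)
    rw [Nat.card_eq_fintype_card] at h3
    obtain ⟨a, b, c, hab, hac, hbc⟩ := Fintype.two_lt_card_iff.1 (by omega : 2 < Fintype.card (MulAction.orbitRel.Quotient H Ω))
    exact ⟨a, b, c, hab, hac, hbc⟩
  let π : Ω → MulAction.orbitRel.Quotient H Ω := Quotient.mk''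
  have hπ : ∀ h ∈ H, ∀ x, π (h • x) = π x := by
    intro h hh x
    apply Quotient.sound'
    exact ⟨⟨h, hh⟩, rfl⟩
  have hcardpos : ∀ o, 0 < (Finset.univ.filter (fun x => π x = o)).card := by
    intro o
    rw [Finset.card_pos]
    obtain ⟨x, hx⟩ := Quotient.exists_rep o
    exact ⟨x, by simp only [Finset.mem_filter, Finset.mem_univ, true_and]; exact hx⟩
  set a : ℚ := ((Finset.univ.filter (fun x => π x = o1)).card : ℚ) with ha
  set b : ℚ := ((Finset.univ.filter (fun x => π x = o2)).card : ℚ) with hb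
  set c : ℚ := ((Finset.univ.filter (fun x => π x = o3)).card : ℚ) with hc
  have hapos : 0 < a := by rw [ha]; exact_mod_cast hcardpos o1
  have hbpos : 0 < b := by rw [hb]; exact_mod_cast hcardpos o2
  have hcpos : 0 < c := by rw [hc]; exact_mod_cast hcardpos o3
  let i1 : Ω → ℚ := fun x => if π x = o1 then 1 else 0
  let i2 : Ω → ℚ := fun x => if π x = o2 then 1 else 0
  let i3 : Ω → ℚ := fun x => if π x = o3 then 1 else 0
  have hi1 : ∑ x, i1 x = a := by simp only [i1]; rw [Finset.sum_boole]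
  have hi2 : ∑ x, i2 x = b := by simp only [i2]; rw [Finset.sum_boole]
  have hi3 : ∑ x, i3 x = c := by simp only [i3]; rw [Finset.sum_boole]
  have hi12 : ∀ x, i1 x * i2 x = 0 := fun x => by
    simp only [i1, i2]
    split_ifs with h h'
    · exact absurd (h.symm.trans h') h12
    all_goals simp
  have hi13 : ∀ x, i1 x * i3 x = 0 := fun x => by
    simp only [i1, i3]
    split_ifs with h h'
    · exact absurd (h.symm.trans h') h13
    all_goals simp
  have hi23 : ∀ x, i2 x * i3 x = 0 := fun x => by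
    simp only [i2, i3]
    split_ifs with h h'
    · exact absurd (h.symm.trans h') h23
    all_goals simp
  have hi11 : ∀ x, i1 x * i1 x = i1 x := fun x => by simp only [i1]; split_ifs <;> simp
  have hi22 : ∀ x, i2 x * i2 x = i2 x := fun x => by simp only [i2]; split_ifs <;> simp
  have hi33 : ∀ x, i3 x * i3 x = i3 x := fun x => by simp only [i3]; split_ifs <;> simp
  let f1 : Ω → ℚ := fun x => a⁻¹ * i1 x - b⁻¹ * i2 x
  let f2 : Ω → ℚ := fun x => i1 x + i2 x - ((a + b) / c) * i3 x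
  have hinv1 : ∀ h ∈ H, ∀ x, f1 (h • x) = f1 x := by
    intro h hh x
    simp only [f1, i1, i2, hπ h hh x]
  have hinv2 : ∀ h ∈ H, ∀ x, f2 (h • x) = f2 x := by
    intro h hh x
    simp only [f2, i1, i2, i3, hπ h hh x]
  have hs1 : ∑ x, f1 x = 0 := by
    simp only [f1]
    rw [Finset.sum_sub_distrib, ← Finset.mul_sum, ← Finset.mul_sum, hi1, hi2, inv_mul_cancel₀ hapos.ne',
      inv_mul_cancel₀ hbpos.ne', sub_self]
  have hs2 : ∑ x, f2 x = 0 := by
    simp only [f2]
    rw [Finset.sum_sub_distrib, Finset.sum_add_distrib, ← Finset.mul_sum, hi1, hi2, hi3]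
    field_simp
    ring
  have hs12 : ∑ x, f1 x * f2 x = 0 := by
    have : ∀ x, f1 x * f2 x = a⁻¹ * i1 x - b⁻¹ * i2 x := by
      intro x
      simp only [f1, f2]
      have e1 := hi12 x
      have e2 := hi13 x
      have e3 := hi23 x
      have e4 := hi11 x
      have e5 := hi22 x
      linear_combination a⁻¹ * e4 + (a⁻¹ - b⁻¹) * e1 - b⁻¹ * e5 - a⁻¹ * ((a + b) / c) * e2 + b⁻¹ * ((a + b) / c) * e3
    rw [Finset.sum_congr rfl (fun x _ => this x)]
    exact hs1
  have hp1 : 0 < ∑ x, f1 x * f1 x := by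
    have : ∀ x, f1 x * f1 x = a⁻¹ ^ 2 * i1 x + b⁻¹ ^ 2 * i2 x := by
      intro x
      simp only [f1]
      linear_combination a⁻¹ ^ 2 * (hi11 x) + b⁻¹ ^ 2 * (hi22 x) - 2 * a⁻¹ * b⁻¹ * (hi12 x)
    rw [Finset.sum_congr rfl (fun x _ => this x), Finset.sum_add_distrib, ← Finset.mul_sum, ← Finset.mul_sum, hi1, hi2]
    positivity
  have hp2 : 0 < ∑ x, f2 x * f2 x := by
    have : ∀ x, f2 x * f2 x = i1 x + i2 x + ((a + b) / c) ^ 2 * i3 x := by
      intro x
      simp only [f2]
      linear_combination (hi11 x) + (hi22 x) + 2 * (hi12 x) + ((a + b) / c) ^ 2 * (hi33 x)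
        - 2 * ((a + b) / c) * (hi13 x) - 2 * ((a + b) / c) * (hi23 x)
    rw [Finset.sum_congr rfl (fun x _ => this x), Finset.sum_add_distrib, Finset.sum_add_distrib, ← Finset.mul_sum, hi1, hi2, hi3]
    positivity
  have hn3 : 3 ≤ Fintype.card Ω := by
    have h4 : Nat.card (MulAction.orbitRel.Quotient H Ω) ≤ Nat.card Ω :=
      Nat.card_le_card_of_surjective π Quotient.mk''_surjective
    rw [Nat.card_eq_fintype_card (α := Ω)] at h4
    omega
  exact key H h2 hidx' hn3 f1 f2 hinv1 hinv2 hs1 hs2 hs12 hp1 hp2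

end Cfsg.Agent.S3704
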