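import Cfsg.Statements.S3733
import Cfsg.Agent.H23.Coprime5

set_option autoImplicit false
open Cfsg

namespace Cfsg.Agent.S3733

section aux
open Subgroup
open scoped Pointwise

theorem aux {G : Type*} [Group G] [Finite G] (A V : Subgroup G) (hVab : IsMulCommutative V) (hV : V ≠ ⊥) (hAV : A ≤ Subgroup.normalizer (V : Set G)) (𝒜 : Finset (Subgroup G)) (hne : 𝒜.Nonempty) (hprop : ∀ B ∈ 𝒜, B < A) (hpart : ∀ a ∈ A, a ≠ 1 → ∃! B, B ∈ 𝒜 ∧ a ∈ B) (hk : (𝒜.card - 1).Coprime (Nat.card V)) : ∃ B ∈ 𝒜, V ⊓ Subgroup.centralizer (B : Set G) ≠ ⊥ := by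
  classical
  haveI : Fintype G := Fintype.ofFinite G
  letI : CommGroup V := { (inferInstance : Group V) with mul_comm := hVab.is_comm.comm }
  by_contra hcon
  push Not at hcon
  -- the norm function
  let f : V → G → V := fun v a => if h : a ∈ A then ⟨a * v * a⁻¹, H23.mem_normalizer_conj hAV h v.2⟩ else 1
  have hf : ∀ v a, a ∈ A → (f v a : G) = a * v * a⁻¹ := by
    intro v a ha; simp only [f, dif_pos ha]
  let ν : V → Subgroup G → V := fun v B => ∏ a ∈ (Finset.univ.filter (fun a => a ∈ B)), f v a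
  have hν : ∀ (v : V) (B : Subgroup G), B ≤ A → ((ν v B : V) : G) ∈ V ⊓ Subgroup.centralizer (B : Set G) := by
    intro v B hB
    refine mem_inf.mpr ⟨(ν v B).2, ?_⟩
    rw [mem_centralizer_iff]
    intro b hb
    -- conjugation by b
    let cb : V →* V :=
      { toFun := fun g => ⟨b * g * b⁻¹, H23.mem_normalizer_conj hAV (hB hb) g.2⟩
        map_one' := by apply Subtype.ext; simp
        map_mul' := by intro g h; apply Subtype.ext; simp [mul_assoc] }
    have h1 : cb (ν v B) = ν v B := by
      show cb (∏ a ∈ (Finset.univ.filter (fun a => a ∈ B)), f v a) = _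
      rw [map_prod]
      refine Finset.prod_bij (fun a _ => b * a) ?_ ?_ ?_ ?_
      · intro a ha
        simp only [Finset.mem_filter, Finset.mem_univ, true_and] at ha ⊢
        exact mul_mem hb ha
      · intro a _ a' _ h; exact mul_left_cancel h
      · intro c hc
        simp only [Finset.mem_filter, Finset.mem_univ, true_and] at hc
        exact ⟨b⁻¹ * c, by simp only [Finset.mem_filter, Finset.mem_univ, true_and]; exact mul_mem (inv_mem hb) hc, by group⟩
      · intro a ha
        simp only [Finset.mem_filter, Finset.mem_univ, true_and] at ha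
        apply Subtype.ext
        show b * (f v a : G) * b⁻¹ = f v (b * a)
        rw [hf v a (hB ha), hf v (b * a) (hB (mul_mem hb ha))]
        group
    have h2 : b * ((ν v B : V) : G) * b⁻¹ = (ν v B : V) := congrArg Subtype.val h1
    calc b * ((ν v B : V) : G) = (b * ((ν v B : V) : G) * b⁻¹) * b := by group
      _ = ((ν v B : V) : G) * b := by rw [h2]
  have hνB : ∀ (v : V), ∀ B ∈ 𝒜, ν v B = 1 := by
    intro v B hB
    have h1 := hν v B (hprop B hB).le
    rw [hcon B hB, mem_bot] at h1
    exact Subtype.ext h1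
  have hνA : ∀ (v : V), ν v A = 1 := by
    intro v
    obtain ⟨B, hB⟩ := hne
    have h1 := hν v A le_rfl
    have h2 : ((ν v A : V) : G) ∈ V ⊓ Subgroup.centralizer (B : Set G) :=
      mem_inf.mpr ⟨(mem_inf.mp h1).1, centralizer_le (hprop B hB).le (mem_inf.mp h1).2⟩
    rw [hcon B hB, mem_bot] at h2
    exact Subtype.ext h2
  have hsplit : ∀ (v : V) (B : Subgroup G), B ≤ A →
      ν v B = v * ∏ a ∈ (Finset.univ.filter (fun a => a ∈ B ∧ a ≠ 1)), f v a := by
    intro v B hB
    have h1 : (Finset.univ.filter (fun a => a ∈ B)) =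
        insert 1 (Finset.univ.filter (fun a => a ∈ B ∧ a ≠ 1)) := by
      ext a
      simp only [Finset.mem_filter, Finset.mem_univ, true_and, Finset.mem_insert]
      constructor
      · intro h
        by_cases ha : a = 1
        · exact Or.inl ha
        · exact Or.inr ⟨h, ha⟩
      · rintro (rfl | h)
        · exact one_mem B
        · exact h.1
    show ∏ a ∈ (Finset.univ.filter (fun a => a ∈ B)), f v a = _
    rw [h1, Finset.prod_insert (by simp)]
    congr 1
    apply Subtype.ext
    rw [hf v 1 (one_mem A)]; simp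
  have hkey : ∀ v : V, v ^ (𝒜.card - 1) = 1 := by
    intro v
    have h1 : ∏ B ∈ 𝒜, ν v B = 1 := Finset.prod_eq_one fun B hB => hνB v B hB
    have h2 : ∏ B ∈ 𝒜, ν v B = v ^ 𝒜.card *
        ∏ B ∈ 𝒜, ∏ a ∈ (Finset.univ.filter (fun a => a ∈ B ∧ a ≠ 1)), f v a := by
      rw [Finset.prod_congr rfl fun B hB => hsplit v B (hprop B hB).le, Finset.prod_mul_distrib,
        Finset.prod_const]
    have h3 : ∏ B ∈ 𝒜, ∏ a ∈ (Finset.univ.filter (fun a => a ∈ B ∧ a ≠ 1)), f v a =
        ∏ a ∈ (Finset.univ.filter (fun a => a ∈ A ∧ a ≠ 1)), f v a := by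
      rw [← Finset.prod_biUnion]
      · apply Finset.prod_congr _ fun _ _ => rfl
        ext a
        simp only [Finset.mem_biUnion, Finset.mem_filter, Finset.mem_univ, true_and]
        constructor
        · rintro ⟨B, hB, haB, ha⟩
          exact ⟨(hprop B hB).le haB, ha⟩
        · rintro ⟨haA, ha⟩
          obtain ⟨B, ⟨hB, haB⟩, -⟩ := hpart a haA ha
          exact ⟨B, hB, haB, ha⟩
      · intro B hB C hC hBC
        rw [Function.onFun, Finset.disjoint_left]
        intro a ha ha'
        simp only [Finset.mem_filter, Finset.mem_univ, true_and] at ha ha'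
        exact hBC ((hpart a ((hprop B hB).le ha.1) ha.2).unique ⟨hB, ha.1⟩ ⟨hC, ha'.1⟩)
    have h4 := hνA v
    rw [hsplit v A le_rfl] at h4
    rw [h2, h3] at h1
    have h5 : 𝒜.card = (𝒜.card - 1) + 1 := (Nat.succ_pred_eq_of_pos hne.card_pos).symm
    rw [h5, pow_succ, mul_assoc, h4, mul_one] at h1
    exact h1
  apply hV
  rw [eq_bot_iff]
  intro x hx
  have h1 := hkey ⟨x, hx⟩
  have h2 : (⟨x, hx⟩ : V) ^ (Nat.card V) = 1 := pow_card_eq_one'
  have h3 : orderOf (⟨x, hx⟩ : V) ∣ 1 := by
    have := Nat.dvd_gcd (orderOf_dvd_of_pow_eq_one h1) (orderOf_dvd_of_pow_eq_one h2)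
    rwa [hk] at this
  have h4 : (⟨x, hx⟩ : V) = 1 := orderOf_eq_one_iff.mp (Nat.dvd_one.mp h3)
  exact mem_bot.mpr (congrArg Subtype.val h4)

end aux

/-- Let A and V be subgroups of a finite group with V abelian and nontrivial and A normalizing V. Suppose a nonempty finite family of proper subgroups of A partitions A: every non-identity element of A lies in exactly one member. If the number of members minus one is coprime to the order of V, then some member B of the family has a non-identity fixed point on V, that is V ∩ C(B) ≠ 1. -/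
theorem result {G : Type*} [Group G] [Finite G] (A V : Subgroup G) (hVab : IsMulCommutative V) (hV : V ≠ ⊥) (hAV : A ≤ Subgroup.normalizer (V : Set G)) (𝒜 : Finset (Subgroup G)) (hne : 𝒜.Nonempty) (hprop : ∀ B ∈ 𝒜, B < A) (hpart : ∀ a ∈ A, a ≠ 1 → ∃! B, B ∈ 𝒜 ∧ a ∈ B) (hk : (𝒜.card - 1).Coprime (Nat.card V)) : ∃ B ∈ 𝒜, V ⊓ Subgroup.centralizer (B : Set G) ≠ ⊥ := by
  exact aux A V hVab hV hAV 𝒜 hne hprop hpart hk

end Cfsg.Agent.S3733
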