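import Cfsg.Statements.S3735
import Cfsg.Agent.H23.Coprime5

set_option autoImplicit false
set_option linter.all false
open Cfsg

namespace Cfsg.Agent.S3735

section aux
open Subgroup
open scoped Pointwise commutatorElement

/-- minimal nontrivial `A`-invariant subgroups of `V` -/
def Mn {G : Type*} [Group G] (A V X : Subgroup G) : Prop :=
  X ≤ V ∧ A ≤ normalizer (X : Set G) ∧ X ≠ ⊥ ∧
    ∀ Y : Subgroup G, Y ≤ X → A ≤ normalizer (Y : Set G) → Y = ⊥ ∨ Y = X

theorem exists_mn {G : Type*} [Group G] [Finite G] {A V W : Subgroup G} (hWV : W ≤ V)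
    (hA : A ≤ normalizer (W : Set G)) (hW : W ≠ ⊥) : ∃ X, Mn A V X ∧ X ≤ W := by
  obtain ⟨X, hX⟩ := (Set.toFinite {X : Subgroup G | X ≤ W ∧ A ≤ normalizer (X : Set G) ∧ X ≠ ⊥}).exists_minimal
    ⟨W, le_rfl, hA, hW⟩
  obtain ⟨h1, h2, h3⟩ := hX.prop
  refine ⟨X, ⟨h1.trans hWV, h2, h3, fun Y hYX hAY => ?_⟩, h1⟩
  by_cases h : Y = ⊥
  · exact Or.inl h
  · right
    exact le_antisymm hYX (hX.le_of_le ⟨hYX.trans h1, hAY, h⟩ hYX)

theorem inv_sup {G : Type*} [Group G] {A X Y : Subgroup G} (hX : A ≤ normalizer (X : Set G))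
    (hY : A ≤ normalizer (Y : Set G)) : A ≤ normalizer ((X ⊔ Y : Subgroup G) : Set G) := by
  intro a ha
  rw [H1.mem_normalizer_iff_conj_smul, H1.conj_smul_sup,
    H1.mem_normalizer_iff_conj_smul.mp (hX ha), H1.mem_normalizer_iff_conj_smul.mp (hY ha)]

theorem inv_inf {G : Type*} [Group G] {A X Y : Subgroup G} (hX : A ≤ normalizer (X : Set G))
    (hY : A ≤ normalizer (Y : Set G)) : A ≤ normalizer ((X ⊓ Y : Subgroup G) : Set G) := by
  intro a ha
  rw [H1.mem_normalizer_iff_conj_smul, H1.conj_smul_inf,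
    H1.mem_normalizer_iff_conj_smul.mp (hX ha), H1.mem_normalizer_iff_conj_smul.mp (hY ha)]

theorem aux {G : Type*} [Group G] [Finite G] (H A V : Subgroup G) (hVab : IsMulCommutative V) (hHV : H ≤ Subgroup.normalizer (V : Set G)) (hAH : A ≤ H) (hAn : H ≤ Subgroup.normalizer (A : Set G)) (hss : ∀ U : Subgroup G, U ≤ V → H ≤ Subgroup.normalizer (U : Set G) → ∃ W : Subgroup G, W ≤ V ∧ H ≤ Subgroup.normalizer (W : Set G) ∧ U ⊓ W = ⊥ ∧ U ⊔ W = V) (U : Subgroup G) (hUV : U ≤ V) (hAU : A ≤ Subgroup.normalizer (U : Set G)) : ∃ W : Subgroup G, W ≤ V ∧ A ≤ Subgroup.normalizer (W : Set G) ∧ U ⊓ W = ⊥ ∧ U ⊔ W = V := by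
  -- the socle
  set S : Subgroup G := sSup {X | Mn A V X} with hS
  have hSV : S ≤ V := sSup_le fun X hX => hX.1
  have hHS : H ≤ normalizer (S : Set G) := by
    apply H23.le_normalizer_sSup
    rintro h hh X ⟨h1, h2, h3, h4⟩
    have hVh : MulAut.conj h • V = V := H1.mem_normalizer_iff_conj_smul.mp (hHV hh)
    have hconj : ∀ (g : G), g ∈ H → ∀ Y : Subgroup G, A ≤ normalizer (Y : Set G) →
        A ≤ normalizer ((MulAut.conj g • Y : Subgroup G) : Set G) := by
      intro g hg Y hY a ha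
      rw [H1.mem_normalizer_iff_conj_smul, H1.conj_smul_smul]
      have h5 : g⁻¹ * a * g ∈ A := by
        have := (mem_normalizer_iff.mp (inv_mem (hAn hg)) a).mp ha
        rwa [inv_inv] at this
      calc MulAut.conj (a * g) • Y = MulAut.conj g • (MulAut.conj (g⁻¹ * a * g) • Y) := by
            rw [H1.conj_smul_smul]; congr 2; group
        _ = MulAut.conj g • Y := by rw [H1.mem_normalizer_iff_conj_smul.mp (hY h5)]
    refine ⟨?_, hconj h hh X h2, ?_, ?_⟩
    · rw [← hVh]; exact H1.conj_smul_le_conj_smul_iff.mpr h1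
    · intro h5
      apply h3
      rw [← Subgroup.card_eq_one, ← H1.card_conj_smul h X, h5, Subgroup.card_bot]
    · intro Y hYX hAY
      have h6 : MulAut.conj h⁻¹ • Y ≤ X := by
        rw [← H1.conj_smul_le_conj_smul_iff (g := h), H1.conj_smul_smul, mul_inv_cancel,
          H1.conj_one_smul]
        exact hYX
      have h7 : MulAut.conj h • (MulAut.conj h⁻¹ • Y) = Y := by
        rw [H1.conj_smul_smul, mul_inv_cancel, H1.conj_one_smul]
      rcases h4 _ h6 (hconj h⁻¹ (inv_mem hh) Y hAY) with h8 | h8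
      · left
        rw [← Subgroup.card_eq_one, ← H1.card_conj_smul h⁻¹ Y, h8, Subgroup.card_bot]
      · right
        rw [← h7, h8]
  obtain ⟨W, hWV, hHW, hSW, hSWV⟩ := hss S hSV hHS
  have hW : W = ⊥ := by
    by_contra hne
    obtain ⟨X, hX, hXW⟩ := exists_mn hWV (hAH.trans hHW) hne
    have h1 : X ≤ S := le_sSup hX
    have h2 : X ≤ S ⊓ W := le_inf h1 hXW
    rw [hSW, le_bot_iff] at h2
    exact hX.2.2.1 h2
  have hSeq : S = V := by rw [← hSWV, hW, sup_bot_eq]
  -- maximal `A`-invariant subgroup meeting `U` trivially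
  obtain ⟨T, hT⟩ := (Set.toFinite {T : Subgroup G | T ≤ V ∧ A ≤ normalizer (T : Set G) ∧ U ⊓ T = ⊥}).exists_maximal
    ⟨⊥, bot_le, by rw [normalizer_eq_top]; exact le_top, inf_bot_eq _⟩
  obtain ⟨hTV, hAT, hUT⟩ := hT.prop
  refine ⟨T, hTV, hAT, hUT, ?_⟩
  apply le_antisymm (sup_le hUV hTV)
  rw [← hSeq]
  apply sSup_le
  intro X hX
  by_contra hXn
  have hVc : V ≤ centralizer (V : Set G) := Subgroup.le_centralizer_iff_isMulCommutative.mpr hVab
  have hnorm : ∀ Y Z : Subgroup G, Y ≤ V → Z ≤ V → Y ≤ normalizer (Z : Set G) := by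
    intro Y Z hY hZ
    exact (hY.trans (hVc.trans (centralizer_le hZ))).trans (centralizer_le_normalizer _)
  have h1 : X ⊓ (U ⊔ T) = ⊥ := by
    rcases hX.2.2.2 (X ⊓ (U ⊔ T)) inf_le_left (inv_inf hX.2.1 (inv_sup hAU hAT)) with h | h
    · exact h
    · exact absurd (inf_eq_left.mp h) hXn
  have h2 : T ⊔ X ≤ T := by
    apply hT.le_of_ge _ le_sup_left
    refine ⟨sup_le hTV hX.1, inv_sup hAT hX.2.1, ?_⟩
    rw [eq_bot_iff]
    intro u hu
    obtain ⟨huU, huTX⟩ := mem_inf.mp hu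
    rw [H23.mem_sup_iff_of_le_normalizer (hnorm X T hX.1 hTV)] at huTX
    obtain ⟨t, ht, x, hx, htx⟩ := huTX
    have h3 : x ∈ X ⊓ (U ⊔ T) := by
      refine mem_inf.mpr ⟨hx, ?_⟩
      have : x = t⁻¹ * u := by rw [← htx]; group
      rw [this]
      exact mul_mem (mem_sup_right (inv_mem ht)) (mem_sup_left huU)
    rw [h1, mem_bot] at h3
    rw [h3, mul_one] at htx
    rw [← htx] at huU ⊢
    rw [← hUT]
    exact mem_inf.mpr ⟨huU, ht⟩
  apply hXn
  exact (le_sup_right.trans h2).trans le_sup_right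

end aux

/-- Clifford's Theorem for actions on finite abelian groups, first part. Let H and V be subgroups of a finite group with V abelian and H normalizing V, and let A be a normal subgroup of H. If every H-invariant subgroup of V has an H-invariant complement in V, then every A-invariant subgroup of V has an A-invariant complement in V. -/
theorem result {G : Type*} [Group G] [Finite G] (H A V : Subgroup G) (hVab : IsMulCommutative V) (hHV : H ≤ Subgroup.normalizer (V : Set G)) (hAH : A ≤ H) (hAn : H ≤ Subgroup.normalizer (A : Set G)) (hss : ∀ U : Subgroup G, U ≤ V → H ≤ Subgroup.normalizer (U : Set G) → ∃ W : Subgroup G, W ≤ V ∧ H ≤ Subgroup.normalizer (W : Set G) ∧ U ⊓ W = ⊥ ∧ U ⊔ W = V) (U : Subgroup G) (hUV : U ≤ V) (hAU : A ≤ Subgroup.normalizer (U : Set G)) : ∃ W : Subgroup G, W ≤ V ∧ A ≤ Subgroup.normalizer (W : Set G) ∧ U ⊓ W = ⊥ ∧ U ⊔ W = V := by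
  exact aux H A V hVab hHV hAH hAn hss U hUV hAU

end Cfsg.Agent.S3735
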