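import Cfsg.Statements.S3738
import Cfsg.Agent.H23.SqCount
import Cfsg.Agent.H3.Frob
import Cfsg.Agent.S0094
import Cfsg.Agent.H23.HHRed

set_option autoImplicit false
set_option linter.all false
open Cfsg

namespace Cfsg.Agent.S3738

open Subgroup Cfsg.Agent.H23
open scoped commutatorElement

theorem rank_apply {X : Type*} [Group X] [Finite X] {V : Subgroup X} (hV : IsMulCommutative V) (h : Cfsg.PRankLE 2 2 V)
    (h2 : ∀ a ∈ V, a ^ 2 = 1) : Nat.card V ≤ 4 := by
  have h1 := h ⊤ ⟨⟨fun a b => Subtype.ext (hV.is_comm.comm a.1 b.1)⟩⟩ (fun a _ => Subtype.ext (by simpa using h2 a a.2))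
  rw [Nat.card_congr (topEquiv (G := V)).toEquiv] at h1
  exact h1

/-- nontrivial elements of a cyclic group of order `3 ^ n` generate the subgroup of order three -/
theorem mem_of_ne_one {X : Type*} [Group X] [Finite X] {d : X} {n : ℕ} (hn : 1 ≤ n) (hd : orderOf d = 3 ^ n) {g : X}
    (hg : g ∈ zpowers d) (hg1 : g ≠ 1) : d ^ (3 ^ (n - 1)) ∈ zpowers g := by
  have h3 : Nat.Prime 3 := by norm_num
  -- an element of order 3 in zpowers g
  have hgo : orderOf g ∣ 3 ^ n := by rw [← hd]; exact orderOf_dvd_of_mem_zpowers hg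
  obtain ⟨j, hj, hgj⟩ := (Nat.dvd_prime_pow h3).mp hgo
  have hj1 : 1 ≤ j := by
    rcases Nat.eq_zero_or_pos j with h | h
    · rw [h, pow_zero, orderOf_eq_one_iff] at hgj
      exact absurd hgj hg1
    · exact h
  set s := g ^ (3 ^ (j - 1)) with hs
  have hso : orderOf s = 3 := by
    rw [hs, orderOf_pow_of_dvd (by positivity) (by rw [hgj]; exact pow_dvd_pow 3 (by omega)), hgj]
    obtain ⟨i, rfl⟩ := Nat.exists_eq_add_of_le hj1
    rw [show 1 + i - 1 = i by omega, pow_add, pow_one, Nat.mul_div_cancel _ (by positivity)]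
  have hsd : s ∈ zpowers d := pow_mem hg _
  obtain ⟨i, hi⟩ := mem_zpowers_iff.mp hsd
  have hd3 : d ^ (3 * i) = 1 := by
    rw [mul_comm, zpow_mul, hi]
    exact_mod_cast (by rw [← hso]; exact pow_orderOf_eq_one s : s ^ 3 = 1)
  have hdiv : (3 : ℤ) ^ (n - 1) ∣ i := by
    rw [← orderOf_dvd_iff_zpow_eq_one, hd] at hd3
    obtain ⟨m, rfl⟩ := Nat.exists_eq_add_of_le hn
    rw [show 1 + m - 1 = m by omega]
    push_cast at hd3
    rw [pow_add, pow_one] at hd3
    exact (mul_dvd_mul_iff_left (by norm_num : (3 : ℤ) ≠ 0)).mp hd3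
  obtain ⟨c, hc⟩ := hdiv
  have h4 : s ∈ zpowers (d ^ (3 ^ (n - 1))) := by
    refine mem_zpowers_iff.mpr ⟨c, ?_⟩
    rw [← hi, hc, zpow_mul]
    congr 1
    rw [← zpow_natCast]
    push_cast
    rfl
  have ht : orderOf (d ^ (3 ^ (n - 1))) = 3 := by
    rw [orderOf_pow_of_dvd (by positivity) (by rw [hd]; exact pow_dvd_pow 3 (by omega)), hd]
    obtain ⟨i, rfl⟩ := Nat.exists_eq_add_of_le hn
    rw [show 1 + i - 1 = i by omega, pow_add, pow_one, Nat.mul_div_cancel _ (by positivity)]
  have h5 : zpowers s = zpowers (d ^ (3 ^ (n - 1))) := by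
    apply eq_of_le_of_card_ge (zpowers_le.mpr h4)
    rw [Nat.card_zpowers, Nat.card_zpowers, hso, ht]
  have h6 : zpowers s ≤ zpowers g := zpowers_le.mpr (pow_mem (mem_zpowers g) _)
  exact h6 (by rw [h5]; exact mem_zpowers _)

/-- conjugation action on the complement of an invariant subset -/
@[reducible] def cact {X : Type*} [Group X] (D Q U : Subgroup X) (hQ : D ≤ normalizer (Q : Set X))
    (hU : D ≤ normalizer (U : Set X)) : MulAction D {x : X // x ∈ Q ∧ x ∉ U} where
  smul g x := ⟨g * x * (g : X)⁻¹, (mem_normalizer_iff.mp (hQ g.2) x).mp x.2.1,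
    fun h => x.2.2 ((mem_normalizer_iff.mp (hU g.2) x).mpr h)⟩
  one_smul x := Subtype.ext (by change ((1 : D) : X) * x * ((1 : D) : X)⁻¹ = x; simp)
  mul_smul g h x := Subtype.ext (by
    change ((g * h : D) : X) * x * ((g * h : D) : X)⁻¹ = g * (h * x * (h : X)⁻¹) * (g : X)⁻¹
    rw [coe_mul]; group)

theorem card_dvd {X : Type*} [Group X] [Finite X] {D Q U : Subgroup X} (hUQ : U ≤ Q) (hQ : D ≤ normalizer (Q : Set X))
    (hU : D ≤ normalizer (U : Set X)) (hfree : ∀ x ∈ Q, x ∉ U → ∀ g ∈ D, g * x = x * g → g = 1) :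
    Nat.card D ∣ Nat.card Q - Nat.card U := by
  classical
  letI := cact D Q U hQ hU
  have h1 := H3.index_dvd_card_of_stabilizer_le (G := D) (X := {x : X // x ∈ Q ∧ x ∉ U}) ⊥ (by
    intro x g hg
    have h2 : (g : X) * x * (g : X)⁻¹ = x := congrArg Subtype.val hg
    rw [mul_inv_eq_iff_eq_mul] at h2
    rw [mem_bot]
    exact Subtype.ext (hfree x x.2.1 x.2.2 g g.2 h2))
  rw [index_bot] at h1
  have h3 : Nat.card {x : X // x ∈ Q ∧ x ∉ U} = Nat.card Q - Nat.card U := by
    have h4 : Nat.card {x : X // x ∈ Q ∧ x ∉ U} = ((Q : Set X) \ (U : Set X)).ncard := by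
      rw [← Nat.card_coe_set_eq]; rfl
    rw [h4, Set.ncard_diff hUQ (Set.toFinite _)]
    rfl
  rwa [h3] at h1

/-- Let d be a non-identity 3-element of a finite group and P a 2-subgroup normalized by d on which ⟨d⟩ acts faithfully (no non-identity power of d centralizes P) and without non-identity fixed points (C_P(d) = 1). If every abelian subgroup of P has 2-rank at most 2, then d has order 3. -/
theorem result {X : Type*} [Group X] [Finite X] (d : X) (n : ℕ) (hn : 1 ≤ n) (hd : orderOf d = 3 ^ n) (P : Subgroup X) (hP : IsPGroup 2 P) (hdP : d ∈ Subgroup.normalizer (P : Set X)) (hfaith : Subgroup.zpowers d ⊓ Subgroup.centralizer (P : Set X) = ⊥) (hfpf : P ⊓ Subgroup.centralizer {d} = ⊥) (hrank : ∀ V : Subgroup X, V ≤ P → IsMulCommutative V → Cfsg.PRankLE 2 2 V) : orderOf d = 3 := by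
  classical
  haveI : Fact (Nat.Prime 2) := ⟨Nat.prime_two⟩
  haveI : Fact (Nat.Prime 3) := ⟨Nat.prime_three⟩
  by_contra hne
  have hn2 : 2 ≤ n := by
    rcases Nat.lt_or_ge n 2 with h | h
    · have : n = 1 := by omega
      rw [this, pow_one] at hd
      exact absurd hd hne
    · exact h
  set D := zpowers d with hD
  set t := d ^ (3 ^ (n - 1)) with ht
  set T := zpowers t with hT
  have htD : t ∈ D := pow_mem (mem_zpowers d) _
  have hTD : T ≤ D := zpowers_le.mpr htD
  have hDP : D ≤ normalizer (P : Set X) := zpowers_le.mpr hdP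
  have hDcomm : ∀ a ∈ D, ∀ b ∈ D, a * b = b * a := by
    intro a ha b hb
    obtain ⟨i, rfl⟩ := mem_zpowers_iff.mp ha
    obtain ⟨j, rfl⟩ := mem_zpowers_iff.mp hb
    exact ((Commute.refl d).zpow_zpow i j).eq
  have hDT : D ≤ normalizer (T : Set X) := by
    apply le_normalizer_of_conj_mem
    intro a ha g hg
    rw [hDcomm a ha g (hTD hg), mul_assoc, mul_inv_cancel, mul_one]
    exact hg
  have hDc : Nat.card D = 3 ^ n := by rw [Nat.card_zpowers, hd]
  have hto : orderOf t = 3 := by
    rw [ht, orderOf_pow_of_dvd (by positivity) (by rw [hd]; exact pow_dvd_pow 3 (by omega)), hd]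
    obtain ⟨i, rfl⟩ := Nat.exists_eq_add_of_le hn
    rw [show 1 + i - 1 = i by omega, pow_add, pow_one, Nat.mul_div_cancel _ (by positivity)]
  have hTc : (Nat.card T).Coprime 2 := by rw [Nat.card_zpowers, hto]; norm_num
  have hPT : ⁅P, T⁆ ≠ ⊥ := by
    intro h
    rw [commutator_eq_bot_iff_le_centralizer] at h
    have h1 : t ∈ D ⊓ centralizer (P : Set X) := ⟨htD, (le_centralizer_iff.mp h) (mem_zpowers t)⟩
    rw [hfaith, mem_bot] at h1
    rw [h1, orderOf_one] at hto
    norm_num at hto
  obtain ⟨Q, ⟨hQP, hDQ, hQT⟩, hmin⟩ := Set.exists_min_image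
    {U : Subgroup X | U ≤ P ∧ D ≤ normalizer (U : Set X) ∧ ⁅U, T⁆ ≠ ⊥} (fun U => Nat.card U) (Set.toFinite _)
    ⟨P, le_rfl, hDP, hPT⟩
  have hQp : IsPGroup 2 Q := hP.to_le hQP
  have hmin' : ∀ U : Subgroup X, U < Q → D ≤ normalizer (U : Set X) → ⁅U, T⁆ = ⊥ := by
    intro U hU hDU
    by_contra hcon
    have h1 := hmin U ⟨hU.le.trans hQP, hDU, hcon⟩
    exact absurd (H1.card_lt_of_lt' hU) (not_lt.mpr h1)
  obtain ⟨hQeq, hcase, hirr, _⟩ := hall_higman_reduction (p := 2) D T Q hQp hDQ hTD hDT hTc hQT hmin'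
  set U := Q ⊓ centralizer (T : Set X) with hU
  have hDU : D ≤ normalizer (U : Set X) := by
    apply le_normalizer_of_conj_mem
    intro a ha g hg
    have h1 : a ∈ centralizer (T : Set X) := mem_centralizer_iff.mpr fun b hb => hDcomm b (hTD hb) a ha
    exact mem_inf.mpr ⟨(mem_normalizer_iff.mp (hDQ ha) g).mp hg.1, mul_mem (mul_mem h1 hg.2) (inv_mem h1)⟩
  have hUQ : U ≠ Q := by
    intro h
    apply hQT
    rw [commutator_eq_bot_iff_le_centralizer, ← h]
    exact inf_le_right
  have hfree : ∀ x ∈ Q, x ∉ U → ∀ g ∈ D, g * x = x * g → g = 1 := by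
    intro x hx hxU g hg hgx
    by_contra hg1
    apply hxU
    refine mem_inf.mpr ⟨hx, ?_⟩
    have h1 := mem_of_ne_one hn hd hg hg1
    have h2 : T ≤ zpowers g := zpowers_le.mpr h1
    rw [mem_centralizer_iff]
    intro y hy
    obtain ⟨k, rfl⟩ := mem_zpowers_iff.mp (h2 hy)
    have h3 : Commute g x := hgx
    exact (h3.zpow_left k).eq
  have hdvd := card_dvd inf_le_left hDQ hDU hfree
  have h9 : 9 ∣ Nat.card Q - Nat.card U := by
    refine dvd_trans ?_ hdvd
    rw [hDc]
    exact pow_dvd_pow 3 hn2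
  have hlt : Nat.card U < Nat.card Q := H1.card_lt_of_lt' (lt_of_le_of_ne inf_le_left hUQ)
  rcases hcase with hel | hsp
  · have h1 := rank_apply hel.1 (hrank Q hQP hel.1) hel.2
    have h2 : 0 < Nat.card U := Nat.card_pos
    have h3 := Nat.le_of_dvd (by omega) h9
    omega
  · -- special
    obtain ⟨_, hfrat, hder⟩ := hsp
    set Z := (center Q).map Q.subtype with hZ
    have hZQ : Z ≤ Q := map_subtype_le _
    have hQnt : Nontrivial Q := by
      apply (Subgroup.nontrivial_iff_ne_bot Q).mpr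
      intro h
      apply hQT
      rw [h]
      exact commutator_bot_left _
    have hZneQ : center Q ≠ ⊤ := by
      intro h
      have h1 : commutator Q = ⊥ := by
        rw [eq_bot_iff, commutator_def, commutator_le]
        intro a _ b _
        rw [mem_bot, commutatorElement_eq_one_iff_mul_comm]
        have h2 : a ∈ center Q := by rw [h]; exact mem_top a
        exact (mem_center_iff.mp h2 b).symm
      rw [hder, h] at h1
      exact top_ne_bot h1
    have hΦn : D ≤ normalizer (((frattini Q).map Q.subtype : Subgroup X) : Set X) :=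
      hDQ.trans (normalizer_le_normalizer_map (frattini Q))
    have hΦlt : (frattini Q).map Q.subtype < Q := by
      refine lt_of_le_of_ne (map_subtype_le _) ?_
      intro h
      apply hZneQ
      rw [← hfrat, eq_top_iff]
      intro x _
      have h1 : (x : X) ∈ (frattini Q).map Q.subtype := by rw [h]; exact x.2
      obtain ⟨y, hy, hyx⟩ := h1
      rwa [Subtype.ext hyx] at hy
    have hΦU : (frattini Q).map Q.subtype ≤ U := by
      refine le_inf hΦlt.le ?_
      rw [← commutator_eq_bot_iff_le_centralizer]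
      exact hmin' _ hΦlt hΦn
    have hUZ : U = Z := by
      rcases hirr U hΦU inf_le_left hDU with h | h
      · rw [h, hfrat]
      · exact absurd h hUQ
    have hexp : ∀ z ∈ center Q, z ^ 2 = 1 := fun z hz => S0094.result (p := 2) ⟨hQp, hfrat, hder⟩ z hz
    have hZcard : Nat.card Z = Nat.card (center Q) := H1.card_map_subtype _
    have hZcomm : IsMulCommutative Z := by
      refine ⟨⟨?_⟩⟩
      rintro ⟨_, a, ha, rfl⟩ ⟨_, b, hb, rfl⟩
      apply Subtype.ext
      change (a : X) * b = b * a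
      exact congrArg Subtype.val (mem_center_iff.mp hb a)
    have hZ4 : Nat.card Z ≤ 4 := rank_apply hZcomm (hrank Z (hZQ.trans hQP) hZcomm) (by
      rintro _ ⟨a, ha, rfl⟩
      exact congrArg Subtype.val (hexp a ha))
    haveI hcn : Nontrivial (center Q) := IsPGroup.center_nontrivial hQp
    have hZ1 : 1 < Nat.card Z := by
      rw [hZcard]
      exact Finite.one_lt_card
    have hZne2 : Nat.card Z ≠ 2 := by
      intro h2
      obtain ⟨z, hz⟩ := exists_ne (1 : center Q)
      have hz1 : ((z : Q) : X) ≠ 1 := fun h => hz (Subtype.ext (Subtype.ext h))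
      have hzZ : ((z : Q) : X) ∈ Z := ⟨z, z.2, rfl⟩
      have hDZ : D ≤ normalizer (Z : Set X) := hDQ.trans (normalizer_le_normalizer_map (center Q))
      have h3 : d * ((z : Q) : X) * d⁻¹ ∈ Z := (mem_normalizer_iff.mp (hDZ (mem_zpowers d)) _).mp hzZ
      have h4 : ∀ a ∈ Z, a ≠ 1 → a = ((z : Q) : X) := by
        intro a ha ha1
        have h5 : Nat.card (zpowers a) = 2 := by
          rw [Nat.card_zpowers]
          obtain ⟨b, hb, rfl⟩ := ha
          exact orderOf_eq_prime (congrArg Subtype.val (hexp b hb)) ha1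
        have h6 : zpowers a = Z := eq_of_le_of_card_ge (zpowers_le.mpr ha) (by rw [h2, h5])
        have h7 : ((z : Q) : X) ∈ zpowers a := by rw [h6]; exact hzZ
        obtain ⟨k, hk⟩ := mem_zpowers_iff.mp h7
        have ha2 : a ^ (2 : ℤ) = 1 := by
          obtain ⟨b, hb, rfl⟩ := ha
          have h8 : (Q.subtype b) ^ 2 = 1 := congrArg Subtype.val (hexp b hb)
          rw [show (2 : ℤ) = ((2 : ℕ) : ℤ) from rfl, zpow_natCast]
          exact h8
        rcases Int.even_or_odd k with ⟨j, hj⟩ | ⟨j, hj⟩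
        · rw [hj, ← two_mul, zpow_mul, ha2, one_zpow] at hk
          exact absurd hk.symm hz1
        · rw [hj, zpow_add, zpow_mul, ha2, one_zpow, one_mul, zpow_one] at hk
          exact hk
      have h5 : d * ((z : Q) : X) * d⁻¹ = ((z : Q) : X) := by
        apply h4 _ h3
        intro h
        apply hz1
        rwa [mul_inv_eq_one, mul_eq_left] at h
      have h6 : ((z : Q) : X) ∈ P ⊓ centralizer {d} := by
        refine mem_inf.mpr ⟨hQP (z : Q).2, mem_centralizer_singleton_iff.mpr ?_⟩
        rw [mul_inv_eq_iff_eq_mul] at h5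
        exact h5.symm
      rw [hfpf, mem_bot] at h6
      exact hz1 h6
    have hZeq : Nat.card (center Q) = 4 := by
      obtain ⟨j, hj⟩ := (hQp.to_le hZQ).exists_card_eq
      rw [← hZcard]
      have h1 : j < 3 := by
        by_contra hcon
        have := Nat.pow_le_pow_right (show 0 < 2 by norm_num) (not_lt.mp hcon)
        rw [← hj] at this
        norm_num at this
        omega
      interval_cases j
      · omega
      · exact absurd hj hZne2
      · exact hj
    obtain ⟨m, hm⟩ := hQp.exists_card_eq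
    rw [hUZ, hZcard, hZeq, hm] at h9 hlt
    have hm8 : 8 ≤ m := by
      by_contra hcon
      push Not at hcon
      interval_cases m <;> omega
    haveI : Fintype Q := Fintype.ofFinite _
    obtain ⟨x, hxZ, hx2⟩ := exists_sq_eq_one (G := Q)
      (fun x y => by rw [← hder]; exact commutator_mem_commutator (mem_top _) (mem_top _))
      (fun x => by rw [← hfrat]; exact H2.pow_mem_frattini hQp x) hexp hZeq hm8 hm
    set E := center Q ⊔ zpowers x with hE
    have hEm : ∀ a ∈ E, ∃ z ∈ center Q, ∃ k : ℤ, z * x ^ k = a := by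
      intro a ha
      obtain ⟨z, hz, b, hb, rfl⟩ := mem_sup_of_normal_left.mp ha
      obtain ⟨k, rfl⟩ := mem_zpowers_iff.mp hb
      exact ⟨z, hz, k, rfl⟩
    have hEcomm : ∀ a ∈ E, ∀ b ∈ E, a * b = b * a := by
      intro a ha b hb
      obtain ⟨z, hz, k, rfl⟩ := hEm a ha
      obtain ⟨w, hw, l, rfl⟩ := hEm b hb
      have h1 : Commute (z * x ^ k) (w * x ^ l) := by
        apply Commute.mul_left
        · exact (mem_center_iff.mp hz _).symm
        · apply Commute.mul_right
          · exact mem_center_iff.mp hw _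
          · exact (Commute.refl x).zpow_zpow k l
      exact h1.eq
    have hE2 : ∀ a ∈ E, a ^ 2 = 1 := by
      intro a ha
      obtain ⟨z, hz, k, rfl⟩ := hEm a ha
      have h1 : Commute z (x ^ k) := (mem_center_iff.mp hz _).symm
      rw [h1.mul_pow, hexp z hz, one_mul, ← zpow_natCast, ← zpow_mul, mul_comm, zpow_mul]
      have : x ^ ((2 : ℕ) : ℤ) = 1 := by rw [zpow_natCast]; exact hx2
      rw [this, one_zpow]
    have hEX : (E.map Q.subtype) ≤ P := (map_subtype_le _).trans hQP
    have hEXc : IsMulCommutative (E.map Q.subtype) := by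
      refine ⟨⟨?_⟩⟩
      rintro ⟨_, a, ha, rfl⟩ ⟨_, b, hb, rfl⟩
      apply Subtype.ext
      change (a : X) * b = b * a
      exact congrArg Subtype.val (hEcomm a ha b hb)
    have hle := rank_apply hEXc (hrank _ hEX hEXc) (by
      rintro _ ⟨a, ha, rfl⟩
      exact congrArg Subtype.val (hE2 a ha))
    rw [H1.card_map_subtype] at hle
    have h4E : center Q = E := by
      apply eq_of_le_of_card_ge le_sup_left
      rw [hZeq]
      exact hle
    apply hxZ
    rw [h4E]
    exact (le_sup_right : zpowers x ≤ E) (mem_zpowers x)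

end Cfsg.Agent.S3738
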