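import Cfsg.Statements.S3739
import Cfsg.Agent.S3738
import Cfsg.Agent.H23.Coprime4

set_option autoImplicit false
set_option linter.all false
open Cfsg

namespace Cfsg.Agent.S3739

open Subgroup Cfsg.Agent.H23
open scoped commutatorElement

theorem four_elems {G : Type*} [Group G] [Finite G] {Z : Subgroup G} (hZ : Nat.card Z = 4) (h2 : ∀ z ∈ Z, z * z = 1) {z w : G}
    (hz : z ∈ Z) (hw : w ∈ Z) (hz1 : z ≠ 1) (hw1 : w ≠ 1) (hzw : z ≠ w) : ∀ u ∈ Z, u = 1 ∨ u = z ∨ u = w ∨ u = z * w := by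
  classical
  have hzw1 : z * w ≠ 1 := by
    intro h
    apply hzw
    have h3 : z⁻¹ = w := inv_eq_of_mul_eq_one_right h
    rw [← h3, eq_comm, inv_eq_iff_mul_eq_one]
    exact h2 z hz
  have h3 : z * w ≠ z := fun h => hw1 (mul_eq_left.mp h)
  have h4 : z * w ≠ w := fun h => hz1 (mul_eq_right.mp h)
  have hsub : (({1, z, w, z * w} : Finset G) : Set G) ⊆ (Z : Set G) := by
    intro u hu
    simp only [Finset.coe_insert, Finset.coe_singleton, Set.mem_insert_iff, Set.mem_singleton_iff] at hu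
    rcases hu with rfl | rfl | rfl | rfl
    · exact one_mem Z
    · exact hz
    · exact hw
    · exact mul_mem hz hw
  have hcard : ({1, z, w, z * w} : Finset G).card = 4 := by
    rw [Finset.card_insert_of_notMem, Finset.card_insert_of_notMem, Finset.card_insert_of_notMem, Finset.card_singleton]
    · simpa using h4.symm
    · simp only [Finset.mem_insert, Finset.mem_singleton, not_or]
      exact ⟨hzw, h3.symm⟩
    · simp only [Finset.mem_insert, Finset.mem_singleton, not_or]
      exact ⟨hz1.symm, hw1.symm, hzw1.symm⟩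
  have heq : (({1, z, w, z * w} : Finset G) : Set G) = (Z : Set G) := by
    apply Set.eq_of_subset_of_ncard_le hsub _ (Set.toFinite _)
    rw [Set.ncard_coe_finset, hcard, ← hZ]
    exact (Nat.card_coe_set_eq _).ge
  intro u hu
  have h5 : u ∈ (({1, z, w, z * w} : Finset G) : Set G) := by rw [heq]; exact hu
  simpa using h5

/-- maximality of an elementary abelian subgroup of order four -/
theorem mem_of_cent {G : Type*} [Group G] [Finite G] (hR : ∀ V : Subgroup G, Cfsg.IsElementaryAbelian 2 V → Nat.card V ≤ 4)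
    {Z : Subgroup G} (hZ : Cfsg.IsElementaryAbelian 2 Z) (hZ4 : Nat.card Z = 4) {t : G} (ht2 : t ^ 2 = 1)
    (htZ : t ∈ centralizer (Z : Set G)) : t ∈ Z := by
  have hn : zpowers t ≤ normalizer (Z : Set G) := (zpowers_le.mpr htZ).trans (centralizer_le_normalizer _)
  have hm : ∀ a ∈ Z ⊔ zpowers t, ∃ z ∈ Z, ∃ k : ℤ, z * t ^ k = a := by
    intro a ha
    obtain ⟨z, hz, b, hb, rfl⟩ := (H23.mem_sup_iff_of_le_normalizer hn).mp ha
    obtain ⟨k, rfl⟩ := mem_zpowers_iff.mp hb
    exact ⟨z, hz, k, rfl⟩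
  have hcomm : ∀ z ∈ Z, ∀ k : ℤ, Commute z (t ^ k) := by
    intro z hz k
    have h1 : Commute z t := mem_centralizer_iff.mp htZ z hz
    exact h1.zpow_right k
  have hV : Cfsg.IsElementaryAbelian 2 (Z ⊔ zpowers t) := by
    refine ⟨⟨⟨?_⟩⟩, ?_⟩
    · rintro ⟨a, ha⟩ ⟨b, hb⟩
      apply Subtype.ext
      obtain ⟨z, hz, k, rfl⟩ := hm a ha
      obtain ⟨w, hw, l, rfl⟩ := hm b hb
      have h2 : Commute z w := congrArg Subtype.val (hZ.1.is_comm.comm (⟨z, hz⟩ : Z) ⟨w, hw⟩)
      exact ((h2.mul_right (hcomm z hz l)).mul_left ((hcomm w hw k).symm.mul_right ((Commute.refl t).zpow_zpow k l))).eq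
    · intro a ha
      obtain ⟨z, hz, k, rfl⟩ := hm a ha
      rw [(hcomm z hz k).mul_pow, hZ.2 z hz, one_mul, ← zpow_natCast, ← zpow_mul, mul_comm, zpow_mul]
      have : t ^ ((2 : ℕ) : ℤ) = 1 := by rw [zpow_natCast]; exact ht2
      rw [this, one_zpow]
  have h1 := hR _ hV
  have h2 : Z = Z ⊔ zpowers t := eq_of_le_of_card_ge le_sup_left (by rw [hZ4]; exact h1)
  rw [h2]
  exact (le_sup_right : zpowers t ≤ Z ⊔ zpowers t) (mem_zpowers t)

/-- three-elements acting nontrivially on `Z` commute with no involution -/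
theorem no_involution {G : Type*} [Group G] [Finite G] (hR : ∀ V : Subgroup G, Cfsg.IsElementaryAbelian 2 V → Nat.card V ≤ 4)
    {Z : Subgroup G} [hZn : Z.Normal] (hZ : Cfsg.IsElementaryAbelian 2 Z) (hZ4 : Nat.card Z = 4) {s t : G} {k : ℕ} (hs : s ^ 3 ^ k = 1)
    (hsZ : s ∉ centralizer (Z : Set G)) (ht2 : t ^ 2 = 1) (hst : s * t = t * s) : t = 1 := by
  have h2 : ∀ z ∈ Z, z * z = 1 := fun z hz => by rw [← sq]; exact hZ.2 z hz
  obtain ⟨z, hz, hzs⟩ : ∃ z ∈ Z, s * z * s⁻¹ ≠ z := by
    by_contra hcon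
    push Not at hcon
    apply hsZ
    rw [mem_centralizer_iff]
    intro z hz
    have := hcon z hz
    rw [mul_inv_eq_iff_eq_mul] at this
    exact this.symm
  have hz1 : z ≠ 1 := by
    rintro rfl
    apply hzs
    rw [mul_one, mul_inv_cancel]
  set w := s * z * s⁻¹ with hw
  have hwZ : w ∈ Z := hZn.conj_mem z hz s
  have hw1 : w ≠ 1 := by
    intro h
    rw [hw, mul_inv_eq_one, mul_eq_left] at h
    exact hz1 h
  have hzz := h2 z hz
  have hww := h2 w hwZ
  have hzw : z * w = w * z := congrArg Subtype.val (hZ.1.is_comm.comm (⟨z, hz⟩ : Z) ⟨w, hwZ⟩)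
  have hfour := four_elems hZ4 h2 hz hwZ hz1 hw1 hzs.symm
  have hw' : s * w * s⁻¹ = z * w := by
    rcases hfour (s * w * s⁻¹) (hZn.conj_mem w hwZ s) with h | h | h | h
    · rw [mul_inv_eq_one, mul_eq_left] at h
      exact absurd h hw1
    · -- s^2 fixes z
      exfalso
      have h3 : s ^ 2 * z = z * s ^ 2 := by
        rw [hw] at h
        have h4 : s * (s * z * s⁻¹) * s⁻¹ = s ^ 2 * z * (s ^ 2)⁻¹ := by rw [sq]; group
        rw [h4, mul_inv_eq_iff_eq_mul] at h
        exact h
      have h4 : Commute (s ^ 2) z := h3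
      have h5 : s = (s ^ 2) ^ ((3 ^ k + 1) / 2) := by
        obtain ⟨j, hj⟩ : Odd (3 ^ k) := Odd.pow (by decide)
        rw [← pow_mul, hj, show 2 * ((2 * j + 1 + 1) / 2) = (2 * j + 1) + 1 by omega, pow_succ, ← hj, hs, one_mul]
      apply hzs
      rw [hw]
      have h6 : Commute s z := by rw [h5]; exact h4.pow_left _
      rw [h6.eq, mul_inv_cancel_right]
    · exfalso
      rw [mul_inv_eq_iff_eq_mul] at h
      have h5 : s * z = w * s := by rw [hw, inv_mul_cancel_right]
      rw [← h5] at h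
      exact hzs (mul_left_cancel h)
    · exact h
  have hzw' : s * (z * w) * s⁻¹ = z := by
    calc s * (z * w) * s⁻¹ = (s * z * s⁻¹) * (s * w * s⁻¹) := by group
      _ = w * (z * w) := by rw [hw', ← hw]
      _ = z := by rw [hzw, ← mul_assoc, hww, one_mul]
  have hzw1 : z * w ≠ z := fun h => hw1 (mul_eq_left.mp h)
  have htw : t * w * t⁻¹ = s * (t * z * t⁻¹) * s⁻¹ := by
    have h3 : Commute s t := hst
    have h4 : Commute s⁻¹ t⁻¹ := h3.inv_inv
    calc t * w * t⁻¹ = (t * s) * z * (s⁻¹ * t⁻¹) := by rw [hw]; group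
      _ = (s * t) * z * (t⁻¹ * s⁻¹) := by rw [hst, h4.eq]
      _ = _ := by group
  have htt : t * t = 1 := by rw [← sq]; exact ht2
  have htz2 : t * (t * z * t⁻¹) * t⁻¹ = z := by
    calc t * (t * z * t⁻¹) * t⁻¹ = (t * t) * z * (t * t)⁻¹ := by group
      _ = z := by rw [htt]; group
  have htz : t * z * t⁻¹ = z := by
    rcases hfour (t * z * t⁻¹) (hZn.conj_mem z hz t) with h | h | h | h
    · rw [mul_inv_eq_one, mul_eq_left] at h
      exact absurd h hz1
    · exact h
    · exfalso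
      rw [h, htw, h, hw'] at htz2
      exact hzw1 htz2
    · exfalso
      rw [h] at htz2 htw
      rw [hzw'] at htw
      have h3 : t * (z * w) * t⁻¹ = (t * z * t⁻¹) * (t * w * t⁻¹) := by group
      rw [h3, h, htw] at htz2
      have h4 : z * w * z = w := by rw [hzw, mul_assoc, hzz, mul_one]
      rw [h4] at htz2
      exact hzs htz2
  have htw' : t * w * t⁻¹ = w := by rw [htw, htz]
  have htC : t ∈ centralizer (Z : Set G) := by
    have h3 : Commute t z := by rw [mul_inv_eq_iff_eq_mul] at htz; exact htz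
    have h4 : Commute t w := by rw [mul_inv_eq_iff_eq_mul] at htw'; exact htw'
    rw [mem_centralizer_iff]
    intro u hu
    rcases hfour u hu with rfl | rfl | rfl | rfl
    · rw [one_mul, mul_one]
    · exact h3.symm.eq
    · exact h4.symm.eq
    · exact (h3.mul_right h4).symm.eq
  have htZ := mem_of_cent hR hZ hZ4 ht2 htC
  by_contra ht1
  have hst' : s * t * s⁻¹ = t := by rw [hst, mul_inv_cancel_right]
  rcases hfour t htZ with h | h | h | h
  · exact ht1 h
  · rw [h] at hst'
    exact hzs hst'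
  · rw [h, hw'] at hst'
    exact hz1 (mul_eq_right.mp hst')
  · rw [h, hzw'] at hst'
    exact hzw1 hst'.symm

/-- Let G be a finite group with C_G(O₂(G)) ≤ O₂(G) containing an element of order 6, and let d be a non-identity 3-element of G normalizing a nontrivial elementary abelian 2-subgroup W with C_W(d) = 1. Then G has an elementary abelian subgroup of order 8. -/
theorem result {G : Type*} [Group G] [Finite G] (hchar : Subgroup.centralizer (Cfsg.pCore 2 G : Set G) ≤ Cfsg.pCore 2 G) (hsix : ∃ g : G, orderOf g = 6) (d : G) (hd1 : d ≠ 1) (hd : IsPGroup 3 ↥(Subgroup.zpowers d)) (W : Subgroup G) (hW : Cfsg.IsElementaryAbelian 2 W) (hW1 : W ≠ ⊥) (hdW : d ∈ Subgroup.normalizer (W : Set G)) (hfpf : W ⊓ Subgroup.centralizer {d} = ⊥) : ∃ E : Subgroup G, Cfsg.IsElementaryAbelian 2 E ∧ Nat.card E = 8 := by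
  classical
  haveI : Fact (Nat.Prime 2) := ⟨Nat.prime_two⟩
  haveI : Fact (Nat.Prime 3) := ⟨Nat.prime_three⟩
  by_contra hcon
  have hel_p : ∀ V : Subgroup G, Cfsg.IsElementaryAbelian 2 V → IsPGroup 2 V :=
    fun V hV x => ⟨1, Subtype.ext (by simpa using hV.2 x x.2)⟩
  have hR : ∀ V : Subgroup G, Cfsg.IsElementaryAbelian 2 V → Nat.card V ≤ 4 := by
    intro V hV
    by_contra h4
    push Not at h4
    apply hcon
    obtain ⟨k, hk⟩ := (hel_p V hV).exists_card_eq
    have hk3 : 3 ≤ k := by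
      by_contra hk3
      have : 2 ^ k ≤ 2 ^ 2 := Nat.pow_le_pow_right (by norm_num) (by omega)
      omega
    obtain ⟨E, hE⟩ := Sylow.exists_subgroup_card_pow_prime (G := V) 2 (n := 3) (by rw [hk]; exact pow_dvd_pow 2 hk3)
    refine ⟨E.map V.subtype, ⟨⟨⟨?_⟩⟩, ?_⟩, ?_⟩
    · rintro ⟨_, a, ha, rfl⟩ ⟨_, b, hb, rfl⟩
      apply Subtype.ext
      change (a : G) * b = b * a
      exact congrArg Subtype.val (hV.1.is_comm.comm a b)
    · rintro _ ⟨a, ha, rfl⟩
      exact hV.2 a a.2
    · rw [H1.card_map_subtype, hE]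
      norm_num
  set T := Cfsg.pCore 2 G with hT
  have hTp : IsPGroup 2 T := H1.pCore_isPGroup 2 G
  haveI hTn : T.Normal := inferInstance
  obtain ⟨g, hg6⟩ := hsix
  have hTne : T ≠ ⊥ := by
    intro h
    rw [h] at hchar
    have h1 : g ∈ (⊥ : Subgroup G) := hchar (by rw [mem_centralizer_iff]; intro x hx; rw [coe_bot, Set.mem_singleton_iff] at hx; rw [hx, one_mul, mul_one])
    rw [mem_bot] at h1
    rw [h1, orderOf_one] at hg6
    norm_num at hg6
  -- Z
  let Z : Subgroup G :=
    { carrier := {x | x ∈ T ∧ x ∈ centralizer (T : Set G) ∧ x ^ 2 = 1}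
      one_mem' := ⟨one_mem _, one_mem _, one_pow 2⟩
      mul_mem' := by
        rintro a b ⟨ha, hac, ha2⟩ ⟨hb, hbc, hb2⟩
        refine ⟨mul_mem ha hb, mul_mem hac hbc, ?_⟩
        have h1 : Commute a b := mem_centralizer_iff.mp hbc a ha
        rw [h1.mul_pow, ha2, hb2, one_mul]
      inv_mem' := by
        rintro a ⟨ha, hac, ha2⟩
        exact ⟨inv_mem ha, inv_mem hac, by rw [inv_pow, ha2, inv_one]⟩ }
  have hZmem : ∀ x, x ∈ Z ↔ x ∈ T ∧ x ∈ centralizer (T : Set G) ∧ x ^ 2 = 1 := fun x => Iff.rfl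
  have hCT : (centralizer (T : Set G)).Normal := inferInstance
  haveI hZn : Z.Normal := by
    constructor
    rintro x hx a
    rw [hZmem] at hx ⊢
    exact ⟨hTn.conj_mem x hx.1 a, hCT.conj_mem x hx.2.1 a, by rw [conj_pow, hx.2.2, mul_one, mul_inv_cancel]⟩
  have hZel : Cfsg.IsElementaryAbelian 2 Z := by
    refine ⟨⟨⟨?_⟩⟩, fun a ha => ha.2.2⟩
    rintro ⟨a, ha⟩ ⟨b, hb⟩
    exact Subtype.ext (mem_centralizer_iff.mp hb.2.1 a ha.1)
  have hZle : Nat.card Z ≤ 4 := hR Z hZel
  have hinv : ∀ V : Subgroup G, IsPGroup 2 V → V ≠ ⊥ → ∃ t ∈ V, t ≠ 1 ∧ t ^ 2 = 1 := by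
    intro V hV hne
    obtain ⟨k, hk⟩ := hV.exists_card_eq
    have hk0 : k ≠ 0 := by
      rintro rfl
      rw [pow_zero, card_eq_one] at hk
      exact hne hk
    obtain ⟨t, ht⟩ := exists_prime_orderOf_dvd_card' (G := V) 2 (by rw [hk]; exact dvd_pow_self 2 hk0)
    refine ⟨t, t.2, ?_, ?_⟩
    · intro h
      rw [← Subgroup.orderOf_coe, h, orderOf_one] at ht
      norm_num at ht
    · rw [← ht, ← Subgroup.orderOf_coe, pow_orderOf_eq_one]
  have hZne : Z ≠ ⊥ := by
    intro h
    haveI : Nontrivial T := (Subgroup.nontrivial_iff_ne_bot T).mpr hTne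
    haveI : Nontrivial (center T) := IsPGroup.center_nontrivial hTp
    have h1 : (center T).map T.subtype ≠ ⊥ := by
      intro h2
      obtain ⟨z, hz⟩ := exists_ne (1 : center T)
      apply hz
      have h3 : ((z : T) : G) ∈ (center T).map T.subtype := ⟨z, z.2, rfl⟩
      rw [h2, mem_bot] at h3
      exact Subtype.ext (Subtype.ext h3)
    obtain ⟨t, ⟨c, hc, rfl⟩, ht1, ht2⟩ := hinv _ ((hTp.to_subgroup (center T)).map T.subtype) h1
    have h2 : (T.subtype c) ∈ Z := by
      refine ⟨c.2, ?_, ht2⟩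
      rw [mem_centralizer_iff]
      intro x hx
      exact congrArg Subtype.val (mem_center_iff.mp hc ⟨x, hx⟩)
    rw [h, mem_bot] at h2
    exact ht1 h2
  -- W has order four
  have hWp : IsPGroup 2 W := hel_p W hW
  have two_elems : ∀ V : Subgroup G, Nat.card V = 2 → ∀ a ∈ V, ∀ b ∈ V, a ≠ 1 → b ≠ 1 → a = b := by
    intro V hV a ha b hb ha1 hb1
    by_contra hab
    have h1 : (({1, a, b} : Finset G) : Set G) ⊆ (V : Set G) := by
      intro u hu
      simp only [Finset.coe_insert, Finset.coe_singleton, Set.mem_insert_iff, Set.mem_singleton_iff] at hu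
      rcases hu with rfl | rfl | rfl
      · exact one_mem V
      · exact ha
      · exact hb
    have h2 := Set.ncard_le_ncard h1 (Set.toFinite _)
    rw [Set.ncard_coe_finset, Finset.card_insert_of_notMem, Finset.card_insert_of_notMem, Finset.card_singleton] at h2
    · have h3 : (V : Set G).ncard = 2 := by rw [← Nat.card_coe_set_eq]; exact hV
      omega
    · simpa using hab
    · simp only [Finset.mem_insert, Finset.mem_singleton, not_or]
      exact ⟨ha1.symm, hb1.symm⟩
  have card_cases : ∀ V : Subgroup G, Cfsg.IsElementaryAbelian 2 V → V ≠ ⊥ → Nat.card V = 2 ∨ Nat.card V = 4 := by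
    intro V hV hne
    obtain ⟨k, hk⟩ := (hel_p V hV).exists_card_eq
    have h1 := hR V hV
    have hk0 : k ≠ 0 := by
      rintro rfl
      rw [pow_zero, card_eq_one] at hk
      exact hne hk
    have hk3 : k < 3 := by
      by_contra hcon
      have := Nat.pow_le_pow_right (show 0 < 2 by norm_num) (not_lt.mp hcon)
      rw [← hk] at this
      norm_num at this
      omega
    interval_cases k
    · exact absurd rfl hk0
    · left; rw [hk, pow_one]
    · right; rw [hk]; norm_num
  have hdC : ∀ w ∈ W, d * w * d⁻¹ = w → w = 1 := by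
    intro w hw h
    have h1 : w ∈ W ⊓ centralizer {d} := by
      refine mem_inf.mpr ⟨hw, mem_centralizer_singleton_iff.mpr ?_⟩
      rw [mul_inv_eq_iff_eq_mul] at h
      exact h.symm
    rw [hfpf, mem_bot] at h1
    exact h1
  have hW4 : Nat.card W = 4 := by
    rcases card_cases W hW hW1 with h | h
    · exfalso
      obtain ⟨t, ht, ht1, _⟩ := hinv W hWp hW1
      apply ht1
      apply hdC t ht
      apply two_elems W h _ ((mem_normalizer_iff.mp hdW t).mp ht) t ht _ ht1
      intro h1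
      rw [mul_inv_eq_one, mul_eq_left] at h1
      exact ht1 h1
    · exact h
  have hZ4 : Nat.card Z = 4 := by
    rcases card_cases Z hZel hZne with h | h
    · exfalso
      obtain ⟨z, hz, hz1, hz2⟩ := hinv Z (hel_p Z hZel) hZne
      have hcen : ∀ a : G, a * z * a⁻¹ = z := by
        intro a
        apply two_elems Z h _ (hZn.conj_mem z hz a) z hz _ hz1
        intro h1
        rw [mul_inv_eq_one, mul_eq_left] at h1
        exact hz1 h1
      have hzW : z ∈ W := by
        apply mem_of_cent hR hW hW4 hz2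
        rw [mem_centralizer_iff]
        intro w _
        have := hcen w
        rw [mul_inv_eq_iff_eq_mul] at this
        exact this
      exact hz1 (hdC z hzW (hcen d))
    · exact h
  -- W ≤ C(Z)
  have hWC : W ≤ centralizer (Z : Set G) := by
    set U := W ⊓ centralizer (Z : Set G) with hU
    by_contra hnot
    have hUW : U ≠ W := fun h => hnot (by rw [← h]; exact inf_le_right)
    have hCZn : (centralizer (Z : Set G)).Normal := inferInstance
    have hU1 : U = ⊥ := by
      by_contra hU1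
      have hUel : Cfsg.IsElementaryAbelian 2 U :=
        ⟨⟨⟨fun a b => Subtype.ext (show (a : G) * b = b * a from congrArg Subtype.val (hW.1.is_comm.comm (⟨a, a.2.1⟩ : W) ⟨b, b.2.1⟩))⟩⟩,
          fun a ha => hW.2 a ha.1⟩
      rcases card_cases U hUel hU1 with h | h
      · obtain ⟨t, ht, ht1, _⟩ := hinv U (hel_p U hUel) hU1
        apply ht1
        apply hdC t ht.1
        apply two_elems U h _ (mem_inf.mpr ⟨(mem_normalizer_iff.mp hdW t).mp ht.1, hCZn.conj_mem t ht.2 d⟩) t ht _ ht1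
        intro h1
        rw [mul_inv_eq_one, mul_eq_left] at h1
        exact ht1 h1
      · exact hUW (eq_of_le_of_card_ge inf_le_left (by rw [hW4, h]))
    letI := S3738.cact W Z ⊥ (by rw [normalizer_eq_top]; exact le_top) (by rw [normalizer_eq_top]; exact le_top)
    have hinj : Function.Injective (MulAction.toPermHom W {x : G // x ∈ Z ∧ x ∉ (⊥ : Subgroup G)}) := by
      rw [injective_iff_map_eq_one]
      intro w hw
      have h1 : (w : G) ∈ U := by
        refine mem_inf.mpr ⟨w.2, ?_⟩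
        rw [mem_centralizer_iff]
        intro z hz
        by_cases hz1 : z = 1
        · rw [hz1, one_mul, mul_one]
        · have h2 := DFunLike.congr_fun hw (⟨z, hz, fun h => hz1 (mem_bot.mp h)⟩ : {x : G // x ∈ Z ∧ x ∉ (⊥ : Subgroup G)})
          have h3 : (w : G) * z * (w : G)⁻¹ = z := congrArg Subtype.val h2
          rw [mul_inv_eq_iff_eq_mul] at h3
          exact h3.symm
      rw [hU1, mem_bot] at h1
      exact Subtype.ext h1
    have h1 := Subgroup.card_dvd_of_injective _ hinj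
    have h3 : Nat.card {x : G // x ∈ Z ∧ x ∉ (⊥ : Subgroup G)} = 3 := by
      have h4 : Nat.card {x : G // x ∈ Z ∧ x ∉ (⊥ : Subgroup G)} = ((Z : Set G) \ ((⊥ : Subgroup G) : Set G)).ncard := by
        rw [← Nat.card_coe_set_eq]; rfl
      rw [h4, Set.ncard_diff (bot_le : (⊥ : Subgroup G) ≤ Z) (Set.toFinite _)]
      have h5 : (Z : Set G).ncard = 4 := by rw [← Nat.card_coe_set_eq]; exact hZ4
      rw [h5, coe_bot, Set.ncard_singleton]
    rw [hW4, Nat.card_perm, h3] at h1
    norm_num [Nat.factorial] at h1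
  have hWZ : W = Z := by
    apply eq_of_le_of_card_ge
    · intro w hw
      exact mem_of_cent hR hZel hZ4 (hW.2 w hw) (hWC hw)
    · rw [hZ4, hW4]
  -- no involutions commute
  have hF : ∀ s : G, (∃ k, s ^ 3 ^ k = 1) → s ∉ centralizer (Z : Set G) → ∀ t : G, t ^ 2 = 1 → s * t = t * s → t = 1 := by
    rintro s ⟨k, hk⟩ hs t ht hst
    exact no_involution hR hZel hZ4 hk hs ht hst
  have hFT : ∀ s : G, (∃ k, s ^ 3 ^ k = 1) → s ∉ centralizer (Z : Set G) → T ⊓ centralizer ({s} : Set G) = ⊥ := by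
    intro s hsk hs
    by_contra hne
    obtain ⟨t, ht, ht1, ht2⟩ := hinv _ (hTp.to_le inf_le_left) hne
    exact ht1 (hF s hsk hs t ht2 (mem_centralizer_singleton_iff.mp ht.2).symm)
  -- d
  have hd3 : ∃ k, d ^ 3 ^ k = 1 := by
    obtain ⟨k, hk⟩ := hd ⟨d, mem_zpowers d⟩
    exact ⟨k, by simpa using congrArg Subtype.val hk⟩
  have hdZ : d ∉ centralizer (Z : Set G) := by
    intro h
    apply hW1
    rw [eq_bot_iff]
    intro w hw
    rw [mem_bot]
    apply hdC w hw
    rw [hWZ] at hw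
    rw [← mem_centralizer_iff.mp h w hw, mul_inv_cancel_right]
  -- y
  set y := g ^ 2 with hy
  set t := g ^ 3 with ht
  have hyo : orderOf y = 3 := by rw [hy, orderOf_pow_of_dvd (by norm_num) (by rw [hg6]; norm_num), hg6]
  have hto : orderOf t = 2 := by rw [ht, orderOf_pow_of_dvd (by norm_num) (by rw [hg6]; norm_num), hg6]
  have hyZ : y ∈ centralizer (Z : Set G) := by
    by_contra hcon'
    have h1 := hF y ⟨1, by rw [pow_one, ← hyo, pow_orderOf_eq_one]⟩ hcon' t (by rw [← hto, pow_orderOf_eq_one])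
      (((Commute.refl g).pow_pow 2 3).eq)
    rw [h1, orderOf_one] at hto
    norm_num at hto
  -- Sylow 3-subgroup
  obtain ⟨S, hS⟩ := IsPGroup.exists_le_sylow hd
  have hdS : d ∈ (S : Subgroup G) := hS (mem_zpowers d)
  have hyp : IsPGroup 3 (zpowers y) := IsPGroup.iff_card.mpr ⟨1, by rw [Nat.card_zpowers, hyo, pow_one]⟩
  obtain ⟨S', hS'⟩ := IsPGroup.exists_le_sylow hyp
  obtain ⟨a, ha⟩ := MulAction.exists_smul_eq G S' S
  have hCZn : (centralizer (Z : Set G)).Normal := inferInstance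
  have hyS : a * y * a⁻¹ ∈ (S : Subgroup G) := by
    rw [← ha]
    exact ⟨y, hS' (mem_zpowers y), rfl⟩
  have hyC : a * y * a⁻¹ ∈ centralizer (Z : Set G) := hCZn.conj_mem y hyZ a
  have hy1 : a * y * a⁻¹ ≠ 1 := by
    intro h
    rw [mul_inv_eq_one, mul_eq_left] at h
    rw [h, orderOf_one] at hyo
    norm_num at hyo
  haveI hNn : ((centralizer (Z : Set G)).subgroupOf (S : Subgroup G)).Normal := inferInstance
  have hNne : (centralizer (Z : Set G)).subgroupOf (S : Subgroup G) ≠ ⊥ := by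
    intro h
    have h1 : (⟨a * y * a⁻¹, hyS⟩ : (S : Subgroup G)) ∈ (centralizer (Z : Set G)).subgroupOf (S : Subgroup G) := hyC
    rw [h, mem_bot] at h1
    exact hy1 (congrArg Subtype.val h1)
  have hNc := inf_center_ne_bot S.isPGroup' hNne
  obtain ⟨c, hcN, hc3⟩ : ∃ c ∈ (centralizer (Z : Set G)).subgroupOf (S : Subgroup G) ⊓ center (S : Subgroup G), orderOf c = 3 := by
    have h1 : IsPGroup 3 ↥((centralizer (Z : Set G)).subgroupOf (S : Subgroup G) ⊓ center (S : Subgroup G)) :=
      S.isPGroup'.to_subgroup _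
    obtain ⟨k, hk⟩ := h1.exists_card_eq
    have hk0 : k ≠ 0 := by
      rintro rfl
      rw [pow_zero, card_eq_one] at hk
      exact hNc hk
    obtain ⟨t, ht⟩ := exists_prime_orderOf_dvd_card'
      (G := ↥((centralizer (Z : Set G)).subgroupOf (S : Subgroup G) ⊓ center (S : Subgroup G))) 3
      (by rw [hk]; exact dvd_pow_self 3 hk0)
    exact ⟨t, t.2, by rw [Subgroup.orderOf_coe, ht]⟩
  have hcC : (c : G) ∈ centralizer (Z : Set G) := hcN.1
  have hco : orderOf (c : G) = 3 := by rw [Subgroup.orderOf_coe, hc3]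
  have hcd : Commute (c : G) d := (congrArg Subtype.val (mem_center_iff.mp hcN.2 ⟨d, hdS⟩)).symm
  -- S3738
  have hdT : orderOf d = 3 := by
    obtain ⟨k, hk⟩ := hd3
    obtain ⟨n, _, hn⟩ := (Nat.dvd_prime_pow Nat.prime_three).mp (orderOf_dvd_of_pow_eq_one hk)
    have hn1 : 1 ≤ n := by
      rcases Nat.eq_zero_or_pos n with h | h
      · rw [h, pow_zero, orderOf_eq_one_iff] at hn
        exact absurd hn hd1
      · exact h
    refine S3738.result d n hn1 hn T hTp (by rw [normalizer_eq_top]; exact mem_top _) ?_ (hFT d ⟨k, hk⟩ hdZ) ?_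
    · have h1 : zpowers d ⊓ T = ⊥ := by
        apply H23.inf_eq_bot_of_coprime
        obtain ⟨j, hj⟩ := hTp.exists_card_eq
        rw [Nat.card_zpowers, hn, hj]
        exact Nat.Coprime.pow _ _ (by norm_num)
      rw [eq_bot_iff, ← h1]
      exact inf_le_inf_left _ hchar
    · intro V hVT hVc A hA hA2
      have h1 := hR (A.map V.subtype) (by
        refine ⟨⟨⟨?_⟩⟩, ?_⟩
        · rintro ⟨_, a, ha, rfl⟩ ⟨_, b, hb, rfl⟩
          apply Subtype.ext
          change (a : G) * b = b * a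
          exact congrArg Subtype.val (hVc.is_comm.comm a b)
        · rintro _ ⟨a, ha, rfl⟩
          exact congrArg Subtype.val (hA2 a ha))
      rw [H1.card_map_subtype] at h1
      exact h1
  -- E
  have hdp : d ^ 3 = 1 := by have := pow_orderOf_eq_one d; rwa [hdT] at this
  have hcp : (c : G) ^ 3 = 1 := by have := pow_orderOf_eq_one (c : G); rwa [hco] at this
  set E := zpowers d ⊔ zpowers (c : G) with hE
  have hcn : zpowers (c : G) ≤ normalizer (zpowers d : Set G) := by
    refine le_trans ?_ (centralizer_le_normalizer _)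
    rw [zpowers_le, mem_centralizer_iff]
    intro x hx
    obtain ⟨k, rfl⟩ := mem_zpowers_iff.mp hx
    exact (hcd.symm.zpow_left k).eq
  have hEm : ∀ a ∈ E, ∃ i j : ℤ, d ^ i * (c : G) ^ j = a := by
    intro a ha
    obtain ⟨u, hu, v, hv, rfl⟩ := (H23.mem_sup_iff_of_le_normalizer hcn).mp ha
    obtain ⟨i, rfl⟩ := mem_zpowers_iff.mp hu
    obtain ⟨j, rfl⟩ := mem_zpowers_iff.mp hv
    exact ⟨i, j, rfl⟩
  have hEc : IsMulCommutative E := by
    refine ⟨⟨?_⟩⟩
    rintro ⟨a, ha⟩ ⟨b, hb⟩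
    apply Subtype.ext
    obtain ⟨i, j, rfl⟩ := hEm a ha
    obtain ⟨k, l, rfl⟩ := hEm b hb
    exact ((((Commute.refl d).zpow_zpow i k).mul_right (hcd.symm.zpow_zpow i l)).mul_left
      ((hcd.zpow_zpow j k).mul_right ((Commute.refl (c : G)).zpow_zpow j l))).eq
  have hE3 : ∀ a ∈ E, a ^ 3 = 1 := by
    intro a ha
    obtain ⟨i, j, rfl⟩ := hEm a ha
    have h1 : Commute (d ^ i) ((c : G) ^ j) := hcd.symm.zpow_zpow i j
    have h2 : (d ^ i) ^ 3 = 1 := by
      rw [← zpow_natCast, ← zpow_mul, mul_comm, zpow_mul, zpow_natCast, hdp, one_zpow]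
    have h3 : ((c : G) ^ j) ^ 3 = 1 := by
      rw [← zpow_natCast, ← zpow_mul, mul_comm, zpow_mul, zpow_natCast, hcp, one_zpow]
    rw [h1.mul_pow, h2, h3, one_mul]
  have hdE : d ∈ E := (le_sup_left : zpowers d ≤ E) (mem_zpowers d)
  have hcE : (c : G) ∈ E := (le_sup_right : zpowers (c : G) ≤ E) (mem_zpowers _)
  have hdi : ∀ i : ℤ, d ^ i ∈ centralizer (Z : Set G) → d ^ i = 1 := by
    intro i hi
    by_contra hne
    apply hdZ
    have h1 : orderOf (d ^ i) = 3 := by
      apply orderOf_eq_prime _ hne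
      rw [← zpow_natCast, ← zpow_mul, mul_comm, zpow_mul, zpow_natCast, hdp, one_zpow]
    have h2 : zpowers (d ^ i) = zpowers d := by
      apply eq_of_le_of_card_ge (zpowers_le.mpr (zpow_mem (mem_zpowers d) i))
      rw [Nat.card_zpowers, Nat.card_zpowers, h1, hdT]
    have h3 : zpowers d ≤ centralizer (Z : Set G) := by rw [← h2, zpowers_le]; exact hi
    exact h3 (mem_zpowers d)
  have hnc : ¬ IsCyclic E := by
    intro hcyc
    obtain ⟨⟨e, he⟩, hgen⟩ := hcyc.exists_generator
    have h1 : ∀ x ∈ E, x ∈ zpowers e := by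
      intro x hx
      obtain ⟨k, hk⟩ := mem_zpowers_iff.mp (hgen ⟨x, hx⟩)
      exact mem_zpowers_iff.mpr ⟨k, congrArg Subtype.val hk⟩
    have h2 : orderOf e ∣ 3 := orderOf_dvd_of_pow_eq_one (hE3 e he)
    have h3 : zpowers (c : G) = zpowers e := by
      apply eq_of_le_of_card_ge (zpowers_le.mpr (h1 _ hcE))
      rw [Nat.card_zpowers, Nat.card_zpowers, hco]
      exact Nat.le_of_dvd (by norm_num) h2
    have h4 : d ∈ zpowers (c : G) := by rw [h3]; exact h1 d hdE
    exact hdZ ((zpowers_le.mpr hcC) h4)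
  have hcopE : (Nat.card E).Coprime (Nat.card T) := by
    have h1 : IsPGroup 3 E := fun x => ⟨1, Subtype.ext (by simpa using hE3 x x.2)⟩
    obtain ⟨i, hi⟩ := h1.exists_card_eq
    obtain ⟨j, hj⟩ := hTp.exists_card_eq
    rw [hi, hj]
    exact Nat.Coprime.pow _ _ (by norm_num)
  have hgenT := iSup_centralizer_of_not_isCyclic hEc hnc (G := T) (by rw [normalizer_eq_top]; exact le_top) hcopE
  have hTc : T ≤ centralizer ({(c : G)} : Set G) := by
    rw [← hgenT]
    refine iSup_le ?_
    rintro ⟨a, haE, ha1⟩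
    change T ⊓ centralizer ({a} : Set G) ≤ _
    by_cases haZ : a ∈ centralizer (Z : Set G)
    · obtain ⟨i, j, rfl⟩ := hEm a haE
      have h1 : d ^ i ∈ centralizer (Z : Set G) := by
        have := mul_mem haZ (inv_mem (zpow_mem hcC j))
        rwa [mul_inv_cancel_right] at this
      have h2 := hdi i h1
      rw [h2, one_mul] at ha1 ⊢
      have h3 : orderOf ((c : G) ^ j) = 3 := by
        apply orderOf_eq_prime _ ha1
        rw [← zpow_natCast, ← zpow_mul, mul_comm, zpow_mul, zpow_natCast, hcp, one_zpow]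
      have h4 : zpowers ((c : G) ^ j) = zpowers (c : G) := by
        apply eq_of_le_of_card_ge (zpowers_le.mpr (zpow_mem (mem_zpowers _) j))
        rw [Nat.card_zpowers, Nat.card_zpowers, h3, hco]
      intro x hx
      have h5 : (c : G) ∈ zpowers ((c : G) ^ j) := by rw [h4]; exact mem_zpowers _
      obtain ⟨k, hk⟩ := mem_zpowers_iff.mp h5
      have h6 : Commute x ((c : G) ^ j) := mem_centralizer_singleton_iff.mp hx.2
      refine mem_centralizer_singleton_iff.mpr ?_
      have h7 := (h6.zpow_right k).eq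
      rwa [hk] at h7
    · rw [hFT a ⟨1, by rw [pow_one]; exact hE3 a haE⟩ haZ]
      exact bot_le
  have hcT : (c : G) ∈ T := by
    apply hchar
    rw [mem_centralizer_iff]
    intro x hx
    exact mem_centralizer_singleton_iff.mp (hTc hx)
  obtain ⟨j, hj⟩ := hTp ⟨(c : G), hcT⟩
  have h1 : (c : G) ^ 2 ^ j = 1 := by simpa using congrArg Subtype.val hj
  have h2 := orderOf_dvd_of_pow_eq_one h1
  rw [hco] at h2
  have h3 := Nat.Prime.dvd_of_dvd_pow Nat.prime_three h2
  norm_num at h3

end Cfsg.Agent.S3739
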