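import Cfsg.Statements.S3740
import Cfsg.Agent.H2.Q8SL23
import Cfsg.Agent.H4.QuatEquiv
import Cfsg.Agent.H1.Coprime
import Cfsg.Agent.H1.Hall
import Cfsg.Agent.H18.SL23

set_option autoImplicit false
set_option linter.style.haveILetI false
set_option linter.unusedVariables false
set_option linter.unusedSectionVars false
open Cfsg

namespace Cfsg.Agent.S3740

open Cfsg.Agent
open Subgroup Matrix

section lin
variable {F : Type*} [Field F] {p : ℕ} [hp : Fact p.Prime] [CharP F p]

local notation "SL" => Matrix.SpecialLinearGroup (Fin 2) F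

theorem ch (A : Matrix (Fin 2) (Fin 2) F) (hA : A.det = 1) :
    A * A = A.trace • A - 1 := by
  rw [Matrix.det_fin_two] at hA
  ext i j
  fin_cases i <;> fin_cases j <;>
    simp [Matrix.mul_apply, Fin.sum_univ_two, Matrix.trace, Matrix.diag] <;>
    first
      | ring1
      | linear_combination (-1 : F) * hA

theorem ch' (A : Matrix (Fin 2) (Fin 2) F) (hA : A.det = 1) :
    A * A - A.trace • A + 1 = 0 := by
  rw [ch A hA]; simp

theorem unip_sq (A : Matrix (Fin 2) (Fin 2) F) (hA : A.det = 1) (h1 : (A - 1).det = 0) :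
    (A - 1) * (A - 1) = 0 := by
  have htr : A.trace = 2 := by
    rw [Matrix.det_fin_two] at hA h1
    simp [Matrix.trace, Matrix.diag, Fin.sum_univ_two] at h1 ⊢
    linear_combination hA - h1
  have h2 := ch' A hA
  rw [htr] at h2
  have : (A - 1) * (A - 1) = A * A - (2 : F) • A + 1 := by
    rw [sub_mul, mul_sub, mul_one, one_mul, two_smul]; abel
  rw [this, h2]

theorem pow_p {u : SL} (h1 : ((u : Matrix (Fin 2) (Fin 2) F) - 1).det = 0) : u ^ p = 1 := by
  have h2 := unip_sq (u : Matrix (Fin 2) (Fin 2) F) u.2 h1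
  have h3 : ((u : Matrix (Fin 2) (Fin 2) F) - 1) ^ p = 0 := by
    have : 2 ≤ p := hp.out.two_le
    obtain ⟨k, rfl⟩ := Nat.exists_eq_add_of_le this
    rw [pow_add, pow_two, h2, zero_mul]
  rw [sub_pow_char_of_commute p (Commute.one_right _), one_pow, sub_eq_zero] at h3
  apply Matrix.SpecialLinearGroup.ext
  intro i j
  have := congrFun (congrFun h3 i) j
  simpa using this

theorem lemU {u : SL} (h1 : ((u : Matrix (Fin 2) (Fin 2) F) - 1).det = 0)
    (hc : (orderOf u).Coprime p) : u = 1 := by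
  have h2 : orderOf u ∣ p := orderOf_dvd_of_pow_eq_one (pow_p (p := p) h1)
  exact orderOf_eq_one_iff.1 (Nat.Coprime.eq_one_of_dvd hc h2)

theorem neg_sq (s : SL) : (-s) * (-s) = s * s := by simp

theorem neg_coprime (hp2 : p ≠ 2) {s : SL} (hc : (orderOf s).Coprime p) : (orderOf (-s)).Coprime p := by
  have h1 : orderOf (-s) ∣ 2 * orderOf s := by
    apply orderOf_dvd_of_pow_eq_one
    rw [pow_mul, pow_two, neg_sq, ← pow_two, ← pow_mul, mul_comm, pow_mul, pow_orderOf_eq_one,
      one_pow]
  have h2 : (2 * orderOf s).Coprime p := by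
    refine Nat.Coprime.mul_left ?_ hc
    exact (Nat.coprime_primes Nat.prime_two hp.out).2 (Ne.symm hp2)
  exact Nat.Coprime.coprime_dvd_left h1 h2

theorem lemU' (hp2 : p ≠ 2) {s : SL} (hc : (orderOf s).Coprime p)
    (h : ((s : Matrix (Fin 2) (Fin 2) F) - 1).det = 0 ∨ ((s : Matrix (Fin 2) (Fin 2) F) + 1).det = 0) :
    s = 1 ∨ s = -1 := by
  rcases h with h | h
  · exact Or.inl (lemU (p := p) h hc)
  · right
    have h1 : (((-s : SL) : Matrix (Fin 2) (Fin 2) F) - 1).det = 0 := by
      have e : (((-s : SL) : Matrix (Fin 2) (Fin 2) F) - 1) = -((s : Matrix (Fin 2) (Fin 2) F) + 1) := by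
        rw [Matrix.SpecialLinearGroup.coe_neg]; abel
      rw [e, Matrix.det_neg, h, mul_zero]
    have h2 := lemU (p := p) h1 (neg_coprime hp2 hc)
    rw [← neg_neg s, h2]

/-- two commuting `p'`-elements with the same trace are equal or inverse to each other -/
theorem eq_or_inv {s t : SL} (hc : s * t = t * s)
    (htr : (s : Matrix (Fin 2) (Fin 2) F).trace = (t : Matrix (Fin 2) (Fin 2) F).trace)
    (h1 : (orderOf (t * s⁻¹)).Coprime p) (h2 : (orderOf (t * s)).Coprime p) : t = s ∨ t = s⁻¹ := by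
  have e1 : ((t : Matrix (Fin 2) (Fin 2) F) - s) * ((t : Matrix (Fin 2) (Fin 2) F) - (s⁻¹ : SL)) = 0 := by
    have hcm : (s : Matrix (Fin 2) (Fin 2) F) * t = t * s := congrArg Subtype.val hc
    have hss : (s : Matrix (Fin 2) (Fin 2) F) * ((s⁻¹ : SL) : Matrix (Fin 2) (Fin 2) F) = 1 := by
      have := congrArg Subtype.val (mul_inv_cancel s); exact this
    have hadj : (s : Matrix (Fin 2) (Fin 2) F) + ((s⁻¹ : SL) : Matrix (Fin 2) (Fin 2) F) =
        (s : Matrix (Fin 2) (Fin 2) F).trace • 1 := by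
      rw [Matrix.SpecialLinearGroup.coe_inv, Matrix.adjugate_fin_two]
      ext i j
      fin_cases i <;> fin_cases j <;> simp [Matrix.trace, Matrix.diag, Fin.sum_univ_two, add_comm]
    have h3 := ch' (t : Matrix (Fin 2) (Fin 2) F) t.2
    calc ((t : Matrix (Fin 2) (Fin 2) F) - s) * ((t : Matrix (Fin 2) (Fin 2) F) - (s⁻¹ : SL))
        = t * t - (s * t + t * ((s⁻¹ : SL) : Matrix (Fin 2) (Fin 2) F)) + s * ((s⁻¹ : SL) : Matrix (Fin 2) (Fin 2) F) := by
          rw [sub_mul, mul_sub, mul_sub]; abel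
      _ = t * t - (t * (s + ((s⁻¹ : SL) : Matrix (Fin 2) (Fin 2) F))) + 1 := by rw [hcm, hss, mul_add]
      _ = t * t - (t : Matrix (Fin 2) (Fin 2) F).trace • (t : Matrix (Fin 2) (Fin 2) F) + 1 := by
          rw [hadj, htr, Matrix.mul_smul, mul_one]
      _ = 0 := h3
  have e2 := congrArg Matrix.det e1
  rw [Matrix.det_mul, Matrix.det_zero] at e2
  rcases mul_eq_zero.1 e2 with h | h
  · left
    have h3 : (((t * s⁻¹ : SL) : Matrix (Fin 2) (Fin 2) F) - 1).det = 0 := by
      have e : (((t * s⁻¹ : SL) : Matrix (Fin 2) (Fin 2) F) - 1) =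
          ((t : Matrix (Fin 2) (Fin 2) F) - s) * ((s⁻¹ : SL) : Matrix (Fin 2) (Fin 2) F) := by
        rw [sub_mul]
        have hss : (s : Matrix (Fin 2) (Fin 2) F) * ((s⁻¹ : SL) : Matrix (Fin 2) (Fin 2) F) = 1 := by
          have := congrArg Subtype.val (mul_inv_cancel s); exact this
        rw [hss]; rfl
      rw [e, Matrix.det_mul, h, zero_mul]
    exact mul_inv_eq_one.1 (lemU (p := p) h3 h1)
  · right
    have h3 : (((t * s : SL) : Matrix (Fin 2) (Fin 2) F) - 1).det = 0 := by
      have e : (((t * s : SL) : Matrix (Fin 2) (Fin 2) F) - 1) =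
          ((t : Matrix (Fin 2) (Fin 2) F) - (s⁻¹ : SL)) * (s : Matrix (Fin 2) (Fin 2) F) := by
        rw [sub_mul]
        have hss : ((s⁻¹ : SL) : Matrix (Fin 2) (Fin 2) F) * (s : Matrix (Fin 2) (Fin 2) F) = 1 := by
          have := congrArg Subtype.val (inv_mul_cancel s); exact this
        rw [hss]; rfl
      rw [e, Matrix.det_mul, h, zero_mul]
    exact mul_eq_one_iff_eq_inv.1 (lemU (p := p) h3 h2)

/-- an element commuting with a nontrivial unipotent element has eigenvalue `±1` -/
theorem cent_unip {a s : SL} (ha : ((a : Matrix (Fin 2) (Fin 2) F) - 1).det = 0) (ha1 : a ≠ 1)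
    (hc : a * s = s * a) :
    ((s : Matrix (Fin 2) (Fin 2) F) - 1).det = 0 ∨ ((s : Matrix (Fin 2) (Fin 2) F) + 1).det = 0 := by
  have hcm : (a : Matrix (Fin 2) (Fin 2) F) * s = s * a := congrArg Subtype.val hc
  have hda := a.2
  have hds := s.2
  set A := (a : Matrix (Fin 2) (Fin 2) F) with hA
  set S := (s : Matrix (Fin 2) (Fin 2) F) with hS
  rw [Matrix.det_fin_two] at hda hds
  rw [Matrix.det_fin_two] at ha
  simp at ha
  have c00 := congrFun (congrFun hcm 0) 0
  have c01 := congrFun (congrFun hcm 0) 1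
  have c10 := congrFun (congrFun hcm 1) 0
  simp [Matrix.mul_apply, Fin.sum_univ_two] at c00 c01 c10
  have hne : A 0 1 ≠ 0 ∨ A 1 0 ≠ 0 := by
    by_contra hcon
    push Not at hcon
    obtain ⟨h1, h2⟩ := hcon
    rw [h1] at ha hda
    have h3 : A 0 0 = 1 := by
      have : (A 0 0 - 1) * (A 1 1 - 1) = 0 := by linear_combination ha
      have h4 : A 0 0 * A 1 1 = 1 := by linear_combination hda
      have h5 : (A 0 0 - 1) ^ 2 = 0 := by
        rcases mul_eq_zero.1 this with h | h
        · rw [h]; ring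
        · have : A 1 1 = 1 := sub_eq_zero.1 h
          rw [this, mul_one] at h4
          rw [h4]; ring
      exact sub_eq_zero.1 (pow_eq_zero_iff (two_ne_zero)|>.1 h5)
    have h4 : A 1 1 = 1 := by
      rw [h3] at hda; linear_combination hda
    apply ha1
    apply Matrix.SpecialLinearGroup.ext
    intro i j
    fin_cases i <;> fin_cases j
    · simpa using h3
    · simpa using h1
    · simpa using h2
    · simpa using h4
  have hD : (S 0 0 - S 1 1) ^ 2 + 4 * (S 0 1 * S 1 0) = 0 := by
    have htrA : A 0 0 + A 1 1 = 2 := by linear_combination hda - ha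
    have hDA : (A 0 0 - A 1 1) ^ 2 + 4 * (A 0 1 * A 1 0) = 0 := by
      linear_combination (A 0 0 + A 1 1 + 2) * htrA - 4 * hda
    rcases hne with h | h
    · have : (A 0 1) ^ 2 * ((S 0 0 - S 1 1) ^ 2 + 4 * (S 0 1 * S 1 0)) = 0 := by
        have k1 : A 0 1 * (S 0 0 - S 1 1) = (A 0 0 - A 1 1) * S 0 1 := by
          linear_combination (-1 : F) * c01
        have k2 : A 0 1 * S 1 0 = S 0 1 * A 1 0 := by linear_combination c00
        linear_combination (A 0 1 * (S 0 0 - S 1 1) + (A 0 0 - A 1 1) * S 0 1) * k1 +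
          4 * A 0 1 * S 0 1 * k2 + (S 0 1) ^ 2 * hDA
      rcases mul_eq_zero.1 this with h1 | h1
      · exact absurd (pow_eq_zero_iff (two_ne_zero)|>.1 h1) h
      · exact h1
    · have : (A 1 0) ^ 2 * ((S 0 0 - S 1 1) ^ 2 + 4 * (S 0 1 * S 1 0)) = 0 := by
        have k1 : A 1 0 * (S 0 0 - S 1 1) = (A 0 0 - A 1 1) * S 1 0 := by
          linear_combination c10
        have k2 : A 0 1 * S 1 0 = S 0 1 * A 1 0 := by linear_combination c00
        linear_combination (A 1 0 * (S 0 0 - S 1 1) + (A 0 0 - A 1 1) * S 1 0) * k1 -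
          4 * A 1 0 * S 1 0 * k2 + (S 1 0) ^ 2 * hDA
      rcases mul_eq_zero.1 this with h1 | h1
      · exact absurd (pow_eq_zero_iff (two_ne_zero)|>.1 h1) h
      · exact h1
  have hprod : (S - 1).det * (S + 1).det = 0 := by
    have e1 : (S - 1).det = (S 0 0 - 1) * (S 1 1 - 1) - S 0 1 * S 1 0 := by
      rw [Matrix.det_fin_two]; simp
    have e2 : (S + 1).det = (S 0 0 + 1) * (S 1 1 + 1) - S 0 1 * S 1 0 := by
      rw [Matrix.det_fin_two]; simp
    rw [e1, e2]
    linear_combination (-1 : F) * hD + (S 0 0 * S 1 1 - S 0 1 * S 1 0 - 1) * hds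
  exact mul_eq_zero.1 hprod

end lin

theorem aut_case {F : Type} [Field F] [Fintype F] {p : ℕ} [hp : Fact p.Prime] [CharP F p]
    (hp2 : p ≠ 2) {a : Matrix.SpecialLinearGroup (Fin 2) F}
    (ha : IsPGroup p ↥(Subgroup.zpowers a)) :
    ((a : Matrix (Fin 2) (Fin 2) F) - 1).det = 0 := by
  obtain ⟨k, hk⟩ := (IsPGroup.iff_orderOf.1 ha) ⟨a, mem_zpowers a⟩
  rw [Subgroup.orderOf_mk] at hk
  have h1 : a ^ (p ^ k) = 1 := by rw [← hk]; exact pow_orderOf_eq_one a
  have h2 : ((a : Matrix (Fin 2) (Fin 2) F) - 1) ^ (p ^ k) = 0 := by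
    rw [sub_pow_char_pow_of_commute p k (Commute.one_right _), one_pow, sub_eq_zero]
    exact congrArg Subtype.val h1
  have h3 : (((a : Matrix (Fin 2) (Fin 2) F) - 1) ^ (p ^ k)).det = 0 := by
    rw [h2]; exact Matrix.det_zero
  rw [Matrix.det_pow] at h3
  exact (pow_eq_zero_iff (pow_ne_zero k hp.out.ne_zero)).1 h3

/-- key lemma -/
theorem keyA {F : Type} [Field F] [Fintype F] {p : ℕ} [hp : Fact p.Prime] [CharP F p]
    (hp2 : p ≠ 2) {a : Matrix.SpecialLinearGroup (Fin 2) F} (ha1 : a ≠ 1)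
    (ha : IsPGroup p ↥(Subgroup.zpowers a)) {R : Subgroup (Matrix.SpecialLinearGroup (Fin 2) F)}
    (hR : (Nat.card R).Coprime p) {s : Matrix.SpecialLinearGroup (Fin 2) F} (hs : s ∈ R)
    (has : a * s * a⁻¹ ∈ R) (hc : s * (a * s * a⁻¹) = (a * s * a⁻¹) * s) :
    s = 1 ∨ s = -1 := by
  have hcop : ∀ r ∈ R, (orderOf r).Coprime p := fun r hr =>
    Nat.Coprime.coprime_dvd_left (Subgroup.orderOf_dvd_natCard R hr) hR
  have hdet := aut_case hp2 ha
  have hap : a ^ p = 1 := pow_p (p := p) hdet
  have htr : (s : Matrix (Fin 2) (Fin 2) F).trace =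
      ((a * s * a⁻¹ : Matrix.SpecialLinearGroup (Fin 2) F) : Matrix (Fin 2) (Fin 2) F).trace := by
    rw [Matrix.SpecialLinearGroup.coe_mul, Matrix.trace_mul_comm,
      Matrix.SpecialLinearGroup.coe_mul, ← Matrix.mul_assoc]
    have : ((a⁻¹ : Matrix.SpecialLinearGroup (Fin 2) F) : Matrix (Fin 2) (Fin 2) F) * a = 1 :=
      congrArg Subtype.val (inv_mul_cancel a)
    rw [this, Matrix.one_mul]
  have h1 := eq_or_inv (p := p) hc htr (hcop _ (R.mul_mem has (R.inv_mem hs)))
    (hcop _ (R.mul_mem has hs))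
  -- a ^ 2 commutes with s
  have h2 : Commute (a ^ 2) s := by
    have h3 : a * (a * s * a⁻¹) * a⁻¹ = s := by
      rcases h1 with h | h
      · rw [h, h]
      · rw [h]
        have h4 : a * s⁻¹ * a⁻¹ = (a * s * a⁻¹)⁻¹ := by group
        rw [h4, h, inv_inv]
    have h4 : a ^ 2 * s = s * a ^ 2 := by
      calc a ^ 2 * s = (a * (a * s * a⁻¹) * a⁻¹) * a ^ 2 := by rw [pow_two]; group
        _ = s * a ^ 2 := by rw [h3]
    exact h4
  have hodd : Odd p := hp.out.odd_of_ne_two hp2
  obtain ⟨m, hm⟩ := hodd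
  have h5 : Commute a s := by
    have h6 : a = (a ^ 2) ^ (m + 1) := by
      rw [← pow_mul]
      have : 2 * (m + 1) = p + 1 := by omega
      rw [this, pow_succ, hap, one_mul]
    rw [h6]; exact h2.pow_left _
  exact lemU' hp2 (hcop s hs) (cent_unip hdet ha1 h5.eq)

/-- Let F be a finite field of odd characteristic p and let a be a p-element of SL₂(F) normalizing a subgroup R of order prime to p with [R, a] ≠ 1. Then p = 3, R is a quaternion group of order 8, and R⟨a⟩ is isomorphic to SL₂(3). -/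
theorem result (F : Type) [Field F] [Fintype F] {p : ℕ} [Fact p.Prime] [CharP F p] (hp : p ≠ 2) (a : Matrix.SpecialLinearGroup (Fin 2) F) (ha : IsPGroup p ↥(Subgroup.zpowers a)) (R : Subgroup (Matrix.SpecialLinearGroup (Fin 2) F)) (hR : (Nat.card R).Coprime p) (haR : a ∈ Subgroup.normalizer (R : Set (Matrix.SpecialLinearGroup (Fin 2) F))) (hnt : ⁅R, Subgroup.zpowers a⁆ ≠ ⊥) : p = 3 ∧ Nonempty (↥R ≃* QuaternionGroup 2) ∧ Nonempty (↥(R ⊔ Subgroup.zpowers a) ≃* Matrix.SpecialLinearGroup (Fin 2) (ZMod 3)) := by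
  have ha1 : a ≠ 1 := by
    rintro rfl
    apply hnt
    rw [zpowers_one_eq_bot, commutator_bot_right]
  have hdet := aut_case hp ha
  have hap : a ^ p = 1 := pow_p (p := p) hdet
  have hao : orderOf a = p := orderOf_eq_prime hap ha1
  have haRm : ∀ r ∈ R, a * r * a⁻¹ ∈ R := fun r hr => (mem_normalizer_iff.1 haR r).1 hr
  have hkey : ∀ s ∈ R, s * (a * s * a⁻¹) = (a * s * a⁻¹) * s → s = 1 ∨ s = -1 := fun s hs h =>
    keyA hp ha1 ha hR hs (haRm s hs) h
  have haN : zpowers a ≤ normalizer (R : Set (Matrix.SpecialLinearGroup (Fin 2) F)) := by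
    rw [zpowers_le]; exact haR
  have hcopa : (Nat.card (zpowers a)).Coprime (Nat.card R) := by
    rw [Nat.card_zpowers, hao]; exact hR.symm
  have hneg1 : (-1 : Matrix.SpecialLinearGroup (Fin 2) F) * (-1) = 1 := by simp
  -- R is a 2-group
  have h2R : IsPGroup 2 R := by
    have hall : ∀ r : ℕ, r.Prime → r ∣ Nat.card R → r = 2 := by
      intro r hr hrd
      by_contra hr2
      haveI : Fact r.Prime := ⟨hr⟩
      obtain ⟨S, hS⟩ := H1.exists_invariant_sylow (zpowers a) R haN hcopa (Or.inl inferInstance) r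
      set S0 := (S : Subgroup R).map R.subtype with hS0
      have hSp : IsPGroup r S0 := S.2.map _
      have hSne : Nontrivial S0 := by
        rw [← Finite.one_lt_card_iff_nontrivial, Subgroup.card_map_of_injective R.subtype_injective]
        have h1 := S.card_eq_multiplicity
        have h2 : Nat.card (S : Subgroup R) = r ^ (Nat.card R).factorization r := h1
        rw [h2]
        have h3 : 0 < (Nat.card R).factorization r :=
          hr.factorization_pos_of_dvd Nat.card_pos.ne' hrd
        exact Nat.one_lt_pow h3.ne' hr.one_lt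
      haveI := hSp.center_nontrivial
      obtain ⟨⟨z, hz⟩, hz1⟩ := exists_ne (1 : center S0)
      have hzR : (z : Matrix.SpecialLinearGroup (Fin 2) F) ∈ R := map_subtype_le _ z.2
      have haz : a * z * a⁻¹ ∈ S0 := (mem_normalizer_iff.1 (hS (mem_zpowers a)) _).1 z.2
      have hcz := mem_center_iff.1 hz ⟨_, haz⟩
      have hcz' : (z : Matrix.SpecialLinearGroup (Fin 2) F) * (a * z * a⁻¹) = (a * z * a⁻¹) * z :=
        (congrArg Subtype.val hcz).symm
      have h3 : (z : Matrix.SpecialLinearGroup (Fin 2) F) * z = 1 := by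
        rcases hkey z hzR hcz' with h | h
        · rw [h, one_mul]
        · rw [h]; exact hneg1
      have h4 : orderOf (z : S0) ∣ 2 := by
        apply orderOf_dvd_of_pow_eq_one
        apply Subtype.ext
        rw [pow_two]; exact h3
      obtain ⟨m, hm⟩ := (IsPGroup.iff_orderOf.1 hSp) z
      have h5 : orderOf (z : S0) = 1 := by
        have hc : Nat.Coprime (orderOf (z : S0)) 2 := by
          rw [hm]
          exact ((Nat.coprime_primes hr Nat.prime_two).2 hr2).pow_left m
        exact Nat.Coprime.eq_one_of_dvd hc h4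
      apply hz1
      apply Subtype.ext
      exact orderOf_eq_one_iff.1 h5
    rw [IsPGroup.iff_card]
    exact ⟨_, Nat.eq_prime_pow_of_unique_prime_dvd Nat.card_pos.ne' (fun {r} hr hd => hall r hr hd)⟩
  have hRcop : ∀ r ∈ R, (orderOf r).Coprime p := fun r hr =>
    Nat.Coprime.coprime_dvd_left (Subgroup.orderOf_dvd_natCard R hr) hR
  -- unique involution
  have hinv : ∀ x ∈ R, orderOf x = 2 → x = -1 := by
    intro x hx ho
    have h1 : x ^ 2 = 1 := by
      have := pow_orderOf_eq_one x
      rwa [ho] at this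
    have h2 : ((x : Matrix (Fin 2) (Fin 2) F) - 1) * ((x : Matrix (Fin 2) (Fin 2) F) + 1) = 0 := by
      have h3 : (x : Matrix (Fin 2) (Fin 2) F) * x = 1 := by
        have := congrArg Subtype.val h1
        rw [pow_two] at this; exact this
      rw [sub_mul, mul_add, h3, mul_one, one_mul]; abel
    have h3 := congrArg Matrix.det h2
    rw [Matrix.det_mul, Matrix.det_zero] at h3
    rcases lemU' hp (hRcop x hx) (mul_eq_zero.1 h3) with h | h
    · exfalso
      rw [h, orderOf_one] at ho
      omega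
    · exact h
  -- conclusions
  have hnab : ¬ ∀ r ∈ R, r * (a * r * a⁻¹) = (a * r * a⁻¹) * r := by
    intro hall
    apply hnt
    rw [eq_bot_iff, commutator_le]
    intro r hr b hb
    have h1 : Commute r a := by
      rcases hkey r hr (hall r hr) with h | h
      · rw [h]; exact Commute.one_left a
      · rw [h]
        show (-1 : Matrix.SpecialLinearGroup (Fin 2) F) * a = a * (-1)
        simp
    obtain ⟨k, rfl⟩ := hb
    have h2 : Commute r (a ^ k) := h1.zpow_right k
    rw [mem_bot]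
    show r * a ^ k * r⁻¹ * (a ^ k)⁻¹ = 1
    rw [h2.eq]; group
  have hquat : ∃ m : ℕ, 1 ≤ m ∧ Nonempty (R ≃* QuaternionGroup (2 ^ m)) := by
    rcases H4.cyclic_or_quaternion h2R (fun x hx y hy ox oy => by
      rw [hinv x hx ox, hinv y hy oy]) with h | h
    · exfalso
      apply hnab
      intro r hr
      haveI := h
      exact congrArg Subtype.val (IsMulCommutative.is_comm.comm (⟨r, hr⟩ : R) ⟨_, haRm r hr⟩)
    · exact h
  obtain ⟨m, hm1, ⟨e⟩⟩ := hquat
  have hm : m = 1 := by
    by_contra hne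
    have hm2 : 2 ≤ m := by omega
    haveI : NeZero (2 ^ m) := ⟨by positivity⟩
    set r : R := e.symm (QuaternionGroup.a 1) with hr
    have hor : orderOf r = 2 * 2 ^ m := by
      rw [hr, MulEquiv.orderOf_eq]
      exact QuaternionGroup.orderOf_a_one
    have h8 : 8 ≤ orderOf r := by
      rw [hor]
      have : 2 ^ 2 ≤ 2 ^ m := Nat.pow_le_pow_right (by norm_num) hm2
      omega
    set r' : R := ⟨a * (r : Matrix.SpecialLinearGroup (Fin 2) F) * a⁻¹, haRm _ r.2⟩ with hr'
    have hor' : orderOf r' = orderOf r := by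
      rw [← Subgroup.orderOf_coe, ← Subgroup.orderOf_coe]
      show orderOf (a * (r : Matrix.SpecialLinearGroup (Fin 2) F) * a⁻¹) = _
      have h1 : a * (r : Matrix.SpecialLinearGroup (Fin 2) F) * a⁻¹ = MulAut.conj a r := rfl
      rw [h1]; exact MulEquiv.orderOf_eq _ _
    have hcomm : (r : R) * r' = r' * r := by
      apply e.injective
      rw [map_mul, map_mul]
      have h1 : e r = QuaternionGroup.a 1 := by rw [hr]; simp
      have h2 : orderOf (e r') = orderOf r := by rw [MulEquiv.orderOf_eq, hor']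
      rw [h1]
      cases h3 : e r' with
      | a k => simp [add_comm]
      | xa k =>
        exfalso
        rw [h3, QuaternionGroup.orderOf_xa] at h2
        omega
    have h1 := hkey r r.2 (congrArg Subtype.val hcomm)
    have h2 : (r : Matrix.SpecialLinearGroup (Fin 2) F) * r = 1 := by
      rcases h1 with h | h
      · rw [h, one_mul]
      · rw [h]; exact hneg1
    have h3 : orderOf r ∣ 2 := by
      apply orderOf_dvd_of_pow_eq_one
      apply Subtype.ext
      rw [pow_two]; exact h2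
    have := Nat.le_of_dvd (by norm_num) h3
    omega
  subst hm
  have e2 : R ≃* QuaternionGroup 2 := e
  -- p = 3
  set Y := R ⊔ zpowers a with hY
  have hRY : R ≤ Y := le_sup_left
  have hYN : Y ≤ normalizer (R : Set (Matrix.SpecialLinearGroup (Fin 2) F)) :=
    sup_le le_normalizer haN
  haveI hXn : (R.subgroupOf Y).Normal := normal_subgroupOf_of_le_normalizer hYN
  have eX : (R.subgroupOf Y) ≃* QuaternionGroup 2 := (subgroupOfEquivOfLe hRY).trans e2
  set g : Y := ⟨a, (le_sup_right : zpowers a ≤ Y) (mem_zpowers a)⟩ with hg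
  have hog : orderOf g = p := by rw [hg, Subgroup.orderOf_mk]; exact hao
  have hgC : g ∉ centralizer ((R.subgroupOf Y : Subgroup Y) : Set Y) := by
    intro hcon
    apply hnab
    intro r hr
    have h1 := mem_centralizer_iff.1 hcon ⟨r, hRY hr⟩ (mem_subgroupOf.2 hr)
    have h2 : r * a = a * r := congrArg Subtype.val h1
    rw [← h2]; group
  have hgodd : Odd (orderOf g) := by rw [hog]; exact (Fact.out : p.Prime).odd_of_ne_two hp
  have htop : (R.subgroupOf Y) ⊔ zpowers g = ⊤ := by
    apply Subgroup.map_injective Y.subtype_injective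
    rw [Subgroup.map_sup, subgroupOf_map_subtype, inf_of_le_left hRY, MonoidHom.map_zpowers,
      ← MonoidHom.range_eq_map, Subgroup.range_subtype]
    exact hY.symm
  have hp3 : p = 3 := by
    set α : MulAut (R.subgroupOf Y) := MulAut.conjNormal g with hα
    set f : MulAut (QuaternionGroup 2) := (MulAut.congr eX) α with hf
    have hdvd : orderOf f ∣ p := by
      rw [hf, MulEquiv.orderOf_eq, ← hog, hα]
      exact orderOf_map_dvd (MulAut.conjNormal (H := R.subgroupOf Y)) g
    have hf1 : f ≠ 1 := by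
      intro h1
      have h2 : α = 1 := by
        have : (MulAut.congr eX) α = (MulAut.congr eX) 1 := by rw [map_one]; exact h1
        exact (MulAut.congr eX).injective this
      apply hgC
      rw [mem_centralizer_iff]
      intro x hx
      have h3 : (α ⟨x, hx⟩ : Y) = x := by rw [h2]; rfl
      have h4 : g * x * g⁻¹ = x := h3
      calc x * g = (g * x * g⁻¹) * g := by rw [h4]
        _ = g * x := by group
    have hof : orderOf f = p := ((Nat.dvd_prime Fact.out).1 hdvd).resolve_left
      (fun h => hf1 (orderOf_eq_one_iff.1 h))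
    have h3 := H2.Q8SL.pow3 f (by rw [hof]; exact (Fact.out : p.Prime).odd_of_ne_two hp)
    have h4 : p ∣ 3 := by rw [← hof]; exact orderOf_dvd_of_pow_eq_one h3
    exact (Nat.prime_dvd_prime_iff_eq Fact.out Nat.prime_three).1 h4
  refine ⟨hp3, ⟨e2⟩, ?_⟩
  obtain ⟨K, hK, ⟨eK⟩⟩ := H2.Q8SL.exists_quotient (R.subgroupOf Y) eX g hgodd hgC htop
  have hcardY : Nat.card Y = 24 := by
    rw [hY, H1.card_sup_of_coprime haN hcopa.symm, Nat.card_zpowers, hao, hp3,
      Nat.card_congr e2.toEquiv, Nat.card_eq_fintype_card, QuaternionGroup.card]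
  have hcardQ : Nat.card (Y ⧸ K) = 24 := by
    rw [Nat.card_congr eK.toEquiv]; exact H18.card_SL23
  have hKb : K = ⊥ := by
    have h1 := Subgroup.card_eq_card_quotient_mul_card_subgroup K
    rw [hcardY, hcardQ] at h1
    exact Subgroup.card_eq_one.1 (by omega)
  subst hKb
  exact ⟨QuotientGroup.quotientBot.symm.trans eK⟩

end Cfsg.Agent.S3740
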