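import Cfsg.Statements.S3741
import Cfsg.Agent.H23.Coprime5

set_option autoImplicit false
set_option linter.all false
open Cfsg

namespace Cfsg.Agent.S3741

section aux
open Subgroup
open scoped Pointwise commutatorElement

theorem central_of_small {G : Type*} [Group G] [Finite G] {p : ℕ} [Fact p.Prime] (hG : IsPGroup p G)
    (A Z : Subgroup G) (hZ : Nat.card Z ≤ p) (hn : A ≤ normalizer (Z : Set G)) : ⁅Z, A⁆ = ⊥ := by
  by_contra hne
  have hZ1 : Z ≠ ⊥ := by
    rintro rfl
    apply hne
    rw [commutator_eq_bot_iff_le_centralizer]; exact bot_le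
  have h1 := H23.commutator_lt_of_isPGroup (hG.to_subgroup Z) (hG.to_subgroup A) hn hZ1
  have h2 : p ∣ Nat.card (⁅Z, A⁆ : Subgroup G) := by
    obtain ⟨n, hn⟩ := IsPGroup.iff_card.mp (hG.to_subgroup ⁅Z, A⁆)
    rw [hn]
    apply dvd_pow_self
    rintro rfl
    rw [pow_zero] at hn
    exact hne (Subgroup.card_eq_one.mp hn)
  have h3 := Nat.le_of_dvd Nat.card_pos h2
  have h4 := H1.card_lt_of_lt' h1
  omega

theorem count {G : Type*} [Group G] [Finite G] {p : ℕ} [Fact p.Prime] (hG : IsPGroup p G)
    (A B : Subgroup G) (hcard : Nat.card ↥⁅A, B⁆ ≤ p) (hZA : ⁅⁅A, B⁆, B⁆ = ⊥) [Fintype A] :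
    p * ∑ a : A, Nat.card {b : B // (a : G) * b = b * a} =
      Nat.card A * Nat.card B +
        (p - 1) * Nat.card (A ⊓ centralizer (B : Set G) : Subgroup G) * Nat.card B := by
  classical
  have hp1 : 1 ≤ p := (Fact.out : p.Prime).one_le
  have hcomm : ∀ z ∈ ⁅A, B⁆, ∀ b ∈ B, b * z = z * b := by
    intro z hz b hb
    rw [commutator_eq_bot_iff_le_centralizer] at hZA
    exact mem_centralizer_iff.mp (hZA hz) b hb
  have key : ∀ a : A, p * Nat.card {b : B // (a : G) * b = b * a} =
      Nat.card B + if (a : G) ∈ centralizer (B : Set G) then (p - 1) * Nat.card B else 0 := by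
    intro a
    let φ : B →* G :=
      { toFun := fun b => ⁅(a : G), b⁆
        map_one' := commutatorElement_one_right _
        map_mul' := by
          intro x y
          have h1 : ⁅(a : G), (x : G) * y⁆ = ⁅(a : G), (x : G)⁆ * (x * ⁅(a : G), (y : G)⁆ * (x : G)⁻¹) := by
            simp only [commutatorElement_def]; group
          have h2 := hcomm _ (commutator_mem_commutator a.2 y.2) x x.2
          show ⁅(a : G), ((x * y : B) : G)⁆ = _
          rw [Subgroup.coe_mul, h1, h2, mul_inv_cancel_right] }
    have hker : Nat.card φ.ker = Nat.card {b : B // (a : G) * b = b * a} := by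
      apply Nat.card_congr
      refine Equiv.subtypeEquivRight fun b => ?_
      rw [MonoidHom.mem_ker]
      exact commutatorElement_eq_one_iff_mul_comm
    have hidx : Nat.card φ.ker * Nat.card φ.range = Nat.card B := by
      rw [← Subgroup.index_ker]; exact φ.ker.card_mul_index
    have hrange : φ.range ≤ ⁅A, B⁆ := by
      rintro _ ⟨b, rfl⟩
      exact commutator_mem_commutator a.2 b.2
    split_ifs with h
    · have h1 : φ.ker = ⊤ := by
        rw [eq_top_iff]
        intro b _
        rw [MonoidHom.mem_ker]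
        exact commutatorElement_eq_one_iff_mul_comm.mpr (mem_centralizer_iff.mp h b b.2).symm
      rw [← hker, h1, Subgroup.card_top]
      obtain ⟨q, rfl⟩ : ∃ q, p = q + 1 := ⟨p - 1, by omega⟩
      rw [Nat.add_sub_cancel]; ring
    · have h1 : φ.range ≠ ⊥ := by
        intro h2
        apply h
        rw [mem_centralizer_iff]
        intro b hb
        have h3 : φ ⟨b, hb⟩ ∈ φ.range := ⟨_, rfl⟩
        rw [h2, mem_bot] at h3
        exact (commutatorElement_eq_one_iff_mul_comm.mp h3).symm
      have h2 : p ∣ Nat.card φ.range := by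
        obtain ⟨n, hn⟩ := IsPGroup.iff_card.mp (hG.to_subgroup φ.range)
        rw [hn]
        apply dvd_pow_self
        rintro rfl
        rw [pow_zero] at hn
        exact h1 (Subgroup.card_eq_one.mp hn)
      have h3 : Nat.card φ.range = p := by
        apply le_antisymm
        · exact (Nat.le_of_dvd Nat.card_pos (card_dvd_of_le hrange)).trans hcard
        · exact Nat.le_of_dvd Nat.card_pos h2
      rw [← hker, ← hidx, h3]; ring
  rw [Finset.mul_sum, Finset.sum_congr rfl fun a _ => key a, Finset.sum_add_distrib,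
    Finset.sum_const, Finset.card_univ, ← Nat.card_eq_fintype_card, smul_eq_mul, Finset.sum_ite,
    Finset.sum_const_zero, add_zero, Finset.sum_const, smul_eq_mul]
  congr 1
  have h5 : (Finset.univ.filter fun a : A => (a : G) ∈ centralizer (B : Set G)).card =
      Nat.card (A ⊓ centralizer (B : Set G) : Subgroup G) := by
    rw [← Fintype.card_subtype, ← Nat.card_eq_fintype_card]
    apply Nat.card_congr
    exact
      { toFun := fun x => ⟨x.1, mem_inf.mpr ⟨x.1.2, x.2⟩⟩
        invFun := fun x => ⟨⟨x.1, (mem_inf.mp x.2).1⟩, (mem_inf.mp x.2).2⟩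
        left_inv := fun x => rfl
        right_inv := fun x => rfl }
  rw [h5]; ring

theorem aux {G : Type*} [Group G] [Finite G] {p : ℕ} [Fact p.Prime] (hG : IsPGroup p G) (A B : Subgroup G) (hAB : ⁅A, B⁆ ≤ A ⊓ B) (hcard : Nat.card ↥⁅A, B⁆ ≤ p) : (A ⊓ Subgroup.centralizer (B : Set G)).relIndex A = (B ⊓ Subgroup.centralizer (A : Set G)).relIndex B := by
  classical
  haveI : Fintype A := Fintype.ofFinite A
  haveI : Fintype B := Fintype.ofFinite B
  have hZA : ⁅⁅A, B⁆, A⁆ = ⊥ := central_of_small hG A _ hcard (normalizer_commutator_ge_left A B)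
  have hZB : ⁅⁅A, B⁆, B⁆ = ⊥ := central_of_small hG B _ hcard (normalizer_commutator_ge_right A B)
  have h1 := count hG A B hcard hZB
  have h2 := count hG B A (by rw [commutator_comm]; exact hcard) (by rw [commutator_comm B A]; exact hZA)
  have h3 : ∑ a : A, Nat.card {b : B // (a : G) * b = b * a} =
      ∑ b : B, Nat.card {a : A // (b : G) * a = a * b} := by
    have e1 : ∀ a : A, Nat.card {b : B // (a : G) * b = b * a} =
        ∑ b : B, if (a : G) * b = b * a then 1 else 0 := by
      intro a
      rw [Finset.sum_boole, Nat.card_eq_fintype_card, Fintype.card_subtype]; rfl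
    have e2 : ∀ b : B, Nat.card {a : A // (b : G) * a = a * b} =
        ∑ a : A, if (a : G) * b = b * a then 1 else 0 := by
      intro b
      rw [Finset.sum_boole, Nat.card_eq_fintype_card, Fintype.card_subtype]
      congr 2
      ext a
      exact eq_comm
    rw [Finset.sum_congr rfl fun a _ => e1 a, Finset.sum_congr rfl fun b _ => e2 b, Finset.sum_comm]
  rw [h3, h2] at h1
  have hA : (A ⊓ centralizer (B : Set G)).relIndex A * Nat.card (A ⊓ centralizer (B : Set G) : Subgroup G) =
      Nat.card A := by
    rw [mul_comm]; exact H1.card_mul_relIndex inf_le_left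
  have hB : (B ⊓ centralizer (A : Set G)).relIndex B * Nat.card (B ⊓ centralizer (A : Set G) : Subgroup G) =
      Nat.card B := by
    rw [mul_comm]; exact H1.card_mul_relIndex inf_le_left
  set iA := (A ⊓ centralizer (B : Set G)).relIndex A
  set iB := (B ⊓ centralizer (A : Set G)).relIndex B
  set cA := Nat.card (A ⊓ centralizer (B : Set G) : Subgroup G) with hcA
  set cB := Nat.card (B ⊓ centralizer (A : Set G) : Subgroup G) with hcB
  have hcA0 : 0 < cA := Nat.card_pos
  have hcB0 : 0 < cB := Nat.card_pos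
  have hp2 : 0 < p - 1 := Nat.sub_pos_of_lt (Fact.out : p.Prime).one_lt
  have h4 : (p - 1) * cB * Nat.card A = (p - 1) * cA * Nat.card B := by
    have : Nat.card B * Nat.card A = Nat.card A * Nat.card B := mul_comm _ _
    omega
  rw [← hA, ← hB] at h4
  have h5 : ((p - 1) * cA * cB) * iA = ((p - 1) * cA * cB) * iB := by
    calc ((p - 1) * cA * cB) * iA = (p - 1) * cB * (iA * cA) := by ring
      _ = (p - 1) * cA * (iB * cB) := h4
      _ = ((p - 1) * cA * cB) * iB := by ring
  exact Nat.eq_of_mul_eq_mul_left (by positivity) h5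

end aux

/-- Let A and B be subgroups of a finite p-group with [A, B] ≤ A ∩ B and [A, B] of order at most p. Then |A : C_A(B)| = |B : C_B(A)|. -/
theorem result {G : Type*} [Group G] [Finite G] {p : ℕ} [Fact p.Prime] (hG : IsPGroup p G) (A B : Subgroup G) (hAB : ⁅A, B⁆ ≤ A ⊓ B) (hcard : Nat.card ↥⁅A, B⁆ ≤ p) : (A ⊓ Subgroup.centralizer (B : Set G)).relIndex A = (B ⊓ Subgroup.centralizer (A : Set G)).relIndex B := by
  exact aux hG A B hAB hcard

end Cfsg.Agent.S3741
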