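import Cfsg.Statements.S3742
import Cfsg.Agent.H12.QuatAut

set_option autoImplicit false
open Cfsg

namespace Cfsg.Agent.S3742


open QuaternionGroup Cfsg.Agent.H12.QA

/-- representatives of the four diagonals -/
def rep : Fin 4 → Q8 × Q8
  | 0 => (a 1, xa 0)
  | 1 => (a 1, xa 2)
  | 2 => (a 3, xa 0)
  | 3 => (a 3, xa 2)

/-- the six pairs attached to the diagonal of a pair -/
def eqv (p q : Q8 × Q8) : Prop :=
  q = p ∨ q = (p.2, p.1 * p.2) ∨ q = (p.1 * p.2, p.1) ∨ q = (p.2⁻¹, p.1⁻¹) ∨
    q = (p.1⁻¹, (p.1 * p.2)⁻¹) ∨ q = ((p.1 * p.2)⁻¹, p.2⁻¹)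

instance (p q : Q8 × Q8) : Decidable (eqv p q) := by unfold eqv; infer_instance

/-- the label of a pair -/
def L (p : Q8 × Q8) : Fin 4 :=
  if eqv p (rep 0) then 0 else if eqv p (rep 1) then 1 else if eqv p (rep 2) then 2 else 3

theorem L_spec : ∀ x y : Q8, qvalid x y → eqv (x, y) (rep (L (x, y))) := by decide

theorem L_inv : ∀ x y x' y' : Q8, qvalid x y → eqv (x, y) (x', y') → L (x, y) = L (x', y') := by
  have h : ∀ x y : Q8, qvalid x y → L (y, x * y) = L (x, y) ∧ L (x * y, x) = L (x, y) ∧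
    L (y⁻¹, x⁻¹) = L (x, y) ∧ L (x⁻¹, (x * y)⁻¹) = L (x, y) ∧ L ((x * y)⁻¹, y⁻¹) = L (x, y) := by
    decide
  intro x y x' y' hv he
  obtain ⟨h1, h2, h3, h4, h5⟩ := h x y hv
  rcases he with he | he | he | he | he | he <;> rw [he]
  · exact h1.symm
  · exact h2.symm
  · exact h3.symm
  · exact h4.symm
  · exact h5.symm

theorem rep_valid : ∀ t, qvalid (rep t).1 (rep t).2 := by decide

theorem valid_map (f : MulAut Q8) {x y : Q8} (h : qvalid x y) : qvalid (f x) (f y) := by
  have h2 : f (a 2) = a 2 := by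
    have h1 := (valid_of_aut f).1
    rw [← map_mul, show (a 1 * a 1 : Q8) = a 2 by decide] at h1
    exact h1
  obtain ⟨h1, h3, h4⟩ := h
  refine ⟨?_, ?_, ?_⟩
  · rw [← map_mul, h1, h2]
  · rw [← map_mul, h3, h2]
  · rw [← map_inv, ← map_mul, ← map_mul, h4]

theorem eqv_map (f : MulAut Q8) {p q : Q8 × Q8} (h : eqv p q) :
    eqv (f p.1, f p.2) (f q.1, f q.2) := by
  unfold eqv at h ⊢
  rcases h with h | h | h | h | h | h <;> rw [h] <;> simp

/-- the action on diagonals -/
def act (f : MulAut Q8) (t : Fin 4) : Fin 4 := L (f (rep t).1, f (rep t).2)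

theorem act_mul (f g : MulAut Q8) (t : Fin 4) : act (f * g) t = act f (act g t) := by
  have h1 := L_spec _ _ (valid_map g (rep_valid t))
  have h2 := eqv_map f h1
  have h3 := L_inv _ _ _ _ (valid_map f (valid_map g (rep_valid t))) h2
  exact h3

theorem act_one : ∀ t, act 1 t = t := by decide

/-- the homomorphism to `S₄` -/
def hom : MulAut Q8 →* Equiv.Perm (Fin 4) :=
  MonoidHom.toHomPerm
    { toFun := fun f => (act f : Function.End (Fin 4))
      map_one' := funext act_one
      map_mul' := fun f g => funext (act_mul f g) }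

theorem hom_apply (f : MulAut Q8) (t : Fin 4) : hom f t = act f t := rfl

theorem ker_dec : ∀ u v : Q8, qvalid u v → (∀ t, L (qf u v (rep t).1, qf u v (rep t).2) = t) →
    u = a 1 ∧ v = xa 0 := by decide

theorem hom_inj : Function.Injective hom := by
  rw [injective_iff_map_eq_one]
  intro f hf
  have h1 : ∀ t, L (qf (f (a 1)) (f (xa 0)) (rep t).1, qf (f (a 1)) (f (xa 0)) (rep t).2) = t := by
    intro t
    have := congrArg (fun s : Equiv.Perm (Fin 4) => s t) hf
    simp only [hom_apply, Equiv.Perm.one_apply] at this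
    rw [← qf_apply, ← qf_apply]
    exact this
  obtain ⟨h2, h3⟩ := ker_dec _ _ (valid_of_aut f) h1
  ext x
  rw [qf_apply f x, h2, h3]
  exact (qf_apply 1 x).symm

theorem qf_mul : ∀ u v : Q8, qvalid u v → ∀ x y, qf u v (x * y) = qf u v x * qf u v y := by decide

/-- the automorphism of a valid pair -/
def aut (p : {p : Q8 × Q8 // qvalid p.1 p.2}) : MulAut Q8 where
  toFun := qf p.1.1 p.1.2
  invFun := (qf p.1.1 p.1.2)^[11]
  left_inv x := by
    rw [← Function.iterate_succ_apply]; exact iter12 _ _ p.2 x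
  right_inv x := by
    have := iter12 _ _ p.2 x
    rwa [Function.iterate_succ_apply'] at this
  map_mul' := qf_mul _ _ p.2

theorem aut_inj : Function.Injective aut := by
  intro p q h
  have h1 := congrArg (fun f : MulAut Q8 => f (a 1)) h
  have h2 := congrArg (fun f : MulAut Q8 => f (xa 0)) h
  apply Subtype.ext
  apply Prod.ext
  · have e : ∀ u v : Q8, qf u v (a 1) = u := by decide
    have h3 : qf p.1.1 p.1.2 (a 1) = qf q.1.1 q.1.2 (a 1) := h1
    rwa [e, e] at h3
  · have e : ∀ u v : Q8, qf u v (xa 0) = v := by decide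
    have h3 : qf p.1.1 p.1.2 (xa 0) = qf q.1.1 q.1.2 (xa 0) := h2
    rwa [e, e] at h3

theorem card_valid : Fintype.card {p : Q8 × Q8 // qvalid p.1 p.2} = 24 := by decide

/-- The automorphism group of the quaternion group of order 8 is isomorphic to the symmetric group of degree 4. -/
theorem result : Nonempty (MulAut (QuaternionGroup 2) ≃* Equiv.Perm (Fin 4)) := by
  classical
  have hfin : Finite (MulAut (QuaternionGroup 2)) := Finite.of_injective hom hom_inj
  have h1 : 24 ≤ Nat.card (MulAut (QuaternionGroup 2)) := by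
    rw [← card_valid, ← Nat.card_eq_fintype_card]
    exact Nat.card_le_card_of_injective aut aut_inj
  have h2 : Nat.card (Equiv.Perm (Fin 4)) = 24 := by
    rw [Nat.card_eq_fintype_card, Fintype.card_perm]; rfl
  have hb : Function.Bijective hom := by
    rw [Nat.bijective_iff_injective_and_card]
    refine ⟨hom_inj, le_antisymm (Nat.card_le_card_of_injective hom hom_inj) ?_⟩
    rw [h2]; exact h1
  exact ⟨MulEquiv.ofBijective hom hb⟩

end Cfsg.Agent.S3742
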