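import Cfsg.Statements.S3743
import Cfsg.Agent.H10.Basic

set_option autoImplicit false
set_option linter.all false
open Cfsg

namespace Cfsg.Agent.S3743

section aux
open Subgroup

theorem aux {G : Type*} [Group G] [Finite G] (A : Subgroup G) (hA : A.IsSubnormal) : (Group.IsNilpotent A → A ≤ Cfsg.fittingSubgroup G) ∧ ∀ π : Set ℕ, (∀ p : ℕ, p.Prime → p ∣ Nat.card A → p ∈ π) → A ≤ Cfsg.piCore π G := by
  refine ⟨fun h => H10.subnormal_nilpotent_le_fitting hA h, fun π h => ?_⟩
  obtain ⟨N, hN, hPN, hle⟩ := H10.exists_normal_of_subnormal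
    (fun L : Subgroup G => ∀ p : ℕ, p.Prime → p ∣ Nat.card L → p ∈ π) (by
      intro p hp hd
      rw [Subgroup.card_bot] at hd
      exact absurd (Nat.dvd_one.mp hd) hp.one_lt.ne')
    (fun g N hN p hp hd => by
      rw [H10.card_map_equiv] at hd; exact hN p hp hd)
    (fun K N₁ N₂ h1 h2 h3 h4 hs1 hs2 p hp hd => by
      have i1 := H10.normal_subgroupOf_of_le h3
      have e := H10.card_sup_dvd (N₁.subgroupOf K) (N₂.subgroupOf K)
      rw [← Subgroup.subgroupOf_sup h1 h2,
        Nat.card_congr (Subgroup.subgroupOfEquivOfLe (sup_le h1 h2)).toEquiv,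
        Nat.card_congr (Subgroup.subgroupOfEquivOfLe h1).toEquiv,
        Nat.card_congr (Subgroup.subgroupOfEquivOfLe h2).toEquiv] at e
      rcases (hp.dvd_mul).mp (hd.trans e) with h5 | h5
      · exact hs1 p hp h5
      · exact hs2 p hp h5) hA h
  exact hle.trans (le_sSup ⟨hN, hPN⟩)

end aux

/-- In a finite group G, every subnormal nilpotent subgroup lies in the Fitting subgroup F(G), and, for a set of primes π, every subnormal subgroup all of whose prime divisors lie in π lies in O_π(G). -/
theorem result {G : Type*} [Group G] [Finite G] (A : Subgroup G) (hA : A.IsSubnormal) : (Group.IsNilpotent A → A ≤ Cfsg.fittingSubgroup G) ∧ ∀ π : Set ℕ, (∀ p : ℕ, p.Prime → p ∣ Nat.card A → p ∈ π) → A ≤ Cfsg.piCore π G := by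
  exact aux A hA

end Cfsg.Agent.S3743
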