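import Cfsg.Statements.S3746
import Cfsg.Agent.H10.Comp2
import Cfsg.Agent.H23.ZipperVar

set_option autoImplicit false
set_option linter.all false
open Cfsg

namespace Cfsg.Agent.S3746

section aux
open Subgroup H10
open scoped Pointwise commutatorElement
universe u

theorem aux {G : Type*} [Group G] [Finite G] (Z : Subgroup G) (hZ : Z ≤ Subgroup.center G) [Z.Normal] (E : Subgroup G) (hZE : Z ≤ E) (hE : Cfsg.IsComponent (E.map (QuotientGroup.mk' Z))) : Cfsg.IsComponent ⁅E, E⁆ := by
  set π := QuotientGroup.mk' Z with hπ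
  have hker : π.ker = Z := QuotientGroup.ker_mk' Z
  have hπs : Function.Surjective π := QuotientGroup.mk'_surjective Z
  obtain ⟨hsn, hqs⟩ := hE
  have hEsn : E.IsSubnormal := by
    have h1 : ((E.map π).comap π).IsSubnormal := H23.IsSubnormal_comap π hsn
    rwa [comap_map_eq_self (by rw [hker]; exact hZE)] at h1
  -- E = E' Z
  have hperf : ⁅E.map π, E.map π⁆ = E.map π := qs_commutator_self hqs
  have hEZ : E ≤ ⁅E, E⁆ ⊔ Z := by
    rw [← map_commutator] at hperf
    have h1 : (⁅E, E⁆.map π).comap π = (E.map π).comap π := by rw [hperf]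
    rw [comap_map_eq, comap_map_eq, hker] at h1
    rw [h1]; exact le_sup_left
  have hcommZ : ∀ A : Subgroup G, ⁅A ⊔ Z, A ⊔ Z⁆ ≤ ⁅A, A⁆ := by
    intro A
    rw [commutator_le]
    intro x hx y hy
    obtain ⟨a, ha, z, hz, rfl⟩ := mem_sup_of_normal_right.mp hx
    obtain ⟨b, hb, w, hw, rfl⟩ := mem_sup_of_normal_right.mp hy
    have hz' := mem_center_iff.mp (hZ hz)
    have hw' := mem_center_iff.mp (hZ hw)
    have h1 : ⁅a * z, b * w⁆ = ⁅a, b⁆ := by
      rw [commutatorElement_def, commutatorElement_def]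
      have e1 : z * (b * w) = b * w * z := (hz' _).symm
      have e2 : w * a⁻¹ = a⁻¹ * w := (hw' _).symm
      calc a * z * (b * w) * (a * z)⁻¹ * (b * w)⁻¹ = a * (z * (b * w)) * z⁻¹ * a⁻¹ * w⁻¹ * b⁻¹ := by group
        _ = a * b * (w * a⁻¹) * w⁻¹ * b⁻¹ := by rw [e1]; group
        _ = a * b * a⁻¹ * b⁻¹ := by rw [e2]; group
    rw [h1]
    exact commutator_mem_commutator ha hb
  have hE'E : ⁅E, E⁆ ≤ E := commutator_le_self E
  have hE'p : ⁅⁅E, E⁆, ⁅E, E⁆⁆ = ⁅E, E⁆ := by
    apply le_antisymm (commutator_le_self _)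
    exact (commutator_mono hEZ hEZ).trans (hcommZ _)
  have hE'map : ⁅E, E⁆.map π = E.map π := by rw [map_commutator, hperf]
  have hne : ⁅E, E⁆ ≠ ⊥ := by
    intro h
    have h1 : E.map π = ⊥ := by rw [← hE'map, h, Subgroup.map_bot]
    have := qs_nontrivial hqs
    rw [h1] at this
    exact not_nontrivial (⊥ : Subgroup (G ⧸ Z)) this
  refine ⟨?_, ?_⟩
  · have h1 : E ≤ normalizer ((⁅E, E⁆ : Subgroup G) : Set G) := by
      rw [Subgroup.le_normalizer_iff]
      intro e he x hx
      have h2 : e * x * e⁻¹ = ⁅e, x⁆ * x := by rw [commutatorElement_def]; group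
      rw [h2]
      exact mul_mem (commutator_mem_commutator he (hE'E hx)) hx
    exact H23.IsSubnormal.of_le_normalizer hEsn hE'E h1
  · haveI : Nontrivial (⁅E, E⁆ : Subgroup G) := (nontrivial_iff_ne_bot _).mpr hne
    apply qs_of_normal
    · have := isPerfect_iff.mpr hE'p
      exact this.commutator_eq_top
    · intro N hN
      set N' := N.map (⁅E, E⁆ : Subgroup G).subtype with hN'
      have hN'E' : N' ≤ ⁅E, E⁆ := map_subtype_le N
      have hn : ∀ e ∈ ⁅E, E⁆, ∀ x ∈ N', e * x * e⁻¹ ∈ N' := by
        rintro e he _ ⟨x, hx, rfl⟩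
        exact ⟨⟨e, he⟩ * x * ⟨e, he⟩⁻¹, hN.conj_mem x hx _, rfl⟩
      have hNn : ((N'.map π).subgroupOf (E.map π)).Normal := by
        apply normal_subgroupOf_of_le_normalizer
        rw [Subgroup.le_normalizer_iff, ← hE'map]
        rintro _ ⟨e, he, rfl⟩ _ ⟨x, hx, rfl⟩
        exact ⟨_, hn e he x hx, by simp⟩
      rcases qs_normal_eq_top_or_le_center hqs hNn with h | h
      · left
        rw [subgroupOf_eq_top] at h
        have h1 : E ≤ N' ⊔ Z := by
          have h2 : E ≤ (N'.map π).comap π := fun x hx => h (mem_map_of_mem _ hx)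
          rwa [comap_map_eq, hker] at h2
        have h2 : ⁅E, E⁆ ≤ N' := (commutator_mono h1 h1).trans ((hcommZ _).trans (commutator_le_self _))
        rw [eq_top_iff]
        intro x _
        obtain ⟨y, hy, hyx⟩ := h2 x.2
        have : y = x := Subtype.ext hyx
        rwa [← this]
      · right
        have h1 : ⁅N', ⁅E, E⁆⁆ ≤ Z := by
          rw [commutator_le]
          intro x hx e he
          rw [← hker, MonoidHom.mem_ker, map_commutatorElement, commutatorElement_eq_one_iff_mul_comm]
          have h2 : (⟨π x, mem_map_of_mem _ (hE'E (hN'E' hx))⟩ : (E.map π : Subgroup _)) ∈ center (E.map π : Subgroup _) :=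
            h (mem_subgroupOf.mpr (mem_map_of_mem _ hx))
          exact (congrArg Subtype.val (mem_center_iff.mp h2 ⟨π e, mem_map_of_mem _ (hE'E he)⟩)).symm
        have h2 : ⁅⁅N', ⁅E, E⁆⁆, ⁅E, E⁆⁆ = ⊥ := by
          rw [eq_bot_iff, commutator_le]
          intro x hx e he
          rw [mem_bot, commutatorElement_eq_one_iff_mul_comm]
          exact (mem_center_iff.mp (hZ (h1 hx)) e).symm
        have h3 := commutator_eq_bot_of_perfect hE'p h2
        intro x hx
        rw [mem_center_iff]
        intro e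
        apply Subtype.ext
        have h4 := commutator_mem_commutator (mem_map_of_mem _ hx : (x : G) ∈ N') e.2
        rw [h3, mem_bot, commutatorElement_eq_one_iff_mul_comm] at h4
        exact h4.symm
end aux

/-- Let Z ≤ Z(G) be a central subgroup of a finite group G and E a subgroup of G containing Z whose image E/Z is a component of G/Z (subnormal and quasisimple). Then the derived subgroup [E, E] is a component of G. -/
theorem result {G : Type*} [Group G] [Finite G] (Z : Subgroup G) (hZ : Z ≤ Subgroup.center G) [Z.Normal] (E : Subgroup G) (hZE : Z ≤ E) (hE : Cfsg.IsComponent (E.map (QuotientGroup.mk' Z))) : Cfsg.IsComponent ⁅E, E⁆ := by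
  exact aux Z hZ E hZE hE

end Cfsg.Agent.S3746
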