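import Cfsg.Statements.S3747
import Cfsg.Agent.H10.Comp2

set_option autoImplicit false
set_option linter.all false
open Cfsg

namespace Cfsg.Agent.S3747

section aux
open Subgroup H10
open scoped Pointwise commutatorElement
universe u

/-- A join of finitely many components with trivial centres has trivial centre. -/
theorem center_join {G : Type*} [Group G] [Finite G] (T : Finset (Subgroup G))
    (h1 : ∀ K ∈ T, IsComponent K ∧ center K = ⊥) :
    ∀ x ∈ sSup (T : Set (Subgroup G)), (∀ y ∈ sSup (T : Set (Subgroup G)), y * x = x * y) → x = 1 := by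
  classical
  induction T using Finset.induction_on with
  | empty => intro x hx _; simpa using hx
  | @insert K T hKT ih =>
    intro x hx hc
    rw [Finset.coe_insert, sSup_insert] at hx hc
    have hcomm : ⁅K, sSup (T : Set (Subgroup G))⁆ = ⊥ := by
      apply commutator_sSup_eq_bot
      intro L hL
      have hL' : L ∈ T := hL
      exact comp_commutes (h1 K (Finset.mem_insert_self _ _)).1 (h1 L (Finset.mem_insert_of_mem hL')).1
        (fun h => hKT (h ▸ hL'))
    obtain ⟨y, hy, z, hz, rfl⟩ := (mem_sup_iff_of_commutes hcomm).mp hx
    have hcen : ∀ k ∈ K, ∀ l ∈ sSup (T : Set (Subgroup G)), k * l = l * k := by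
      intro k hk l hl
      have := commutator_mem_commutator hk hl
      rw [hcomm, mem_bot, commutatorElement_eq_one_iff_mul_comm] at this
      exact this
    have hy1 : y = 1 := by
      have h2 := (h1 K (Finset.mem_insert_self _ _)).2
      have h3 : (⟨y, hy⟩ : K) ∈ center K := by
        rw [mem_center_iff]
        intro k
        apply Subtype.ext
        have h4 := hc k (mem_sup_left k.2)
        have h5 := hcen k k.2 z hz
        show (k : G) * y = y * k
        have h6 : (k : G) * y * z = y * k * z := by
          rw [mul_assoc, h4, mul_assoc, mul_assoc, h5]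
        exact mul_right_cancel h6
      rw [h2, mem_bot] at h3
      exact congrArg Subtype.val h3
    rw [hy1, one_mul] at hc ⊢
    exact ih (fun L hL => h1 L (Finset.mem_insert_of_mem hL)) z hz (fun l hl => hc l (mem_sup_right hl))

theorem comp_conj {G : Type*} [Group G] {K : Subgroup G} (hK : IsComponent K) (g : G) :
    IsComponent (K.map (MulAut.conj g).toMonoidHom) := component_map_equiv (MulAut.conj g) hK

theorem center_conj {G : Type*} [Group G] {K : Subgroup G} (hK : center K = ⊥) (g : G) :
    center (K.map (MulAut.conj g).toMonoidHom) = ⊥ := by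
  rw [eq_bot_iff]
  rintro ⟨x, hx⟩ hx1
  obtain ⟨y, hy, rfl⟩ := hx
  have h1 : (⟨y, hy⟩ : K) ∈ center K := by
    rw [mem_center_iff]
    intro k
    rw [mem_center_iff] at hx1
    have h2 := congrArg Subtype.val (hx1 ⟨_, mem_map_of_mem _ k.2⟩)
    apply Subtype.ext
    have h3 : (MulAut.conj g) ((k : G) * y) = (MulAut.conj g) (y * k) := by
      rw [map_mul, map_mul]; exact h2
    exact (MulAut.conj g).injective h3
  rw [hK, mem_bot] at h1
  have h2 : y = 1 := congrArg Subtype.val h1
  rw [mem_bot]
  apply Subtype.ext
  show (MulAut.conj g) y = 1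
  rw [h2, map_one]

theorem normalClosure_eq_sSup {G : Type*} [Group G] (K : Subgroup G) :
    normalClosure (K : Set G) = sSup (Set.range fun g : G => K.map (MulAut.conj g).toMonoidHom) := by
  apply le_antisymm
  · haveI : (sSup (Set.range fun g : G => K.map (MulAut.conj g).toMonoidHom)).Normal := by
      constructor
      intro n hn g
      have h1 : sSup (Set.range fun g : G => K.map (MulAut.conj g).toMonoidHom) ≤
          (sSup (Set.range fun g : G => K.map (MulAut.conj g).toMonoidHom)).comap (MulAut.conj g).toMonoidHom := by
        apply sSup_le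
        rintro _ ⟨a, rfl⟩
        have h2 : K.map (MulAut.conj (g * a)).toMonoidHom ≤ sSup (Set.range fun g : G => K.map (MulAut.conj g).toMonoidHom) :=
          le_sSup ⟨g * a, rfl⟩
        rw [← map_le_iff_le_comap]
        refine le_trans ?_ h2
        rintro _ ⟨_, ⟨y, hy, rfl⟩, rfl⟩
        refine ⟨y, hy, ?_⟩
        simp [mul_assoc]
      exact h1 hn
    apply normalClosure_le_normal
    have : K.map (MulAut.conj (1 : G)).toMonoidHom ≤ sSup (Set.range fun g : G => K.map (MulAut.conj g).toMonoidHom) :=
      le_sSup ⟨1, rfl⟩
    intro x hx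
    exact this ⟨x, hx, by simp⟩
  · apply sSup_le
    rintro _ ⟨g, rfl⟩
    rintro _ ⟨x, hx, rfl⟩
    exact (normalClosure_normal (s := (K : Set G))).conj_mem x (subset_normalClosure hx) g

theorem partA {G : Type*} [Group G] [Finite G] (K : Subgroup G) (hK : Cfsg.IsComponent K) (hZ : center K = ⊥) :
    normalClosure (K : Set G) ≠ ⊥ ∧ ∀ N : Subgroup G, N.Normal → N ≤ normalClosure (K : Set G) →
      N = ⊥ ∨ N = normalClosure (K : Set G) := by
  refine ⟨?_, ?_⟩
  · intro h
    apply comp_ne_bot hK
    rw [eq_bot_iff, ← h]
    exact le_normalClosure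
  · intro N hN hNK
    rcases comp_le_or_commutes_normal hK hN with h | h
    · right
      exact le_antisymm hNK (normalClosure_le_normal h)
    · left
      rw [eq_bot_iff]
      intro x hx
      have hx1 := hNK hx
      have hcomm : ∀ y ∈ normalClosure (K : Set G), y * x = x * y := by
        have h1 : N ≤ centralizer (K : Set G) := commutator_eq_bot_iff_le_centralizer.mp h
        have h2 : normalClosure (K : Set G) ≤ centralizer (N : Set G) := by
          apply normalClosure_le_normal
          intro k hk
          rw [SetLike.mem_coe, mem_centralizer_iff]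
          intro n hn
          exact (mem_centralizer_iff.mp (h1 hn) k hk).symm
        intro y hy
        exact (mem_centralizer_iff.mp (h2 hy) x hx).symm
      classical
      have hfin : (Set.range fun g : G => K.map (MulAut.conj g).toMonoidHom).Finite := Set.toFinite _
      have h3 := center_join (hfin.toFinset) (by
        intro L hL
        rw [Set.Finite.mem_toFinset] at hL
        obtain ⟨g, rfl⟩ := hL
        exact ⟨comp_conj hK g, center_conj hZ g⟩)
      rw [Set.Finite.coe_toFinset, ← normalClosure_eq_sSup] at h3
      exact h3 x hx1 hcomm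

theorem partB {G : Type*} [Group G] [Finite G] (hF : Cfsg.fittingSubgroup G = ⊥) :
    sSup {N : Subgroup G | N ≠ ⊥ ∧ N.Normal ∧ ∀ N' : Subgroup G, N'.Normal → N' ≤ N → N' = ⊥ ∨ N' = N} = Cfsg.layer G := by
  have hE : generalizedFittingSubgroup G = layer G := by
    rw [generalizedFittingSubgroup, hF, sup_bot_eq]
  apply le_antisymm
  · apply sSup_le
    rintro N ⟨hN1, hN2, hN3⟩
    haveI := layer_normal G
    rcases hN3 (N ⊓ layer G) inferInstance inf_le_left with h | h
    · exfalso
      apply hN1
      have h1 : ⁅N, layer G⁆ = ⊥ := by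
        rw [eq_bot_iff, ← h]
        exact commutator_le_inf _ _
      have h2 : N ≤ centralizer (layer G : Set G) := commutator_eq_bot_iff_le_centralizer.mp h1
      have h3 := centralizer_genFitting_le_fitting (G := G)
      rw [hE, hF] at h3
      exact le_bot_iff.mp (h2.trans h3)
    · exact inf_eq_left.mp h
  · apply sSup_le
    intro K hK
    have hZ : center K = ⊥ := by
      have h1 := center_subnormal_le_fitting hK.1
      rw [hF, le_bot_iff, map_eq_bot_iff_of_injective _ K.subtype_injective] at h1
      exact h1
    have h2 := partA K hK hZ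
    exact le_trans le_normalClosure (le_sSup ⟨h2.1, normalClosure_normal, h2.2⟩)
end aux

/-- Let G be a finite group. (a) If K is a component of G with trivial centre, then the normal closure of K in G is a minimal normal subgroup of G. (b) If the Fitting subgroup of G is trivial, then the layer E(G) is generated by the minimal normal subgroups of G. -/
theorem result {G : Type*} [Group G] [Finite G] : (∀ K : Subgroup G, Cfsg.IsComponent K → Subgroup.center ↥K = ⊥ → (Subgroup.normalClosure (K : Set G) ≠ ⊥ ∧ ∀ N : Subgroup G, N.Normal → N ≤ Subgroup.normalClosure (K : Set G) → N = ⊥ ∨ N = Subgroup.normalClosure (K : Set G))) ∧ (Cfsg.fittingSubgroup G = ⊥ → sSup {N : Subgroup G | N ≠ ⊥ ∧ N.Normal ∧ ∀ N' : Subgroup G, N'.Normal → N' ≤ N → N' = ⊥ ∨ N' = N} = Cfsg.layer G) := by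
  exact ⟨fun K hK hZ => partA K hK hZ, fun hF => partB hF⟩

end Cfsg.Agent.S3747
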