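import Cfsg.Statements.S3749
import Cfsg.Agent.H23.Subnormal2
import Cfsg.Agent.H10.Basic
import Cfsg.Agent.H23.HHRed

set_option autoImplicit false
set_option linter.all false
open Cfsg

namespace Cfsg.Agent.S3749

section aux
open Subgroup
open scoped Pointwise

theorem aux {G : Type*} [Group G] [Finite G] (M : Subgroup G) (hM : M ≠ ⊤) (hprim : ∀ N : Subgroup G, N ≤ M → M ≤ Subgroup.normalizer (N : Set G) → N ≠ ⊥ → Subgroup.normalizer (N : Set G) = M) {p : ℕ} [Fact p.Prime] (hOp : Cfsg.pCore p ↥M ≠ ⊥) (N : Subgroup G) [N.Normal] (hMN : M ⊓ N = ⊥) : ¬ p ∣ Nat.card N ∧ (∀ q : ℕ, [Fact q.Prime] → ∃! Q : Sylow q ↥N, M ≤ Subgroup.normalizer ((Q : Subgroup ↥N).map N.subtype : Set G)) ∧ ((∃ q r : ℕ, q.Prime ∧ r.Prime ∧ q ≠ r ∧ q ∣ Nat.card N ∧ r ∣ Nat.card N) → ¬ IsCoatom M) := by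
  -- `P = O_p(M)` inside `G`
  set P : Subgroup G := (Cfsg.pCore p M).map M.subtype with hP
  have hPM : P ≤ M := map_subtype_le _
  have hMP : M ≤ normalizer (P : Set G) := by
    haveI : (Cfsg.pCore p M).Characteristic := H10.pCore_characteristic p M
    exact le_normalizer.trans (H23.normalizer_le_normalizer_map (P := M) (Cfsg.pCore p M))
  have hP1 : P ≠ ⊥ := by
    rw [hP, Ne, H23.map_subtype_eq_bot_iff]; exact hOp
  have hNP := hprim P hPM hMP hP1
  have hPp : IsPGroup p P := (H1.pCore_isPGroup p M).map _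
  have hC : N ⊓ centralizer (P : Set G) = ⊥ := by
    rw [eq_bot_iff, ← hMN]
    refine le_inf ?_ inf_le_left
    rw [← hNP]
    exact inf_le_right.trans (centralizer_le_normalizer _)
  have hGN : ∀ A : Subgroup G, A ≤ normalizer (N : Set G) := by
    intro A; rw [normalizer_eq_top]; exact le_top
  have h1 := H23.not_dvd_card_of_inf_centralizer_eq_bot hPp (hGN P) hC
  have hcop : (Nat.card P).Coprime (Nat.card N) := by
    obtain ⟨k, hk⟩ := IsPGroup.iff_card.mp hPp
    rw [hk]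
    exact Nat.Coprime.pow_left _ ((Fact.out : p.Prime).coprime_iff_not_dvd.mpr h1)
  have hPs : Group.IsSolvable P ∨ Group.IsSolvable N := Or.inl (H23.isSolvable_of_isPGroup hPp)
  -- uniqueness of `P`-invariant Sylow subgroups
  have huniq : ∀ (q : ℕ) (_ : Fact q.Prime) (Q R : Subgroup G), H23.IsSylowOf q Q N →
      H23.IsSylowOf q R N → P ≤ normalizer (Q : Set G) → P ≤ normalizer (R : Set G) → Q = R := by
    intro q hq Q R hQ hR hPQ hPR
    obtain ⟨c, hc, hcQ⟩ := H23.invariant_sylow_conj (hGN P) hcop hPs hQ hR hPQ hPR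
    rw [hC, mem_bot] at hc
    rw [hc, H1.conj_one_smul] at hcQ
    exact hcQ
  have hex : ∀ (q : ℕ) (_ : Fact q.Prime), ∃ Q : Subgroup G, H23.IsSylowOf q Q N ∧
      M ≤ normalizer (Q : Set G) := by
    intro q hq
    obtain ⟨Q, hQ, hPQ⟩ := H23.exists_invariant_sylow (hGN P) hcop hPs q
    refine ⟨Q, hQ, ?_⟩
    intro m hm
    rw [H1.mem_normalizer_iff_conj_smul]
    refine huniq q hq _ _ (hQ.conj (hGN ⊤ (mem_top m))) hQ ?_ hPQ
    intro a ha
    rw [H1.mem_normalizer_iff_conj_smul, H1.conj_smul_smul]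
    have h2 : m⁻¹ * a * m ∈ P := by
      have := (mem_normalizer_iff.mp (inv_mem (hMP hm)) a).mp ha
      rwa [inv_inv] at this
    have h3 := H1.mem_normalizer_iff_conj_smul.mp (hPQ h2)
    calc MulAut.conj (a * m) • Q = MulAut.conj m • (MulAut.conj (m⁻¹ * a * m) • Q) := by
          rw [H1.conj_smul_smul]; congr 2; group
      _ = MulAut.conj m • Q := by rw [h3]
  refine ⟨h1, ?_, ?_⟩
  · intro q hq
    obtain ⟨Q, ⟨S, hS⟩, hMQ⟩ := hex q hq
    refine ⟨S, by show M ≤ normalizer _; rw [hS]; exact hMQ, ?_⟩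
    intro T hT
    have h2 := huniq q hq _ _ ⟨T, rfl⟩ ⟨S, rfl⟩ (hPM.trans hT) (by rw [hS]; exact hPM.trans hMQ)
    exact Sylow.ext (Subgroup.map_injective N.subtype_injective h2)
  · rintro ⟨q, r, hq, hr, hqr, hqN, hrN⟩ hmax
    haveI : Fact q.Prime := ⟨hq⟩
    haveI : Fact r.Prime := ⟨hr⟩
    obtain ⟨Q, hQ, hMQ⟩ := hex q ⟨hq⟩
    have hQ1 : Q ≠ ⊥ := by
      rintro rfl
      apply hQ.not_dvd
      rw [relIndex_bot_left]; exact hqN
    have hQN : Q < N := by
      refine lt_of_le_of_ne hQ.le ?_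
      rintro rfl
      obtain ⟨k, hk⟩ := IsPGroup.iff_card.mp hQ.isPGroup
      rw [hk] at hrN
      exact hqr ((Nat.prime_dvd_prime_iff_eq hr hq).mp (hr.dvd_of_dvd_pow hrN)).symm
    have hlt : M < Q ⊔ M := by
      refine lt_of_le_of_ne le_sup_right fun h => hQ1 ?_
      have : Q ≤ M := h.symm ▸ le_sup_left
      rw [eq_bot_iff, ← hMN]
      exact le_inf this hQN.le
    have htop := hmax.2 _ hlt
    have hMQ1 : M ⊓ Q = ⊥ := by
      rw [eq_bot_iff, ← hMN]; exact inf_le_inf_left _ hQN.le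
    have hc1 := H23.card_sup_of_inf_eq_bot hMQ hMQ1
    have hc2 := H23.card_sup_of_inf_eq_bot (hGN M) hMN
    have hc3 : Nat.card (N ⊔ M : Subgroup G) ≤ Nat.card (Q ⊔ M : Subgroup G) := by
      rw [htop]; exact Nat.le_of_dvd Nat.card_pos (card_dvd_of_le le_top)
    rw [hc1, hc2] at hc3
    have hc4 : Nat.card N ≤ Nat.card Q := Nat.le_of_mul_le_mul_right hc3 Nat.card_pos
    exact absurd (H1.card_lt_of_lt' hQN) (not_lt_of_ge hc4)

end aux

/-- Call a proper subgroup M of G primitive when M = N_G(N) for every non-trivial normal subgroup N of M. Let M be a primitive subgroup of the finite group G, p a prime with O_p(M) ≠ 1, and N a normal subgroup of G with M ∩ N = 1. Then p does not divide the order of N; for every prime q there is exactly one Sylow q-subgroup of N normalized by M; and if the order of N has at least two prime divisors then M is not a maximal subgroup of G. -/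
theorem result {G : Type*} [Group G] [Finite G] (M : Subgroup G) (hM : M ≠ ⊤) (hprim : ∀ N : Subgroup G, N ≤ M → M ≤ Subgroup.normalizer (N : Set G) → N ≠ ⊥ → Subgroup.normalizer (N : Set G) = M) {p : ℕ} [Fact p.Prime] (hOp : Cfsg.pCore p ↥M ≠ ⊥) (N : Subgroup G) [N.Normal] (hMN : M ⊓ N = ⊥) : ¬ p ∣ Nat.card N ∧ (∀ q : ℕ, [Fact q.Prime] → ∃! Q : Sylow q ↥N, M ≤ Subgroup.normalizer ((Q : Subgroup ↥N).map N.subtype : Set G)) ∧ ((∃ q r : ℕ, q.Prime ∧ r.Prime ∧ q ≠ r ∧ q ∣ Nat.card N ∧ r ∣ Nat.card N) → ¬ IsCoatom M) := by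
  exact aux M hM hprim hOp N hMN

end Cfsg.Agent.S3749
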