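import Cfsg.Statements.S3750
import Cfsg.Agent.H23.Subnormal2
import Cfsg.Agent.H10.Comp2
import Cfsg.Agent.H23.HHRed

set_option autoImplicit false
set_option linter.all false
open Cfsg

namespace Cfsg.Agent.S3750

section aux
open Subgroup
open scoped Pointwise

theorem aux {G : Type*} [Group G] [Finite G] (M : Subgroup G) (hM : M ≠ ⊤) (hprim : ∀ N : Subgroup G, N ≤ M → M ≤ Subgroup.normalizer (N : Set G) → N ≠ ⊥ → Subgroup.normalizer (N : Set G) = M) (N : Subgroup G) [N.Normal] (hMF : M ⊓ (Cfsg.generalizedFittingSubgroup ↥N).map N.subtype ≠ ⊥) : Cfsg.fittingSubgroup G = ⊥ ∧ (Cfsg.generalizedFittingSubgroup ↥N).map N.subtype = Cfsg.generalizedFittingSubgroup G ∧ Cfsg.generalizedFittingSubgroup G = Cfsg.layer G ∧ ∀ K : Subgroup G, K.Normal → K ≠ ⊥ → (∀ K' : Subgroup G, K'.Normal → K' ≤ K → K' = ⊥ ∨ K' = K) → K ≤ N := by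
  obtain ⟨hsub, hMF0⟩ := H23.primitive_subnormal M hM hprim
  have hNs : N.IsSubnormal := (inferInstance : N.Normal).isSubnormal
  rw [H10.genFitting_map_subtype hNs] at hMF ⊢
  haveI hFs : (Cfsg.generalizedFittingSubgroup G).Normal := H10.genFitting_normal G
  haveI hF : (Cfsg.fittingSubgroup G).Normal := H10.fitting_normal G
  set E : Subgroup G := Cfsg.generalizedFittingSubgroup G ⊓ N with hE
  have hEn : E.Normal := inferInstance
  set D : Subgroup G := M ⊓ E with hD
  have hMD : M ≤ normalizer (D : Set G) := by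
    intro m hm
    rw [H1.mem_normalizer_iff_conj_smul, hD, H1.conj_smul_inf,
      H1.mem_normalizer_iff_conj_smul.mp (le_normalizer hm), H1.conj_smul_normal (N := E)]
  have hND := hprim D inf_le_left hMD hMF
  have hCD : centralizer (D : Set G) ≤ M := by
    rw [← hND]; exact centralizer_le_normalizer _
  have hFbot : Cfsg.fittingSubgroup G = ⊥ := by
    by_contra hne
    haveI : Nontrivial (Cfsg.fittingSubgroup G) := (nontrivial_iff_ne_bot _).mpr hne
    haveI := H1.fitting_isNilpotent G
    have h1 : center (Cfsg.fittingSubgroup G) ≠ ⊥ := by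
      exact Group.IsNilpotent.center_ne_bot _
    apply h1
    rw [← H23.map_subtype_eq_bot_iff, eq_bot_iff, ← hMF0, H10.center_map_eq_inf_centralizer]
    refine le_inf (le_trans ?_ hCD) inf_le_left
    intro x hx
    obtain ⟨hxF, hxC⟩ := mem_inf.mp hx
    have h2 : Cfsg.generalizedFittingSubgroup G ≤ centralizer ({x} : Set G) := by
      refine sup_le ?_ ?_
      · intro y hy
        have h := H10.fitting_commutes_layer (G := G)
        rw [commutator_eq_bot_iff_le_centralizer] at h
        rw [mem_centralizer_iff]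
        rintro _ rfl
        exact (mem_centralizer_iff.mp (h hxF) y hy).symm
      · intro y hy
        rw [mem_centralizer_iff]
        rintro _ rfl
        exact (mem_centralizer_iff.mp hxC y hy).symm
    rw [mem_centralizer_iff]
    intro y hy
    exact (mem_centralizer_iff.mp (h2 (mem_inf.mp (mem_inf.mp hy).2).1) x rfl).symm
  have hCE : centralizer (E : Set G) = ⊥ := by
    apply hsub _ (H10.normal_centralizer_of_normal hEn).isSubnormal
    refine le_trans (centralizer_le ?_) hCD
    exact inf_le_right
  have hCN : centralizer (N : Set G) = ⊥ := by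
    rw [eq_bot_iff, ← hCE]
    exact centralizer_le inf_le_right
  have hFE : Cfsg.generalizedFittingSubgroup G = Cfsg.layer G := by
    show Cfsg.layer G ⊔ Cfsg.fittingSubgroup G = _
    rw [hFbot, sup_bot_eq]
  have hLN : Cfsg.layer G ≤ N := by
    apply sSup_le
    intro K hK
    rcases H10.comp_le_or_commutes_normal hK (inferInstance : N.Normal) with h | h
    · exact h
    · exfalso
      rw [commutator_eq_bot_iff_le_centralizer, Subgroup.le_centralizer_iff, hCN, le_bot_iff] at h
      exact H10.comp_ne_bot hK h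
  refine ⟨hFbot, ?_, hFE, ?_⟩
  · rw [hE, hFE]; exact inf_eq_left.mpr hLN
  · intro K hK hK1 hmin
    rcases hmin (K ⊓ N) inferInstance inf_le_left with h | h
    · exfalso
      apply hK1
      rw [eq_bot_iff, ← hCN]
      intro k hk
      rw [mem_centralizer_iff]
      intro n hn
      exact (Subgroup.commute_of_normal_of_disjoint N K inferInstance hK
        (by rw [disjoint_iff, inf_comm]; exact h) n k hn hk).eq
    · exact inf_eq_left.mp h

end aux

/-- Call a proper subgroup M of G primitive when M = N_G(N) for every non-trivial normal subgroup N of M. Let M be a primitive subgroup of the finite group G and N a normal subgroup of G with M ∩ F*(N) ≠ 1. Then F(G) = 1 and F*(N) = F*(G) = E(G); in particular every minimal normal subgroup of G is contained in N. -/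
theorem result {G : Type*} [Group G] [Finite G] (M : Subgroup G) (hM : M ≠ ⊤) (hprim : ∀ N : Subgroup G, N ≤ M → M ≤ Subgroup.normalizer (N : Set G) → N ≠ ⊥ → Subgroup.normalizer (N : Set G) = M) (N : Subgroup G) [N.Normal] (hMF : M ⊓ (Cfsg.generalizedFittingSubgroup ↥N).map N.subtype ≠ ⊥) : Cfsg.fittingSubgroup G = ⊥ ∧ (Cfsg.generalizedFittingSubgroup ↥N).map N.subtype = Cfsg.generalizedFittingSubgroup G ∧ Cfsg.generalizedFittingSubgroup G = Cfsg.layer G ∧ ∀ K : Subgroup G, K.Normal → K ≠ ⊥ → (∀ K' : Subgroup G, K'.Normal → K' ≤ K → K' = ⊥ ∨ K' = K) → K ≤ N := by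
  exact aux M hM hprim N hMF

end Cfsg.Agent.S3750
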