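import Cfsg.Statements.S3751
import Cfsg.Agent.H24.CharLoc
import Cfsg.Agent.H10.Sig2
import Cfsg.Prelude.Def_LocalEven

set_option autoImplicit false
open Cfsg

namespace Cfsg.Agent.S3751

open Subgroup Cfsg.Agent.H24 Cfsg.Agent.H18
open scoped Pointwise

variable {G : Type*} [Group G] [Finite G] {p : ℕ} [Fact p.Prime]

def IsLoc (p : ℕ) (M : Subgroup G) : Prop := ∃ T : Subgroup G, IsPGroup p T ∧ T ≠ ⊥ ∧ M = normalizer (T : Set G)
def MaxLoc (p : ℕ) (M : Subgroup G) : Prop := IsLoc p M ∧ ∀ L : Subgroup G, IsLoc p L → M ≤ L → L = M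

theorem exists_maxLoc {T : Subgroup G} (hT : IsPGroup p T) (h1 : T ≠ ⊥) :
    ∃ M : Subgroup G, MaxLoc p M ∧ normalizer (T : Set G) ≤ M := by
  obtain ⟨M, hNM, hM⟩ := (Set.toFinite {M : Subgroup G | IsLoc p M}).exists_le_maximal
      (show IsLoc p (normalizer (T : Set G)) from ⟨T, hT, h1, rfl⟩)
  exact ⟨M, ⟨hM.1, fun N hN hMN => le_antisymm (hM.2 hN hMN) hMN⟩, hNM⟩

theorem conj_loc {M : Subgroup G} (h : IsLoc p M) (g : G) : IsLoc p (MulAut.conj g • M) := by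
  obtain ⟨T, hT, h1, rfl⟩ := h
  refine ⟨MulAut.conj g • T, hT.map _, ?_, H1.conj_smul_normalizer g T⟩
  intro h
  apply h1
  have : Nat.card (MulAut.conj g • T : Subgroup G) = 1 := by rw [h, card_bot]
  rw [H1.card_conj_smul] at this
  exact Subgroup.card_eq_one.mp this

theorem conj_max {M : Subgroup G} (h : MaxLoc p M) (g : G) : MaxLoc p (MulAut.conj g • M) := by
  refine ⟨conj_loc h.1 g, fun L hL hle => ?_⟩
  have h1 : M ≤ MulAut.conj g⁻¹ • L := by
    have := H1.conj_smul_le_conj_smul_iff (g := g⁻¹) |>.mpr hle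
    rw [map_inv, inv_smul_smul] at this
    rw [map_inv]; exact this
  have h2 := h.2 _ (conj_loc hL g⁻¹) h1
  rw [← h2, map_inv, smul_inv_smul]

theorem charP_max (hloc : Cfsg.IsOfLocalCharacteristic p G) {M : Subgroup G} (h : MaxLoc p M) :
    CharLoc.ChP p M := by
  obtain ⟨⟨T, hT, h1, rfl⟩, -⟩ := h
  exact charP_iff_pCoreOf.1 (hloc.2 T hT h1)

theorem normalizer_eq (hloc : Cfsg.IsOfLocalCharacteristic p G) {M A : Subgroup G} (h : MaxLoc p M)
    (hA : A ≠ ⊥) (hAM : A ≤ M) (hn : M ≤ normalizer (A : Set G)) : normalizer (A : Set G) = M := by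
  have h1 := charP_normal hAM hn (charP_max hloc h)
  have h2 : pCoreOf p A ≠ ⊥ := by
    intro h0
    rw [h0] at h1
    apply hA
    rw [eq_bot_iff]
    refine le_trans (le_inf le_rfl ?_) h1
    intro x _
    rw [mem_centralizer_iff]
    intro y hy
    have hy1 : y = 1 := hy
    rw [hy1]; simp
  have h3 := h.2 (normalizer (pCoreOf p A : Set G)) ⟨_, isPGroup_pCoreOf A, h2, rfl⟩
    (hn.trans (normalizer_le_normalizer_pCoreOf A))
  exact le_antisymm (h3 ▸ normalizer_le_normalizer_pCoreOf A) hn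

theorem pCoreOf_ne_bot {M : Subgroup G} (h : MaxLoc p M) : pCoreOf p M ≠ ⊥ := by
  obtain ⟨⟨T, hT, h1, rfl⟩, -⟩ := h
  have : T ≤ pCoreOf p (normalizer (T : Set G)) := le_pCoreOf le_normalizer le_rfl hT
  intro h0
  rw [h0, le_bot_iff] at this
  exact h1 this

theorem self_norm (hloc : Cfsg.IsOfLocalCharacteristic p G) {M : Subgroup G} (h : MaxLoc p M) {g : G}
    (hg : MulAut.conj g • M = M) : g ∈ M := by
  have h1 := normalizer_eq hloc h (pCoreOf_ne_bot h) (pCoreOf_le M) (le_normalizer_pCoreOf M)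
  rw [← h1]
  exact normalizer_le_normalizer_pCoreOf M (H1.mem_normalizer_iff_conj_smul.mpr hg)

theorem pCoreOf_le_sylow {M T : Subgroup G} (hT : H23.IsSylowOf p T M) : pCoreOf p M ≤ T := by
  obtain ⟨R, rfl⟩ := hT
  have h1 : Cfsg.pCore p M ≤ R := pCore_le_sylow R
  exact map_mono h1

theorem sylow_max {M T R : Subgroup G} (hT : H23.IsSylowOf p T M) (hTR : T ≤ R) (hRM : R ≤ M)
    (hR : IsPGroup p R) : R = T := by
  have h1 : T.relIndex R ∣ T.relIndex M := by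
    rw [← relIndex_mul_relIndex T R M hTR hRM]
    exact dvd_mul_right _ _
  obtain ⟨k, hk⟩ := hR.index (T.subgroupOf R)
  have h2 : T.relIndex R = p ^ k := hk
  rcases Nat.eq_zero_or_pos k with h0 | h0
  · rw [h0, pow_zero] at h2
    exact le_antisymm (relIndex_eq_one.mp h2) hTR
  · exfalso
    apply hT.not_dvd
    refine (dvd_pow_self p h0.ne').trans ?_
    rw [← h2]; exact h1

section
variable (hcon : ∀ M₁ M₂ : Subgroup G, MaxLoc p M₁ → MaxLoc p M₂ → pCoreOf p M₁ ⊔ pCoreOf p M₂ ≤ M₁ ⊓ M₂ → M₁ = M₂)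
include hcon

theorem uniq' {M₁ M₂ T : Subgroup G} (h1 : MaxLoc p M₁) (h2 : MaxLoc p M₂) (hT1 : H23.IsSylowOf p T M₁)
    (hT2 : H23.IsSylowOf p T M₂) : M₁ = M₂ :=
  hcon M₁ M₂ h1 h2 ((sup_le (pCoreOf_le_sylow hT1) (pCoreOf_le_sylow hT2)).trans (le_inf hT1.le hT2.le))

theorem sylow_conj {M T : Subgroup G} (hT : H23.IsSylowOf p T M) (x : G) :
    H23.IsSylowOf p (MulAut.conj x • T) (MulAut.conj x • M) := by
  rw [H23.isSylowOf_iff]
  refine ⟨H1.conj_smul_le_conj_smul_iff.mpr hT.le, hT.isPGroup.map _, ?_⟩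
  have h1 : (MulAut.conj x • T).relIndex (MulAut.conj x • M) = T.relIndex M :=
    relIndex_map_map_of_injective T M (MulAut.conj x).injective
  rw [h1]; exact hT.not_dvd

theorem sylow_top (hloc : Cfsg.IsOfLocalCharacteristic p G) {M T : Subgroup G} (h : MaxLoc p M)
    (hT : H23.IsSylowOf p T M) : H23.IsSylowOf p T ⊤ := by
  obtain ⟨Q, hQ, hTQ⟩ := H23.exists_isSylowOf_ge (p := p) (le_top : T ≤ ⊤) hT.isPGroup
  by_contra hne
  have hlt : T < Q := lt_of_le_of_ne hTQ (fun h => hne (h ▸ hQ))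
  obtain ⟨x, hxQ, hxN, hxT⟩ := H2.exists_mem_normalizer_not_mem hQ.isPGroup hlt
  have hxM : x ∉ M := by
    intro hxM
    have h1 : T ⊔ zpowers x ≤ Q := sup_le hTQ (by rwa [zpowers_le])
    have h2 := sylow_max hT le_sup_left (sup_le hT.le (by rwa [zpowers_le])) (hQ.isPGroup.to_le h1)
    apply hxT
    rw [← h2]
    exact mem_sup_right (mem_zpowers x)
  apply hxM
  apply self_norm hloc h
  have h3 := sylow_conj hcon hT x
  rw [H1.mem_normalizer_iff_conj_smul.mp hxN] at h3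
  exact uniq' hcon (conj_max h x) h h3 hT

theorem uniq {M₁ M₂ Q : Subgroup G} (h1 : MaxLoc p M₁) (h2 : MaxLoc p M₂) (hQ : H23.IsSylowOf p Q ⊤)
    (hQ1 : Q ≤ M₁) (hQ2 : Q ≤ M₂) : M₁ = M₂ := by
  have key : ∀ M : Subgroup G, Q ≤ M → H23.IsSylowOf p Q M := by
    intro M hQM
    rw [H23.isSylowOf_iff]
    refine ⟨hQM, hQ.isPGroup, fun hd => hQ.not_dvd (hd.trans ?_)⟩
    rw [← relIndex_mul_relIndex Q M ⊤ hQM le_top]
    exact dvd_mul_right _ _
  exact uniq' hcon h1 h2 (key _ hQ1) (key _ hQ2)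

theorem conj_all (hloc : Cfsg.IsOfLocalCharacteristic p G) {M₁ M₂ : Subgroup G} (h1 : MaxLoc p M₁)
    (h2 : MaxLoc p M₂) : ∃ h : G, M₂ = MulAut.conj h • M₁ := by
  obtain ⟨T₁, hT₁⟩ := H23.exists_isSylowOf p M₁
  obtain ⟨T₂, hT₂⟩ := H23.exists_isSylowOf p M₂
  have k1 := sylow_top hcon hloc h1 hT₁
  have k2 := sylow_top hcon hloc h2 hT₂
  obtain ⟨g, -, hg⟩ := k1.exists_conj k2
  refine ⟨g, uniq hcon h2 (conj_max h1 g) k2 hT₂.le ?_⟩
  rw [← hg]
  exact H1.conj_smul_le_conj_smul_iff.mpr hT₁.le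

theorem strong (hloc : Cfsg.IsOfLocalCharacteristic p G) {M : Subgroup G} (h : MaxLoc p M) (g : G) (hg : g ∉ M) :
    ¬ p ∣ Nat.card ↥(M ⊓ MulAut.conj g • M) := by
  intro hd
  have hp := Fact.out (p := p.Prime)
  -- a nontrivial p-subgroup
  obtain ⟨x, hx⟩ := exists_prime_orderOf_dvd_card' p hd
  have hxo : orderOf (x : G) = p := by rw [Subgroup.orderOf_coe, hx]
  have hR0 : IsPGroup p (zpowers (x : G)) := IsPGroup.of_card (n := 1) (by rw [Nat.card_zpowers, hxo, pow_one])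
  have hR0b : zpowers (x : G) ≠ ⊥ := by
    rw [Ne, zpowers_eq_bot]
    intro h
    rw [h, orderOf_one] at hxo
    exact hp.one_lt.ne hxo
  obtain ⟨R, ⟨hRp, hRb, g, hg, hRM⟩, hRmax⟩ := (Set.toFinite {R : Subgroup G | IsPGroup p R ∧ R ≠ ⊥ ∧
    ∃ g : G, g ∉ M ∧ R ≤ M ⊓ MulAut.conj g • M}).exists_maximal
    ⟨zpowers (x : G), hR0, hR0b, g, hg, by rw [zpowers_le]; exact x.2⟩
  have hMg := conj_max h g
  have hne : ∀ k : G, k ∉ M → MulAut.conj k • M ≠ M := fun k hk h' => hk (self_norm hloc h h')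
  obtain ⟨S, hS, hRS⟩ := H23.exists_isSylowOf_ge (p := p) (hRM.trans inf_le_left) hRp
  obtain ⟨S', hS', hRS'⟩ := H23.exists_isSylowOf_ge (p := p) (hRM.trans inf_le_right) hRp
  have kS := sylow_top hcon hloc h hS
  have kS' := sylow_top hcon hloc hMg hS'
  have hlt : R < S := by
    refine lt_of_le_of_ne hRS ?_
    rintro rfl
    exact hne g hg (uniq hcon hMg h kS (hRM.trans inf_le_right) (hRM.trans inf_le_left))
  have hlt' : R < S' := by
    refine lt_of_le_of_ne hRS' ?_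
    rintro rfl
    exact hne g hg (uniq hcon hMg h kS' (hRM.trans inf_le_right) (hRM.trans inf_le_left))
  obtain ⟨M₂, hM₂, hN₂⟩ := exists_maxLoc hRp hRb
  have n1 := H10.lt_inf_normalizer hS.isPGroup hlt
  have n2 := H10.lt_inf_normalizer hS'.isPGroup hlt'
  by_cases hMM : M₂ = M
  · have : normalizer (R : Set G) ⊓ S' ≤ R := by
      refine hRmax ⟨hS'.isPGroup.to_le inf_le_right, ?_, g, hg, ?_⟩ n2.le
      · intro h0
        rw [h0] at n2
        exact not_lt_bot n2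
      · exact le_inf (inf_le_left.trans (hMM ▸ hN₂)) (inf_le_right.trans hS'.le)
    exact absurd this (not_le_of_gt n2)
  · obtain ⟨k, hk⟩ := conj_all hcon hloc h hM₂
    have hkM : k ∉ M := by
      intro hkM
      apply hMM
      rw [hk]
      exact H1.mem_normalizer_iff_conj_smul.mp (le_normalizer hkM)
    have : normalizer (R : Set G) ⊓ S ≤ R := by
      refine hRmax ⟨hS.isPGroup.to_le inf_le_right, ?_, k, hkM, ?_⟩ n1.le
      · intro h0
        rw [h0] at n1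
        exact not_lt_bot n1
      · exact le_inf (inf_le_right.trans hS.le) (inf_le_left.trans (hk ▸ hN₂))
    exact absurd this (not_le_of_gt n1)
end

/-- Two distinct subgroups M₁, M₂ of G form a primitive pair when, for {i, j} = {1, 2}, every non-trivial normal subgroup A of M_i contained in M₁ ∩ M₂ satisfies N_{M_j}(A) = M₁ ∩ M₂; the pair has characteristic p when moreover C_{M_i}(O_p(M_i)) ≤ O_p(M_i) for both i and O_p(M₁)O_p(M₂) ≤ M₁ ∩ M₂. Let G be a finite group, p a prime dividing its order, with O_p(G) = 1 and every p-local subgroup of characteristic p. Then either G has a primitive pair of characteristic p, or every maximal p-local subgroup M of G is strongly p-embedded in G: M is a proper subgroup, p divides its order, and for every g ∉ M the order of M ∩ gMg⁻¹ is prime to p. -/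
theorem result {G : Type*} [Group G] [Finite G] {p : ℕ} [Fact p.Prime] (hloc : Cfsg.IsOfLocalCharacteristic p G) (hOp : Cfsg.pCore p G = ⊥) : (∃ M₁ M₂ : Subgroup G, M₁ ≠ M₂ ∧ (∀ A : Subgroup G, A ≠ ⊥ → A ≤ M₁ ⊓ M₂ → (M₁ ≤ Subgroup.normalizer (A : Set G) → M₂ ⊓ Subgroup.normalizer (A : Set G) = M₁ ⊓ M₂) ∧ (M₂ ≤ Subgroup.normalizer (A : Set G) → M₁ ⊓ Subgroup.normalizer (A : Set G) = M₁ ⊓ M₂)) ∧ Subgroup.centralizer (Cfsg.pCore p ↥M₁ : Set ↥M₁) ≤ Cfsg.pCore p ↥M₁ ∧ Subgroup.centralizer (Cfsg.pCore p ↥M₂ : Set ↥M₂) ≤ Cfsg.pCore p ↥M₂ ∧ (Cfsg.pCore p ↥M₁).map M₁.subtype ⊔ (Cfsg.pCore p ↥M₂).map M₂.subtype ≤ M₁ ⊓ M₂) ∨ (∀ M : Subgroup G, (∃ T : Subgroup G, IsPGroup p T ∧ T ≠ ⊥ ∧ M = Subgroup.normalizer (T : Set G)) → (∀ L : Subgroup G, (∃ T : Subgroup G, IsPGroup p T ∧ T ≠ ⊥ ∧ L = Subgroup.normalizer (T : Set G)) → M ≤ L → L = M) → M ≠ ⊤ ∧ p ∣ Nat.card M ∧ ∀ g : G, g ∉ M → ¬ p ∣ Nat.card ↥(M ⊓ M.map (MulAut.conj g).toMonoidHom))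 := by
  by_cases hcon : ∀ M₁ M₂ : Subgroup G, MaxLoc p M₁ → MaxLoc p M₂ →
      Cfsg.pCoreOf p M₁ ⊔ Cfsg.pCoreOf p M₂ ≤ M₁ ⊓ M₂ → M₁ = M₂
  · right
    intro M hM hMmax
    have h : MaxLoc p M := ⟨hM, hMmax⟩
    refine ⟨?_, ?_, fun g hg => strong hcon hloc h g hg⟩
    · rintro rfl
      obtain ⟨T, hT, hT1, hTn⟩ := hM
      have : T.Normal := normalizer_eq_top_iff.mp hTn.symm
      have h1 := H18.le_pCore this hT
      rw [hOp, le_bot_iff] at h1
      exact hT1 h1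
    · have h1 := pCoreOf_ne_bot h
      obtain ⟨k, hk⟩ := IsPGroup.iff_card.mp (isPGroup_pCoreOf (p := p) M)
      have h2 : k ≠ 0 := by
        rintro rfl
        rw [pow_zero] at hk
        exact h1 (Subgroup.card_eq_one.mp hk)
      refine (dvd_pow_self p h2).trans ?_
      rw [← hk]
      exact Subgroup.card_dvd_of_le (pCoreOf_le M)
  · left
    push Not at hcon
    obtain ⟨M₁, M₂, h1, h2, hO, hne⟩ := hcon
    refine ⟨M₁, M₂, hne, ?_, charP_iff_pCoreOf.2 (charP_max hloc h1), charP_iff_pCoreOf.2 (charP_max hloc h2), hO⟩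
    intro A hA hAM
    constructor
    · intro hn
      rw [normalizer_eq hloc h1 hA (hAM.trans inf_le_left) hn, inf_comm]
    · intro hn
      rw [normalizer_eq hloc h2 hA (hAM.trans inf_le_right) hn]

end Cfsg.Agent.S3751
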