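import Cfsg.Statements.S3752
import Cfsg.Agent.H10.Bender
import Cfsg.Agent.H10.CharP

set_option autoImplicit false
open Cfsg

namespace Cfsg.Agent.S3752

open Subgroup Cfsg.Agent.H10
open scoped Pointwise

variable {G : Type*} [Group G]

theorem aux [Finite G] {p : ℕ} [hp : Fact p.Prime] {M N : Subgroup G}
    (hM : ∀ A : Subgroup G, A ≠ ⊥ → A ≤ M ⊓ N → M ≤ normalizer (A : Set G) →
      N ⊓ normalizer (A : Set G) ≤ M)
    (hN : ∀ A : Subgroup G, A ≠ ⊥ → A ≤ M ⊓ N → N ≤ normalizer (A : Set G) →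
      M ⊓ normalizer (A : Set G) ≤ N)
    (hMN : ∀ X : Subgroup G, M ≤ normalizer (X : Set G) → N ≤ normalizer (X : Set G) →
      X ≤ M → X ≤ N → X = ⊥)
    (hFM : cF M ≤ N) (hFN : cF N ≤ M)
    (hcM : centralizer (cF M : Set G) ⊓ M ≤ cF M)
    (hcN : centralizer (cF N : Set G) ⊓ N ≤ cF N)
    (hPM : cO p M ≠ ⊥) : IsPGroup p (cF M) ∧ IsPGroup p (cF N) := by
  have hNM : M ≤ Subgroup.normalizer (cO p M : Set G) :=
    Subgroup.le_normalizer.trans (le_normalizer_cO p M)
  have hNN : N ≤ Subgroup.normalizer (cO p N : Set G) :=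
    Subgroup.le_normalizer.trans (le_normalizer_cO p N)
  have hPN : cO p N ≠ ⊥ := by
    intro h0
    apply hPM
    have h1 : cO p M ≤ cF N := by
      refine le_trans ?_ hcN
      refine le_inf ?_ ((cO_le_cF p M).trans hFM)
      intro x hx
      have h2 : cF N ≤ Subgroup.centralizer ({x} : Set G) := by
        apply cF_le_of_cO
        intro q hq z hz
        have hfq : Fact q.Prime := ⟨hq⟩
        rw [mem_centralizer_singleton]
        by_cases hqp : q = p
        · subst hqp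
          rw [h0, Subgroup.mem_bot] at hz
          rw [hz, mul_one, one_mul]
        · exact mem_commutes_of_ne (Ne.symm hqp) hFM hFN hx hz
      rw [Subgroup.mem_centralizer_iff]
      intro z hz
      exact (mem_centralizer_singleton.mp (h2 hz)).symm
    have h3 : SubnIn (cO p M) N := by
      refine SubnIn.trans (B := cF N) ⟨h1, ?_⟩ (subnIn_of_normal (cF_le N)
        (Subgroup.le_normalizer.trans (le_normalizer_cF N)))
      exact (normal_subgroupOf_of_le ((hFN).trans hNM)).isSubnormal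
    have h4 := le_cO_of_subnIn h3 (cO_isPGroup p M)
    rwa [h0, le_bot_iff] at h4
  have hPMN : cO p M ≤ M ⊓ N := le_inf (cO_le p M) ((cO_le_cF p M).trans hFM)
  have hPNM : cO p N ≤ M ⊓ N := le_inf ((cO_le_cF p N).trans hFN) (cO_le p N)
  set X := oPr p (centralizer (cO p M : Set G) ⊓ M) with hX
  have hXeq : X = oPr p (centralizer (cO p N : Set G) ⊓ N) := by
    apply le_antisymm
    · rw [hX, oPr, Subgroup.closure_le]
      rintro x ⟨hx1, hx2⟩
      have h3 := bender_key hFM hFN hcM hx1.2 hx1.1 hx2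
      exact Subgroup.subset_closure ⟨⟨h3, hN _ hPN hPNM hNN
        ⟨hx1.2, centralizer_le_normalizer _ h3⟩⟩, hx2⟩
    · rw [oPr, Subgroup.closure_le]
      rintro x ⟨hx1, hx2⟩
      have h3 := bender_key hFN hFM hcN hx1.2 hx1.1 hx2
      exact Subgroup.subset_closure ⟨⟨h3, hM _ hPM hPMN hNM
        ⟨hx1.2, centralizer_le_normalizer _ h3⟩⟩, hx2⟩
  have hle : ∀ (H : Subgroup G), oPr p H ≤ H := by
    intro H
    rw [oPr, Subgroup.closure_le]
    exact fun x hx => hx.1
  have hXM : X ≤ M := (hle _).trans inf_le_right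
  have hXN : X ≤ N := by rw [hXeq]; exact (hle _).trans inf_le_right
  have hnn : ∀ {A B : Subgroup G}, B ≤ normalizer (A : Set G) →
      B ≤ normalizer ((centralizer (A : Set G) ⊓ B : Subgroup G) : Set G) := by
    intro A B h x hx
    have h1 := normalizer_le_normalizer_centralizer A (h hx)
    have h2 := le_normalizer (H := B) hx
    rw [Subgroup.mem_normalizer_iff] at h1 h2 ⊢
    intro w
    exact and_congr (h1 w) (h2 w)
  have hXM' : M ≤ Subgroup.normalizer (X : Set G) := (hnn hNM).trans (normalizer_le_oPr p _)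
  have hXN' : N ≤ Subgroup.normalizer (X : Set G) := by
    rw [hXeq]
    exact (hnn hNN).trans (normalizer_le_oPr p _)
  have hX0 : X = ⊥ := hMN X hXM' hXN' hXM hXN
  have hcPM : IsPGroup p (centralizer (cO p M : Set G) ⊓ M : Subgroup G) := isPGroup_of_oPr_eq_bot hX0
  have hcPN : IsPGroup p (centralizer (cO p N : Set G) ⊓ N : Subgroup G) :=
    isPGroup_of_oPr_eq_bot (hXeq ▸ hX0)
  have main : ∀ H : Subgroup G, IsPGroup p (centralizer (cO p H : Set G) ⊓ H : Subgroup G) →
      IsPGroup p (cF H) := by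
    intro H hH
    have h1 : cF H ≤ cO p H := by
      apply cF_le_of_cO
      intro q hq
      have hfq : Fact q.Prime := ⟨hq⟩
      by_cases hqp : q = p
      · rw [hqp]
      · have h2 : cO q H ≤ Subgroup.centralizer (cO p H : Set G) := by
          rw [← Subgroup.commutator_eq_bot_iff_le_centralizer, ← le_bot_iff,
            ← eq_bot_of_isPGroup_inf hqp (cO_isPGroup q H) (cO_isPGroup p H)]
          refine le_inf ?_ ?_
          · exact H23.commutator_le_of_le_normalizer
              ((cO_le p H).trans (Subgroup.le_normalizer.trans (le_normalizer_cO q H)))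
          · rw [Subgroup.commutator_comm]
            exact H23.commutator_le_of_le_normalizer
              ((cO_le q H).trans (Subgroup.le_normalizer.trans (le_normalizer_cO p H)))
        have h3 : cO q H = ⊥ := by
          have := eq_bot_of_isPGroup_inf hqp (cO_isPGroup q H) (hH.to_le (le_inf h2 (cO_le q H)))
          rwa [inf_idem] at this
        rw [h3]; exact bot_le
    exact (cO_isPGroup p H).to_le h1
  exact ⟨main M hcPM, main N hcPN⟩

/-- Bender's Theorem on primitive pairs. Two distinct subgroups M₁, M₂ of G form a primitive pair when, for {i, j} = {1, 2}, every non-trivial normal subgroup A of M_i contained in M₁ ∩ M₂ satisfies N_{M_j}(A) = M₁ ∩ M₂; the pair has characteristic p when moreover C_{M_i}(O_p(M_i)) ≤ O_p(M_i) for both i and O_p(M₁)O_p(M₂) ≤ M₁ ∩ M₂. If (M₁, M₂) is a primitive pair of the finite group G with F*(M₁) ≤ M₂ and F*(M₂) ≤ M₁, then for some prime p the pair has characteristic p. -/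
theorem result {G : Type*} [Group G] [Finite G] (M₁ M₂ : Subgroup G) (hne : M₁ ≠ M₂) (hP : ∀ A : Subgroup G, A ≠ ⊥ → A ≤ M₁ ⊓ M₂ → (M₁ ≤ Subgroup.normalizer (A : Set G) → M₂ ⊓ Subgroup.normalizer (A : Set G) = M₁ ⊓ M₂) ∧ (M₂ ≤ Subgroup.normalizer (A : Set G) → M₁ ⊓ Subgroup.normalizer (A : Set G) = M₁ ⊓ M₂)) (h₁ : (Cfsg.generalizedFittingSubgroup ↥M₁).map M₁.subtype ≤ M₂) (h₂ : (Cfsg.generalizedFittingSubgroup ↥M₂).map M₂.subtype ≤ M₁) : ∃ p : ℕ, p.Prime ∧ Subgroup.centralizer (Cfsg.pCore p ↥M₁ : Set ↥M₁) ≤ Cfsg.pCore p ↥M₁ ∧ Subgroup.centralizer (Cfsg.pCore p ↥M₂ : Set ↥M₂) ≤ Cfsg.pCore p ↥M₂ ∧ (Cfsg.pCore p ↥M₁).map M₁.subtype ⊔ (Cfsg.pCore p ↥M₂).map M₂.subtype ≤ M₁ ⊓ M₂ := by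
  have hX : ∀ X : Subgroup G, M₁ ≤ Subgroup.normalizer (X : Set G) →
      M₂ ≤ Subgroup.normalizer (X : Set G) → X ≤ M₁ → X ≤ M₂ → X = ⊥ := by
    intro X h3 h4 h5 h6
    by_contra h0
    have h7 := (hP X h0 (le_inf h5 h6)).1 h3
    have h8 := (hP X h0 (le_inf h5 h6)).2 h4
    rw [inf_eq_left.mpr h4] at h7
    rw [inf_eq_left.mpr h3] at h8
    exact hne (h8.trans h7.symm)
  have hE : cE M₁ = cE M₂ := le_antisymm
    (cE_le_of_isCompOf fun K hK => (isCompOf_of_genFitting h₁ h₂ hK).le_cE)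
    (cE_le_of_isCompOf fun K hK => (isCompOf_of_genFitting h₂ h₁ hK).le_cE)
  have hE0 : cE M₁ = ⊥ := by
    refine hX _ (Subgroup.le_normalizer.trans (le_normalizer_cE M₁)) ?_ (cE_le M₁) ?_
    · rw [hE]; exact Subgroup.le_normalizer.trans (le_normalizer_cE M₂)
    · rw [hE]; exact cE_le M₂
  have hEM : Cfsg.layer M₁ = ⊥ := (Subgroup.map_eq_bot_iff_of_injective _ M₁.subtype_injective).mp hE0
  have hEN : Cfsg.layer M₂ = ⊥ :=
    (Subgroup.map_eq_bot_iff_of_injective _ M₂.subtype_injective).mp (hE.symm.trans hE0)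
  have hcM := centralizer_cGF_inf_le M₁
  have hcN := centralizer_cGF_inf_le M₂
  change cGF M₁ ≤ M₂ at h₁
  change cGF M₂ ≤ M₁ at h₂
  have e1 := cGF_eq_cF hEM
  have e2 := cGF_eq_cF hEN
  rw [e1] at h₁ hcM
  rw [e2] at h₂ hcN
  obtain ⟨p, hp, hPM⟩ : ∃ p : ℕ, p.Prime ∧ cO p M₁ ≠ ⊥ := by
    by_contra hcon
    push Not at hcon
    have h3 : cF M₁ ≤ ⊥ := cF_le_of_cO fun q hq => (hcon q hq).le
    have h4 : M₁ ≤ ⊥ := by
      refine le_trans (le_inf ?_ le_rfl) (hcM.trans h3)
      intro x hx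
      rw [Subgroup.mem_centralizer_iff]
      intro y hy
      have : y = 1 := by simpa using h3 hy
      rw [this, one_mul, mul_one]
    rw [le_bot_iff] at h4
    rw [h4, le_bot_iff] at h₂
    have h5 : M₂ ≤ ⊥ := by
      rw [← h₂]
      refine le_trans (le_inf ?_ le_rfl) hcN
      intro x hx
      rw [Subgroup.mem_centralizer_iff]
      intro y hy
      rw [h₂] at hy
      have : y = 1 := by simpa using hy
      rw [this, one_mul, mul_one]
    rw [le_bot_iff] at h5
    exact hne (h4.trans h5.symm)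
  have : Fact p.Prime := ⟨hp⟩
  obtain ⟨h3, h4⟩ := aux (fun A h0 hA hn => (hP A h0 hA).1 hn ▸ inf_le_left)
    (fun A h0 hA hn => (hP A h0 hA).2 hn ▸ inf_le_right) hX h₁ h₂ hcM hcN hPM
  rw [← e1] at h3
  rw [← e2] at h4
  have h5 : IsPGroup p (Cfsg.generalizedFittingSubgroup ↥M₁) :=
    h3.of_equiv ((Cfsg.generalizedFittingSubgroup ↥M₁).equivMapOfInjective M₁.subtype
        M₁.subtype_injective).symm
  have h6 : IsPGroup p (Cfsg.generalizedFittingSubgroup ↥M₂) :=
    h4.of_equiv ((Cfsg.generalizedFittingSubgroup ↥M₂).equivMapOfInjective M₂.subtype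
        M₂.subtype_injective).symm
  refine ⟨p, hp, genFitting_eq_pCore_iff.mp (genFitting_isPGroup_of h5),
    genFitting_eq_pCore_iff.mp (genFitting_isPGroup_of h6), ?_⟩
  refine sup_le ?_ ?_
  · exact le_inf (cO_le p M₁) ((cO_le_cF p M₁).trans h₁)
  · exact le_inf ((cO_le_cF p M₂).trans h₂) (cO_le p M₂)

end Cfsg.Agent.S3752
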