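import Cfsg.Statements.S3754
import Cfsg.Agent.H23.Coprime4
import Cfsg.Agent.H23.HHThmB
import Cfsg.Agent.H2.Frat
import Cfsg.Agent.H18.PRes
import Cfsg.Agent.H1.Chief

set_option autoImplicit false
set_option linter.all false
open Cfsg

namespace Cfsg.Agent.S3754

open Subgroup Cfsg.Agent.H23
open scoped Pointwise commutatorElement

theorem cj_mem {M : Type*} [Group M] {A : Subgroup M} {x g : M} :
    g ∈ A.map (MulAut.conj x).toMonoidHom ↔ ∃ a ∈ A, x * a * x⁻¹ = g := Iff.rfl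

theorem cent_of_conj {M : Type*} [Group M] {A K : Subgroup M} [K.Normal] (hAK : A ⊓ K = ⊥) {u : M} (hu : u ∈ K)
    (h : A.map (MulAut.conj u).toMonoidHom ≤ A) : u ∈ centralizer (A : Set M) := by
  rw [mem_centralizer_iff]
  intro a ha
  have h1 : u * a * u⁻¹ * a⁻¹ ∈ A ⊓ K := by
    refine ⟨Subgroup.mul_mem _ (h ⟨a, ha, rfl⟩) (Subgroup.inv_mem _ ha), ?_⟩
    have h2 : u * a * u⁻¹ * a⁻¹ = u * (a * u⁻¹ * a⁻¹) := by group
    rw [h2]
    exact mul_mem hu ((inferInstance : K.Normal).conj_mem _ (inv_mem hu) a)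
  rw [hAK, mem_bot, mul_inv_eq_one, mul_inv_eq_iff_eq_mul] at h1
  exact h1.symm

theorem relIndex_dvd_of_sup_zpowers {G : Type*} [Group G] [Finite G] {A B : Subgroup G} {a : G} {n : ℕ}
    (hab : ∀ x ∈ A, ∀ y ∈ A, x * y = y * x) (hBA : B ≤ A) (ha : a ∈ A) (h : B ⊔ zpowers a = A) (hn : a ^ n = 1) :
    B.relIndex A ∣ n := by
  haveI : (B.subgroupOf A).Normal := by
    apply normal_subgroupOf_of_le_normalizer
    apply le_normalizer_of_conj_mem
    intro x hx g hg
    rw [hab x hx g (hBA hg), mul_assoc, mul_inv_cancel, mul_one]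
    exact hg
  have h1 : zpowers (QuotientGroup.mk' (B.subgroupOf A) ⟨a, ha⟩) = ⊤ := by
    rw [← MonoidHom.map_zpowers, eq_top_iff]
    intro y _
    obtain ⟨⟨x, hx⟩, rfl⟩ := QuotientGroup.mk'_surjective _ y
    have hx' := hx
    rw [← h] at hx'
    have hBn : zpowers a ≤ normalizer (B : Set G) := by
      apply le_normalizer_of_conj_mem
      intro x hx g hg
      rw [hab x ((zpowers_le.mpr ha) hx) g (hBA hg), mul_assoc, mul_inv_cancel, mul_one]
      exact hg
    obtain ⟨b, hb, c, hc, hbc⟩ := (H23.mem_sup_iff_of_le_normalizer hBn).mp hx'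
    obtain ⟨k, rfl⟩ := mem_zpowers_iff.mp hc
    refine ⟨⟨a, ha⟩ ^ k, zpow_mem (mem_zpowers _) k, ?_⟩
    have e1 : (⟨x, hx⟩ : A) = ⟨b, hBA hb⟩ * (⟨a, ha⟩ : A) ^ k := by
      apply Subtype.ext
      simpa using hbc.symm
    have e2 : (QuotientGroup.mk' (B.subgroupOf A)) ⟨b, hBA hb⟩ = 1 := (QuotientGroup.eq_one_iff _).mpr hb
    rw [e1, map_mul, e2, one_mul]
  have h2 : B.relIndex A = Nat.card (A ⧸ B.subgroupOf A) := rfl
  have h3 : Nat.card (A ⧸ B.subgroupOf A) = orderOf (QuotientGroup.mk' (B.subgroupOf A) ⟨a, ha⟩) := by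
    rw [← Nat.card_zpowers, h1]
    simp
  rw [h2, h3]
  apply orderOf_dvd_of_pow_eq_one
  rw [← map_pow]
  have h4 : (⟨a, ha⟩ : A) ^ n = 1 := Subtype.ext (by simpa using hn)
  rw [h4, map_one]

/-- choice of the element -/
theorem exists_good {M : Type*} [Group M] [Finite M] {p : ℕ} [Fact p.Prime] (A N : Subgroup M) [N.Normal]
    (hA : IsPGroup p A) (K B : Subgroup (M ⧸ N)) [K.Normal] (hKc : (Nat.card K).Coprime p)
    (hab : ∀ a ∈ A.map (QuotientGroup.mk' N), ∀ b ∈ A.map (QuotientGroup.mk' N), a * b = b * a)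
    (hBA : B ≤ A.map (QuotientGroup.mk' N))
    (hne : ¬ K ⊓ centralizer (B : Set (M ⧸ N)) ≤ centralizer ((A.map (QuotientGroup.mk' N) : Subgroup (M ⧸ N)) : Set (M ⧸ N))) :
    ∃ x : M, x ∈ (Cfsg.pResidual p ↥(A ⊔ A.map (MulAut.conj x).toMonoidHom)).map (A ⊔ A.map (MulAut.conj x).toMonoidHom).subtype ∧
      (QuotientGroup.mk' N) x ∈ K ⊓ centralizer (B : Set (M ⧸ N)) ∧
      (QuotientGroup.mk' N) x ∉ centralizer ((A.map (QuotientGroup.mk' N) : Subgroup (M ⧸ N)) : Set (M ⧸ N)) := by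
  classical
  set f := QuotientGroup.mk' N with hf
  have hfs : Function.Surjective f := QuotientGroup.mk'_surjective N
  set Ab := A.map f with hAb
  set C := K ⊓ centralizer (B : Set (M ⧸ N)) with hC
  have hAbp : IsPGroup p Ab := hA.map f
  have hcard : ∃ k, Nat.card Ab = p ^ k := hAbp.exists_card_eq
  obtain ⟨k, hk⟩ := hcard
  have hAK : Ab ⊓ K = ⊥ := H23.inf_eq_bot_of_coprime (by rw [hk]; exact (hKc.pow_right k).symm)
  have hAbB : Ab ≤ centralizer (B : Set (M ⧸ N)) := by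
    intro a ha
    rw [mem_centralizer_iff]
    intro b hb
    exact hab b (hBA hb) a ha
  have hAC : Ab ≤ normalizer (C : Set (M ⧸ N)) := by
    apply le_normalizer_of_conj_mem
    intro a ha g hg
    exact ⟨(inferInstance : K.Normal).conj_mem g hg.1 a, Subgroup.mul_mem _ (Subgroup.mul_mem _ (hAbB ha) hg.2) (Subgroup.inv_mem _ (hAbB ha))⟩
  have hex : ∃ x : M, f x ∈ C ∧ f x ∉ centralizer (Ab : Set (M ⧸ N)) := by
    obtain ⟨xb, hxb, hxn⟩ := Set.not_subset.mp hne
    obtain ⟨x, rfl⟩ := hfs xb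
    exact ⟨x, hxb, hxn⟩
  obtain ⟨x₁, ⟨hx1, hx2⟩, hmin⟩ := Set.exists_min_image {x : M | f x ∈ C ∧ f x ∉ centralizer (Ab : Set (M ⧸ N))}
    (fun x => Nat.card ↥(A ⊔ A.map (MulAut.conj x).toMonoidHom)) (Set.toFinite _) hex
  set L := A ⊔ A.map (MulAut.conj x₁).toMonoidHom with hL
  set D := L.map f ⊓ C with hD
  have hAL : Ab ≤ L.map f := map_mono le_sup_left
  have hDc : (Nat.card D).Coprime p :=
    Nat.Coprime.coprime_dvd_left (card_dvd_of_le (inf_le_right.trans inf_le_left)) hKc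
  have hAD : Ab ≤ normalizer (D : Set (M ⧸ N)) := by
    apply le_normalizer_of_conj_mem
    intro a ha g hg
    exact ⟨Subgroup.mul_mem _ (Subgroup.mul_mem _ (hAL ha) hg.1) (Subgroup.inv_mem _ (hAL ha)), (mem_normalizer_iff.mp (hAC ha) g).mp hg.2⟩
  have hmem : ∀ a ∈ A, x₁ * a * x₁⁻¹ ∈ L := fun a ha => (le_sup_right : A.map (MulAut.conj x₁).toMonoidHom ≤ L) ⟨a, ha, rfl⟩
  obtain ⟨g, hg, hgA⟩ := sz_conj_ambient (A := Ab) (G := D) hAD (by rw [hk]; exact (hDc.pow_right k).symm)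
    (Or.inl (isSolvable_of_isPGroup (p := p) hAbp)) (B := Ab.map (MulAut.conj (f x₁)).toMonoidHom) (by
      rintro _ ⟨_, ⟨a, ha, rfl⟩, rfl⟩
      change f x₁ * f a * (f x₁)⁻¹ ∈ D ⊔ Ab
      have h1 : f x₁ * f a * (f x₁)⁻¹ = (f x₁ * (f a * (f x₁)⁻¹ * (f a)⁻¹)) * f a := by group
      rw [h1]
      refine mul_mem (mem_sup_left ⟨?_, ?_⟩) (mem_sup_right (mem_map_of_mem f ha))
      · have h2 : f x₁ * (f a * (f x₁)⁻¹ * (f a)⁻¹) = f ((x₁ * a * x₁⁻¹) * a⁻¹) := by simp [mul_assoc]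
        rw [h2]
        exact mem_map_of_mem f (mul_mem (hmem a ha) (inv_mem ((le_sup_left : A ≤ L) ha)))
      · exact mul_mem hx1 ((mem_normalizer_iff.mp (hAC (mem_map_of_mem f ha)) _).mp (inv_mem hx1)))
    (Nat.card_congr (Ab.equivMapOfInjective _ (MulAut.conj (f x₁)).injective).symm.toEquiv)
  have hgi : g⁻¹ ∈ D := inv_mem hg
  have hy0 : g⁻¹ ∈ (Cfsg.pResidual p ↥(L.map f)).map (L.map f).subtype :=
    H18.mem_pRes hgi.1 (H18.orderOf_coprime_of_card hDc hgi)
  rw [← H18.pRes_map] at hy0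
  obtain ⟨y, hy, hyg⟩ := hy0
  have hyL : y ∈ L := H18.pRes_le L hy
  have hyC : f y ∈ C := by rw [hyg]; exact hgi.2
  have hyn : f y ∉ centralizer (Ab : Set (M ⧸ N)) := by
    intro hcon
    apply hx2
    apply cent_of_conj hAK hx1.1
    have h3 : Ab.map (MulAut.conj (f x₁)).toMonoidHom = MulAut.conj g⁻¹ • Ab := by
      have h4 := congrArg (fun Z : Subgroup (M ⧸ N) => MulAut.conj g⁻¹ • Z) hgA
      simp only [smul_smul, ← map_mul, inv_mul_cancel, map_one, one_smul] at h4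
      exact h4
    rw [h3]
    rintro _ ⟨a, ha, rfl⟩
    change g⁻¹ * a * (g⁻¹)⁻¹ ∈ Ab
    rw [hyg] at hcon
    rw [← mem_centralizer_iff.mp hcon a ha, mul_assoc, mul_inv_cancel, mul_one]
    exact ha
  have hLy : A ⊔ A.map (MulAut.conj y).toMonoidHom = L := by
    apply eq_of_le_of_card_ge
    · refine sup_le le_sup_left ?_
      rintro _ ⟨a, ha, rfl⟩
      exact mul_mem (mul_mem hyL ((le_sup_left : A ≤ L) ha)) (inv_mem hyL)
    · exact hmin y ⟨hyC, hyn⟩
  refine ⟨y, ?_, hyC, hyn⟩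
  rw [hLy]
  exact hy

/-- Let M be a finite p-soluble group and A a p-subgroup of M with Φ(A) ≤ O_p(M) but A ≰ O_p(M). Then there is x ∈ O_{p,p'}(M) such that L = ⟨A, xAx⁻¹⟩ satisfies: x ∈ O^p(L) and O^p(L) ≤ O_{p,p'}(M); [O^p(L), A] = O^p(L); A ∩ O_p(L) has index p in A; and [A ∩ O_p(L), L] ≤ O_p(M). Here O^p(L) is the subgroup generated by the p'-elements of L and O_{p,p'}(M) the preimage of O_{p'}(M/O_p(M)). -/
theorem result {M : Type*} [Group M] [Finite M] {p : ℕ} [Fact p.Prime] (hM : Cfsg.IsPSolvable p M) (A : Subgroup M) (hA : IsPGroup p A) (hΦ : (frattini ↥A).map A.subtype ≤ Cfsg.pCore p M) (hnot : ¬ A ≤ Cfsg.pCore p M) : ∃ x ∈ (Cfsg.pPrimeCore p (M ⧸ Cfsg.pCore p M)).comap (QuotientGroup.mk' (Cfsg.pCore p M)), x ∈ (Cfsg.pResidual p ↥(A ⊔ A.map (MulAut.conj x).toMonoidHom)).map (A ⊔ A.map (MulAut.conj x).toMonoidHom).subtype ∧ (Cfsg.pResidual p ↥(A ⊔ A.map (MulAut.conj x).toMonoidHom)).map (A ⊔ A.map (MulAut.conj x).toMonoidHom).subtype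 ≤ (Cfsg.pPrimeCore p (M ⧸ Cfsg.pCore p M)).comap (QuotientGroup.mk' (Cfsg.pCore p M)) ∧ ⁅(Cfsg.pResidual p ↥(A ⊔ A.map (MulAut.conj x).toMonoidHom)).map (A ⊔ A.map (MulAut.conj x).toMonoidHom).subtype, A⁆ = (Cfsg.pResidual p ↥(A ⊔ A.map (MulAut.conj x).toMonoidHom)).map (A ⊔ A.map (MulAut.conj x).toMonoidHom).subtype ∧ (A ⊓ (Cfsg.pCore p ↥(A ⊔ A.map (MulAut.conj x).toMonoidHom)).map (A ⊔ A.map (MulAut.conj x).toMonoidHom).subtype).relIndex A = p ∧ ⁅A ⊓ (Cfsg.pCore p ↥(A ⊔ A.map (MulAut.conj x).toMonoidHom)).map (A ⊔ A.map (MulAut.conj x).toMonoidHom).subtype, A ⊔ A.map (MulAut.conj x).toMonoidHom⁆ ≤ Cfsg.pCore p M := by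
  classical
  set N := Cfsg.pCore p M with hN
  set f := QuotientGroup.mk' N with hf
  have hfs : Function.Surjective f := QuotientGroup.mk'_surjective N
  set K := Cfsg.pPrimeCore p (M ⧸ N) with hK
  have hp : p.Prime := Fact.out
  have hNp : IsPGroup p N := H1.pCore_isPGroup p M
  have hKc : (Nat.card K).Coprime p := H1.pPrimeCore_coprime p _
  have hfrat : ∀ z : A, z ∈ frattini A → f (z : M) = 1 := fun z hz =>
    (QuotientGroup.eq_one_iff _).mpr (hΦ ⟨z, hz, rfl⟩)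
  have hab : ∀ a ∈ A.map f, ∀ b ∈ A.map f, a * b = b * a := by
    rintro _ ⟨a, ha, rfl⟩ _ ⟨b, hb, rfl⟩
    have h1 : ⁅(⟨a, ha⟩ : A), ⟨b, hb⟩⁆ ∈ frattini A :=
      commutator_le_frattini_of_isNilpotent (IsPGroup.isNilpotent hA) (commutator_mem_commutator (mem_top _) (mem_top _))
    have h2 := hfrat _ h1
    have h3 : f (a * b * a⁻¹ * b⁻¹) = 1 := h2
    rw [map_mul, map_mul, map_mul, map_inv, map_inv, mul_inv_eq_one, mul_inv_eq_iff_eq_mul] at h3
    exact h3
  have hpow : ∀ a ∈ A.map f, a ^ p = 1 := by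
    rintro _ ⟨a, ha, rfl⟩
    have h1 := hfrat _ (H2.pow_mem_frattini hA ⟨a, ha⟩)
    rw [← map_pow]
    exact h1
  have hAbp : IsPGroup p (A.map f) := hA.map f
  obtain ⟨k, hk⟩ := hAbp.exists_card_eq
  have hAK : A.map f ⊓ K = ⊥ := H23.inf_eq_bot_of_coprime (by rw [hk]; exact (hKc.pow_right k).symm)
  have hcK : centralizer (K : Set (M ⧸ N)) ≤ K :=
    centralizer_pPrimeCore_le (isPSolvable_quotient N hM) (H1.pCore_quotient_eq_bot p)
  have hnc : ¬ K ≤ centralizer ((A.map f : Subgroup (M ⧸ N)) : Set (M ⧸ N)) := by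
    intro hcon
    apply hnot
    intro a ha
    have h1 : f a ∈ A.map f ⊓ K := ⟨mem_map_of_mem f ha, hcK ((le_centralizer_iff.mp hcon) (mem_map_of_mem f ha))⟩
    rw [hAK, mem_bot] at h1
    exact (QuotientGroup.eq_one_iff a).mp h1
  have hAcomm : IsMulCommutative (A.map f) := ⟨⟨fun a b => Subtype.ext (hab a a.2 b b.2)⟩⟩
  obtain ⟨B, ⟨hBA, a₀, ha₀, hBa⟩, hBne⟩ : ∃ B ∈ cocyclic (A.map f), ¬ K ⊓ centralizer (B : Set (M ⧸ N)) ≤
      centralizer ((A.map f : Subgroup (M ⧸ N)) : Set (M ⧸ N)) := by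
    by_contra hcon
    push Not at hcon
    apply hnc
    conv_lhs => rw [← iSup_cocyclic_centralizer (A := A.map f) (G := K) hAcomm (by rw [normalizer_eq_top]; exact le_top)
      (by rw [hk]; exact (hKc.pow_right k).symm)]
    exact iSup₂_le hcon
  obtain ⟨x, hxE, hxC, hxn⟩ := exists_good A N hA K B hKc hab hBA hBne
  refine ⟨x, hxC.1, hxE, ?_⟩
  set L := A ⊔ A.map (MulAut.conj x).toMonoidHom with hL
  set E := (Cfsg.pResidual p ↥L).map L.subtype with hE
  have hxL : x ∈ L := H18.pRes_le L hxE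
  have hAL : A ≤ L := le_sup_left
  have hAcB : A.map f ≤ centralizer (B : Set (M ⧸ N)) := by
    intro a ha
    rw [mem_centralizer_iff]
    intro b hb
    exact hab b (hBA hb) a ha
  have hAC : A.map f ≤ normalizer ((K ⊓ centralizer (B : Set (M ⧸ N)) : Subgroup (M ⧸ N)) : Set (M ⧸ N)) := by
    apply le_normalizer_of_conj_mem
    intro a ha g hg
    exact ⟨(inferInstance : K.Normal).conj_mem g hg.1 a, Subgroup.mul_mem _ (Subgroup.mul_mem _ (hAcB ha) hg.2) (Subgroup.inv_mem _ (hAcB ha))⟩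
  have hLx : L = A ⊔ A.map (MulAut.conj x).toMonoidHom := hL
  -- (b)
  have hEK : E ≤ K.comap f := by
    rw [← map_le_iff_le_comap, hE, H18.pRes_map]
    have h1 : L.map f ≤ (K ⊓ centralizer (B : Set (M ⧸ N))) ⊔ A.map f := by
      rw [hLx, Subgroup.map_sup]
      refine sup_le le_sup_right ?_
      rintro _ ⟨_, ⟨a, ha, rfl⟩, rfl⟩
      change f (x * a * x⁻¹) ∈ _
      rw [map_mul, map_mul, map_inv]
      exact mul_mem (mul_mem (mem_sup_left hxC) (mem_sup_right (mem_map_of_mem f ha))) (inv_mem (mem_sup_left hxC))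
    refine (H18.pRes_mono h1).trans ?_
    rw [H18.pRes_sup_eq hAbp hAC]
    exact (H18.pRes_le _).trans inf_le_left
  refine ⟨hEK, ?_, ?_⟩
  · -- (c)
    have hn1 : L ≤ normalizer (E : Set M) := H18.le_normalizer_pRes L
    have h1 : ⁅E, A⁆ ≤ E := commutator_le_of_le_normalizer (hAL.trans hn1)
    apply le_antisymm h1
    have hnA : A ≤ normalizer ((⁅E, A⁆ : Subgroup M) : Set M) := normalizer_commutator_ge_right _ _
    have h2 : L ≤ ⁅E, A⁆ ⊔ A := by
      rw [hLx]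
      refine sup_le le_sup_right ?_
      rintro _ ⟨a, ha, rfl⟩
      change x * a * x⁻¹ ∈ _
      have h3 : x * a * x⁻¹ = ⁅x, a⁆ * a := by rw [commutatorElement_def]; group
      rw [h3]
      exact mul_mem (mem_sup_left (commutator_mem_commutator hxE ha)) (mem_sup_right ha)
    calc E ≤ (Cfsg.pResidual p ↥(⁅E, A⁆ ⊔ A)).map (⁅E, A⁆ ⊔ A).subtype := H18.pRes_mono h2
      _ = (Cfsg.pResidual p ↥⁅E, A⁆).map (⁅E, A⁆).subtype := H18.pRes_sup_eq hA hnA
      _ ≤ ⁅E, A⁆ := H18.pRes_le _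
  · -- (d), (e)
    set R := (Cfsg.pCore p ↥L).map L.subtype with hR
    have hRL : R ≤ L := map_subtype_le _
    have hRp : IsPGroup p R := (H1.pCore_isPGroup p L).map _
    have hBne' : B ≠ A.map f := by
      intro h
      apply hxn
      rw [← h]
      exact hxC.2
    have hLB : L.map f ≤ centralizer (B : Set (M ⧸ N)) := by
      rw [hLx, Subgroup.map_sup]
      refine sup_le hAcB ?_
      rintro _ ⟨_, ⟨a, ha, rfl⟩, rfl⟩
      change f (x * a * x⁻¹) ∈ _
      rw [map_mul, map_mul, map_inv]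
      exact mul_mem (mul_mem hxC.2 (hAcB (mem_map_of_mem f ha))) (inv_mem hxC.2)
    have hidx : B.relIndex (A.map f) = p := by
      have h1 : B.relIndex (A.map f) ∣ p := by
        exact relIndex_dvd_of_sup_zpowers hab hBA ha₀ hBa (hpow a₀ ha₀)
      rcases (Nat.dvd_prime hp).mp h1 with h | h
      · exact absurd (le_antisymm hBA (relIndex_eq_one.mp h)) hBne'
      · exact h
    set B' := A ⊓ B.comap f with hB'
    have hidx' : B'.relIndex A = p := by
      rw [hB', inf_relIndex_left, relIndex_comap, hidx]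
    have hB'R : B' ≤ R := by
      have h1 : ((L ⊓ B.comap f).subgroupOf L).Normal := by
        apply normal_subgroupOf_of_le_normalizer
        apply le_normalizer_of_conj_mem
        intro g hg h hh
        refine ⟨Subgroup.mul_mem _ (Subgroup.mul_mem _ hg hh.1) (Subgroup.inv_mem _ hg), ?_⟩
        change f (g * h * g⁻¹) ∈ B
        rw [map_mul, map_mul, map_inv]
        have h2 := mem_centralizer_iff.mp (hLB (mem_map_of_mem f hg)) (f h) hh.2
        rw [← h2, mul_assoc, mul_inv_cancel, mul_one]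
        exact hh.2
      have h3 : IsPGroup p ((L ⊓ B.comap f).subgroupOf L) := by
        have h4 : IsPGroup p (B.comap f) :=
          (hAbp.to_le hBA).comap_of_ker_isPGroup f (by rw [hf, QuotientGroup.ker_mk']; exact hNp)
        have h5 : IsPGroup p ↥(L ⊓ B.comap f) := h4.to_le inf_le_right
        exact h5.comap_of_injective L.subtype L.subtype_injective
      have h6 := H1.le_pCore h1 h3
      intro z hz
      have h7 : (⟨z, hAL hz.1⟩ : L) ∈ (L ⊓ B.comap f).subgroupOf L := ⟨hAL hz.1, hz.2⟩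
      exact ⟨_, h6 h7, rfl⟩
    have hARne : ¬ A ≤ R := by
      intro hcon
      have h1 : L ≤ normalizer (R : Set M) := le_normalizer.trans (normalizer_le_normalizer_map (Cfsg.pCore p L))
      have h2 : L ≤ R := by
        rw [hLx]
        refine sup_le hcon ?_
        rintro _ ⟨a, ha, rfl⟩
        exact (mem_normalizer_iff.mp (h1 hxL) a).mp (hcon ha)
      have h3 : f x ∈ (⊥ : Subgroup (M ⧸ N)) := by
        have h4 : (R.map f) ⊓ K = ⊥ := by
          apply H23.inf_eq_bot_of_coprime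
          obtain ⟨j, hj⟩ := (hRp.map f).exists_card_eq
          rw [hj]
          exact (hKc.pow_right j).symm
        rw [← h4]
        exact ⟨mem_map_of_mem f (h2 hxL), hxC.1⟩
      rw [mem_bot] at h3
      apply hxn
      rw [h3]
      exact one_mem _
    have hB'AR : B' ≤ A ⊓ R := le_inf inf_le_left hB'R
    have hd : (A ⊓ R).relIndex A = p := by
      have h1 : (A ⊓ R).relIndex A ∣ p := by
        rw [← hidx', ← relIndex_mul_relIndex B' (A ⊓ R) A hB'AR inf_le_left]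
        exact dvd_mul_left _ _
      rcases (Nat.dvd_prime hp).mp h1 with h | h
      · exact absurd ((relIndex_eq_one.mp h).trans inf_le_right) hARne
      · exact h
    refine ⟨hd, ?_⟩
    have hARB : A ⊓ R ≤ B' := by
      rw [← relIndex_eq_one]
      have h1 := relIndex_mul_relIndex B' (A ⊓ R) A hB'AR inf_le_left
      rw [hd, hidx'] at h1
      exact Nat.eq_of_mul_eq_mul_right hp.pos (by rw [h1, one_mul])
    rw [commutator_le]
    intro g hg l hl
    have h1 := mem_centralizer_iff.mp (hLB (mem_map_of_mem f hl)) (f g) (hARB hg).2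
    rw [← QuotientGroup.eq_one_iff]
    change f ⁅g, l⁆ = 1
    rw [map_commutatorElement, commutatorElement_eq_one_iff_mul_comm]
    exact h1

end Cfsg.Agent.S3754
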