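import Cfsg.Statements.S3755
import Cfsg.Agent.H23.Coprime4
import Cfsg.Agent.H23.PPO
import Cfsg.Agent.H7.Trans
import Cfsg.Agent.L.Invol

set_option autoImplicit false
set_option linter.all false
open Cfsg

namespace Cfsg.Agent.S3755

open Subgroup Cfsg.Agent.H23
open scoped Pointwise commutatorElement

theorem relIndex_dvd_of_sup_zpowers {G : Type*} [Group G] [Finite G] {A B : Subgroup G} {a : G} {n : ℕ}
    (hab : ∀ x ∈ A, ∀ y ∈ A, x * y = y * x) (hBA : B ≤ A) (ha : a ∈ A) (h : B ⊔ zpowers a = A) (hn : a ^ n = 1) :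
    B.relIndex A ∣ n := by
  haveI : (B.subgroupOf A).Normal := by
    apply normal_subgroupOf_of_le_normalizer
    apply le_normalizer_of_conj_mem
    intro x hx g hg
    rw [hab x hx g (hBA hg), mul_assoc, mul_inv_cancel, mul_one]
    exact hg
  have h1 : zpowers (QuotientGroup.mk' (B.subgroupOf A) ⟨a, ha⟩) = ⊤ := by
    rw [← MonoidHom.map_zpowers, eq_top_iff]
    intro y _
    obtain ⟨⟨x, hx⟩, rfl⟩ := QuotientGroup.mk'_surjective _ y
    have hx' := hx
    rw [← h] at hx'
    have hBn : zpowers a ≤ normalizer (B : Set G) := by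
      apply le_normalizer_of_conj_mem
      intro x hx g hg
      rw [hab x ((zpowers_le.mpr ha) hx) g (hBA hg), mul_assoc, mul_inv_cancel, mul_one]
      exact hg
    obtain ⟨b, hb, c, hc, hbc⟩ := (H23.mem_sup_iff_of_le_normalizer hBn).mp hx'
    obtain ⟨k, rfl⟩ := mem_zpowers_iff.mp hc
    refine ⟨⟨a, ha⟩ ^ k, zpow_mem (mem_zpowers _) k, ?_⟩
    have e1 : (⟨x, hx⟩ : A) = ⟨b, hBA hb⟩ * (⟨a, ha⟩ : A) ^ k := by
      apply Subtype.ext
      simpa using hbc.symm
    have e2 : (QuotientGroup.mk' (B.subgroupOf A)) ⟨b, hBA hb⟩ = 1 := (QuotientGroup.eq_one_iff _).mpr hb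
    rw [e1, map_mul, e2, one_mul]
  have h2 : B.relIndex A = Nat.card (A ⧸ B.subgroupOf A) := rfl
  have h3 : Nat.card (A ⧸ B.subgroupOf A) = orderOf (QuotientGroup.mk' (B.subgroupOf A) ⟨a, ha⟩) := by
    rw [← Nat.card_zpowers, h1]
    simp
  rw [h2, h3]
  apply orderOf_dvd_of_pow_eq_one
  rw [← map_pow]
  have h4 : (⟨a, ha⟩ : A) ^ n = 1 := Subtype.ext (by simpa using hn)
  rw [h4, map_one]

/-- an involution inverting an element of order three gives a section `S₃` -/
theorem involves_of_inv {G : Type*} [Group G] {a e : G} (ha : orderOf a = 2) (he : orderOf e = 3)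
    (h : a * e * a⁻¹ = e⁻¹) : Cfsg.Involves (Equiv.Perm (Fin 3)) G := by
  have ha2 : a * a = 1 := by
    have := pow_orderOf_eq_one a
    rw [ha, sq] at this
    exact this
  have hai : a⁻¹ = a := inv_eq_of_mul_eq_one_left ha2
  have he3 : e ^ 3 = 1 := by rw [← he, pow_orderOf_eq_one]
  have he1 : e ≠ 1 := by rintro rfl; simp at he
  rw [hai] at h
  have hee : e * a * (e * a) = 1 := by
    calc e * a * (e * a) = e * (a * e * a) := by group
      _ = 1 := by rw [h, mul_inv_cancel]
  have he2 : e ≠ e⁻¹ := by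
    intro h1
    have h2 : e ^ 2 = 1 := by rw [sq]; nth_rewrite 2 [h1]; exact mul_inv_cancel e
    have h3 := orderOf_dvd_of_pow_eq_one h2
    rw [he] at h3
    omega
  have hE : Cfsg.IsThreeTranspositionSet ({e * a, a} : Set G) := by
    refine ⟨?_, ?_⟩
    · rintro d (rfl | rfl)
      · apply orderOf_eq_prime
        · rw [sq]; exact hee
        · intro h1
          apply he2
          have h4 : e = a := by
            have := mul_eq_one_iff_eq_inv.mp h1
            rwa [hai] at this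
          rw [h4, hai]
      · exact ha
    · rintro d (rfl | rfl) f (rfl | rfl)
      · left; rw [hee, one_pow]
      · right; rw [mul_assoc, ha2, mul_one, he3]
      · right; rw [← mul_assoc, h, inv_pow, he3, inv_one]
      · left; rw [ha2, one_pow]
  obtain ⟨φ⟩ := H7.tt_sym3 hE (d := e * a) (e := a) (Or.inl rfl) (Or.inr rfl) (by
    intro hc
    have h1 : e * a * a = a * (e * a) := hc
    rw [mul_assoc, ha2, mul_one, ← mul_assoc, h] at h1
    exact he2 h1)
  exact L.involves_iff.mpr ⟨_, φ.toMonoidHom, φ.surjective⟩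

/-- the key estimate: an inverted element of prime order `≥ 5` -/
theorem four_le {X : Type*} [Group X] [Finite X] {W : Subgroup X} {a e : X} {r : ℕ} (hr : r.Prime) (hr3 : 3 < r)
    (hWab : ∀ x ∈ W, ∀ y ∈ W, x * y = y * x) (hW2 : ∀ x ∈ W, x ^ 2 = 1)
    (he : orderOf e = r) (h : a * e * a⁻¹ = e⁻¹) (heW : e ∈ normalizer (W : Set X))
    (hne : ¬ W ≤ centralizer ({e} : Set X)) : 4 ≤ (W ⊓ centralizer ({a} : Set X)).relIndex W := by
  classical
  have hWp : IsPGroup 2 W := fun x => ⟨1, Subtype.ext (by simpa using hW2 x x.2)⟩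
  obtain ⟨k, hk⟩ := hWp.exists_card_eq
  by_contra hlt
  push Not at hlt
  have hidx2 : (W ⊓ centralizer ({a} : Set X)).relIndex W ≤ 2 := by
    have h1 : (W ⊓ centralizer ({a} : Set X)).relIndex W ∣ 2 ^ k := by
      rw [← hk]
      exact relIndex_dvd_card _ _
    obtain ⟨j, _, hj⟩ := (Nat.dvd_prime_pow Nat.prime_two).mp h1
    rw [hj] at hlt ⊢
    have h2 : j < 2 := by
      by_contra hcon
      have := Nat.pow_le_pow_right (show 0 < 2 by norm_num) (not_lt.mp hcon)
      omega
    interval_cases j <;> norm_num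
  -- conjugate
  have hconj : (W ⊓ centralizer ({e * a * e⁻¹} : Set X)).relIndex W = (W ⊓ centralizer ({a} : Set X)).relIndex W := by
    have h1 : (W ⊓ centralizer ({a} : Set X)).map (MulAut.conj e).toMonoidHom = W ⊓ centralizer ({e * a * e⁻¹} : Set X) := by
      ext x
      constructor
      · rintro ⟨w, hw, rfl⟩
        obtain ⟨hw1, hw2⟩ := mem_inf.mp hw
        refine mem_inf.mpr ⟨(mem_normalizer_iff.mp heW w).mp hw1, mem_centralizer_singleton_iff.mpr ?_⟩
        change e * w * e⁻¹ * (e * a * e⁻¹) = e * a * e⁻¹ * (e * w * e⁻¹)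
        have h2 := mem_centralizer_singleton_iff.mp hw2
        calc e * w * e⁻¹ * (e * a * e⁻¹) = e * (w * a) * e⁻¹ := by group
          _ = e * (a * w) * e⁻¹ := by rw [h2]
          _ = _ := by group
      · intro hx
        obtain ⟨hx1, hx2⟩ := mem_inf.mp hx
        refine ⟨e⁻¹ * x * e, mem_inf.mpr ⟨?_, mem_centralizer_singleton_iff.mpr ?_⟩, ?_⟩
        · have h2 := (mem_normalizer_iff.mp (inv_mem heW) x).mp hx1
          rwa [inv_inv] at h2
        · have hx2' := mem_centralizer_singleton_iff.mp hx2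
          calc e⁻¹ * x * e * a = e⁻¹ * (x * (e * a * e⁻¹)) * e := by group
            _ = e⁻¹ * (e * a * e⁻¹ * x) * e := by rw [hx2']
            _ = _ := by group
        · change e * (e⁻¹ * x * e) * e⁻¹ = x
          group
    have h3 : W.map (MulAut.conj e).toMonoidHom = W := by
      ext x
      constructor
      · rintro ⟨w, hw, rfl⟩
        exact (mem_normalizer_iff.mp heW w).mp hw
      · intro hx
        refine ⟨e⁻¹ * x * e, ?_, ?_⟩
        · have h2 := (mem_normalizer_iff.mp (inv_mem heW) x).mp hx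
          rwa [inv_inv] at h2
        · change e * (e⁻¹ * x * e) * e⁻¹ = x
          group
    conv_lhs => rw [← h1]
    nth_rewrite 2 [← h3]
    exact relIndex_map_map_of_injective _ _ (MulAut.conj e).injective
  have hU : ((W ⊓ centralizer ({a} : Set X)) ⊓ (W ⊓ centralizer ({e * a * e⁻¹} : Set X))).relIndex W ≤ 4 := by
    refine relIndex_inf_le.trans ?_
    rw [hconj]
    exact Nat.mul_le_mul hidx2 hidx2
  have hUe : (W ⊓ centralizer ({a} : Set X)) ⊓ (W ⊓ centralizer ({e * a * e⁻¹} : Set X)) ≤ W ⊓ centralizer ({e} : Set X) := by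
    intro x hx
    refine mem_inf.mpr ⟨hx.1.1, ?_⟩
    have h1 : Commute x a := mem_centralizer_singleton_iff.mp hx.1.2
    have h2 : Commute x (e * a * e⁻¹) := mem_centralizer_singleton_iff.mp hx.2.2
    have h3 : e * a * e⁻¹ = e * e * a := by
      have : e * a * e⁻¹ = e * (a * e⁻¹ * a⁻¹) * a := by group
      rw [this]
      have h4 : a * e⁻¹ * a⁻¹ = e := by
        have h5 := congrArg (fun z => z⁻¹) h
        simpa [mul_assoc] using h5
      rw [h4]
    rw [h3] at h2
    have h5 : Commute x (e * e) := by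
      have := h2.mul_right h1.inv_right
      rwa [mul_inv_cancel_right] at this
    have h6 : e = (e * e) ^ ((r + 1) / 2) := by
      obtain ⟨s, hs⟩ := hr.odd_of_ne_two (by omega)
      rw [← sq, ← pow_mul, show 2 * ((r + 1) / 2) = r + 1 by omega, pow_succ, ← he,
        pow_orderOf_eq_one, one_mul]
    refine mem_centralizer_singleton_iff.mpr ?_
    have h7 := (h5.pow_right ((r + 1) / 2)).eq
    rwa [← h6] at h7
  have hWe : (W ⊓ centralizer ({e} : Set X)).relIndex W ≤ 4 :=
    (Nat.le_of_dvd (by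
      have := relIndex_dvd_card ((W ⊓ centralizer ({a} : Set X)) ⊓ (W ⊓ centralizer ({e * a * e⁻¹} : Set X))) W
      exact Nat.pos_of_dvd_of_pos this Nat.card_pos) (relIndex_dvd_of_le_left W hUe)).trans hU
  -- r distinct cosets
  obtain ⟨w, hw, hwe⟩ := Set.not_subset.mp hne
  have hconjW : ∀ i : ℕ, e ^ i * w * (e ^ i)⁻¹ ∈ W := fun i =>
    (mem_normalizer_iff.mp (pow_mem heW i) w).mp hw
  have hkey : ∀ i j : ℕ, i < j → j < r →
      (e ^ i * w * (e ^ i)⁻¹)⁻¹ * (e ^ j * w * (e ^ j)⁻¹) ∈ centralizer ({e} : Set X) → False := by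
    intro i j hij hjr hmem
    obtain ⟨m, hm0, rfl⟩ : ∃ m, 0 < m ∧ j = i + m := ⟨j - i, by omega, by omega⟩
    set c := (e ^ i * w * (e ^ i)⁻¹)⁻¹ * (e ^ (i + m) * w * (e ^ (i + m))⁻¹) with hc
    have hce : Commute c e := mem_centralizer_singleton_iff.mp hmem
    have hcW : c ∈ W := mul_mem (inv_mem (hconjW i)) (hconjW (i + m))
    have hci : (e ^ i)⁻¹ * c * e ^ i = c := by
      have := (hce.pow_right i).eq
      rw [mul_assoc, this, inv_mul_cancel_left]
    have h1 : e ^ m * w * (e ^ m)⁻¹ = w * c := by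
      rw [← hci, hc, pow_add]
      group
    have h2 : ∀ t : ℕ, (e ^ m) ^ t * w * ((e ^ m) ^ t)⁻¹ = w * c ^ t := by
      intro t
      induction t with
      | zero => simp
      | succ t ih =>
        have hcm : e ^ m * c ^ t * (e ^ m)⁻¹ = c ^ t := by
          have := ((hce.pow_right m).pow_left t).eq
          rw [← this, mul_inv_cancel_right]
        calc (e ^ m) ^ (t + 1) * w * ((e ^ m) ^ (t + 1))⁻¹ = e ^ m * ((e ^ m) ^ t * w * ((e ^ m) ^ t)⁻¹) * (e ^ m)⁻¹ := by
              rw [pow_succ' (e ^ m) t]; group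
          _ = (e ^ m * w * (e ^ m)⁻¹) * (e ^ m * c ^ t * (e ^ m)⁻¹) := by rw [ih]; group
          _ = w * c ^ (t + 1) := by rw [h1, hcm, mul_assoc, pow_succ']
    have h3 := h2 r
    rw [← pow_mul, mul_comm m r, pow_mul, ← he, pow_orderOf_eq_one, one_pow, one_mul, inv_one, mul_one, he] at h3
    have h4 : c ^ r = 1 := (mul_eq_left.mp h3.symm)
    have h5 : c = 1 := by
      have h6 : orderOf c ∣ r := orderOf_dvd_of_pow_eq_one h4
      have h7 : orderOf c ∣ 2 := orderOf_dvd_of_pow_eq_one (hW2 c hcW)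
      have h8 : r.Coprime 2 := (Nat.coprime_primes hr Nat.prime_two).mpr (by omega)
      have h9 := Nat.dvd_gcd h6 h7
      rw [h8] at h9
      exact orderOf_eq_one_iff.mp (Nat.dvd_one.mp h9)
    rw [h5, mul_one, mul_inv_eq_iff_eq_mul] at h1
    have h6 : Commute (e ^ m) w := h1
    have h7 : e ∈ zpowers (e ^ m) := by
      have h8 : (orderOf e).Coprime m := by
        rw [he]
        exact (Nat.Prime.coprime_iff_not_dvd hr).mpr (Nat.not_dvd_of_pos_of_lt hm0 (by omega))
      obtain ⟨t, ht⟩ := exists_pow_eq_self_of_coprime h8.symm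
      exact mem_zpowers_iff.mpr ⟨(t : ℤ), by rw [zpow_natCast]; exact ht⟩
    obtain ⟨t, ht⟩ := mem_zpowers_iff.mp h7
    apply hwe
    refine mem_centralizer_singleton_iff.mpr ?_
    have h8 := (h6.zpow_left t).symm.eq
    rwa [ht] at h8
  have hinj : Function.Injective (fun i : Fin r =>
      ((⟨e ^ (i : ℕ) * w * (e ^ (i : ℕ))⁻¹, hconjW i⟩ : W) : W ⧸ (W ⊓ centralizer ({e} : Set X)).subgroupOf W)) := by
    intro i j hij
    have h1 : (e ^ (i : ℕ) * w * (e ^ (i : ℕ))⁻¹)⁻¹ * (e ^ (j : ℕ) * w * (e ^ (j : ℕ))⁻¹) ∈ W ⊓ centralizer ({e} : Set X) :=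
      mem_subgroupOf.mp (QuotientGroup.eq.mp hij)
    have h2 : (e ^ (j : ℕ) * w * (e ^ (j : ℕ))⁻¹)⁻¹ * (e ^ (i : ℕ) * w * (e ^ (i : ℕ))⁻¹) ∈ W ⊓ centralizer ({e} : Set X) :=
      mem_subgroupOf.mp (QuotientGroup.eq.mp hij.symm)
    rcases lt_trichotomy (i : ℕ) (j : ℕ) with h | h | h
    · exact (hkey i j h j.2 h1.2).elim
    · exact Fin.ext h
    · exact (hkey j i h i.2 h2.2).elim
  have h8 := Nat.card_le_card_of_injective _ hinj
  rw [Nat.card_fin] at h8
  have h9 : Nat.card (W ⧸ (W ⊓ centralizer ({e} : Set X)).subgroupOf W) = (W ⊓ centralizer ({e} : Set X)).relIndex W := rfl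
  have hr4 : r ≠ 4 := by
    intro h4
    rw [h4] at hr
    norm_num at hr
  omega
/-- the inductive estimate -/
theorem bound {X : Type*} [Group X] [Finite X] (M V K : Subgroup X) (hV : Cfsg.IsElementaryAbelian 2 V)
    (hMV : M ≤ normalizer (V : Set X)) (hfaith : M ⊓ centralizer (V : Set X) = ⊥) (hKM : K ≤ M)
    (hMK : M ≤ normalizer (K : Set X)) (hKc : (Nat.card K).Coprime 2)
    (hcon : ∀ a ∈ M, a ∈ centralizer (K : Set X) → a ^ 2 = 1 → a = 1)
    (hno : ¬ Cfsg.Involves (Equiv.Perm (Fin 3)) ↥M) (n : ℕ) :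
    ∀ A : Subgroup X, Nat.card A = n → A ≤ M → Cfsg.IsElementaryAbelian 2 A →
      n ^ 2 ≤ (V ⊓ centralizer (A : Set X)).relIndex V := by
  classical
  haveI : Fact (Nat.Prime 2) := ⟨Nat.prime_two⟩
  induction n using Nat.strong_induction_on with
  | _ n ih =>
  intro A hn hAM hA
  have hVab : ∀ x ∈ V, ∀ y ∈ V, x * y = y * x := fun x hx y hy =>
    congrArg Subtype.val (hV.1.is_comm.comm (⟨x, hx⟩ : V) ⟨y, hy⟩)
  have hAab : ∀ x ∈ A, ∀ y ∈ A, x * y = y * x := fun x hx y hy =>
    congrArg Subtype.val (hA.1.is_comm.comm (⟨x, hx⟩ : A) ⟨y, hy⟩)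
  have hAp : IsPGroup 2 A := fun x => ⟨1, Subtype.ext (by simpa using hA.2 x x.2)⟩
  have hVp : IsPGroup 2 V := fun x => ⟨1, Subtype.ext (by simpa using hV.2 x x.2)⟩
  have hpos : ∀ U : Subgroup X, 0 < U.relIndex V := fun U =>
    Nat.pos_of_dvd_of_pos (relIndex_dvd_card U V) Nat.card_pos
  by_cases hA1 : A = ⊥
  · rw [hA1, card_bot] at hn
    rw [← hn]
    exact hpos _
  have hAK : A ≤ normalizer (K : Set X) := hAM.trans hMK
  have hcop : (Nat.card A).Coprime (Nat.card K) := by
    obtain ⟨k, hk⟩ := hAp.exists_card_eq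
    rw [hk]
    exact (hKc.pow_right k).symm
  have hnc : ¬ K ≤ centralizer (A : Set X) := by
    intro h
    apply hA1
    rw [eq_bot_iff]
    intro a ha
    exact hcon a (hAM ha) ((le_centralizer_iff.mp h) ha) (hA.2 a ha)
  obtain ⟨B, ⟨hBA, a, ha, hBa⟩, hBne⟩ : ∃ B ∈ cocyclic A, ¬ K ⊓ centralizer (B : Set X) ≤ centralizer (A : Set X) := by
    by_contra hcon'
    push Not at hcon'
    apply hnc
    conv_lhs => rw [← iSup_cocyclic_centralizer (A := A) (G := K) hA.1 hAK hcop]
    exact iSup₂_le hcon'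
  have hBne' : B ≠ A := by
    rintro rfl
    exact hBne inf_le_right
  have hidx : B.relIndex A = 2 := by
    have h1 := relIndex_dvd_of_sup_zpowers hAab hBA ha hBa (hA.2 a ha)
    rcases (Nat.dvd_prime Nat.prime_two).mp h1 with h | h
    · exact absurd (le_antisymm hBA (relIndex_eq_one.mp h)) hBne'
    · exact h
  have hcard : Nat.card A = 2 * Nat.card B := by
    have h1 := H1.card_mul_relIndex hBA
    rw [hidx] at h1
    rw [← h1, mul_comm]
  have hBM : B ≤ M := hBA.trans hAM
  have hBel : Cfsg.IsElementaryAbelian 2 B :=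
    ⟨⟨⟨fun x y => Subtype.ext (hAab x (hBA x.2) y (hBA y.2))⟩⟩, fun x hx => hA.2 x (hBA hx)⟩
  have hBpos : 0 < Nat.card B := Nat.card_pos
  have hih := ih (Nat.card B) (by rw [← hn, hcard]; omega) B rfl hBM hBel
  -- the element c
  obtain ⟨c, hc, hcA⟩ := Set.not_subset.mp hBne
  obtain ⟨hcK, hcB⟩ := mem_inf.mp hc
  have hca : c * a ≠ a * c := by
    intro h
    apply hcA
    have h1 : A ≤ centralizer ({c} : Set X) := by
      rw [← hBa, sup_le_iff, zpowers_le]
      exact ⟨fun b hb => mem_centralizer_singleton_iff.mpr (mem_centralizer_iff.mp hcB b hb),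
        mem_centralizer_singleton_iff.mpr h.symm⟩
    exact mem_centralizer_iff.mpr fun x hx => mem_centralizer_singleton_iff.mp (h1 hx)
  have ha2 : a * a = 1 := by have := hA.2 a ha; rwa [sq] at this
  have hai : a⁻¹ = a := inv_eq_of_mul_eq_one_left ha2
  set d := c * a * c⁻¹ * a⁻¹ with hd
  have hdK : d ∈ K := by
    have h1 : d = c * (a * c⁻¹ * a⁻¹) := by rw [hd]; group
    rw [h1]
    exact mul_mem hcK ((mem_normalizer_iff.mp (hAK ha) c⁻¹).mp (inv_mem hcK))
  have haB : a ∈ centralizer (B : Set X) := mem_centralizer_iff.mpr fun b hb => hAab b (hBA hb) a ha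
  have hdB : d ∈ centralizer (B : Set X) :=
    mul_mem (mul_mem (mul_mem hcB haB) (inv_mem hcB)) (inv_mem haB)
  have hd1 : d ≠ 1 := by
    intro h
    rw [hd, mul_inv_eq_one, mul_inv_eq_iff_eq_mul] at h
    exact hca h
  have hdinv : a * d * a⁻¹ = d⁻¹ := by
    rw [hd, hai]
    calc a * (c * a * c⁻¹ * a) * a = a * c * a * c⁻¹ * (a * a) := by group
      _ = a * c * a * c⁻¹ := by rw [ha2, mul_one]
      _ = (c * a⁻¹ * c⁻¹ * a⁻¹)⁻¹ := by group
      _ = _ := by rw [hai]
  have hdodd : (orderOf d).Coprime 2 := Nat.Coprime.coprime_dvd_left (Subgroup.orderOf_dvd_natCard K hdK) hKc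
  obtain ⟨r, hr, hrd⟩ := Nat.exists_prime_and_dvd (n := orderOf d) (by rw [Ne, orderOf_eq_one_iff]; exact hd1)
  set e := d ^ (orderOf d / r) with he
  have heo : orderOf e = r := by
    rw [he, orderOf_pow_of_dvd (Nat.div_pos (Nat.le_of_dvd (orderOf_pos d) hrd) hr.pos).ne' (Nat.div_dvd_of_dvd hrd),
      Nat.div_div_self hrd (orderOf_pos d).ne']
  have heinv : a * e * a⁻¹ = e⁻¹ := by rw [he, ← conj_pow, hdinv, inv_pow]
  have heK : e ∈ K := pow_mem hdK _
  have heM : e ∈ M := hKM heK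
  have heB : e ∈ centralizer (B : Set X) := pow_mem hdB _
  have hr2 : r ≠ 2 := by
    rintro rfl
    have := Nat.Coprime.coprime_dvd_left hrd hdodd
    norm_num at this
  have hr3 : r ≠ 3 := by
    rintro rfl
    apply hno
    refine involves_of_inv (a := ⟨a, hAM ha⟩) (e := ⟨e, heM⟩) ?_ ?_ (Subtype.ext heinv)
    · rw [Subgroup.orderOf_mk]
      apply orderOf_eq_prime (hA.2 a ha)
      rintro rfl
      apply hca
      rw [mul_one, one_mul]
    · rw [Subgroup.orderOf_mk, heo]
  have hr3' : 3 < r := by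
    have := hr.two_le
    omega
  set W := V ⊓ centralizer (B : Set X) with hW
  have heW : e ∈ normalizer (W : Set X) := by
    have h1 : ∀ g : X, g ∈ M → g ∈ centralizer (B : Set X) → ∀ w ∈ W, g * w * g⁻¹ ∈ W := by
      intro g hgM hgB w hw
      exact mem_inf.mpr ⟨(mem_normalizer_iff.mp (hMV hgM) w).mp hw.1,
        mul_mem (mul_mem hgB hw.2) (inv_mem hgB)⟩
    have h2 : zpowers e ≤ normalizer (W : Set X) := by
      apply le_normalizer_of_conj_mem
      intro g hg w hw
      exact h1 g ((zpowers_le.mpr heM) hg) ((zpowers_le.mpr heB) hg) w hw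
    exact h2 (mem_zpowers e)
  have hWe : ¬ W ≤ centralizer ({e} : Set X) := by
    intro h
    have h1 : V ≤ centralizer (zpowers e : Set X) := by
      refine thompson_AxB (p := 2) (A := zpowers e) (B := B) hVp ?_ (hAp.to_le hBA)
        (zpowers_le.mpr (hMV heM)) (hBM.trans hMV) ?_ ?_
      · rw [Nat.card_zpowers, heo]
        exact (Nat.coprime_primes hr Nat.prime_two).mpr hr2
      · intro b hb
        rw [mem_centralizer_iff]
        intro x hx
        exact (mem_centralizer_iff.mp ((zpowers_le.mpr heB) hx) b hb).symm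
      · intro w hw
        rw [mem_centralizer_iff]
        intro x hx
        obtain ⟨k, rfl⟩ := mem_zpowers_iff.mp hx
        have h2 : Commute e w := (mem_centralizer_singleton_iff.mp (h hw)).symm
        exact (h2.zpow_left k).eq
    have h2 : e ∈ M ⊓ centralizer (V : Set X) := ⟨heM, (le_centralizer_iff.mp h1) (mem_zpowers e)⟩
    rw [hfaith, mem_bot] at h2
    rw [h2, orderOf_one] at heo
    exact hr.one_lt.ne heo
  have h4 := four_le (W := W) hr hr3' (fun x hx y hy => hVab x hx.1 y hy.1) (fun x hx => hV.2 x hx.1) heo heinv heW hWe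
  -- put together
  have heq : V ⊓ centralizer (A : Set X) = W ⊓ centralizer ({a} : Set X) := by
    ext x
    constructor
    · intro hx
      exact mem_inf.mpr ⟨mem_inf.mpr ⟨hx.1, centralizer_le hBA hx.2⟩,
        mem_centralizer_singleton_iff.mpr (mem_centralizer_iff.mp hx.2 a ha).symm⟩
    · intro hx
      refine mem_inf.mpr ⟨hx.1.1, ?_⟩
      have h1 : A ≤ centralizer ({x} : Set X) := by
        rw [← hBa, sup_le_iff, zpowers_le]
        exact ⟨fun b hb => mem_centralizer_singleton_iff.mpr (mem_centralizer_iff.mp hx.1.2 b hb),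
          mem_centralizer_singleton_iff.mpr (mem_centralizer_singleton_iff.mp hx.2).symm⟩
      exact mem_centralizer_iff.mpr fun y hy => mem_centralizer_singleton_iff.mp (h1 hy)
  have h5 : (W ⊓ centralizer ({a} : Set X)).relIndex V = (W ⊓ centralizer ({a} : Set X)).relIndex W * W.relIndex V :=
    (relIndex_mul_relIndex _ _ _ inf_le_left inf_le_left).symm
  rw [heq, h5, ← hn, hcard]
  calc (2 * Nat.card B) ^ 2 = 4 * Nat.card B ^ 2 := by ring
    _ ≤ _ := Nat.mul_le_mul h4 hih

/-- Let M and V be subgroups of a finite group with V an elementary abelian 2-group, M normalizing V and acting faithfully on it (M ∩ C(V) = 1), and C_M(O_{2'}(M)) ≤ O_{2'}(M). If some elementary abelian 2-subgroup A of M satisfies |V : C_V(A)| < |A|², then M has a section isomorphic to the symmetric group of degree 3. -/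
theorem result {X : Type*} [Group X] [Finite X] (M V : Subgroup X) (hV : Cfsg.IsElementaryAbelian 2 V) (hMV : M ≤ Subgroup.normalizer (V : Set X)) (hfaith : M ⊓ Subgroup.centralizer (V : Set X) = ⊥) (hcon : Subgroup.centralizer (Cfsg.pPrimeCore 2 ↥M : Set ↥M) ≤ Cfsg.pPrimeCore 2 ↥M) (A : Subgroup X) (hAM : A ≤ M) (hA : Cfsg.IsElementaryAbelian 2 A) (hsmall : (V ⊓ Subgroup.centralizer (A : Set X)).relIndex V < Nat.card A ^ 2) : Cfsg.Involves (Equiv.Perm (Fin 3)) ↥M := by
  classical
  haveI : Fact (Nat.Prime 2) := ⟨Nat.prime_two⟩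
  by_contra hno
  have h1 := bound M V (ppo 2 M) hV hMV hfaith ppo_le le_normalizer_ppo ppo_coprime (by
    intro a ha hac ha2
    have h2 : (⟨a, ha⟩ : M) ∈ centralizer (Cfsg.pPrimeCore 2 ↥M : Set ↥M) := by
      rw [mem_centralizer_iff]
      intro y hy
      exact Subtype.ext (mem_centralizer_iff.mp hac _ (mem_map_of_mem M.subtype hy))
    have h3 := hcon h2
    have h4 : orderOf (⟨a, ha⟩ : M) ∣ Nat.card (Cfsg.pPrimeCore 2 ↥M) := Subgroup.orderOf_dvd_natCard _ h3
    have h5 : orderOf (⟨a, ha⟩ : M) ∣ 2 := orderOf_dvd_of_pow_eq_one (Subtype.ext (by simpa using ha2))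
    have h6 := Nat.dvd_gcd h4 h5
    rw [show Nat.gcd (Nat.card (Cfsg.pPrimeCore 2 ↥M)) 2 = 1 from H1.pPrimeCore_coprime 2 M] at h6
    have h7 := orderOf_eq_one_iff.mp (Nat.dvd_one.mp h6)
    exact congrArg Subtype.val h7) hno (Nat.card A) A rfl hAM hA
  omega

end Cfsg.Agent.S3755
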