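import Cfsg.Statements.S3760

set_option autoImplicit false
set_option linter.all false
open Cfsg

namespace Cfsg.Agent.S3760

section aux
open Subgroup

theorem aux {G : Type*} [Group G] {X : Type*} [MulAction G X] (htrans : ∀ a b : X, ∃ g : G, g • a = b) (x : X) (K : Subgroup G) (hK : K ≤ MulAction.stabilizer G x) : (∀ a b : X, (∀ k ∈ K, k • a = a) → (∀ k ∈ K, k • b = b) → ∃ g ∈ Subgroup.normalizer (K : Set G), g • a = b) ↔ ∀ g : G, K.map (MulAut.conj g).toMonoidHom ≤ MulAction.stabilizer G x → ∃ h ∈ MulAction.stabilizer G x, K.map (MulAut.conj g).toMonoidHom = K.map (MulAut.conj h).toMonoidHom := by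
  have hmc : ∀ (g y : G), y ∈ K.map (MulAut.conj g).toMonoidHom ↔ g⁻¹ * y * g ∈ K := by
    intro g y
    constructor
    · rintro ⟨k, hk, rfl⟩
      have : g⁻¹ * ((MulAut.conj g).toMonoidHom k) * g = k := by
        show g⁻¹ * (g * k * g⁻¹) * g = k
        group
      rw [this]; exact hk
    · intro h
      exact ⟨_, h, by show g * (g⁻¹ * y * g) * g⁻¹ = y; group⟩
  constructor
  · intro h g hg
    -- `x` and `g⁻¹ x` are fixed by `K`
    have h1 : ∀ k ∈ K, k • x = x := fun k hk => hK hk
    have h2 : ∀ k ∈ K, k • (g⁻¹ • x) = g⁻¹ • x := by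
      intro k hk
      have h3 : g * k * g⁻¹ ∈ MulAction.stabilizer G x := by
        apply hg
        rw [hmc]
        have : g⁻¹ * (g * k * g⁻¹) * g = k := by group
        rw [this]; exact hk
      have h4 : (g * k * g⁻¹) • x = x := h3
      rw [smul_smul, eq_inv_smul_iff, smul_smul, ← mul_assoc]
      exact h4
    obtain ⟨n, hn, hnx⟩ := h (g⁻¹ • x) x h2 h1
    refine ⟨g * n⁻¹, ?_, ?_⟩
    · rw [MulAction.mem_stabilizer_iff]
      rw [← mul_smul] at hnx
      have : (n * g⁻¹) • x = x := hnx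
      rw [show g * n⁻¹ = (n * g⁻¹)⁻¹ by group]
      rw [inv_smul_eq_iff]; exact this.symm
    · ext y
      rw [hmc, hmc]
      have h5 := (mem_normalizer_iff.mp hn (g⁻¹ * y * g))
      rw [h5]
      have : (g * n⁻¹)⁻¹ * y * (g * n⁻¹) = n * (g⁻¹ * y * g) * n⁻¹ := by group
      rw [this]
  · intro h a b ha hb
    obtain ⟨u, hu⟩ := htrans x a
    obtain ⟨v, hv⟩ := htrans x b
    have key : ∀ (w : G) (c : X), w • x = c → (∀ k ∈ K, k • c = c) →
        ∃ s ∈ MulAction.stabilizer G x, (w * s) ∈ normalizer (K : Set G) := by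
      intro w c hwc hc
      have h1 : K.map (MulAut.conj w⁻¹).toMonoidHom ≤ MulAction.stabilizer G x := by
        intro y hy
        rw [hmc] at hy
        rw [MulAction.mem_stabilizer_iff]
        have h2 := hc _ hy
        rw [← hwc, inv_inv, smul_smul] at h2
        have h3 : w * y * w⁻¹ * w = w * y := by group
        rw [h3, mul_smul] at h2
        exact (smul_left_cancel_iff w).mp h2
      obtain ⟨s, hs, hsK⟩ := h w⁻¹ h1
      refine ⟨s, hs, ?_⟩
      rw [mem_normalizer_iff]
      intro k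
      have h4 : (w⁻¹)⁻¹ * (s * k * s⁻¹) * w⁻¹ ∈ K ↔ s⁻¹ * (s * k * s⁻¹) * s ∈ K := by
        rw [← hmc, ← hmc, hsK]
      have e1 : s⁻¹ * (s * k * s⁻¹) * s = k := by group
      have e2 : (w⁻¹)⁻¹ * (s * k * s⁻¹) * w⁻¹ = w * s * k * (w * s)⁻¹ := by group
      rw [e1, e2] at h4
      exact h4.symm
    obtain ⟨s, hs, hsn⟩ := key u a hu ha
    obtain ⟨t, ht, htn⟩ := key v b hv hb
    refine ⟨(v * t) * (u * s)⁻¹, mul_mem htn (inv_mem hsn), ?_⟩
    have e1 : (u * s) • x = a := by rw [mul_smul, show s • x = x from hs, hu]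
    have e2 : (v * t) • x = b := by rw [mul_smul, show t • x = x from ht, hv]
    rw [mul_smul, ← e1, inv_smul_smul, e2]

end aux

/-- Let the group G act transitively on a set X, let x ∈ X with stabilizer H = G_x, and let K ≤ H. Then N_G(K) acts transitively on the set of fixed points of K if and only if every G-conjugate of K contained in H is already an H-conjugate of K. -/
theorem result {G : Type*} [Group G] {X : Type*} [MulAction G X] (htrans : ∀ a b : X, ∃ g : G, g • a = b) (x : X) (K : Subgroup G) (hK : K ≤ MulAction.stabilizer G x) : (∀ a b : X, (∀ k ∈ K, k • a = a) → (∀ k ∈ K, k • b = b) → ∃ g ∈ Subgroup.normalizer (K : Set G), g • a = b) ↔ ∀ g : G, K.map (MulAut.conj g).toMonoidHom ≤ MulAction.stabilizer G x → ∃ h ∈ MulAction.stabilizer G x, K.map (MulAut.conj g).toMonoidHom = K.map (MulAut.conj h).toMonoidHom := by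
  exact aux htrans x K hK

end Cfsg.Agent.S3760
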