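import Cfsg.Statements.S3761
import Cfsg.Agent.H23.RankOne
import Cfsg.Agent.H20.ElemAb
import Cfsg.Agent.H1.Cores

set_option autoImplicit false
set_option linter.all false
open Cfsg

namespace Cfsg.Agent.S3761

section aux
open Subgroup
open scoped commutatorElement

theorem mem_cent_iff {G : Type*} [Group G] {p : ℕ} {u m : G} :
    m ∈ centralizer (Cfsg.powerClosure p 1 (zpowers u) : Set G) ↔ Commute m (u ^ p) := by
  constructor
  · intro h
    have := mem_centralizer_iff.mp h (u ^ p) (subset_closure ⟨u, mem_zpowers u, by rw [pow_one]⟩)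
    exact this.symm
  · intro h
    have : Cfsg.powerClosure p 1 (zpowers u) ≤ centralizer ({m} : Set G) := by
      unfold Cfsg.powerClosure
      rw [closure_le]
      rintro _ ⟨x, hx, rfl⟩
      obtain ⟨k, rfl⟩ := mem_zpowers_iff.mp hx
      rw [SetLike.mem_coe, mem_centralizer_singleton_iff, pow_one]
      have h1 : (u ^ k) ^ p = (u ^ p) ^ k := by
        rw [← zpow_natCast, ← zpow_mul, ← zpow_natCast u, ← zpow_mul, mul_comm]
      rw [h1]
      exact (h.zpow_right k).eq.symm
    rw [mem_centralizer_iff]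
    intro w hw
    exact mem_centralizer_singleton_iff.mp (this hw)

theorem aux {G : Type*} [Group G] [Finite G] {p : ℕ} [Fact p.Prime] (hG : IsPGroup p G) (hna : ¬ IsMulCommutative G) (U : Subgroup G) [U.Normal] (hU : IsCyclic U) (n : ℕ) (hUn : Nat.card U = p ^ n) (hC : Subgroup.centralizer (U : Set G) = U) : (p = 2 ∧ Nat.card G = 2 ^ (n + 1) ∧ ((∃ m : ℕ, Nonempty (G ≃* DihedralGroup m)) ∨ (∃ m : ℕ, Nonempty (G ≃* QuaternionGroup m)) ∨ Cfsg.IsQuasiDihedral G)) ∨ (U.relIndex (Subgroup.centralizer (Cfsg.powerClosure p 1 U : Set G)) = p ∧ Cfsg.IsElementaryAbelian p (Cfsg.omegaOne p (Subgroup.centralizer (Cfsg.powerClosure p 1 U : Set G))) ∧ Nat.card ↥(Cfsg.omegaOne p (Subgroup.centralizer (Cfsg.powerClosure p 1 U : Set G))) = p ^ 2 ∧ (Cfsg.omegaOne p (Subgroup.centralizer (Cfsg.powerClosure p 1 U : Set G))).Characteristic) := by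
  classical
  obtain ⟨g, hg⟩ := hU.exists_generator
  have hUg : U = zpowers (g : G) := by
    apply le_antisymm
    · intro a ha
      obtain ⟨k, hk⟩ := mem_zpowers_iff.mp (hg ⟨a, ha⟩)
      exact mem_zpowers_iff.mpr ⟨k, by have := congrArg Subtype.val hk; simpa using this⟩
    · exact zpowers_le.mpr g.2
  generalize (g : G) = u at hUg
  subst hUg
  clear hg hU
  have hu : orderOf u = p ^ n := by rw [← Nat.card_zpowers, hUn]
  have hne : zpowers u ≠ ⊤ := by
    intro h
    apply hna
    refine ⟨⟨fun a b => ?_⟩⟩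
    have ha : a ∈ centralizer (zpowers u : Set G) := by rw [hC, h]; exact mem_top a
    exact (mem_centralizer_iff.mp ha b (by rw [h]; exact mem_top b)).symm
  have hn' : (zpowers u).Normal := inferInstance
  rcases H23.cyclic_selfcentralizing hG hu hn' hC hne with ⟨rfl, m, rfl, hm⟩ | ⟨m, rfl, hm1, h2, y, hy, hyU⟩
  · left
    refine ⟨rfl, hm.card, ?_⟩
    rcases hm.named with h | h | h
    · exact Or.inl ⟨_, h⟩
    · exact Or.inr (Or.inl ⟨_, h⟩)
    · exact Or.inr (Or.inr h.2)
  · right
    obtain ⟨E, hE, hEc, hEcomm, hEn⟩ := H23.exists_omega hG hu hn' hC h2 hm1 hy hyU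
    set M := centralizer (Cfsg.powerClosure p 1 (zpowers u) : Set G) with hM
    have hMm : ∀ m, m ∈ M ↔ Commute m (u ^ p) := fun m => mem_cent_iff
    have hEO : Cfsg.omegaOne p M = E := by
      apply le_antisymm
      · unfold Cfsg.omegaOne
        rw [closure_le]
        rintro x ⟨hx, hxp⟩
        exact (hE x).mpr ⟨(hMm x).mp hx, hxp⟩
      · intro x hx
        obtain ⟨h3, h4⟩ := (hE x).mp hx
        exact subset_closure ⟨(hMm x).mpr h3, h4⟩
    refine ⟨?_, ?_, ?_, ?_⟩
    · have h3 : M = zpowers u ⊔ zpowers y := by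
        apply le_antisymm
        · intro w hw
          obtain ⟨i, k, rfl⟩ := H23.exists_eq_mul hG hu hn' hC hy hyU ((hMm w).mp hw)
          exact mul_mem (mem_sup_right (zpow_mem (mem_zpowers _) _)) (mem_sup_left (zpow_mem (mem_zpowers _) _))
        · refine sup_le (zpowers_le.mpr ?_) (zpowers_le.mpr ((hMm y).mpr hy))
          exact (hMm u).mpr ((Commute.refl u).pow_right p)
      obtain ⟨k, hk⟩ := H23.pow_mem_of_commute hG hu hn' hC hy hyU
      have h4 := H23.card_sup_zpowers_of_pow_mem (p := p) (B := zpowers u) hyU (by rw [hk]; exact zpow_mem (mem_zpowers u) _)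
      have h5 : Nat.card (zpowers u) * (zpowers u).relIndex M = Nat.card M :=
        H1.card_mul_relIndex (H := M) (K := zpowers u) (by rw [h3]; exact le_sup_left)
      rw [h3, h4, ← h3] at h5
      exact Nat.eq_of_mul_eq_mul_left Nat.card_pos h5
    · rw [hEO, H20.isElementaryAbelian_iff]
      exact ⟨hEcomm, fun a ha => ((hE a).mp ha).2⟩
    · rw [hEO, hEc]
    · rw [hEO, characteristic_iff_map_le]
      intro φ w hw
      -- every normal subgroup of exponent `p` lies in `E`
      obtain ⟨e, he, rfl⟩ := hw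
      have hFn : (E.map φ.toMonoidHom).Normal := Normal.map inferInstance _ φ.surjective
      have hFp : ∀ a ∈ E.map φ.toMonoidHom, a ^ p = 1 := by
        rintro _ ⟨a, ha, rfl⟩
        rw [← map_pow, ((hE a).mp ha).2, map_one]
      have hwF : φ.toMonoidHom e ∈ E.map φ.toMonoidHom := mem_map_of_mem _ he
      generalize φ.toMonoidHom e = w at hwF ⊢
      rw [hE]
      refine ⟨?_, hFp w hwF⟩
      -- the commutator
      set c := w * u * w⁻¹ * u⁻¹ with hc
      have hcF : c ∈ E.map φ.toMonoidHom := by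
        have h3 : u * w⁻¹ * u⁻¹ ∈ E.map φ.toMonoidHom := hFn.conj_mem _ (inv_mem hwF) u
        have h4 : c = w * (u * w⁻¹ * u⁻¹) := by rw [hc]; group
        rw [h4]; exact mul_mem hwF h3
      have hcU : c ∈ zpowers u := by
        rw [hc]
        exact mul_mem (hn'.conj_mem u (mem_zpowers u) w) (inv_mem (mem_zpowers u))
      obtain ⟨k, hk⟩ := mem_zpowers_iff.mp hcU
      have h5 : w * u * w⁻¹ = c * u := by rw [hc]; group
      have h6 : Commute c u := by rw [← hk]; exact (Commute.refl u).zpow_left k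
      have h7 : w * u ^ p * w⁻¹ = u ^ p := by
        rw [← conj_pow, h5, h6.mul_pow, hFp c hcF, one_mul]
      exact mul_inv_eq_iff_eq_mul.mp h7
end aux

/-- Let G be a finite non-abelian p-group with a cyclic normal subgroup U of order p^n such that C_G(U) = U. Then either p = 2 and G is dihedral, generalized quaternion or semidihedral of order 2^(n+1); or, writing U₁ for the subgroup generated by the p-th powers of elements of U and M = C_G(U₁), the subgroup U has index p in M and the subgroup Ω₁(M) generated by the elements of M of order dividing p is elementary abelian of order p² and characteristic in G. -/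
theorem result {G : Type*} [Group G] [Finite G] {p : ℕ} [Fact p.Prime] (hG : IsPGroup p G) (hna : ¬ IsMulCommutative G) (U : Subgroup G) [U.Normal] (hU : IsCyclic U) (n : ℕ) (hUn : Nat.card U = p ^ n) (hC : Subgroup.centralizer (U : Set G) = U) : (p = 2 ∧ Nat.card G = 2 ^ (n + 1) ∧ ((∃ m : ℕ, Nonempty (G ≃* DihedralGroup m)) ∨ (∃ m : ℕ, Nonempty (G ≃* QuaternionGroup m)) ∨ Cfsg.IsQuasiDihedral G)) ∨ (U.relIndex (Subgroup.centralizer (Cfsg.powerClosure p 1 U : Set G)) = p ∧ Cfsg.IsElementaryAbelian p (Cfsg.omegaOne p (Subgroup.centralizer (Cfsg.powerClosure p 1 U : Set G))) ∧ Nat.card ↥(Cfsg.omegaOne p (Subgroup.centralizer (Cfsg.powerClosure p 1 U : Set G))) = p ^ 2 ∧ (Cfsg.omegaOne p (Subgroup.centralizer (Cfsg.powerClosure p 1 U : Set G))).Characteristic) := by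
  exact aux hG hna U hU n hUn hC

end Cfsg.Agent.S3761
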