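import Cfsg.Statements.S3762
import Cfsg.Agent.H23.SympType2

set_option autoImplicit false
set_option linter.all false
open Cfsg

namespace Cfsg.Agent.S3762

open Subgroup Cfsg.Agent.H23 Cfsg.Agent.H23.ST
open scoped commutatorElement

theorem aux {G : Type*} [Group G] [Finite G] {p : ℕ} [Fact p.Prime] (hG : IsPGroup p G) (hsymp : ∀ A : Subgroup G, A.Characteristic → IsMulCommutative A → IsCyclic A) : ∃ E R : Subgroup G, (∀ e ∈ E, ∀ r ∈ R, e * r = r * e) ∧ E ⊔ R = ⊤ ∧ (E = ⊥ ∨ Cfsg.IsExtraspecial p ↥E) ∧ (IsCyclic R ∨ (p = 2 ∧ 16 ≤ Nat.card R ∧ ((∃ m : ℕ, Nonempty (↥R ≃* DihedralGroup m)) ∨ (∃ m : ℕ, Nonempty (↥R ≃* QuaternionGroup m)) ∨ Cfsg.IsQuasiDihedral ↥R))) := by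
  classical
  rcases subsingleton_or_nontrivial G with hsub | hnt
  · refine ⟨⊥, ⊤, ?_, bot_sup_eq _, Or.inl rfl, Or.inl ?_⟩
    · intro e _ r _
      exact Subsingleton.elim _ _
    · haveI : Subsingleton (⊤ : Subgroup G) := inferInstance
      exact isCyclic_of_subsingleton
  obtain ⟨z, n, W, E, hn, hzch, hWch, hWc, hWcard, hWmem, hWE, hEW, hEp, hcen, hzE, hR⟩ := data hG hsymp
  have hzN : (zpowers z).Normal := @normal_of_characteristic _ _ _ hzch
  haveI hEn : E.Normal := normal_of_comm hWE hEW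
  obtain ⟨hE, hEtop⟩ := partB hG hWc hWcard hWE hEW hEp hcen
  have hRmem : ∀ x, x ∈ centralizer (E : Set G) ↔ ∀ e ∈ E, Commute x e := by
    intro x
    rw [mem_centralizer_iff]
    exact ⟨fun h e he => (h e he).symm, fun h e he => (h e he).symm⟩
  have hd : Dat p G z W E := by
    refine ⟨hzch, hWch, hWc, hWcard, hWmem, hWE, hEW, hEp, hcen, hzE, hR, ?_⟩
    intro x
    obtain ⟨e, he, r, hr, h⟩ := mem_sup_of_normal_left.mp (show x ∈ E ⊔ centralizer (E : Set G) by
      rw [hEtop]; exact mem_top x)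
    exact ⟨e, he, r, (hRmem r).mp hr, h⟩
  obtain ⟨R, hRdef⟩ : ∃ R, R = centralizer (E : Set G) := ⟨_, rfl⟩
  rw [← hRdef] at hRmem hEtop
  have fin : (IsCyclic R ∨ (p = 2 ∧ 16 ≤ Nat.card R ∧ ((∃ m : ℕ, Nonempty (↥R ≃* DihedralGroup m)) ∨ (∃ m : ℕ, Nonempty (↥R ≃* QuaternionGroup m)) ∨ Cfsg.IsQuasiDihedral ↥R))) →
      ∃ E R : Subgroup G, (∀ e ∈ E, ∀ r ∈ R, e * r = r * e) ∧ E ⊔ R = ⊤ ∧ (E = ⊥ ∨ Cfsg.IsExtraspecial p ↥E) ∧ (IsCyclic R ∨ (p = 2 ∧ 16 ≤ Nat.card R ∧ ((∃ m : ℕ, Nonempty (↥R ≃* DihedralGroup m)) ∨ (∃ m : ℕ, Nonempty (↥R ≃* QuaternionGroup m)) ∨ Cfsg.IsQuasiDihedral ↥R))) := by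
    intro hq
    rcases hE with hE | hE
    · refine ⟨⊥, R, ?_, ?_, Or.inl rfl, hq⟩
      · intro e he r _
        rw [mem_bot] at he
        rw [he, one_mul, mul_one]
      · rw [bot_sup_eq, eq_top_iff]
        intro x _
        rw [hRmem]
        intro e he
        rw [hE] at he
        exact mem_center_iff.mp (hWc he) x
    · refine ⟨E, R, ?_, hEtop, Or.inr hE, hq⟩
      intro e he r hr
      exact ((hRmem r).mp hr e he).symm
  have hzR : z ∈ R := (hRmem z).mpr hzE
  by_cases hall : ∀ y ∈ R, y ∈ zpowers z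
  · apply fin
    left
    have : R = zpowers z := le_antisymm hall (zpowers_le.mpr hzR)
    rw [this]
    infer_instance
  push Not at hall
  obtain ⟨y, hyR, hyz⟩ := hall
  have hyE := (hRmem y).mp hyR
  -- the case where G is extraspecial
  have fin1 : orderOf z = p ^ 2 → ∃ E R : Subgroup G, (∀ e ∈ E, ∀ r ∈ R, e * r = r * e) ∧ E ⊔ R = ⊤ ∧ (E = ⊥ ∨ Cfsg.IsExtraspecial p ↥E) ∧ (IsCyclic R ∨ (p = 2 ∧ 16 ≤ Nat.card R ∧ ((∃ m : ℕ, Nonempty (↥R ≃* DihedralGroup m)) ∨ (∃ m : ℕ, Nonempty (↥R ≃* QuaternionGroup m)) ∨ Cfsg.IsQuasiDihedral ↥R))) := by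
    intro h2
    have h3 := C1 hG hd h2 hyE hyz
    refine ⟨⊤, ⊥, ?_, sup_bot_eq _, Or.inr ?_, Or.inl ?_⟩
    · intro e _ r hr
      rw [mem_bot] at hr
      rw [hr, one_mul, mul_one]
    · exact isExtra_congr h3 topEquiv.symm
    · haveI : Subsingleton (⊥ : Subgroup G) := inferInstance
      exact isCyclic_of_subsingleton
  obtain ⟨u, hu⟩ : ∃ u : R, u = ⟨z, hzR⟩ := ⟨_, rfl⟩
  have huz : (u : G) = z := by rw [hu]
  have hzu : ∀ x : R, x ∈ zpowers u ↔ (x : G) ∈ zpowers z := by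
    intro x
    rw [mem_zpowers_iff, mem_zpowers_iff]
    constructor
    · rintro ⟨k, rfl⟩
      exact ⟨k, by push_cast; rw [huz]⟩
    · rintro ⟨k, hk⟩
      exact ⟨k, Subtype.ext (by push_cast; rw [huz, hk])⟩
  have huo : orderOf u = p ^ (n + 1) := by rw [← orderOf_coe, huz, hn]
  have huN : (zpowers u).Normal := by
    refine ⟨fun x hx g => ?_⟩
    rw [hzu] at hx ⊢
    push_cast
    exact hzN.conj_mem _ hx _
  have huC : centralizer (zpowers u : Set R) = zpowers u := by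
    apply le_antisymm
    · intro x hx
      rw [hzu]
      have h1 := mem_centralizer_iff.mp hx u (mem_zpowers u)
      have h2 := congrArg Subtype.val h1
      push_cast at h2
      rw [huz] at h2
      exact hR _ ((hRmem _).mp x.2) h2.symm
    · exact le_centralizer _
  have hune : zpowers u ≠ ⊤ := by
    intro h
    apply hyz
    exact (hzu ⟨y, hyR⟩).mp (by rw [h]; exact mem_top _)
  rcases cyclic_selfcentralizing (hG.to_subgroup R) huo huN huC hune with
    ⟨hp2, m, hm, hdqs⟩ | ⟨m, hm, hm1, h2, y', hy', hy'u⟩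
  · have hm1 := hdqs.1
    have hnm : n = m := by omega
    subst hnm
    rcases Nat.lt_or_ge n 2 with h4 | h4
    · have : n = 1 := by omega
      subst this
      exact fin1 hn
    · apply fin
      right
      refine ⟨hp2, ?_, ?_⟩
      · rw [hdqs.card]
        calc 16 = 2 ^ (2 + 2) := by norm_num
          _ ≤ 2 ^ (n + 2) := Nat.pow_le_pow_right (by norm_num) (by omega)
      · rcases hdqs.named with h | h | h
        · exact Or.inl ⟨_, h⟩
        · exact Or.inr (Or.inl ⟨_, h⟩)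
        · exact Or.inr (Or.inr h.2)
  · rcases Nat.lt_or_ge n 2 with h4 | h4
    · have : n = 1 := by omega
      subst this
      exact fin1 hn
    · exfalso
      obtain ⟨k, rfl⟩ : ∃ k, n = k + 2 := ⟨n - 2, by omega⟩
      have h5 : Commute (y' : G) (z ^ p) := by
        have := congrArg Subtype.val hy'.eq
        push_cast at this
        rw [huz] at this
        exact this
      exact C2 hG hsymp hd (n := k) hn ((hRmem _).mp y'.2) h5 (fun h => hy'u ((hzu y').mpr h))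

/-- Let G be a finite p-group of symplectic type: every characteristic abelian subgroup of G is cyclic. Then G = E ∗ R is a central product of subgroups E and R (they commute elementwise and generate G) where E is extraspecial or trivial, and R is cyclic, or p = 2 and R is dihedral, semidihedral or generalized quaternion of order at least 16. -/
theorem result {G : Type*} [Group G] [Finite G] {p : ℕ} [Fact p.Prime] (hG : IsPGroup p G) (hsymp : ∀ A : Subgroup G, A.Characteristic → IsMulCommutative A → IsCyclic A) : ∃ E R : Subgroup G, (∀ e ∈ E, ∀ r ∈ R, e * r = r * e) ∧ E ⊔ R = ⊤ ∧ (E = ⊥ ∨ Cfsg.IsExtraspecial p ↥E) ∧ (IsCyclic R ∨ (p = 2 ∧ 16 ≤ Nat.card R ∧ ((∃ m : ℕ, Nonempty (↥R ≃* DihedralGroup m)) ∨ (∃ m : ℕ, Nonempty (↥R ≃* QuaternionGroup m)) ∨ Cfsg.IsQuasiDihedral ↥R))) := by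
  exact aux hG hsymp

end Cfsg.Agent.S3762
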