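import Cfsg.Statements.S3764
import Cfsg.Agent.H23.HHSemi4

set_option autoImplicit false
set_option linter.all false
open Cfsg

namespace Cfsg.Agent.S3764

open Subgroup

/-- Let p, q, r be distinct primes and let X, Q, V be subgroups of a finite group with X of order r, Q an extraspecial q-group normalized by X with C_Q(X) = Z(Q), and V an elementary abelian p-group normalized by X and Q on which XQ acts faithfully ((X ⊔ Q) ∩ C(V) = 1). If C_V(X) = 1, then q = 2, r = 2^n + 1 for some n, and Q has order 2^(2n+1). -/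
theorem result {G : Type*} [Group G] [Finite G] {p q r : ℕ} (hp : p.Prime) (hq : q.Prime) (hr : r.Prime) (hpq : p ≠ q) (hpr : p ≠ r) (hqr : q ≠ r) (X Q V : Subgroup G) (hX : Nat.card X = r) (hQ : Cfsg.IsExtraspecial q ↥Q) (hXQ : X ≤ Subgroup.normalizer (Q : Set G)) (hCQ : Q ⊓ Subgroup.centralizer (X : Set G) = (Subgroup.center ↥Q).map Q.subtype) (hV : Cfsg.IsElementaryAbelian p V) (hXV : X ≤ Subgroup.normalizer (V : Set G)) (hQV : Q ≤ Subgroup.normalizer (V : Set G)) (hfaith : (X ⊔ Q) ⊓ Subgroup.centralizer (V : Set G) = ⊥) (hCV : V ⊓ Subgroup.centralizer (X : Set G) = ⊥) : q = 2 ∧ ∃ n : ℕ, r = 2 ^ n + 1 ∧ Nat.card Q = 2 ^ (2 * n + 1) := by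
  classical
  haveI : Fact p.Prime := ⟨hp⟩
  haveI : Fact q.Prime := ⟨hq⟩
  haveI : Fact r.Prime := ⟨hr⟩
  obtain ⟨F, _, _, _, M, _, _, _, ⟨R⟩⟩ := H1.exists_repOf hV
  have hrF : (r : F) ≠ 0 := H1.cast_ne_zero_of_not_dvd (ℓ := p) (fun h => hpr ((Nat.prime_dvd_prime_iff_eq hp hr).mp h))
  have hqF : (q : F) ≠ 0 := H1.cast_ne_zero_of_not_dvd (ℓ := p) (fun h => hpq ((Nat.prime_dvd_prime_iff_eq hp hq).mp h))
  haveI : IsCyclic X := isCyclic_of_prime_card hX
  obtain ⟨⟨x, hxX⟩, hx'⟩ := IsCyclic.exists_generator (α := X)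
  have hXx : X = zpowers x := by
    ext g
    constructor
    · intro hg
      obtain ⟨i, hi⟩ := hx' ⟨g, hg⟩
      refine ⟨i, ?_⟩
      have := congrArg (fun z : X => (z : G)) hi
      simpa using this
    · rintro ⟨i, rfl⟩
      exact X.zpow_mem hxX i
  have hxo : orderOf x = r := by rw [← Nat.card_zpowers, ← hXx, hX]
  have hxV : x ∈ normalizer (V : Set G) := hXV hxX
  have hxQ : x ∈ normalizer (Q : Set G) := hXQ hxX
  have hxr : x ^ r = 1 := by rw [← hxo, pow_orderOf_eq_one]
  set τ : MulAut Q := Q.normalizerMonoidHom ⟨x, hxQ⟩ with hτ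
  have hτc : ∀ u : Q, ((τ u : Q) : G) = x * u * x⁻¹ := fun u => rfl
  have hτpow : ∀ (j : ℕ) (u : Q), (((τ ^ j) u : Q) : G) = x ^ j * u * (x ^ j)⁻¹ := by
    intro j
    induction j with
    | zero => intro u; simp
    | succ j ih =>
      intro u
      rw [pow_succ', MulAut.mul_apply, hτc, ih, pow_succ']
      group
  have hτN : τ ^ r = 1 := by
    ext u
    rw [hτpow, hxr]
    simp
  set ρ : Q →* Module.End F M := R.rep.comp (Subgroup.inclusion hQV) with hρ
  have hinj : Function.Injective ρ := by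
    rw [injective_iff_map_eq_one]
    intro u hu
    have h1 := R.mem_centralizer_of_rep_eq_one hu
    have h2 : (u : G) ∈ (X ⊔ Q) ⊓ centralizer (V : Set G) := ⟨(le_sup_right : Q ≤ X ⊔ Q) u.2, h1⟩
    rw [hfaith, mem_bot] at h2
    exact Subtype.ext h2
  have hXρ : ∀ u, R.rep ⟨x, hxV⟩ * ρ u = ρ (τ u) * R.rep ⟨x, hxV⟩ := by
    intro u
    simp only [hρ, MonoidHom.comp_apply]
    rw [← map_mul, ← map_mul]
    congr 1
    apply Subtype.ext
    change x * (u : G) = x * u * x⁻¹ * x
    group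
  have hXr : R.rep ⟨x, hxV⟩ ^ r = 1 := by
    rw [← map_pow]
    have : (⟨x, hxV⟩ : normalizer (V : Set G)) ^ r = 1 := Subtype.ext hxr
    rw [this, map_one]
  obtain ⟨⟨hQp, hfr, hder⟩, hcen⟩ := hQ
  obtain ⟨e, he⟩ := hQp.exists_card_eq
  have hcard : (Nat.card Q : F) ≠ 0 := by
    rw [he, Nat.cast_pow]
    exact pow_ne_zero _ hqF
  have hcop : (Nat.card Q).Coprime r := by
    rw [he]
    exact Nat.Coprime.pow_left _ ((Nat.coprime_primes hq hr).mpr hqr)
  have hcomm : ∀ a b : Q, a * b * a⁻¹ * b⁻¹ ∈ center Q := by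
    intro a b
    rw [← hder]
    exact commutator_mem_commutator (mem_top a) (mem_top b)
  have hC : ∀ u, τ u = u ↔ u ∈ center Q := by
    intro u
    have h1 : τ u = u ↔ (u : G) ∈ Q ⊓ centralizer (X : Set G) := by
      rw [Subtype.ext_iff, hτc, mul_inv_eq_iff_eq_mul, mem_inf, hXx]
      constructor
      · intro h
        refine ⟨u.2, ?_⟩
        rw [mem_centralizer_iff]
        rintro _ ⟨i, rfl⟩
        exact (show Commute x u from h).zpow_left i
      · intro h
        exact mem_centralizer_iff.mp h.2 x (mem_zpowers x)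
    rw [h1, hCQ]
    constructor
    · rintro ⟨v, hv, hvu⟩
      have : v = u := Subtype.ext hvu
      rwa [this] at hv
    · intro h
      exact mem_map_of_mem Q.subtype h
  have hna : center Q ≠ ⊤ := by
    intro h
    have h1 : ∀ a b : Q, a * b = b * a := by
      intro a b
      have : b ∈ center Q := by rw [h]; exact mem_top b
      exact mem_center_iff.mp this a
    have h2 : commutator Q = ⊥ := by
      rw [eq_bot_iff, commutator_def, commutator_le]
      intro a _ b _
      rw [mem_bot, commutatorElement_eq_one_iff_mul_comm, h1]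
    rw [hder] at h2
    rw [h2, Subgroup.card_bot] at hcen
    exact hq.one_lt.ne hcen
  obtain ⟨Y, μ, z₀, v, hz₀, hv0, hμ, hμz₀, hZY, hYfix, hidx, h1lt, _, _⟩ :=
    H23.hh_special_semi hrF hcard hcop ρ hinj τ hτN (R.rep ⟨x, hxV⟩) hXρ hXr hcomm hC hna
      (Or.inl (fun w hw => H23.no_fixed_of_centralizer_eq_bot hpr hxo hXx hCV R hxV w hw))
  -- Y = Z
  have hYZ : Y ≤ center Q := by
    intro u hu
    rw [mem_center_iff]
    intro t
    by_contra hne
    set z := u * t * u⁻¹ * t⁻¹ with hz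
    have hz1 : z ≠ 1 := by
      intro h
      apply hne
      rw [hz, mul_inv_eq_one, mul_inv_eq_iff_eq_mul] at h
      exact h.symm
    have hzc : z ∈ center Q := hcomm u t
    have h1 : zpowers z = center Q := by
      apply eq_of_le_of_card_ge (zpowers_le.mpr hzc)
      have h2 : Nat.card (zpowers z) ∣ q := by rw [← hcen]; exact card_dvd_of_le (zpowers_le.mpr hzc)
      rcases (Nat.dvd_prime hq).mp h2 with h3 | h3
      · exfalso
        rw [Nat.card_zpowers, orderOf_eq_one_iff] at h3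
        exact hz1 h3
      · rw [h3, hcen]
    have h2 : z₀ ∈ zpowers z := by rw [h1]; exact hz₀
    obtain ⟨i, hi⟩ := mem_powers_iff_mem_zpowers.mpr h2
    have h3 : ρ z₀ v = v := by
      rw [← hi]
      simp only [map_pow]
      clear hi
      induction i with
      | zero => simp
      | succ i ih => rw [pow_succ, Module.End.mul_apply, hYfix u hu t, ih]
    rw [hμ z₀ hz₀] at h3
    have h4 : (μ z₀ - 1) • v = 0 := by rw [sub_smul, h3, one_smul, sub_self]
    rcases smul_eq_zero.mp h4 with h | h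
    · exact hμz₀ (sub_eq_zero.mp h)
    · exact hv0 h
  have hYeq : Y = center Q := le_antisymm hYZ hZY
  rw [hYeq] at hidx
  have hQcard := (center Q).card_mul_index
  rw [hcen, hidx] at hQcard
  have h2 : (r - 1) ∣ q ^ e := by
    rw [← he, ← hQcard]
    exact (dvd_pow_self _ two_ne_zero).trans (dvd_mul_left _ _)
  obtain ⟨m, _, hm⟩ := (Nat.dvd_prime_pow hq).mp h2
  have hm0 : m ≠ 0 := by
    rintro rfl
    rw [pow_zero] at hm
    omega
  have hr2 : r ≠ 2 := by
    rintro rfl
    simp at h1lt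
  have hq2 : q = 2 := by
    obtain ⟨s, hs⟩ := hr.odd_of_ne_two hr2
    have h3 : 2 ∣ q ^ m := by rw [← hm, hs]; simp
    exact ((Nat.prime_dvd_prime_iff_eq Nat.prime_two hq).mp (Nat.prime_two.dvd_of_dvd_pow h3)).symm
  refine ⟨hq2, m, ?_, ?_⟩
  · rw [← hq2, ← hm]
    have := hr.one_le
    omega
  · rw [← hQcard, hm, hq2]
    ring

end Cfsg.Agent.S3764
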