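import Cfsg.Statements.S3765
import Cfsg.Agent.H23.HHSemi4

set_option autoImplicit false
set_option linter.all false
open Cfsg

namespace Cfsg.Agent.S3765

open Subgroup

/-- Let p, q, r be distinct primes and let X, Q, V be subgroups of a finite group with X of order r normalizing the q-group Q and acting faithfully on it (X ∩ C(Q) = 1), and V a nontrivial elementary abelian p-group normalized by X and Q on which XQ acts faithfully. If q = 2 and r has the form 2^n + 1, assume in addition that Q is abelian. Then C_V(X) ≠ 1. -/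
theorem result {G : Type*} [Group G] [Finite G] {p q r : ℕ} (hp : p.Prime) (hq : q.Prime) (hr : r.Prime) (hpq : p ≠ q) (hpr : p ≠ r) (hqr : q ≠ r) (X Q V : Subgroup G) (hX : Nat.card X = r) (hQ : IsPGroup q Q) (hXQ : X ≤ Subgroup.normalizer (Q : Set G)) (hXfaith : X ⊓ Subgroup.centralizer (Q : Set G) = ⊥) (hV : Cfsg.IsElementaryAbelian p V) (hV1 : V ≠ ⊥) (hXV : X ≤ Subgroup.normalizer (V : Set G)) (hQV : Q ≤ Subgroup.normalizer (V : Set G)) (hfaith : (X ⊔ Q) ⊓ Subgroup.centralizer (V : Set G) = ⊥) (hexc : q = 2 → (∃ n : ℕ, r = 2 ^ n + 1) → IsMulCommutative Q) : V ⊓ Subgroup.centralizer (X : Set G) ≠ ⊥ := by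
  classical
  haveI : Fact p.Prime := ⟨hp⟩
  haveI : Fact q.Prime := ⟨hq⟩
  haveI : Fact r.Prime := ⟨hr⟩
  intro hCV
  obtain ⟨F, _, _, _, M, _, _, _, ⟨R⟩⟩ := H1.exists_repOf hV
  have hrF : (r : F) ≠ 0 := H1.cast_ne_zero_of_not_dvd (ℓ := p) (fun h => hpr ((Nat.prime_dvd_prime_iff_eq hp hr).mp h))
  have hqF : (q : F) ≠ 0 := H1.cast_ne_zero_of_not_dvd (ℓ := p) (fun h => hpq ((Nat.prime_dvd_prime_iff_eq hp hq).mp h))
  haveI : IsCyclic X := isCyclic_of_prime_card hX
  obtain ⟨⟨x, hxX⟩, hx'⟩ := IsCyclic.exists_generator (α := X)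
  have hXx : X = zpowers x := by
    ext g
    constructor
    · intro hg
      obtain ⟨i, hi⟩ := hx' ⟨g, hg⟩
      refine ⟨i, ?_⟩
      have := congrArg (fun z : X => (z : G)) hi
      simpa using this
    · rintro ⟨i, rfl⟩
      exact X.zpow_mem hxX i
  have hxo : orderOf x = r := by rw [← Nat.card_zpowers, ← hXx, hX]
  have hxV : x ∈ normalizer (V : Set G) := hXV hxX
  have hxQ : x ∈ normalizer (Q : Set G) := hXQ hxX
  have hxr : x ^ r = 1 := by rw [← hxo, pow_orderOf_eq_one]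
  set L := X ⊔ Q with hL
  have hLV : L ≤ normalizer (V : Set G) := sup_le hXV hQV
  have hxL : x ∈ L := (le_sup_left : X ≤ L) hxX
  have hQL : Q ≤ L := le_sup_right
  set ρ : L →* Module.End F M := R.rep.comp (Subgroup.inclusion hLV) with hρ
  have hinj : Function.Injective ρ := by
    rw [injective_iff_map_eq_one]
    intro u hu
    have h1 := R.mem_centralizer_of_rep_eq_one hu
    have h2 : (u : G) ∈ L ⊓ centralizer (V : Set G) := ⟨u.2, h1⟩
    rw [hfaith, mem_bot] at h2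
    exact Subtype.ext h2
  have hXr : ((1 : F) • ρ ⟨x, hxL⟩) ^ r = 1 := by
    rw [one_smul, ← map_pow]
    have : (⟨x, hxL⟩ : L) ^ r = 1 := Subtype.ext hxr
    rw [this, map_one]
  have hne : ∃ u ∈ Q.subgroupOf L, (⟨x, hxL⟩ : L) * u ≠ u * ⟨x, hxL⟩ := by
    by_contra hcon
    push Not at hcon
    have h1 : x ∈ X ⊓ centralizer (Q : Set G) := by
      refine mem_inf.mpr ⟨hxX, mem_centralizer_iff.mpr ?_⟩
      intro u hu
      have h2 := hcon ⟨u, hQL hu⟩ hu
      exact (congrArg (fun z : L => (z : G)) h2).symm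
    rw [hXfaith, mem_bot] at h1
    rw [h1, orderOf_one] at hxo
    exact hr.one_lt.ne hxo
  have hxp : IsPGroup r (zpowers (⟨x, hxL⟩ : L)) := by
    apply IsPGroup.of_card (n := 1)
    rw [Nat.card_zpowers, Subgroup.orderOf_mk, hxo, pow_one]
  obtain ⟨⟨m, hm1, hm⟩, hna, _, _⟩ := H23.hh_qgroup_semi hqr.symm hrF hqF ρ hinj hxp hXr (Q.subgroupOf L)
    (hQ.of_equiv (subgroupOfEquivOfLe hQL).symm) (by
      rw [mem_normalizer_iff]
      intro g
      exact mem_normalizer_iff.mp hxQ g) hne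
    (Or.inl (fun w hw => by
      rw [one_smul] at hw
      exact H23.no_fixed_of_centralizer_eq_bot hpr hxo hXx hCV R hxV w hw))
  have hr2 : r ≠ 2 := by
    rintro rfl
    have h1 : 1 < q ^ m := Nat.one_lt_pow (by omega) hq.one_lt
    omega
  have hq2 : q = 2 := by
    obtain ⟨s, hs⟩ := hr.odd_of_ne_two hr2
    have h3 : 2 ∣ q ^ m := by rw [← hm, hs]; simp
    exact ((Nat.prime_dvd_prime_iff_eq Nat.prime_two hq).mp (Nat.prime_two.dvd_of_dvd_pow h3)).symm
  have hcom := hexc hq2 ⟨m, by rw [← hq2, ← hm]; have := hr.one_le; omega⟩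
  apply hna
  intro a ha b hb
  apply Subtype.ext
  exact congrArg (fun z : Q => (z : G)) (hcom.is_comm.comm ⟨a, ha⟩ ⟨b, hb⟩)

end Cfsg.Agent.S3765
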