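import Cfsg.Statements.S3766
import Cfsg.Agent.H10.Basic
import Cfsg.Agent.H25.Basic
import Cfsg.Agent.H1.Chief

set_option autoImplicit false
set_option linter.all false
open Cfsg

namespace Cfsg.Agent.S3766

section aux
open Subgroup
open scoped Pointwise commutatorElement

def Chief {G : Type*} [Group G] (U V : Subgroup G) : Prop :=
  U.Normal ∧ V.Normal ∧ V < U ∧ ∀ W : Subgroup G, W.Normal → V ≤ W → W ≤ U → W = V ∨ W = U

theorem exists_chief_below {G : Type*} [Group G] [Finite G] {E : Subgroup G} (hE : E.Normal)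
    (hne : E ≠ ⊥) : ∃ V, Chief E V := by
  obtain ⟨V, hV⟩ := (Set.toFinite {V : Subgroup G | V.Normal ∧ V < E}).exists_maximal
    ⟨⊥, normal_bot, bot_lt_iff_ne_bot.mpr hne⟩
  obtain ⟨h1, h2⟩ := hV.prop
  refine ⟨V, hE, h1, h2, fun W hW hVW hWE => ?_⟩
  by_cases h : W = E
  · exact Or.inr h
  · left
    exact le_antisymm (hV.le_of_ge ⟨hW, lt_of_le_of_ne hWE h⟩ hVW) hVW

/-- `A` centralizes all chief factors below `E` so acts nilpotently on `E`. -/
theorem iter_eq_bot {G : Type*} [Group G] [Finite G] {A E : Subgroup G} (hE : E.Normal)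
    (h : ∀ U V : Subgroup G, Chief U V → U ≤ E → ⁅U, A⁆ ≤ V) :
    ∃ n, (fun H : Subgroup G => ⁅H, A⁆)^[n] E = ⊥ := by
  induction hn : Nat.card E using Nat.strong_induction_on generalizing E with
  | _ n ih =>
  by_cases hbot : E = ⊥
  · exact ⟨0, hbot⟩
  obtain ⟨V, hV⟩ := exists_chief_below hE hbot
  obtain ⟨k, hk⟩ := ih (Nat.card V) (by rw [← hn]; exact H1.card_lt_of_lt' hV.2.2.1) hV.2.1
    (fun U W hUW hU => h U W hUW (hU.trans hV.2.2.1.le)) rfl
  refine ⟨k + 1, ?_⟩
  rw [Function.iterate_succ_apply, ← le_bot_iff, ← hk]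
  have hmono : ∀ (m : ℕ) (H K : Subgroup G), H ≤ K →
      (fun H : Subgroup G => ⁅H, A⁆)^[m] H ≤ (fun H : Subgroup G => ⁅H, A⁆)^[m] K := by
    intro m
    induction m with
    | zero => intro H K hHK; exact hHK
    | succ m ihm =>
      intro H K hHK
      rw [Function.iterate_succ_apply, Function.iterate_succ_apply]
      exact ihm _ _ (commutator_mono hHK le_rfl)
  exact hmono k _ _ (h E V hV le_rfl)

theorem isNilpotent_of_iter {G : Type*} [Group G] {A D : Subgroup G} (h1 : ⁅A, A⁆ ≤ D)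
    {n : ℕ} (hn : (fun H : Subgroup G => ⁅H, A⁆)^[n] D = ⊥) : Group.IsNilpotent A := by
  rw [Subgroup.isNilpotent_iff_lowerCentralSeries]
  refine ⟨1 + n, ?_⟩
  rw [← le_bot_iff, ← hn]
  have key : ∀ m : ℕ, A.lowerCentralSeries (1 + m) ≤ (fun H : Subgroup G => ⁅H, A⁆)^[m] D := by
    intro m
    induction m with
    | zero => exact h1
    | succ m ih =>
      rw [← add_assoc, Subgroup.lowerCentralSeries_succ, Function.iterate_succ_apply']
      exact commutator_mono ih le_rfl
  exact key n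

/-- a nilpotent normal subgroup centralizes chief factors -/
theorem nilpotent_centralizes_chief {G : Type*} [Group G] {F U V : Subgroup G}
    (hF : F.Normal) (hnil : Group.IsNilpotent F) (hUV : Chief U V) : ⁅U, F⁆ ≤ V := by
  obtain ⟨hU, hV, hlt, hmin⟩ := hUV
  by_contra hne
  have h1 : ⁅U, F⁆ ⊔ V = U := by
    rcases hmin (⁅U, F⁆ ⊔ V) inferInstance le_sup_right (sup_le (commutator_le_left _ _) hlt.le) with h | h
    · exact absurd (h ▸ le_sup_left) hne
    · exact h
  obtain ⟨n, hn⟩ := (Subgroup.isNilpotent_iff_lowerCentralSeries (S := F)).mp hnil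
  have key : ∀ m : ℕ, U ≤ F.lowerCentralSeries m ⊔ V := by
    intro m
    induction m with
    | zero =>
      conv_lhs => rw [← h1]
      exact sup_le_sup_right (commutator_le_right _ _) V
    | succ m ih =>
      have hLn : (F.lowerCentralSeries m).Normal := H25.lcs_normal F m
      conv_lhs => rw [← h1]
      refine sup_le ?_ le_sup_right
      refine (commutator_mono ih le_rfl).trans ?_
      rw [Subgroup.lowerCentralSeries_succ]
      haveI : (⁅F.lowerCentralSeries m, F⁆ ⊔ V).Normal := inferInstance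
      exact H25.sup_comm_le le_sup_left ((commutator_le_left _ _).trans le_sup_right)
  have h2 := key n
  rw [hn, bot_sup_eq] at h2
  exact absurd h2 (not_le_of_gt hlt)

theorem comm_mem_iff {G : Type*} [Group G] (u g : G) : u * g * u⁻¹ * g⁻¹ = ⁅u, g⁆ := rfl

theorem aux {G : Type*} [Group G] [Finite G] (hG : Group.IsSolvable G) (N : Subgroup G) [N.Normal] (g : G) : (g ∈ (Cfsg.fittingSubgroup ↥N).map N.subtype ↔ g ∈ N ∧ ∀ U V : Subgroup G, (U.Normal ∧ V.Normal ∧ V < U ∧ ∀ W : Subgroup G, W.Normal → V ≤ W → W ≤ U → W = V ∨ W = U) → ∀ u ∈ U, u * g * u⁻¹ * g⁻¹ ∈ V) ∧ (g ∈ (Cfsg.fittingSubgroup ↥N).map N.subtype ↔ g ∈ N ∧ ∀ U V : Subgroup G, (U.Normal ∧ V.Normal ∧ V < U ∧ ∀ W : Subgroup G, W.Normal → V ≤ W → W ≤ U → W = V ∨ W = U) → U ≤ (Cfsg.fittingSubgroup ↥N).map N.subtype → ∀ u ∈ U, u * g * u⁻¹ * g⁻¹ ∈ V) := by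
  set F : Subgroup G := (Cfsg.fittingSubgroup N).map N.subtype with hF
  haveI hFc : (Cfsg.fittingSubgroup N).Characteristic := H10.fitting_characteristic N
  have hFn : F.Normal := inferInstance
  have hFnil : Group.IsNilpotent F := H10.isNilpotent_map_subtype (H1.fitting_isNilpotent N)
  have hFN : F ≤ N := map_subtype_le _
  have hforward : g ∈ F → g ∈ N ∧ ∀ U V : Subgroup G, Chief U V → ∀ u ∈ U, u * g * u⁻¹ * g⁻¹ ∈ V := by
    intro hg
    refine ⟨hFN hg, fun U V hUV u hu => ?_⟩
    exact nilpotent_centralizes_chief hFn hFnil hUV (commutator_mem_commutator hu hg)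
  -- the converse
  have hback : (g ∈ N ∧ ∀ U V : Subgroup G, Chief U V → U ≤ F → ∀ u ∈ U, u * g * u⁻¹ * g⁻¹ ∈ V) →
      g ∈ F := by
    rintro ⟨hgN, hg⟩
    let C : Subgroup G :=
      { carrier := {x | x ∈ N ∧ ∀ U V : Subgroup G, Chief U V → U ≤ F → ∀ u ∈ U, ⁅u, x⁆ ∈ V}
        mul_mem' := by
          rintro a b ⟨ha, ha'⟩ ⟨hb, hb'⟩
          refine ⟨mul_mem ha hb, fun U V hUV hU u hu => ?_⟩
          have h1 : ⁅u, a * b⁆ = ⁅u, a⁆ * (a * ⁅u, b⁆ * a⁻¹) := by
            simp only [commutatorElement_def]; group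
          rw [h1]
          exact mul_mem (ha' U V hUV hU u hu) (hUV.2.1.conj_mem _ (hb' U V hUV hU u hu) a)
        one_mem' := ⟨one_mem N, fun U V hUV hU u hu => by
          rw [commutatorElement_one_right]; exact one_mem V⟩
        inv_mem' := by
          rintro a ⟨ha, ha'⟩
          refine ⟨inv_mem ha, fun U V hUV hU u hu => ?_⟩
          have h1 : ⁅u, a⁻¹⁆ = a⁻¹ * ⁅u, a⁆⁻¹ * (a⁻¹)⁻¹ := by
            simp only [commutatorElement_def]; group
          rw [h1]
          exact hUV.2.1.conj_mem _ (inv_mem (ha' U V hUV hU u hu)) a⁻¹ }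
    have hCn : C.Normal := by
      refine ⟨fun x hx y => ?_⟩
      refine ⟨(inferInstance : N.Normal).conj_mem x hx.1 y, fun U V hUV hU u hu => ?_⟩
      have h1 : ⁅u, y * x * y⁻¹⁆ = y * ⁅y⁻¹ * u * y, x⁆ * y⁻¹ := by
        simp only [commutatorElement_def]; group
      rw [h1]
      refine hUV.2.1.conj_mem _ (hx.2 U V hUV hU _ ?_) y
      have := hUV.1.conj_mem u hu y⁻¹
      rwa [inv_inv] at this
    have hCN : C ≤ N := fun x hx => hx.1
    suffices hCF : C ≤ F from hCF ⟨hgN, fun U V hUV hU u hu => hg U V hUV hU u hu⟩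
    by_contra hne
    have hDC : F ⊓ C < C := by
      refine lt_of_le_of_ne inf_le_right fun h => hne ?_
      rw [← h]; exact inf_le_left
    obtain ⟨A, hAn, hDA, hAC, hchief⟩ := H1.exists_chief_above hCn hDC
    haveI := hCn
    haveI := hAn
    obtain ⟨hAA, -⟩ := H1.chief_factor_solvable (Z := F ⊓ C) inferInstance hAn hDA hchief
      (H1.isSolvable_of_le (le_top : A ≤ ⊤) (Group.isSolvable_of_isSolvable_injective (f := (⊤ : Subgroup G).subtype) (Subgroup.subtype_injective _)))
    obtain ⟨n, hn⟩ := iter_eq_bot (A := A) (E := F ⊓ C) inferInstance (by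
      intro U V hUV hU
      rw [commutator_le]
      intro u hu a ha
      exact (hAC ha).2 U V hUV (hU.trans inf_le_left) u hu)
    have hAnil := isNilpotent_of_iter hAA hn
    have hAF : A ≤ F := by
      have h1 : A.subgroupOf N ≤ Cfsg.fittingSubgroup N := by
        apply H1.le_fitting inferInstance
        exact H10.isNilpotent_subgroupOf hAnil
      have h2 : (A.subgroupOf N).map N.subtype = A := map_subgroupOf_eq_of_le (hAC.trans hCN)
      rw [← h2]
      exact map_mono h1
    exact absurd (le_inf hAF hAC) (not_le_of_gt hDA)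
  refine ⟨⟨hforward, fun h => hback ⟨h.1, fun U V hUV hU u hu => h.2 U V hUV u hu⟩⟩,
    ⟨fun h => ⟨(hforward h).1, fun U V hUV hU u hu => (hforward h).2 U V hUV u hu⟩, hback⟩⟩

end aux

/-- Let G be a finite solvable group and N a normal subgroup of G. Call a pair V < U of normal subgroups of G a chief factor of G when no normal subgroup of G lies strictly between them; an element g centralizes the chief factor U/V when u g u⁻¹ g⁻¹ ∈ V for all u ∈ U. Then an element of G lies in the Fitting subgroup F(N) if and only if it lies in N and centralizes every chief factor of G; and also if and only if it lies in N and centralizes every chief factor U/V of G with U ≤ F(N). -/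
theorem result {G : Type*} [Group G] [Finite G] (hG : Group.IsSolvable G) (N : Subgroup G) [N.Normal] (g : G) : (g ∈ (Cfsg.fittingSubgroup ↥N).map N.subtype ↔ g ∈ N ∧ ∀ U V : Subgroup G, (U.Normal ∧ V.Normal ∧ V < U ∧ ∀ W : Subgroup G, W.Normal → V ≤ W → W ≤ U → W = V ∨ W = U) → ∀ u ∈ U, u * g * u⁻¹ * g⁻¹ ∈ V) ∧ (g ∈ (Cfsg.fittingSubgroup ↥N).map N.subtype ↔ g ∈ N ∧ ∀ U V : Subgroup G, (U.Normal ∧ V.Normal ∧ V < U ∧ ∀ W : Subgroup G, W.Normal → V ≤ W → W ≤ U → W = V ∨ W = U) → U ≤ (Cfsg.fittingSubgroup ↥N).map N.subtype → ∀ u ∈ U, u * g * u⁻¹ * g⁻¹ ∈ V) := by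
  exact aux hG N g

end Cfsg.Agent.S3766
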