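import Cfsg.Statements.S3767
import Cfsg.Agent.H23.SelfDual2
import Cfsg.Agent.H23.PGroup2
import Cfsg.Agent.H29.XS

set_option autoImplicit false
set_option linter.all false
open Cfsg

namespace Cfsg.Agent.S3767

open Subgroup
open scoped Pointwise


/-- Let P be an extraspecial p-group of order p^(2n+1) and H a cyclic group of order h prime to p acting on P (inside a common finite group: H normalizes P) so that C_P(x) = Z(P) for every non-identity x ∈ H. Then h divides p^n + 1 or h divides p^n − 1. -/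
theorem result {G : Type*} [Group G] [Finite G] {p : ℕ} [Fact p.Prime] (P H : Subgroup G) (hP : Cfsg.IsExtraspecial p ↥P) (n : ℕ) (hn : Nat.card P = p ^ (2 * n + 1)) (hH : IsCyclic H) (hcop : (Nat.card H).Coprime p) (hHP : H ≤ Subgroup.normalizer (P : Set G)) (hfix : ∀ x ∈ H, x ≠ 1 → P ⊓ Subgroup.centralizer {x} = (Subgroup.center ↥P).map P.subtype) : Nat.card H ∣ p ^ n + 1 ∨ Nat.card H ∣ p ^ n - 1 := by
  classical
  have hpp : p.Prime := Fact.out
  have hsub : P ≤ normalizer (P : Set G) := le_normalizer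
  obtain ⟨x, hx⟩ := hH.exists_generator
  by_cases hx1 : x = 1
  · left
    have h1 : Nat.card H = 1 := by
      rw [Nat.card_eq_one_iff_unique]
      refine ⟨⟨?_⟩, ⟨1⟩⟩
      intro a b
      have ha := hx a
      have hb := hx b
      rw [hx1, zpowers_one_eq_bot, mem_bot] at ha hb
      rw [ha, hb]
    rw [h1]
    exact one_dvd _
  have hxn : (x : G) ∈ normalizer (P : Set G) := hHP x.2
  set φ : MulAut P := P.normalizerMonoidHom ⟨x, hxn⟩ with hφ
  have hφa : ∀ (i : ℕ) (q : P), (((φ ^ i) q : P) : G) = (x : G) ^ i * q * ((x : G) ^ i)⁻¹ := by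
    intro i q
    rw [hφ, ← map_pow]
    rfl
  have hxne : (x : G) ≠ 1 := fun h => hx1 (Subtype.ext h)
  have hne : P ≠ (center P).map P.subtype := by
    intro h
    have h1 : Nat.card P = p := by
      have h2 : Nat.card P = Nat.card ((center P).map P.subtype : Subgroup G) :=
        congrArg (fun (K : Subgroup G) => Nat.card K) h
      rw [h2, card_map_of_injective P.subtype_injective, hP.2]
    obtain ⟨n', hn1, hn'⟩ := Cfsg.Agent.H23.card_of_isExtraspecial hP
    rw [h1] at hn'
    have h2 : p ^ 1 = p ^ (2 * n' + 1) := by rw [pow_one]; exact hn'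
    have h3 := Nat.pow_right_injective hpp.two_le h2
    omega
  have hZ : ∀ q ∈ center P, φ q = q := by
    intro q hq
    have h1 : (q : G) ∈ P ⊓ centralizer {(x : G)} := by
      rw [hfix x x.2 hxne]
      exact ⟨q, hq, rfl⟩
    have h2 := mem_centralizer_singleton_iff.mp h1.2
    ext1
    have h3 := hφa 1 q
    rw [pow_one, pow_one] at h3
    rw [h3, ← h2]
    group
  have hfix' : ∀ i : ℕ, (x : G) ^ i ≠ 1 → ∀ q : P, (φ ^ i) q = q → q ∈ center P := by
    intro i hi q hq
    have h1 : (q : G) ∈ P ⊓ centralizer {(x : G) ^ i} := by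
      refine ⟨q.2, ?_⟩
      apply mem_centralizer_singleton_iff.mpr
      have h2 := hφa i q
      rw [hq] at h2
      nth_rewrite 1 [h2]
      group
    rw [hfix _ (H.pow_mem x.2 i) hi] at h1
    obtain ⟨z, hz, hzq⟩ := h1
    have : z = q := Subtype.ext hzq
    rw [← this]
    exact hz
  have hone : ∀ i : ℕ, φ ^ i = 1 ↔ (x : G) ^ i = 1 := by
    intro i
    constructor
    · intro h
      by_contra hcon
      apply hne
      apply le_antisymm
      · intro q hq
        exact ⟨⟨q, hq⟩, hfix' i hcon ⟨q, hq⟩ (by rw [h]; rfl), rfl⟩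
      · exact map_subtype_le _
    · intro h
      ext q
      rw [hφa, h]
      simp
  have hord : orderOf φ = Nat.card H := by
    rw [← orderOf_eq_card_of_forall_mem_zpowers hx, ← Subgroup.orderOf_coe]
    apply orderOf_eq_orderOf_iff.mpr
    exact hone
  rw [← hord] at hcop ⊢
  refine Cfsg.Agent.H23.extraspecial_cyclic (p := p) hP.1.1 hP.1.2.2.le hP.2 ?_ hn φ hcop ?_ hZ
  · intro q
    rw [← hP.1.2.1]
    exact Cfsg.Agent.H29.pgroup_pow_mem_frattini hP.1.1 q
  · intro i hi
    exact hfix' i (fun h => hi ((hone i).mpr h))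

end Cfsg.Agent.S3767
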