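import Cfsg.Statements.S3769
import Cfsg.Agent.H1.RepOf

set_option autoImplicit false
open Cfsg
open scoped Pointwise commutatorElement

namespace Cfsg.Agent.S3769

/-- Let G and V be subgroups of a finite group with G solvable of odd order normalizing V, V an elementary abelian ℓ-group for a prime ℓ not dividing the order of G, and suppose G has a normal Hall subgroup K with a complement R of prime order. If C_V(R) = 1, then [R, K] centralizes V. -/
theorem result {X : Type*} [Group X] [Finite X] (G : Subgroup X) (hsolv : Group.IsSolvable G) (hodd : Odd (Nat.card G)) (V : Subgroup X) {ℓ : ℕ} (hℓ : ℓ.Prime) (hV : Cfsg.IsElementaryAbelian ℓ V) (hℓG : ¬ ℓ ∣ Nat.card G) (hGV : G ≤ Subgroup.normalizer (V : Set X)) (K R : Subgroup X) (hKG : K ≤ G) (hKn : G ≤ Subgroup.normalizer (K : Set X)) (hHall : (Nat.card K).Coprime (K.relIndex G)) (hRG : R ≤ G) (hR : (Nat.card R).Prime) (hKR : K ⊓ R = ⊥) (hKRG : K ⊔ R = G) (hCV : V ⊓ Subgroup.centralizer (R : Set X) = ⊥) : ⁅R, K⁆ ≤ Subgroup.centralizer (V : Set X) := by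
  haveI : Fact ℓ.Prime := ⟨hℓ⟩
  set r := Nat.card R with hrdef
  have hRK : R ≤ Subgroup.normalizer (K : Set X) := hRG.trans hKn
  have hr2 : r ≠ 2 := by
    intro h
    have h1 : r ∣ Nat.card G := Subgroup.card_dvd_of_le hRG
    rw [h] at h1
    exact (Nat.not_even_iff_odd.mpr hodd) (even_iff_two_dvd.mpr h1)
  have hrℓ : r ≠ ℓ := by
    intro h
    exact hℓG (h ▸ Subgroup.card_dvd_of_le hRG)
  have hcard : Nat.card G = Nat.card K * r := by
    have h1 := Cfsg.Agent.H1.card_sup_mul_card_inf_of_le_normalizer hRK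
    rw [hKR, Subgroup.card_bot, mul_one, hKRG] at h1
    exact h1
  have hcop : (Nat.card K).Coprime r := by
    have h1 := Cfsg.Agent.H1.card_mul_relIndex_aux hKG
    rw [hcard] at h1
    have h2 : K.relIndex G = r := Nat.eq_of_mul_eq_mul_left Nat.card_pos h1
    rwa [h2] at hHall
  rw [Subgroup.commutator_le]
  intro a ha x hx
  have har : a ^ r = 1 := by
    have := pow_card_eq_one' (x := (⟨a, ha⟩ : R))
    exact congrArg Subtype.val this
  by_cases ha1 : a = 1
  · rw [ha1, commutatorElement_one_left]; exact one_mem _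
  have hgen : R ≤ Subgroup.zpowers a := by
    have h1 : Subgroup.zpowers a ≤ R := by rw [Subgroup.zpowers_le]; exact ha
    have h2 : Nat.card (Subgroup.zpowers a) ∣ r := Subgroup.card_dvd_of_le h1
    rcases (Nat.dvd_prime hR).mp h2 with h3 | h3
    · rw [Subgroup.card_eq_one, Subgroup.zpowers_eq_bot] at h3
      exact absurd h3 ha1
    · exact (Subgroup.eq_of_le_of_card_ge h1 (by rw [h3])).ge
  have key := Cfsg.Agent.H1.bg34 (V := V) (K := K) (ρ := a) (r := r) hR hr2 hV (hKG.trans hGV)
    (hGV (hRG ha)) (hRK ha) har hrℓ hcop (hodd.of_dvd_nat (Subgroup.card_dvd_of_le hKG))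
    (Cfsg.Agent.H1.isSolvable_of_le hKG hsolv)
    (fun h => hℓG (h.trans (Subgroup.card_dvd_of_le hKG))) (by
      intro v hv hc
      have : v ∈ V ⊓ Subgroup.centralizer (R : Set X) := by
        refine Subgroup.mem_inf.mpr ⟨hv, ?_⟩
        have h1 : v ∈ Subgroup.centralizer ((Subgroup.zpowers a : Subgroup X) : Set X) := by
          rw [Subgroup.zpowers_eq_closure, Subgroup.centralizer_closure,
            Subgroup.mem_centralizer_singleton_iff]
          exact hc.symm
        exact Subgroup.centralizer_le hgen h1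
      rwa [hCV, Subgroup.mem_bot] at this) x hx
  have h1 := inv_mem key
  rwa [commutatorElement_inv] at h1

end Cfsg.Agent.S3769
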