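import Cfsg.Statements.S3770
import Cfsg.Agent.H1.FrobQuot
import Cfsg.Agent.H1.BG310

set_option autoImplicit false
open Cfsg

namespace Cfsg.Agent.S3770

/-- Let G and V be subgroups of a finite group with G a Frobenius group with complement R of prime order and kernel K, G normalizing V, and V an elementary abelian ℓ-group for a prime ℓ not dividing the order of G. If C_V(R) has order ℓ, then the derived subgroup of K centralizes V. -/
theorem result {X : Type*} [Group X] [Finite X] (G : Subgroup X) (V : Subgroup X) {ℓ : ℕ} (hℓ : ℓ.Prime) (hV : Cfsg.IsElementaryAbelian ℓ V) (hℓG : ¬ ℓ ∣ Nat.card G) (hGV : G ≤ Subgroup.normalizer (V : Set X)) (R : Subgroup ↥G) (hR : Cfsg.IsFrobeniusComplement R) (hRp : (Nat.card R).Prime) (hCV : Nat.card ↥(V ⊓ Subgroup.centralizer ((R.map G.subtype : Subgroup X) : Set X)) = ℓ) : ⁅Subgroup.closure (Subtype.val '' Cfsg.frobeniusKernel R), Subgroup.closure (Subtype.val '' Cfsg.frobeniusKernel R)⁆ ≤ Subgroup.centralizer (V : Set X) := by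
    haveI : Fact ℓ.Prime := ⟨hℓ⟩
    set r := Nat.card R with hrdef
    haveI : Fact r.Prime := ⟨hRp⟩
    obtain ⟨K, hKs, hKn, hKR, htop, hK1, hKnil, hfix⟩ := H1.frob_struct hR
    have hcl : Subgroup.closure (Subtype.val '' Cfsg.frobeniusKernel R) = K.map G.subtype := by
      rw [← hKs]
      have : (Subtype.val '' (K : Set ↥G)) = ((K.map G.subtype : Subgroup X) : Set X) := rfl
      rw [this, Subgroup.closure_eq]
    rw [hcl]
    obtain ⟨ρ, hρo⟩ := exists_prime_orderOf_dvd_card' (G := R) r dvd_rfl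
    have hρo' : orderOf (((ρ : ↥G) : X)) = r := by
      rw [← hρo, ← Subgroup.orderOf_coe, ← Subgroup.orderOf_coe]
    have hρ1 : (ρ : ↥G) ≠ 1 := by
      intro h
      rw [h, Subgroup.coe_one, orderOf_one] at hρo'
      exact hRp.one_lt.ne hρo'
    have hρr : (((ρ : ↥G) : X)) ^ r = 1 := by rw [← hρo', pow_orderOf_eq_one]
    have hrG : r ∣ Nat.card G := Subgroup.card_subgroup_dvd_card R
    have hKG : Nat.card (K.map G.subtype) = Nat.card K := H1.card_map_subtype K
    have hρK : ((ρ : ↥G) : X) ∈ Subgroup.normalizer ((K.map G.subtype : Subgroup X) : Set X) := by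
      have h1 := H1.le_normalizer_map' G.subtype
      rw [Subgroup.mem_normalizer_iff]
      intro g
      constructor
      · rintro ⟨k, hk, rfl⟩
        exact ⟨(ρ : ↥G) * k * (ρ : ↥G)⁻¹, hKn.conj_mem k hk _, rfl⟩
      · rintro ⟨k, hk, hkg⟩
        refine ⟨(ρ : ↥G)⁻¹ * k * (ρ : ↥G)⁻¹⁻¹, hKn.conj_mem k hk _, ?_⟩
        have h2 : (k : X) = ((ρ : ↥G) : X) * g * ((ρ : ↥G) : X)⁻¹ := hkg
        simp only [map_mul, map_inv, Subgroup.subtype_apply, h2]
        group
    have hfixK : ∀ x ∈ K.map G.subtype, Commute ((ρ : ↥G) : X) x → x = 1 := by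
      rintro _ ⟨k, hk, rfl⟩ hc
      have := hfix ρ ρ.2 hρ1 k hk (Subtype.ext hc)
      rw [this]; rfl
    refine H1.bg35 hRp hV ((Subgroup.map_subtype_le K).trans hGV) (hGV (ρ : ↥G).2) hρK hρr ?_
      ?_ ?_ ?_ hfixK ?_
    · rintro rfl
      exact hℓG hrG
    · exact (hRp.coprime_iff_not_dvd.mpr (H1.card_modEq_one_of_fix hρK hρr hfixK)).symm
    · haveI := hKnil
      exact H1.isSolvable_map _ inferInstance
    · rw [hKG]
      exact fun h => hℓG (h.trans (Subgroup.card_subgroup_dvd_card K))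
    · refine le_of_eq ?_
      rw [← hCV]
      have hz : (R.map G.subtype : Subgroup X) = Subgroup.zpowers ((ρ : ↥G) : X) := by
        symm
        apply Subgroup.eq_of_le_of_card_ge
        · rw [Subgroup.zpowers_le]
          exact ⟨ρ, ρ.2, rfl⟩
        · rw [Nat.card_zpowers, hρo', H1.card_map_subtype]
      rw [hz, Subgroup.zpowers_eq_closure, Subgroup.centralizer_closure]

end Cfsg.Agent.S3770
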