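import Cfsg.Statements.S3772
import Cfsg.Agent.H29.XS
import Cfsg.Agent.H18.FrattiniP

set_option autoImplicit false
set_option linter.all false
open Cfsg

namespace Cfsg.Agent.S3772

section aux
open Subgroup H29
open scoped commutatorElement

variable {G : Type*} [Group G] [Finite G]

open Classical in
noncomputable def eps (x : G) : ℤ := if x = 1 then 1 else -1

theorem eps_one : eps (1 : G) = 1 := by simp [eps]

theorem eps_mul {z : G} (hz : z * z = 1) {u v : G} (hu : u = 1 ∨ u = z) (hv : v = 1 ∨ v = z) :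
    eps (u * v) = eps u * eps v := by
  by_cases hz1 : z = 1
  · subst hz1
    rcases hu with rfl | rfl <;> rcases hv with rfl | rfl <;> simp [eps]
  · rcases hu with rfl | rfl <;> rcases hv with rfl | rfl <;> simp [eps, hz, hz1]

theorem eps_sq (u : G) : eps u * eps u = 1 := by
  unfold eps; split_ifs <;> norm_num

open Classical in
/-- sum of a `±1` homomorphism -/
theorem sum_eps [Fintype G] {z : G} (hz : z * z = 1) (hz1 : z ≠ 1) (K : Subgroup G) (c : G → G)
    (hc : ∀ x ∈ K, c x = 1 ∨ c x = z) (hmul : ∀ x ∈ K, ∀ y ∈ K, c (x * y) = c x * c y) :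
    (∑ x ∈ Finset.univ.filter (fun x => x ∈ K), eps (c x)) = if (∀ x ∈ K, c x = 1) then (Nat.card K : ℤ) else 0 := by
  split_ifs with h
  · rw [Finset.sum_congr rfl (g := fun _ => (1 : ℤ))]
    · rw [Finset.sum_const, nsmul_eq_mul, mul_one, Nat.card_eq_fintype_card, Fintype.card_subtype]
    · intro x hx
      rw [h x (Finset.mem_filter.mp hx).2, eps_one]
  · push Not at h
    obtain ⟨a, ha, hca⟩ := h
    have hca' : c a = z := (hc a ha).resolve_left hca
    have h1 : (∑ x ∈ Finset.univ.filter (fun x => x ∈ K), eps (c x)) =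
        ∑ x ∈ Finset.univ.filter (fun x => x ∈ K), eps (c (a * x)) := by
      symm
      apply Finset.sum_bij (fun x _ => a * x)
      · intro x hx
        simp only [Finset.mem_filter, Finset.mem_univ, true_and] at hx ⊢
        exact mul_mem ha hx
      · intro x _ y _ hxy; exact mul_left_cancel hxy
      · intro y hy
        simp only [Finset.mem_filter, Finset.mem_univ, true_and] at hy
        exact ⟨a⁻¹ * y, by simp only [Finset.mem_filter, Finset.mem_univ, true_and]; exact mul_mem (inv_mem ha) hy, by simp⟩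
      · intro x _; rfl
    have h2 : ∀ x ∈ Finset.univ.filter (fun x => x ∈ K), eps (c (a * x)) = - eps (c x) := by
      intro x hx
      have hx' := (Finset.mem_filter.mp hx).2
      rw [hmul a ha x hx', eps_mul hz (Or.inr hca') (hc x hx'), hca', show eps z = -1 from by simp [eps, hz1]]
      ring
    rw [Finset.sum_congr rfl h2, Finset.sum_neg_distrib] at h1
    linarith

open Classical in
/-- the main counting formula -/
theorem sq_sum [Fintype G] {z : G} (hz : z * z = 1) (hz1 : z ≠ 1) (hzc : ∀ x, x * z = z * x)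
    (hsq : ∀ x : G, x ^ 2 = 1 ∨ x ^ 2 = z) (hcom : ∀ x y : G, x⁻¹ * y * x * y⁻¹ = 1 ∨ x⁻¹ * y * x * y⁻¹ = z) :
    (∑ x : G, eps (x ^ 2)) * (∑ x : G, eps (x ^ 2)) =
      if (∀ x ∈ center G, x ^ 2 = 1) then (Nat.card G : ℤ) * Nat.card (center G) else 0 := by
  have hcen : ∀ u : G, (u = 1 ∨ u = z) → ∀ x, x * u = u * x := by
    rintro u (rfl | rfl) x
    · simp
    · exact hzc x
  rw [Finset.sum_mul_sum]
  have h1 : ∀ x : G, (∑ y : G, eps (x ^ 2) * eps (y ^ 2)) = ∑ y : G, eps (y ^ 2) * eps (x⁻¹ * y * x * y⁻¹) := by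
    intro x
    rw [← Equiv.sum_comp (Equiv.mulLeft x) (fun y => eps (x ^ 2) * eps (y ^ 2))]
    apply Finset.sum_congr rfl
    intro y _
    have e1 : (Equiv.mulLeft x y) ^ 2 = x ^ 2 * ((x⁻¹ * y * x * y⁻¹) * y ^ 2) := by
      show (x * y) ^ 2 = _
      rw [pow_two, pow_two, pow_two]; group
    rw [e1, eps_mul hz (hsq x), eps_mul hz (hcom x y) (hsq y)]
    · rw [← mul_assoc, eps_sq, one_mul, mul_comm]
    · rcases hcom x y with h | h <;> rcases hsq y with h' | h' <;> rw [h, h'] <;> simp [hz]
  rw [Finset.sum_congr rfl (fun x _ => h1 x), Finset.sum_comm]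
  have h2 : ∀ y : G, (∑ x : G, eps (y ^ 2) * eps (x⁻¹ * y * x * y⁻¹)) =
      eps (y ^ 2) * (if y ∈ center G then (Nat.card G : ℤ) else 0) := by
    intro y
    rw [← Finset.mul_sum]
    congr 1
    have h3 := sum_eps hz hz1 (⊤ : Subgroup G) (fun x => x⁻¹ * y * x * y⁻¹) (fun x _ => hcom x y) (by
      intro a _ b _
      have hc := hcen _ (hcom a y)
      calc (a * b)⁻¹ * y * (a * b) * y⁻¹ = b⁻¹ * (a⁻¹ * y * a * y⁻¹) * (y * b * y⁻¹) := by group
        _ = (a⁻¹ * y * a * y⁻¹) * b⁻¹ * (y * b * y⁻¹) := by rw [hc b⁻¹]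
        _ = (a⁻¹ * y * a * y⁻¹) * (b⁻¹ * y * b * y⁻¹) := by group)
    rw [card_top] at h3
    simp only [mem_top, Finset.filter_true, true_implies] at h3
    rw [h3]
    have h4 : (∀ x : G, x⁻¹ * y * x * y⁻¹ = 1) ↔ y ∈ center G := by
      rw [mem_center_iff]
      constructor
      · intro h g
        have := h g
        calc g * y = g * (g⁻¹ * y * g * y⁻¹) * y := by rw [this]; group
          _ = y * g := by group
      · intro h g
        calc g⁻¹ * y * g * y⁻¹ = g⁻¹ * (y * g) * y⁻¹ := by group
          _ = g⁻¹ * (g * y) * y⁻¹ := by rw [h g]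
          _ = 1 := by group
    simp only [h4]
  rw [Finset.sum_congr rfl (fun y _ => h2 y)]
  have h5 : (∑ y : G, eps (y ^ 2) * (if y ∈ center G then (Nat.card G : ℤ) else 0)) =
      (Nat.card G : ℤ) * ∑ y ∈ Finset.univ.filter (fun y => y ∈ center G), eps (y ^ 2) := by
    rw [Finset.sum_filter, Finset.mul_sum]
    apply Finset.sum_congr rfl
    intro y _
    split_ifs <;> ring
  have h7 := sum_eps hz hz1 (center G) (fun x => x ^ 2) (fun x _ => hsq x) (by
    intro a ha b _
    have h6 : Commute a b := (mem_center_iff.mp ha b).symm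
    exact h6.mul_pow 2)
  have h8 : (∑ y ∈ Finset.univ.filter (fun y => y ∈ center G), eps (y ^ 2)) =
      if (∀ x ∈ center G, x ^ 2 = 1) then (Nat.card (center G) : ℤ) else 0 := by convert h7
  rw [h5, h8]
  split_ifs
  · rfl
  · ring

theorem aux {G : Type*} [Group G] [Finite G] (hG : IsPGroup 2 G) (hΦ : Nat.card (frattini G) = 2) (d : ℕ) (hd : (frattini G).index = 2 ^ d) : (Nat.card {x : G // x ^ 2 = 1} = 2 ^ d ∨ ∃ r : ℕ, 1 ≤ r ∧ 2 * r ≤ d ∧ (Nat.card {x : G // x ^ 2 = 1} = 2 ^ d + 2 ^ (d - r) ∨ Nat.card {x : G // x ^ 2 = 1} + 2 ^ (d - r) = 2 ^ d)) ∧ (∀ r : ℕ, d = 2 * r → (Nat.card {x : G // x ^ 2 = 1} = 2 ^ d + 2 ^ r ∨ Nat.card {x : G // x ^ 2 = 1} + 2 ^ r = 2 ^ d) → Cfsg.IsExtraspecial 2 G) := by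
  classical
  haveI := Fintype.ofFinite G
  -- the central involution
  obtain ⟨z, hzΦ, hz1, hall⟩ : ∃ z ∈ frattini G, z ≠ 1 ∧ ∀ x ∈ frattini G, x = 1 ∨ x = z := by
    rw [Nat.card_eq_two_iff] at hΦ
    obtain ⟨a, b, hab, hU⟩ := hΦ
    by_cases ha : a = 1
    · refine ⟨b, b.2, fun h => hab (by rw [ha]; exact Subtype.ext h.symm), fun x hx => ?_⟩
      have : (⟨x, hx⟩ : frattini G) ∈ ({a, b} : Set (frattini G)) := by rw [hU]; trivial
      rcases this with h | h
      · left; rw [ha] at h; exact congrArg Subtype.val h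
      · right; exact congrArg Subtype.val h
    · have hb : b = 1 := by
        have : (1 : frattini G) ∈ ({a, b} : Set (frattini G)) := by rw [hU]; trivial
        rcases this with h | h
        · exact absurd h.symm ha
        · exact h.symm
      refine ⟨a, a.2, fun h => ha (Subtype.ext h), fun x hx => ?_⟩
      have : (⟨x, hx⟩ : frattini G) ∈ ({a, b} : Set (frattini G)) := by rw [hU]; trivial
      rcases this with h | h
      · right; exact congrArg Subtype.val h
      · left; rw [hb] at h; exact congrArg Subtype.val h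
  have hzz : z * z = 1 := by
    rcases hall _ (mul_mem hzΦ hzΦ) with h | h
    · exact h
    · exact absurd (mul_eq_left.mp h) hz1
  have hzc : ∀ x, x * z = z * x := by
    intro x
    have h1 : x * z * x⁻¹ ∈ frattini G := (inferInstance : (frattini G).Normal).conj_mem z hzΦ x
    rcases hall _ h1 with h | h
    · exfalso
      apply hz1
      have : z = x⁻¹ * (x * z * x⁻¹) * x := by group
      rw [this, h]; group
    · calc x * z = x * z * x⁻¹ * x := by group
        _ = z * x := by rw [h]
  have hsq : ∀ x : G, x ^ 2 = 1 ∨ x ^ 2 = z := fun x => hall _ (pgroup_pow_mem_frattini hG x)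
  have hcom : ∀ x y : G, x⁻¹ * y * x * y⁻¹ = 1 ∨ x⁻¹ * y * x * y⁻¹ = z := by
    intro x y
    apply hall
    apply pgroup_commutator_le_frattini hG
    have : x⁻¹ * y * x * y⁻¹ = ⁅x⁻¹, y⁆ := by rw [commutatorElement_def, inv_inv]
    rw [this, _root_.commutator_def]
    exact commutator_mem_commutator (mem_top _) (mem_top _)
  have hmain := sq_sum hzz hz1 hzc hsq hcom
  set T := ∑ x : G, eps (x ^ 2) with hT
  have hcardG : Nat.card G = 2 ^ (d + 1) := by
    have := (frattini G).card_mul_index
    rw [hΦ, hd] at this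
    rw [← this, pow_succ]; ring
  -- `T = 2 j - |G|`
  have hTj : T = 2 * (Nat.card {x : G // x ^ 2 = 1} : ℤ) - 2 ^ (d + 1) := by
    have h1 : T = ((Finset.univ.filter (fun x : G => x ^ 2 = 1)).card : ℤ) - (Finset.univ.filter (fun x : G => ¬ x ^ 2 = 1)).card := by
      rw [hT]
      have : ∀ x ∈ (Finset.univ : Finset G), eps (x ^ 2) = if x ^ 2 = 1 then (1 : ℤ) else -1 := fun x _ => by
        unfold eps; rfl
      rw [Finset.sum_congr rfl this, Finset.sum_ite]
      simp
      ring
    have h2 := Finset.card_filter_add_card_filter_not (s := (Finset.univ : Finset G)) (fun x : G => x ^ 2 = 1)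
    have h3 : (Finset.univ : Finset G).card = 2 ^ (d + 1) := by
      rw [Finset.card_univ, ← Nat.card_eq_fintype_card, hcardG]
    have h4 : Nat.card {x : G // x ^ 2 = 1} = (Finset.univ.filter (fun x : G => x ^ 2 = 1)).card := by
      rw [Nat.card_eq_fintype_card, Fintype.card_subtype]
    rw [h1, h4]
    have h5 : ((Finset.univ.filter (fun x : G => x ^ 2 = 1)).card : ℤ) + (Finset.univ.filter (fun x : G => ¬ x ^ 2 = 1)).card = 2 ^ (d + 1) := by
      rw [h3] at h2
      exact_mod_cast h2
    linarith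
  have hΦZ : frattini G ≤ center G := by
    intro x hx
    rw [mem_center_iff]
    intro g
    rcases hall x hx with rfl | rfl
    · simp
    · exact hzc g
  obtain ⟨m, hm⟩ : ∃ m, Nat.card (center G) = 2 ^ (m + 1) := by
    obtain ⟨k, hk⟩ := IsPGroup.iff_card.mp (hG.to_subgroup (center G))
    rcases k with _ | k
    · exfalso
      have h1 := card_dvd_of_le hΦZ
      rw [hΦ, hk] at h1
      norm_num at h1
    · exact ⟨k, hk⟩
  have hmd : m ≤ d := by
    have h1 : Nat.card (center G) ≤ Nat.card G := Subgroup.card_le_card_group _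
    rw [hm, hcardG] at h1
    have := (Nat.pow_le_pow_iff_right (by norm_num : 1 < 2)).mp h1
    omega
  have hmd' : m = d → (∀ x ∈ center G, x ^ 2 = 1) → False := by
    intro h h'
    have h1 : center G = ⊤ := by
      apply Subgroup.eq_top_of_card_eq
      rw [hm, hcardG, h]
    have h2 : frattini G ≤ ⊥ := by
      haveI : Fact (Nat.Prime 2) := ⟨Nat.prime_two⟩
      apply H18.frattini_le_of_elementary (p := 2)
      · rw [_root_.commutator_def, commutator_le]
        intro a _ b _
        rw [mem_bot, commutatorElement_eq_one_iff_mul_comm]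
        have : b ∈ center G := by rw [h1]; exact mem_top _
        exact mem_center_iff.mp this a
      · intro x
        rw [mem_bot]
        exact h' x (by rw [h1]; exact mem_top _)
    exact hz1 (mem_bot.mp (h2 hzΦ))
  by_cases hZ : ∀ x ∈ center G, x ^ 2 = 1
  · rw [if_pos hZ, hcardG, hm] at hmain
    have hnat : T.natAbs * T.natAbs = 2 ^ (d + m + 2) := by
      have h1 : ((T.natAbs * T.natAbs : ℕ) : ℤ) = ((2 ^ (d + m + 2) : ℕ) : ℤ) := by
        rw [Int.natAbs_mul_self, hmain]
        push_cast
        rw [← pow_add]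
        congr 1
        ring
      exact_mod_cast h1
    obtain ⟨i, -, hi⟩ := (Nat.dvd_prime_pow Nat.prime_two).mp (Dvd.intro _ hnat)
    rw [hi, ← pow_add] at hnat
    have hi2 : i + i = d + m + 2 := Nat.pow_right_injective le_rfl hnat
    obtain ⟨i, rfl⟩ : ∃ k, i = k + 1 := ⟨i - 1, by omega⟩
    have hcase : (Nat.card {x : G // x ^ 2 = 1} = 2 ^ d + 2 ^ i ∨ Nat.card {x : G // x ^ 2 = 1} + 2 ^ i = 2 ^ d) := by
      rcases Int.natAbs_eq T with h | h
      · left
        rw [hi] at h
        rw [h] at hTj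
        push_cast at hTj
        have : (Nat.card {x : G // x ^ 2 = 1} : ℤ) = 2 ^ d + 2 ^ i := by
          rw [pow_succ, pow_succ] at hTj
          linarith
        exact_mod_cast this
      · right
        rw [hi] at h
        rw [h] at hTj
        push_cast at hTj
        have : (Nat.card {x : G // x ^ 2 = 1} : ℤ) + 2 ^ i = 2 ^ d := by
          rw [pow_succ, pow_succ] at hTj
          linarith
        exact_mod_cast this
    have hne : m ≠ d := fun h => hmd' h hZ
    constructor
    · right
      refine ⟨d - i, by omega, by omega, ?_⟩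
      rw [show d - (d - i) = i by omega]
      exact hcase
    · intro r hr hj
      -- then `i = r`
      have hir : i = r := by
        have hpos : 0 < 2 ^ i := pow_pos (by norm_num) i
        have hpos' : 0 < 2 ^ r := pow_pos (by norm_num) r
        rcases hcase with h | h <;> rcases hj with h' | h'
        · have : 2 ^ i = 2 ^ r := by omega
          exact Nat.pow_right_injective le_rfl this
        · omega
        · omega
        · have : 2 ^ i = 2 ^ r := by omega
          exact Nat.pow_right_injective le_rfl this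
      have hm0 : m = 0 := by omega
      rw [hm0, zero_add, pow_one] at hm
      have hZΦ : frattini G = center G := Subgroup.eq_of_le_of_card_ge hΦZ (by rw [hΦ, hm])
      refine ⟨⟨hG, hZΦ, ?_⟩, hm⟩
      rw [← hZΦ]
      have hle := pgroup_commutator_le_frattini hG
      apply Subgroup.eq_of_le_of_card_ge hle
      rw [hΦ]
      by_contra hlt
      have hc1 : Nat.card (commutator G) = 1 := by
        have : 0 < Nat.card (commutator G) := Nat.card_pos
        omega
      rw [card_eq_one, _root_.commutator_def] at hc1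
      have hct : center G = ⊤ := by
        rw [eq_top_iff]
        intro x _
        rw [mem_center_iff]
        intro g
        rw [← commutatorElement_eq_one_iff_mul_comm, ← mem_bot, ← hc1]
        exact commutator_mem_commutator (mem_top _) (mem_top _)
      have h7 : Nat.card G = 2 := by rw [← hm, hct, card_top]
      rw [hcardG] at h7
      have h8 : d = 0 := by
        have : d + 1 = 1 := Nat.pow_right_injective le_rfl (by rw [h7, pow_one] : 2 ^ (d + 1) = 2 ^ 1)
        omega
      exact hne (by omega)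
  · rw [if_neg hZ] at hmain
    have hT0 : T = 0 := by
      rcases mul_eq_zero.mp hmain with h | h <;> exact h
    have hj : Nat.card {x : G // x ^ 2 = 1} = 2 ^ d := by
      rw [hT0, pow_succ] at hTj
      have : (Nat.card {x : G // x ^ 2 = 1} : ℤ) = 2 ^ d := by linarith
      exact_mod_cast this
    refine ⟨Or.inl hj, ?_⟩
    intro r hr h
    exfalso
    have hpos' : 0 < 2 ^ r := pow_pos (by norm_num) r
    rcases h with h | h <;> omega

end aux

/-- Let G be a finite 2-group whose Frattini subgroup Φ(G) has order 2, with |G : Φ(G)| = 2^d, and let j be the number of elements x of G with x² = 1. Then j = 2^d, or j = 2^d + 2^(d−r) or j = 2^d − 2^(d−r) for some positive integer r with 2r ≤ d. Moreover if d = 2r and j is 2^d + 2^r or 2^d − 2^r, then G is extraspecial. -/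
theorem result {G : Type*} [Group G] [Finite G] (hG : IsPGroup 2 G) (hΦ : Nat.card (frattini G) = 2) (d : ℕ) (hd : (frattini G).index = 2 ^ d) : (Nat.card {x : G // x ^ 2 = 1} = 2 ^ d ∨ ∃ r : ℕ, 1 ≤ r ∧ 2 * r ≤ d ∧ (Nat.card {x : G // x ^ 2 = 1} = 2 ^ d + 2 ^ (d - r) ∨ Nat.card {x : G // x ^ 2 = 1} + 2 ^ (d - r) = 2 ^ d)) ∧ (∀ r : ℕ, d = 2 * r → (Nat.card {x : G // x ^ 2 = 1} = 2 ^ d + 2 ^ r ∨ Nat.card {x : G // x ^ 2 = 1} + 2 ^ r = 2 ^ d) → Cfsg.IsExtraspecial 2 G) := by
  exact aux hG hΦ d hd

end Cfsg.Agent.S3772
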