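import Cfsg.Statements.S3773
import Cfsg.Agent.H23.QuadCW
import Cfsg.Agent.H18.FrattiniP
import Cfsg.Agent.H2.Frat
import Cfsg.Agent.H2.Basic
import Cfsg.Agent.H19.Sylow

set_option autoImplicit false
set_option linter.all false
open Cfsg

namespace Cfsg.Agent.S3773

open Subgroup
open scoped Pointwise

section
variable {G : Type*} [Group G] [Finite G]

theorem comm_sq (hcc : ∀ x y z : G, z * (x * y * x⁻¹ * y⁻¹) = (x * y * x⁻¹ * y⁻¹) * z)
    (hexp : ∀ x : G, x ^ 4 = 1) (x y : G) : (x * y * x⁻¹ * y⁻¹) ^ 2 = 1 := by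
  have hmul : ∀ x y : G, (x * y) ^ 2 = x ^ 2 * y ^ 2 * (y * x * y⁻¹ * x⁻¹) := by
    intro x y
    calc (x * y) ^ 2 = x * (y * x * y⁻¹ * x⁻¹) * (x * y * y) := by rw [sq]; group
        _ = (y * x * y⁻¹ * x⁻¹) * x * (x * y * y) := by rw [hcc y x x]
        _ = (y * x * y⁻¹ * x⁻¹) * (x * x * y * y) := by group
        _ = (x * x * y * y) * (y * x * y⁻¹ * x⁻¹) := (hcc y x _).symm
        _ = _ := by rw [sq, sq]; group
  have hl : ∀ x y z : G, (x * y) * z * (x * y)⁻¹ * z⁻¹ = (x * z * x⁻¹ * z⁻¹) * (y * z * y⁻¹ * z⁻¹) := by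
    intro x y z
    calc (x * y) * z * (x * y)⁻¹ * z⁻¹ = x * (y * z * y⁻¹ * z⁻¹) * (z * x⁻¹ * z⁻¹) := by group
      _ = (y * z * y⁻¹ * z⁻¹) * x * (z * x⁻¹ * z⁻¹) := by rw [hcc y z x]
      _ = (y * z * y⁻¹ * z⁻¹) * (x * z * x⁻¹ * z⁻¹) := by group
      _ = _ := (hcc y z _).symm
  have hr : ∀ x y z : G, x * (y * z) * x⁻¹ * (y * z)⁻¹ = (x * y * x⁻¹ * y⁻¹) * (x * z * x⁻¹ * z⁻¹) := by
    intro x y z
    calc x * (y * z) * x⁻¹ * (y * z)⁻¹ = (x * y * x⁻¹) * (x * z * x⁻¹ * z⁻¹) * y⁻¹ := by group
      _ = (x * y * x⁻¹) * (y⁻¹ * (x * z * x⁻¹ * z⁻¹)) := by rw [mul_assoc, hcc x z y⁻¹]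
      _ = _ := by group
  set c := x * y * x⁻¹ * y⁻¹ with hc
  have h1 : (x ^ 2) * (y ^ 2) * (x ^ 2)⁻¹ * (y ^ 2)⁻¹ = c ^ 4 := by
    have h0 : c ^ 4 = c * c * (c * c) := by rw [← sq, ← sq, ← pow_mul]
    rw [sq, sq, hl, hr, ← hc, h0]
  have h2 : (y * x) ^ 4 = 1 := hexp _
  have hc2 : ∀ z, z * c = c * z := fun z => hcc x y z
  have h3 : (y * x) ^ 4 = ((y * x) ^ 2) ^ 2 := by rw [← pow_mul]
  rw [h3, hmul y x, ← hc] at h2
  have h4 : (y ^ 2 * x ^ 2 * c) ^ 2 = (y ^ 2 * x ^ 2) ^ 2 * c ^ 2 := by
    generalize y ^ 2 * x ^ 2 = a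
    calc (a * c) ^ 2 = a * (c * a) * c := by rw [sq]; group
      _ = a * (a * c) * c := by rw [hc2 a]
      _ = _ := by rw [sq, sq]; group
  rw [h4, hmul (y ^ 2) (x ^ 2), h1, ← pow_mul, ← pow_mul, hexp, hexp, hexp] at h2
  simpa using h2

end


/-- Let G be a finite 2-group of nilpotency class at most 2 and exponent dividing 4 in which the elements x with x² = 1 form a subgroup N. Then |G| ≤ |N|³, and |G| < |N|³ unless G is special. -/
theorem result {G : Type*} [Group G] [Finite G] (hG : IsPGroup 2 G) (hcl : (⊤ : Subgroup G).lowerCentralSeries 2 = ⊥) (hexp : ∀ x : G, x ^ 4 = 1) (hN : ∀ x y : G, x ^ 2 = 1 → y ^ 2 = 1 → (x * y) ^ 2 = 1) : Nat.card G ≤ Nat.card {x : G // x ^ 2 = 1} ^ 3 ∧ (¬ Cfsg.IsSpecial 2 G → Nat.card G < Nat.card {x : G // x ^ 2 = 1} ^ 3) := by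
  classical
  have hcl' : _root_.commutator G ≤ center G := by
    rw [← Subgroup.centralizer_univ, ← coe_top, ← commutator_eq_bot_iff_le_centralizer]
    exact hcl
  have hcc : ∀ x y z : G, z * (x * y * x⁻¹ * y⁻¹) = (x * y * x⁻¹ * y⁻¹) * z := by
    intro x y z
    exact mem_center_iff.mp (hcl' (commutator_mem_commutator (mem_top x) (mem_top y))) z
  have hmul : ∀ x y : G, (x * y) ^ 2 = x ^ 2 * y ^ 2 * (y * x * y⁻¹ * x⁻¹) := by
    intro x y
    calc (x * y) ^ 2 = x * (y * x * y⁻¹ * x⁻¹) * (x * y * y) := by rw [sq]; group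
        _ = (y * x * y⁻¹ * x⁻¹) * x * (x * y * y) := by rw [hcc y x x]
        _ = (y * x * y⁻¹ * x⁻¹) * (x * x * y * y) := by group
        _ = (x * x * y * y) * (y * x * y⁻¹ * x⁻¹) := (hcc y x _).symm
        _ = _ := by rw [sq, sq]; group
  have hl : ∀ x y z : G, (x * y) * z * (x * y)⁻¹ * z⁻¹ = (x * z * x⁻¹ * z⁻¹) * (y * z * y⁻¹ * z⁻¹) := by
    intro x y z
    calc (x * y) * z * (x * y)⁻¹ * z⁻¹ = x * (y * z * y⁻¹ * z⁻¹) * (z * x⁻¹ * z⁻¹) := by group
      _ = (y * z * y⁻¹ * z⁻¹) * x * (z * x⁻¹ * z⁻¹) := by rw [hcc y z x]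
      _ = (y * z * y⁻¹ * z⁻¹) * (x * z * x⁻¹ * z⁻¹) := by group
      _ = _ := (hcc y z _).symm
  have hsqc : ∀ x : G, x ^ 2 ∈ center G := by
    intro x
    rw [mem_center_iff]
    intro y
    have h1 := hl x x y
    rw [← sq, ← sq, comm_sq hcc hexp x y] at h1
    rw [mul_inv_eq_one, mul_inv_eq_iff_eq_mul] at h1
    exact h1.symm
  set N : Subgroup G :=
    { carrier := {x | x ^ 2 = 1}
      one_mem' := one_pow 2
      mul_mem' := fun {x y} hx hy => hN x y hx hy
      inv_mem' := fun {x} hx => by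
        change (x⁻¹) ^ 2 = 1
        rw [inv_pow, hx, inv_one] } with hNdef
  have hNm : ∀ x : G, x ∈ N ↔ x ^ 2 = 1 := fun x => Iff.rfl
  have hNcard : Nat.card {x : G // x ^ 2 = 1} = Nat.card N := rfl
  rw [hNcard]
  haveI hNn : N.Normal := by
    constructor
    intro n hn g
    rw [hNm] at hn ⊢
    rw [conj_pow, hn]
    group
  set M := N ⊓ center G with hM
  have hsqM : ∀ x : G, x ^ 2 ∈ M := by
    intro x
    refine ⟨?_, hsqc x⟩
    change (x ^ 2) ^ 2 = 1
    rw [← pow_mul]
    exact hexp x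
  have hcM : _root_.commutator G ≤ M := by
    rw [_root_.commutator_def, commutator_le]
    intro x _ y _
    refine ⟨?_, hcl' (commutator_mem_commutator (mem_top x) (mem_top y))⟩
    exact comm_sq hcc hexp x y
  have hnormal : ∀ L : Subgroup G, M ≤ L → L.Normal := fun L hL =>
    Normal.of_commutator_le G (hcM.trans hL)
  haveI hMn : M.Normal := hnormal M le_rfl
  -- (a)
  have ha : Nat.card G ≤ Nat.card M ^ 2 * Nat.card N := by
    set F : Set (Subgroup G) := {L | M ≤ L ∧ L ⊓ N ≤ M} with hF
    obtain ⟨L, hL⟩ := F.toFinite.exists_maximal ⟨M, le_rfl, inf_le_left⟩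
    obtain ⟨hML, hLN⟩ := hL.prop
    haveI := hnormal L hML
    have hsup : L ⊔ N = ⊤ := by
      rw [eq_top_iff]
      intro g _
      by_contra hg
      have h1 : L ⊔ zpowers g ∈ F := by
        refine ⟨hML.trans le_sup_left, ?_⟩
        rintro x ⟨hx1, hx2⟩
        have hx1' : x ∈ L ⊔ zpowers g := hx1
        obtain ⟨l, hl', k, hk, rfl⟩ := mem_sup_of_normal_left.mp hx1'
        obtain ⟨i, rfl⟩ := mem_zpowers_iff.mp hk
        have hg2 : g ^ 2 ∈ L := hML (hsqM g)
        rcases Int.even_or_odd i with ⟨j, hj⟩ | ⟨j, hj⟩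
        · apply hLN
          refine ⟨?_, hx2⟩
          have : g ^ i = (g ^ 2) ^ j := by
            rw [hj, ← zpow_natCast, ← zpow_mul]
            congr 1
            push_cast
            ring
          have h3 : l * g ^ i ∈ L := L.mul_mem hl' (by rw [this]; exact L.zpow_mem hg2 j)
          exact h3
        · exfalso
          apply hg
          have : g ^ i = (g ^ 2) ^ j * g := by
            rw [hj, ← zpow_natCast, ← zpow_mul, ← zpow_add_one]
            congr 1
          have h3 : l * g ^ i ∈ L ⊔ N := (le_sup_right : N ≤ L ⊔ N) hx2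
          have h4 : l * (g ^ 2) ^ j ∈ L ⊔ N := (le_sup_left : L ≤ L ⊔ N) (L.mul_mem hl' (L.zpow_mem hg2 j))
          have h5 := (L ⊔ N).mul_mem ((L ⊔ N).inv_mem h4) h3
          rw [this] at h5
          have h6 : (l * (g ^ 2) ^ j)⁻¹ * (l * ((g ^ 2) ^ j * g)) = g := by group
          rw [h6] at h5
          exact h5
      have h2 := hL.le_of_ge h1 le_sup_left
      apply hg
      exact (le_sup_left : L ≤ L ⊔ N) (h2 ((le_sup_right : zpowers g ≤ L ⊔ zpowers g) (mem_zpowers g)))
    have hLN' : L ⊓ N = M := le_antisymm hLN (le_inf hML inf_le_left)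
    have h1 := Cfsg.Agent.H2.card_sup_mul_card_inf L N
    rw [hsup, Subgroup.card_top, hLN'] at h1
    have h2 : M.relIndex L ≤ Nat.card M ^ 2 := by
      by_contra hcon
      push Not at hcon
      have h3 : Nat.card (M.subgroupOf L) = Nat.card M :=
        Nat.card_congr (subgroupOfEquivOfLe hML).toEquiv
      obtain ⟨x, hx1, hx2⟩ := Cfsg.Agent.H23.exists_involution_not_mem (G := L) (M.subgroupOf L)
        (M.subgroupOf L) (by
          intro x hx
          rw [mem_center_iff]
          intro g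
          exact Subtype.ext (mem_center_iff.mp hx.2 g)) le_rfl
        (by
          intro n hn
          apply Subtype.ext
          exact hn.1) (fun x => hsqM x) (by rw [h3]; exact hcon)
      apply hx1
      rw [mem_subgroupOf]
      apply hLN
      refine ⟨x.2, ?_⟩
      exact congrArg Subtype.val hx2
    have h3 := Cfsg.Agent.H19.card_relIndex hML
    have hpos : 0 < Nat.card M := Nat.card_pos
    have h4 : Nat.card G * Nat.card M = (M.relIndex L * Nat.card N) * Nat.card M := by
      rw [h1, ← h3]; ring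
    have h5 := Nat.eq_of_mul_eq_mul_right hpos h4
    rw [h5]
    exact Nat.mul_le_mul_right _ h2
  have hMN : Nat.card M ≤ Nat.card N := Subgroup.card_le_of_le inf_le_left
  have hcube : Nat.card G ≤ Nat.card N ^ 3 := by
    refine ha.trans ?_
    rw [pow_succ]
    exact Nat.mul_le_mul_right _ (Nat.pow_le_pow_left hMN 2)
  refine ⟨hcube, ?_⟩
  intro hns
  by_contra hcon
  push Not at hcon
  have hGN : Nat.card G = Nat.card N ^ 3 := le_antisymm hcube hcon
  have hNpos : 0 < Nat.card N := Nat.card_pos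
  have hMN' : M = N := by
    apply eq_of_le_of_card_ge inf_le_left
    rw [hGN, pow_succ] at ha
    have h1 := Nat.le_of_mul_le_mul_right ha hNpos
    exact (Nat.pow_le_pow_iff_left (by norm_num)).mp h1
  have hNc : N ≤ center G := by rw [← hMN']; exact inf_le_right
  have hsqN : ∀ x : G, x ^ 2 ∈ N := fun x => (hsqM x).1
  have hidx : N.index = Nat.card N ^ 2 := by
    have h1 := N.card_mul_index
    rw [hGN, pow_succ, mul_comm] at h1
    exact Nat.eq_of_mul_eq_mul_right hNpos h1
  apply hns
  have hcN : _root_.commutator G ≤ N := hcM.trans inf_le_left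
  -- (b1)
  have hb1 : _root_.commutator G = N := by
    by_contra hne
    have hne' : (_root_.commutator G).subgroupOf N ≠ ⊤ := by
      intro h
      apply hne
      exact le_antisymm hcN (subgroupOf_eq_top.mp h)
    obtain ⟨H0, hH1, hH2, _⟩ := Cfsg.Agent.H2.exists_le_index_eq (hG.to_subgroup N) hne'
    set H : Subgroup G := H0.map N.subtype with hH
    have hHN : H ≤ N := map_subtype_le _
    have hHrel : H.relIndex N = 2 := by
      rw [hH, relIndex, subgroupOf, comap_map_eq_self_of_injective N.subtype_injective, hH2]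
    have hcH : _root_.commutator G ≤ H := by
      intro x hx
      exact ⟨⟨x, hcN hx⟩, hH1 (mem_subgroupOf.mpr hx), rfl⟩
    have hcardH : Nat.card H * 2 = Nat.card N := by
      rw [← hHrel]
      exact Cfsg.Agent.H19.card_relIndex hHN
    set K : Subgroup G :=
      { carrier := {x | x ^ 2 ∈ H}
        one_mem' := by
          change (1 : G) ^ 2 ∈ H
          rw [one_pow]; exact H.one_mem
        mul_mem' := fun {x y} hx hy => by
          change (x * y) ^ 2 ∈ H
          rw [hmul]
          exact H.mul_mem (H.mul_mem hx hy) (hcH (commutator_mem_commutator (mem_top _) (mem_top _)))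
        inv_mem' := fun {x} hx => by
          change (x⁻¹) ^ 2 ∈ H
          rw [inv_pow]; exact H.inv_mem hx } with hK
    have hKm : ∀ x : G, x ∈ K ↔ x ^ 2 ∈ H := fun x => Iff.rfl
    have hNK : N ≤ K := by
      intro x hx
      rw [hKm, (hNm x).mp hx]
      exact H.one_mem
    have hKidx : K.index ≤ 2 := by
      by_cases hKt : K = ⊤
      · rw [hKt, index_top]; norm_num
      · obtain ⟨a, ha'⟩ : ∃ a, a ∉ K := by
          by_contra hc'
          push Not at hc'
          exact hKt (eq_top_iff.mpr (fun x _ => hc' x))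
        apply le_of_eq
        rw [index_eq_two_iff_exists_notMem_and]
        refine ⟨a, ha', ?_⟩
        intro b
        by_cases hb : b ∈ K
        · right; exact hb
        · left
          rw [hKm] at ha' hb ⊢
          rw [hmul]
          refine H.mul_mem ?_ (hcH (commutator_mem_commutator (mem_top _) (mem_top _)))
          have h1 := index_eq_two_iff.mp (show (H.subgroupOf N).index = 2 from hHrel)
          have h2 := Subgroup.mul_mem_iff_of_index_two (show (H.subgroupOf N).index = 2 from hHrel)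
            (a := ⟨b ^ 2, hsqN b⟩) (b := ⟨a ^ 2, hsqN a⟩)
          rw [mem_subgroupOf, mem_subgroupOf, mem_subgroupOf] at h2
          exact h2.mpr (iff_of_false hb ha')
    have hKc := K.card_mul_index
    have hNKc := Cfsg.Agent.H19.card_relIndex hNK
    have hlt : Nat.card H ^ 2 < N.relIndex K := by
      by_contra hcon'
      push Not at hcon'
      have h1 : Nat.card G ≤ Nat.card N * Nat.card H ^ 2 * 2 := by
        rw [← hKc, ← hNKc]
        exact Nat.mul_le_mul (Nat.mul_le_mul_left _ hcon') hKidx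
      rw [hGN, ← hcardH] at h1
      have hHpos : 0 < Nat.card H := Nat.card_pos
      have h2 : 0 < Nat.card H ^ 3 := by positivity
      nlinarith [h1, h2]
    obtain ⟨x, hx1, hx2⟩ := Cfsg.Agent.H23.exists_involution_not_mem (G := K) (N.subgroupOf K)
      (H.subgroupOf K) (by
        intro x hx
        rw [mem_center_iff]
        intro g
        exact Subtype.ext (mem_center_iff.mp (hNc hx) g)) (fun x hx => hHN hx)
      (by
        intro n hn
        apply Subtype.ext
        exact hn) (fun x => x.2) (by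
          rw [Nat.card_congr (subgroupOfEquivOfLe (hHN.trans hNK)).toEquiv]
          exact hlt)
    exact hx1 (congrArg Subtype.val hx2)
  -- (b2)
  have hb2 : center G = N := by
    by_contra hne
    obtain ⟨z, hz, hzN⟩ : ∃ z ∈ center G, z ∉ N := by
      by_contra hc'
      push Not at hc'
      exact hne (le_antisymm hc' hNc)
    set e := z ^ 2 with he
    have he1 : e ≠ 1 := fun h => hzN h
    have he2 : e ^ 2 = 1 := hsqN z
    have heN : e ∈ N := hsqN z
    set E := zpowers e with hE
    have hEN : E ≤ N := by rw [hE, zpowers_le]; exact heN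
    have hEcard : Nat.card E = 2 := by
      rw [hE, Nat.card_zpowers]
      exact orderOf_eq_prime he2 he1
    have hEmem : ∀ x ∈ E, x = 1 ∨ x = e := by
      intro x hx
      obtain ⟨i, rfl⟩ := mem_zpowers_iff.mp hx
      rcases Int.even_or_odd i with ⟨j, hj⟩ | ⟨j, hj⟩
      · left
        rw [hj, ← two_mul, zpow_mul]
        have : e ^ (2 : ℤ) = 1 := by exact_mod_cast he2
        rw [this, one_zpow]
      · right
        rw [hj, zpow_add_one, zpow_mul]
        have : e ^ (2 : ℤ) = 1 := by exact_mod_cast he2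
        rw [this, one_zpow, one_mul]
    haveI hEn : E.Normal := by
      constructor
      intro n hn g
      rw [mem_center_iff.mp (hNc (hEN hn)) g, mul_assoc, mul_inv_cancel, mul_one]
      exact hn
    set N1 : Subgroup G := N ⊔ zpowers z with hN1
    have hzz : zpowers z ≤ center G := by rw [zpowers_le]; exact hz
    have hN1c : N1 ≤ center G := sup_le hNc hzz
    have hN1m : ∀ x ∈ N1, x ∈ N ∨ x * z⁻¹ ∈ N := by
      intro x hx
      obtain ⟨n, hn, k, hk, rfl⟩ := mem_sup_of_normal_left.mp hx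
      obtain ⟨i, rfl⟩ := mem_zpowers_iff.mp hk
      have hi : ∀ j : ℤ, z ^ (2 * j) ∈ N := by
        intro j
        rw [zpow_mul]
        have : z ^ (2 : ℤ) = e := by rw [he]; norm_cast
        rw [this]
        exact N.zpow_mem heN j
      rcases Int.even_or_odd i with ⟨j, hj⟩ | ⟨j, hj⟩
      · left
        rw [hj, ← two_mul]
        exact N.mul_mem hn (hi j)
      · right
        rw [hj, zpow_add_one, mul_assoc, mul_assoc, mul_inv_cancel, mul_one]
        exact N.mul_mem hn (hi j)
    have hNN1 : N ≤ N1 := le_sup_left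
    have hrel : N.relIndex N1 = 2 := by
      rw [relIndex, index_eq_two_iff_exists_notMem_and]
      refine ⟨⟨z⁻¹, N1.inv_mem ((le_sup_right : zpowers z ≤ N1) (mem_zpowers z))⟩, ?_, ?_⟩
      · rw [mem_subgroupOf]
        intro h
        exact hzN (N.inv_mem_iff.mp h)
      · intro b
        rw [mem_subgroupOf, mem_subgroupOf]
        rcases hN1m b b.2 with h | h
        · right; exact h
        · left; exact h
    have hcardN1 := Cfsg.Agent.H19.card_relIndex hNN1
    rw [hrel] at hcardN1
    have hcardE := Cfsg.Agent.H19.card_relIndex hEN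
    set f := QuotientGroup.mk' E with hf
    have hker : f.ker = E := QuotientGroup.ker_mk' E
    have hfs : Function.Surjective f := QuotientGroup.mk'_surjective E
    have hNf := Cfsg.Agent.H2.card_map_mul_card_inf_ker f N
    rw [hker, inf_eq_right.mpr hEN, hEcard] at hNf
    have hidx1 : (N1.map f).index = N1.index := by
      rw [index_map_eq N1 hfs (by rw [hker]; exact hEN.trans hNN1)]
    have hN1idx := N1.card_mul_index
    obtain ⟨x, hx1, hx2⟩ := Cfsg.Agent.H23.exists_involution_not_mem (G := G ⧸ E) (N1.map f) (N.map f)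
      (by
        rintro _ ⟨x, hx, rfl⟩
        rw [mem_center_iff]
        intro g
        obtain ⟨g, rfl⟩ := hfs g
        rw [← map_mul, ← map_mul, mem_center_iff.mp (hN1c hx) g])
      (map_mono hNN1)
      (by
        rintro _ ⟨x, hx, rfl⟩
        rw [← map_pow, ← MonoidHom.mem_ker, hker]
        rcases hN1m x hx with h | h
        · rw [(hNm x).mp h]; exact E.one_mem
        · have h1 : x = (x * z⁻¹) * z := by group
          have h2 : x ^ 2 = e := by
            rw [h1, hmul, (hNm _).mp h, ← he, one_mul]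
            have h3 := mem_center_iff.mp hz (x * z⁻¹)
            have h4 : z * (x * z⁻¹) * z⁻¹ * (x * z⁻¹)⁻¹ = 1 := by
              rw [← h3]; group
            rw [h4, mul_one]
          rw [h2]; exact mem_zpowers e)
      (by
        intro x
        obtain ⟨x, rfl⟩ := hfs x
        rw [← map_pow]
        exact ⟨x ^ 2, hsqN x, rfl⟩)
      (by
        rw [hidx1]
        have hm : 0 < Nat.card (N.map f) := Nat.card_pos
        rw [← hcardN1, hGN, ← hNf] at hN1idx
        have h2 : 0 < Nat.card (N.map f) ^ 2 := by positivity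
        have h3 : N1.index * (4 * Nat.card (N.map f)) = (2 * Nat.card (N.map f) ^ 2) *
            (4 * Nat.card (N.map f)) := by
          nlinarith [hN1idx]
        have h4 := Nat.eq_of_mul_eq_mul_right (by positivity) h3
        rw [h4]
        omega)
    obtain ⟨x, rfl⟩ := hfs x
    apply hx1
    refine ⟨x, ?_, rfl⟩
    have hx3 : x ^ 2 ∈ E := by
      rw [← hker, MonoidHom.mem_ker, map_pow]; exact hx2
    rcases hEmem _ hx3 with h | h
    · exact hNN1 h
    · have h1 : x * z⁻¹ ∈ N := by
        rw [hNm, hmul, h]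
        have hz' := mem_center_iff.mp ((center G).inv_mem hz) x
        have h4 : z⁻¹ * x * (z⁻¹)⁻¹ * x⁻¹ = 1 := by
          rw [← hz']; group
        rw [h4, mul_one, inv_pow, ← he, mul_inv_cancel]
      have h2 : x = (x * z⁻¹) * z := by group
      rw [h2]
      exact N1.mul_mem (hNN1 h1) ((le_sup_right : zpowers z ≤ N1) (mem_zpowers z))
  refine ⟨hG, ?_, ?_⟩
  · rw [hb2]
    apply le_antisymm
    · exact Cfsg.Agent.H18.frattini_le_of_elementary (p := 2) N hcN hsqN
    · rw [← hb1]
      exact Cfsg.Agent.H2.commutator_le_frattini hG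
  · rw [hb1, hb2]

end Cfsg.Agent.S3773
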