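import Cfsg.Statements.S3774

set_option autoImplicit false
set_option linter.all false
open Cfsg

namespace Cfsg.Agent.S3774

section aux
open Subgroup
open scoped Pointwise commutatorElement

theorem aux {G : Type*} [Group G] [Finite G] [Nontrivial G] (hG : IsPGroup 2 G) (htrans : ∀ x y : G, x ≠ 1 → x ^ 2 = 1 → y ≠ 1 → y ^ 2 = 1 → ∃ a : MulAut G, a x = y) : (∀ x : G, x ^ 2 = 1 → x ∈ Subgroup.center G) ∧ ∃ m : ℕ, Nat.card G = Nat.card {z : G // z ^ 2 = 1} ^ m := by
  classical
  haveI : Fintype G := Fintype.ofFinite G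
  -- an involution in the centre
  have h0 : ∃ z : G, z ≠ 1 ∧ z ^ 2 = 1 ∧ z ∈ center G := by
    have h1 : center G ≠ ⊥ := by
      haveI : Nontrivial (center G) := hG.center_nontrivial
      exact (nontrivial_iff_ne_bot _).mp inferInstance
    have h2 : 2 ∣ Nat.card (center G) := by
      obtain ⟨n, hn⟩ := IsPGroup.iff_card.mp (hG.to_subgroup (center G))
      rw [hn]
      apply dvd_pow_self
      rintro rfl
      rw [pow_zero] at hn
      exact h1 (Subgroup.card_eq_one.mp hn)
    obtain ⟨x, hx⟩ := exists_prime_orderOf_dvd_card' 2 h2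
    refine ⟨x, ?_, ?_, x.2⟩
    · intro h
      have : x = 1 := Subtype.ext h
      rw [this, orderOf_one] at hx
      norm_num at hx
    · have := pow_orderOf_eq_one x
      rw [hx] at this
      exact congrArg Subtype.val this
  obtain ⟨z, hz1, hz2, hzc⟩ := h0
  have hcen : ∀ x : G, x ^ 2 = 1 → x ∈ center G := by
    intro x hx
    by_cases hx1 : x = 1
    · rw [hx1]; exact one_mem _
    obtain ⟨a, ha⟩ := htrans z x hz1 hz2 hx1 hx
    rw [← ha, mem_center_iff]
    intro g
    have h1 := mem_center_iff.mp hzc (a.symm g)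
    have h2 := congrArg a h1
    rw [map_mul, map_mul, MulEquiv.apply_symm_apply] at h2
    exact h2
  refine ⟨hcen, ?_⟩
  let N : Subgroup G :=
    { carrier := {x | x ^ 2 = 1}
      mul_mem' := by
        intro x y hx hy
        show (x * y) ^ 2 = 1
        have h1 : Commute x y := (mem_center_iff.mp (hcen y hy) x)
        rw [h1.mul_pow, show x ^ 2 = 1 from hx, show y ^ 2 = 1 from hy, one_mul]
      one_mem' := one_pow 2
      inv_mem' := by
        intro x hx
        show x⁻¹ ^ 2 = 1
        rw [inv_pow, show x ^ 2 = 1 from hx, inv_one] }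
  have hN : Nat.card {z : G // z ^ 2 = 1} = Nat.card N := rfl
  obtain ⟨k, hk⟩ := IsPGroup.iff_card.mp (hG.to_subgroup N)
  obtain ⟨n, hn⟩ := IsPGroup.iff_card.mp hG
  -- the involution attached to an element
  let ι : G → G := fun x => x ^ (orderOf x / 2)
  have hι : ∀ x : G, x ≠ 1 → ι x ≠ 1 ∧ ι x ^ 2 = 1 := by
    intro x hx
    have h2 : 2 ∣ orderOf x := by
      obtain ⟨m, hm⟩ := (IsPGroup.iff_orderOf.mp hG) x
      rw [hm]
      apply dvd_pow_self
      rintro rfl
      rw [pow_zero, orderOf_eq_one_iff] at hm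
      exact hx hm
    obtain ⟨m, hm⟩ := h2
    have hm0 : 0 < m := by
      rcases Nat.eq_zero_or_pos m with h | h
      · rw [h] at hm; exact absurd hm (orderOf_pos x).ne'
      · exact h
    have h3 : orderOf x / 2 = m := by rw [hm]; simp
    show x ^ (orderOf x / 2) ≠ 1 ∧ (x ^ (orderOf x / 2)) ^ 2 = 1
    rw [h3]
    constructor
    · intro h
      have := Nat.le_of_dvd hm0 (orderOf_dvd_of_pow_eq_one h)
      omega
    · rw [← pow_mul, mul_comm, ← hm, pow_orderOf_eq_one]
  let Ω : Finset G := Finset.univ.filter fun x => x ≠ 1 ∧ x ^ 2 = 1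
  let T : Finset G := Finset.univ.filter fun x => x ≠ 1
  have hcard : T.card = ∑ w ∈ Ω, (T.filter fun x => ι x = w).card := by
    apply Finset.card_eq_sum_card_fiberwise
    intro x hx
    have hx' : x ≠ 1 := by simpa [T] using hx
    have := hι x hx'
    simp only [Ω, Finset.coe_filter, Finset.mem_univ, true_and, Set.mem_setOf_eq]
    exact this
  have hfib : ∀ w ∈ Ω, (T.filter fun x => ι x = w).card = (T.filter fun x => ι x = z).card := by
    intro w hw
    simp only [Ω, Finset.mem_filter, Finset.mem_univ, true_and] at hw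
    obtain ⟨a, ha⟩ := htrans z w hz1 hz2 hw.1 hw.2
    symm
    apply Finset.card_bij (fun x _ => a x)
    · intro x hx
      simp only [T, Finset.mem_filter, Finset.mem_univ, true_and] at hx ⊢
      refine ⟨fun h => hx.1 ?_, ?_⟩
      · rwa [map_eq_one_iff a a.injective] at h
      · show (a x) ^ (orderOf (a x) / 2) = w
        rw [MulEquiv.orderOf_eq, ← map_pow]
        rw [← ha]
        exact congrArg a hx.2
    · intro x _ y _ h; exact a.injective h
    · intro y hy
      simp only [T, Finset.mem_filter, Finset.mem_univ, true_and] at hy ⊢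
      refine ⟨a.symm y, ⟨fun h => hy.1 ?_, ?_⟩, a.apply_symm_apply y⟩
      · rwa [map_eq_one_iff a.symm a.symm.injective] at h
      · show (a.symm y) ^ (orderOf (a.symm y) / 2) = z
        rw [MulEquiv.orderOf_eq, ← map_pow]
        have : y ^ (orderOf y / 2) = w := hy.2
        rw [this, ← ha, MulEquiv.symm_apply_apply]
  rw [Finset.sum_congr rfl hfib, Finset.sum_const, smul_eq_mul] at hcard
  have hT : T.card = 2 ^ n - 1 := by
    have : T = Finset.univ.erase 1 := by ext x; simp [T]
    rw [this, Finset.card_erase_of_mem (Finset.mem_univ _), Finset.card_univ,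
      ← Nat.card_eq_fintype_card, hn]
  have hΩ : Ω.card = 2 ^ k - 1 := by
    have h1 : Ω = (Finset.univ.filter fun x : G => x ^ 2 = 1).erase 1 := by
      ext x; simp [Ω]
    rw [h1, Finset.card_erase_of_mem (by simp), ← Fintype.card_subtype, ← Nat.card_eq_fintype_card,
      hN, hk]
  rw [hT, hΩ] at hcard
  have h5 : Nat.gcd (2 ^ k - 1) (2 ^ n - 1) = 2 ^ k - 1 := Nat.gcd_eq_left ⟨_, hcard⟩
  rw [Nat.pow_sub_one_gcd_pow_sub_one] at h5
  have h6 : 2 ^ Nat.gcd k n = 2 ^ k := by
    have a1 : 1 ≤ 2 ^ Nat.gcd k n := Nat.one_le_two_pow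
    have a2 : 1 ≤ 2 ^ k := Nat.one_le_two_pow
    omega
  have h7 : Nat.gcd k n = k := Nat.pow_right_injective le_rfl h6
  obtain ⟨m, hm⟩ := Nat.gcd_eq_left_iff_dvd.mp h7
  refine ⟨m, ?_⟩
  rw [hN, hk, hn, hm, pow_mul]

end aux

/-- Let G be a nontrivial finite 2-group whose automorphism group permutes the involutions of G transitively. Then every involution of G is central, so that the involutions together with 1 form the subgroup Ω₁(Z(G)), and if this subgroup has order q then |G| is a power of q. -/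
theorem result {G : Type*} [Group G] [Finite G] [Nontrivial G] (hG : IsPGroup 2 G) (htrans : ∀ x y : G, x ≠ 1 → x ^ 2 = 1 → y ≠ 1 → y ^ 2 = 1 → ∃ a : MulAut G, a x = y) : (∀ x : G, x ^ 2 = 1 → x ∈ Subgroup.center G) ∧ ∃ m : ℕ, Nat.card G = Nat.card {z : G // z ^ 2 = 1} ^ m := by
  exact aux hG htrans

end Cfsg.Agent.S3774
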