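import Cfsg.Statements.S3775

set_option autoImplicit false
set_option linter.all false
open Cfsg

namespace Cfsg.Agent.S3775

section

variable {A : Type*} [CommGroup A] [Finite A]

def Inv (X : Subgroup (MulAut A)) (B : Subgroup A) : Prop := ∀ x ∈ X, ∀ b ∈ B, x b ∈ B

omit [Finite A] in
theorem inv_iff {X : Subgroup (MulAut A)} {B : Subgroup A} :
    Inv X B ↔ ∀ x ∈ X, B.map x.toMonoidHom = B := by
  constructor
  · intro h x hx
    apply le_antisymm
    · rintro _ ⟨b, hb, rfl⟩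
      exact h x hx b hb
    · intro b hb
      refine ⟨x⁻¹ b, h x⁻¹ (inv_mem hx) b hb, ?_⟩
      show x (x⁻¹ b) = b
      exact MulAut.apply_inv_self A x b
  · intro h x hx b hb
    rw [← h x hx]
    exact ⟨b, hb, rfl⟩

omit [Finite A] in
theorem mem_of_coprime {C : Subgroup A} {k p : ℕ} (hc : k.Coprime p) {n : A} (h1 : n ^ k ∈ C) (h2 : n ^ p ∈ C) :
    n ∈ C := by
  have h := Nat.gcd_eq_gcd_ab k p
  rw [hc.gcd_eq_one] at h
  have e : n = (n ^ k) ^ (Nat.gcdA k p) * (n ^ p) ^ (Nat.gcdB k p) := by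
    rw [← zpow_natCast, ← zpow_natCast, ← zpow_mul, ← zpow_mul, ← zpow_add, ← h]
    simp
  rw [e]
  exact mul_mem (zpow_mem h1 _) (zpow_mem h2 _)

/-- non-equivariant complement in an elementary abelian section -/
theorem sec0 {p : ℕ} (hp : p.Prime) {C U N : Subgroup A} (hCU : C ≤ U) (hUN : U ≤ N)
    (hpw : ∀ n ∈ N, n ^ p ∈ C) : ∃ W : Subgroup A, C ≤ W ∧ W ≤ N ∧ W ⊓ U ≤ C ∧ N ≤ W ⊔ U := by
  obtain ⟨W, hW⟩ := (Set.toFinite {W : Subgroup A | C ≤ W ∧ W ≤ N ∧ W ⊓ U ≤ C}).exists_maximal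
    ⟨C, le_refl _, hCU.trans hUN, inf_le_left⟩
  obtain ⟨h1, h2, h3⟩ := hW.1
  refine ⟨W, h1, h2, h3, ?_⟩
  intro n hn
  by_contra hcon
  have hW' : W ⊔ Subgroup.zpowers n ≤ W := by
    refine hW.2 ⟨h1.trans le_sup_left, sup_le h2 (by rwa [Subgroup.zpowers_le]), ?_⟩ le_sup_left
    rintro z ⟨hz1, hz2⟩
    obtain ⟨w, hw, v, hv, rfl⟩ := Subgroup.mem_sup.1 hz1
    obtain ⟨k, rfl⟩ := Subgroup.mem_zpowers_iff.1 hv
    by_cases hk : (p : ℤ) ∣ k
    · obtain ⟨j, rfl⟩ := hk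
      have h4 : n ^ ((p : ℤ) * j) ∈ C := by
        rw [zpow_mul, zpow_natCast]
        exact zpow_mem (hpw n hn) _
      exact h3 ⟨mul_mem hw (h1 h4), hz2⟩
    · exfalso
      apply hcon
      have h5 : n ^ k ∈ W ⊔ U := by
        have : n ^ k = w⁻¹ * (w * n ^ k) := by group
        rw [this]
        exact mul_mem (Subgroup.mem_sup_left (inv_mem hw)) (Subgroup.mem_sup_right hz2)
      have h6 : n ^ p ∈ W ⊔ U := Subgroup.mem_sup_left (h1 (hpw n hn))
      have h7 : IsCoprime k (p : ℤ) := by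
        rw [Int.isCoprime_iff_gcd_eq_one, Int.gcd_comm]
        rw [← Int.isCoprime_iff_gcd_eq_one]
        exact (Nat.prime_iff_prime_int.1 hp).coprime_iff_not_dvd.2 hk
      obtain ⟨a, b, hab⟩ := h7
      have e : n = (n ^ k) ^ a * (n ^ p) ^ b := by
        rw [← zpow_natCast n p, ← zpow_mul, ← zpow_mul, ← zpow_add, mul_comm k a, mul_comm (p : ℤ) b, hab, zpow_one]
      rw [e]
      exact mul_mem (zpow_mem h5 _) (zpow_mem h6 _)
  exact hcon (Subgroup.mem_sup_left (hW' (Subgroup.mem_sup_right (Subgroup.mem_zpowers n))))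

/-- equivariant complement in an elementary abelian section -/
theorem sec {X : Subgroup (MulAut A)} {p : ℕ} (hp : p.Prime) (hX : (Nat.card X).Coprime p) {C U N : Subgroup A}
    (hC : Inv X C) (hU : Inv X U) (hN : Inv X N) (hCU : C ≤ U) (hUN : U ≤ N)
    (hpw : ∀ n ∈ N, n ^ p ∈ C) :
    ∃ C₁ : Subgroup A, Inv X C₁ ∧ C ≤ C₁ ∧ C₁ ≤ N ∧ C₁ ⊓ U ≤ C ∧ N ≤ C₁ ⊔ U := by
  classical
  haveI : Finite (MulAut A) := Finite.of_injective (fun f : MulAut A => (f : A → A)) DFunLike.coe_injective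
  haveI : Fintype X := Fintype.ofFinite X
  obtain ⟨W, w1, w2, w3, w4⟩ := sec0 hp hCU hUN hpw
  have hch : ∀ n : A, ∃ u : A, n ∈ N → u ∈ U ∧ n * u⁻¹ ∈ W := by
    intro n
    by_cases hn : n ∈ N
    · obtain ⟨w, hw, u, hu, h⟩ := Subgroup.mem_sup.1 (w4 hn)
      refine ⟨u, fun _ => ⟨hu, ?_⟩⟩
      rw [← h, mul_inv_cancel_right]; exact hw
    · exact ⟨1, fun h => absurd h hn⟩
  choose u hu using hch
  have hu1 : ∀ n ∈ N, u n ∈ U := fun n hn => (hu n hn).1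
  have hu2 : ∀ n ∈ N, n * (u n)⁻¹ ∈ W := fun n hn => (hu n hn).2
  have key : ∀ n ∈ N, ∀ m ∈ N, u (n * m) * (u n * u m)⁻¹ ∈ C := by
    intro n hn m hm
    apply w3
    refine ⟨?_, U.mul_mem (hu1 _ (mul_mem hn hm)) (U.inv_mem (mul_mem (hu1 _ hn) (hu1 _ hm)))⟩
    have e : u (n * m) * (u n * u m)⁻¹ = (n * m * (u (n * m))⁻¹)⁻¹ * (n * (u n)⁻¹) * (m * (u m)⁻¹) := by
      generalize u (n * m) = x
      generalize u n = y
      generalize u m = z
      have : (n * m * x⁻¹)⁻¹ * (n * y⁻¹) * (m * z⁻¹) = (n⁻¹ * n) * (m⁻¹ * m) * (x * (y * z)⁻¹) := by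
        simp only [mul_inv, inv_inv, mul_assoc, mul_left_comm, mul_comm]
      rw [this]; simp
    rw [e]
    exact W.mul_mem (W.mul_mem (W.inv_mem (hu2 _ (mul_mem hn hm))) (hu2 _ hn)) (hu2 _ hm)
  have keyU : ∀ v ∈ U, u v * v⁻¹ ∈ C := by
    intro v hv
    apply w3
    refine ⟨?_, U.mul_mem (hu1 _ (hUN hv)) (U.inv_mem hv)⟩
    have e : u v * v⁻¹ = (v * (u v)⁻¹)⁻¹ := by rw [mul_inv, inv_inv, mul_comm]
    rw [e]
    exact W.inv_mem (hu2 _ (hUN hv))
  let t : A → A := fun n => ∏ x : X, (x : MulAut A) (u ((x : MulAut A)⁻¹ n))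
  have ht : ∀ n, t n = ∏ x : X, (x : MulAut A) (u ((x : MulAut A)⁻¹ n)) := fun n => rfl
  have htU : ∀ n ∈ N, t n ∈ U := fun n hn =>
    Subgroup.prod_mem _ fun x _ => hU x x.2 _ (hu1 _ (hN _ (inv_mem x.2) _ hn))
  have tmul : ∀ n ∈ N, ∀ m ∈ N, t (n * m) * (t n * t m)⁻¹ ∈ C := by
    intro n hn m hm
    rw [ht, ht, ht, ← Finset.prod_mul_distrib, ← Finset.prod_inv_distrib, ← Finset.prod_mul_distrib]
    apply Subgroup.prod_mem
    intro x _
    have h := hC x x.2 _ (key _ (hN _ (inv_mem x.2) _ hn) _ (hN _ (inv_mem x.2) _ hm))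
    rwa [map_mul, map_inv, map_mul, ← map_mul ((x : MulAut A)⁻¹)] at h
  have tU : ∀ v ∈ U, t v * (v ^ Nat.card X)⁻¹ ∈ C := by
    intro v hv
    have e : v ^ Nat.card X = ∏ x : X, v := by
      rw [Finset.prod_const, Finset.card_univ, Nat.card_eq_fintype_card]
    rw [ht, e, ← Finset.prod_inv_distrib, ← Finset.prod_mul_distrib]
    apply Subgroup.prod_mem
    intro x _
    have h := hC x x.2 _ (keyU _ (hU _ (inv_mem x.2) _ hv))
    rwa [map_mul, map_inv, MulAut.apply_inv_self] at h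
  have tinv : ∀ y ∈ X, ∀ n, t (y n) = y (t n) := by
    intro y hy n
    rw [ht, ht, map_prod]
    refine Fintype.prod_equiv (Equiv.mulLeft (⟨y, hy⟩ : X)⁻¹) _ _ (fun x => ?_)
    have e1 : (Equiv.mulLeft (⟨y, hy⟩ : X)⁻¹) x = (⟨y, hy⟩ : X)⁻¹ * x := rfl
    rw [e1]
    simp only [Subgroup.coe_mul, Subgroup.coe_inv, mul_inv_rev, inv_inv, MulAut.mul_apply, MulAut.apply_inv_self]
  have t1 : t 1 ∈ C := by
    have := tU 1 (one_mem _)
    simpa using this
  let C₁ : Subgroup A :=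
    { carrier := {n | n ∈ N ∧ t n ∈ C}
      one_mem' := ⟨one_mem _, t1⟩
      mul_mem' := by
        rintro a b ⟨ha, ha'⟩ ⟨hb, hb'⟩
        refine ⟨mul_mem ha hb, ?_⟩
        have := mul_mem (tmul a ha b hb) (mul_mem ha' hb')
        rwa [inv_mul_cancel_right] at this
      inv_mem' := by
        rintro a ⟨ha, ha'⟩
        refine ⟨inv_mem ha, ?_⟩
        have h1 := tmul a ha a⁻¹ (inv_mem ha)
        rw [mul_inv_cancel] at h1
        have h2 := mul_mem (inv_mem h1) t1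
        rw [mul_inv, inv_inv, mul_comm ((t 1)⁻¹), mul_assoc, inv_mul_cancel, mul_one] at h2
        have h3 := mul_mem (inv_mem ha') h2
        rwa [inv_mul_cancel_left] at h3 }
  have hC₁ : ∀ n, n ∈ C₁ ↔ n ∈ N ∧ t n ∈ C := fun n => Iff.rfl
  refine ⟨C₁, ?_, ?_, ?_, ?_, ?_⟩
  · intro y hy n hn
    rw [hC₁] at hn ⊢
    refine ⟨hN y hy n hn.1, ?_⟩
    rw [tinv y hy]
    exact hC y hy _ hn.2
  · intro c hc
    rw [hC₁]
    refine ⟨hUN (hCU hc), ?_⟩
    have := mul_mem (tU c (hCU hc)) (pow_mem hc (Nat.card X))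
    rwa [inv_mul_cancel_right] at this
  · exact fun n hn => hn.1
  · rintro n ⟨hn, hnU⟩
    have hn := (hC₁ n).1 hn
    refine mem_of_coprime hX ?_ (hpw n hn.1)
    have := mul_mem (inv_mem (tU n hnU)) hn.2
    rwa [mul_inv, inv_inv, mul_comm ((t n)⁻¹), mul_assoc, inv_mul_cancel, mul_one] at this
  · intro n hn
    have h := Nat.gcd_eq_gcd_ab (Nat.card X) p
    rw [hX.gcd_eq_one] at h
    set a := Nat.gcdA (Nat.card X) p
    set b := Nat.gcdB (Nat.card X) p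
    set v := t n with hv
    have hvU : v ∈ U := htU n hn
    have hu1U : v ^ a ∈ U := zpow_mem hvU _
    have e : n = n * (v ^ a)⁻¹ * v ^ a := by rw [inv_mul_cancel_right]
    rw [e]
    refine mul_mem (Subgroup.mem_sup_left ?_) (Subgroup.mem_sup_right hu1U)
    rw [hC₁]
    refine ⟨mul_mem hn (inv_mem (hUN hu1U)), ?_⟩
    have h1 := tmul n hn _ (inv_mem (hUN hu1U))
    have h2 := tU _ (inv_mem hu1U)
    have h3 : v * ((v ^ a)⁻¹) ^ Nat.card X ∈ C := by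
      have e2 : v * ((v ^ a)⁻¹) ^ Nat.card X = (v ^ p) ^ b := by
        rw [← zpow_natCast, ← zpow_neg, ← zpow_mul, ← zpow_natCast v p, ← zpow_mul, ← zpow_one_add]
        congr 1
        push_cast at h
        rw [h]; ring
      rw [e2]
      exact zpow_mem (hpw v (hUN hvU)) _
    have h4 := mul_mem (mul_mem h1 h2) h3
    rw [← hv] at h4
    have e3 : t (n * (v ^ a)⁻¹) * (v * t (v ^ a)⁻¹)⁻¹ * (t (v ^ a)⁻¹ * ((v ^ a)⁻¹ ^ Nat.card X)⁻¹) *
        (v * (v ^ a)⁻¹ ^ Nat.card X) = t (n * (v ^ a)⁻¹) := by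
      generalize t (n * (v ^ a)⁻¹) = x
      generalize t (v ^ a)⁻¹ = y
      generalize (v ^ a)⁻¹ ^ Nat.card X = z
      rw [mul_inv]
      have : x * (v⁻¹ * y⁻¹) * (y * z⁻¹) * (v * z) = x * (v⁻¹ * v) * (y⁻¹ * y) * (z⁻¹ * z) := by
        simp only [mul_assoc, mul_left_comm, mul_comm]
      rw [this]; simp
    rwa [e3] at h4

theorem main {X : Subgroup (MulAut A)} {p : ℕ} (hp : p.Prime) (hA : IsPGroup p A) (hX : (Nat.card X).Coprime p)
    (hind : ∀ B C : Subgroup A, Inv X B → Inv X C → B ⊓ C = ⊥ → B ⊔ C = ⊤ → B = ⊥ ∨ C = ⊥)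
    (B' : Subgroup A) (hB' : Inv X B') (hB'p : ∀ b ∈ B', b ^ p = 1) :
    B' = ⊥ ∨ ∀ a : A, a ∈ B' ↔ a ^ p = 1 := by
  classical
  haveI : Fact p.Prime := ⟨hp⟩
  haveI : Finite (Subgroup A) := inferInstance
  rcases subsingleton_or_nontrivial A with hss | hnt
  · left
    exact Subsingleton.elim _ _
  -- the exponent
  have hex : ∃ e : ℕ, ∀ a : A, a ^ p ^ e = 1 := by
    obtain ⟨n, hn⟩ := IsPGroup.iff_card.1 hA
    exact ⟨n, fun a => by rw [← hn]; exact pow_card_eq_one'⟩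
  obtain ⟨f, hf1, a₀, hf2⟩ : ∃ f : ℕ, (∀ a : A, a ^ p ^ (f + 1) = 1) ∧ ∃ a : A, a ^ p ^ f ≠ 1 := by
    have h0 : Nat.find hex ≠ 0 := by
      intro h0
      have := Nat.find_spec hex
      rw [h0] at this
      obtain ⟨a, ha⟩ := exists_ne (1 : A)
      exact ha (by simpa using this a)
    obtain ⟨f, hf⟩ := Nat.exists_eq_succ_of_ne_zero h0
    refine ⟨f, ?_, ?_⟩
    · have := Nat.find_spec hex
      rwa [hf] at this
    · have := Nat.find_min hex (m := f) (by omega)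
      push Not at this
      exact this
  let T : A →* A := powMonoidHom (p ^ f)
  have hT : ∀ a, T a = a ^ p ^ f := fun a => rfl
  let P : A →* A := powMonoidHom p
  have hP : ∀ a, P a = a ^ p := fun a => rfl
  have inv_map : ∀ (B : Subgroup A) (n : ℕ), Inv X B → Inv X (B.map (powMonoidHom n : A →* A)) := by
    rintro B n hB x hx _ ⟨b, hb, rfl⟩
    exact ⟨x b, hB x hx b hb, by simp⟩
  have inv_comap : ∀ (B : Subgroup A) (n : ℕ), Inv X B → Inv X (B.comap (powMonoidHom n : A →* A)) := by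
    intro B n hB x hx b hb
    rw [Subgroup.mem_comap, powMonoidHom_apply] at hb ⊢
    rw [← map_pow]
    exact hB x hx _ hb
  have inv_inf : ∀ B C : Subgroup A, Inv X B → Inv X C → Inv X (B ⊓ C) :=
    fun B C hB hC x hx b hb => ⟨hB x hx b hb.1, hC x hx b hb.2⟩
  have inv_sup : ∀ B C : Subgroup A, Inv X B → Inv X C → Inv X (B ⊔ C) := by
    intro B C hB hC x hx b hb
    obtain ⟨y, hy, z, hz, rfl⟩ := Subgroup.mem_sup.1 hb
    rw [map_mul]
    exact mul_mem (Subgroup.mem_sup_left (hB x hx y hy)) (Subgroup.mem_sup_right (hC x hx z hz))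
  have inv_top : Inv X ⊤ := fun x hx b hb => Subgroup.mem_top _
  have inv_bot : Inv X ⊥ := fun x hx b hb => by
    rw [Subgroup.mem_bot] at hb ⊢
    rw [hb, map_one]
  -- M
  obtain ⟨M, hM⟩ := (Set.toFinite {M : Subgroup A | Inv X M ∧ M ≤ (⊤ : Subgroup A).map T ∧ M ≠ ⊥}).exists_minimal
    ⟨(⊤ : Subgroup A).map T, inv_map _ _ inv_top, le_refl _, by
      intro h
      have : T a₀ ∈ (⊤ : Subgroup A).map T := ⟨a₀, Subgroup.mem_top _, rfl⟩
      rw [h, Subgroup.mem_bot] at this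
      exact hf2 this⟩
  obtain ⟨hM1, hM2, hM3⟩ := hM.1
  have hMp : ∀ m ∈ M, m ^ p = 1 := by
    intro m hm
    obtain ⟨a, _, rfl⟩ := hM2 hm
    rw [hT, ← pow_mul, ← pow_succ]
    exact hf1 a
  -- B
  obtain ⟨B, hB⟩ := (Set.toFinite {B : Subgroup A | Inv X B ∧ M ≤ B.map T}).exists_minimal
    ⟨⊤, inv_top, hM2⟩
  obtain ⟨hB1, hB2⟩ := hB.1
  have hA1 : ∀ b ∈ B, b ^ p ^ f ∈ M := by
    have h1 : B ≤ B ⊓ M.comap T := by
      refine hB.2 ⟨inv_inf _ _ hB1 (inv_comap _ _ hM1), ?_⟩ inf_le_left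
      intro m hm
      obtain ⟨b, hb, h⟩ := hB2 hm
      exact ⟨b, ⟨hb, by show T b ∈ M; rw [h]; exact hm⟩, h⟩
    intro b hb
    exact (h1 hb).2
  have hA2 : ∀ b ∈ B, b ^ p ^ f = 1 → ∃ c ∈ B, c ^ p = b := by
    have hU : Inv X (B.map P ⊔ (B ⊓ T.ker)) := by
      refine inv_sup _ _ (inv_map _ _ hB1) (inv_inf _ _ hB1 ?_)
      have := inv_comap ⊥ (p ^ f) inv_bot
      exact this
    have hPB : B.map P ≤ B := by
      rintro _ ⟨b, hb, rfl⟩
      exact pow_mem hb _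
    obtain ⟨C₁, c1, c2, c3, c4, c5⟩ := sec hp hX (inv_map _ p hB1) hU hB1 le_sup_left
      (sup_le hPB inf_le_left) (fun n hn => ⟨n, hn, rfl⟩)
    have h1 : B ≤ C₁ := by
      refine hB.2 ⟨c1, ?_⟩ c3
      intro m hm
      obtain ⟨b, hb, h⟩ := hB2 hm
      obtain ⟨y, hy, z, hz, hyz⟩ := Subgroup.mem_sup.1 (c5 hb)
      obtain ⟨z1, hz1, z2, hz2, hz12⟩ := Subgroup.mem_sup.1 hz
      refine ⟨y * z1, mul_mem hy (c2 hz1), ?_⟩
      rw [← h, ← hyz, ← hz12, ← mul_assoc, map_mul T (y * z1) z2, MonoidHom.mem_ker.1 hz2.2, mul_one]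
    intro b hb hb1
    have h2 : b ∈ B.map P := c4 ⟨h1 hb, Subgroup.mem_sup_right ⟨hb, hb1⟩⟩
    obtain ⟨c, hc, h⟩ := h2
    exact ⟨c, hc, h⟩
  have hA3 : ∀ b ∈ B, b ^ p = 1 → b ∈ M := by
    intro b hb hb1
    have key : ∀ j ≤ f, ∃ c ∈ B, c ^ p ^ j = b := by
      intro j
      induction j with
      | zero => intro _; exact ⟨b, hb, by simp⟩
      | succ j ih =>
        intro hj
        obtain ⟨c, hc, h⟩ := ih (by omega)
        have h1 : c ^ p ^ f = 1 := by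
          have : p ^ f = p ^ j * p * p ^ (f - (j + 1)) := by
            rw [← pow_succ, ← pow_add]; congr 1; omega
          rw [this, pow_mul, pow_mul, h, hb1, one_pow]
        obtain ⟨d, hd, h2⟩ := hA2 c hc h1
        refine ⟨d, hd, ?_⟩
        rw [pow_succ', pow_mul, h2, h]
    obtain ⟨c, hc, h⟩ := key f le_rfl
    rw [← h]
    exact hA1 c hc
  have hBne : B ≠ ⊥ := by
    intro h
    apply hM3
    rw [eq_bot_iff]
    intro m hm
    obtain ⟨b, hb, hbm⟩ := hB2 hm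
    rw [h] at hb
    have : b = 1 := Subgroup.mem_bot.1 hb
    rw [this, map_one] at hbm
    rw [← hbm]; exact one_mem _
  -- C
  obtain ⟨C, hC⟩ := (Set.toFinite {C : Subgroup A | Inv X C ∧ C ⊓ B ≤ ⊥}).exists_maximal
    ⟨⊥, inv_bot, inf_le_left⟩
  obtain ⟨hC1, hC2⟩ := hC.1
  have hCB : C ⊔ B = ⊤ := by
    obtain ⟨C₁, c1, c2, c3, c4, c5⟩ := sec hp hX (N := C.comap P) (U := (C.comap P ⊓ B) ⊔ C) hC1
      (inv_sup _ _ (inv_inf _ _ (inv_comap _ _ hC1) hB1) hC1) (inv_comap _ _ hC1) le_sup_right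
      (sup_le inf_le_left (fun c hc => by
        show c ^ p ∈ C
        exact pow_mem hc _)) (fun n hn => hn)
    have h1 : C₁ ≤ C := by
      refine hC.2 ⟨c1, ?_⟩ c2
      rintro z ⟨hz1, hz2⟩
      exact hC2 ⟨c4 ⟨hz1, Subgroup.mem_sup_left ⟨c3 hz1, hz2⟩⟩, hz2⟩
    have h2 : C.comap P ≤ C ⊔ B :=
      c5.trans (sup_le (h1.trans le_sup_left) (sup_le (inf_le_right.trans le_sup_right) le_sup_left))
    have h3 : ∀ n : A, n ^ p ∈ C ⊔ B → n ∈ C ⊔ B := by
      intro n hn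
      obtain ⟨c, hc, b, hb, h⟩ := Subgroup.mem_sup.1 hn
      have h4 : b ^ p ^ f = 1 := by
        have h5 : c ^ p ^ f * b ^ p ^ f = 1 := by
          rw [← mul_pow, h, ← pow_mul, ← pow_succ']
          exact hf1 n
        have h6 : b ^ p ^ f ∈ C ⊓ B := by
          refine ⟨?_, pow_mem hb _⟩
          rw [← inv_eq_of_mul_eq_one_right h5]
          exact C.inv_mem (pow_mem hc _)
        exact Subgroup.mem_bot.1 (hC2 h6)
      obtain ⟨b₁, hb₁, hb₁'⟩ := hA2 b hb h4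
      have h7 : n * b₁⁻¹ ∈ C.comap P := by
        show (n * b₁⁻¹) ^ p ∈ C
        rw [mul_pow, inv_pow, hb₁', ← h, mul_inv_cancel_right]
        exact hc
      have h8 := mul_mem (h2 h7) (Subgroup.mem_sup_right (S := C) hb₁)
      rwa [inv_mul_cancel_right] at h8
    rw [eq_top_iff]
    intro a _
    have h4 : ∀ j ≤ f + 1, a ^ p ^ (f + 1 - j) ∈ C ⊔ B := by
      intro j
      induction j with
      | zero => intro _; rw [Nat.sub_zero, hf1]; exact one_mem _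
      | succ j ih =>
        intro hj
        apply h3
        rw [← pow_mul, ← pow_succ]
        have : f + 1 - (j + 1) + 1 = f + 1 - j := by omega
        rw [this]
        exact ih (by omega)
    have := h4 (f + 1) le_rfl
    simpa using this
  have hCbot : C = ⊥ := by
    rcases hind C B hC1 hB1 (le_bot_iff.1 hC2) hCB with h | h
    · exact h
    · exact absurd h hBne
  have hBtop : B = ⊤ := by rw [hCbot, bot_sup_eq] at hCB; exact hCB
  have hO : ∀ a : A, a ^ p = 1 → a ∈ M := fun a ha => hA3 a (by rw [hBtop]; exact Subgroup.mem_top _) ha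
  by_cases hb : B' = ⊥
  · left; exact hb
  · right
    have h1 : B' ≤ M := fun b hb => hO b (hB'p b hb)
    have h2 : M ≤ B' := hM.2 ⟨hB', h1.trans hM2, hb⟩ h1
    intro a
    exact ⟨hB'p a, fun h => h2 (hO a h)⟩

end

/-- Let A be a finite abelian p-group and X a group of automorphisms of A of order prime to p. Call a subgroup of A invariant when every element of X maps it onto itself. Then the following are equivalent: (i) A is not the direct product of two nontrivial invariant subgroups; (ii) every invariant subgroup of A is one of the subgroups Ω_i(A) = {a : a^(p^i) = 1}; (iii) the subgroup Ω₁(A) of elements of order dividing p has no invariant subgroups other than 1 and itself. -/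
theorem result {A : Type*} [CommGroup A] [Finite A] {p : ℕ} [Fact p.Prime] (hA : IsPGroup p A) (X : Subgroup (MulAut A)) (hX : (Nat.card X).Coprime p) : ((¬ ∃ B C : Subgroup A, B ≠ ⊥ ∧ C ≠ ⊥ ∧ (∀ x ∈ X, B.map x.toMonoidHom = B) ∧ (∀ x ∈ X, C.map x.toMonoidHom = C) ∧ B ⊓ C = ⊥ ∧ B ⊔ C = ⊤) ↔ (∀ B : Subgroup A, (∀ x ∈ X, B.map x.toMonoidHom = B) → ∃ i : ℕ, ∀ a : A, a ∈ B ↔ a ^ p ^ i = 1)) ∧ ((∀ B : Subgroup A, (∀ x ∈ X, B.map x.toMonoidHom = B) → ∃ i : ℕ, ∀ a : A, a ∈ B ↔ a ^ p ^ i = 1) ↔ (∀ B : Subgroup A, (∀ x ∈ X, B.map x.toMonoidHom = B) → (∀ b ∈ B, b ^ p = 1) → B = ⊥ ∨ ∀ a : A, a ∈ B ↔ a ^ p = 1)) := by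
  classical
  have hp : p.Prime := Fact.out
  have h13 : (¬ ∃ B C : Subgroup A, B ≠ ⊥ ∧ C ≠ ⊥ ∧ (∀ x ∈ X, B.map x.toMonoidHom = B) ∧
      (∀ x ∈ X, C.map x.toMonoidHom = C) ∧ B ⊓ C = ⊥ ∧ B ⊔ C = ⊤) →
      (∀ B : Subgroup A, (∀ x ∈ X, B.map x.toMonoidHom = B) → (∀ b ∈ B, b ^ p = 1) →
        B = ⊥ ∨ ∀ a : A, a ∈ B ↔ a ^ p = 1) := by
    intro h B hB hBp
    refine main hp hA hX ?_ B (inv_iff.2 hB) hBp
    intro B₁ C₁ h1 h2 h3 h4
    by_contra hcon
    push Not at hcon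
    exact h ⟨B₁, C₁, hcon.1, hcon.2, inv_iff.1 h1, inv_iff.1 h2, h3, h4⟩
  have h32 : (∀ B : Subgroup A, (∀ x ∈ X, B.map x.toMonoidHom = B) → (∀ b ∈ B, b ^ p = 1) →
        B = ⊥ ∨ ∀ a : A, a ∈ B ↔ a ^ p = 1) →
      (∀ B : Subgroup A, (∀ x ∈ X, B.map x.toMonoidHom = B) → ∃ i : ℕ, ∀ a : A, a ∈ B ↔ a ^ p ^ i = 1) := by
    intro h B hB
    have hBi := inv_iff.2 hB
    obtain ⟨n, hn⟩ := IsPGroup.iff_card.1 hA
    have hall : ∀ a : A, a ^ p ^ n = 1 := fun a => by rw [← hn]; exact pow_card_eq_one'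
    -- maximal i
    let i := Nat.findGreatest (fun i => ∀ a : A, a ^ p ^ i = 1 → a ∈ B) n
    have hi : ∀ a : A, a ^ p ^ i = 1 → a ∈ B := by
      have : (fun i => ∀ a : A, a ^ p ^ i = 1 → a ∈ B) i :=
        Nat.findGreatest_spec (P := fun i => ∀ a : A, a ^ p ^ i = 1 → a ∈ B) (m := 0) (Nat.zero_le n) (by
          intro a ha
          rw [pow_zero, pow_one] at ha
          rw [ha]; exact one_mem _)
      exact this
    refine ⟨i, fun a => ⟨fun ha => ?_, hi a⟩⟩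
    by_contra hcon
    -- an element of B of order p^(i+1) modulo
    obtain ⟨b, hb, hb1, hb2⟩ : ∃ b ∈ B, b ^ p ^ i ≠ 1 ∧ b ^ p ^ (i + 1) = 1 := by
      have hex : ∃ j : ℕ, a ^ p ^ (i + j) = 1 := ⟨n, by rw [pow_add, mul_comm, pow_mul, hall, one_pow]⟩
      have h0 : Nat.find hex ≠ 0 := by
        intro h0
        have := Nat.find_spec hex
        rw [h0, add_zero] at this
        exact hcon this
      obtain ⟨j, hj⟩ := Nat.exists_eq_succ_of_ne_zero h0
      refine ⟨a ^ p ^ j, pow_mem ha _, ?_, ?_⟩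
      · rw [← pow_mul, ← pow_add, add_comm j i]
        exact Nat.find_min hex (m := j) (by omega)
      · have := Nat.find_spec hex
        rw [hj] at this
        rw [← pow_mul, ← pow_add]
        have e : j + (i + 1) = i + j.succ := by omega
        rw [e]; exact this
    let P : A →* A := powMonoidHom (p ^ i)
    let T : Subgroup A := (B ⊓ (powMonoidHom (p ^ (i + 1)) : A →* A).ker).map P
    have hTi : Inv X T := by
      rintro x hx _ ⟨c, hc, rfl⟩
      refine ⟨x c, ⟨hBi x hx c hc.1, ?_⟩, by simp [P]⟩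
      have h1 : c ^ p ^ (i + 1) = 1 := hc.2
      show (x c) ^ p ^ (i + 1) = 1
      rw [← map_pow, h1, map_one]
    have hTp : ∀ t ∈ T, t ^ p = 1 := by
      rintro _ ⟨c, hc, rfl⟩
      show (c ^ p ^ i) ^ p = 1
      rw [← pow_mul, ← pow_succ]
      exact hc.2
    rcases h T (inv_iff.1 hTi) hTp with h1 | h1
    · have h2 : b ^ p ^ i ∈ T := ⟨b, ⟨hb, hb2⟩, rfl⟩
      rw [h1, Subgroup.mem_bot] at h2
      exact hb1 h2
    · have hi1 : ∀ a : A, a ^ p ^ (i + 1) = 1 → a ∈ B := by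
        intro c hc
        have h2 : c ^ p ^ i ∈ T := (h1 _).2 (by rw [← pow_mul, ← pow_succ]; exact hc)
        obtain ⟨d, hd, h3⟩ := h2
        have h3 : d ^ p ^ i = c ^ p ^ i := h3
        have h4 : c * d⁻¹ ∈ B := hi _ (by rw [mul_pow, inv_pow, h3, mul_inv_cancel])
        have h5 := mul_mem h4 hd.1
        rwa [inv_mul_cancel_right] at h5
      have hin : i < n := by
        by_contra hge
        apply hb1
        have : p ^ i = p ^ n * p ^ (i - n) := by rw [← pow_add]; congr 1; omega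
        rw [this, pow_mul, hall, one_pow]
      have := Nat.findGreatest_is_greatest (P := fun i => ∀ a : A, a ^ p ^ i = 1 → a ∈ B) (n := n) (k := i + 1)
        (Nat.lt_succ_self _) (by omega)
      exact this hi1
  have h21 : (∀ B : Subgroup A, (∀ x ∈ X, B.map x.toMonoidHom = B) → ∃ i : ℕ, ∀ a : A, a ∈ B ↔ a ^ p ^ i = 1) →
      (¬ ∃ B C : Subgroup A, B ≠ ⊥ ∧ C ≠ ⊥ ∧ (∀ x ∈ X, B.map x.toMonoidHom = B) ∧
      (∀ x ∈ X, C.map x.toMonoidHom = C) ∧ B ⊓ C = ⊥ ∧ B ⊔ C = ⊤) := by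
    rintro h ⟨B, C, hB1, hC1, hB, hC, hBC, -⟩
    obtain ⟨i, hi⟩ := h B hB
    obtain ⟨j, hj⟩ := h C hC
    have key : ∀ i j : ℕ, i ≤ j → ∀ a : A, a ^ p ^ i = 1 → a ^ p ^ j = 1 := by
      intro i j hij a ha
      have : p ^ j = p ^ i * p ^ (j - i) := by rw [← pow_add]; congr 1; omega
      rw [this, pow_mul, ha, one_pow]
    rcases le_total i j with hij | hij
    · apply hB1
      rw [← hBC, eq_comm, inf_eq_left]
      intro a ha
      exact (hj a).2 (key i j hij a ((hi a).1 ha))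
    · apply hC1
      rw [← hBC, eq_comm, inf_eq_right]
      intro a ha
      exact (hi a).2 (key j i hij a ((hj a).1 ha))
  exact ⟨⟨fun h => h32 (h13 h), h21⟩, ⟨fun h => h13 (h21 h), h32⟩⟩

end Cfsg.Agent.S3775
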