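import Cfsg.Statements.S3778
import Cfsg.Agent.H1.Basic

set_option autoImplicit false
set_option linter.all false
open Cfsg

namespace Cfsg.Agent.S3778

section aux
open Subgroup
open scoped commutatorElement
universe u

theorem mul_card_le {G : Type u} [Group G] [Finite G] {p : ℕ} [hp : Fact p.Prime] (hG : IsPGroup p G) {A B : Subgroup G}
    (h : A < B) : p * Nat.card A ≤ Nat.card B := by
  obtain ⟨α, hα⟩ := IsPGroup.iff_card.mp (hG.to_subgroup A)
  obtain ⟨β, hβ⟩ := IsPGroup.iff_card.mp (hG.to_subgroup B)
  have h1 := H1.card_lt_of_lt' h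
  rw [hα, hβ] at h1 ⊢
  have h2 := (Nat.pow_lt_pow_iff_right hp.out.one_lt).mp h1
  rw [← pow_succ']
  exact Nat.pow_le_pow_right hp.out.pos h2

theorem aux {G : Type*} [Group G] [Finite G] {p : ℕ} [Fact p.Prime] (hG : IsPGroup p G) (b : ℕ) (hb : ∀ x : G, (Subgroup.centralizer ({x} : Set G)).index ≤ p ^ b) : ∃ c : ℕ, (⊤ : Subgroup G).lowerCentralSeries c = ⊥ ∧ (b ≠ 0 → (c - 1) * (p - 1) < b * p ∧ c ≤ 2 * b) ∧ (b = 0 → c ≤ 1) := by
  classical
  have hpp : p.Prime := Fact.out
  haveI := Fintype.ofFinite G
  haveI hnil : Group.IsNilpotent G := hG.isNilpotent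
  set γ : ℕ → Subgroup G := fun i => (⊤ : Subgroup G).lowerCentralSeries i with hγ
  have hγs : ∀ i, γ (i + 1) = ⁅γ i, (⊤ : Subgroup G)⁆ := fun i => Subgroup.lowerCentralSeries_succ ⊤ i
  haveI hγn : ∀ i, (γ i).Normal := fun i => by
    show ((⊤ : Subgroup G).lowerCentralSeries i).Normal
    infer_instance
  have hanti : ∀ i j, i ≤ j → γ j ≤ γ i := fun i j hij => (⊤ : Subgroup G).lowerCentralSeries_antitone hij
  have hex : ∃ c, γ c = ⊥ := Subgroup.nilpotent_iff_lowerCentralSeries.mp hnil
  set c := Nat.find hex with hc
  have hc1 : γ c = ⊥ := Nat.find_spec hex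
  have hc2 : ∀ k, k < c → γ k ≠ ⊥ := fun k hk => Nat.find_min hex hk
  have hstrict : ∀ k, k < c → ¬ γ k ≤ γ (k + 1) := by
    intro k hk h
    apply hc2 k hk
    have : ∀ m, γ k ≤ γ (k + m) := by
      intro m
      induction m with
      | zero => exact le_rfl
      | succ m ih =>
        calc γ k ≤ γ (k + 1) := h
          _ = ⁅γ k, (⊤ : Subgroup G)⁆ := hγs k
          _ ≤ ⁅γ (k + m), (⊤ : Subgroup G)⁆ := commutator_mono ih le_rfl
          _ = γ (k + (m + 1)) := (hγs (k + m)).symm
    have h1 := this c
    rw [eq_bot_iff, ← hc1]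
    exact h1.trans (hanti _ _ (by omega))
  -- the two-step centralizers
  set D : ℕ → Subgroup G := fun i =>
    (centralizer (((γ i).map (QuotientGroup.mk' (γ (i + 2)))) : Set (G ⧸ γ (i + 2)))).comap (QuotientGroup.mk' (γ (i + 2))) with hD
  have hDmem : ∀ i x, x ∈ D i ↔ ∀ y ∈ γ i, ⁅y, x⁆ ∈ γ (i + 2) := by
    intro i x
    rw [hD, mem_comap, mem_centralizer_iff]
    constructor
    · intro h y hy
      have h1 := h _ (mem_map_of_mem _ hy)
      rw [← commutatorElement_eq_one_iff_mul_comm, ← map_commutatorElement] at h1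
      exact (QuotientGroup.eq_one_iff _).mp h1
    · rintro h _ ⟨y, hy, rfl⟩
      rw [← commutatorElement_eq_one_iff_mul_comm, ← map_commutatorElement]
      exact (QuotientGroup.eq_one_iff _).mpr (h y hy)
  have hDtop : ∀ i, i + 1 < c → D i < ⊤ := by
    intro i hi
    rw [lt_top_iff_ne_top]
    intro h
    apply hstrict (i + 1) hi
    rw [hγs i, commutator_le]
    intro y hy x _
    exact (hDmem i x).mp (h ▸ mem_top x) y hy
  have hbr : ∀ x : G, ((Finset.range (c - 1)).filter (fun i => x ∉ D i)).card ≤ b := by
    intro x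
    set C := centralizer ({x} : Set G) with hC
    have key : ∀ k, p ^ ((Finset.range k).filter (fun i => x ∉ D i)).card * Nat.card (C ⊔ γ k : Subgroup G) ≤ Nat.card G := by
      intro k
      induction k with
      | zero =>
        simp only [Finset.range_zero, Finset.filter_empty, Finset.card_empty, pow_zero, one_mul]
        exact card_le_card_group _
      | succ k ih =>
        have hle : C ⊔ γ (k + 1) ≤ C ⊔ γ k := sup_le_sup_left (hanti _ _ (by omega)) _
        rw [Finset.range_add_one, Finset.filter_insert]
        by_cases hx : x ∈ D k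
        · rw [if_neg (by simpa using hx)]
          exact le_trans (Nat.mul_le_mul_left _ (card_le_of_le hle)) ih
        · rw [if_pos hx, Finset.card_insert_of_notMem (by simp)]
          have hlt : C ⊔ γ (k + 1) < C ⊔ γ k := by
            refine lt_of_le_of_ne hle fun heq => hx ?_
            rw [hDmem]
            intro y hy
            have h1 : y ∈ C ⊔ γ (k + 1) := by rw [heq]; exact mem_sup_right hy
            obtain ⟨u, hu, z, hz, rfl⟩ := mem_sup_of_normal_right.mp h1
            have hu' : u * x = x * u := mem_centralizer_singleton_iff.mp hu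
            have h2 : ⁅u * z, x⁆ = u * ⁅z, x⁆ * u⁻¹ := by
              rw [commutatorElement_def, commutatorElement_def]
              have h3 : u⁻¹ * x⁻¹ = x⁻¹ * u⁻¹ := by rw [← mul_inv_rev, ← mul_inv_rev, hu']
              calc u * z * x * (u * z)⁻¹ * x⁻¹ = u * z * x * z⁻¹ * (u⁻¹ * x⁻¹) := by group
                _ = u * (z * x * z⁻¹ * x⁻¹) * u⁻¹ := by rw [h3]; group
            rw [h2]
            refine (hγn (k + 2)).conj_mem _ ?_ _
            rw [show k + 2 = (k + 1) + 1 from rfl, hγs (k + 1)]
            exact commutator_mem_commutator hz (mem_top x)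
          have h4 := mul_card_le hG hlt
          calc p ^ (_ + 1) * Nat.card (C ⊔ γ (k + 1) : Subgroup G)
              = p ^ ((Finset.range k).filter (fun i => x ∉ D i)).card * (p * Nat.card (C ⊔ γ (k + 1) : Subgroup G)) := by
                rw [pow_succ]; ring
            _ ≤ p ^ ((Finset.range k).filter (fun i => x ∉ D i)).card * Nat.card (C ⊔ γ k : Subgroup G) := Nat.mul_le_mul_left _ h4
            _ ≤ Nat.card G := ih
    have h1 := key (c - 1)
    have h2 : p ^ ((Finset.range (c - 1)).filter (fun i => x ∉ D i)).card * Nat.card C ≤ Nat.card G :=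
      le_trans (Nat.mul_le_mul_left _ (card_le_of_le le_sup_left)) h1
    rw [← C.index_mul_card] at h2
    have h3 := Nat.le_of_mul_le_mul_right h2 Nat.card_pos
    exact (Nat.pow_le_pow_iff_right hpp.one_lt).mp (h3.trans (hb x))
  refine ⟨c, hc1, ?_, ?_⟩
  · intro hb0
    have hmain : (c - 1) * (p - 1) < b * p := by
      have hcount : ∑ x : G, ((Finset.range (c - 1)).filter (fun i => x ∉ D i)).card =
          ∑ i ∈ Finset.range (c - 1), (Nat.card G - Nat.card (D i)) := by
        simp only [Finset.card_filter]
        rw [Finset.sum_comm]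
        refine Finset.sum_congr rfl fun i _ => ?_
        rw [← Finset.card_filter]
        have h1 : (Finset.univ.filter (fun x : G => x ∉ D i)).card + (Finset.univ.filter (fun x : G => x ∈ D i)).card = Fintype.card G := by
          rw [add_comm, Finset.card_filter_add_card_filter_not, Finset.card_univ]
        have h2 : (Finset.univ.filter (fun x : G => x ∈ D i)).card = Nat.card (D i) := by
          rw [Nat.card_eq_fintype_card, ← Fintype.card_subtype]
        rw [Nat.card_eq_fintype_card (α := G)]
        omega
      have hup : ∑ x : G, ((Finset.range (c - 1)).filter (fun i => x ∉ D i)).card < b * Nat.card G := by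
        have h1 : ∑ x : G, ((Finset.range (c - 1)).filter (fun i => x ∉ D i)).card < ∑ x : G, b := by
          refine Finset.sum_lt_sum (fun x _ => hbr x) ⟨1, Finset.mem_univ _, ?_⟩
          have h2 : (Finset.range (c - 1)).filter (fun i => (1 : G) ∉ D i) = ∅ := by
            rw [Finset.filter_eq_empty_iff]
            intro i _
            exact not_not.mpr (one_mem _)
          rw [h2, Finset.card_empty]
          omega
        rw [Finset.sum_const, Finset.card_univ, smul_eq_mul, mul_comm, ← Nat.card_eq_fintype_card] at h1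
        exact h1
      have hlow : (c - 1) * ((p - 1) * Nat.card G) ≤ p * ∑ i ∈ Finset.range (c - 1), (Nat.card G - Nat.card (D i)) := by
        rw [Finset.mul_sum]
        calc (c - 1) * ((p - 1) * Nat.card G) = ∑ i ∈ Finset.range (c - 1), (p - 1) * Nat.card G := by
              rw [Finset.sum_const, Finset.card_range, smul_eq_mul]
          _ ≤ _ := by
            refine Finset.sum_le_sum fun i hi => ?_
            rw [Finset.mem_range] at hi
            have h1 := mul_card_le hG (hDtop i (by omega))
            rw [card_top] at h1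
            have h2 : 1 ≤ p := hpp.pos
            have h3 : Nat.card (D i) ≤ Nat.card G := card_le_card_group _
            zify [h2, h3]
            have h1' : (p : ℤ) * Nat.card (D i) ≤ Nat.card G := by exact_mod_cast h1
            linarith
      rw [← hcount] at hlow
      have hpos : 0 < Nat.card G := Nat.card_pos
      have h5 : (c - 1) * (p - 1) * Nat.card G < b * p * Nat.card G := by
        calc (c - 1) * (p - 1) * Nat.card G = (c - 1) * ((p - 1) * Nat.card G) := by ring
          _ ≤ p * ∑ x : G, ((Finset.range (c - 1)).filter (fun i => x ∉ D i)).card := hlow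
          _ < p * (b * Nat.card G) := Nat.mul_lt_mul_of_pos_left hup hpp.pos
          _ = b * p * Nat.card G := by ring
      exact Nat.lt_of_mul_lt_mul_right h5
    refine ⟨hmain, ?_⟩
    by_contra hcon
    push Not at hcon
    have h1 : 2 * b ≤ c - 1 := by omega
    have h2 : 2 * b * (p - 1) ≤ (c - 1) * (p - 1) := Nat.mul_le_mul_right _ h1
    have h3 : p ≤ 2 * (p - 1) := by have := hpp.two_le; omega
    have h4 : b * p ≤ b * (2 * (p - 1)) := Nat.mul_le_mul_left _ h3
    have h5 : b * (2 * (p - 1)) = 2 * b * (p - 1) := by ring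
    omega
  · intro hb0
    apply Nat.find_min'
    show γ 1 = ⊥
    rw [show (1 : ℕ) = 0 + 1 from rfl, hγs 0, eq_bot_iff, commutator_le]
    intro x _ y _
    have h1 := hb y
    rw [hb0, pow_zero] at h1
    have h2 : (centralizer ({y} : Set G)).index = 1 := by
      have : (centralizer ({y} : Set G)).index ≠ 0 := index_ne_zero_of_finite
      omega
    rw [index_eq_one] at h2
    have h3 : x ∈ centralizer ({y} : Set G) := by rw [h2]; exact mem_top x
    rw [mem_bot, commutatorElement_eq_one_iff_mul_comm]
    exact mem_centralizer_singleton_iff.mp h3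
end aux

/-- If G is a finite p-group in which every conjugacy class has at most p^b elements (every element has centralizer of index at most p^b), then G is abelian when b = 0, and when b ≥ 1 its nilpotency class c satisfies (c − 1)(p − 1) < bp, that is c < bp/(p − 1) + 1, and hence c ≤ 2b. -/
theorem result {G : Type*} [Group G] [Finite G] {p : ℕ} [Fact p.Prime] (hG : IsPGroup p G) (b : ℕ) (hb : ∀ x : G, (Subgroup.centralizer ({x} : Set G)).index ≤ p ^ b) : ∃ c : ℕ, (⊤ : Subgroup G).lowerCentralSeries c = ⊥ ∧ (b ≠ 0 → (c - 1) * (p - 1) < b * p ∧ c ≤ 2 * b) ∧ (b = 0 → c ≤ 1) := by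
  exact aux hG b hb

end Cfsg.Agent.S3778
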