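import Cfsg.Statements.S3780
import Cfsg.Agent.H23.PGroup

set_option autoImplicit false
set_option linter.all false
open Cfsg

namespace Cfsg.Agent.S3780

section aux
open Subgroup
open scoped Pointwise commutatorElement

/-- generation of a finite abelian `p`-group modulo `H ≥ V^p` -/
theorem exists_gens {V : Type*} [CommGroup V] [Finite V] {p : ℕ} [Fact p.Prime]
    (m : ℕ) : ∀ H : Subgroup V, (∀ v : V, v ^ p ∈ H) → H.index = m →
      ∃ S : Finset V, p ^ S.card = H.index ∧ H ⊔ Subgroup.closure (S : Set V) = ⊤ := by
  classical
  induction m using Nat.strong_induction_on with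
  | _ m ih =>
  intro H hH hm
  by_cases htop : H = ⊤
  · refine ⟨∅, ?_, ?_⟩
    · rw [htop, Finset.card_empty, pow_zero, Subgroup.index_top]
    · rw [htop, top_sup_eq]
  · obtain ⟨x, hx⟩ : ∃ x, x ∉ H := by
      by_contra h; push Not at h
      exact htop (eq_top_iff.mpr fun y _ => h y)
    set K := H ⊔ zpowers x with hK
    have hHK : H ≤ K := le_sup_left
    have hrel : H.relIndex K = p := by
      have h1 : (QuotientGroup.mk x : V ⧸ H) ^ p = 1 := by
        rw [← QuotientGroup.mk_pow]; exact (QuotientGroup.eq_one_iff _).mpr (hH x)
      have h2 : (QuotientGroup.mk x : V ⧸ H) ≠ 1 := fun h => hx ((QuotientGroup.eq_one_iff _).mp h)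
      have h3 : orderOf (QuotientGroup.mk x : V ⧸ H) = p := orderOf_eq_prime h1 h2
      have h4 : K.map (QuotientGroup.mk' H) = zpowers (QuotientGroup.mk x : V ⧸ H) := by
        rw [hK, Subgroup.map_sup, MonoidHom.map_zpowers, QuotientGroup.map_mk'_self, bot_sup_eq]
        rfl
      have h5 := H1.card_map_mk'_mul H K
      rw [inf_of_le_right hHK, h4, Nat.card_zpowers, h3] at h5
      have h6 := H1.card_mul_relIndex hHK
      have h7 : Nat.card H * H.relIndex K = Nat.card H * p := by
        rw [h6, ← h5]
      exact Nat.eq_of_mul_eq_mul_left Nat.card_pos h7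
    have hidx : p * K.index = H.index := by
      rw [← hrel]; exact Subgroup.relIndex_mul_index hHK
    have hpos : 0 < K.index := Nat.pos_of_ne_zero K.index_ne_zero_of_finite
    have hlt : K.index < m := by
      rw [← hm, ← hidx]
      have := (Fact.out : p.Prime).one_lt
      nlinarith
    obtain ⟨S, hS1, hS2⟩ := ih _ hlt K (fun v => hHK (hH v)) rfl
    have hxS : x ∉ S ∨ x ∈ S := (Classical.em _).symm
    by_cases hxS : x ∈ S
    · -- impossible-ish, but harmless: remove x
      exfalso
      -- then S.erase x already generates over K: contradiction with count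
      have h8 : K ⊔ Subgroup.closure ((S.erase x : Finset V) : Set V) = ⊤ := by
        rw [eq_top_iff, ← hS2]
        refine sup_le le_sup_left ?_
        rw [Subgroup.closure_le]
        intro y hy
        by_cases hyx : y = x
        · rw [hyx]; exact mem_sup_left (hK ▸ mem_sup_right (mem_zpowers x))
        · exact mem_sup_right (Subgroup.subset_closure (by simp [hyx]; exact hy))
      -- count: index of K ≤ p ^ (card (erase))
      have hbound : ∀ (T : Finset V) (L : Subgroup V), (∀ v : V, v ^ p ∈ L) →
          L ⊔ Subgroup.closure (T : Set V) = ⊤ → L.index ≤ p ^ T.card := by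
        intro T
        induction T using Finset.induction_on with
        | empty =>
          intro L _ hL
          rw [Finset.coe_empty, Subgroup.closure_empty, sup_bot_eq] at hL
          rw [hL, Subgroup.index_top]; exact Nat.one_le_pow _ _ (Fact.out : p.Prime).pos
        | @insert a T ha ihT =>
          intro L hLp hL
          rw [Finset.coe_insert, ← Set.singleton_union, Subgroup.closure_union, ← sup_assoc,
            ← Subgroup.zpowers_eq_closure] at hL
          have h9 := ihT (L ⊔ zpowers a) (fun v => mem_sup_left (hLp v)) hL
          rw [Finset.card_insert_of_notMem ha, pow_succ]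
          have h10 := Subgroup.relIndex_mul_index (le_sup_left : L ≤ L ⊔ zpowers a)
          have h11 : L.relIndex (L ⊔ zpowers a) ≤ p := by
            have h1 : (QuotientGroup.mk a : V ⧸ L) ^ p = 1 := by
              rw [← QuotientGroup.mk_pow]; exact (QuotientGroup.eq_one_iff _).mpr (hLp a)
            have h3 : orderOf (QuotientGroup.mk a : V ⧸ L) ≤ p :=
              Nat.le_of_dvd (Fact.out : p.Prime).pos (orderOf_dvd_of_pow_eq_one h1)
            have h4 : (L ⊔ zpowers a).map (QuotientGroup.mk' L) = zpowers (QuotientGroup.mk a : V ⧸ L) := by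
              rw [Subgroup.map_sup, MonoidHom.map_zpowers, QuotientGroup.map_mk'_self, bot_sup_eq]
              rfl
            have h5 := H1.card_map_mk'_mul L (L ⊔ zpowers a)
            rw [inf_of_le_right (le_sup_left : L ≤ L ⊔ zpowers a), h4, Nat.card_zpowers] at h5
            have h6 := H1.card_mul_relIndex (le_sup_left : L ≤ L ⊔ zpowers a)
            have h7 : Nat.card L * L.relIndex (L ⊔ zpowers a) =
                Nat.card L * orderOf (QuotientGroup.mk a : V ⧸ L) := by
              rw [h6, ← h5]
            rw [Nat.eq_of_mul_eq_mul_left Nat.card_pos h7]; exact h3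
          calc L.index = L.relIndex (L ⊔ zpowers a) * (L ⊔ zpowers a).index := h10.symm
            _ ≤ p * p ^ T.card := Nat.mul_le_mul h11 h9
            _ = p ^ T.card * p := mul_comm _ _
      have h12 := hbound _ K (fun v => hHK (hH v)) h8
      rw [← hS1, Finset.card_erase_of_mem hxS] at h12
      have h13 : 0 < S.card := Finset.card_pos.mpr ⟨x, hxS⟩
      have h14 : p ^ (S.card - 1) < p ^ S.card :=
        Nat.pow_lt_pow_right (Fact.out : p.Prime).one_lt (by omega)
      omega
    · refine ⟨insert x S, ?_, ?_⟩
      · rw [Finset.card_insert_of_notMem hxS, pow_succ, hS1, mul_comm, hidx]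
      · rw [Finset.coe_insert, ← Set.singleton_union, Subgroup.closure_union, ← sup_assoc,
          ← Subgroup.zpowers_eq_closure]
        exact hS2

theorem card_ker_pow_le {W : Type*} [AddCommGroup W] [Finite W] (f : AddMonoid.End W) (k : ℕ) :
    Nat.card {w : W // (f ^ k) w = 0} ≤ Nat.card {w : W // f w = 0} ^ k := by
  induction k with
  | zero =>
    rw [pow_zero, pow_zero]
    haveI : Subsingleton {w : W // (1 : AddMonoid.End W) w = 0} :=
      ⟨fun a b => Subtype.ext ((show (a : W) = 0 from a.2).trans (show (b : W) = 0 from b.2).symm)⟩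
    exact Finite.card_le_one_iff_subsingleton.mpr inferInstance
  | succ k ih =>
    let K : AddSubgroup W := AddMonoidHom.ker (f ^ (k + 1) : AddMonoid.End W)
    let g : K →+ W := AddMonoidHom.comp (f : W →+ W) K.subtype
    have h1 : Nat.card K = Nat.card g.ker * Nat.card g.range := by
      rw [← AddSubgroup.card_mul_index g.ker, AddSubgroup.index_ker]
    have h2 : Nat.card g.ker ≤ Nat.card {w : W // f w = 0} := by
      apply Nat.card_le_card_of_injective (fun x : g.ker => (⟨((x : K) : W), x.2⟩ : {w : W // f w = 0}))
      intro x y hxy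
      have h0 := congrArg Subtype.val hxy
      exact Subtype.ext (Subtype.ext h0)
    have h3 : Nat.card g.range ≤ Nat.card {w : W // (f ^ k) w = 0} := by
      apply Nat.card_le_card_of_injective (fun x : g.range => (⟨(x : W), by
        obtain ⟨⟨w, hw⟩, hx⟩ := x.2
        rw [← hx]
        show (f ^ k) (f w) = 0
        have : (f ^ (k + 1)) w = 0 := hw
        rw [pow_succ] at this
        exact this⟩ : {w : W // (f ^ k) w = 0}))
      intro x y hxy
      have h0 := congrArg Subtype.val hxy
      exact Subtype.ext h0
    have h4 : Nat.card {w : W // (f ^ (k + 1)) w = 0} = Nat.card K := rfl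
    rw [h4, h1, mul_comm, pow_succ]
    exact Nat.mul_le_mul (h3.trans ih) h2

theorem aux {V : Type*} [CommGroup V] [Finite V] {p : ℕ} [Fact p.Prime] (hV : IsPGroup p V) (α : MulAut V) (hα : orderOf α = p) (n : ℕ) (hfix : Nat.card {v : V // α v = v} = p ^ n) : ∃ S : Finset V, S.card ≤ p * n ∧ Subgroup.closure (S : Set V) = ⊤ := by
  classical
  have hp := (Fact.out : p.Prime)
  -- `W = Ω₁(V)`
  let π : V →* V := powMonoidHom p
  let W : Subgroup V := π.ker
  have hWmem : ∀ v : V, v ∈ W ↔ v ^ p = 1 := fun v => Iff.rfl
  -- α restricted to `W`, as an additive endomorphism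
  let A : AddMonoid.End (Additive W) :=
    { toFun := fun w => Additive.ofMul ⟨α (Additive.toMul w : W), by
        rw [hWmem, ← map_pow, (hWmem _).mp (Additive.toMul w : W).2, map_one]⟩
      map_zero' := by
        apply congrArg Additive.ofMul
        exact Subtype.ext (map_one α)
      map_add' := by
        intro x y
        apply congrArg Additive.ofMul
        exact Subtype.ext (map_mul α _ _) }
  have hA : ∀ w : Additive W, ((Additive.toMul (A w) : W) : V) = α (Additive.toMul w : W) := fun w => rfl
  have hApow : ∀ (k : ℕ) (w : Additive W), ((Additive.toMul ((A ^ k) w) : W) : V) = (α ^ k) (Additive.toMul w : W) := by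
    intro k
    induction k with
    | zero => intro w; rfl
    | succ k ih =>
      intro w
      have h1 : (A ^ (k + 1)) w = (A ^ k) (A w) := by rw [pow_succ]; rfl
      have h2 : (α ^ (k + 1)) (Additive.toMul w : W) = (α ^ k) (α (Additive.toMul w : W)) := by
        rw [pow_succ]; rfl
      rw [h1, h2, ih, hA]
  have hAp : A ^ p = 1 := by
    apply AddMonoidHom.ext
    intro w
    have h1 := hApow p w
    rw [← hα, pow_orderOf_eq_one] at h1
    rw [← hα]
    exact Additive.toMul.injective (Subtype.ext h1)
  have hfixle : Nat.card {w : Additive W // (A - 1) w = 0} ≤ p ^ n := by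
    rw [← hfix]
    apply Nat.card_le_card_of_injective (fun x : {w : Additive W // (A - 1) w = 0} =>
      (⟨((Additive.toMul (x : Additive W) : W) : V), by
        have h1 : A (x : Additive W) - x = 0 := x.2
        rw [sub_eq_zero] at h1
        rw [← hA, h1]⟩ : {v : V // α v = v}))
    intro x y hxy
    have h0 := congrArg Subtype.val hxy
    apply Subtype.ext
    exact Additive.toMul.injective (Subtype.ext h0)
  have hWcard : Nat.card W ≤ p ^ (p * n) := by
    have hpow : ∀ w : Additive W, ((A - 1) ^ p) w = 0 := by
      rcases subsingleton_or_nontrivial (Additive W) with hs | hs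
      · intro w; exact Subsingleton.elim _ _
      · haveI : Nontrivial (AddMonoid.End (Additive W)) := by
          obtain ⟨w, hw⟩ := exists_ne (0 : Additive W)
          refine ⟨1, 0, fun h => hw ?_⟩
          exact congrArg (fun f : AddMonoid.End (Additive W) => f w) h
        haveI : CharP (AddMonoid.End (Additive W)) p := by
          rw [CharP.charP_iff_prime_eq_zero hp]
          apply AddMonoidHom.ext
          intro w
          show ((p : AddMonoid.End (Additive W)) : AddMonoid.End (Additive W)) w = 0
          rw [AddMonoid.End.natCast_apply]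
          apply Additive.toMul.injective
          exact Subtype.ext ((hWmem _).mp (Additive.toMul w : W).2)
        intro w
        rw [sub_pow_char_of_commute (p := p) (Commute.one_right A), hAp, one_pow, sub_self]; rfl
    have h1 := card_ker_pow_le (A - 1) p
    have h2 : Nat.card {w : Additive W // ((A - 1) ^ p) w = 0} = Nat.card (Additive W) :=
      Nat.card_congr (Equiv.subtypeUnivEquiv hpow)
    rw [h2] at h1
    calc Nat.card W = Nat.card (Additive W) := rfl
      _ ≤ _ := h1
      _ ≤ (p ^ n) ^ p := Nat.pow_le_pow_left hfixle p
      _ = p ^ (p * n) := by rw [← pow_mul, mul_comm]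
  -- generators
  obtain ⟨S, hS1, hS2⟩ := exists_gens (V := V) (p := p) _ π.range (fun v => ⟨v, rfl⟩) rfl
  refine ⟨S, ?_, ?_⟩
  · have h1 : π.range.index = Nat.card W := by
      have h2 := π.range.card_mul_index
      have h3 := W.card_mul_index
      have h4 : W.index = Nat.card π.range := Subgroup.index_ker π
      rw [h4] at h3
      have : Nat.card π.range * π.range.index = Nat.card π.range * Nat.card W := by
        rw [h2, ← h3, mul_comm]
      exact Nat.eq_of_mul_eq_mul_left Nat.card_pos this
    rw [h1] at hS1
    rw [← hS1] at hWcard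
    exact (Nat.pow_le_pow_iff_right hp.one_lt).mp hWcard
  · apply H23.eq_top_of_sup_frattini
    rw [eq_top_iff, ← hS2, sup_comm]
    refine sup_le_sup_left ?_ _
    rintro _ ⟨v, rfl⟩
    exact H2.pow_mem_frattini hV v

end aux

/-- Let V be a finite abelian p-group and α an automorphism of V of order p whose fixed-point subgroup has order p^n. Then V can be generated by pn elements: some subset of V with at most pn elements generates V. -/
theorem result {V : Type*} [CommGroup V] [Finite V] {p : ℕ} [Fact p.Prime] (hV : IsPGroup p V) (α : MulAut V) (hα : orderOf α = p) (n : ℕ) (hfix : Nat.card {v : V // α v = v} = p ^ n) : ∃ S : Finset V, S.card ≤ p * n ∧ Subgroup.closure (S : Set V) = ⊤ := by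
  exact aux hV α hα n hfix

end Cfsg.Agent.S3780
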