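import Cfsg.Statements.S3781
import Cfsg.Agent.H23.Coprime5
import Cfsg.Agent.H18.Basics
import Cfsg.Agent.H25.Basic

set_option autoImplicit false
set_option linter.all false
open Cfsg

namespace Cfsg.Agent.S3781

section aux
open Subgroup
open scoped Pointwise commutatorElement

/-- iterated commutators with `G` -/
def iter {G : Type*} [Group G] (n : ℕ) (M : Subgroup G) : Subgroup G :=
  (fun H : Subgroup G => ⁅H, (⊤ : Subgroup G)⁆)^[n] M

theorem iter_succ' {G : Type*} [Group G] (n : ℕ) (M : Subgroup G) :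
    iter (n + 1) M = ⁅iter n M, (⊤ : Subgroup G)⁆ := Function.iterate_succ_apply' _ _ _

theorem iter_succ {G : Type*} [Group G] (n : ℕ) (M : Subgroup G) :
    iter (n + 1) M = iter n ⁅M, (⊤ : Subgroup G)⁆ := Function.iterate_succ_apply _ _ _

theorem iter_normal {G : Type*} [Group G] (n : ℕ) (M : Subgroup G) [hM : M.Normal] : (iter n M).Normal := by
  induction n with
  | zero => exact hM
  | succ n ih => rw [iter_succ']; infer_instance

theorem comm_lcs_le {G : Type*} [Group G] (k : ℕ) : ∀ (M : Subgroup G) [M.Normal],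
    ⁅M, (⊤ : Subgroup G).lowerCentralSeries k⁆ ≤ iter (k + 1) M := by
  induction k with
  | zero => intro M _; exact le_rfl
  | succ k ih =>
    intro M hM
    haveI := iter_normal (k + 2) M
    haveI hLn : ((⊤ : Subgroup G).lowerCentralSeries k).Normal := inferInstance
    rw [Subgroup.lowerCentralSeries_succ]
    have h1 : ⁅⁅M, (⊤ : Subgroup G).lowerCentralSeries k⁆, (⊤ : Subgroup G)⁆ ≤ iter (k + 2) M := by
      rw [iter_succ']
      exact commutator_mono (ih M) le_rfl
    have h2 : ⁅⁅M, (⊤ : Subgroup G)⁆, (⊤ : Subgroup G).lowerCentralSeries k⁆ ≤ iter (k + 2) M := by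
      rw [iter_succ]
      exact ih ⁅M, (⊤ : Subgroup G)⁆
    rw [commutator_comm M]
    have hn : ∀ K : Subgroup G, K ≤ normalizer ((iter (k + 2) M : Subgroup G) : Set G) := by
      intro K; rw [normalizer_eq_top]; exact le_top
    exact H18.three_subgroups_le (hn _) (hn _) (hn _) (by rw [commutator_comm ⊤ M]; exact h2) h1

theorem mul_card_le_of_lt {G : Type*} [Group G] [Finite G] {p : ℕ} [Fact p.Prime] (hG : IsPGroup p G)
    {A B : Subgroup G} (h : A < B) : p * Nat.card A ≤ Nat.card B := by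
  have h1 := H1.card_mul_relIndex h.le
  have h2 : A.relIndex B ≠ 1 := fun h2 => absurd (relIndex_eq_one.mp h2) (not_le_of_gt h)
  obtain ⟨n, hn⟩ := IsPGroup.iff_card.mp (hG.to_subgroup B)
  have h3 : A.relIndex B ∣ p ^ n := by rw [← hn, ← h1]; exact dvd_mul_left _ _
  obtain ⟨m, -, hm⟩ := (Nat.dvd_prime_pow Fact.out).mp h3
  have h4 : m ≠ 0 := by
    rintro rfl
    rw [pow_zero] at hm; exact h2 hm
  have h5 : p ≤ A.relIndex B := by
    rw [hm]; exact Nat.le_self_pow h4 p
  rw [← h1, mul_comm]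
  exact Nat.mul_le_mul_left _ h5

theorem comm_sup_lt {G : Type*} [Group G] [Finite G] {p : ℕ} [Fact p.Prime] (hG : IsPGroup p G)
    {K L : Subgroup G} [K.Normal] [L.Normal] (h : K < L) : ⁅L, (⊤ : Subgroup G)⁆ ⊔ K < L := by
  refine lt_of_le_of_ne (sup_le (commutator_le_left _ _) h.le) fun heq => ?_
  have h1 : L.map (QuotientGroup.mk' K) ≠ ⊥ := by
    intro h2
    rw [Subgroup.map_eq_bot_iff, QuotientGroup.ker_mk'] at h2
    exact absurd h2 (not_le_of_gt h)
  have hQ : IsPGroup p (G ⧸ K) := hG.to_quotient K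
  haveI : (L.map (QuotientGroup.mk' K)).Normal := Subgroup.Normal.map inferInstance _ (QuotientGroup.mk'_surjective K)
  have h2 := H23.commutator_lt_of_isPGroup (hQ.to_subgroup (L.map (QuotientGroup.mk' K)))
    (hQ.to_subgroup (⊤ : Subgroup (G ⧸ K))) (by rw [normalizer_eq_top]) h1
  have h3 := congrArg (Subgroup.map (QuotientGroup.mk' K)) heq
  rw [Subgroup.map_sup, map_commutator, QuotientGroup.map_mk'_self, sup_bot_eq,
    Subgroup.map_top_of_surjective _ (QuotientGroup.mk'_surjective K)] at h3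
  exact h2.ne h3

theorem aux {G : Type*} [Group G] [Finite G] {p : ℕ} [Fact p.Prime] (hG : IsPGroup p G) (n : ℕ) (hn : 1 ≤ n) (N : Subgroup G) [N.Normal] (hN : N ≤ (⊤ : Subgroup G).lowerCentralSeries (n - 1)) (i : ℕ) (hi : 1 < i) (hne : N.lowerCentralSeries i ≠ ⊥) : p ^ n ≤ (N.lowerCentralSeries i).relIndex (N.lowerCentralSeries (i - 1)) := by
  obtain ⟨i, rfl⟩ : ∃ j, i = j + 1 := ⟨i - 1, by omega⟩
  obtain ⟨n, rfl⟩ : ∃ m, n = m + 1 := ⟨n - 1, by omega⟩
  simp only [Nat.add_sub_cancel] at hN ⊢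
  have hp := (Fact.out : p.Prime)
  haveI hMn : (N.lowerCentralSeries i).Normal := H25.lcs_normal N i
  haveI hMn' : (N.lowerCentralSeries (i + 1)).Normal := H25.lcs_normal N (i + 1)
  set M := N.lowerCentralSeries i with hM
  set M' := N.lowerCentralSeries (i + 1) with hM'
  have hMM' : M' = ⁅M, N⁆ := rfl
  have hle : M' ≤ M := by rw [hMM']; exact commutator_le_left _ _
  have claim : ∀ j : ℕ, iter j M ⊔ M' = M' ∨ p ^ j * Nat.card (iter j M ⊔ M' : Subgroup G) ≤ Nat.card M := by
    intro j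
    induction j with
    | zero =>
      right
      have : iter 0 M ⊔ M' = M := sup_eq_left.mpr hle
      rw [this, pow_zero, one_mul]
    | succ j ih =>
      by_cases h : iter j M ⊔ M' = M'
      · left
        rw [iter_succ', sup_eq_right]
        have h1 : iter j M ≤ M' := sup_eq_right.mp h
        exact (commutator_mono h1 le_rfl).trans (commutator_le_left _ _)
      · right
        have h2 := ih.resolve_left h
        haveI := iter_normal j M
        have h3 : M' < iter j M ⊔ M' := lt_of_le_of_ne le_sup_right (Ne.symm h)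
        have h4 := comm_sup_lt hG h3
        have h5 : iter (j + 1) M ⊔ M' ≤ ⁅(iter j M ⊔ M' : Subgroup G), (⊤ : Subgroup G)⁆ ⊔ M' := by
          rw [iter_succ']
          exact sup_le_sup_right (commutator_mono le_sup_left le_rfl) _
        have h6 := mul_card_le_of_lt hG (lt_of_le_of_lt h5 h4)
        calc p ^ (j + 1) * Nat.card (iter (j + 1) M ⊔ M' : Subgroup G)
            = p ^ j * (p * Nat.card (iter (j + 1) M ⊔ M' : Subgroup G)) := by ring
          _ ≤ p ^ j * Nat.card (iter j M ⊔ M' : Subgroup G) := Nat.mul_le_mul_left _ h6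
          _ ≤ Nat.card M := h2
  rcases claim n with h | h
  · exfalso
    apply hne
    have h1 : iter n M ≤ M' := sup_eq_right.mp h
    have h2 : M' ≤ ⁅M', (⊤ : Subgroup G)⁆ := by
      calc M' = ⁅M, N⁆ := hMM'
        _ ≤ ⁅M, (⊤ : Subgroup G).lowerCentralSeries n⁆ := commutator_mono le_rfl hN
        _ ≤ iter (n + 1) M := comm_lcs_le n M
        _ = ⁅iter n M, (⊤ : Subgroup G)⁆ := iter_succ' n M
        _ ≤ ⁅M', (⊤ : Subgroup G)⁆ := commutator_mono h1 le_rfl
    by_contra hb
    have h3 := H23.commutator_lt_of_isPGroup (hG.to_subgroup M') (hG.to_subgroup (⊤ : Subgroup G))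
      (by rw [normalizer_eq_top]) hb
    exact absurd h2 (not_le_of_gt h3)
  · by_cases h0 : iter n M ⊔ M' = M'
    · -- same as above
      exfalso
      apply hne
      have h1 : iter n M ≤ M' := sup_eq_right.mp h0
      have h2 : M' ≤ ⁅M', (⊤ : Subgroup G)⁆ := by
        calc M' = ⁅M, N⁆ := hMM'
          _ ≤ ⁅M, (⊤ : Subgroup G).lowerCentralSeries n⁆ := commutator_mono le_rfl hN
          _ ≤ iter (n + 1) M := comm_lcs_le n M
          _ = ⁅iter n M, (⊤ : Subgroup G)⁆ := iter_succ' n M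
          _ ≤ ⁅M', (⊤ : Subgroup G)⁆ := commutator_mono h1 le_rfl
      by_contra hb
      have h3 := H23.commutator_lt_of_isPGroup (hG.to_subgroup M') (hG.to_subgroup (⊤ : Subgroup G))
        (by rw [normalizer_eq_top]) hb
      exact absurd h2 (not_le_of_gt h3)
    · have h3 : M' < iter n M ⊔ M' := lt_of_le_of_ne le_sup_right (Ne.symm h0)
      have h6 := mul_card_le_of_lt hG h3
      have h7 := H1.card_mul_relIndex hle
      have h8 : p ^ (n + 1) * Nat.card M' ≤ M'.relIndex M * Nat.card M' := by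
        rw [mul_comm (M'.relIndex M), h7]
        calc p ^ (n + 1) * Nat.card M' = p ^ n * (p * Nat.card M') := by ring
          _ ≤ p ^ n * Nat.card (iter n M ⊔ M' : Subgroup G) := Nat.mul_le_mul_left _ h6
          _ ≤ Nat.card M := h
      exact Nat.le_of_mul_le_mul_right h8 Nat.card_pos

end aux

/-- Let G be a finite p-group and n ≥ 1, and write γ_1(G) = G, γ_{k+1}(G) = [γ_k(G), G], and likewise γ_k(N) for a subgroup N. Let N be a normal subgroup of G contained in γ_n(G). If i > 1 and γ_{i+1}(N) ≠ 1, then |γ_i(N) : γ_{i+1}(N)| ≥ p^n. -/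
theorem result {G : Type*} [Group G] [Finite G] {p : ℕ} [Fact p.Prime] (hG : IsPGroup p G) (n : ℕ) (hn : 1 ≤ n) (N : Subgroup G) [N.Normal] (hN : N ≤ (⊤ : Subgroup G).lowerCentralSeries (n - 1)) (i : ℕ) (hi : 1 < i) (hne : N.lowerCentralSeries i ≠ ⊥) : p ^ n ≤ (N.lowerCentralSeries i).relIndex (N.lowerCentralSeries (i - 1)) := by
  exact aux hG n hn N hN i hi hne

end Cfsg.Agent.S3781
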