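import Cfsg.Statements.S3783
import Cfsg.Agent.H23.HHApp2

set_option autoImplicit false
set_option linter.all false
open Cfsg

namespace Cfsg.Agent.S3783

open Subgroup

/-- Let G be a finite p-soluble group in which, for every prime q ≠ p, the Sylow q-subgroups are abelian. If the Sylow p-subgroups of G have exponent dividing p^n, then G has p-length at most n. -/
theorem result {G : Type*} [Group G] [Finite G] {p : ℕ} [Fact p.Prime] (hG : Cfsg.IsPSolvable p G) (hab : ∀ (q : ℕ) [Fact q.Prime], q ≠ p → ∀ Q : Sylow q G, IsMulCommutative (Q : Subgroup G)) (n : ℕ) (hexp : ∀ (P : Sylow p G), ∀ x ∈ (P : Subgroup G), x ^ p ^ n = 1) : Cfsg.PLengthLE p n G := by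
  have hp := (Fact.out : p.Prime)
  apply H23.plengthLE_of_expLE n G hG
  · intro k m q hk hm hq he
    haveI : Fact q.Prime := ⟨hq⟩
    refine ⟨default, hab q ?_ default⟩
    rintro rfl
    have h1 : q ∣ q ^ k - 1 := by rw [he]; exact dvd_pow_self q (by omega)
    have h2 : q ∣ q ^ k := dvd_pow_self q (by omega)
    have h3 : 1 ≤ q ^ k := Nat.one_le_pow _ _ hq.pos
    have h4 : q ∣ q ^ k - (q ^ k - 1) := Nat.dvd_sub h2 h1
    have h5 : q ^ k - (q ^ k - 1) = 1 := by omega
    rw [h5] at h4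
    exact hq.one_lt.ne' (Nat.dvd_one.mp h4)
  · rintro x ⟨k, hk⟩
    have h1 : IsPGroup p (zpowers x) := by
      rw [IsPGroup.iff_card]
      rw [Nat.card_zpowers]
      obtain ⟨i, _, hi⟩ := (Nat.dvd_prime_pow hp).mp (orderOf_dvd_of_pow_eq_one hk)
      exact ⟨i, hi⟩
    obtain ⟨P, hP⟩ := h1.exists_le_sylow
    exact hexp P x (hP (mem_zpowers x))

end Cfsg.Agent.S3783
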