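import Cfsg.Statements.S3784
import Mathlib

set_option autoImplicit false
set_option linter.all false
open Cfsg

namespace Cfsg.Agent.S3784

section aux

theorem pow_odd_modEq (x m k : ℕ) (h : x ^ 2 ≡ 1 [MOD m]) : x ^ (2 * k + 1) ≡ x [MOD m] := by
  have h1 : x ^ (2 * k + 1) = (x ^ 2) ^ k * x := by rw [pow_succ, pow_mul]
  rw [h1]
  have h2 := (h.pow k).mul_right x
  rw [one_pow, one_mul] at h2
  exact h2

theorem sq_modEq_one {x c : ℕ} (hx : Odd x) (h : 2 ^ c ∣ x + 1 ∨ 2 ^ c ∣ x - 1) (hx1 : 1 ≤ x) :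
    x ^ 2 ≡ 1 [MOD 2 ^ (c + 1)] := by
  apply Nat.ModEq.symm
  rw [Nat.modEq_iff_dvd' (Nat.one_le_pow _ _ hx1)]
  have h1 : x ^ 2 - 1 = (x + 1) * (x - 1) := by
    have := Nat.sq_sub_sq x 1
    simpa using this
  rw [h1]
  obtain ⟨m, hm⟩ := hx
  rcases h with h | h
  · rw [pow_succ]
    exact Nat.mul_dvd_mul h ⟨m, by omega⟩
  · rw [pow_succ, mul_comm]
    exact Nat.mul_dvd_mul ⟨m + 1, by omega⟩ h

theorem aux (p q a b : ℕ) (hp : p.Prime) (hq : q.Prime) (ha : 1 ≤ a) (hb : 1 ≤ b) (h : p ^ a = q ^ b + 1) : (p = 2 ∧ b = 1 ∧ a.Prime ∧ q + 1 = 2 ^ a) ∨ (q = 2 ∧ a = 1 ∧ (∃ m : ℕ, b = 2 ^ m) ∧ p = 2 ^ b + 1) ∨ (p ^ a = 9 ∧ q ^ b = 8) := by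
  by_cases hp2 : p = 2
  · subst hp2
    left
    have hqodd : Odd q := by
      rcases hq.eq_two_or_odd' with h2 | h2
      · exfalso
        subst h2
        have e1 : 2 ∣ 2 ^ a := dvd_pow_self 2 (by omega)
        have e2 : 2 ∣ 2 ^ b := dvd_pow_self 2 (by omega)
        omega
      · exact h2
    -- b is odd
    have hbodd : Odd b := by
      by_contra hb2
      rw [Nat.not_odd_iff_even] at hb2
      obtain ⟨k, hk⟩ := hb2
      have h1 : q ^ b = (q ^ k) ^ 2 := by rw [hk, ← pow_mul]; congr 1; ring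
      obtain ⟨m, hm⟩ := (hqodd.pow : Odd (q ^ k))
      have h2 : q ^ b = 4 * (m * m + m) + 1 := by rw [h1, hm]; ring
      have h3 : a = 1 := by
        by_contra h4
        have h5 : 4 ∣ 2 ^ a := by
          have : (4 : ℕ) = 2 ^ 2 := rfl
          rw [this]; exact pow_dvd_pow 2 (by omega)
        omega
      subst h3
      have h6 : q ^ b = 1 := by omega
      have := Nat.one_lt_pow (by omega : b ≠ 0) hq.one_lt
      omega
    have hd : q + 1 ∣ 2 ^ a := by
      rw [h]
      have := Odd.nat_add_dvd_pow_add_pow q 1 hbodd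
      simpa using this
    obtain ⟨c, hca, hc⟩ := (Nat.dvd_prime_pow Nat.prime_two).mp hd
    have hceq : c = a := by
      by_contra hne
      have hlt : c + 1 ≤ a := by omega
      obtain ⟨k, hk⟩ := hbodd
      have h1 := pow_odd_modEq q (2 ^ (c + 1)) k (sq_modEq_one hqodd (Or.inl ⟨1, by rw [hc, mul_one]⟩) hq.one_le)
      rw [← hk] at h1
      have h2 : q ^ b + 1 ≡ q + 1 [MOD 2 ^ (c + 1)] := h1.add_right 1
      rw [← h, hc] at h2
      have h3 : 2 ^ a ≡ 0 [MOD 2 ^ (c + 1)] := Nat.modEq_zero_iff_dvd.mpr (pow_dvd_pow 2 hlt)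
      have h4 : 2 ^ (c + 1) ∣ 2 ^ c := Nat.modEq_zero_iff_dvd.mp (h2.symm.trans h3)
      have := (Nat.pow_dvd_pow_iff_le_right (by norm_num : 1 < 2)).mp h4
      omega
    subst hceq
    have hb1 : b = 1 := by
      have h1 : q ^ b = q ^ 1 := by rw [pow_one]; omega
      exact Nat.pow_right_injective hq.two_le h1
    refine ⟨rfl, hb1, ?_, hc⟩
    have h1 : (2 ^ c - 1).Prime := by rw [← hc, Nat.add_sub_cancel]; exact hq
    refine (Nat.prime_of_pow_sub_one_prime ?_ h1).2
    rintro rfl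
    have := hq.one_lt
    omega
  · have hpodd : Odd p := hp.odd_of_ne_two hp2
    have hq2 : q = 2 := by
      by_contra hq2
      have hqodd : Odd q := hq.odd_of_ne_two hq2
      obtain ⟨m, hm⟩ := (hqodd.pow : Odd (q ^ b))
      obtain ⟨n, hn⟩ := (hpodd.pow : Odd (p ^ a))
      omega
    subst hq2
    right
    rcases Nat.even_or_odd a with ha2 | ha2
    · right
      obtain ⟨k, hk⟩ := ha2
      have hk0 : k ≠ 0 := by omega
      have h1 : p ^ a = (p ^ k) ^ 2 := by rw [hk, ← pow_mul]; congr 1; ring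
      have h3 : 1 < p ^ k := Nat.one_lt_pow hk0 hp.one_lt
      have h2 : (p ^ k + 1) * (p ^ k - 1) = 2 ^ b := by
        have h4 := Nat.sq_sub_sq (p ^ k) 1
        rw [one_pow, ← h1, h, Nat.add_sub_cancel] at h4
        exact h4.symm
      obtain ⟨u, -, hu⟩ := (Nat.dvd_prime_pow Nat.prime_two).mp (h2 ▸ dvd_mul_right _ _)
      obtain ⟨v, -, hv⟩ := (Nat.dvd_prime_pow Nat.prime_two).mp (h2 ▸ dvd_mul_left (p ^ k - 1) (p ^ k + 1))
      have h5 : 2 ^ u = 2 ^ v + 2 := by omega
      have hv1 : v = 1 := by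
        rcases v with _ | _ | v
        · exfalso
          rw [pow_zero] at h5
          rcases u with _ | _ | u
          · omega
          · omega
          · have : 2 ^ (u + 2) = 4 * 2 ^ u := by ring
            omega
        · rfl
        · exfalso
          rcases u with _ | _ | u
          · have : 0 < 2 ^ (v + 1 + 1) := by positivity
            omega
          · have : 0 < 2 ^ (v + 1 + 1) := by positivity
            omega
          · have e1 : 2 ^ (u + 1 + 1) = 4 * 2 ^ u := by ring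
            have e2 : 2 ^ (v + 1 + 1) = 4 * 2 ^ v := by ring
            omega
      subst hv1
      have h6 : p ^ k = 3 := by omega
      constructor
      · rw [h1, h6]; norm_num
      · have : p ^ a = 9 := by rw [h1, h6]; norm_num
        omega
    · left
      have hd : p - 1 ∣ 2 ^ b := by
        have h1 : p - 1 ∣ p ^ a - 1 ^ a := Nat.sub_dvd_pow_sub_pow p 1 a
        rw [one_pow, h, Nat.add_sub_cancel] at h1
        exact h1
      obtain ⟨c, hcb, hc⟩ := (Nat.dvd_prime_pow Nat.prime_two).mp hd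
      have hp1 := hp.one_lt
      have hceq : c = b := by
        by_contra hne
        have hlt : c + 1 ≤ b := by omega
        obtain ⟨k, hk⟩ := ha2
        have h1 := pow_odd_modEq p (2 ^ (c + 1)) k (sq_modEq_one hpodd (Or.inr ⟨1, by rw [hc, mul_one]⟩) hp.one_le)
        rw [← hk, h] at h1
        have h3 : 2 ^ b + 1 ≡ 0 + 1 [MOD 2 ^ (c + 1)] :=
          (Nat.modEq_zero_iff_dvd.mpr (pow_dvd_pow 2 hlt)).add_right 1
        have h4 : p ≡ 1 [MOD 2 ^ (c + 1)] := h1.symm.trans h3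
        have h5 : 2 ^ (c + 1) ∣ p - 1 := (Nat.modEq_iff_dvd' hp.one_le).mp h4.symm
        rw [hc] at h5
        have := (Nat.pow_dvd_pow_iff_le_right (by norm_num : 1 < 2)).mp h5
        omega
      subst hceq
      have hpeq : p = 2 ^ c + 1 := by omega
      have ha1 : a = 1 := by
        have h1 : p ^ a = p ^ 1 := by rw [pow_one, h]; exact hpeq.symm
        exact Nat.pow_right_injective hp.two_le h1
      refine ⟨rfl, ha1, ?_, hpeq⟩
      exact Nat.pow_of_pow_add_prime (by norm_num) (by omega) (hpeq ▸ hp)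

end aux

/-- Let p, q be primes and a, b positive integers with p^a = q^b + 1. Then either p = 2, b = 1, a is prime and q = 2^a − 1; or q = 2, a = 1, b is a power of 2 and p = 2^b + 1; or p^a = 9 and q^b = 8. -/
theorem result (p q a b : ℕ) (hp : p.Prime) (hq : q.Prime) (ha : 1 ≤ a) (hb : 1 ≤ b) (h : p ^ a = q ^ b + 1) : (p = 2 ∧ b = 1 ∧ a.Prime ∧ q + 1 = 2 ^ a) ∨ (q = 2 ∧ a = 1 ∧ (∃ m : ℕ, b = 2 ^ m) ∧ p = 2 ^ b + 1) ∨ (p ^ a = 9 ∧ q ^ b = 8) := by
  exact aux p q a b hp hq ha hb h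

end Cfsg.Agent.S3784
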