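import Cfsg.Statements.S3787
import Cfsg.Agent.H23.HHWr

set_option autoImplicit false
set_option linter.all false
open Cfsg

namespace Cfsg.Agent.S3787

open Subgroup

theorem involves_of_surjective {H G : Type*} [Group H] [Group G] (K : Subgroup G) (κ : K →* H)
    (hκ : Function.Surjective κ) : Cfsg.Involves H G := by
  have h1 : (κ.ker.map K.subtype).subgroupOf K = κ.ker :=
    comap_map_eq_self_of_injective K.subtype_injective κ.ker
  have h2 : ((κ.ker.map K.subtype).subgroupOf K).Normal := by rw [h1]; infer_instance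
  refine ⟨K, κ.ker.map K.subtype, h2, ⟨?_⟩⟩
  exact (QuotientGroup.quotientMulEquivOfEq h1).trans (QuotientGroup.quotientKerEquivOfSurjective κ hκ)

theorem noExc_of_not_fermat {G : Type*} [Group G] [Finite G] {p : ℕ} [Fact p.Prime] (hp2 : p ≠ 2)
    (hnf : ¬ ∃ k : ℕ, p = 2 ^ k + 1) : H23.NoExc p G := by
  have hp := (Fact.out : p.Prime)
  intro k m q hk hm hq he
  exfalso
  have h1 : p - 1 ∣ q ^ m := by
    rw [← he]
    have := Nat.sub_dvd_pow_sub_pow p 1 k
    rwa [one_pow] at this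
  obtain ⟨j, hj, hpj⟩ := (Nat.dvd_prime_pow hq).mp h1
  have hodd : Odd p := hp.odd_of_ne_two hp2
  obtain ⟨r, hr⟩ := hodd
  have h2 : p - 1 = 2 * r := by omega
  have hr0 : 0 < r := by have := hp.two_le; omega
  have h3 : 2 ∣ q ^ j := by rw [← hpj, h2]; exact dvd_mul_right 2 r
  have h4 : 2 ∣ q := Nat.prime_two.dvd_of_dvd_pow h3
  have h5 : q = 2 := ((Nat.prime_dvd_prime_iff_eq Nat.prime_two hq).mp h4).symm
  apply hnf
  refine ⟨j, ?_⟩
  rw [← h5, ← hpj]
  have := hp.two_le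
  omega

/-- Let G be a finite p-soluble group, p an odd prime not of the form 2^k + 1, and suppose the wreath product C_p ≀ C_p (of order p^(p+1)) is not involved in a Sylow p-subgroup of G: no section of a Sylow p-subgroup is isomorphic to it. Then G has p-length at most 1. -/
theorem result {G : Type*} [Group G] [Finite G] {p : ℕ} [Fact p.Prime] (hp2 : p ≠ 2) (hnf : (¬ ∃ k : ℕ, p = 2 ^ k + 1)) (hG : Cfsg.IsPSolvable p G) (P : Sylow p G) (hwr : ∀ (W : Type) [Group W] [Finite W], (∃ (B : Subgroup W) (t : W), B.Normal ∧ IsMulCommutative B ∧ (∀ b ∈ B, b ^ p = 1) ∧ Nat.card B = p ^ p ∧ orderOf t = p ∧ t ∉ B ∧ Nat.card W = p ^ (p + 1) ∧ Nat.card ↥(B ⊓ Subgroup.centralizer ({t} : Set W)) = p) → ¬ Cfsg.Involves W ↥(P : Subgroup G)) : Cfsg.PLengthLE p 1 G := by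
  classical
  have hp := (Fact.out : p.Prime)
  have hne : H23.NoExc p G := noExc_of_not_fermat hp2 hnf
  by_contra hcon
  set N := Cfsg.pPrimeCore p G with hN
  have hO : Cfsg.pPrimeCore p (G ⧸ N) = ⊥ := H23.pPrimeCore_quotient_eq_bot p G
  have hG1 := H23.isPSolvable_quotient N hG
  have hne1 := hne.of_surjective (QuotientGroup.mk' N) (QuotientGroup.mk'_surjective N)
  set P₁ := Cfsg.pCore p (G ⧸ N) with hP₁
  have hpd : p ∣ Nat.card ((G ⧸ N) ⧸ P₁) := by
    by_contra hnd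
    apply hcon
    have h2 : Cfsg.PLengthLE p 0 ((G ⧸ N) ⧸ P₁) :=
      H23.plengthLE_zero_of_coprime ((Nat.Prime.coprime_iff_not_dvd hp).mpr hnd).symm
    have h4 : Cfsg.PLengthLE p 1 P₁ := H23.plengthLE_of_isPGroup (H1.pCore_isPGroup p (G ⧸ N))
    have h5 := H23.plengthLE_extension P₁ h4 h2
    have h6 : Cfsg.PLengthLE p 0 N := H23.plengthLE_zero_of_coprime (H1.pPrimeCore_coprime p G)
    exact H23.plengthLE_extension N h6 h5
  obtain ⟨Φ, hΦn, hΦP, hEA, hcent⟩ := H23.frat_setup hG1 hO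
  rw [← hP₁] at hΦP hEA hcent
  set f₂ := QuotientGroup.mk' Φ with hf₂
  set V := P₁.map f₂ with hV
  haveI hVn : V.Normal := (inferInstance : P₁.Normal).map f₂ (QuotientGroup.mk'_surjective Φ)
  set e := QuotientGroup.quotientQuotientEquivQuotient Φ P₁ hΦP with he
  have hO' : Cfsg.pCore p (((G ⧸ N) ⧸ Φ) ⧸ V) = ⊥ :=
    H23.pCore_eq_bot_of_equiv e.symm (H1.pCore_quotient_eq_bot p)
  set f : G →* (G ⧸ N) ⧸ Φ := f₂.comp (QuotientGroup.mk' N) with hf
  have hfs : Function.Surjective f := (QuotientGroup.mk'_surjective Φ).comp (QuotientGroup.mk'_surjective N)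
  set T := P.mapSurjective hfs with hT
  have hTeq : (T : Subgroup ((G ⧸ N) ⧸ Φ)) = (P : Subgroup G).map f := Sylow.coe_mapSurjective hfs P
  have hVp : IsPGroup p V := (H1.pCore_isPGroup p (G ⧸ N)).map f₂
  have hVT : V ≤ (T : Subgroup ((G ⧸ N) ⧸ Φ)) := (H1.le_pCore hVn hVp).trans (H18.pCore_le_sylow T)
  -- an element of order p modulo V
  set T' := T.mapSurjective (QuotientGroup.mk'_surjective V) with hT'
  have hT'ne : (T' : Subgroup (((G ⧸ N) ⧸ Φ) ⧸ V)) ≠ ⊥ := by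
    intro h
    have h1 := T'.not_dvd_index
    rw [h, index_bot] at h1
    apply h1
    rw [Nat.card_congr e.toEquiv]
    exact hpd
  have hpd' : p ∣ Nat.card T' := by
    obtain ⟨j, hj⟩ := T'.isPGroup'.exists_card_eq
    rcases Nat.eq_zero_or_pos j with h0 | h0
    · exfalso
      rw [h0, pow_zero] at hj
      exact hT'ne (card_eq_one.mp hj)
    · rw [hj]
      exact dvd_pow_self p h0.ne'
  obtain ⟨x', hx'⟩ := exists_prime_orderOf_dvd_card' p hpd'
  have hx'2 : (x' : ((G ⧸ N) ⧸ Φ) ⧸ V) ∈ (T : Subgroup ((G ⧸ N) ⧸ Φ)).map (QuotientGroup.mk' V) := by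
    have h1 := Sylow.coe_mapSurjective (QuotientGroup.mk'_surjective V) T
    rw [← h1]
    exact x'.2
  obtain ⟨x, hxT, hxx'⟩ := hx'2
  have hxord : orderOf (x : ((G ⧸ N) ⧸ Φ) ⧸ V) = p ^ (0 + 1) := by
    change orderOf (QuotientGroup.mk' V x) = _
    rw [hxx', Subgroup.orderOf_coe, hx', zero_add, pow_one]
  obtain ⟨v₀, hv₀, hv₀ne⟩ := H23.exists_pow_ne' hEA (H23.isPSolvable_quotient Φ hG1)
    (hne1.of_surjective f₂ (QuotientGroup.mk'_surjective Φ)) hcent hO' hxord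
  rw [zero_add, pow_one] at hxord hv₀ne
  have hxV : x ∉ V := by
    intro h
    rw [(QuotientGroup.eq_one_iff x).mpr h, orderOf_one] at hxord
    exact hp.one_lt.ne hxord
  have hxpV : x ^ p ∈ V := by
    have h1 := pow_orderOf_eq_one (x : ((G ⧸ N) ⧸ Φ) ⧸ V)
    rw [hxord, ← QuotientGroup.mk_pow, QuotientGroup.eq_one_iff] at h1
    exact h1
  set H := V ⊔ zpowers x with hH
  have hVH : V ≤ H := le_sup_left
  have hxH : x ∈ H := (le_sup_right : zpowers x ≤ H) (mem_zpowers x)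
  have hHT : H ≤ (T : Subgroup ((G ⧸ N) ⧸ Φ)) := sup_le hVT (zpowers_le.mpr hxT)
  set V' := V.subgroupOf H with hV'
  haveI : V'.Normal := inferInstance
  have hV'EA : Cfsg.IsElementaryAbelian p V' := by
    constructor
    · constructor
      constructor
      rintro ⟨a, ha⟩ ⟨b, hb⟩
      apply Subtype.ext
      apply Subtype.ext
      exact congrArg (fun z : V => (z : (G ⧸ N) ⧸ Φ)) (hEA.1.is_comm.comm ⟨a, ha⟩ ⟨b, hb⟩)
    · intro a ha
      apply Subtype.ext
      exact hEA.2 a ha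
  obtain ⟨V₁, hV₁n, hW⟩ := H23.wreath_section (p := p) (V := V') (x := ⟨x, hxH⟩) hV'EA (by
    rw [eq_top_iff]
    rintro ⟨h, hh⟩ _
    obtain ⟨v, hv, y, ⟨k, rfl⟩, rfl⟩ := mem_sup_of_normal_left.mp hh
    have h1 : (⟨v * x ^ k, hh⟩ : H) = ⟨v, hVH hv⟩ * (⟨x, hxH⟩ : H) ^ k := by
      apply Subtype.ext
      rfl
    rw [h1]
    exact mul_mem ((le_sup_left : V' ≤ V' ⊔ zpowers (⟨x, hxH⟩ : H)) hv)
      ((le_sup_right : zpowers (⟨x, hxH⟩ : H) ≤ V' ⊔ zpowers (⟨x, hxH⟩ : H)) (zpow_mem (mem_zpowers _) k)))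
    hxV hxpV (v₀ := ⟨v₀, hVH hv₀⟩) hv₀ (by
      intro h
      apply hv₀ne
      exact congrArg (fun z : H => (z : (G ⧸ N) ⧸ Φ)) h)
  -- transfer to `Type`
  set W₀ := H ⧸ V₁ with hW₀
  haveI : Small.{0} W₀ := Countable.toSmall W₀
  set eW : Shrink.{0} W₀ ≃* W₀ := Shrink.mulEquiv with heW
  haveI : Finite (Shrink.{0} W₀) := Finite.of_equiv W₀ eW.symm.toEquiv
  refine hwr (Shrink.{0} W₀) (H23.WreathLike.of_equiv eW.symm hW) ?_
  -- the section
  set φ : P →* (G ⧸ N) ⧸ Φ := f.comp (P : Subgroup G).subtype with hφ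
  set K : Subgroup P := H.comap φ with hK
  set κ₀ : K →* H := (φ.comp K.subtype).codRestrict H (fun u => u.2) with hκ₀
  have hκ₀s : Function.Surjective κ₀ := by
    rintro ⟨h, hh⟩
    have h1 := hHT hh
    rw [hTeq] at h1
    obtain ⟨g, hg, hgh⟩ := h1
    refine ⟨⟨⟨g, hg⟩, ?_⟩, ?_⟩
    · rw [hK, mem_comap]
      change f g ∈ H
      rw [hgh]; exact hh
    · apply Subtype.ext
      exact hgh
  refine involves_of_surjective K ((eW.symm.toMonoidHom.comp (QuotientGroup.mk' V₁)).comp κ₀) ?_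
  exact (eW.symm.surjective.comp (QuotientGroup.mk'_surjective V₁)).comp hκ₀s

end Cfsg.Agent.S3787
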