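import Cfsg.Statements.S3788
import Cfsg.Agent.H23.Transv3
import Cfsg.Agent.H28.QdFus

set_option autoImplicit false
set_option linter.all false
open Cfsg

namespace Cfsg.Agent.S3788

open Subgroup Cfsg.Agent.H23

universe u

theorem main {G : Type u} [Group G] [Finite G] {p : ℕ} [hp : Fact p.Prime] (hG : Cfsg.IsPSolvable p G)
    (hO : Cfsg.pPrimeCore p G = ⊥) {A : Subgroup G} (hA : IsCyclic A) (hAp : IsPGroup p A)
    (hPA : ∀ x ∈ Cfsg.pCore p G, ∀ a ∈ A, x * a * x⁻¹ ∈ A)
    (h : p ≠ 2 ∨ ¬ Cfsg.Involves (Equiv.Perm (Fin 4)) G) : A ≤ Cfsg.pCore p G := by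
  obtain ⟨Φ, hΦn, hΦP, hEA, hcent⟩ := frat_setup hG hO
  set P := Cfsg.pCore p G with hP
  set f := QuotientGroup.mk' Φ with hf
  set V := P.map f with hV
  haveI hVn : V.Normal := (inferInstance : P.Normal).map f (QuotientGroup.mk'_surjective Φ)
  set e := QuotientGroup.quotientQuotientEquivQuotient Φ P hΦP with he
  have hO' : Cfsg.pCore p ((G ⧸ Φ) ⧸ V) = ⊥ :=
    pCore_eq_bot_of_equiv e.symm (H1.pCore_quotient_eq_bot p)
  obtain ⟨⟨a, haA⟩, ha⟩ := hA.exists_generator
  have hAz : A = zpowers a := by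
    apply le_antisymm
    · intro x hx
      obtain ⟨k, hk⟩ := mem_zpowers_iff.1 (ha ⟨x, hx⟩)
      exact mem_zpowers_iff.2 ⟨k, congrArg Subtype.val hk⟩
    · rwa [zpowers_le]
  have key : f a ∈ V := by
    refine transv_core (p := p) hEA hcent hO' (isPSolvable_quotient Φ hG) ?_ ?_ ?_
    · obtain ⟨k, hk⟩ := hAp ⟨a, haA⟩
      exact ⟨k, by rw [← map_pow]; rw [show a ^ p ^ k = 1 from congrArg Subtype.val hk, map_one]⟩
    · rintro _ ⟨x, hx, rfl⟩
      have h1 : a * x * a⁻¹ * x⁻¹ ∈ zpowers a := by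
        rw [← hAz]
        have h2 : a * x * a⁻¹ * x⁻¹ = a * (x * a⁻¹ * x⁻¹) := by group
        rw [h2]
        exact mul_mem haA (hPA x hx _ (inv_mem haA))
      have h2 : f (a * x * a⁻¹ * x⁻¹) ∈ zpowers (f a) := by
        rw [← MonoidHom.map_zpowers]
        exact mem_map_of_mem f h1
      simpa only [map_mul, map_inv] using h2
    · rcases h with h | h
      · exact Or.inl h
      · right
        intro h1
        exact h (Cfsg.Agent.H28.involves_of_quotient Φ h1)
  rw [hAz, zpowers_le]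
  obtain ⟨x, hx, hxa⟩ := key
  have h1 : x⁻¹ * a ∈ Φ := QuotientGroup.eq.1 hxa
  have h2 := mul_mem hx (hΦP h1)
  rwa [mul_inv_cancel_left] at h2

/-- Let G be a finite p-soluble group, P a Sylow p-subgroup of G and A a cyclic normal subgroup of P. If p is odd, or if no section of G is isomorphic to the symmetric group of degree 4, then A ≤ O_{p',p}(G). -/
theorem result {G : Type*} [Group G] [Finite G] {p : ℕ} [Fact p.Prime] (hG : Cfsg.IsPSolvable p G) (P : Sylow p G) (A : Subgroup G) (hAP : A ≤ (P : Subgroup G)) (hAn : (P : Subgroup G) ≤ Subgroup.normalizer (A : Set G)) (hA : IsCyclic A) (h : p ≠ 2 ∨ ¬ Cfsg.Involves (Equiv.Perm (Fin 4)) G) : A ≤ Cfsg.pPrimePCore p G := by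
  set N := Cfsg.pPrimeCore p G with hN
  have hO : Cfsg.pPrimeCore p (G ⧸ N) = ⊥ := pPrimeCore_quotient_eq_bot p G
  have h1 : A.map (QuotientGroup.mk' N) ≤ Cfsg.pCore p (G ⧸ N) := by
    refine main (isPSolvable_quotient N hG) hO ?_ ?_ ?_ ?_
    · exact isCyclic_of_surjective ((QuotientGroup.mk' N).subgroupMap A) ((QuotientGroup.mk' N).subgroupMap_surjective A)
    · exact (P.2.to_le hAP).map _
    · have h2 : Cfsg.pCore p (G ⧸ N) ≤ (P : Subgroup G).map (QuotientGroup.mk' N) :=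
        H1.pCore_le_sylow (P.mapSurjective (QuotientGroup.mk'_surjective N))
      rintro x hx _ ⟨a, ha, rfl⟩
      obtain ⟨y, hy, rfl⟩ := h2 hx
      refine ⟨y * a * y⁻¹, ?_, by simp⟩
      exact (mem_normalizer_iff.1 (hAn hy) a).1 ha
    · rcases h with h | h
      · exact Or.inl h
      · right
        intro h1
        exact h (Cfsg.Agent.H28.involves_of_quotient N h1)
  intro a ha
  exact h1 (mem_map_of_mem _ ha)

end Cfsg.Agent.S3788
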