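import Cfsg.Statements.S3789
import Cfsg.Agent.H23.DLen4

set_option autoImplicit false
set_option linter.all false
open Cfsg

namespace Cfsg.Agent.S3789

open Subgroup Cfsg.Agent.H23 Cfsg.Agent.H23.DL
open scoped commutatorElement

universe u

theorem der_of_surj {A B : Type*} [Group A] [Group B] (f : A →* B) (hf : Function.Surjective f) {d : ℕ}
    (h : derivedSeries A d = ⊥) : derivedSeries B d = ⊥ := by
  rw [← map_derivedSeries_eq hf, h, Subgroup.map_bot]

theorem sylow_surj {G G' : Type*} [Group G] [Finite G] [Group G'] {p : ℕ} [Fact p.Prime] (f : G →* G')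
    (hf : Function.Surjective f) {d : ℕ} (h : ∃ P : Sylow p G, derivedSeries ↥(P : Subgroup G) d = ⊥) :
    ∃ P : Sylow p G', derivedSeries ↥(P : Subgroup G') d = ⊥ := by
  obtain ⟨P, hP⟩ := h
  refine ⟨P.mapSurjective hf, ?_⟩
  have h1 := der_of_surj (f.subgroupMap (P : Subgroup G)) (f.subgroupMap_surjective _) hP
  rw [Sylow.coe_mapSurjective]
  exact h1

theorem key {G : Type u} [Group G] [Finite G] {p : ℕ} [hp : Fact p.Prime] (hp2 : p ≠ 2)
    (hG : Cfsg.IsPSolvable p G) (hO : Cfsg.pPrimeCore p G = ⊥) (P : Sylow p G) {d : ℕ}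
    (hd : derivedSeries ↥(P : Subgroup G) (d + 1) = ⊥) :
    (derivedSeries ↥(P : Subgroup G) d).map (P : Subgroup G).subtype ≤ Cfsg.pCore p G := by
  obtain ⟨X, i1, i2, f, M, i3, i4, i5, ρ, j, hker, hX, hXO, hρ, hj, hjm, hjρ⟩ := rep_setup hG hO
  have hOP : Cfsg.pCore p G ≤ (P : Subgroup G) := by
    have h1 := (H1.pCore_isPGroup p G)
    obtain ⟨Q, hQ⟩ := h1.exists_le_sylow
    obtain ⟨g, hg⟩ := MulAction.exists_smul_eq G Q P
    rw [← hg]
    intro x hx
    rw [Sylow.coe_subgroup_smul, mem_pointwise_smul_iff_inv_smul_mem]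
    apply hQ
    have h2 : g⁻¹ * x * g⁻¹⁻¹ ∈ Cfsg.pCore p G := (inferInstance : (Cfsg.pCore p G).Normal).conj_mem x hx g⁻¹
    rw [← map_inv, MulAut.smul_def, MulAut.conj_apply]
    exact h2
  have hOn : (Cfsg.pCore p G).Normal := inferInstance
  have hj1 : j 1 = 0 := by
    have := hjm 1 1
    rw [mul_one] at this
    have h2 : j 1 + j 1 = j 1 + 0 := by rw [add_zero]; exact this.symm
    exact add_left_cancel h2
  -- the commutator formula
  have hcomm : ∀ (g : G) (v : Cfsg.pCore p G), ∃ w : Cfsg.pCore p G, (w : G) = ⁅g, (v : G)⁆ ∧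
      (ρ (f g) - 1) (j v) = j w := by
    intro g v
    have h1 : g * v * g⁻¹ ∈ Cfsg.pCore p G := hOn.conj_mem v v.2 g
    have h2 : ⁅g, (v : G)⁆ ∈ Cfsg.pCore p G := by
      rw [commutatorElement_def]; exact mul_mem h1 (inv_mem v.2)
    refine ⟨⟨_, h2⟩, rfl, ?_⟩
    have h3 := hjρ g v ⟨_, h1⟩ rfl
    have h4 : (⟨g * v * g⁻¹, h1⟩ : Cfsg.pCore p G) = ⟨⁅g, (v : G)⁆, h2⟩ * v := by
      apply Subtype.ext
      show g * v * g⁻¹ = ⁅g, (v : G)⁆ * v
      rw [commutatorElement_def]; group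
    rw [h4, hjm] at h3
    show ρ (f g) (j v) - j v = _
    rw [h3, add_sub_cancel_right]
  intro x hx
  rw [← hker]
  rcases d with _ | d
  · obtain ⟨y, -, rfl⟩ := hx
    rw [MonoidHom.mem_ker]
    apply hρ
    rw [map_one]
    have hab : ∀ a b : (P : Subgroup G), a * b = b * a := by
      intro a b
      have h1 : ⁅a, b⁆ ∈ derivedSeries ↥(P : Subgroup G) (0 + 1) := by
        rw [derivedSeries_succ, derivedSeries_zero]
        exact commutator_mem_commutator (mem_top a) (mem_top b)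
      rw [hd, mem_bot] at h1
      exact commutatorElement_eq_one_iff_mul_comm.mp h1
    ext m
    obtain ⟨v, rfl⟩ := hj m
    have h2 : (v : G) = (y : G) * v * (y : G)⁻¹ := by
      have h3 := congrArg Subtype.val (hab y ⟨v, hOP v.2⟩)
      have h4 : (y : G) * v = v * y := h3
      rw [h4, mul_inv_cancel_right]
    exact hjρ y v v h2
  · obtain ⟨B0, hB0⟩ : ∃ B0, B0 = (derivedSeries ↥(P : Subgroup G) d).map (P : Subgroup G).subtype := ⟨_, rfl⟩
    obtain ⟨A0, hA0⟩ : ∃ A0, A0 = (derivedSeries ↥(P : Subgroup G) (d + 1)).map (P : Subgroup G).subtype := ⟨_, rfl⟩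
    rw [← hA0] at hx
    have hAB0 : A0 = ⁅B0, B0⁆ := by
      rw [hA0, hB0, derivedSeries_succ, Subgroup.map_commutator]
    have hAA0 : ⁅A0, A0⁆ = ⊥ := by
      rw [hA0, ← Subgroup.map_commutator, ← derivedSeries_succ, hd, Subgroup.map_bot]
    have hBP : B0 ≤ (P : Subgroup G) := by rw [hB0]; exact Subgroup.map_subtype_le _
    have hAP : A0 ≤ (P : Subgroup G) := by rw [hA0]; exact Subgroup.map_subtype_le _
    have hnB : ∀ g ∈ (P : Subgroup G), ∀ b ∈ B0, g * b * g⁻¹ ∈ B0 := by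
      intro g hg b hb
      rw [hB0] at hb ⊢
      obtain ⟨y, hy, rfl⟩ := hb
      exact ⟨⟨g, hg⟩ * y * ⟨g, hg⟩⁻¹, (derivedSeries_normal _ _).conj_mem y hy ⟨g, hg⟩, rfl⟩
    have hnA : ∀ g ∈ (P : Subgroup G), ∀ b ∈ A0, g * b * g⁻¹ ∈ A0 := by
      intro g hg b hb
      rw [hA0] at hb ⊢
      obtain ⟨y, hy, rfl⟩ := hb
      exact ⟨⟨g, hg⟩ * y * ⟨g, hg⟩⁻¹, (derivedSeries_normal _ _).conj_mem y hy ⟨g, hg⟩, rfl⟩
    have hAleB : A0 ≤ B0 := by
      rw [hA0, hB0]
      exact Subgroup.map_mono (derivedSeries_antitone _ (Nat.le_succ d))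
    have cA : ∀ a ∈ A0, ∀ v ∈ (P : Subgroup G), ⁅a, v⁆ ∈ A0 := by
      intro a ha v hv
      have : ⁅a, v⁆ = a * (v * a⁻¹ * v⁻¹) := by rw [commutatorElement_def]; group
      rw [this]
      exact mul_mem ha (hnA v hv _ (inv_mem ha))
    have cB : ∀ a ∈ B0, ∀ v ∈ (P : Subgroup G), ⁅a, v⁆ ∈ B0 := by
      intro a ha v hv
      have : ⁅a, v⁆ = a * (v * a⁻¹ * v⁻¹) := by rw [commutatorElement_def]; group
      rw [this]
      exact mul_mem ha (hnB v hv _ (inv_mem ha))
    have cAA : ∀ a ∈ A0, ∀ a' ∈ A0, ⁅a, a'⁆ = 1 := by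
      intro a ha a' ha'
      have := commutator_mem_commutator ha ha'
      rwa [hAA0, mem_bot] at this
    have cBB : ∀ a ∈ B0, ∀ a' ∈ B0, ⁅a, a'⁆ ∈ A0 := by
      intro a ha a' ha'
      rw [hAB0]
      exact commutator_mem_commutator ha ha'
    have hPp : IsPGroup p (P : Subgroup G) := P.isPGroup'
    have hAbot : A0.map f = ⊥ := by
      apply KP hp2 ρ hρ hX hXO (A := A0.map f) (B := B0.map f) ((hPp.to_le hBP).map f) (Subgroup.map_mono hAleB)
      · rintro _ ⟨a, ha, rfl⟩ _ ⟨a', ha', rfl⟩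
        rw [← map_mul, commutatorElement_eq_one_iff_mul_comm.mp (cAA a ha a' ha'), map_mul]
      · rintro _ ⟨b, hb, rfl⟩ _ ⟨a, ha, rfl⟩
        exact ⟨b * a * b⁻¹, hnA b (hBP hb) a ha, by rw [map_mul, map_mul, map_inv]⟩
      · rw [hAB0, Subgroup.map_commutator]
      · rintro _ ⟨a, ha, rfl⟩
        ext m
        obtain ⟨v, rfl⟩ := hj m
        rw [Module.End.mul_apply]
        obtain ⟨w, hw, hw'⟩ := hcomm a v
        obtain ⟨w2, hw2, hw2'⟩ := hcomm a w
        rw [hw', hw2']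
        have h3 : w2 = 1 := by
          apply Subtype.ext
          rw [hw2, hw]
          exact cAA a ha _ (cA a ha v (hOP v.2))
        rw [h3, hj1]; rfl
      · rintro _ ⟨a, ha, rfl⟩ _ ⟨b, hb, rfl⟩
        ext m
        obtain ⟨v, rfl⟩ := hj m
        rw [Module.End.mul_apply, Module.End.mul_apply]
        obtain ⟨w, hw, hw'⟩ := hcomm b v
        obtain ⟨w2, hw2, hw2'⟩ := hcomm b w
        obtain ⟨w3, hw3, hw3'⟩ := hcomm a w2
        rw [hw', hw2', hw3']
        have h3 : w3 = 1 := by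
          apply Subtype.ext
          rw [hw3, hw2, hw]
          exact cAA a ha _ (cBB b hb _ (cB b hb v (hOP v.2)))
        rw [h3, hj1]; rfl
    have h1 : f x ∈ A0.map f := ⟨x, hx, rfl⟩
    rw [hAbot, mem_bot] at h1
    exact h1

theorem main {p : ℕ} [hp : Fact p.Prime] (hp2 : p ≠ 2) (d : ℕ) : ∀ (G : Type u) [Group G] [Finite G],
    Cfsg.IsPSolvable p G → (∃ P : Sylow p G, derivedSeries ↥(P : Subgroup G) d = ⊥) → Cfsg.PLengthLE p d G := by
  induction d with
  | zero =>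
    rintro G _ _ _ ⟨P, hP⟩
    apply plengthLE_zero_of_coprime
    rw [Nat.coprime_comm, Nat.Prime.coprime_iff_not_dvd hp.out]
    intro hdvd
    rw [derivedSeries_zero] at hP
    have h1 := P.dvd_card_of_dvd_card hdvd
    have h2 : Nat.card (P : Subgroup G) = 1 := by
      rw [← Subgroup.card_top (G := ↥(P : Subgroup G)), hP, Subgroup.card_bot]
    have h3 : p ∣ Nat.card (P : Subgroup G) := h1
    rw [h2] at h3
    exact hp.out.one_lt.ne' (Nat.dvd_one.mp h3)
  | succ e ih =>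
    intro G _ _ hG h
    obtain ⟨N, hN⟩ : ∃ N, N = Cfsg.pPrimeCore p G := ⟨_, rfl⟩
    haveI hNn : N.Normal := by rw [hN]; infer_instance
    have hO : Cfsg.pPrimeCore p (G ⧸ N) = ⊥ := by subst hN; exact pPrimeCore_quotient_eq_bot p G
    have hG1 := isPSolvable_quotient N hG
    obtain ⟨P, hP⟩ := sylow_surj (QuotientGroup.mk' N) (QuotientGroup.mk'_surjective N) h
    have hkey := key hp2 hG1 hO P hP
    obtain ⟨O, hOdef⟩ : ∃ O, O = Cfsg.pCore p (G ⧸ N) := ⟨_, rfl⟩
    rw [← hOdef] at hkey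
    haveI hOn : O.Normal := by rw [hOdef]; infer_instance
    have h2 : ∃ Q : Sylow p ((G ⧸ N) ⧸ O), derivedSeries ↥(Q : Subgroup ((G ⧸ N) ⧸ O)) e = ⊥ := by
      refine ⟨P.mapSurjective (QuotientGroup.mk'_surjective O), ?_⟩
      rw [Sylow.coe_mapSurjective, eq_bot_iff]
      have hs := (QuotientGroup.mk' O).subgroupMap_surjective (P : Subgroup (G ⧸ N))
      rw [← map_derivedSeries_eq hs]
      rintro _ ⟨y, hy, rfl⟩
      rw [mem_bot]
      apply Subtype.ext
      show QuotientGroup.mk' O (y : G ⧸ N) = 1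
      exact (QuotientGroup.eq_one_iff _).mpr (hkey ⟨y, hy, rfl⟩)
    have h3 := ih ((G ⧸ N) ⧸ O) (isPSolvable_quotient O hG1) h2
    have h4 : Cfsg.PLengthLE p 1 O := plengthLE_of_isPGroup (by rw [hOdef]; exact H1.pCore_isPGroup p (G ⧸ N))
    have h5 := plengthLE_extension O h4 h3
    have h6 : Cfsg.PLengthLE p 0 N := plengthLE_zero_of_coprime (by rw [hN]; exact H1.pPrimeCore_coprime p G)
    have h7 := plengthLE_extension N h6 h5
    have h8 : 0 + (1 + e) = e + 1 := by omega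
    rwa [h8] at h7

/-- Let p be an odd prime and G a finite p-soluble group whose Sylow p-subgroups have derived length at most d. Then G has p-length at most d. -/
theorem result {G : Type*} [Group G] [Finite G] {p : ℕ} [Fact p.Prime] (hp : p ≠ 2) (hG : Cfsg.IsPSolvable p G) (d : ℕ) (hd : ∀ P : Sylow p G, derivedSeries ↥(P : Subgroup G) d = ⊥) : Cfsg.PLengthLE p d G := by
  exact main hp d G hG ⟨default, hd default⟩

end Cfsg.Agent.S3789
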