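import Cfsg.Statements.S3790
import Cfsg.Agent.H23.PLen
import Cfsg.Agent.H1.Basic
import Cfsg.Agent.H1.Cores

set_option autoImplicit false
set_option linter.all false
open Cfsg

namespace Cfsg.Agent.S3790

open Subgroup

universe u in
theorem main (p : ℕ) [hp : Fact p.Prime] (r : ℕ) : ∀ (q : Fin r → ℕ) (hq : ∀ i, (q i).Prime ∧ q i ≠ p)
    (G : Type u) [Group G] [Finite G], 
    (∀ s : ℕ, s.Prime → s ∣ Nat.card G → s ≠ p → ∃ i, q i = s) → ∀ (l : Fin r → ℕ),
    (∀ i, Cfsg.PLengthLE (q i) (l i) G) →
    Cfsg.PLengthLE p (Finset.univ.prod fun i => 1 + l i) G := by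
  classical
  induction r with
  | zero =>
    intro q hq G _ _ hcover l hl
    have h1 : IsPGroup p G := by
      have h2 : Nat.card G = p ^ (Nat.card G).primeFactorsList.length := by
        apply Nat.eq_prime_pow_of_unique_prime_dvd Nat.card_pos.ne'
        intro s hs hsd
        by_contra hne
        obtain ⟨i, -⟩ := hcover s hs hsd hne
        exact i.elim0
      exact IsPGroup.of_card h2
    have h3 := Cfsg.Agent.H23.plengthLE_of_isPGroup h1
    simpa using h3
  | succ r ih =>
    intro q hq
    -- induction on the length with respect to `q 0`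
    have key : ∀ (m : ℕ) (G : Type u) [Group G] [Finite G], 
        (∀ s : ℕ, s.Prime → s ∣ Nat.card G → s ≠ p → ∃ i, q i = s) → ∀ (l : Fin r → ℕ),
        (∀ i, Cfsg.PLengthLE (q (Fin.succ i)) (l i) G) → Cfsg.PLengthLE (q 0) m G →
        Cfsg.PLengthLE p ((1 + m) * (Finset.univ.prod fun i => 1 + l i)) G := by
      haveI hq0 : Fact (q 0).Prime := ⟨(hq 0).1⟩
      have base : ∀ (G : Type u) [Group G] [Finite G], 
        (∀ s : ℕ, s.Prime → s ∣ Nat.card G → s ≠ p → ∃ i, q i = s) → ∀ (l : Fin r → ℕ),
        (∀ i, Cfsg.PLengthLE (q (Fin.succ i)) (l i) G) → (Nat.card G).Coprime (q 0) →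
        Cfsg.PLengthLE p (Finset.univ.prod fun i => 1 + l i) G := by
        intro G _ _ hcover l hl hcop
        refine ih (fun i => q (Fin.succ i)) (fun i => hq _) G ?_ l hl
        intro s hs hsd hsp
        obtain ⟨i, hi⟩ := hcover s hs hsd hsp
        rcases Fin.eq_zero_or_eq_succ i with h0 | ⟨j, hj⟩
        · exfalso
          rw [h0] at hi
          rw [← hi] at hsd
          have := (Nat.Coprime.symm hcop).eq_one_of_dvd hsd
          exact (hq 0).1.one_lt.ne' this
        · exact ⟨j, by rw [← hj]; exact hi⟩
      intro m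
      induction m with
      | zero =>
        intro G _ _ hcover l hl h0
        have h1 := Cfsg.Agent.H23.card_coprime_of_plengthLE_zero h0
        simpa using base G hcover l hl h1
      | succ m ihm =>
        intro G _ _ hcover l hl hm
        set N := Cfsg.pPrimeCore (q 0) G with hN
        have hNl : Cfsg.PLengthLE p (Finset.univ.prod fun i => 1 + l i) N := by
          refine base N ?_ l ?_ (Cfsg.Agent.H1.pPrimeCore_coprime (q 0) G)
          · intro s hs hsd hsp
            exact hcover s hs (hsd.trans (card_subgroup_dvd_card _)) hsp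
          · intro i
            haveI : Fact (q (Fin.succ i)).Prime := ⟨(hq _).1⟩
            exact Cfsg.Agent.H23.plengthLE_subgroup N (hl i)
        set K := Cfsg.pCore (q 0) (G ⧸ N) with hK
        have hKl : Cfsg.PLengthLE p 0 K := by
          apply Cfsg.Agent.H2.PLengthLE.of_not_dvd
          intro hd
          obtain ⟨k, hk⟩ := IsPGroup.iff_card.mp (Cfsg.Agent.H1.pCore_isPGroup (q 0) (G ⧸ N))
          rw [← hK] at hk
          rw [hk] at hd
          have := (Nat.prime_dvd_prime_iff_eq hp.out (hq 0).1).mp (hp.out.dvd_of_dvd_pow hd)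
          exact (hq 0).2 this.symm
        have hQ : Cfsg.PLengthLE p ((1 + m) * (Finset.univ.prod fun i => 1 + l i)) ((G ⧸ N) ⧸ K) := by
          refine ihm _ ?_ l ?_ (Cfsg.Agent.H23.plengthLE_quotient_quotient hm)
          · intro s hs hsd hsp
            exact hcover s hs ((hsd.trans K.card_quotient_dvd_card).trans N.card_quotient_dvd_card) hsp
          · intro i
            haveI : Fact (q (Fin.succ i)).Prime := ⟨(hq _).1⟩
            exact Cfsg.Agent.H23.plengthLE_quotient K (Cfsg.Agent.H23.plengthLE_quotient N (hl i))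
        have h1 := Cfsg.Agent.H23.plengthLE_extension N hNl (Cfsg.Agent.H23.plengthLE_extension K hKl hQ)
        have h2 : (1 + (m + 1)) * (Finset.univ.prod fun i => 1 + l i) =
            (Finset.univ.prod fun i => 1 + l i) + (0 + (1 + m) * (Finset.univ.prod fun i => 1 + l i)) := by
          ring
        rw [h2]
        exact h1
    intro G _ _ hcover l hl
    have h1 := key (l 0) G hcover (fun i => l (Fin.succ i)) (fun i => hl _) (hl 0)
    rw [Fin.prod_univ_succ]
    exact h1


/-- Let G be a finite solvable group and p a prime. Suppose p₁, …, p_r are distinct primes, all different from p, that include every prime dividing the order of G other than p, and that G has p_i-length at most l_i for each i. Then G has p-length at most the product of the numbers 1 + l_i. -/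
theorem result {G : Type*} [Group G] [Finite G] (hG : Group.IsSolvable G) (p : ℕ) [Fact p.Prime] (r : ℕ) (q : Fin r → ℕ) (hq : ∀ i, (q i).Prime ∧ q i ≠ p) (hinj : Function.Injective q) (hcover : ∀ s : ℕ, s.Prime → s ∣ Nat.card G → s ≠ p → ∃ i, q i = s) (l : Fin r → ℕ) (hl : ∀ i, Cfsg.PLengthLE (q i) (l i) G) : Cfsg.PLengthLE p (Finset.univ.prod fun i => 1 + l i) G := by
  exact main p r q hq G hcover l hl

end Cfsg.Agent.S3790
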