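import Cfsg.Statements.S3791
import Cfsg.Agent.H23.PLen
import Cfsg.Agent.H1.Basic
import Cfsg.Agent.H1.Cores

set_option autoImplicit false
set_option linter.all false
open Cfsg

namespace Cfsg.Agent.S3791

open Subgroup

theorem derivedSeries_add_le {G : Type*} [Group G] {K : Subgroup G} {a : ℕ} (h : derivedSeries G a ≤ K)
    (b : ℕ) : derivedSeries G (a + b) ≤ (derivedSeries K b).map K.subtype := by
  induction b with
  | zero =>
    rw [add_zero, derivedSeries_zero, ← MonoidHom.range_eq_map, range_subtype]
    exact h
  | succ b ih =>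
    rw [← add_assoc, derivedSeries_succ, derivedSeries_succ, map_commutator]
    exact commutator_mono ih ih

theorem derivedSeries_le_of_quotient {G : Type*} [Group G] (K : Subgroup G) [K.Normal] {a : ℕ}
    (h : derivedSeries (G ⧸ K) a = ⊥) : derivedSeries G a ≤ K := by
  have h1 := map_derivedSeries_eq (QuotientGroup.mk'_surjective K) a
  rw [h, Subgroup.map_eq_bot_iff, QuotientGroup.ker_mk'] at h1
  exact h1

theorem derivedSeries_eq_bot_of_injective {G G' : Type*} [Group G] [Group G'] (f : G' →* G)
    (hf : Function.Injective f) {a : ℕ} (h : derivedSeries G a = ⊥) : derivedSeries G' a = ⊥ := by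
  have h1 := map_derivedSeries_le_derivedSeries f a
  rw [h, le_bot_iff, Subgroup.map_eq_bot_iff, (MonoidHom.ker_eq_bot_iff f).mpr hf, le_bot_iff] at h1
  exact h1

theorem derivedSeries_eq_bot_of_surjective {G G' : Type*} [Group G] [Group G'] (f : G →* G')
    (hf : Function.Surjective f) {a : ℕ} (h : derivedSeries G a = ⊥) : derivedSeries G' a = ⊥ := by
  rw [← map_derivedSeries_eq hf, h, Subgroup.map_bot]

theorem sylow_quotient_derived {G : Type*} [Group G] [Finite G] {q : ℕ} [Fact q.Prime] {d : ℕ}
    (h : ∀ S : Sylow q G, derivedSeries S d = ⊥) (K : Subgroup G) [K.Normal] (S : Sylow q (G ⧸ K)) :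
    derivedSeries S d = ⊥ := by
  obtain ⟨T, rfl⟩ := Sylow.mapSurjective_surjective (QuotientGroup.mk'_surjective K) q S
  exact derivedSeries_eq_bot_of_surjective ((QuotientGroup.mk' K).subgroupMap (T : Subgroup G))
    ((QuotientGroup.mk' K).subgroupMap_surjective _) (h T)

universe u in
theorem main {r : ℕ} (q : Fin r → ℕ) (hq : ∀ i, (q i).Prime) (n : ℕ) :
    ∀ (G : Type u) [Group G] [Finite G], Nat.card G ≤ n → Group.IsSolvable G →
    (∀ s : ℕ, s.Prime → s ∣ Nat.card G → ∃ i, q i = s) → ∀ (d l : Fin r → ℕ),
    (∀ i, ∀ S : Sylow (q i) G, derivedSeries S (d i) = ⊥) → (∀ i, Cfsg.PLengthLE (q i) (l i) G) →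
    derivedSeries G (Finset.univ.sum fun i => d i * l i) = ⊥ := by
  classical
  induction n with
  | zero =>
    intro G _ _ hG
    have : 0 < Nat.card G := Nat.card_pos
    omega
  | succ n ih =>
    intro G _ _ hcard hsol hcover d l hd hl
    by_cases htriv : Subsingleton G
    · exact Subsingleton.elim _ _
    haveI hnt : Nontrivial G := not_subsingleton_iff_nontrivial.mp htriv
    have hlt : ∀ K : Subgroup G, K.Normal → K ≠ ⊥ → Nat.card (G ⧸ K) ≤ n := by
      intro K _ hK
      have h1 := K.card_eq_card_quotient_mul_card_subgroup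
      have h2 : 1 < Nat.card K := (one_lt_card_iff_ne_bot K).mpr hK
      have h3 : 0 < Nat.card (G ⧸ K) := Nat.card_pos
      nlinarith
    have hcov : ∀ K : Subgroup G, K.Normal → ∀ s : ℕ, s.Prime → s ∣ Nat.card (G ⧸ K) →
        ∃ i, q i = s := fun K _ s hs hsd => hcover s hs (hsd.trans K.card_quotient_dvd_card)
    have hdq : ∀ (K : Subgroup G) [K.Normal], ∀ i, ∀ S : Sylow (q i) (G ⧸ K), derivedSeries S (d i) = ⊥ := by
      intro K _ i S
      haveI := Fact.mk (hq i)
      exact sylow_quotient_derived (hd i) K S
    by_cases hMN : ∃ M N : Subgroup G, M.Normal ∧ N.Normal ∧ M ≠ ⊥ ∧ N ≠ ⊥ ∧ M ⊓ N = ⊥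
    · obtain ⟨M, N, hM, hN, hM1, hN1, hMN⟩ := hMN
      rw [eq_bot_iff, ← hMN]
      have hk : ∀ K : Subgroup G, K.Normal → K ≠ ⊥ →
          derivedSeries G (Finset.univ.sum fun i => d i * l i) ≤ K := by
        intro K hK hK1
        apply derivedSeries_le_of_quotient
        refine ih (G ⧸ K) (hlt K hK hK1) inferInstance (hcov K hK) d l (hdq K) ?_
        intro i
        haveI := Fact.mk (hq i)
        exact Cfsg.Agent.H23.plengthLE_quotient K (hl i)
      exact le_inf (hk M hM hM1) (hk N hN hN1)
    · obtain ⟨p, A, hp, hA, hA1, _, hAp⟩ := Cfsg.Agent.H1.exists_pgroup_characteristic_of_solvable G hsol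
      haveI := Fact.mk hp
      have hcore : Cfsg.pCore p G ≠ ⊥ := by
        intro h
        apply hA1
        rw [eq_bot_iff, ← h]
        exact Cfsg.Agent.H1.le_pCore inferInstance hAp
      have hpp := Cfsg.Agent.H1.pCore_isPGroup p G
      have hprime : Cfsg.pPrimeCore p G = ⊥ := by
        by_contra hne
        apply hMN
        refine ⟨Cfsg.pCore p G, Cfsg.pPrimeCore p G, inferInstance, inferInstance, hcore, hne, ?_⟩
        apply inf_eq_bot_of_coprime
        obtain ⟨m, hm⟩ := IsPGroup.iff_card.mp hpp
        rw [hm]
        exact Nat.Coprime.pow_left _ (Nat.Coprime.symm (Cfsg.Agent.H1.pPrimeCore_coprime p G))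
      have hpd : p ∣ Nat.card G := by
        obtain ⟨m, hm⟩ := IsPGroup.iff_card.mp hpp
        have h1 : m ≠ 0 := by
          rintro rfl
          rw [pow_zero] at hm
          exact hcore ((card_eq_one).mp hm)
        have h2 : p ∣ Nat.card (Cfsg.pCore p G) := by
          rw [hm]; exact dvd_pow_self p h1
        exact h2.trans (card_subgroup_dvd_card _)
      obtain ⟨i, hi⟩ := hcover p hp hpd
      subst hi
      obtain ⟨l', hl'⟩ : ∃ l', l i = l' + 1 := by
        apply Nat.exists_eq_succ_of_ne_zero
        intro h0
        have h1 := hl i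
        rw [h0] at h1
        have h2 := Cfsg.Agent.H23.card_coprime_of_plengthLE_zero h1
        exact hp.one_lt.ne' (Nat.dvd_one.mp ((Nat.Coprime.symm h2).eq_one_of_dvd hpd ▸ dvd_rfl))
      set K := Cfsg.pCore (q i) G with hK
      have h1 := ih (G ⧸ K) (hlt K inferInstance hcore) inferInstance (hcov K inferInstance) d
        (Function.update l i l') (hdq K) (by
          intro j
          haveI := Fact.mk (hq j)
          by_cases hji : j = i
          · subst hji
            rw [Function.update_self]
            apply Cfsg.Agent.H23.plengthLE_quotient_pCore hprime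
            rw [← hl']
            exact hl j
          · rw [Function.update_of_ne hji]
            exact Cfsg.Agent.H23.plengthLE_quotient K (hl j))
      have h2 : (Finset.univ.sum fun j => d j * l j) =
          (Finset.univ.sum fun j => d j * (Function.update l i l') j) + d i := by
        rw [← Finset.add_sum_erase _ _ (Finset.mem_univ i),
          ← Finset.add_sum_erase _ (fun j => d j * (Function.update l i l') j) (Finset.mem_univ i)]
        rw [Function.update_self, hl']
        have h3 : ∑ x ∈ Finset.univ.erase i, d x * (Function.update l i l') x =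
            ∑ x ∈ Finset.univ.erase i, d x * l x := by
          apply Finset.sum_congr rfl
          intro x hx
          rw [Function.update_of_ne (Finset.ne_of_mem_erase hx)]
        rw [h3]
        ring
      rw [h2, eq_bot_iff]
      refine (derivedSeries_add_le (derivedSeries_le_of_quotient K h1) (d i)).trans ?_
      obtain ⟨S, hS⟩ := hpp.exists_le_sylow
      have h4 : derivedSeries K (d i) = ⊥ :=
        derivedSeries_eq_bot_of_injective (inclusion hS) (inclusion_injective hS) (hd i S)
      rw [h4, Subgroup.map_bot]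


/-- The Hall–Higman bound on derived length: let G be a finite solvable group, let p₁, …, p_r be distinct primes that include every prime dividing the order of G, and suppose that for each i the Sylow p_i-subgroups of G have derived length at most d_i and G has p_i-length at most l_i. Then G has derived length at most Σ d_i l_i. -/
theorem result {G : Type*} [Group G] [Finite G] (hG : Group.IsSolvable G) (r : ℕ) (q : Fin r → ℕ) (hq : ∀ i, (q i).Prime) (hinj : Function.Injective q) (hcover : ∀ s : ℕ, s.Prime → s ∣ Nat.card G → ∃ i, q i = s) (d l : Fin r → ℕ) (hd : ∀ i, ∀ P : Subgroup G, (haveI := Fact.mk (hq i); ∃ S : Sylow (q i) G, (S : Subgroup G) = P) → derivedSeries ↥P (d i) = ⊥) (hl : ∀ i, Cfsg.PLengthLE (q i) (l i) G) : derivedSeries G (Finset.univ.sum fun i => d i * l i) = ⊥ := by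
  refine main q hq (Nat.card G) G le_rfl hG hcover d l ?_ hl
  intro i S
  haveI := Fact.mk (hq i)
  exact hd i S ⟨S, rfl⟩

end Cfsg.Agent.S3791
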