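import Cfsg.Statements.S3793
import Cfsg.Agent.H23.SG7

set_option autoImplicit false
set_option linter.all false
open Cfsg

namespace Cfsg.Agent.S3793

open Subgroup Cfsg.Agent.H23

universe u

theorem main {p : ℕ} [hp : Fact p.Prime] (hp2 : p ≠ 2) (n : ℕ) : ∀ (G : Type u) [Group G] [Finite G]
    (_ : Group.IsSolvable G) (σ : MulAut G) (_ : σ ^ p ^ n = 1) (_ : ∀ g : G, σ g = g → g = 1),
    ∃ F : Fin (n + 1) → Subgroup G, F 0 = ⊥ ∧ F (Fin.last n) = ⊤ ∧ Monotone F ∧ (∀ i, (F i).Normal) ∧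
      ∀ i : Fin n, ∃ k : ℕ, (F i.succ).lowerCentralSeries k ≤ F i.castSucc := by
  induction n with
  | zero =>
    intro G _ _ _ σ hσ hf
    have hσ1 : σ = 1 := by simpa using hσ
    have h1 : ∀ g : G, g = 1 := fun g => hf g (by rw [hσ1]; rfl)
    refine ⟨fun _ => ⊥, rfl, ?_, fun _ _ _ => le_rfl, fun _ => inferInstance, fun i => i.elim0⟩
    symm
    rw [eq_bot_iff]
    intro g _
    rw [h1 g]
    exact one_mem _
  | succ n ih =>
    intro G _ _ hG σ hσ hf
    haveI := hG
    obtain ⟨τ, hτ, hτf⟩ := quot_aut σ hf (fittingSubgroup G) (by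
      intro x hx
      have := (characteristic_iff_le_comap.mp (inferInstance : (fittingSubgroup G).Characteristic)) σ hx
      exact this)
    refine chain_of_quot (fittingSubgroup G) (H1.fitting_isNilpotent G) ?_
    refine ih (G ⧸ fittingSubgroup G) inferInstance τ ?_ hτf
    ext a
    obtain ⟨g, rfl⟩ := QuotientGroup.mk_surjective a
    rw [hτ, MulAut.one_apply]
    symm
    exact QuotientGroup.eq.mpr (sg_fitting hG hp2 σ hσ hf g)


/-- The Shult–Gross Theorem: let p be an odd prime and G a finite solvable group with an automorphism σ of order p^n fixing only the identity. Then G has Fitting height at most n: G has Fitting height at most m when there is a chain of normal subgroups 1 = F₀ ≤ F₁ ≤ ⋯ ≤ F_m = G with each F_{i+1}/F_i nilpotent. -/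
theorem result {G : Type*} [Group G] [Finite G] (hG : Group.IsSolvable G) {p : ℕ} (hp : p.Prime) (hp2 : p ≠ 2) (σ : MulAut G) (n : ℕ) (hσ : orderOf σ = p ^ n) (hfpf : ∀ g : G, σ g = g → g = 1) : ∃ F : Fin (n + 1) → Subgroup G, F 0 = ⊥ ∧ F (Fin.last n) = ⊤ ∧ Monotone F ∧ (∀ i, (F i).Normal) ∧ ∀ i : Fin n, ∃ k : ℕ, (F i.succ).lowerCentralSeries k ≤ F i.castSucc := by
  haveI : Fact p.Prime := ⟨hp⟩
  exact main hp2 n G hG σ (by rw [← hσ]; exact pow_orderOf_eq_one σ) hfpf

end Cfsg.Agent.S3793
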