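import Cfsg.Statements.S3794
import Cfsg.Agent.H22.Fpf4

set_option autoImplicit false
set_option linter.all false
open Cfsg

namespace Cfsg.Agent.S3794

open Subgroup
open scoped commutatorElement

universe u

theorem quot_aut {G : Type*} [Group G] [Finite G] (σ : MulAut G) (hf : ∀ g : G, σ g = g → g = 1)
    (N : Subgroup G) [N.Normal] (hN : ∀ x ∈ N, σ x ∈ N) :
    ∃ τ : MulAut (G ⧸ N), (∀ g : G, τ (g : G ⧸ N) = ((σ g : G) : G ⧸ N)) ∧
      ∀ x : G ⧸ N, τ x = x → x = 1 := by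
  have hmap : N.map (σ : G ≃* G).toMonoidHom = N := by
    apply Subgroup.eq_of_le_of_card_ge
    · rintro _ ⟨x, hx, rfl⟩; exact hN x hx
    · rw [Subgroup.card_map_of_injective (σ : G ≃* G).injective]
  refine ⟨QuotientGroup.congr N N σ hmap, fun g => rfl, fun x hx => ?_⟩
  obtain ⟨g, rfl⟩ := QuotientGroup.mk_surjective x
  have h1 : ((σ g : G) : G ⧸ N) = (g : G ⧸ N) := hx
  have h2 : g⁻¹ * σ g ∈ N := QuotientGroup.eq.1 h1.symm
  exact (QuotientGroup.eq_one_iff g).2 (Cfsg.Agent.H22.Fpf4.fix_lift N hN hf h2)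

theorem pow4_of {G : Type*} [Group G] {σ : MulAut G} (hσ : σ ^ 4 = 1) (g : G) :
    σ (σ (σ (σ g))) = g := by
  have := congrArg (fun f : MulAut G => f g) hσ
  simpa [pow_succ] using this

theorem main (n : ℕ) : ∀ (G : Type u) [Group G] [Finite G] (hG : Group.IsSolvable G) (σ : MulAut G)
    (hσ : σ ^ 4 = 1) (hf : ∀ g : G, σ g = g → g = 1), Nat.card G = n →
    Group.IsNilpotent (commutator G) := by
  induction n using Nat.strong_induction_on with
  | _ n ih =>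
  intro G _ _ hG σ hσ hf hcard
  classical
  haveI := hG
  rcases subsingleton_or_nontrivial G with hs | hnt
  · haveI : Subsingleton (commutator G) := inferInstance
    infer_instance
  have hσ4 := fun g : G => pow4_of hσ g
  -- the minimal subgroup `V`
  obtain ⟨V, hVmin⟩ := (Set.toFinite {N : Subgroup G | N ≠ ⊥ ∧ N.Normal ∧ ∀ x ∈ N, σ x ∈ N}).exists_minimal
    ⟨⊤, top_ne_bot, inferInstance, fun x _ => mem_top _⟩
  obtain ⟨hV1, hVn, hVσ⟩ := hVmin.prop
  have hmin : ∀ N : Subgroup G, N.Normal → (∀ x ∈ N, σ x ∈ N) → N ≤ V → N ≠ ⊥ → N = V :=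
    fun N h1 h2 h3 h4 => le_antisymm h3 (hVmin.le_of_le ⟨h4, h1, h2⟩ h3)
  -- `V` is abelian
  have hVab : ∀ a ∈ V, ∀ b ∈ V, a * b = b * a := by
    have hlt : ⁅V, V⁆ < V := Group.IsSolvable.commutator_lt_of_ne_bot hV1
    have hbot : ⁅V, V⁆ = ⊥ := by
      by_contra hne
      refine hlt.ne (hmin _ inferInstance ?_ hlt.le hne)
      intro x hx
      have h1 : (⁅V, V⁆ : Subgroup G).map (σ : G ≃* G).toMonoidHom ≤ ⁅V, V⁆ := by
        rw [Subgroup.map_commutator]
        apply Subgroup.commutator_mono <;>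
        · rintro _ ⟨y, hy, rfl⟩; exact hVσ y hy
      exact h1 ⟨x, hx, rfl⟩
    intro a ha b hb
    have h1 : ⁅a, b⁆ ∈ ⁅V, V⁆ := commutator_mem_commutator ha hb
    rw [hbot, mem_bot] at h1
    exact commutatorElement_eq_one_iff_mul_comm.1 h1
  letI : CommGroup V := { (inferInstance : Group V) with
    mul_comm := fun a b => Subtype.ext (hVab a a.2 b b.2) }
  -- `V` is a `p`-group
  obtain ⟨p, hp, hpV⟩ := Nat.exists_prime_and_dvd
    (show Nat.card V ≠ 1 from fun h => hV1 (Subgroup.card_eq_one.1 h))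
  haveI : Fact p.Prime := ⟨hp⟩
  let Vp : Subgroup G :=
    { carrier := {v | v ∈ V ∧ ∃ k : ℕ, v ^ p ^ k = 1}
      one_mem' := ⟨V.one_mem, 0, by simp⟩
      mul_mem' := by
        rintro a b ⟨ha, k, hk⟩ ⟨hb, l, hl⟩
        refine ⟨V.mul_mem ha hb, k + l, ?_⟩
        rw [(show Commute a b from hVab a ha b hb).mul_pow, pow_add, pow_mul, hk, one_pow, one_mul,
          mul_comm (p ^ k), pow_mul, hl, one_pow]
      inv_mem' := by
        rintro a ⟨ha, k, hk⟩
        exact ⟨V.inv_mem ha, k, by rw [inv_pow, hk, inv_one]⟩ }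
  have hVp : Vp = V := by
    refine hmin Vp ⟨?_⟩ ?_ (fun x hx => hx.1) ?_
    · rintro x ⟨hx, k, hk⟩ g
      exact ⟨hVn.conj_mem x hx g, k, by rw [conj_pow, hk]; group⟩
    · rintro x ⟨hx, k, hk⟩
      exact ⟨hVσ x hx, k, by rw [← map_pow, hk, map_one]⟩
    · obtain ⟨v, hv⟩ := exists_prime_orderOf_dvd_card' p hpV
      intro hbot
      have h1 : (v : G) ∈ Vp := ⟨v.2, 1, by
        rw [pow_one, ← hv, ← Subgroup.orderOf_coe, pow_orderOf_eq_one]⟩
      rw [hbot, mem_bot] at h1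
      have h2 : v = 1 := Subtype.ext h1
      rw [h2, orderOf_one] at hv
      exact hp.one_lt.ne hv
  have hVpg : IsPGroup p V := by
    intro v
    have h1 : (v : G) ∈ Vp := by rw [hVp]; exact v.2
    obtain ⟨-, k, hk⟩ := h1
    exact ⟨k, Subtype.ext (by push_cast; exact hk)⟩
  -- the action
  let s : MulAut V :=
    { toFun := fun v => ⟨σ v, hVσ v v.2⟩
      invFun := fun v => ⟨σ (σ (σ v)), hVσ _ (hVσ _ (hVσ _ v.2))⟩
      left_inv := fun v => Subtype.ext (hσ4 v)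
      right_inv := fun v => Subtype.ext (hσ4 v)
      map_mul' := fun v w => Subtype.ext (map_mul σ (v : G) w) }
  have hsval : ∀ v : V, ((s v : V) : G) = σ v := fun v => rfl
  let ρ₀ : G →* MulAut V := MulAut.conjNormal
  have hρ₀ : ∀ (g : G) (v : V), ((ρ₀ g v : V) : G) = g * v * g⁻¹ := fun g v =>
    MulAut.conjNormal_apply g v
  have hrel₀ : ∀ g : G, ρ₀ (σ g) = s * ρ₀ g * s⁻¹ := by
    intro g
    rw [eq_mul_inv_iff_mul_eq]
    ext v
    show ((ρ₀ (σ g) (s v) : V) : G) = ((s (ρ₀ g v) : V) : G)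
    rw [hρ₀, hsval, hsval, hρ₀, map_mul, map_mul, map_inv]
  have hCσ : ∀ x ∈ ρ₀.ker, σ x ∈ ρ₀.ker := by
    intro x hx
    rw [MonoidHom.mem_ker] at hx ⊢
    rw [hrel₀, hx, mul_one, mul_inv_cancel]
  obtain ⟨φ, hφ, hφf⟩ := quot_aut σ hf ρ₀.ker hCσ
  have hS : Cfsg.Agent.H22.Fpf4.Sett φ (QuotientGroup.kerLift ρ₀) s := by
    refine ⟨QuotientGroup.kerLift_injective ρ₀, ?_, ?_, hφf, ?_⟩
    · intro x
      obtain ⟨g, rfl⟩ := QuotientGroup.mk_surjective x
      rw [hφ]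
      exact hrel₀ g
    · ext v
      have : s (s (s (s v))) = v := Subtype.ext (hσ4 v)
      simpa [pow_succ] using congrArg Subtype.val this
    · intro v hv
      exact Subtype.ext (hf v (congrArg Subtype.val hv))
  haveI hsolX : Group.IsSolvable (G ⧸ ρ₀.ker) := inferInstance
  have hcomm := hS.comm_of_coprime hsolX (by
    intro N hN hNφ hNc
    obtain ⟨k, hk⟩ := IsPGroup.iff_card.1 hVpg
    rw [hk]
    apply Nat.Coprime.pow_right
    rw [Nat.coprime_comm, Nat.Prime.coprime_iff_not_dvd hp]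
    intro hpN
    let P : Subgroup (G ⧸ ρ₀.ker) :=
      { carrier := {v | v ∈ N ∧ ∃ k : ℕ, v ^ p ^ k = 1}
        one_mem' := ⟨N.one_mem, 0, by simp⟩
        mul_mem' := by
          rintro a b ⟨ha, k, hk⟩ ⟨hb, l, hl⟩
          refine ⟨N.mul_mem ha hb, k + l, ?_⟩
          rw [(show Commute a b from hNc a ha b hb).mul_pow, pow_add, pow_mul, hk, one_pow, one_mul,
            mul_comm (p ^ k), pow_mul, hl, one_pow]
        inv_mem' := by
          rintro a ⟨ha, k, hk⟩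
          exact ⟨N.inv_mem ha, k, by rw [inv_pow, hk, inv_one]⟩ }
    have hPp : IsPGroup p P := by
      rintro ⟨x, -, k, hk⟩
      exact ⟨k, Subtype.ext hk⟩
    have hPn : ∀ x ∈ P, ∀ y : G ⧸ ρ₀.ker, y * x * y⁻¹ ∈ P := by
      rintro x ⟨hx, k, hk⟩ y
      exact ⟨hN.conj_mem x hx y, k, by rw [conj_pow, hk]; group⟩
    have hPφ : ∀ x ∈ P, φ x ∈ P := by
      rintro x ⟨hx, k, hk⟩
      exact ⟨hNφ x hx, k, by rw [← map_pow, hk, map_one]⟩
    set ρ := QuotientGroup.kerLift ρ₀ with hρdef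
    let W : Subgroup G :=
      { carrier := {v | ∃ h : v ∈ V, ∀ n ∈ P, ρ n ⟨v, h⟩ = ⟨v, h⟩}
        one_mem' := ⟨V.one_mem, fun n _ => map_one (ρ n)⟩
        mul_mem' := by
          rintro a b ⟨ha, ha'⟩ ⟨hb, hb'⟩
          refine ⟨V.mul_mem ha hb, fun n hn => ?_⟩
          have : (⟨a * b, V.mul_mem ha hb⟩ : V) = ⟨a, ha⟩ * ⟨b, hb⟩ := rfl
          rw [this, map_mul, ha' n hn, hb' n hn]
        inv_mem' := by
          rintro a ⟨ha, ha'⟩
          refine ⟨V.inv_mem ha, fun n hn => ?_⟩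
          have : (⟨a⁻¹, V.inv_mem ha⟩ : V) = (⟨a, ha⟩ : V)⁻¹ := rfl
          rw [this, map_inv, ha' n hn] }
    have hW : W = V := by
      refine hmin W ⟨?_⟩ ?_ (fun x hx => hx.1) ?_
      · rintro v ⟨hv, hv'⟩ g
        refine ⟨hVn.conj_mem v hv g, fun n hn => ?_⟩
        have e1 : (⟨g * v * g⁻¹, hVn.conj_mem v hv g⟩ : V) = ρ (g : G ⧸ ρ₀.ker) ⟨v, hv⟩ :=
          Subtype.ext (hρ₀ g ⟨v, hv⟩).symm
        rw [e1]
        have e2 : n * (g : G ⧸ ρ₀.ker) = g * ((g : G ⧸ ρ₀.ker)⁻¹ * n * (g : G ⧸ ρ₀.ker)) := by group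
        have e3 : (g : G ⧸ ρ₀.ker)⁻¹ * n * (g : G ⧸ ρ₀.ker) ∈ P := by
          have := hPn n hn (g : G ⧸ ρ₀.ker)⁻¹
          rwa [inv_inv] at this
        calc ρ n (ρ (g : G ⧸ ρ₀.ker) ⟨v, hv⟩) = ρ (n * g) ⟨v, hv⟩ := by rw [map_mul]; rfl
          _ = ρ (g : G ⧸ ρ₀.ker) (ρ ((g : G ⧸ ρ₀.ker)⁻¹ * n * (g : G ⧸ ρ₀.ker)) ⟨v, hv⟩) := by
              rw [e2, map_mul]; rfl
          _ = _ := by rw [hv' _ e3]
      · rintro v ⟨hv, hv'⟩
        refine ⟨hVσ v hv, fun n hn => ?_⟩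
        have e1 : (⟨σ v, hVσ v hv⟩ : V) = s ⟨v, hv⟩ := rfl
        rw [e1]
        -- `n = φ (φ³ n)`
        have h4 := pow4_of hS.phi4 n
        have hn' : φ (φ (φ n)) ∈ P := hPφ _ (hPφ _ (hPφ _ hn))
        have e2 := hS.rel' (φ (φ (φ n))) ⟨v, hv⟩
        rw [h4] at e2
        rw [← e2, hv' _ hn']
      · letI : MulAction P V := MulAction.compHom V (ρ.comp P.subtype)
        have hfix : (1 : V) ∈ MulAction.fixedPoints P V := fun n => map_one (ρ n)
        obtain ⟨b, hb, hb1⟩ := hPp.exists_fixed_point_of_prime_dvd_card_of_fixed_point V hpV hfix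
        intro hbot
        have h1 : (b : G) ∈ W := ⟨b.2, fun n hn => hb ⟨n, hn⟩⟩
        rw [hbot, mem_bot] at h1
        exact hb1 (Subtype.ext h1.symm)
    obtain ⟨x, hx⟩ := exists_prime_orderOf_dvd_card' p hpN
    have hxP : (x : G ⧸ ρ₀.ker) ∈ P := ⟨x.2, 1, by
      rw [pow_one, ← hx, ← Subgroup.orderOf_coe, pow_orderOf_eq_one]⟩
    have hx1 : (x : G ⧸ ρ₀.ker) = 1 := by
      apply hS.inj
      rw [map_one]
      ext v
      have hv : (v : G) ∈ W := by rw [hW]; exact v.2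
      obtain ⟨hv1, hv'⟩ := hv
      exact congrArg Subtype.val (hv' _ hxP)
    have hx2 : x = 1 := Subtype.ext hx1
    rw [hx2, orderOf_one] at hx
    exact hp.one_lt.ne hx)
  -- `G'` centralizes `V`
  have hGV : ∀ d ∈ commutator G, ∀ v ∈ V, d * v = v * d := by
    have hle : commutator G ≤ ρ₀.ker := by
      rw [_root_.commutator_def, commutator_le]
      intro a _ b _
      rw [← QuotientGroup.eq_one_iff]
      have : ((⁅a, b⁆ : G) : G ⧸ ρ₀.ker) = ⁅(a : G ⧸ ρ₀.ker), (b : G ⧸ ρ₀.ker)⁆ := rfl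
      rw [this, commutatorElement_eq_one_iff_mul_comm]
      exact hcomm _ _
    intro d hd v hv
    have h1 := hle hd
    rw [MonoidHom.mem_ker] at h1
    have h2 : ((ρ₀ d ⟨v, hv⟩ : V) : G) = v := by rw [h1]; rfl
    rw [hρ₀] at h2
    exact mul_inv_eq_iff_eq_mul.1 h2
  -- induction
  obtain ⟨τ, hτ, hτf⟩ := quot_aut σ hf V hVσ
  have hτ4 : τ ^ 4 = 1 := by
    ext x
    obtain ⟨g, rfl⟩ := QuotientGroup.mk_surjective x
    have : τ (τ (τ (τ (g : G ⧸ V)))) = g := by rw [hτ, hτ, hτ, hτ, hσ4]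
    simpa [pow_succ] using this
  have hlt : Nat.card (G ⧸ V) < n := by
    rw [← hcard, Subgroup.card_eq_card_quotient_mul_card_subgroup V]
    have h1 : 1 < Nat.card V := (Subgroup.one_lt_card_iff_ne_bot V).2 hV1
    have h2 : 0 < Nat.card (G ⧸ V) := Nat.card_pos
    nlinarith
  have hnil := ih _ hlt (G ⧸ V) inferInstance τ hτ4 hτf rfl
  have hmap : ∀ d ∈ commutator G, QuotientGroup.mk' V d ∈ commutator (G ⧸ V) := by
    intro d hd
    have h1 : (commutator G).map (QuotientGroup.mk' V) ≤ commutator (G ⧸ V) := by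
      rw [_root_.commutator_def, _root_.commutator_def, Subgroup.map_commutator]
      exact Subgroup.commutator_mono le_top le_top
    exact h1 ⟨d, hd, rfl⟩
  let f : commutator G →* commutator (G ⧸ V) :=
    ((QuotientGroup.mk' V).comp (commutator G).subtype).codRestrict _ fun d => hmap d d.2
  haveI := hnil
  refine Subgroup.isNilpotent_of_ker_le_center f ?_
  intro d hd
  rw [MonoidHom.mem_ker] at hd
  have h1 : ((d : G) : G ⧸ V) = 1 := congrArg Subtype.val hd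
  have h2 : (d : G) ∈ V := (QuotientGroup.eq_one_iff _).1 h1
  rw [mem_center_iff]
  intro g
  exact Subtype.ext (hGV g g.2 d h2)

/-- Let G be a finite solvable group with an automorphism σ satisfying σ⁴ = 1 and fixing only the identity. Then the derived subgroup G' is nilpotent. -/
theorem result {G : Type*} [Group G] [Finite G] (hG : Group.IsSolvable G) (σ : MulAut G) (hσ : σ ^ 4 = 1) (hfpf : ∀ g : G, σ g = g → g = 1) : Group.IsNilpotent (commutator G) := by
  exact main (Nat.card G) G hG σ hσ hfpf rfl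

end Cfsg.Agent.S3794
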