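import Cfsg.Statements.S3795
import Cfsg.Agent.H23.GR6
import Cfsg.Agent.S3794

set_option autoImplicit false
set_option linter.all false
open Cfsg

namespace Cfsg.Agent.S3795

open Subgroup Cfsg.Agent.H23
open scoped commutatorElement

universe u

theorem main (m : ℕ) : ∀ (G : Type u) [Group G] [Finite G]
    (_ : Group.IsSolvable G) (σ : MulAut G) (_ : σ ^ 2 ^ (m + 2) = 1) (_ : ∀ g : G, σ g = g → g = 1),
    ∃ F : Fin ((2 * m + 2) + 1) → Subgroup G, F 0 = ⊥ ∧ F (Fin.last (2 * m + 2)) = ⊤ ∧ Monotone F ∧ (∀ i, (F i).Normal) ∧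
      ∀ i : Fin (2 * m + 2), ∃ k : ℕ, (F i.succ).lowerCentralSeries k ≤ F i.castSucc := by
  induction m with
  | zero =>
    intro G _ _ hG σ hσ hf
    have h1 := Cfsg.Agent.S3794.result hG σ (by simpa using hσ) hf
    refine chain_of_quot (n := 1) (_root_.commutator G) h1 ?_
    refine chain_of_quot (n := 0) (⊤ : Subgroup (G ⧸ _root_.commutator G)) ?_ ?_
    · rw [Subgroup.isNilpotent_iff_lowerCentralSeries]
      refine ⟨1, ?_⟩
      rw [Subgroup.top_lowerCentralSeries_one]
      rw [_root_.commutator_def (G ⧸ _root_.commutator G), eq_bot_iff, Subgroup.commutator_le]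
      intro a _ b _
      obtain ⟨a, rfl⟩ := QuotientGroup.mk_surjective a
      obtain ⟨b, rfl⟩ := QuotientGroup.mk_surjective b
      have h3 : ⁅(a : G ⧸ _root_.commutator G), (b : G ⧸ _root_.commutator G)⁆ = ((⁅a, b⁆ : G) : G ⧸ _root_.commutator G) := rfl
      rw [mem_bot, h3, QuotientGroup.eq_one_iff]
      exact commutator_mem_commutator (mem_top a) (mem_top b)
    · haveI : Subsingleton ((G ⧸ _root_.commutator G) ⧸ (⊤ : Subgroup (G ⧸ _root_.commutator G))) :=
        QuotientGroup.subsingleton_quotient_top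
      exact chain_zero
  | succ m ih =>
    intro G _ _ hG σ hσ hf
    haveI := hG
    have hchar : ∀ (H : Type u) [Group H] [Finite H] (τ : MulAut H), ∀ x ∈ fittingSubgroup H, τ x ∈ fittingSubgroup H := by
      intro H _ _ τ x hx
      exact (characteristic_iff_le_comap.mp (inferInstance : (fittingSubgroup H).Characteristic)) τ hx
    obtain ⟨τ, hτ, hτf⟩ := quot_aut σ hf (fittingSubgroup G) (hchar G σ)
    refine chain_of_quot (n := 2 * m + 2 + 1) (fittingSubgroup G) (H1.fitting_isNilpotent G) ?_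
    obtain ⟨τ', hτ', hτf'⟩ := quot_aut τ hτf (fittingSubgroup (G ⧸ fittingSubgroup G)) (hchar _ τ)
    refine chain_of_quot (n := 2 * m + 2) (fittingSubgroup (G ⧸ fittingSubgroup G)) (H1.fitting_isNilpotent _) ?_
    refine ih ((G ⧸ fittingSubgroup G) ⧸ fittingSubgroup (G ⧸ fittingSubgroup G)) inferInstance τ' ?_ hτf'
    ext a
    obtain ⟨b, rfl⟩ := QuotientGroup.mk_surjective a
    obtain ⟨g, rfl⟩ := QuotientGroup.mk_surjective b
    rw [hτ', hτ, MulAut.one_apply]
    symm
    exact QuotientGroup.eq.mpr (gross_fitting hG σ hσ hf g)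


/-- Gross's Theorem: let G be a finite solvable group with an automorphism σ of order 2^n, n > 1, fixing only the identity. Then G has Fitting height at most 2n − 2: G has Fitting height at most m when there is a chain of normal subgroups 1 = F₀ ≤ F₁ ≤ ⋯ ≤ F_m = G with each F_{i+1}/F_i nilpotent. -/
theorem result {G : Type*} [Group G] [Finite G] (hG : Group.IsSolvable G) (σ : MulAut G) (n : ℕ) (hn : 1 < n) (hσ : orderOf σ = 2 ^ n) (hfpf : ∀ g : G, σ g = g → g = 1) : ∃ F : Fin ((2 * n - 2) + 1) → Subgroup G, F 0 = ⊥ ∧ F (Fin.last (2 * n - 2)) = ⊤ ∧ Monotone F ∧ (∀ i, (F i).Normal) ∧ ∀ i : Fin (2 * n - 2), ∃ k : ℕ, (F i.succ).lowerCentralSeries k ≤ F i.castSucc := by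
  obtain ⟨m, rfl⟩ : ∃ m, n = m + 2 := ⟨n - 2, by omega⟩
  exact main m G hG σ (by rw [← hσ]; exact pow_orderOf_eq_one σ) hfpf

end Cfsg.Agent.S3795
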