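import Cfsg.Statements.S3796
import Cfsg.Agent.H25.FpfPQ
-- import your own Cfsg.Agent.* helpers here

set_option autoImplicit false
open Cfsg

namespace Cfsg.Agent.S3796

/-- Ward's Theorem: let G be a finite solvable group and A an elementary abelian group of automorphisms of G of order p² (p a prime) with no non-identity common fixed point. Then G has Fitting height at most 2: G has Fitting height at most m when there is a chain of normal subgroups 1 = F₀ ≤ F₁ ≤ ⋯ ≤ F_m = G with each F_{i+1}/F_i nilpotent. -/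
theorem result {G : Type*} [Group G] [Finite G] (hG : Group.IsSolvable G) {p : ℕ} (hp : p.Prime) (A : Subgroup (MulAut G)) (hA : Cfsg.IsElementaryAbelian p A) (hcard : Nat.card A = p ^ 2) (hfpf : ∀ g : G, (∀ a ∈ A, a g = g) → g = 1) : ∃ F : Fin (2 + 1) → Subgroup G, F 0 = ⊥ ∧ F (Fin.last 2) = ⊤ ∧ Monotone F ∧ (∀ i, (F i).Normal) ∧ ∀ i : Fin 2, ∃ k : ℕ, (F i.succ).lowerCentralSeries k ≤ F i.castSucc := by
  haveI : Fact p.Prime := ⟨hp⟩
  haveI : Finite (G ⋊[A.subtype] A) := Finite.of_equiv _ SemidirectProduct.equivProd.symm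
  have hAp : IsPGroup p A := IsPGroup.of_card hcard
  have hpG : ¬ p ∣ Nat.card G := by
    intro h
    have h1 := hAp.card_modEq_card_fixedPoints G
    have h2 : Nat.card (MulAction.fixedPoints A G) = 1 := by
      rw [Nat.card_eq_one_iff_unique]
      refine ⟨⟨fun x y => ?_⟩, ⟨⟨1, fun a => map_one (a : MulAut G)⟩⟩⟩
      have key : ∀ z : MulAction.fixedPoints A G, (z : G) = 1 := fun z =>
        hfpf z (fun a ha => z.2 ⟨a, ha⟩)
      exact Subtype.ext ((key x).trans (key y).symm)
    rw [h2] at h1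
    have h3 : p ∣ 1 := (h1.dvd_iff (dvd_refl p)).mp h
    exact hp.one_lt.ne' (Nat.dvd_one.mp h3)
  have hcop : (Nat.card A).Coprime (Nat.card G) := by
    rw [hcard]
    exact Nat.Coprime.pow_left 2 ((Nat.Prime.coprime_iff_not_dvd hp).mpr hpG)
  obtain ⟨F, hF, hFn, -, k, hk⟩ := Cfsg.Agent.H25.pq_abstract (G := G) (A := A) hG
    A.subtype ⟨p, p, hp, hp, by rw [hcard, pow_two]⟩ hcop (fun g h => hfpf g fun a ha => h ⟨a, ha⟩)
    (SemidirectProduct.inl : G →* G ⋊[A.subtype] A)
    SemidirectProduct.inr SemidirectProduct.inl_injective SemidirectProduct.inr_injective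
    (by rw [SemidirectProduct.range_inl_eq_ker_rightHom]; infer_instance)
    (fun a g => by
      rw [SemidirectProduct.inl_aut (φ := A.subtype) a g, map_inv, inv_mul_cancel_right])
  obtain ⟨m, hm⟩ := (Subgroup.isNilpotent_iff_lowerCentralSeries (S := F)).mp hFn
  refine ⟨![⊥, F, ⊤], rfl, rfl, ?_, ?_, ?_⟩
  · rw [Fin.monotone_iff_le_succ]
    intro i
    fin_cases i
    · exact bot_le
    · exact le_top
  · intro i
    fin_cases i
    · exact inferInstanceAs (⊥ : Subgroup G).Normal
    · exact hF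
    · exact inferInstanceAs (⊤ : Subgroup G).Normal
  · intro i
    fin_cases i
    · exact ⟨m, hm.le⟩
    · exact ⟨k, hk⟩

end Cfsg.Agent.S3796
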