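import Cfsg.Statements.S3797
import Cfsg.Agent.H23.OneInv7

set_option autoImplicit false
set_option linter.all false
open Cfsg

namespace Cfsg.Agent.S3797

open Subgroup Cfsg
open Cfsg.Agent.H23 Cfsg.Agent.H23.OneInv

/-- Let G be a finite solvable group of even order whose Sylow 2-subgroups contain more than one involution, and suppose all involutions of G are conjugate. Then G has 2-length at most 1, and a Sylow 2-subgroup S of G is either homocyclic (a direct product of cyclic groups of one common order) or a non-abelian 2-group with more than one involution admitting a solvable group of automorphisms transitive on its involutions. -/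
theorem result {G : Type*} [Group G] [Finite G] (hG : Group.IsSolvable G) (heven : Even (Nat.card G)) (S : Sylow 2 G) (htwo : ∃ x y : G, x ∈ (S : Subgroup G) ∧ y ∈ (S : Subgroup G) ∧ x ≠ y ∧ x ≠ 1 ∧ x ^ 2 = 1 ∧ y ≠ 1 ∧ y ^ 2 = 1) (hconj : ∀ x y : G, x ≠ 1 → x ^ 2 = 1 → y ≠ 1 → y ^ 2 = 1 → IsConj x y) : Cfsg.PLengthLE 2 1 G ∧ ((∃ m r : ℕ, Nonempty (↥(S : Subgroup G) ≃* (Fin r → Multiplicative (ZMod (2 ^ m))))) ∨ (¬ IsMulCommutative (S : Subgroup G) ∧ ∃ Y : Subgroup (MulAut ↥(S : Subgroup G)), Group.IsSolvable Y ∧ ∀ x y : ↥(S : Subgroup G), x ≠ 1 → x ^ 2 = 1 → y ≠ 1 → y ^ 2 = 1 → ∃ a ∈ Y, a x = y)) := by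
  haveI : Fact (Nat.Prime 2) := ⟨Nat.prime_two⟩
  haveI := hG
  set N := pPrimeCore 2 G with hN
  have hNc : N.Characteristic := H1.pPrimeCore_characteristic 2
  have hNcard : (Nat.card N).Coprime 2 := H1.pPrimeCore_coprime 2 G
  obtain ⟨a, b, haS, hbS, hab, ha, ha2, hb, hb2⟩ := htwo
  have hN2 : ∀ x ∈ N, x ^ 2 = 1 → x = 1 := by
    intro x hx hx2
    have h1 : orderOf x ∣ 2 := orderOf_dvd_of_pow_eq_one hx2
    have h2 : orderOf x ∣ Nat.card N := Subgroup.orderOf_dvd_natCard N hx
    exact orderOf_eq_one_iff.1 (Nat.Coprime.eq_one_of_dvd (Nat.Coprime.coprime_dvd_left h2 hNcard) h1)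
  have hSN : ∀ x ∈ (S : Subgroup G), x ∈ N → x = 1 := by
    intro x hx hxN
    obtain ⟨k, hk⟩ := S.isPGroup' ⟨x, hx⟩
    have h1 : orderOf x ∣ 2 ^ k := orderOf_dvd_of_pow_eq_one (congrArg Subtype.val hk)
    have h2 : orderOf x ∣ Nat.card N := Subgroup.orderOf_dvd_natCard N hxN
    exact orderOf_eq_one_iff.1 (Nat.Coprime.eq_one_of_dvd ((Nat.Coprime.coprime_dvd_left h2 hNcard).pow_right k) h1)
  have hs' : Group.IsSolvable (G ⧸ N) := inferInstance
  have hidx : ((pCore 2 (G ⧸ N)).index).Coprime 2 := by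
    obtain ⟨V, n, hV⟩ := exists_ctx (X := G ⧸ N) (a := (a : G ⧸ N)) (b := (b : G ⧸ N)) hs' (pPrimeCore_quotient_eq_bot 2 G)
      (by
        intro hh
        have h1 : a⁻¹ * b ∈ N := QuotientGroup.eq.1 hh
        have h2 := hSN _ (mul_mem (inv_mem haS) hbS) h1
        exact hab (inv_mul_eq_one.1 h2))
      (fun hh => ha (hSN a haS ((QuotientGroup.eq_one_iff a).1 hh)))
      (fun hh => hb (hSN b hbS ((QuotientGroup.eq_one_iff b).1 hh)))
      (by rw [← QuotientGroup.mk_pow, ha2, QuotientGroup.mk_one])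
      (by rw [← QuotientGroup.mk_pow, hb2, QuotientGroup.mk_one])
      (by
        intro x y hx hx2 hy hy2
        obtain ⟨g, hg, rfl⟩ := lift_inv hNcard hx2
        obtain ⟨h, hh, rfl⟩ := lift_inv hNcard hy2
        have hg1 : g ≠ 1 := by rintro rfl; exact hx (QuotientGroup.mk_one N)
        have hh1 : h ≠ 1 := by rintro rfl; exact hy (QuotientGroup.mk_one N)
        exact (QuotientGroup.mk' N).map_isConj (hconj g h hg1 hg hh1 hh))
    exact hV.index_odd
  have e1 : (pPrimePCore 2 G).index = (pCore 2 (G ⧸ N)).index := by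
    unfold pPrimePCore
    rw [index_comap_of_surjective _ (QuotientGroup.mk'_surjective _)]
  refine ⟨by rw [Cfsg.Agent.OOT.plength_one_iff, e1]; exact hidx, ?_⟩
  -- `L = O_{2'2}(G)` contains `S` and `L = N S`
  set L := pPrimePCore 2 G with hL
  have hLn : L.Normal := by
    have : L = (pCore 2 (G ⧸ N)).comap (QuotientGroup.mk' N) := rfl
    rw [this]; infer_instance
  have hNL : N ≤ L := by
    intro x hx
    change QuotientGroup.mk' N x ∈ pCore 2 (G ⧸ N)
    have : QuotientGroup.mk' N x = 1 := (QuotientGroup.eq_one_iff x).2 hx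
    rw [this]; exact one_mem _
  have hLidx : (L.index).Coprime 2 := by rw [e1]; exact hidx
  have hSL : (S : Subgroup G) ≤ L := by
    intro x hx
    obtain ⟨k, hk⟩ := S.isPGroup' ⟨x, hx⟩
    have h1 : orderOf (QuotientGroup.mk' L x) ∣ 2 ^ k := orderOf_dvd_of_pow_eq_one (by
      rw [← map_pow, show x ^ 2 ^ k = 1 from congrArg Subtype.val hk, map_one])
    have h2 : orderOf (QuotientGroup.mk' L x) ∣ L.index := orderOf_dvd_natCard _
    have h3 := orderOf_eq_one_iff.1 (Nat.Coprime.eq_one_of_dvd ((Nat.Coprime.coprime_dvd_left h2 hLidx).pow_right k) h1)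
    exact (QuotientGroup.eq_one_iff x).1 h3
  have hLle : L ≤ N ⊔ (S : Subgroup G) := by
    rw [← relIndex_eq_one]
    have h1 : (N ⊔ (S : Subgroup G)).relIndex L ∣ N.relIndex L := relIndex_dvd_of_le_left L le_sup_left
    have h2 : (N ⊔ (S : Subgroup G)).relIndex L ∣ (S : Subgroup G).relIndex L := relIndex_dvd_of_le_left L le_sup_right
    have h3 : (S : Subgroup G).relIndex L ∣ (S : Subgroup G).index := relIndex_dvd_index_of_le hSL
    have h4 : N.relIndex L = Nat.card (pCore 2 (G ⧸ N)) := by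
      have h5 := Subgroup.relIndex_ker L (QuotientGroup.mk' N)
      rw [QuotientGroup.ker_mk'] at h5
      rw [h5]
      have : L.map (QuotientGroup.mk' N) = pCore 2 (G ⧸ N) :=
        map_comap_eq_self_of_surjective (QuotientGroup.mk'_surjective N) _
      rw [this]
    obtain ⟨k, hk⟩ := IsPGroup.iff_card.1 (H1.pCore_isPGroup 2 (G ⧸ N))
    rw [h4, hk] at h1
    have h5 : ((S : Subgroup G).index).Coprime 2 := by
      have := S.not_dvd_index
      exact (((Nat.Prime.coprime_iff_not_dvd Nat.prime_two).2 this)).symm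
    exact Nat.Coprime.eq_one_of_dvd ((Nat.Coprime.coprime_dvd_left (h2.trans h3) h5).pow_right k) h1
  have hfr : N ⊔ normalizer ((S : Subgroup G) : Set G) = ⊤ := by
    have h1 := (S.subtype hSL).normalizer_sup_eq_top
    have h2 : (((S.subtype hSL : Sylow 2 L) : Subgroup L).map L.subtype) = (S : Subgroup G) := by
      rw [Sylow.coe_subtype, subgroupOf_map_subtype, inf_eq_left.2 hSL]
    rw [h2] at h1
    rw [eq_top_iff, ← h1]
    refine sup_le le_sup_right (hLle.trans (sup_le_sup_left le_normalizer _))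
  have htr : ∀ x ∈ (S : Subgroup G), ∀ y ∈ (S : Subgroup G), x ≠ 1 → x ^ 2 = 1 → y ≠ 1 → y ^ 2 = 1 →
      ∃ g ∈ normalizer ((S : Subgroup G) : Set G), g * x * g⁻¹ = y := by
    intro x hx y hy hx1 hx2 hy1 hy2
    obtain ⟨g, hg⟩ := isConj_iff.1 (hconj x y hx1 hx2 hy1 hy2)
    have hgt : g ∈ N ⊔ normalizer ((S : Subgroup G) : Set G) := by rw [hfr]; exact mem_top _
    obtain ⟨o, ho, m, hm, rfl⟩ := (mem_sup_iff_of_le_normalizer (A := normalizer ((S : Subgroup G) : Set G)) (G := N)
      (by rw [normalizer_eq_top (H := N)]; exact le_top)).1 hgt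
    refine ⟨m, hm, ?_⟩
    have h1 : m * x * m⁻¹ = o⁻¹ * y * o := by rw [← hg]; group
    have h2 : m * x * m⁻¹ ∈ (S : Subgroup G) := (mem_normalizer_iff.1 hm x).1 hx
    have h3 : o⁻¹ * y * o * y⁻¹ ∈ (S : Subgroup G) := mul_mem (by rw [← h1]; exact h2) (inv_mem hy)
    have h4 : o⁻¹ * y * o * y⁻¹ ∈ N := by
      have := mul_mem (inv_mem ho) ((inferInstance : N.Normal).conj_mem o ho y)
      rwa [show o⁻¹ * (y * o * y⁻¹) = o⁻¹ * y * o * y⁻¹ by group] at this
    rw [h1]
    exact mul_inv_eq_one.1 (hSN _ h3 h4)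
  by_cases hcomm : IsMulCommutative (S : Subgroup G)
  · left
    letI : CommGroup (S : Subgroup G) := { (inferInstance : Group (S : Subgroup G)) with mul_comm := hcomm.is_comm.comm }
    refine homocyclic_of_trans S.isPGroup' ?_
    intro x y hx hx2 hy hy2
    obtain ⟨g, hg, hgx⟩ := htr x x.2 y y.2 (fun hh => hx (Subtype.ext hh)) (congrArg Subtype.val hx2)
      (fun hh => hy (Subtype.ext hh)) (congrArg Subtype.val hy2)
    exact ⟨(S : Subgroup G).normalizerMonoidHom ⟨g, hg⟩, Subtype.ext hgx⟩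
  · right
    refine ⟨hcomm, (S : Subgroup G).normalizerMonoidHom.range, ?_, ?_⟩
    · exact solvable_of_surjective (S : Subgroup G).normalizerMonoidHom.rangeRestrict_surjective
    · intro x y hx hx2 hy hy2
      obtain ⟨g, hg, hgx⟩ := htr x x.2 y y.2 (fun hh => hx (Subtype.ext hh)) (congrArg Subtype.val hx2)
        (fun hh => hy (Subtype.ext hh)) (congrArg Subtype.val hy2)
      exact ⟨_, ⟨⟨g, hg⟩, rfl⟩, Subtype.ext hgx⟩

end Cfsg.Agent.S3797
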