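import Cfsg.Statements.S3798
import Cfsg.Agent.H23.OneInv

set_option autoImplicit false
set_option linter.all false
open Cfsg

namespace Cfsg.Agent.S3798

open Subgroup Cfsg
open Cfsg.Agent.H23

theorem core_index {X : Type*} [Group X] [Finite X] {p : ℕ} [hp : Fact p.Prime] (hp2 : p ≠ 2)
    (hX : Cfsg.IsPSolvable p X) (hO : pPrimeCore p X = ⊥)
    (hT : ∀ C : Subgroup X, C.Characteristic → p ∣ Nat.card C → ∀ x : X, x ^ p = 1 → x ∈ C) :
    ((pCore p X).index).Coprime p := by
  set P := pCore p X with hP
  have hPp : IsPGroup p P := H1.pCore_isPGroup p X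
  have hPc : P.Characteristic := H1.pCore_characteristic p
  have hself : centralizer (P : Set X) ≤ P := centralizer_pCore_le hX hO
  by_cases hd : p ∣ Nat.card X
  swap
  · have h1 : P.index ∣ Nat.card X := index_dvd_card P
    exact Nat.Coprime.coprime_dvd_left h1 ((hp.out.coprime_iff_not_dvd.2 hd).symm)
  have hPne : P ≠ ⊥ := by
    intro h
    rw [h] at hself
    have h1 : (⊤ : Subgroup X) ≤ ⊥ := by
      intro x _
      apply hself
      rw [mem_centralizer_iff]
      intro y hy
      rw [mem_bot.1 hy, one_mul, mul_one]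
    have h2 : Nat.card X = 1 := by
      rw [← card_top, top_le_iff.1 (le_refl _ : (⊤ : Subgroup X) ≤ ⊤)]
      rw [le_bot_iff.1 h1, card_bot]
    rw [h2] at hd
    exact hp.out.one_lt.ne' (Nat.dvd_one.1 hd)
  have hpdvd : ∀ H : Subgroup X, IsPGroup p H → H ≠ ⊥ → p ∣ Nat.card H := by
    intro H hH hne
    obtain ⟨n, hn⟩ := IsPGroup.iff_card.1 hH
    have : n ≠ 0 := by
      rintro rfl
      rw [pow_zero] at hn
      exact hne (card_eq_one.1 hn)
    rw [hn]; exact dvd_pow_self p this
  have hZc : (P ⊓ centralizer (P : Set X)).Characteristic := by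
    have : (centralizer (P : Set X)).Characteristic := inferInstance
    infer_instance
  have hZ : ∀ x : X, x ^ p = 1 → x ∈ P ⊓ centralizer (P : Set X) := by
    apply hT _ hZc
    apply hpdvd _ (hPp.to_le inf_le_left)
    intro h
    haveI : Nontrivial P := (nontrivial_iff_ne_bot P).2 hPne
    have h1 := hPp.center_nontrivial
    obtain ⟨⟨z, hz⟩, hzne⟩ := exists_ne (1 : center P)
    apply hzne
    have h2 : (z : X) ∈ P ⊓ centralizer (P : Set X) := by
      refine mem_inf.2 ⟨z.2, ?_⟩
      rw [mem_centralizer_iff]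
      intro y hy
      exact congrArg Subtype.val (mem_center_iff.1 hz ⟨y, hy⟩)
    rw [h, mem_bot] at h2
    exact Subtype.ext (Subtype.ext h2)
  obtain ⟨F, hFc, hFL, hfr⟩ := exists_F hX
  change P ⊔ F = (pPrimeCore p (X ⧸ P)).comap (QuotientGroup.mk' P) at hFL
  change ∀ g : X, ∃ a ∈ P, a * g ∈ normalizer (F : Set X) at hfr
  have hLc : (P ⊔ F).Characteristic := by rw [hFL]; exact L_characteristic p
  have hCc : (P ⊓ centralizer ((P ⊔ F : Subgroup X) : Set X)).Characteristic := by
    have : (centralizer ((P ⊔ F : Subgroup X) : Set X)).Characteristic := inferInstance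
    infer_instance
  by_cases hcase : p ∣ Nat.card ↥(P ⊓ centralizer ((P ⊔ F : Subgroup X) : Set X))
  · -- `F` centralizes `Ω₁(P)`
    have h1 := hT _ hCc hcase
    have hn : F ≤ normalizer (P : Set X) := by rw [normalizer_eq_top]; exact le_top
    have h2 : P ≤ centralizer (F : Set X) := by
      refine le_centralizer_of_omega_odd hp2 hPp hn hFc ?_
      intro x _ hxp
      have h3 := (mem_inf.1 (h1 x hxp)).2
      rw [mem_centralizer_iff] at h3 ⊢
      intro y hy
      exact h3 y ((le_sup_right : F ≤ P ⊔ F) hy)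
    have h3 : F ≤ P := (le_centralizer_iff.1 h2).trans hself
    have h4 : F = ⊥ := by
      rw [← card_eq_one]
      obtain ⟨n, hn⟩ := IsPGroup.iff_card.1 (hPp.to_le h3)
      exact Nat.Coprime.eq_one_of_dvd (hFc.pow_right n) (by rw [hn])
    rw [h4, sup_bot_eq] at hFL
    have h5 : pPrimeCore p (X ⧸ P) = ⊥ := by
      rw [eq_bot_iff]
      intro y hy
      obtain ⟨x, rfl⟩ := QuotientGroup.mk'_surjective P y
      have : x ∈ P := by rw [hFL]; exact hy
      exact (QuotientGroup.eq_one_iff x).2 this
    have h6 : pCore p (X ⧸ P) = ⊥ := H1.pCore_quotient_eq_bot p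
    have h7 := centralizer_pCore_le (isPSolvable_quotient P hX) h5
    rw [h6] at h7
    have h8 : (⊤ : Subgroup (X ⧸ P)) ≤ ⊥ := by
      intro x _
      apply h7
      rw [mem_centralizer_iff]
      intro y hy
      rw [mem_bot.1 hy, one_mul, mul_one]
    have h9 : P.index = 1 := by
      rw [index, ← card_top, le_bot_iff.1 h8, card_bot]
    rw [h9]; exact Nat.coprime_one_left p
  · -- `C_P(F) = 1`
    have h1 : P ⊓ normalizer (F : Set X) = ⊥ := by
      by_contra hne
      have h2 := hpdvd _ (hPp.to_le inf_le_left) hne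
      obtain ⟨⟨z, hz⟩, hzo⟩ := exists_prime_orderOf_dvd_card' p h2
      have hzp : z ^ p = 1 := by
        have := pow_orderOf_eq_one (⟨z, hz⟩ : ↥(P ⊓ normalizer (F : Set X)))
        rw [hzo] at this
        exact congrArg Subtype.val this
      have hzne : z ≠ 1 := by
        rintro rfl
        have : (⟨1, hz⟩ : ↥(P ⊓ normalizer (F : Set X))) = 1 := rfl
        rw [this, orderOf_one] at hzo
        exact hp.out.one_lt.ne hzo
      have hzZ := hZ z hzp
      apply hcase
      have hzF : z ∈ centralizer (F : Set X) := by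
        rw [mem_centralizer_iff]
        intro f hf
        have h3 : f * z * f⁻¹ * z⁻¹ ∈ P ⊓ F := by
          refine ⟨?_, ?_⟩
          · exact P.mul_mem ((inferInstance : P.Normal).conj_mem z (mem_inf.1 hz).1 f) (P.inv_mem (mem_inf.1 hz).1)
          · have h4 : z * f⁻¹ * z⁻¹ ∈ F := (mem_normalizer_iff.1 hz.2 f⁻¹).1 (inv_mem hf)
            have := mul_mem hf h4
            rwa [show f * (z * f⁻¹ * z⁻¹) = f * z * f⁻¹ * z⁻¹ by group] at this
        have h5 : P ⊓ F = ⊥ := by
          rw [← card_eq_one]
          obtain ⟨n, hn⟩ := IsPGroup.iff_card.1 (hPp.to_le (inf_le_left : P ⊓ F ≤ P))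
          have h6 : Nat.card ↥(P ⊓ F) ∣ Nat.card F := card_dvd_of_le inf_le_right
          exact Nat.Coprime.eq_one_of_dvd ((Nat.Coprime.coprime_dvd_left h6 hFc).pow_right n) (by rw [hn])
        rw [h5, mem_bot] at h3
        have h7 : f * z * f⁻¹ = z := mul_inv_eq_one.1 h3
        calc f * z = f * z * f⁻¹ * f := by group
          _ = z * f := by rw [h7]
      have hzC : z ∈ P ⊓ centralizer ((P ⊔ F : Subgroup X) : Set X) := by
        refine mem_inf.2 ⟨(mem_inf.1 hz).1, ?_⟩
        have h3 : P ⊔ F ≤ centralizer ({z} : Set X) := by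
          refine sup_le ?_ ?_
          · intro y hy
            rw [mem_centralizer_singleton_iff]
            exact mem_centralizer_iff.1 hzZ.2 y hy
          · intro y hy
            rw [mem_centralizer_singleton_iff]
            exact mem_centralizer_iff.1 hzF y hy
        rw [mem_centralizer_iff]
        intro y hy
        exact mem_centralizer_singleton_iff.1 (h3 hy)
      have h8 : orderOf (⟨z, hzC⟩ : ↥(P ⊓ centralizer ((P ⊔ F : Subgroup X) : Set X))) = p := by
        apply orderOf_eq_prime
        · exact Subtype.ext hzp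
        · intro h; exact hzne (congrArg Subtype.val h)
      rw [← h8]
      exact orderOf_dvd_natCard _
    have h2 : ¬ p ∣ Nat.card (normalizer (F : Set X)) := by
      intro h
      obtain ⟨⟨z, hz⟩, hzo⟩ := exists_prime_orderOf_dvd_card' p h
      have hzp : z ^ p = 1 := by
        have := pow_orderOf_eq_one (⟨z, hz⟩ : ↥(normalizer (F : Set X)))
        rw [hzo] at this
        exact congrArg Subtype.val this
      have h3 : z ∈ P ⊓ normalizer (F : Set X) := ⟨(hZ z hzp).1, hz⟩
      rw [h1, mem_bot] at h3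
      subst h3
      have : (⟨1, hz⟩ : ↥(normalizer (F : Set X))) = 1 := rfl
      rw [this, orderOf_one] at hzo
      exact hp.out.one_lt.ne hzo
    have h3 : P ⊔ normalizer (F : Set X) = ⊤ := by
      rw [eq_top_iff]
      intro g _
      obtain ⟨a, ha, hag⟩ := hfr g
      have := mul_mem (mem_sup_left (T := normalizer (F : Set X)) (inv_mem ha)) (mem_sup_right (S := P) hag)
      rwa [show a⁻¹ * (a * g) = g by group] at this
    have h4 : P.index ∣ Nat.card (normalizer (F : Set X)) := by
      have h5 : P.relIndex (P ⊔ normalizer (F : Set X)) = P.relIndex (normalizer (F : Set X)) := by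
        rw [sup_comm]
        exact relIndex_sup_right (H := normalizer (F : Set X)) (K := P)
      rw [h3, relIndex_top_right] at h5
      rw [h5]
      exact relIndex_dvd_card P _
    exact Nat.Coprime.coprime_dvd_left h4 ((hp.out.coprime_iff_not_dvd.2 h2).symm)

/-- The Gaschütz–Yen Theorem: let G be a finite p-soluble group, p an odd prime dividing its order, such that the automorphism group of G permutes the subgroups of G of order p transitively. Then G has p-length at most 1. -/
theorem result {G : Type*} [Group G] [Finite G] {p : ℕ} [Fact p.Prime] (hp : p ≠ 2) (hdvd : p ∣ Nat.card G) (hG : Cfsg.IsPSolvable p G) (htrans : ∀ U V : Subgroup G, Nat.card U = p → Nat.card V = p → ∃ a : MulAut G, U.map a.toMonoidHom = V) : Cfsg.PLengthLE p 1 G := by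
  have hp' : Fact p.Prime := inferInstance
  rw [Cfsg.Agent.OOT.plength_one_iff]
  set N := pPrimeCore p G with hN
  have hNc : N.Characteristic := H1.pPrimeCore_characteristic p
  have e1 : (pPrimePCore p G).index = (pCore p (G ⧸ N)).index := by
    unfold pPrimePCore
    rw [index_comap_of_surjective _ (QuotientGroup.mk'_surjective _)]
  rw [e1]
  refine core_index hp (isPSolvable_quotient N hG) (pPrimeCore_quotient_eq_bot p G) ?_
  intro C hC hpC x hx
  set f := QuotientGroup.mk' N with hf
  have hC' : (C.comap f).Characteristic := by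
    rw [characteristic_iff_map_le]
    intro φ
    have hNφ : N.map φ.toMonoidHom = N := characteristic_iff_map_eq.1 hNc φ
    rintro _ ⟨y, hy, rfl⟩
    rw [mem_comap]
    let ψ : (G ⧸ N) ≃* (G ⧸ N) := QuotientGroup.congr N N φ hNφ
    have h1 : C.map ψ.toMonoidHom = C := characteristic_iff_map_eq.1 hC ψ
    rw [← h1]
    exact ⟨f y, hy, rfl⟩
  have hlift : ∀ x : G ⧸ N, x ^ p = 1 → x ≠ 1 → ∃ y : G, orderOf y = p ∧ f y ∈ zpowers x ∧ x ∈ zpowers (f y) := by
    intro x hx hxne
    obtain ⟨g, rfl⟩ := QuotientGroup.mk'_surjective N x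
    have hgN : g ^ p ∈ N := by
      have : f (g ^ p) = 1 := by rw [map_pow]; exact hx
      exact (QuotientGroup.eq_one_iff _).1 this
    set m := Nat.card N with hm
    have hmp : m.Coprime p := H1.pPrimeCore_coprime p G
    have hgm : (g ^ m) ^ p = 1 := by
      rw [← pow_mul, mul_comm, pow_mul]
      have : (⟨g ^ p, hgN⟩ : N) ^ m = 1 := pow_card_eq_one'
      exact congrArg Subtype.val this
    have hcop : (orderOf (f g)).Coprime m := by
      have h1 : orderOf (f g) ∣ p := orderOf_dvd_of_pow_eq_one hx
      exact Nat.Coprime.coprime_dvd_left h1 hmp.symm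
    have hmem : f g ∈ zpowers (f (g ^ m)) := by
      rw [map_pow]
      obtain ⟨k, hk⟩ := exists_pow_eq_self_of_coprime hcop.symm
      exact ⟨(k : ℤ), by simpa using hk⟩
    refine ⟨g ^ m, ?_, ?_, hmem⟩
    · apply orderOf_eq_prime hgm
      intro h
      rw [h, map_one, zpowers_one_eq_bot, mem_bot] at hmem
      exact hxne hmem
    · rw [map_pow]; exact pow_mem (mem_zpowers _) _
  by_cases hx1 : x = 1
  · rw [hx1]; exact one_mem _
  obtain ⟨c, hc⟩ := exists_prime_orderOf_dvd_card' p hpC
  have hcne : (c : G ⧸ N) ≠ 1 := by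
    intro h
    have : c = 1 := Subtype.ext h
    rw [this, orderOf_one] at hc
    exact (Fact.out : p.Prime).one_lt.ne hc
  have hcp : (c : G ⧸ N) ^ p = 1 := by
    have := pow_orderOf_eq_one c
    rw [hc] at this
    exact congrArg Subtype.val this
  obtain ⟨u, hu, hu1, -⟩ := hlift c hcp hcne
  obtain ⟨v, hv, -, hv2⟩ := hlift x hx hx1
  obtain ⟨φ, hφ⟩ := htrans (zpowers u) (zpowers v) (by rw [Nat.card_zpowers, hu]) (by rw [Nat.card_zpowers, hv])
  have huC : u ∈ C.comap f := by
    rw [mem_comap]
    exact (zpowers_le.2 c.2) hu1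
  have h1 : zpowers v ≤ C.comap f := by
    rw [← hφ]
    refine (map_mono (zpowers_le.2 huC)).trans ?_
    exact characteristic_iff_map_le.1 hC' φ
  have h2 : f v ∈ C := h1 (mem_zpowers v)
  exact (zpowers_le.2 h2) hv2

end Cfsg.Agent.S3798
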