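import Cfsg.Statements.S3799
import Cfsg.Agent.H1.EmbG

set_option autoImplicit false
open Cfsg

namespace Cfsg.Agent.S3799

/-- For every odd prime p and every n ≥ 1 there is an extraspecial p-group of order p^(1+2n) and exponent p; concretely, the general linear group of degree n + 2 over the field with p elements contains such a subgroup. -/
theorem result (p : ℕ) [Fact p.Prime] (hp : p ≠ 2) (n : ℕ) (hn : 1 ≤ n) : ∃ E : Subgroup (Matrix.GeneralLinearGroup (Fin (n + 2)) (ZMod p)), Cfsg.IsExtraspecial p ↥E ∧ Nat.card E = p ^ (1 + 2 * n) ∧ ∀ x ∈ E, x ^ p = 1 := by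
  exact Cfsg.Agent.H1.Heis.main p hp n hn

end Cfsg.Agent.S3799
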