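import Cfsg.Statements.S3800
import Cfsg.Agent.H23.Coprime5

set_option autoImplicit false
open Cfsg

namespace Cfsg.Agent.S3800

section aux
open Subgroup
open scoped Pointwise

theorem aux {G : Type*} [Group G] [Finite G] {p : ℕ} [Fact p.Prime] (N : Subgroup G) [N.Normal] (hN : (Nat.card N).Coprime p) (P : Subgroup G) (hP : IsPGroup p P) : Subgroup.normalizer ((P.map (QuotientGroup.mk' N)) : Set (G ⧸ N)) = (Subgroup.normalizer (P : Set G)).map (QuotientGroup.mk' N) ∧ Subgroup.centralizer ((P.map (QuotientGroup.mk' N)) : Set (G ⧸ N)) = (Subgroup.centralizer (P : Set G)).map (QuotientGroup.mk' N) := by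
  have hn : P ≤ Subgroup.normalizer (N : Set G) := by
    rw [Subgroup.normalizer_eq_top]; exact le_top
  have hcop : (Nat.card P).Coprime (Nat.card N) := by
    obtain ⟨k, hk⟩ := IsPGroup.iff_card.mp hP
    rw [hk]
    exact Nat.Coprime.pow_left _ hN.symm
  have hs : Group.IsSolvable P := H23.isSolvable_of_isPGroup hP
  have hf : Function.Surjective (QuotientGroup.mk' N) := QuotientGroup.mk'_surjective N
  constructor
  · apply le_antisymm
    · intro x hx
      obtain ⟨g, rfl⟩ := hf x
      have h1 : MulAut.conj g • P ≤ N ⊔ P := by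
        intro y hy
        have hy' := H1.mem_conj_smul.mp hy
        have h2 : (QuotientGroup.mk' N) y ∈ P.map (QuotientGroup.mk' N) := by
          have h0 : y = g * (g⁻¹ * y * g) * g⁻¹ := by group
          rw [h0, map_mul _ _ g⁻¹, map_mul _ g, map_inv _ g]
          exact (Subgroup.mem_normalizer_iff.mp hx _).mp (Subgroup.mem_map_of_mem _ hy')
        obtain ⟨b, hb, hba⟩ := h2
        have h3 : b⁻¹ * y ∈ N := QuotientGroup.eq.mp hba
        have h4 : y = b * (b⁻¹ * y) := by group
        rw [h4]
        exact mul_mem (Subgroup.mem_sup_right hb) (Subgroup.mem_sup_left h3)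
      obtain ⟨n, hnN, h5⟩ := H23.sz_conj_ambient hn hcop (Or.inl hs) h1 (H1.card_conj_smul g P)
      refine ⟨n * g, ?_, ?_⟩
      · show n * g ∈ Subgroup.normalizer (P : Set G)
        rw [H1.mem_normalizer_iff_conj_smul, ← H1.conj_smul_smul]
        exact h5
      · rw [map_mul]
        have : (QuotientGroup.mk' N) n = 1 := (QuotientGroup.eq_one_iff n).mpr hnN
        rw [this, one_mul]
    · exact Subgroup.le_normalizer_map _
  · apply le_antisymm
    · intro x hx
      obtain ⟨g, rfl⟩ := hf x
      obtain ⟨n, hnN, h5⟩ := H23.exists_mem_coset_centralizer hn hcop (Or.inl hs) (g := g) (by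
        intro a ha
        have h1 := Subgroup.mem_centralizer_iff.mp hx _ (Subgroup.mem_map_of_mem _ ha)
        rw [← QuotientGroup.ker_mk' N, MonoidHom.mem_ker, map_mul, map_mul, map_mul, map_inv,
          map_inv, mul_assoc ((QuotientGroup.mk' N) g)⁻¹, h1]
        group)
      refine ⟨g * n, h5, ?_⟩
      rw [map_mul]
      have : (QuotientGroup.mk' N) n = 1 := (QuotientGroup.eq_one_iff n).mpr hnN
      rw [this, mul_one]
    · rintro _ ⟨c, hc, rfl⟩
      rw [Subgroup.mem_centralizer_iff]
      rintro _ ⟨a, ha, rfl⟩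
      rw [← map_mul, ← map_mul, Subgroup.mem_centralizer_iff.mp hc a ha]

end aux

/-- Let G be a finite group, N a normal subgroup of G whose order is prime to p, and P a p-subgroup of G. Then in G/N the normalizer of the image of P is the image of N_G(P), and the centralizer of the image of P is the image of C_G(P). -/
theorem result {G : Type*} [Group G] [Finite G] {p : ℕ} [Fact p.Prime] (N : Subgroup G) [N.Normal] (hN : (Nat.card N).Coprime p) (P : Subgroup G) (hP : IsPGroup p P) : Subgroup.normalizer ((P.map (QuotientGroup.mk' N)) : Set (G ⧸ N)) = (Subgroup.normalizer (P : Set G)).map (QuotientGroup.mk' N) ∧ Subgroup.centralizer ((P.map (QuotientGroup.mk' N)) : Set (G ⧸ N)) = (Subgroup.centralizer (P : Set G)).map (QuotientGroup.mk' N) := by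
  exact aux N hN P hP

end Cfsg.Agent.S3800
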