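import Cfsg.Statements.S3950
import Cfsg.Agent.H15.Kunneth3

set_option autoImplicit false
open Cfsg

namespace Cfsg.Agent.S3950

open Cfsg.Agent.H15.Schur

/-- A finite abelian group has trivial Schur multiplier if and only if it is cyclic. -/
theorem result {G : Type*} [CommGroup G] [Finite G] : Cfsg.HasCyclicSchurMultiplier G 1 ↔ IsCyclic G := by
  constructor
  · intro h
    by_contra hc
    obtain ⟨p, hp, f, hf⟩ := exists_surj_of_not_cyclic hc
    have : Fact p.Prime := ⟨hp⟩
    have : NeZero p := ⟨hp.ne_zero⟩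
    obtain ⟨⟨Δ, i1, i2, τ, hτ, ⟨k⟩⟩, _⟩ := multiplier_prod_cyclic p p dvd_rfl
    obtain ⟨Γ, j1, j2, σ, hσ, ⟨e⟩⟩ := exists_stem_pullback f hf τ hτ
    have h1 := hasCyclic_one_iff.mp h Γ σ hσ
    have h2 : Nat.card σ.ker = p := by
      rw [Nat.card_congr (e.trans k).toEquiv]
      exact Nat.card_zmod p
    rw [h1, Subgroup.card_bot] at h2
    exact hp.one_lt.ne h2
  · intro h
    exact cyclic_trivial G

end Cfsg.Agent.S3950
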