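import Cfsg.Statements.S3952
import Cfsg.Agent.H15.Schur6

set_option autoImplicit false
open Cfsg

namespace Cfsg.Agent.S3952

open Cfsg.Agent.H15.Schur

/-- If `A` is the Schur multiplier of the finite group `Q`, then the square of the exponent of `A` divides the order of `Q`. -/
theorem result {Q : Type*} [Group Q] [Finite Q] {A : Type*} [CommGroup A] (hA : Cfsg.HasSchurMultiplier Q A) : Monoid.exponent A ^ 2 ∣ Nat.card Q := by
  have hfA := finite_of_hasSchurMultiplier hA
  obtain ⟨⟨Γ, i1, i2, σ, hσ, ⟨f⟩⟩, _⟩ := hA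
  obtain ⟨e⟩ := dual_equiv A
  obtain ⟨a, ha⟩ := Monoid.exists_orderOf_eq_exponent
    (Monoid.ExponentExists.of_finite (G := A))
  let lam : σ.ker →* ℂˣ := (e.symm a).comp f.toMonoidHom
  have h1 : orderOf lam = Monoid.exponent A := by
    have h2 : orderOf (e.symm a) = orderOf a := orderOf_injective (e.symm : A →* (A →* ℂˣ)) e.symm.injective a
    rw [← ha, ← h2]
    apply Nat.dvd_antisymm
    · rw [orderOf_dvd_iff_pow_eq_one]
      ext k
      have h3 := DFunLike.congr_fun (pow_orderOf_eq_one (e.symm a)) (f k)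
      exact congrArg Units.val h3
    · rw [orderOf_dvd_iff_pow_eq_one]
      ext k
      obtain ⟨x, rfl⟩ := f.surjective k
      have h3 := DFunLike.congr_fun (pow_orderOf_eq_one lam) x
      exact congrArg Units.val h3
  have h2 := exponent_sq_dvd σ.ker hσ.2.1 hσ.2.2 lam
  rw [h1] at h2
  have h3 : σ.ker.index = Nat.card Q := by
    rw [Subgroup.index_ker, MonoidHom.range_eq_top.mpr hσ.1, Nat.card_congr Subgroup.topEquiv.toEquiv]
  rw [h3] at h2
  exact h2

end Cfsg.Agent.S3952
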