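import Cfsg.Statements.S3953
import Cfsg.Agent.H15.Schur3

set_option autoImplicit false
open Cfsg

namespace Cfsg.Agent.S3953

open Cfsg.Agent.H15.Schur

/-- Let `P` be a Sylow `p`-subgroup of the finite group `G`, let `A` be the Schur multiplier of `G` and `B` that of `P`. Then the `p`-primary component of `A` is isomorphic to a direct factor of `B`: there are subgroups `C` and `D` of `B` meeting trivially and generating `B`, with `C` isomorphic to the `p`-primary component of `A`. -/
theorem result {G : Type*} [Group G] [Finite G] (p : ℕ) [Fact p.Prime] (P : Sylow p G) {A B : Type*} [CommGroup A] [CommGroup B] (hA : Cfsg.HasSchurMultiplier G A) (hB : Cfsg.HasSchurMultiplier P B) : ∃ C D : Subgroup B, C ⊓ D = ⊥ ∧ C ⊔ D = ⊤ ∧ Nonempty (CommGroup.primaryComponent A p ≃* C) := by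
  obtain ⟨t, c, htc⟩ := exists_tr_cor (P : Subgroup G) hA hB
  have hfA : Finite A := finite_of_hasSchurMultiplier hA
  set m := (P : Subgroup G).index with hm
  have hpm : ¬ p ∣ m := P.not_dvd_index
  have hp : p.Prime := Fact.out
  obtain ⟨s, q, hq, hcard⟩ := Nat.exists_eq_pow_mul_and_not_dvd (Nat.card_pos (α := A)).ne' p hp.one_lt.ne'
  have hcop : Nat.Coprime (p ^ s) q := Nat.Coprime.pow_left s ((Nat.Prime.coprime_iff_not_dvd hp).mpr hq)
  obtain ⟨k, hk1, hk2⟩ := Nat.chineseRemainder hcop 1 0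
  have hord : ∀ a : A, a ∈ CommGroup.primaryComponent A p → a ^ (p ^ s) = 1 := by
    intro a ha
    obtain ⟨n, hn⟩ := CommGroup.mem_primaryComponent_iff_orderOf.mp ha
    have h1 : orderOf a ∣ Nat.card A := orderOf_dvd_natCard a
    rw [hcard] at h1
    rw [← orderOf_dvd_iff_pow_eq_one]
    have h2 : Nat.Coprime (orderOf a) q := by
      rw [hn]; exact Nat.Coprime.pow_left n ((Nat.Prime.coprime_iff_not_dvd hp).mpr hq)
    exact h2.dvd_of_dvd_mul_right h1
  have hk : ∀ a : A, a ∈ CommGroup.primaryComponent A p → a ^ k = a := by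
    intro a ha
    have h1 := (pow_eq_pow_iff_modEq (x := a) (m := 1) (n := k)).mpr
      (hk1.of_dvd (orderOf_dvd_of_pow_eq_one (hord a ha)))
    rw [h1, pow_one]
  have hk' : ∀ a : A, a ^ k ∈ CommGroup.primaryComponent A p := by
    intro a
    have h1 : (a ^ k) ^ (p ^ s) = 1 := by
      obtain ⟨d, hd⟩ := (Nat.modEq_zero_iff_dvd.mp hk2)
      rw [← pow_mul, hd, show q * d * p ^ s = (p ^ s * q) * d by ring, ← hcard, pow_mul,
        pow_card_eq_one', one_pow]
    exact ⟨s, h1⟩
  let Ap := CommGroup.primaryComponent A p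
  let f : Ap →* B := t.comp Ap.subtype
  let g : B →* Ap := ((powMonoidHom k).comp c).codRestrict Ap (fun b => hk' (c b))
  have hgf : ∀ a : Ap, g (f a) = a ^ m := by
    intro a
    apply Subtype.ext
    show (c (t a.1)) ^ k = a.1 ^ m
    rw [htc, ← pow_mul, mul_comm, pow_mul, hk a.1 a.2]
  have hcop2 : Nat.Coprime (Nat.card Ap) m := by
    have h1 : IsPGroup p Ap := CommGroup.primaryComponent.isPGroup
    obtain ⟨n, hn⟩ := IsPGroup.iff_card.mp h1
    rw [hn]
    exact Nat.Coprime.pow_left n ((Nat.Prime.coprime_iff_not_dvd hp).mpr hpm)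
  have hbij : Function.Bijective (fun a : Ap => a ^ m) :=
    (powCoprime hcop2).bijective
  have hinj : Function.Injective f := by
    intro a b hab
    apply hbij.1
    show a ^ m = b ^ m
    rw [← hgf, ← hgf, hab]
  refine ⟨f.range, g.ker, ?_, ?_, ⟨MulEquiv.ofBijective f.rangeRestrict
    ⟨f.rangeRestrict_injective_iff.mpr hinj, f.rangeRestrict_surjective⟩⟩⟩
  · rw [Subgroup.eq_bot_iff_forall]
    rintro _ ⟨⟨a, rfl⟩, ha⟩
    have h1 : g (f a) = 1 := ha
    rw [hgf] at h1
    have : a = 1 := by apply hbij.1; show a ^ m = 1 ^ m; rw [h1, one_pow]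
    rw [this, map_one]
  · rw [eq_top_iff]
    intro b _
    obtain ⟨a, ha⟩ := hbij.2 (g b)
    have ha' : a ^ m = g b := ha
    have h1 : (f a)⁻¹ * b ∈ g.ker := by
      rw [MonoidHom.mem_ker, map_mul, map_inv, hgf, ha', inv_mul_cancel]
    have : b = f a * ((f a)⁻¹ * b) := by group
    rw [this]
    exact Subgroup.mul_mem_sup ⟨a, rfl⟩ h1

end Cfsg.Agent.S3953
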