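import Cfsg.Statements.S3954
import Cfsg.Agent.H15.Schur4

set_option autoImplicit false
open Cfsg

namespace Cfsg.Agent.S3954

open Cfsg.Agent.H15.Schur

/-- Let `U` be a subgroup of index `m` in the finite group `G`, let `A` be the Schur multiplier of `G` and `B` that of `U`. Then the subgroup of `m`-th powers of `A` is isomorphic to a subgroup of `B`. -/
theorem result {G : Type*} [Group G] [Finite G] (U : Subgroup G) {A B : Type*} [CommGroup A] [CommGroup B] (hA : Cfsg.HasSchurMultiplier G A) (hB : Cfsg.HasSchurMultiplier U B) : ∃ C : Subgroup B, Nonempty ((powMonoidHom U.index : A →* A).range ≃* C) := by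
  obtain ⟨t, c, htc⟩ := exists_tr_cor U hA hB
  have hfA : Finite A := finite_of_hasSchurMultiplier hA
  have hfB : Finite B := finite_of_hasSchurMultiplier hB
  let f : t.range →* (powMonoidHom U.index : A →* A).range :=
    (c.comp t.range.subtype).codRestrict _ (by
      rintro ⟨_, a, rfl⟩
      exact ⟨a, (htc a).symm⟩)
  have hf : Function.Surjective f := by
    rintro ⟨_, a, rfl⟩
    exact ⟨⟨t a, a, rfl⟩, Subtype.ext (htc a)⟩
  obtain ⟨g, hg⟩ := dual_embed f hf
  let g' := t.range.subtype.comp g
  have hg' : Function.Injective g' := t.range.subtype_injective.comp hg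
  exact ⟨g'.range, ⟨MulEquiv.ofBijective g'.rangeRestrict
    ⟨g'.rangeRestrict_injective_iff.mpr hg', g'.rangeRestrict_surjective⟩⟩⟩

end Cfsg.Agent.S3954
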