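import Cfsg.Statements.S3957
import Cfsg.Agent.H15.Schur

set_option autoImplicit false
universe u v
open Cfsg

namespace Cfsg.Agent.S3957

open Cfsg.Agent.H15.Schur

/-- Let `Q` be a finite group with Schur multiplier `A` and let `τ : Δ →* Q` be a finite stem extension, `Δ` in the universe of `Q`. Then there is a finite stem extension `σ : Γ →* Q` with kernel isomorphic to `A` (a Schur covering group) and a surjective homomorphism `β : Γ →* Δ` with `τ ∘ β = σ`. -/
theorem result {Q : Type u} [Group Q] [Finite Q] {A : Type v} [CommGroup A] (hA : Cfsg.HasSchurMultiplier Q A) {Δ : Type u} [Group Δ] [Finite Δ] (τ : Δ →* Q) (hτ : Cfsg.IsStemExtension τ) : ∃ (Γ : Type u) (_ : Group Γ) (_ : Finite Γ) (σ : Γ →* Q), Cfsg.IsStemExtension σ ∧ Nonempty (σ.ker ≃* A) ∧ ∃ β : Γ →* Δ, Function.Surjective β ∧ τ.comp β = σ := by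
  let φ : FreeGroup Q →* Q := FreeGroup.lift id
  have hφ : Function.Surjective φ := fun q => ⟨FreeGroup.of q, by simp [φ]⟩
  obtain ⟨e⟩ := (hasSchurMultiplier_iff φ hφ).mp hA
  obtain ⟨η, hη⟩ := exists_ceLift φ τ hτ.1 hτ.2.1
  have hk : η.ker ≤ (pr φ).ker := by
    intro x hx
    rw [MonoidHom.mem_ker] at hx ⊢
    rw [← hη, MonoidHom.comp_apply, hx, map_one]
  have hsup : SM φ ⊔ η.ker = (pr φ).ker := by
    apply le_antisymm (sup_le inf_le_left hk)
    intro x hx
    have h1 : η x ∈ τ.ker := by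
      rw [MonoidHom.mem_ker]
      have : τ (η x) = pr φ x := by rw [← hη]; rfl
      rw [this]; exact hx
    obtain ⟨m, hm⟩ := smMap_surjective φ hφ τ hτ η hη ⟨η x, h1⟩
    have h2 : η m.1 = η x := congrArg Subtype.val hm
    have h3 : m.1⁻¹ * x ∈ η.ker := by
      rw [MonoidHom.mem_ker, map_mul, map_inv, h2, inv_mul_cancel]
    have : x = m.1 * (m.1⁻¹ * x) := by group
    rw [this]
    exact Subgroup.mul_mem_sup m.2 h3
  obtain ⟨S, hS, h1, h2⟩ := exists_complement_ker φ η.ker hk hsup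
  have hS' : S ≤ (pr φ).ker := hS.trans hk
  have := normal_of_le_ker φ hS'
  have hfin := finite_cover φ S hS' h1 h2
  refine ⟨CE φ ⧸ S, inferInstance, hfin, coverHom φ S hS', coverHom_isStem φ hφ S hS' h2,
    ⟨(coverKerEquiv φ S hS' h1 h2).symm.trans e.symm⟩, QuotientGroup.lift S η hS, ?_, ?_⟩
  · intro d
    obtain ⟨x, rfl⟩ := surjective_of_isStem (pr φ) (pr_surjective φ hφ) τ hτ η hη d
    exact ⟨QuotientGroup.mk x, rfl⟩
  · apply QuotientGroup.monoidHom_ext
    rw [MonoidHom.comp_assoc]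
    exact hη

end Cfsg.Agent.S3957
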