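import Cfsg.Statements.S3958
import Cfsg.Agent.H15.Schur

set_option autoImplicit false
universe u v
open Cfsg

namespace Cfsg.Agent.S3958

open Cfsg.Agent.H15.Schur

/-- Let `σ : Γ →* Q` be a finite stem extension of the finite group `Q` with `Γ` of trivial Schur multiplier. Then `σ` is a Schur covering group of `Q`: for every finite stem extension `τ : Δ →* Q` with `Δ` in the same universe as `Q`, the kernel of `τ` is a homomorphic image of the kernel of `σ`. -/
theorem result {Q : Type u} [Group Q] [Finite Q] {Γ : Type v} [Group Γ] [Finite Γ] (σ : Γ →* Q) (hσ : Cfsg.IsStemExtension σ) (hΓ : Cfsg.HasCyclicSchurMultiplier Γ 1) (Δ : Type u) [Group Δ] [Finite Δ] (τ : Δ →* Q) (hτ : Cfsg.IsStemExtension τ) : ∃ π : σ.ker →* τ.ker, Function.Surjective π := by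
  let φΓ : FreeGroup Γ →* Γ := FreeGroup.lift id
  have hφΓ : Function.Surjective φΓ := fun q => ⟨FreeGroup.of q, by simp [φΓ]⟩
  let φ : FreeGroup Γ →* Q := σ.comp φΓ
  have hφ : Function.Surjective φ := hσ.1.comp hφΓ
  have hfin : Finite Q := Finite.of_surjective σ hσ.1
  obtain ⟨e⟩ := (hasSchurMultiplier_iff φΓ hφΓ).mp hΓ
  have hsub : Subsingleton ↥(SM φΓ) := e.symm.toEquiv.subsingleton
  let ηΓ := ceLift φ σ hσ.2.1 φΓ rfl
  have hηΓ : σ.comp ηΓ = pr φ := comp_ceLift φ σ hσ.2.1 φΓ rfl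
  obtain ⟨η, hη⟩ := exists_ceLift φ τ hτ.1 hτ.2.1
  have hinj : Function.Injective (smMap φ σ ηΓ hηΓ) := by
    rw [injective_iff_map_eq_one]
    rintro ⟨x, hx1, hx2⟩ hx
    have h1 : ηΓ x = 1 := congrArg Subtype.val hx
    induction x using QuotientGroup.induction_on with
    | H f =>
      have h2 : φΓ f = 1 := h1
      have h3 : f ∈ commutator (FreeGroup Γ) := (mk_mem_commutator_iff φ f).mp hx2
      have h4 : (QuotientGroup.mk f : CE φΓ) ∈ SM φΓ :=
        ⟨h2, (mk_mem_commutator_iff φΓ f).mpr h3⟩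
      have h5 : (⟨QuotientGroup.mk f, h4⟩ : ↥(SM φΓ)) = 1 := Subsingleton.elim _ _
      have h6 : (QuotientGroup.mk f : CE φΓ) = 1 := congrArg Subtype.val h5
      rw [QuotientGroup.eq_one_iff] at h6
      have h7 : f ∈ ⁅φ.ker, (⊤ : Subgroup (FreeGroup Γ))⁆ := by
        refine Subgroup.commutator_mono ?_ le_rfl h6
        intro y hy
        rw [MonoidHom.mem_ker] at hy ⊢
        show σ (φΓ y) = 1
        rw [hy, map_one]
      apply Subtype.ext
      exact (QuotientGroup.eq_one_iff f).mpr h7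
  let e1 := MulEquiv.ofBijective (smMap φ σ ηΓ hηΓ) ⟨hinj, smMap_surjective φ hφ σ hσ ηΓ hηΓ⟩
  exact ⟨(smMap φ τ η hη).comp e1.symm.toMonoidHom,
    (smMap_surjective φ hφ τ hτ η hη).comp e1.symm.surjective⟩

end Cfsg.Agent.S3958
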