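import Cfsg.Statements.S3960
import Cfsg.Agent.H15.Schur2

set_option autoImplicit false
universe u
open Cfsg

namespace Cfsg.Agent.S3960

open Cfsg.Agent.H15.Schur

/-- A finite perfect group `Q` has a universal central extension: a finite perfect group `G` in the universe of `Q` and a surjective homomorphism `π : G →* Q` with central kernel such that for every group `X` in that universe and every surjective homomorphism `ξ : X →* Q` with central kernel there is exactly one homomorphism `η : G →* X` with `ξ ∘ η = π`. -/
theorem result {Q : Type u} [Group Q] [Finite Q] (hQ : Group.IsPerfect Q) : ∃ (G : Type u) (_ : Group G) (_ : Finite G) (π : G →* Q), Group.IsPerfect G ∧ Function.Surjective π ∧ π.ker ≤ Subgroup.center G ∧ ∀ (X : Type u) [Group X] (ξ : X →* Q), Function.Surjective ξ → ξ.ker ≤ Subgroup.center X → ∃! η : G →* X, ξ.comp η = π := by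
  have hφ := canPres_surjective Q
  have h1 := finite_commutator (canPres Q)
  have hp := perfect_commutator_CE (canPres Q) hφ hQ
  refine ⟨↥(commutator (CE (canPres Q))), inferInstance, h1,
    (pr (canPres Q)).comp (commutator (CE (canPres Q))).subtype, hp,
    pr_commutator_surjective (canPres Q) hφ hQ, ?_, ?_⟩
  · rintro ⟨x, hx⟩ h
    rw [Subgroup.mem_center_iff]
    rintro ⟨g, hg⟩
    apply Subtype.ext
    exact Subgroup.mem_center_iff.mp (ker_pr_le_center (canPres Q) h) g
  · intro X _ ξ hξ hc
    obtain ⟨η, hη⟩ := exists_ceLift (canPres Q) ξ hξ hc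
    refine ⟨η.comp (commutator (CE (canPres Q))).subtype, ?_, ?_⟩
    · show ξ.comp (η.comp _) = _
      rw [← MonoidHom.comp_assoc, hη]
    · intro y hy
      apply hom_eq_of_perfect hp ξ hc
      rw [hy, ← MonoidHom.comp_assoc, hη]

end Cfsg.Agent.S3960
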