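import Cfsg.Statements.S3961
import Cfsg.Agent.H15.Schur2

set_option autoImplicit false
universe u v
open Cfsg

namespace Cfsg.Agent.S3961

open Cfsg.Agent.H15.Schur

/-- Let `π : G →* Q` be a surjective homomorphism with central kernel from a finite perfect group `G` (a perfect cover of `Q`). Then `π` is universal, in the sense that every surjective homomorphism `ξ : X →* Q` with central kernel from a group `X` in the universe of `G` admits a homomorphism `η : G →* X` with `ξ ∘ η = π`, if and only if `G` has trivial Schur multiplier. -/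
theorem result {G : Type u} {Q : Type v} [Group G] [Group Q] [Finite G] (hG : Group.IsPerfect G) (π : G →* Q) (hπ : Function.Surjective π) (hker : π.ker ≤ Subgroup.center G) : (∀ (X : Type u) [Group X] (ξ : X →* Q), Function.Surjective ξ → ξ.ker ≤ Subgroup.center X → ∃ η : G →* X, ξ.comp η = π) ↔ Cfsg.HasCyclicSchurMultiplier G 1 := by
  rw [hasCyclic_one_iff]
  constructor
  · intro h Γ _ _ σ hσ
    have hp := perfect_of_stem hG σ hσ
    obtain ⟨η, hη⟩ := h Γ (π.comp σ) (hπ.comp hσ.1) (comp_central hp σ hσ.1 hσ.2.1 π hker)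
    have h1 : σ.comp η = MonoidHom.id G := by
      apply hom_eq_of_perfect hG π hker
      rw [← MonoidHom.comp_assoc, hη]; rfl
    -- Γ = η(G) * ker σ
    have h2 : η.range ⊔ Subgroup.center Γ = ⊤ := by
      rw [eq_top_iff]
      intro x _
      have h3 : (η (σ x))⁻¹ * x ∈ σ.ker := by
        rw [MonoidHom.mem_ker, map_mul, map_inv]
        have : σ (η (σ x)) = σ x := DFunLike.congr_fun h1 (σ x)
        rw [this, inv_mul_cancel]
      have h4 : x = η (σ x) * ((η (σ x))⁻¹ * x) := by group
      rw [h4]
      exact Subgroup.mul_mem_sup ⟨σ x, rfl⟩ (hσ.2.1 h3)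
    have h3 := commutator_eq_of_sup_center η.range h2
    rw [Subgroup.eq_bot_iff_forall]
    intro x hx
    have h4 := hσ.2.2 hx
    rw [h3] at h4
    obtain ⟨y, hy⟩ := Subgroup.commutator_le_self _ h4
    have h5 : σ (η y) = y := DFunLike.congr_fun h1 y
    have h6 : σ x = 1 := hx
    rw [← hy, h5] at h6
    rw [← hy, h6, map_one]
  · intro h X _ ξ hξ hc
    have hQ : Group.IsPerfect Q := Group.IsPerfect.ofSurjective hπ
    let φG := canPres G
    have hφG : Function.Surjective φG := canPres_surjective G
    let φ := π.comp φG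
    have hφ : Function.Surjective φ := hπ.comp hφG
    obtain ⟨e⟩ := (hasSchurMultiplier_iff φG hφG).mp (hasCyclic_one_iff.mpr h)
    have hsub : Subsingleton ↥(SM φG) := e.symm.toEquiv.subsingleton
    obtain ⟨η, hη⟩ := exists_ceLift φ ξ hξ hc
    let ε := ceLift φ π hker φG rfl
    have hε : π.comp ε = pr φ := comp_ceLift φ π hker φG rfl
    let ε' : ↥(commutator (CE φ)) →* G := ε.comp (commutator (CE φ)).subtype
    have hinj : Function.Injective ε' := by
      rw [injective_iff_map_eq_one]
      rintro ⟨x, hx⟩ h1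
      apply Subtype.ext
      exact smMap_injective_of_trivial φ φG π rfl hsub ε (fun f => rfl) x hx h1
    have hsε : Function.Surjective ε := by
      intro g
      obtain ⟨f, rfl⟩ := hφG g
      exact ⟨QuotientGroup.mk f, rfl⟩
    have hsurj : Function.Surjective ε' := by
      intro g
      have h1 : g ∈ commutator G := by rw [hG.commutator_eq_top]; trivial
      rw [← commutator_map_of_surjective ε hsε] at h1
      obtain ⟨y, hy, hyx⟩ := h1
      exact ⟨⟨y, hy⟩, hyx⟩
    let e' := MulEquiv.ofBijective ε' ⟨hinj, hsurj⟩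
    refine ⟨(η.comp (commutator (CE φ)).subtype).comp e'.symm.toMonoidHom, ?_⟩
    ext g
    obtain ⟨x, rfl⟩ := e'.surjective g
    show ξ (η (e'.symm (e' x)).1) = π (ε x.1)
    rw [e'.symm_apply_apply]
    have h1 : ξ (η x.1) = pr φ x.1 := DFunLike.congr_fun hη x.1
    have h2 : π (ε x.1) = pr φ x.1 := DFunLike.congr_fun hε x.1
    rw [h1, h2]

end Cfsg.Agent.S3961
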