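import Cfsg.Statements.S3962

set_option autoImplicit false
set_option linter.all false
open Cfsg

namespace Cfsg.Agent.S3962

section aux
open Subgroup

theorem aux {G Q : Type*} [Group G] [Group Q] (hG : Group.IsPerfect G) (π : G →* Q) (hπ : Function.Surjective π) (hker : π.ker ≤ Subgroup.center G) : (Subgroup.center G).map π = Subgroup.center Q := by
  apply le_antisymm
  · rintro _ ⟨z, hz, rfl⟩
    rw [mem_center_iff]
    intro q
    obtain ⟨g, rfl⟩ := hπ q
    rw [← map_mul, ← map_mul, mem_center_iff.mp hz g]
  · have h1 : ⁅((center Q).comap π : Subgroup G), (⊤ : Subgroup G)⁆ ≤ center G := by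
      refine le_trans ?_ hker
      rw [commutator_le]
      intro z hz g _
      rw [MonoidHom.mem_ker, map_commutatorElement, commutatorElement_eq_one_iff_mul_comm]
      exact (mem_center_iff.mp hz (π g)).symm
    have h2 : ∀ K : Subgroup G, K ≤ center G → ⁅K, (⊤ : Subgroup G)⁆ = ⊥ := by
      intro K hK
      rw [commutator_eq_bot_iff_le_centralizer, coe_top, centralizer_univ]
      exact hK
    have h3 := commutator_commutator_eq_bot_of_rotate (H₁ := (⊤ : Subgroup G)) (H₂ := (⊤ : Subgroup G))
      (H₃ := (center Q).comap π) (by rw [commutator_comm ⊤]; exact h2 _ h1) (h2 _ h1)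
    have h4 : ⁅(⊤ : Subgroup G), ⊤⁆ = ⊤ := hG.commutator_eq_top
    rw [h4, commutator_comm, commutator_eq_bot_iff_le_centralizer, coe_top, centralizer_univ] at h3
    intro q hq
    obtain ⟨g, rfl⟩ := hπ q
    exact ⟨g, h3 hq, rfl⟩

end aux

/-- Let `G` be a perfect group and `π : G →* Q` a surjective homomorphism whose kernel is central. Then `π` maps the centre of `G` onto the centre of `Q`. Taking `π` to be the map to `G ⧸ Z(G)` shows that the central quotient of a perfect group has trivial centre. -/
theorem result {G Q : Type*} [Group G] [Group Q] (hG : Group.IsPerfect G) (π : G →* Q) (hπ : Function.Surjective π) (hker : π.ker ≤ Subgroup.center G) : (Subgroup.center G).map π = Subgroup.center Q := by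
  exact aux hG π hπ hker

end Cfsg.Agent.S3962
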