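import Cfsg.Statements.S3963
import Cfsg.Agent.H24.SchurDih

set_option autoImplicit false
open Cfsg

namespace Cfsg.Agent.S3963

/-- For every `n ≥ 1` the dicyclic (generalized quaternion) group of order `4 n` has trivial Schur multiplier. -/
theorem result (n : ℕ) [NeZero n] : Cfsg.HasCyclicSchurMultiplier (QuaternionGroup n) 1 := by
  have hn : 0 < n := Nat.pos_of_ne_zero (NeZero.ne n)
  apply Cfsg.Agent.H24.hasCyclicSchurMultiplier_one
  intro Γ _ _ σ hσ
  have h1 := Cfsg.Agent.H24.stem_dihedral_bound σ hσ (QuaternionGroup.a 1) (QuaternionGroup.xa 0)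
    (by
      rw [eq_top_iff]
      intro g _
      have ha : ∀ i : ZMod (2 * n), (QuaternionGroup.a i : QuaternionGroup n) ∈
          Subgroup.closure ({QuaternionGroup.a 1, QuaternionGroup.xa 0} : Set (QuaternionGroup n)) := by
        intro i
        have hz : NeZero (2 * n) := ⟨by omega⟩
        have h2 : (QuaternionGroup.a i : QuaternionGroup n) = QuaternionGroup.a 1 ^ i.val := by
          rw [QuaternionGroup.a_one_pow, ZMod.natCast_zmod_val]
        rw [h2]
        exact Subgroup.pow_mem _ (Subgroup.subset_closure (by simp)) _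
      rcases g with i | i
      · exact ha i
      · have h2 : (QuaternionGroup.xa i : QuaternionGroup n) = QuaternionGroup.xa 0 * QuaternionGroup.a i := by
          rw [QuaternionGroup.xa_mul_a, zero_add]
        rw [h2]
        exact Subgroup.mul_mem _ (Subgroup.subset_closure (by simp)) (ha i))
    (by
      rw [mul_inv_eq_iff_eq_mul, eq_inv_mul_iff_mul_eq, QuaternionGroup.xa_mul_a,
        QuaternionGroup.a_mul_xa]
      simp) n hn (Or.inr (by
      rw [QuaternionGroup.a_one_pow, QuaternionGroup.xa_mul_xa]
      simp))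
  have h2 : orderOf ((QuaternionGroup.a 1 : QuaternionGroup n) ^ 2) = n := by
    rw [orderOf_pow' _ two_ne_zero, QuaternionGroup.orderOf_a_one, Nat.gcd_eq_right (Dvd.intro _ rfl),
      Nat.mul_div_cancel_left _ two_pos]
  rw [h2] at h1
  have h3 : Nat.card σ.ker = 1 := by
    have h4 : 0 < Nat.card σ.ker := Nat.card_pos
    have h5 : Nat.card σ.ker * n ≤ 1 * n := by rw [one_mul]; exact h1
    have := Nat.le_of_mul_le_mul_right h5 hn
    omega
  exact Subgroup.card_eq_one.1 h3

end Cfsg.Agent.S3963
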