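import Cfsg.Statements.S3964
import Cfsg.Agent.H24.SchurDih

set_option autoImplicit false
open Cfsg

namespace Cfsg.Agent.S3964

theorem dihedral_closure (n : ℕ) [NeZero n] :
    Subgroup.closure ({DihedralGroup.r 1, DihedralGroup.sr 0} : Set (DihedralGroup n)) = ⊤ := by
  rw [eq_top_iff]
  intro g _
  have ha : ∀ i : ZMod n, (DihedralGroup.r i : DihedralGroup n) ∈
      Subgroup.closure ({DihedralGroup.r 1, DihedralGroup.sr 0} : Set (DihedralGroup n)) := by
    intro i
    have h2 : (DihedralGroup.r i : DihedralGroup n) = DihedralGroup.r 1 ^ i.val := by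
      rw [DihedralGroup.r_one_pow, ZMod.natCast_zmod_val]
    rw [h2]
    exact Subgroup.pow_mem _ (Subgroup.subset_closure (by simp)) _
  rcases g with i | i
  · exact ha i
  · have h2 : (DihedralGroup.sr i : DihedralGroup n) = DihedralGroup.sr 0 * DihedralGroup.r i := by
      rw [DihedralGroup.sr_mul_r, zero_add]
    rw [h2]
    exact Subgroup.mul_mem _ (Subgroup.subset_closure (by simp)) (ha i)

theorem dihedral_bound (n : ℕ) [NeZero n] {Γ : Type*} [Group Γ] [Finite Γ]
    (σ : Γ →* DihedralGroup n) (hσ : Cfsg.IsStemExtension σ) :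
    Nat.card σ.ker * (n / Nat.gcd n 2) ≤ n := by
  have hn : 0 < n := Nat.pos_of_ne_zero (NeZero.ne n)
  have h1 := Cfsg.Agent.H24.stem_dihedral_bound σ hσ (DihedralGroup.r 1) (DihedralGroup.sr 0)
    (dihedral_closure n) (by
      rw [mul_inv_eq_iff_eq_mul, eq_inv_mul_iff_mul_eq, DihedralGroup.sr_mul_r,
        DihedralGroup.r_mul_sr]
      simp) n hn (Or.inl (by rw [DihedralGroup.r_one_pow]; simp))
  have h2 : orderOf ((DihedralGroup.r 1 : DihedralGroup n) ^ 2) = n / Nat.gcd n 2 := by
    rw [orderOf_pow' _ two_ne_zero, DihedralGroup.orderOf_r_one]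
  rwa [h2] at h1

/-- For odd `n` the dihedral group of order `2 n` has trivial Schur multiplier. -/
theorem result (n : ℕ) (hn : Odd n) : Cfsg.HasCyclicSchurMultiplier (DihedralGroup n) 1 := by
  have hn0 : n ≠ 0 := by rintro rfl; exact absurd hn (by decide)
  have : NeZero n := ⟨hn0⟩
  apply Cfsg.Agent.H24.hasCyclicSchurMultiplier_one
  intro Γ _ _ σ hσ
  have h1 := dihedral_bound n σ hσ
  have h2 : Nat.gcd n 2 = 1 := Nat.coprime_two_right.2 hn
  rw [h2, Nat.div_one] at h1
  have h3 : Nat.card σ.ker = 1 := by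
    have h4 : 0 < Nat.card σ.ker := Nat.card_pos
    have h5 : Nat.card σ.ker * n ≤ 1 * n := by rw [one_mul]; exact h1
    have := Nat.le_of_mul_le_mul_right h5 (Nat.pos_of_ne_zero hn0)
    omega
  exact Subgroup.card_eq_one.1 h3

end Cfsg.Agent.S3964
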