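import Cfsg.Statements.S3966
import Cfsg.Agent.H24.SchurDih

set_option autoImplicit false
open Cfsg

namespace Cfsg.Agent.S3966

open scoped commutatorElement in
theorem a_mem_commutator (n : ℕ) [NeZero n] (m : ℕ) (hm : n = m + m) :
    (QuaternionGroup.a (n : ZMod (2 * n)) : QuaternionGroup n) ∈
      _root_.commutator (QuaternionGroup n) := by
  have h1 : (QuaternionGroup.a (n : ZMod (2 * n)) : QuaternionGroup n) =
      ⁅(QuaternionGroup.a (m : ZMod (2 * n)) : QuaternionGroup n), QuaternionGroup.xa 0⁆ := by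
    rw [commutatorElement_def]
    have h2 : (QuaternionGroup.a (m : ZMod (2 * n)) : QuaternionGroup n) * QuaternionGroup.xa 0 *
        (QuaternionGroup.a (m : ZMod (2 * n)))⁻¹ * (QuaternionGroup.xa 0)⁻¹ =
        QuaternionGroup.a (n : ZMod (2 * n)) := by
      rw [mul_inv_eq_iff_eq_mul, mul_inv_eq_iff_eq_mul, QuaternionGroup.a_mul_xa,
        QuaternionGroup.a_mul_xa, QuaternionGroup.xa_mul_a]
      congr 1
      have h3 : ((n : ℕ) : ZMod (2 * n)) = (m : ZMod (2 * n)) + m := by
        have := congrArg (Nat.cast : ℕ → ZMod (2 * n)) hm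
        rw [this]; push_cast; ring
      rw [h3]; ring
    exact h2.symm
  rw [h1, _root_.commutator_def]
  exact Subgroup.commutator_mem_commutator (Subgroup.mem_top _) (Subgroup.mem_top _)

/-- For even `n ≥ 2` the dicyclic group of order `4 n` is a stem extension of the dihedral group of order `2 n` with kernel of order `2`: there is a surjective homomorphism `QuaternionGroup n →* DihedralGroup n` whose kernel is central, lies in the commutator subgroup and has two elements. Together with the order of the multiplier this exhibits the dicyclic group as a Schur covering group of the dihedral group. -/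
theorem result (n : ℕ) [NeZero n] (hn : Even n) : ∃ σ : QuaternionGroup n →* DihedralGroup n, Cfsg.IsStemExtension σ ∧ Nat.card σ.ker = 2 := by
  classical
  have hn0 : 0 < n := Nat.pos_of_ne_zero (NeZero.ne n)
  have hz : NeZero (2 * n) := ⟨by omega⟩
  have hx : (DihedralGroup.r 1 : DihedralGroup n) ^ (2 * n) = 1 := by
    rw [DihedralGroup.r_one_pow]; simp
  have hy : (DihedralGroup.sr 0 : DihedralGroup n) * DihedralGroup.sr 0 = DihedralGroup.r 1 ^ n := by
    rw [DihedralGroup.r_one_pow, DihedralGroup.sr_mul_sr]; simp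
  have hxy : (DihedralGroup.sr 0 : DihedralGroup n) * DihedralGroup.r 1 * (DihedralGroup.sr 0)⁻¹ =
      (DihedralGroup.r 1)⁻¹ := by
    rw [mul_inv_eq_iff_eq_mul, eq_inv_mul_iff_mul_eq, DihedralGroup.sr_mul_r,
      DihedralGroup.r_mul_sr]
    simp
  let σ := Cfsg.Agent.H24.quaternionLift n (DihedralGroup.r 1 : DihedralGroup n)
    (DihedralGroup.sr 0) hx hy hxy
  have hσa : ∀ k : ℕ, σ (QuaternionGroup.a (k : ZMod (2 * n))) = DihedralGroup.r (k : ZMod n) := by
    intro k
    have h1 := Cfsg.Agent.H24.quaternionLift_a n (DihedralGroup.r 1 : DihedralGroup n)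
      (DihedralGroup.sr 0) hx hy hxy k
    rw [zpow_natCast, DihedralGroup.r_one_pow] at h1
    rw [← h1]; norm_cast
  have hσxa : ∀ k : ℕ, σ (QuaternionGroup.xa (k : ZMod (2 * n))) = DihedralGroup.sr (k : ZMod n) := by
    intro k
    have h1 := Cfsg.Agent.H24.quaternionLift_xa n (DihedralGroup.r 1 : DihedralGroup n)
      (DihedralGroup.sr 0) hx hy hxy k
    rw [zpow_natCast, DihedralGroup.r_one_pow, DihedralGroup.sr_mul_r, zero_add] at h1
    rw [← h1]; norm_cast
  have hsurj : Function.Surjective σ := by
    rintro (i | i)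
    · exact ⟨QuaternionGroup.a (i.val : ZMod (2 * n)), by rw [hσa, ZMod.natCast_zmod_val]⟩
    · exact ⟨QuaternionGroup.xa (i.val : ZMod (2 * n)), by rw [hσxa, ZMod.natCast_zmod_val]⟩
  have hcard : Nat.card σ.ker = 2 := by
    have h1 := Subgroup.card_mul_index σ.ker
    rw [Subgroup.index_ker, MonoidHom.range_eq_top.2 hsurj, Subgroup.card_top,
      Nat.card_eq_fintype_card (α := QuaternionGroup n), QuaternionGroup.card,
      DihedralGroup.nat_card] at h1
    have h2 : Nat.card σ.ker * (2 * n) = 2 * (2 * n) := by rw [h1]; ring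
    exact Nat.eq_of_mul_eq_mul_right (by omega) h2
  -- the kernel is `{1, a n}`
  set c : QuaternionGroup n := QuaternionGroup.a (n : ZMod (2 * n)) with hc
  have hck : c ∈ σ.ker := by
    rw [MonoidHom.mem_ker, hc, hσa, ZMod.natCast_self]; rfl
  have hc1 : c ≠ 1 := by
    rw [hc, QuaternionGroup.one_def]
    intro h
    have h1 : ((n : ℕ) : ZMod (2 * n)) = 0 := by injection h
    rw [ZMod.natCast_eq_zero_iff] at h1
    have := Nat.le_of_dvd hn0 h1
    omega
  have hker : ∀ x ∈ σ.ker, x = 1 ∨ x = c := by
    intro x hx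
    by_contra hcon
    push Not at hcon
    have h1 : Function.Injective (fun i : Fin 3 =>
        (![⟨1, σ.ker.one_mem⟩, ⟨c, hck⟩, ⟨x, hx⟩] i : σ.ker)) := by
      intro i j hij
      fin_cases i <;> fin_cases j <;> simp_all [Subtype.ext_iff]
    have h2 := Nat.card_le_card_of_injective _ h1
    rw [hcard, Nat.card_eq_fintype_card, Fintype.card_fin] at h2
    omega
  refine ⟨σ, ⟨hsurj, ?_, ?_⟩, hcard⟩
  · intro x hx
    rcases hker x hx with rfl | rfl
    · exact one_mem _
    · rw [Subgroup.mem_center_iff]
      rintro (i | i)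
      · rw [hc, QuaternionGroup.a_mul_a, QuaternionGroup.a_mul_a, add_comm]
      · rw [hc, QuaternionGroup.xa_mul_a, QuaternionGroup.a_mul_xa]
        congr 1
        have h1 : ((n : ℕ) : ZMod (2 * n)) + (n : ℕ) = 0 := by
          have := ZMod.natCast_self (2 * n)
          push_cast at this
          rw [← this]; ring
        rw [eq_sub_iff_add_eq, add_assoc, h1, add_zero]
  · intro x hx
    rcases hker x hx with rfl | rfl
    · exact one_mem _
    · obtain ⟨m, hm⟩ := hn
      exact Cfsg.Agent.S3966.a_mem_commutator n m hm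

end Cfsg.Agent.S3966
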