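import Cfsg.Statements.S3965
import Cfsg.Agent.H24.SchurDih
import Cfsg.Agent.S3964
import Cfsg.Agent.S3966

set_option autoImplicit false
open Cfsg

namespace Cfsg.Agent.S3965

/-- For even `n ≥ 2` the dihedral group of order `2 n` has Schur multiplier cyclic of order `2`. -/
theorem result (n : ℕ) [NeZero n] (hn : Even n) : Cfsg.HasCyclicSchurMultiplier (DihedralGroup n) 2 := by
  have hn0 : 0 < n := Nat.pos_of_ne_zero (NeZero.ne n)
  have h2 : ∀ {A : Type} [Group A], Nat.card A = 2 → Nonempty (A ≃* Multiplicative (ZMod 2)) := by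
    intro A _ hA
    have hc1 : IsCyclic A := isCyclic_of_prime_card (p := 2) hA
    have hc2 : IsCyclic (Multiplicative (ZMod 2)) := inferInstance
    refine ⟨mulEquivOfCyclicCardEq ?_⟩
    rw [hA, Nat.card_eq_fintype_card]; rfl
  constructor
  · obtain ⟨σ, hσ, hcard⟩ := Cfsg.Agent.S3966.result n hn
    refine ⟨QuaternionGroup n, inferInstance, inferInstance, σ, hσ, h2 hcard⟩
  · intro Γ _ _ σ hσ
    have h1 := Cfsg.Agent.S3964.dihedral_bound n σ hσ
    have hgcd : Nat.gcd n 2 = 2 := Nat.gcd_eq_right (even_iff_two_dvd.1 hn)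
    rw [hgcd] at h1
    obtain ⟨m, hm⟩ := hn
    have hm' : n = 2 * m := by omega
    have hm0 : 0 < m := by omega
    have h3 : Nat.card σ.ker ≤ 2 := by
      have h6 : n / 2 = m := by omega
      rw [h6] at h1
      generalize Nat.card σ.ker = c at h1
      have h7 : c * m ≤ 2 * m := h1.trans (by omega)
      exact Nat.le_of_mul_le_mul_right h7 hm0
    have h4 : 0 < Nat.card σ.ker := Nat.card_pos
    have h5 : Nat.card σ.ker = 1 ∨ Nat.card σ.ker = 2 := by omega
    rcases h5 with h5 | h5
    · refine ⟨1, ?_⟩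
      intro x
      refine ⟨1, ?_⟩
      have := (Nat.card_eq_one_iff_unique.1 h5).1
      exact Subsingleton.elim _ _
    · obtain ⟨e⟩ := h2 h5
      exact ⟨e.symm.toMonoidHom, e.symm.surjective⟩

end Cfsg.Agent.S3965
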