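import Cfsg.Statements.S3967
import Cfsg.Agent.H24.MetaSchur3

set_option autoImplicit false
open Cfsg

namespace Cfsg.Agent.S3967

open Subgroup Cfsg.Agent.H24
open scoped commutatorElement

/-- surjection from a cyclic group of order `d` -/
theorem surj_of_pow {Γ : Type*} [Group Γ] (K : Subgroup Γ) (κ : Γ) (d : ℕ) (hd : 0 < d)
    (hK : K = zpowers κ) (h : κ ^ d = 1) :
    ∃ π : Multiplicative (ZMod d) →* K, Function.Surjective π := by
  haveI : NeZero d := ⟨hd.ne'⟩
  have hκ : κ ∈ K := hK ▸ mem_zpowers κ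
  let k : K := ⟨κ, hκ⟩
  have hk : k ^ d = 1 := Subtype.ext h
  refine ⟨{ toFun := fun x => k ^ (Multiplicative.toAdd x).val
            map_one' := by simp
            map_mul' := ?_ }, ?_⟩
  · intro x y
    rw [toAdd_mul, ZMod.val_add, ← pow_add]
    exact (pow_eq_pow_mod _ hk).symm
  · rintro ⟨x, hx⟩
    have hx' := hx
    rw [hK] at hx'
    obtain ⟨i, hi⟩ := hx'
    refine ⟨Multiplicative.ofAdd ((i : ZMod d)), ?_⟩
    apply Subtype.ext
    show κ ^ ((i : ZMod d)).val = x
    rw [← hi]
    show κ ^ ((i : ZMod d)).val = κ ^ i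
    rw [← zpow_natCast, ZMod.val_intCast]
    have h2 : κ ^ (i % (d : ℤ)) = κ ^ i := by
      have h3 : κ ^ i = κ ^ ((d : ℤ) * (i / d) + i % d) := by rw [Int.mul_ediv_add_emod]
      rw [h3, zpow_add, zpow_mul, zpow_natCast, h, one_zpow, one_mul]
    exact h2

/-- choosing a coprime representative -/
theorem exists_coprime_rep (u v N : ℕ) (huv : u.Coprime v) (hN : 0 < N) :
    ∃ k : ℕ, (u + v * k).Coprime N := by
  classical
  refine ⟨∏ p ∈ N.primeFactors.filter (fun p => ¬ p ∣ u), p, ?_⟩
  set k := ∏ p ∈ N.primeFactors.filter (fun p => ¬ p ∣ u), p with hk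
  by_contra hcon
  obtain ⟨p, hp, h1, h2⟩ := Nat.Prime.not_coprime_iff_dvd.1 hcon
  by_cases hpu : p ∣ u
  · have h3 : p ∣ v * k := (Nat.dvd_add_right hpu).1 h1
    rcases (hp.dvd_mul).1 h3 with h4 | h4
    · exact hp.one_lt.ne' (Nat.dvd_one.1 (huv ▸ Nat.dvd_gcd hpu h4))
    · rw [hk, hp.prime.dvd_finset_prod_iff] at h4
      obtain ⟨q, hq, hpq⟩ := h4
      rw [Finset.mem_filter, Nat.mem_primeFactors] at hq
      rw [(Nat.prime_dvd_prime_iff_eq hp hq.1.1).1 hpq] at hpu
      exact hq.2 hpu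
  · have h3 : p ∣ k := by
      rw [hk]
      exact Finset.dvd_prod_of_mem _ (Finset.mem_filter.2
        ⟨Nat.mem_primeFactors.2 ⟨hp, h2, hN.ne'⟩, hpu⟩)
    exact hpu ((Nat.dvd_add_left (h3.mul_left v)).1 h1)

/-- Let `m, n ≥ 1`, `r ≥ 1` with `r ^ n ≡ 1 (mod m)`, and `l` a natural number; put `d = gcd(m, r - 1)`, `t = m l / d` and `h = d · gcd(m, 1 + r + ⋯ + r^(n-1)) / m`. The group presented by generators `a, b` and relations `a ^ m = 1`, `b ^ n = a ^ t`, `b a b⁻¹ = a ^ r` (a metacyclic group of order `m n`) has Schur multiplier cyclic of order `gcd(l, h)`. -/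
theorem result (m n r l : ℕ) (hm : 0 < m) (hn : 0 < n) (hr : 0 < r) (hrn : r ^ n ≡ 1 [MOD m]) : Cfsg.HasCyclicSchurMultiplier (PresentedGroup ({FreeGroup.of true ^ m, (FreeGroup.of false) ^ n * (FreeGroup.of true ^ (m * l / Nat.gcd m (r - 1)))⁻¹, FreeGroup.of false * FreeGroup.of true * (FreeGroup.of false)⁻¹ * (FreeGroup.of true ^ r)⁻¹} : Set (FreeGroup Bool))) (Nat.gcd l (Nat.gcd m (r - 1) * Nat.gcd m (∑ i ∈ Finset.range n, r ^ i) / m)) := by
  -- notation
  set g := Nat.gcd m (r - 1) with hg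
  set S := ∑ i ∈ Finset.range n, r ^ i with hS
  set t := m * l / g with ht
  set s := Nat.gcd m S with hs
  have hg0 : 0 < g := Nat.gcd_pos_of_pos_left _ hm
  have hgm : g ∣ m := Nat.gcd_dvd_left _ _
  have hgr : g ∣ r - 1 := Nat.gcd_dvd_right _ _
  have hs0 : 0 < s := Nat.gcd_pos_of_pos_left _ hm
  have hsm : s ∣ m := Nat.gcd_dvd_left _ _
  have hrr : r = (r - 1) + 1 := by omega
  have hgeom : ∀ x k : ℕ, (x + 1) ^ k = x * (∑ i ∈ Finset.range k, (x + 1) ^ i) + 1 := by
    intro x k
    induction k with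
    | zero => simp
    | succ k ih =>
      rw [Finset.sum_range_succ, mul_add, pow_succ]
      nth_rw 1 [ih]
      have : x * (x + 1) ^ k + (x * (∑ i ∈ Finset.range k, (x + 1) ^ i) + 1) =
        x * (x + 1) ^ k + (x + 1) ^ k := by rw [← ih]
      nlinarith
  have hmS : m ∣ (r - 1) * S := by
    have h1 := hgeom (r - 1) n
    rw [← hrr, ← hS] at h1
    rw [h1] at hrn
    have h2 := (Nat.modEq_iff_dvd' (by omega)).1 hrn.symm
    rwa [Nat.add_sub_cancel] at h2
  have hmgs : m ∣ g * s := by
    have h1 : Nat.gcd m ((r - 1) * S) ∣ Nat.gcd m (r - 1) * Nat.gcd m S :=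
      Nat.gcd_mul_right_dvd_mul_gcd m (r - 1) S
    rw [Nat.gcd_eq_left hmS] at h1
    exact h1
  set h := g * s / m with hh
  have hmh : m * h = g * s := Nat.mul_div_cancel' hmgs
  have hh0 : 0 < h := by
    rcases Nat.eq_zero_or_pos h with h0 | h0
    · rw [h0, mul_zero] at hmh
      have := Nat.mul_pos hg0 hs0
      omega
    · exact h0
  have hhg : h ∣ g := by
    obtain ⟨q, hq⟩ := hsm
    refine ⟨q, ?_⟩
    have h1 : s * (q * h) = s * g := by
      rw [← mul_assoc, ← hq, hmh, mul_comm]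
    have := Nat.eq_of_mul_eq_mul_left hs0 h1
    rw [mul_comm h q]; exact this.symm
  set d := Nat.gcd l h with hd
  have hd0 : 0 < d := Nat.gcd_pos_of_pos_right _ hh0
  have hdl : d ∣ l := Nat.gcd_dvd_left _ _
  have hdh : d ∣ h := Nat.gcd_dvd_right _ _
  have htg : t * g = m * l := Nat.div_mul_cancel (hgm.mul_right l)
  have htr : t * r ≡ t [MOD m] := by
    rw [hrr, mul_add, mul_one]
    obtain ⟨q, hq⟩ := hgr
    have h1 : t * (r - 1) = m * (l * q) := by rw [hq, ← mul_assoc, htg]; ring
    rw [h1]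
    have : m * (l * q) ≡ 0 [MOD m] := (Nat.modEq_zero_iff_dvd).2 (Dvd.intro _ rfl)
    simpa using this.add_right t
  have hordA : orderOf (mA m n t r) = m := orderOf_mA hm hn hrn htr
  have hgen : closure ({mA m n t r, mB m n t r} : Set (Mt m n t r)) = ⊤ := mt_gen
  change Cfsg.HasCyclicSchurMultiplier (Mt m n t r) d
  refine ⟨?_, ?_⟩
  · have hcop0 : ((r - 1) / g).Coprime (m / g) :=
      (Nat.coprime_div_gcd_div_gcd (m := m) (n := r - 1) hg0).symm
    obtain ⟨k, hk⟩ := exists_coprime_rep ((r - 1) / g) (m / g) (m * d) hcop0 (Nat.mul_pos hm hd0)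
    set ρ := (r - 1) / g + m / g * k with hρ
    have hgρ : g * ρ = (r - 1) + m * k := by
      rw [hρ, mul_add, Nat.mul_div_cancel' hgr, ← mul_assoc, Nat.mul_div_cancel' hgm]
    obtain ⟨r', hr'⟩ : ∃ r', r' = g * ρ + 1 := ⟨_, rfl⟩
    have hr'r : r' = r + m * k := by rw [hr', hgρ]; omega
    obtain ⟨M, hMd⟩ : ∃ M, M = m * d := ⟨_, rfl⟩
    have hM : 0 < M := by rw [hMd]; exact Nat.mul_pos hm hd0
    have hSS : ∀ j : ℕ, (∑ i ∈ Finset.range j, r' ^ i) ≡ (∑ i ∈ Finset.range j, r ^ i) [MOD m] := by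
      intro j
      induction j with
      | zero => exact Nat.ModEq.refl _
      | succ j ih =>
        rw [Finset.sum_range_succ, Finset.sum_range_succ]
        refine ih.add (Nat.ModEq.pow j ?_)
        rw [hr'r]
        have : m * k ≡ 0 [MOD m] := (Nat.modEq_zero_iff_dvd).2 (Dvd.intro _ rfl)
        simpa using this.add_left r
    have hsS' : s ∣ ∑ i ∈ Finset.range n, r' ^ i :=
      (Nat.modEq_zero_iff_dvd).1 (((hSS n).of_dvd hsm).trans
        ((Nat.modEq_zero_iff_dvd).2 (Nat.gcd_dvd_right m S)))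
    have hMgs : M ∣ g * s := by
      rw [← hmh, hMd]; exact Nat.mul_dvd_mul_left m hdh
    have h1 : r' ^ n ≡ 1 [MOD M] := by
      have h2 := hgeom (g * ρ) n
      rw [← hr'] at h2
      rw [h2]
      have h3 : M ∣ g * ρ * (∑ i ∈ Finset.range n, r' ^ i) := by
        refine hMgs.trans ?_
        rw [mul_assoc]
        exact Nat.mul_dvd_mul_left g (hsS'.mul_left ρ)
      have := (Nat.modEq_zero_iff_dvd).2 h3
      simpa using this.add_right 1
    have h2 : t * r' ≡ t [MOD M] := by
      rw [hr', mul_add, mul_one, ← mul_assoc, htg]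
      have h3 : M ∣ m * l * ρ := by
        rw [hMd]
        exact (Nat.mul_dvd_mul_left m hdl).mul_right ρ
      have := (Nat.modEq_zero_iff_dvd).2 h3
      simpa using this.add_right t
    have hord : orderOf (mA M n t r') = M := orderOf_mA hM hn h1 h2
    haveI : Finite (Mt M n t r') := mt_finite hM hn
    have hgen' : closure ({mA M n t r', mB M n t r'} : Set (Mt M n t r')) = ⊤ := mt_gen
    have ham : (mA m n t r) ^ m = 1 := mA_pow
    obtain ⟨σ, hσA, hσB⟩ := mt_lift (M := M) (n := n) (t := t) (r := r') (mA m n t r) (mB m n t r)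
      (by rw [hMd, pow_mul, ham, one_pow]) mB_pow
      (by rw [mB_conj, hr'r, pow_add, pow_mul, ham, one_pow, mul_one])
    have hsurj : Function.Surjective σ := by
      rw [← MonoidHom.range_eq_top, eq_top_iff, ← hgen, closure_le]
      intro x hx
      simp only [Set.mem_insert_iff, Set.mem_singleton_iff] at hx
      rcases hx with rfl | rfl
      · exact ⟨_, hσA⟩
      · exact ⟨_, hσB⟩
    have hBA : Commute (mB M n t r') ((mA M n t r') ^ m) := by
      have h3 : mB M n t r' * (mA M n t r') ^ m * (mB M n t r')⁻¹ = (mA M n t r') ^ m := by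
        rw [← conj_pow, mB_conj, ← pow_mul, pow_eq_pow_iff_modEq, hord, hr', add_mul, one_mul]
        have h4 : M ∣ g * ρ * m := by
          rw [hMd, mul_comm m d]
          exact Nat.mul_dvd_mul ((hdh.trans hhg).mul_right ρ) dvd_rfl
        have := (Nat.modEq_zero_iff_dvd).2 h4
        simpa using this.add_right m
      rw [mul_inv_eq_iff_eq_mul] at h3
      exact h3
    have hcen : (mA M n t r') ^ m ∈ Subgroup.center (Mt M n t r') := by
      have h3 : Subgroup.centralizer {(mA M n t r') ^ m} = ⊤ := by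
        rw [eq_top_iff, ← hgen', closure_le]
        intro x hx
        simp only [Set.mem_insert_iff, Set.mem_singleton_iff] at hx
        rw [SetLike.mem_coe, Subgroup.mem_centralizer_singleton_iff]
        rcases hx with rfl | rfl
        · exact ((Commute.refl _).pow_right m).eq
        · exact hBA.eq
      rw [Subgroup.mem_center_iff]
      intro x
      have h4 : x ∈ Subgroup.centralizer {(mA M n t r') ^ m} := by rw [h3]; trivial
      rw [Subgroup.mem_centralizer_singleton_iff] at h4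
      exact h4
    have hNc : zpowers ((mA M n t r') ^ m) ≤ Subgroup.center (Mt M n t r') := zpowers_le.2 hcen
    haveI hNn : (zpowers ((mA M n t r') ^ m)).Normal := ⟨fun x hx y => by
      have h3 := Subgroup.mem_center_iff.1 (hNc hx) y
      rw [h3, mul_inv_cancel_right]; exact hx⟩
    have hmk : (QuotientGroup.mk (mA M n t r') : Mt M n t r' ⧸ zpowers ((mA M n t r') ^ m)) ^ m
        = 1 := by
      rw [← QuotientGroup.mk_pow, QuotientGroup.eq_one_iff]
      exact mem_zpowers _
    obtain ⟨τ, hτA, hτB⟩ := mt_lift (M := m) (n := n) (t := t) (r := r)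
      (QuotientGroup.mk (mA M n t r') : Mt M n t r' ⧸ zpowers ((mA M n t r') ^ m))
      (QuotientGroup.mk (mB M n t r')) hmk
      (by rw [← QuotientGroup.mk_pow, mB_pow, QuotientGroup.mk_pow])
      (by
        rw [← QuotientGroup.mk_mul, ← QuotientGroup.mk_inv, ← QuotientGroup.mk_mul, mB_conj,
          QuotientGroup.mk_pow]
        refine (congrArg (fun j => (QuotientGroup.mk (mA M n t r') :
          Mt M n t r' ⧸ zpowers ((mA M n t r') ^ m)) ^ j) hr'r).trans ?_
        show (QuotientGroup.mk (mA M n t r') :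
          Mt M n t r' ⧸ zpowers ((mA M n t r') ^ m)) ^ (r + m * k) = _
        rw [pow_add, pow_mul, hmk, one_pow, mul_one])
    have hτσ : τ.comp σ = QuotientGroup.mk' (zpowers ((mA M n t r') ^ m)) := by
      refine MonoidHom.eq_of_eqOn_dense hgen' ?_
      intro x hx
      simp only [Set.mem_insert_iff, Set.mem_singleton_iff] at hx
      rcases hx with rfl | rfl
      · rw [MonoidHom.comp_apply, hσA, hτA]; rfl
      · rw [MonoidHom.comp_apply, hσB, hτB]; rfl
    have hker : σ.ker = zpowers ((mA M n t r') ^ m) := by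
      apply le_antisymm
      · intro x hx
        have h3 := DFunLike.congr_fun hτσ x
        rw [MonoidHom.comp_apply, (MonoidHom.mem_ker).1 hx, map_one] at h3
        rw [← QuotientGroup.eq_one_iff]
        exact h3.symm
      · rw [zpowers_le, MonoidHom.mem_ker, map_pow, hσA, ham]
    have hcommA : (mA M n t r') ^ m ∈ _root_.commutator (Mt M n t r') := by
      have h3 : (mA M n t r') ^ (g * ρ) ∈ _root_.commutator (Mt M n t r') := by
        have h4 : ⁅mB M n t r', mA M n t r'⁆ = (mA M n t r') ^ (g * ρ) := by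
          rw [commutatorElement_def, mB_conj, hr', pow_succ, mul_inv_cancel_right]
        rw [← h4, _root_.commutator_def]
        exact Subgroup.commutator_mem_commutator (Subgroup.mem_top _) (Subgroup.mem_top _)
      have h5 : IsCoprime (ρ : ℤ) (M : ℤ) := by
        rw [hMd]; exact Nat.isCoprime_iff_coprime.2 hk
      obtain ⟨u, v, huv⟩ := h5
      have h6 : (mA M n t r') ^ m = ((mA M n t r') ^ (g * ρ)) ^ (((m / g : ℕ) : ℤ) * u) := by
        rw [← zpow_natCast, ← zpow_natCast, ← zpow_mul]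
        have h7 : ((g * ρ : ℕ) : ℤ) * (((m / g : ℕ) : ℤ) * u) = (m : ℤ) + (M : ℤ) * (-(m * v)) := by
          have h8 : (g : ℤ) * ((m / g : ℕ) : ℤ) = m := by
            exact_mod_cast Nat.mul_div_cancel' hgm
          push_cast at h8 ⊢
          calc (g : ℤ) * ρ * ((m : ℤ) / g * u) = (g * ((m : ℤ) / g)) * (u * ρ) := by ring
            _ = m * (1 - v * M) := by rw [h8, ← huv]; ring
            _ = _ := by ring
        rw [h7, zpow_add, zpow_mul, zpow_natCast _ M]
        have h9 : (mA M n t r') ^ M = 1 := mA_pow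
        rw [h9, one_zpow, mul_one]
      rw [h6]
      exact zpow_mem h3 _
    refine ⟨Mt M n t r', inferInstance, inferInstance, σ, ⟨hsurj, ?_, ?_⟩, ?_⟩
    · rw [hker]; exact hNc
    · rw [hker]; exact zpowers_le.2 hcommA
    · haveI : NeZero d := ⟨hd0.ne'⟩
      haveI : IsCyclic σ.ker := by rw [hker]; infer_instance
      refine ⟨mulEquivOfCyclicCardEq ?_⟩
      rw [hker, Nat.card_zpowers, orderOf_pow_of_dvd hm.ne' (by rw [hord, hMd]; exact Dvd.intro _ rfl),
        hord, hMd, Nat.mul_div_cancel_left d hm, Nat.card_eq_fintype_card,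
        Fintype.card_multiplicative, ZMod.card]
  · intro Γ _ _ σ hσ
    obtain ⟨c, hc1, hc2, hc3, hker⟩ := stem_meta σ hσ _ _ hgen m n t r hm hr hordA mB_pow mB_conj
    refine surj_of_pow σ.ker (c ^ (m / g)) d hd0 hker ?_
    have h1 : (c ^ (m / g)) ^ l = 1 := by
      rw [← pow_mul]
      have : m / g * l = t := by rw [ht, Nat.div_mul_right_comm hgm]
      rw [this, hc1]
    have h2 : (c ^ (m / g)) ^ h = 1 := by
      rw [← pow_mul]
      have h3 : m / g * h = s := by
        have h4 : g * (m / g * h) = g * s := by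
          rw [← mul_assoc, Nat.mul_div_cancel' hgm, hmh]
        exact Nat.eq_of_mul_eq_mul_left hg0 h4
      rw [h3]
      apply orderOf_dvd_iff_pow_eq_one.1
      exact Nat.dvd_gcd (orderOf_dvd_of_pow_eq_one hc2) (orderOf_dvd_of_pow_eq_one hc3)
    apply orderOf_dvd_iff_pow_eq_one.1
    exact Nat.dvd_gcd (orderOf_dvd_of_pow_eq_one h1) (orderOf_dvd_of_pow_eq_one h2)

end Cfsg.Agent.S3967
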