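import Cfsg.Statements.S3968
import Cfsg.Agent.H3.Basic2
import Cfsg.Agent.H3.Integral
import Cfsg.Agent.H27.Kernel
import Cfsg.Agent.H27.Burnside
import Cfsg.Agent.H27.Util

set_option autoImplicit false
set_option linter.all false
open Cfsg

namespace Cfsg.Agent.S3968

open Cfsg.Agent.H27 Cfsg.Agent.H3

theorem irr_norm_central {P : Type*} [Group P] [Finite P] {ψ : P → ℂ} (hψ : Cfsg.IsIrrCharacter P ψ)
    {z : P} (hz : ∀ g, g * z = z * g) : ‖ψ z‖ = Cfsg.charDegree ψ := by
  have hchar := isIrr_isCharacter hψ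
  have hpos := charDegree_pos hψ
  have hcast := charDegree_cast hchar
  obtain ⟨n, ρ, hρ, rfl⟩ := hψ
  have hn : ((Module.finrank ℂ (Fin n → ℂ) : ℕ) : ℂ) = Cfsg.charDegree ρ.character := by
    rw [hcast, Representation.char_one]
  have hn' : Module.finrank ℂ (Fin n → ℂ) = Cfsg.charDegree ρ.character := by exact_mod_cast hn
  have h1 := schur_scalar ρ (ρ z) (fun g => by rw [← map_mul, ← map_mul, hz g])
  have htr : LinearMap.trace ℂ (Fin n → ℂ) (ρ z) = ρ.character z := rfl
  rw [htr, hn] at h1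
  set c := ρ.character z / (Cfsg.charDegree ρ.character : ℂ) with hc
  have hpow : ∀ k : ℕ, (ρ z) ^ k = (c ^ k) • (1 : Module.End ℂ (Fin n → ℂ)) := by
    intro k
    rw [h1, smul_pow, one_pow]
  have h2 := hpow (orderOf z)
  rw [← map_pow, pow_orderOf_eq_one, map_one] at h2
  haveI : Nontrivial (Fin n → ℂ) := by
    rw [← Module.finrank_pos_iff (R := ℂ), hn']; exact hpos
  obtain ⟨v, hv⟩ := exists_ne (0 : Fin n → ℂ)
  have h3 := congrArg (fun T : Module.End ℂ (Fin n → ℂ) => T v) h2
  simp only [LinearMap.smul_apply, Module.End.one_apply] at h3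
  have h4 : (c ^ orderOf z - 1) • v = 0 := by rw [sub_smul, one_smul, ← h3, sub_self]
  have h5 : c ^ orderOf z = 1 := by
    rcases smul_eq_zero.1 h4 with h | h
    · linear_combination h
    · exact absurd h hv
  have h6 : ‖c‖ = 1 := Complex.norm_eq_one_of_pow_eq_one h5 (orderOf_pos z).ne'
  have h7 : ρ.character z = c * (Cfsg.charDegree ρ.character : ℂ) := by
    rw [hc, div_mul_cancel₀]
    exact_mod_cast hpos.ne'
  rw [h7, norm_mul, h6, one_mul, Complex.norm_natCast]

theorem mem_center_of_norm {G : Type*} [Group G] [Finite G] {χ : G → ℂ} (hχ : Cfsg.IsIrrCharacter G χ)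
    (hfaith : ∀ g : G, χ g = χ 1 → g = 1) {z : G} (hz : ‖χ z‖ = Cfsg.charDegree χ) :
    z ∈ Subgroup.center G := by
  have hchar := isIrr_isCharacter hχ
  have hpos := charDegree_pos hχ
  have hcast := charDegree_cast hchar
  obtain ⟨n, ρ, hρ, rfl⟩ := hχ
  have hn : ((Module.finrank ℂ (Fin n → ℂ) : ℕ) : ℂ) = Cfsg.charDegree ρ.character := by
    rw [hcast, Representation.char_one]
  have hn' : Module.finrank ℂ (Fin n → ℂ) = Cfsg.charDegree ρ.character := by exact_mod_cast hn
  have h1 := rep_scalar_of_norm_char_eq ρ z (by rw [hn']; exact hpos) (by rw [hz, hn'])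
  rw [Subgroup.mem_center_iff]
  intro g
  have h2 : ρ (g * z * (z * g)⁻¹) = 1 := by
    have h3 : ρ (g * z) = ρ (z * g) := by
      rw [map_mul, map_mul, h1]
      simp
    rw [map_mul, h3, ← map_mul, mul_inv_cancel, map_one]
  have h4 : g * z * (z * g)⁻¹ = 1 := by
    apply hfaith
    show LinearMap.trace ℂ _ (ρ (g * z * (z * g)⁻¹)) = LinearMap.trace ℂ _ (ρ 1)
    rw [h2, show ρ 1 = 1 from map_one ρ]
  exact mul_inv_eq_one.1 h4

/-- Let `p` be a prime and `G` a finite group with a faithful irreducible complex character of degree `p` (so `G` is an irreducible linear group in `p` variables). If `p ^ 2` divides the order of `G`, then the centre of `G` is nontrivial. -/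
theorem result {G : Type*} [Group G] [Finite G] (p : ℕ) (hp : p.Prime) (χ : Cfsg.IrrCharacter G) (hdeg : χ.1 1 = p) (hfaith : ∀ g : G, χ.1 g = χ.1 1 → g = 1) (hdiv : p ^ 2 ∣ Nat.card G) : Subgroup.center G ≠ ⊥ := by
  classical
  haveI : Fact p.Prime := ⟨hp⟩
  haveI := Fintype.ofFinite G
  have hirr := χ.2
  have hchar := isIrr_isCharacter hirr
  have hcd : Cfsg.charDegree χ.1 = p := by
    have := charDegree_cast hchar
    rw [hdeg] at this
    exact_mod_cast this
  obtain ⟨P⟩ : Nonempty (Sylow p G) := inferInstance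
  haveI := Fintype.ofFinite (P : Subgroup G)
  have hPcard : p ^ 2 ∣ Nat.card P := by
    rw [P.card_eq_multiplicity]
    exact pow_dvd_pow p ((hp.pow_dvd_iff_le_factorization Nat.card_pos.ne').1 hdiv)
  haveI : Nontrivial P := by
    rw [← Finite.one_lt_card_iff_nontrivial]
    have h1 := Nat.le_of_dvd Nat.card_pos hPcard
    have h2 := hp.one_lt
    nlinarith
  haveI := P.2.center_nontrivial
  obtain ⟨z, hz⟩ := exists_ne (1 : Subgroup.center P)
  have hzc : ∀ g : P, g * (z : P) = (z : P) * g := fun g => Subgroup.mem_center_iff.1 z.2 g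
  have hz1 : ((z : P) : G) ≠ 1 := fun h => hz (Subtype.ext (Subtype.ext h))
  have hθ : Cfsg.IsCharacter P (fun h : P => χ.1 h) := isChar_restrict (P : Subgroup G) hchar
  have hθ1 : (fun h : P => χ.1 h) 1 = (p : ℂ) := by
    show χ.1 ((1 : P) : G) = p
    rw [Subgroup.coe_one, hdeg]
  have hfin : ∀ w : G, w ≠ 1 → ‖χ.1 w‖ = p → Subgroup.center G ≠ ⊥ := by
    intro w hw hn h
    have := mem_center_of_norm hirr hfaith (z := w) (by rw [hn, hcd])
    rw [h, Subgroup.mem_bot] at this
    exact hw this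
  by_cases hall : ∀ ψ : Cfsg.IrrCharacter P, Cfsg.classInner (fun h : P => χ.1 h) ψ ≠ 0 → (ψ : P → ℂ) 1 = 1
  · -- `P` is abelian
    have hPc : ∀ a b : P, a * b = b * a := by
      intro a b
      have h1 : a * b * a⁻¹ * b⁻¹ ∈ commutator P := by
        have := Subgroup.commutator_mem_commutator (Subgroup.mem_top a) (Subgroup.mem_top b)
        rw [commutatorElement_def] at this
        exact this
      have h2 := char_commutator_of_all_linear hθ hall h1
      have h3 := hfaith ((a * b * a⁻¹ * b⁻¹ : P) : G) (by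
        have : χ.1 ((a * b * a⁻¹ * b⁻¹ : P) : G) = χ.1 ((1 : P) : G) := h2
        rw [this, Subgroup.coe_one])
      have h4 : a * b * a⁻¹ * b⁻¹ = 1 := Subtype.ext h3
      calc a * b = (a * b * a⁻¹ * b⁻¹) * (b * a) := by group
        _ = b * a := by rw [h4, one_mul]
    by_cases hex : ∃ w ∈ (P : Subgroup G), w ≠ 1 ∧ χ.1 w ≠ 0
    · obtain ⟨w, hw, hw1, hwχ⟩ := hex
      refine hfin w hw1 ?_
      have hcop : Nat.Coprime (Cfsg.charDegree χ.1) (Subgroup.centralizer ({w} : Set G)).index := by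
        rw [hcd, Nat.Prime.coprime_iff_not_dvd hp]
        intro hd
        refine P.not_dvd_index (hd.trans (Subgroup.index_dvd_of_le ?_))
        intro x hx
        rw [Subgroup.mem_centralizer_singleton_iff]
        exact congrArg Subtype.val (hPc ⟨x, hx⟩ ⟨w, hw⟩)
      rcases irr_coprime_class hirr w hcop with h | h
      · exact absurd h hwχ
      · rw [h, hcd]
    · exfalso
      push Not at hex
      obtain ⟨k, hk⟩ := card_dvd_degree_of_vanish (P : Subgroup G) hchar hex
      rw [hdeg] at hk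
      have h1 : p = Nat.card P * k := by exact_mod_cast hk
      have h2 : p ^ 2 ∣ p := hPcard.trans ⟨k, h1⟩
      have h3 := Nat.le_of_dvd hp.pos h2
      have h4 := hp.one_lt
      nlinarith
  · push Not at hall
    obtain ⟨ψ, hψ, hψ1⟩ := hall
    obtain ⟨m, hm0, hm⟩ := irr_one_eq_nat ψ.2
    have hmp : m ≤ p := char_degree_le_of_inner_ne_zero hθ ψ.2 hψ hθ1 hm
    have hmd := irr_degree_dvd_card ψ.2 hm
    obtain ⟨a, ha⟩ := IsPGroup.iff_card.1 P.2
    have ha' : Nat.card P = p ^ a := ha
    rw [ha'] at hmd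
    obtain ⟨b, -, hb⟩ := (Nat.dvd_prime_pow hp).1 hmd
    have hb1 : b ≠ 0 := by
      rintro rfl
      rw [pow_zero] at hb
      rw [hb, Nat.cast_one] at hm
      exact hψ1 hm
    have hpm : m = p := by
      apply le_antisymm hmp
      rw [hb]
      calc p = p ^ 1 := (pow_one p).symm
        _ ≤ p ^ b := Nat.pow_le_pow_right hp.pos (Nat.pos_of_ne_zero hb1)
    have hsub := isChar_sub_irr hθ ψ.2 hψ
    have hzero : ∀ g : P, χ.1 (g : G) = ψ.1 g := by
      intro g
      have h1 := norm_char_le hsub g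
      have h2 : Cfsg.charDegree ((fun h : P => χ.1 h) - ψ.1) = 0 := by
        have h3 := charDegree_cast hsub
        have h4 : ((fun h : P => χ.1 h) - ψ.1) 1 = (p : ℂ) - (m : ℂ) := by
          show χ.1 ((1 : P) : G) - ψ.1 1 = (p : ℂ) - (m : ℂ)
          rw [hm, Subgroup.coe_one, hdeg]
        rw [h4, hpm, sub_self] at h3
        exact_mod_cast h3
      rw [h2, Nat.cast_zero] at h1
      have h5 := norm_le_zero_iff.1 h1
      rw [Pi.sub_apply] at h5
      exact sub_eq_zero.1 h5
    refine hfin _ hz1 ?_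
    rw [hzero]
    rw [irr_norm_central ψ.2 hzc]
    have h6 := charDegree_cast (isIrr_isCharacter ψ.2)
    have h7 : Cfsg.charDegree ψ.1 = m := by
      rw [hm] at h6; exact_mod_cast h6
    rw [h7, hpm]

end Cfsg.Agent.S3968
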