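import Cfsg.Statements.S3969
import Cfsg.Agent.H24.AutFrat
import Cfsg.Agent.H24.ClassSize

set_option autoImplicit false
open Cfsg

namespace Cfsg.Agent.S3969

/-- Let `P` be an abelian Sylow `p`-subgroup of the finite group `G`, generated by `d` elements (`d` its minimal number of generators). If the order of `G` is coprime to `(p - 1)(p ^ 2 - 1) ⋯ (p ^ d - 1)`, then `G` has a normal `p`-complement. (The classical statement needs only the largest number of cyclic factors of `P` of equal order in place of `d`; the form here follows from it.) -/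
theorem result {G : Type*} [Group G] [Finite G] (p : ℕ) [Fact p.Prime] (P : Sylow p G) (hab : IsMulCommutative (P : Subgroup G)) (hcop : Nat.Coprime (Nat.card G) (∏ i ∈ Finset.Icc 1 (Group.rank (P : Subgroup G)), (p ^ i - 1))) : Cfsg.HasNormalPComplement p G := by
  apply Cfsg.Agent.H24.hasNormalPComplement_of_relIndex_eq_one P
  rw [Subgroup.relIndex_eq_one]
  apply Cfsg.Agent.H25.le_of_primary
  intro x hx q k hq hxo
  by_cases hqp : q = p
  · subst hqp
    -- a `p`-element normalising `P` lies in `P`
    have h1 : x ∈ (P : Subgroup G) := by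
      have h2 : IsPGroup q (Subgroup.zpowers x) := by
        refine IsPGroup.of_card (n := k) ?_
        rw [Nat.card_zpowers, hxo]
      have h3 : Subgroup.zpowers x ≤ Subgroup.normalizer ((P : Subgroup G) : Set G) :=
        Subgroup.zpowers_le.2 hx
      have h4 := h2.to_sup_of_normal_right' P.isPGroup' h3
      have h5 := P.is_maximal' h4 le_sup_right
      exact h5.le (Subgroup.mem_sup_left (Subgroup.mem_zpowers x))
    rw [Subgroup.mem_centralizer_iff]
    intro y hy
    have := hab.is_comm.comm ⟨y, hy⟩ ⟨x, h1⟩
    exact congrArg Subtype.val this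
  · rcases Nat.eq_zero_or_pos k with hk | hk
    · subst hk
      rw [pow_zero, orderOf_eq_one_iff] at hxo
      rw [hxo]; exact one_mem _
    · refine Cfsg.Agent.H24.mem_centralizer_of_not_dvd (P : Subgroup G) P.isPGroup' le_rfl hx hq hqp hxo ?_
      intro hdvd
      have h1 : q ∣ Nat.card G := (hxo ▸ dvd_pow_self q hk.ne').trans (orderOf_dvd_natCard x)
      have h2 := Nat.dvd_gcd h1 hdvd
      rw [hcop] at h2
      exact hq.one_lt.ne' (Nat.dvd_one.1 h2)

end Cfsg.Agent.S3969
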