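import Cfsg.Statements.S3970
import Cfsg.Agent.H24.AutFrat2
import Cfsg.Agent.H2.NComp
import Mathlib

set_option autoImplicit false
open Cfsg

namespace Cfsg.Agent.S3970

theorem aux (k : ℕ) : ∀ (G : Type _) [Group G] [Finite G], Nat.card G = k →
    (∀ p : ℕ, p.Prime → p ∣ Nat.card G → (∃ q : ℕ, q.Prime ∧ q ∣ Nat.card G ∧ p < q) →
      ∀ P : Sylow p G, IsMulCommutative (P : Subgroup G) ∧ Group.rank (P : Subgroup G) ≤ 2) →
    ¬ 12 ∣ Nat.card G → Group.IsSolvable G := by
  induction k using Nat.strong_induction_on with
  | _ k ih =>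
  intro G _ _ hk h h12
  by_cases h1 : Nat.card G = 1
  · have := (Nat.card_eq_one_iff_unique.1 h1).1
    infer_instance
  set p := (Nat.card G).minFac with hpdef
  have hp : p.Prime := Nat.minFac_prime h1
  have hpf : Fact p.Prime := ⟨hp⟩
  have hpG : p ∣ Nat.card G := Nat.minFac_dvd _
  by_cases hq : ∃ q : ℕ, q.Prime ∧ q ∣ Nat.card G ∧ p < q
  · obtain ⟨P⟩ : Nonempty (Sylow p G) := inferInstance
    obtain ⟨hab, hrk⟩ := h p hp hpG hq P
    have hcomp : Cfsg.HasNormalPComplement p G := by
      by_cases h23 : p = 2 ∧ 3 ∣ Nat.card G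
      · -- then the Sylow 2-subgroup has order 2
        obtain ⟨hp2, h3⟩ := h23
        have hcardP : Nat.card (P : Subgroup G) = 2 := by
          rw [P.card_eq_multiplicity, hp2]
          have h4 : ¬ 2 ^ 2 ∣ Nat.card G := by
            intro h4
            exact h12 (Nat.Coprime.mul_dvd_of_dvd_of_dvd (by norm_num) h4 h3)
          have h5 : (Nat.card G).factorization 2 < 2 := by
            by_contra hcon
            push Not at hcon
            exact h4 ((Nat.Prime.pow_dvd_iff_le_factorization Nat.prime_two Nat.card_pos.ne').2 hcon)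
          have h6 : (Nat.card G).factorization 2 ≠ 0 := by
            intro h6
            have h7 : 2 ∣ Nat.card G := hp2 ▸ hpG
            exact absurd ((Nat.Prime.dvd_iff_one_le_factorization Nat.prime_two Nat.card_pos.ne').1 h7)
              (by omega)
          have h8 : (Nat.card G).factorization 2 = 1 := by omega
          rw [h8, pow_one]
        have hcyc : IsCyclic (P : Subgroup G) := isCyclic_of_prime_card (p := 2) hcardP
        refine Cfsg.Agent.H24.hasNormalPComplement_of_abelian_of_not_dvd P hab (d := 1) ?_ ?_
        · obtain ⟨g, hg⟩ := hcyc.exists_generator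
          have h9 : Subgroup.closure (({g} : Finset (P : Subgroup G)) : Set (P : Subgroup G)) = ⊤ := by
            rw [Finset.coe_singleton, ← Subgroup.zpowers_eq_closure, eq_top_iff]
            intro x _
            exact hg x
          exact (Group.rank_le h9).trans (by simp)
        · intro q hq _ _ hdvd
          rw [hp2] at hdvd
          norm_num at hdvd
          exact hq.one_lt.ne' hdvd
      · refine Cfsg.Agent.H24.hasNormalPComplement_of_abelian_of_not_dvd P hab (d := 2) hrk ?_
        intro q hq hqp hqG hdvd
        have hpq : p < q := lt_of_le_of_ne (Nat.minFac_le_of_dvd hq.two_le hqG) (Ne.symm hqp)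
        have h2 : ∏ i ∈ Finset.Icc 1 2, (p ^ i - 1) = (p - 1) * ((p - 1) * (p + 1)) := by
          rw [show Finset.Icc 1 2 = ({1, 2} : Finset ℕ) from rfl, Finset.prod_insert (by norm_num),
            Finset.prod_singleton, pow_one]
          have : 1 ≤ p := hp.one_lt.le
          congr 1
          obtain ⟨m, hm⟩ := Nat.exists_eq_add_of_le this
          rw [hm]
          have h3 : 1 + m - 1 = m := by omega
          rw [h3]
          have h4 : (1 + m) ^ 2 = m * (1 + m + 1) + 1 := by ring
          rw [h4, Nat.add_sub_cancel]
        rw [h2, hq.dvd_mul, hq.dvd_mul] at hdvd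
        have h3 : q ∣ p + 1 := by
          have h5 : ¬ q ∣ p - 1 := fun h6 => by
            have := Nat.le_of_dvd (by have := hp.one_lt; omega) h6
            omega
          tauto
        have h4 : q = p + 1 := by
          have := Nat.le_of_dvd (by omega) h3
          omega
        have h5 : p = 2 := by
          rcases hp.eq_two_or_odd' with h6 | h6
          · exact h6
          · have h7 : Even q := by rw [h4]; exact h6.add_one
            have h8 := (hq.even_iff).1 h7
            have := hp.two_le
            omega
        exact h23 ⟨h5, by rw [h4, h5] at hqG; exact hqG⟩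
    obtain ⟨N, hN, hpN, m, hm⟩ := Cfsg.Agent.H2.hasNormalPComplement_iff.1 hcomp
    have hcard : Nat.card N * N.index = Nat.card G := Subgroup.card_mul_index N
    have hdvd : Nat.card N ∣ Nat.card G := ⟨_, hcard.symm⟩
    have hlt : Nat.card N < k := by
      rw [← hk]
      refine lt_of_le_of_ne (Nat.le_of_dvd Nat.card_pos hdvd) ?_
      intro h9
      rw [h9] at hpN
      exact hpN hpG
    have hsolN : Group.IsSolvable N := by
      refine ih _ hlt N rfl ?_ (fun h9 => h12 (h9.trans hdvd))
      intro r hr hrN hex Q
      have hrf : Fact r.Prime := ⟨hr⟩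
      have hrp : r ≠ p := fun h9 => hpN (h9 ▸ hrN)
      have hidx : ¬ r ∣ N.index := by
        rw [hm]
        intro h9
        exact hrp ((Nat.prime_dvd_prime_iff_eq hr hp).1 (hr.dvd_of_dvd_pow h9))
      obtain ⟨R, -, ⟨e⟩⟩ := Cfsg.Agent.H24.exists_sylow_equiv hidx Q
      obtain ⟨q, hq1, hq2, hq3⟩ := hex
      obtain ⟨h10, h11⟩ := h r hr (hrN.trans hdvd) ⟨q, hq1, hq2.trans hdvd, hq3⟩ R
      refine ⟨⟨⟨fun a b => e.injective ?_⟩⟩, ?_⟩
      · rw [map_mul, map_mul]; exact h10.is_comm.comm _ _
      · rw [Group.rank_congr e]; exact h11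
    have hsolQ : Group.IsSolvable (G ⧸ N) := by
      have h12 : IsPGroup p (G ⧸ N) := IsPGroup.of_card (n := m) hm
      have := h12.isNilpotent
      infer_instance
    rw [Group.isSolvable_iff_subgroup_quotient N]
    exact ⟨hsolN, hsolQ⟩
  · push Not at hq
    have h2 : IsPGroup p G := by
      rw [IsPGroup.iff_card]
      exact ⟨_, Nat.eq_prime_pow_of_unique_prime_dvd (p := p) (n := Nat.card G)
        Nat.card_pos.ne' (fun {q} hq1 hq2 =>
          le_antisymm (hq q hq1 hq2) (Nat.minFac_le_of_dvd hq1.two_le hq2))⟩
    have := h2.isNilpotent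
    infer_instance

/-- Let `G` be a finite group such that for every prime `p` dividing its order, other than the largest such prime, the Sylow `p`-subgroups are abelian and generated by at most two elements, and suppose `12` does not divide the order of `G`. Then `G` is solvable. In particular a group of cube-free order not divisible by `12` is solvable. -/
theorem result {G : Type*} [Group G] [Finite G] (h : ∀ p : ℕ, p.Prime → p ∣ Nat.card G → (∃ q : ℕ, q.Prime ∧ q ∣ Nat.card G ∧ p < q) → ∀ P : Sylow p G, IsMulCommutative (P : Subgroup G) ∧ Group.rank (P : Subgroup G) ≤ 2) (h12 : ¬ 12 ∣ Nat.card G) : Group.IsSolvable G := by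
  exact aux _ G rfl h h12

end Cfsg.Agent.S3970
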