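import Cfsg.Statements.S3971
import Cfsg.Agent.H24.AutFrat
import Cfsg.Agent.H2.Frobenius
import Cfsg.Agent.H2.NComp
import Cfsg.Agent.H25.Primary

set_option autoImplicit false
set_option linter.all false
open Cfsg

namespace Cfsg.Agent.S3971

theorem rank_aux {X : Type*} [Group X] [Finite X] (Y : Subgroup X) (hY : IsCyclic Y) (hi : Y.index ≤ 2) :
    Group.rank X ≤ 2 := by
  classical
  obtain ⟨u, hu⟩ := (Subgroup.isCyclic_iff_exists_zpowers_eq_top Y).mp hY
  by_cases h1 : Y = ⊤
  · have h2 : Subgroup.closure (({u} : Finset X) : Set X) = ⊤ := by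
      rw [Finset.coe_singleton, ← Subgroup.zpowers_eq_closure, hu, h1]
    exact (Group.rank_le h2).trans (by simp)
  · obtain ⟨w, hw⟩ : ∃ w : X, w ∉ Y := by
      by_contra hcon
      push Not at hcon
      exact h1 (eq_top_iff.2 fun x _ => hcon x)
    have hY2 : Y.index = 2 := by
      have h2 : Y.index ≠ 1 := by rw [Ne, Subgroup.index_eq_one]; exact h1
      have h3 : Y.index ≠ 0 := Subgroup.index_ne_zero_of_finite
      omega
    have h2 : Subgroup.closure (({u, w} : Finset X) : Set X) = ⊤ := by
      set K := Subgroup.closure (({u, w} : Finset X) : Set X) with hK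
      have hYK : Y ≤ K := by
        rw [← hu, Subgroup.zpowers_le]; exact Subgroup.subset_closure (by simp)
      have hwK : w ∈ K := Subgroup.subset_closure (by simp)
      have h3 : K.index ∣ 2 := by rw [← hY2]; exact Subgroup.index_dvd_of_le hYK
      rcases (Nat.dvd_prime Nat.prime_two).1 h3 with h4 | h4
      · exact Subgroup.index_eq_one.1 h4
      · exfalso
        have h5 : Y.relIndex K * K.index = Y.index := Subgroup.relIndex_mul_index hYK
        rw [h4, hY2] at h5
        have h6 : Y.relIndex K = 1 := by omega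
        rw [Subgroup.relIndex_eq_one] at h6
        exact hw (h6 hwK)
    exact (Group.rank_le h2).trans Finset.card_le_two

/-- Let `G` be a finite group of order `2 ^ a * n` with `n` odd and not divisible by `3`, and suppose `G` has an element of order `2 ^ (a - 1)` (so a Sylow `2`-subgroup has a cyclic subgroup of index at most `2`). Then `G` has a normal subgroup of order `n`. -/
theorem result {G : Type*} [Group G] [Finite G] (a n : ℕ) (hG : Nat.card G = 2 ^ a * n) (hn : Odd n) (h3 : ¬ 3 ∣ n) (hx : ∃ x : G, orderOf x = 2 ^ (a - 1)) : ∃ N : Subgroup G, N.Normal ∧ Nat.card N = n := by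
  classical
  haveI : Fact (Nat.Prime 2) := ⟨Nat.prime_two⟩
  obtain ⟨x, hx⟩ := hx
  have hxp : IsPGroup 2 (Subgroup.zpowers x) := IsPGroup.of_card (n := a - 1) (by rw [Nat.card_zpowers, hx])
  obtain ⟨P0, hP0⟩ := hxp.exists_le_sylow
  have hcardP : ∀ P : Sylow 2 G, Nat.card P = 2 ^ a := by
    intro P
    rw [P.card_eq_multiplicity, hG]
    congr 1
    have hn0 : n ≠ 0 := by rintro rfl; exact absurd hn (by decide)
    rw [Nat.factorization_mul (by positivity) hn0, Finsupp.add_apply, Nat.Prime.factorization_pow Nat.prime_two,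
      Finsupp.single_eq_same, Nat.factorization_eq_zero_of_not_dvd hn.not_two_dvd_nat, add_zero]
  have hNPC : Cfsg.HasNormalPComplement 2 G := by
    apply Cfsg.Agent.H2.hasNormalPComplement_of_centralizer
    intro X hX g hg hgo
    obtain ⟨P, hXP⟩ := hX.exists_le_sylow
    obtain ⟨c, rfl⟩ := MulAction.exists_smul_eq G P0 P
    set x' := MulAut.conj c x with hx'
    have hx'o : orderOf x' = 2 ^ (a - 1) := by rw [hx', MulEquiv.orderOf_eq, hx]
    have hx'P : x' ∈ ((c • P0 : Sylow 2 G) : Subgroup G) := by
      rw [Sylow.coe_subgroup_smul, hx']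
      exact Subgroup.smul_mem_pointwise_smul _ _ _ (hP0 (Subgroup.mem_zpowers x))
    have hrel : (Subgroup.zpowers x').relIndex X ≤ 2 := by
      have h1 : (Subgroup.zpowers x').relIndex X ≤ (Subgroup.zpowers x').relIndex ((c • P0 : Sylow 2 G) : Subgroup G) :=
        Subgroup.relIndex_le_of_le_right hXP (by
          rw [Subgroup.relIndex]; exact Subgroup.index_ne_zero_of_finite)
      refine h1.trans ?_
      have h2 : Nat.card (Subgroup.zpowers x') * (Subgroup.zpowers x').relIndex ((c • P0 : Sylow 2 G) : Subgroup G) = Nat.card (c • P0 : Sylow 2 G) := by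
        have h3 := Subgroup.card_mul_index ((Subgroup.zpowers x').subgroupOf ((c • P0 : Sylow 2 G) : Subgroup G))
        rw [Nat.card_congr (Subgroup.subgroupOfEquivOfLe (Subgroup.zpowers_le.2 hx'P)).toEquiv] at h3
        exact h3
      rw [hcardP, Nat.card_zpowers, hx'o] at h2
      rcases Nat.eq_zero_or_pos a with h0 | h0
      · subst h0
        rw [Nat.zero_sub, pow_zero, one_mul] at h2
        omega
      · have h3 : 2 ^ a = 2 ^ (a - 1) * 2 := by rw [← pow_succ]; congr 1; omega
        rw [h3] at h2
        exact (Nat.eq_of_mul_eq_mul_left (by positivity) h2).le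
    have hrank : Group.rank X ≤ 2 := by
      refine rank_aux ((Subgroup.zpowers x').subgroupOf X) ?_ hrel
      haveI : IsCyclic (Subgroup.zpowers x') := inferInstance
      exact isCyclic_of_injective ((X.subtype.subgroupComap (Subgroup.zpowers x')) : _ →* _) (by
        intro u v huv
        have := congrArg Subtype.val huv
        exact Subtype.ext (Subtype.ext this))
    have key : Subgroup.zpowers g ≤ Subgroup.centralizer (X : Set G) := by
      apply Cfsg.Agent.H25.le_of_primary
      intro z hz q k hq hzo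
      rcases Nat.eq_zero_or_pos k with hk | hk
      · rw [hk, pow_zero, orderOf_eq_one_iff] at hzo
        rw [hzo]; exact one_mem _
      have hqz : q ∣ orderOf z := by rw [hzo]; exact dvd_pow_self q hk.ne'
      have hq2 : q ≠ 2 := by
        rintro rfl
        have h1 : 2 ∣ orderOf g := hqz.trans (orderOf_dvd_of_mem_zpowers hz)
        have h2 := Nat.eq_one_of_dvd_coprimes hgo h1 dvd_rfl
        omega
      have hq3 : q ≠ 3 := by
        rintro rfl
        have h1 : 3 ∣ Nat.card G := hqz.trans (orderOf_dvd_natCard z)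
        rw [hG] at h1
        rcases (Nat.Prime.dvd_mul Nat.prime_three).1 h1 with h2 | h2
        · have := (Nat.prime_dvd_prime_iff_eq Nat.prime_three Nat.prime_two).1 (Nat.prime_three.dvd_of_dvd_pow h2)
          omega
        · exact h3 h2
      refine Cfsg.Agent.H24.mem_centralizer_of_not_dvd X hX hrank (Subgroup.zpowers_le.2 hg hz) hq hq2 hzo ?_
      intro hd
      have h1 : ∏ i ∈ Finset.Icc 1 2, (2 ^ i - 1) = 3 := by decide
      rw [h1] at hd
      exact hq3 ((Nat.prime_dvd_prime_iff_eq hq Nat.prime_three).1 hd)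
    exact key (Subgroup.mem_zpowers g)
  obtain ⟨N, hN, hN2, k, hk⟩ := Cfsg.Agent.H2.hasNormalPComplement_iff.1 hNPC
  refine ⟨N, hN, ?_⟩
  have h1 := N.card_mul_index
  rw [hk, hG] at h1
  have hcN : Nat.Coprime (Nat.card N) 2 := ((Nat.Prime.coprime_iff_not_dvd Nat.prime_two).2 hN2).symm
  have hcn : Nat.Coprime n 2 := hn.coprime_two_right
  apply Nat.dvd_antisymm
  · have h2 : Nat.card N ∣ 2 ^ a * n := by rw [← h1]; exact dvd_mul_right _ _
    exact (hcN.pow_right a).dvd_of_dvd_mul_left h2
  · have h2 : n ∣ Nat.card N * 2 ^ k := by rw [h1]; exact dvd_mul_left _ _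
    exact (hcn.pow_right k).dvd_of_dvd_mul_right h2

end Cfsg.Agent.S3971
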