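import Cfsg.Statements.S3972
import Cfsg.Agent.H24.SRing3

set_option autoImplicit false
open Cfsg

namespace Cfsg.Agent.S3972

open MulAction in
open scoped IsMulCommutative in
theorem aux {Ω : Type*} [Fintype Ω] (p m : ℕ) (hp : p.Prime) (hm : 2 ≤ m)
    (hΩ : Fintype.card Ω = p ^ m) (G : Subgroup (Equiv.Perm Ω))
    (htr : MulAction.IsPretransitive G Ω) (h2 : ¬ MulAction.IsMultiplyPretransitive G Ω 2)
    (g : G) (hg : orderOf g = p ^ m) : ¬ MulAction.IsPreprimitive G Ω ∧
      ¬ MulAction.IsPretransitive (Subgroup.normalClosure ({g ^ (p ^ (m - 1))} : Set G)) Ω := by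
  have hgo : orderOf (g : Equiv.Perm Ω) = p ^ m := by rw [Subgroup.orderOf_coe]; exact hg
  obtain ⟨α, hα⟩ := Cfsg.Agent.H24.regular_zpowers_of_orderOf hp (by omega) hΩ (g : Equiv.Perm Ω) hgo
  have hcard : Nat.card (Subgroup.zpowers g) = p ^ m := by rw [Nat.card_zpowers, hg]
  have hreg : Function.Bijective
      (fun x : Subgroup.zpowers g => (Subgroup.zpowers g).subtype x • α) := by
    haveI := Fintype.ofFinite (Subgroup.zpowers g)
    rw [Fintype.bijective_iff_injective_and_card]
    constructor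
    · intro x y hxy
      have hx : ((x : G) : Equiv.Perm Ω) ∈ Subgroup.zpowers (g : Equiv.Perm Ω) := by
        obtain ⟨k, hk⟩ := Subgroup.mem_zpowers_iff.1 x.2
        rw [← hk]; exact ⟨k, by simp⟩
      have hy : ((y : G) : Equiv.Perm Ω) ∈ Subgroup.zpowers (g : Equiv.Perm Ω) := by
        obtain ⟨k, hk⟩ := Subgroup.mem_zpowers_iff.1 y.2
        rw [← hk]; exact ⟨k, by simp⟩
      have h1 := @hα.1 ⟨_, hx⟩ ⟨_, hy⟩ hxy
      have h2 := congrArg Subtype.val h1
      exact Subtype.ext (Subtype.ext h2)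
    · rw [← Nat.card_eq_fintype_card, hcard, hΩ]
  have hnprim : ¬ MulAction.IsPreprimitive G Ω := by
    intro hprim
    apply h2
    refine Cfsg.Agent.H24.two_transitive_of_regular_cyclic (Q := Subgroup.zpowers g) hreg hprim ?_ ?_
    · rw [hcard]
      have := Nat.one_lt_pow (n := m) (by omega) hp.one_lt
      omega
    · rw [hcard]
      exact Nat.Prime.not_prime_pow hm
  refine ⟨hnprim, fun htr' => ?_⟩
  -- a proper overgroup of the stabilizer
  have hnt : Nontrivial Ω := by
    rw [← Fintype.one_lt_card_iff_nontrivial, hΩ]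
    exact Nat.one_lt_pow (by omega) hp.one_lt
  have hnco : ¬ IsCoatom (stabilizer G α) := fun h =>
    hnprim ((isCoatom_stabilizer_iff_preprimitive G α).1 h)
  have hstop : stabilizer G α ≠ ⊤ := by
    intro htop
    obtain ⟨β, hβ⟩ := exists_ne α
    obtain ⟨x, hx⟩ := exists_smul_eq G α β
    have : x ∈ stabilizer G α := by rw [htop]; trivial
    exact hβ (by rw [← hx]; exact this)
  obtain ⟨M, hM1, hM2⟩ : ∃ M : Subgroup G, stabilizer G α < M ∧ M ≠ ⊤ := by
    by_contra hno
    push Not at hno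
    exact hnco ⟨hstop, fun M hM => hno M hM⟩
  obtain ⟨m₀, hm₀, hm₀'⟩ := Set.exists_of_ssubset hM1
  have hall : ∀ x : G, x⁻¹ * (g ^ (p ^ (m - 1))) * x ∈ M := by
    intro x
    -- find `y ∈ ⟨g⟩` nontrivial with `x⁻¹ y x ∈ M`
    obtain ⟨y₁, hy₁⟩ := hreg.2 (x • α)
    obtain ⟨y₂, hy₂⟩ := hreg.2 (x • m₀ • α)
    have hy₁' : (y₁ : G) • α = x • α := hy₁
    have hy₂' : (y₂ : G) • α = x • m₀ • α := hy₂
    set y : G := (y₂ : G) * (y₁ : G)⁻¹ with hy
    have hyP : y ∈ Subgroup.zpowers g := mul_mem y₂.2 (inv_mem y₁.2)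
    have hyx : y • x • α = x • m₀ • α := by
      rw [← hy₁', hy, mul_smul, inv_smul_smul, hy₂']
    have hy1 : y ≠ 1 := by
      intro h
      rw [h, one_smul] at hyx
      have := smul_left_cancel x hyx
      exact hm₀' this.symm
    have hyM : x⁻¹ * y * x ∈ M := by
      have h1 : (x⁻¹ * y * x)⁻¹ * m₀ ∈ stabilizer G α := by
        rw [mem_stabilizer_iff, mul_smul]
        have : m₀ • α = (x⁻¹ * y * x) • α := by
          rw [mul_smul, mul_smul, hyx, inv_smul_smul]
        rw [this, inv_smul_smul]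
      have h2 := hM1.le h1
      have h3 : x⁻¹ * y * x = m₀ * ((x⁻¹ * y * x)⁻¹ * m₀)⁻¹ := by group
      rw [h3]
      exact mul_mem hm₀ (inv_mem h2)
    -- the element of order `p` is a power of `y`
    obtain ⟨k, hk⟩ := Subgroup.mem_zpowers_iff.1 hyP
    have h2 : g ^ (p ^ (m - 1)) ∈ Subgroup.zpowers y := by
      rw [← hk]
      have h4 : Int.gcd k (p ^ m) ∣ p ^ m := by
        have := Int.gcd_dvd_right (a := k) (b := (p : ℤ) ^ m)
        exact_mod_cast this
      have hgp : g ^ ((p : ℤ) ^ m) = 1 := by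
        have := pow_orderOf_eq_one g
        rw [hg] at this
        exact_mod_cast this
      obtain ⟨j, hj, hj'⟩ := (Nat.dvd_prime_pow hp).1 h4
      have hjm : j < m := by
        rcases Nat.lt_or_ge j m with h | h
        · exact h
        · exfalso
          have hjm : j = m := le_antisymm hj h
          have := Int.gcd_dvd_left (a := k) (b := (p : ℤ) ^ m)
          rw [hj', hjm] at this
          obtain ⟨c, hc⟩ := this
          apply hy1
          rw [← hk, hc]
          push_cast
          rw [zpow_mul, hgp, one_zpow]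
      have hb := Int.gcd_eq_gcd_ab k ((p : ℤ) ^ m)
      rw [hj'] at hb
      have h5 : g ^ (p ^ j) ∈ Subgroup.zpowers (g ^ k) := by
        rw [Subgroup.mem_zpowers_iff]
        refine ⟨Int.gcdA k (p ^ m), ?_⟩
        rw [← zpow_mul]
        have h6 : (g ^ (p ^ j)) = g ^ ((p ^ j : ℕ) : ℤ) := by rw [zpow_natCast]
        rw [h6, hb, zpow_add, zpow_mul g ((p : ℤ) ^ m), hgp, one_zpow, mul_one]
      have h6 : g ^ (p ^ (m - 1)) = (g ^ (p ^ j)) ^ (p ^ (m - 1 - j)) := by
        rw [← pow_mul, ← pow_add]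
        congr 2
        omega
      rw [h6]
      exact Subgroup.pow_mem _ h5 _
    obtain ⟨c, hc⟩ := Subgroup.mem_zpowers_iff.1 h2
    rw [← hc]
    have h3 : x⁻¹ * y ^ c * x = (x⁻¹ * y * x) ^ c := by
      have := conj_zpow (a := x⁻¹) (b := y) (i := c)
      rw [inv_inv] at this
      exact this.symm
    rw [h3]
    exact zpow_mem hyM c
  have hle : Subgroup.normalClosure ({g ^ (p ^ (m - 1))} : Set G) ≤ M := by
    rw [Subgroup.normalClosure, Subgroup.closure_le]
    intro z hz
    rw [Group.mem_conjugatesOfSet_iff] at hz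
    obtain ⟨a, ha, haz⟩ := hz
    rw [Set.mem_singleton_iff] at ha
    subst ha
    obtain ⟨c, hc⟩ := isConj_iff.1 haz
    rw [← hc]
    have := hall c⁻¹
    simpa using this
  apply hM2
  rw [eq_top_iff]
  intro x _
  obtain ⟨n, hn⟩ := htr'.exists_smul_eq α (x • α)
  have h1 : (n : G)⁻¹ * x ∈ stabilizer G α := by
    rw [mem_stabilizer_iff, mul_smul]
    have : x • α = (n : G) • α := hn.symm
    rw [this, inv_smul_smul]
  have h2 := mul_mem (hle n.2) (hM1.le h1)
  simpa using h2

/-- Let `p` be a prime, `m ≥ 2`, and `G` a transitive but not doubly transitive permutation group on `p ^ m` points containing a permutation of order `p ^ m` (necessarily a full cycle). Then `G` is imprimitive, and the normal closure in `G` of the `p ^ (m - 1)`-th power of that permutation is an intransitive normal subgroup. -/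
theorem result {Ω : Type*} [Fintype Ω] [DecidableEq Ω] (p m : ℕ) (hp : p.Prime) (hm : 2 ≤ m) (hΩ : Fintype.card Ω = p ^ m) (G : Subgroup (Equiv.Perm Ω)) (htr : MulAction.IsPretransitive G Ω) (h2 : ¬ MulAction.IsMultiplyPretransitive G Ω 2) (g : G) (hg : orderOf g = p ^ m) : ¬ MulAction.IsPreprimitive G Ω ∧ ¬ MulAction.IsPretransitive (Subgroup.normalClosure ({g ^ (p ^ (m - 1))} : Set G)) Ω := by
  exact aux p m hp hm hΩ G htr h2 g hg

end Cfsg.Agent.S3972
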