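import Cfsg.Statements.S3974
import Cfsg.Agent.H15.SchurUniq

set_option autoImplicit false
universe u v
open Cfsg

namespace Cfsg.Agent.S3974

open Cfsg.Agent.H15.Schur

/-- Let `Q` be a finite group with Schur multiplier `A`. Any two Schur covering groups of `Q` (finite stem extensions `σ₁ : Γ₁ →* Q`, `σ₂ : Γ₂ →* Q` with kernels isomorphic to `A`, `Γ₁, Γ₂` in the universe of `Q`) are isomorphic over `Q` — there is a group isomorphism `e : Γ₁ ≃* Γ₂` with `σ₂ ∘ e = σ₁` — if and only if the order of the commutator quotient of `Q` is coprime to the order of `A`. In particular a finite perfect group has a unique Schur covering group up to isomorphism over it. -/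
theorem result {Q : Type u} [Group Q] [Finite Q] {A : Type v} [CommGroup A] (hA : Cfsg.HasSchurMultiplier Q A) : (∀ (Γ₁ Γ₂ : Type u) [Group Γ₁] [Finite Γ₁] [Group Γ₂] [Finite Γ₂] (σ₁ : Γ₁ →* Q) (σ₂ : Γ₂ →* Q), Cfsg.IsStemExtension σ₁ → Cfsg.IsStemExtension σ₂ → Nonempty (σ₁.ker ≃* A) → Nonempty (σ₂.ker ≃* A) → ∃ e : Γ₁ ≃* Γ₂, σ₂.comp e.toMonoidHom = σ₁) ↔ Nat.Coprime (Nat.card (Abelianization Q)) (Nat.card A) := by
  let φ := canPres Q
  have hφ : Function.Surjective φ := canPres_surjective Q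
  obtain ⟨eA⟩ := (hasSchurMultiplier_iff φ hφ).mp hA
  constructor
  · intro h
    by_contra hnc
    rw [Nat.card_congr eA.toEquiv] at hnc
    obtain ⟨p, hp, hp1, hp2⟩ := Nat.Prime.not_coprime_iff_dvd.mp hnc
    obtain ⟨S, hS, h1, h2⟩ := exists_complement_ker φ (pr φ).ker le_rfl
      (sup_eq_right.mpr inf_le_left)
    have hSn := normal_of_le_ker φ hS
    have hfin := finite_cover φ S hS h1 h2
    have hst := coverHom_isStem φ hφ S hS h2
    have hSc : S ≤ Subgroup.center (CE φ) := hS.trans (ker_pr_le_center φ)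
    have hSi : S ⊓ commutator (CE φ) = ⊥ := by
      rw [Subgroup.eq_bot_iff_forall]
      rintro x ⟨hx1, hx2⟩
      have : x ∈ S ⊓ SM φ := ⟨hx1, hS hx1, hx2⟩
      rw [h1] at this
      simpa using this
    have hidx : (S ⊔ commutator (CE φ)).index = Nat.card (Abelianization Q) := by
      have h3 := index_ker_sup_commutator (QuotientGroup.mk' S) (QuotientGroup.mk'_surjective S)
      rw [QuotientGroup.ker_mk'] at h3
      rw [h3]
      exact abelianization_card_of_stem (coverHom φ S hS) hst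
    obtain ⟨δ, hδ⟩ := exists_nonextendable (D := SM φ) (fun x n hn hx => ce_torsion φ x n hn hx) S hSc
      hSi p hp (by rw [hidx]; exact Nat.card_pos.ne') (by rw [hidx]; exact hp1) hp2
    let t : S →* CE φ := twSub S (SM φ) (SM_le_center φ) δ
    let S' := t.range
    have hS' : S' ≤ (pr φ).ker := by
      rintro _ ⟨s, rfl⟩
      exact mul_mem (hS s.2) (δ s).2.1
    have h1' : S' ⊓ SM φ = ⊥ := by
      rw [Subgroup.eq_bot_iff_forall]
      rintro _ ⟨⟨s, rfl⟩, hx2⟩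
      have h3 : s.1 ∈ SM φ := by
        have h4 : s.1 = (s.1 * (δ s).1) * ((δ s).1)⁻¹ := by group
        rw [h4]
        exact mul_mem hx2 (inv_mem (δ s).2)
      have h4 : s.1 ∈ S ⊓ SM φ := ⟨s.2, h3⟩
      rw [h1] at h4
      have h5 : s = 1 := Subtype.ext (by simpa using h4)
      rw [h5, map_one]
    have h2' : S' ⊔ SM φ = (pr φ).ker := by
      refine le_antisymm (sup_le hS' inf_le_left) (h2.symm.le.trans (sup_le ?_ le_sup_right))
      intro s hs
      have h4 : (s * (δ ⟨s, hs⟩).1) * ((δ ⟨s, hs⟩).1)⁻¹ = s := mul_inv_cancel_right _ _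
      have h5 : (s * (δ ⟨s, hs⟩).1) * ((δ ⟨s, hs⟩).1)⁻¹ ∈ S' ⊔ SM φ :=
        mul_mem (Subgroup.mem_sup_left ⟨⟨s, hs⟩, rfl⟩)
          (Subgroup.mem_sup_right (inv_mem (δ ⟨s, hs⟩).2))
      exact h4 ▸ h5
    have hSn' := normal_of_le_ker φ hS'
    have hfin' := finite_cover φ S' hS' h1' h2'
    have hst' := coverHom_isStem φ hφ S' hS' h2'
    let κ := coverKerEquiv φ S' hS' h1' h2'
    obtain ⟨e, he⟩ := h (CE φ ⧸ S) (CE φ ⧸ S') (coverHom φ S hS) (coverHom φ S' hS') hst hst'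
      ⟨(coverKerEquiv φ S hS h1 h2).symm.trans eA.symm⟩ ⟨κ.symm.trans eA.symm⟩
    let f₁ : CE φ →* (CE φ ⧸ S') := e.toMonoidHom.comp (QuotientGroup.mk' S)
    let f₂ : CE φ →* (CE φ ⧸ S') := QuotientGroup.mk' S'
    have hf : ∀ x, (f₂ x)⁻¹ * f₁ x ∈ (coverHom φ S' hS').ker := by
      intro x
      have h3 : coverHom φ S' hS' (f₁ x) = coverHom φ S hS (QuotientGroup.mk x) :=
        DFunLike.congr_fun he (QuotientGroup.mk x)
      rw [MonoidHom.mem_ker, map_mul, map_inv, h3, coverHom_mk]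
      have h5 : coverHom φ S' hS' (f₂ x) = pr φ x := coverHom_mk φ S' hS' x
      rw [h5, inv_mul_cancel]
    let θ := diffHom f₁ f₂ (coverHom φ S' hS').ker hst'.2.1 hf
    obtain ⟨s, hs⟩ := hδ (κ.symm.toMonoidHom.comp θ)
    apply hs
    show κ.symm (θ s.1) = δ s
    rw [κ.symm_apply_eq]
    apply Subtype.ext
    show (f₂ s.1)⁻¹ * f₁ s.1 = f₂ (δ s).1
    have h3 : f₁ s.1 = 1 := by
      show e (QuotientGroup.mk s.1) = 1
      rw [(QuotientGroup.eq_one_iff s.1).mpr s.2, map_one]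
    have h4 : f₂ (s.1 * (δ s).1) = 1 := (QuotientGroup.eq_one_iff _).mpr ⟨s, rfl⟩
    rw [map_mul] at h4
    rw [h3, mul_one]
    exact inv_eq_of_mul_eq_one_right h4
  · intro hcop Γ₁ Γ₂ _ _ _ _ σ₁ σ₂ h₁ h₂ k₁ k₂
    obtain ⟨k₁⟩ := k₁
    obtain ⟨k₂⟩ := k₂
    rw [Nat.card_congr eA.toEquiv] at hcop
    exact uniq_of_coprime σ₁ σ₂ h₁ h₂ ⟨k₁.trans eA⟩ ⟨k₂.trans eA⟩ hcop

end Cfsg.Agent.S3974
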