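import Cfsg.Statements.S3976
import Cfsg.Agent.H24.SubgroupCount

set_option autoImplicit false
open Cfsg

namespace Cfsg.Agent.S3976

/-- Let `p` be a prime and `G` a group of order `p ^ m`. For every `s ≤ m` the number of normal subgroups of `G` of order `p ^ s` is congruent to `1` modulo `p`. -/
theorem result {G : Type*} [Group G] [Finite G] (p m s : ℕ) (hp : p.Prime) (hG : Nat.card G = p ^ m) (hs : s ≤ m) : Nat.card {H : Subgroup G // H.Normal ∧ Nat.card H = p ^ s} ≡ 1 [MOD p] := by
  classical
  have hfp : Fact p.Prime := ⟨hp⟩
  have h1 := Cfsg.Agent.H24.card_subgroups_modEq_one (G := G) p s hp (by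
    rw [hG]; exact pow_dvd_pow p hs)
  have hGp : IsPGroup p G := IsPGroup.of_card hG
  -- conjugation action on subgroups of order `p ^ s`
  let act : MulAction G {H : Subgroup G // Nat.card H = p ^ s} :=
    { smul := fun g H => ⟨H.1.map (MulAut.conj g).toMonoidHom, by
        rw [Subgroup.card_map_of_injective (MulAut.conj g).injective]; exact H.2⟩
      one_smul := by
        rintro ⟨H, hH⟩
        apply Subtype.ext
        show H.map (MulAut.conj (1 : G)).toMonoidHom = H
        rw [map_one]
        ext x
        constructor
        · rintro ⟨y, hy, rfl⟩; exact hy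
        · intro hx; exact ⟨x, hx, rfl⟩
      mul_smul := by
        rintro g h ⟨H, hH⟩
        apply Subtype.ext
        show H.map (MulAut.conj (g * h)).toMonoidHom =
          (H.map (MulAut.conj h).toMonoidHom).map (MulAut.conj g).toMonoidHom
        rw [Subgroup.map_map]
        congr 1
        ext x
        simp [MulAut.conj_apply, mul_assoc] }
  have h2 := hGp.card_modEq_card_fixedPoints {H : Subgroup G // Nat.card H = p ^ s}
  have h3 : Nat.card (MulAction.fixedPoints G {H : Subgroup G // Nat.card H = p ^ s}) =
      Nat.card {H : Subgroup G // H.Normal ∧ Nat.card H = p ^ s} := by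
    refine Nat.card_congr
      { toFun := fun H => ⟨H.1.1, ?_, H.1.2⟩
        invFun := fun H => ⟨⟨H.1, H.2.2⟩, ?_⟩
        left_inv := fun H => rfl
        right_inv := fun H => rfl }
    · constructor
      intro n hn g
      have h4 : H.1.1.map (MulAut.conj g).toMonoidHom = H.1.1 := congrArg Subtype.val (H.2 g)
      rw [← h4]
      exact ⟨n, hn, rfl⟩
    · intro g
      apply Subtype.ext
      show H.1.map (MulAut.conj g).toMonoidHom = H.1
      have hn := H.2.1
      apply Subgroup.eq_of_le_of_card_ge
      · rintro _ ⟨y, hy, rfl⟩
        exact hn.conj_mem y hy g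
      · rw [Subgroup.card_map_of_injective (MulAut.conj g).injective]
  rw [h3] at h2
  exact h2.symm.trans h1

end Cfsg.Agent.S3976
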