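import Cfsg.Statements.S3977
import Cfsg.Agent.H24.SubgroupCount
import Cfsg.Agent.H24.SylowInf
import Cfsg.Agent.H24.Frobenius
import Cfsg.Agent.H23.Coprime3

set_option autoImplicit false
open Cfsg

namespace Cfsg.Agent.S3977

open Subgroup
open scoped commutatorElement

/-- unique maximal subgroup implies cyclic -/
theorem isCyclic_of_unique_max {G : Type*} [Group G] [Finite G] (p m : ℕ) (hp : p.Prime)
    (hG : Nat.card G = p ^ (m + 1))
    (huniq : ∀ H K : Subgroup G, Nat.card H = p ^ m → Nat.card K = p ^ m → H = K) : IsCyclic G := by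
  have hfp : Fact p.Prime := ⟨hp⟩
  obtain ⟨H, hH, -⟩ := Sylow.exists_subgroup_card_pow_prime_le p (G := G) (n := 0) (m := m)
    (by rw [hG]; exact pow_dvd_pow p (Nat.le_succ m)) ⊥ (by simp) (Nat.zero_le _)
  have hne : H ≠ ⊤ := by
    rintro rfl
    rw [Subgroup.card_top, hG, pow_succ] at hH
    have := pow_pos hp.pos m
    have := hp.two_le
    nlinarith
  obtain ⟨x, hx⟩ : ∃ x, x ∉ H := by
    by_contra hcon
    push Not at hcon
    exact hne (eq_top_iff.2 fun x _ => hcon x)
  have htop : zpowers x = ⊤ := by
    by_contra hne2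
    obtain ⟨k, hk, hk'⟩ := (Nat.dvd_prime_pow hp).1 (hG ▸ Subgroup.card_subgroup_dvd_card (zpowers x))
    have hkm : k ≤ m := by
      by_contra hlt
      have : k = m + 1 := by omega
      apply hne2
      apply Subgroup.eq_top_of_card_eq
      rw [hk', this, hG]
    obtain ⟨K, hK, hle⟩ := Sylow.exists_subgroup_card_pow_prime_le p (G := G) (n := k) (m := m)
      (by rw [hG]; exact pow_dvd_pow p (Nat.le_succ m)) (zpowers x) hk' hkm
    have := huniq K H hK hH
    exact hx (this ▸ hle (mem_zpowers x))
  exact ⟨x, fun y => by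
    have : y ∈ zpowers x := by rw [htop]; trivial
    exact this⟩

theorem isCyclic_aux (p s : ℕ) (hp : p.Prime) (hs : 1 ≤ s) (h2 : p ≠ 2 ∨ 2 ≤ s) (d : ℕ) :
    ∀ (G : Type _) [Group G] [Finite G], Nat.card G = p ^ (s + 1 + d) →
    (∀ H K : Subgroup G, Nat.card H = p ^ s → Nat.card K = p ^ s → H = K) → IsCyclic G := by
  have hfp : Fact p.Prime := ⟨hp⟩
  induction d with
  | zero =>
    intro G _ _ hG huniq
    exact isCyclic_of_unique_max p s hp hG huniq
  | succ d ih =>
    intro G _ _ hG huniq
    by_contra hncyc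
    -- maximal subgroups are cyclic
    have hmaxcyc : ∀ M : Subgroup G, Nat.card M = p ^ (s + 1 + d) → IsCyclic M := by
      intro M hM
      apply ih M hM
      intro H K hH hK
      have h3 := huniq (H.map M.subtype) (K.map M.subtype)
        (by rw [Subgroup.card_map_of_injective M.subtype_injective]; exact hH)
        (by rw [Subgroup.card_map_of_injective M.subtype_injective]; exact hK)
      exact Subgroup.map_injective M.subtype_injective h3
    -- two distinct maximal subgroups
    have htwo : ∃ A B : Subgroup G, Nat.card A = p ^ (s + 1 + d) ∧ Nat.card B = p ^ (s + 1 + d) ∧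
        A ≠ B := by
      by_contra hcon
      push Not at hcon
      exact hncyc (isCyclic_of_unique_max p (s + 1 + d) hp hG (fun H K hH hK => hcon H K hH hK))
    obtain ⟨A, B, hA, hB, hAB⟩ := htwo
    have hAcyc := hmaxcyc A hA
    have hBcyc := hmaxcyc B hB
    have hidx : ∀ M : Subgroup G, Nat.card M = p ^ (s + 1 + d) → M.index = p := by
      intro M hM
      have h3 := Subgroup.card_mul_index M
      rw [hM, hG] at h3
      have h4 : p ^ (s + 1 + (d + 1)) = p ^ (s + 1 + d) * p := by rw [← add_assoc, pow_succ]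
      rw [h4] at h3
      exact Nat.eq_of_mul_eq_mul_left (pow_pos hp.pos _) h3
    have hGp : IsPGroup p G := IsPGroup.of_card hG
    have hnormal : ∀ M : Subgroup G, Nat.card M = p ^ (s + 1 + d) → M.Normal := by
      intro M hM
      apply Subgroup.normal_of_index_eq_minFac_card
      rw [hidx M hM, hG, hp.pow_minFac (by omega)]
    have hAn := hnormal A hA
    have hBn := hnormal B hB
    have hcomm : ∀ M : Subgroup G, IsCyclic M → ∀ a ∈ M, ∀ b ∈ M, a * b = b * a := by
      intro M hM a ha b hb
      obtain ⟨g, hg⟩ := hM.exists_generator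
      obtain ⟨i, hi⟩ := hg ⟨a, ha⟩
      obtain ⟨j, hj⟩ := hg ⟨b, hb⟩
      have hi' : (g : G) ^ i = a := congrArg Subtype.val hi
      have hj' : (g : G) ^ j = b := congrArg Subtype.val hj
      rw [← hi', ← hj', ← zpow_add, ← zpow_add, add_comm]
    -- `A ⊔ B = ⊤`
    have hsup : A ⊔ B = ⊤ := by
      by_contra hne
      obtain ⟨k, hk, hk'⟩ := (Nat.dvd_prime_pow hp).1
        (hG ▸ Subgroup.card_subgroup_dvd_card (A ⊔ B))
      have hlt : k ≤ s + 1 + d := by
        by_contra hlt
        apply hne
        apply Subgroup.eq_top_of_card_eq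
        rw [hk', hG]; congr 1; omega
      have hle : Nat.card ↥(A ⊔ B) ≤ p ^ (s + 1 + d) := by
        rw [hk']; exact Nat.pow_le_pow_right hp.pos hlt
      have h3 : A = A ⊔ B := Subgroup.eq_of_le_of_card_ge le_sup_left (by rw [hA]; exact hle)
      have h4 : B = A ⊔ B := Subgroup.eq_of_le_of_card_ge le_sup_right (by rw [hB]; exact hle)
      exact hAB (h3.trans h4.symm)
    set Z := A ⊓ B with hZ
    have hZcard : Nat.card Z = p ^ (s + d) := by
      have h3 := Cfsg.Agent.H24.card_sup_mul_card_inf A B
      rw [hsup, Subgroup.card_top, hG, hA, hB] at h3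
      have h4 : p ^ (s + 1 + (d + 1)) * p ^ (s + d) = p ^ (s + 1 + d) * p ^ (s + 1 + d) := by
        rw [← pow_add, ← pow_add]; congr 1; omega
      rw [← h4] at h3
      exact Nat.eq_of_mul_eq_mul_left (pow_pos hp.pos _) h3
    -- `Z` is central
    have hZc : ∀ z ∈ Z, ∀ g : G, Commute z g := by
      intro z hz g
      have h3 : z ∈ centralizer ((A ⊔ B : Subgroup G) : Set G) := by
        have h4 : A ⊔ B ≤ centralizer ({z} : Set G) := by
          apply sup_le
          · intro a ha
            rw [mem_centralizer_singleton_iff]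
            exact hcomm A hAcyc a ha z hz.1
          · intro b hb
            rw [mem_centralizer_singleton_iff]
            exact hcomm B hBcyc b hb z hz.2
        rw [mem_centralizer_iff]
        intro g hg
        exact mem_centralizer_singleton_iff.1 (h4 hg)
      rw [hsup] at h3
      exact (mem_centralizer_iff.1 h3 g trivial).symm
    -- commutators and `p`-th powers are in `Z`
    have hcommM : ∀ M : Subgroup G, Nat.card M = p ^ (s + 1 + d) → ∀ x y : G, ⁅x, y⁆ ∈ M := by
      intro M hM x y
      have hMn := hnormal M hM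
      have hcyc : IsCyclic (G ⧸ M) := isCyclic_of_prime_card (p := p) (hidx M hM)
      rw [← QuotientGroup.eq_one_iff]
      have h3 : (QuotientGroup.mk ⁅x, y⁆ : G ⧸ M) =
        ⁅(QuotientGroup.mk x : G ⧸ M), (QuotientGroup.mk y : G ⧸ M)⁆ := rfl
      rw [h3, commutatorElement_eq_one_iff_mul_comm]
      obtain ⟨g, hg⟩ := hcyc.exists_generator
      obtain ⟨i, hi⟩ := hg (QuotientGroup.mk x)
      obtain ⟨j, hj⟩ := hg (QuotientGroup.mk y)
      have hi' : g ^ i = QuotientGroup.mk x := hi
      have hj' : g ^ j = QuotientGroup.mk y := hj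
      rw [← hi', ← hj', ← zpow_add, ← zpow_add, add_comm]
    have hpowM : ∀ M : Subgroup G, Nat.card M = p ^ (s + 1 + d) → ∀ x : G, x ^ p ∈ M := by
      intro M hM x
      have hMn := hnormal M hM
      rw [← QuotientGroup.eq_one_iff, QuotientGroup.mk_pow]
      have h3 : Nat.card (G ⧸ M) = p := hidx M hM
      rw [← h3]
      exact pow_card_eq_one'
    have hcZ : ∀ x y : G, ⁅x, y⁆ ∈ Z := fun x y => ⟨hcommM A hA x y, hcommM B hB x y⟩
    have hpZ : ∀ x : G, x ^ p ∈ Z := fun x => ⟨hpowM A hA x, hpowM B hB x⟩
    have hcp : ∀ x y : G, ⁅x, y⁆ ^ p = 1 := by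
      intro x y
      rw [← Cfsg.Agent.H23.commutator_pow_left_of_central y x (hZc _ (hcZ x y)),
        commutatorElement_eq_one_iff_mul_comm]
      exact hZc _ (hpZ x) y
    -- the power map is a homomorphism
    have hdvd : p ∣ p ^ s * (p ^ s - 1) / 2 := by
      rcases eq_or_ne p 2 with rfl | hp2
      · have hs2 : 2 ≤ s := by
          rcases h2 with h2 | h2
          · exact absurd rfl h2
          · exact h2
        obtain ⟨t, rfl⟩ : ∃ t, s = t + 2 := ⟨s - 2, by omega⟩
        have e : 2 ^ (t + 2) * (2 ^ (t + 2) - 1) = 2 * (2 * (2 ^ t * (2 ^ (t + 2) - 1))) := by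
          generalize 2 ^ (t + 2) - 1 = w
          ring
        rw [e, Nat.mul_div_cancel_left _ (by norm_num)]
        exact Dvd.intro _ rfl
      · have hodd : Odd (p ^ s) := (hp.odd_of_ne_two hp2).pow
        obtain ⟨w, hw⟩ := hodd
        have e : p ^ s - 1 = 2 * w := by omega
        rw [e]
        have e2 : p ^ s * (2 * w) = 2 * (p ^ s * w) := by ring
        rw [e2, Nat.mul_div_cancel_left _ (by norm_num)]
        exact (dvd_pow_self p (by omega)).mul_right _
    have hmul : ∀ x y : G, (x * y) ^ (p ^ s) = x ^ (p ^ s) * y ^ (p ^ s) := by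
      intro x y
      rw [Cfsg.Agent.H23.mul_pow_of_class_two x y (hZc _ (hcZ y x))]
      obtain ⟨w, hw⟩ := hdvd
      rw [hw, pow_mul, hcp, one_pow, mul_one]
    let φ : G →* G :=
      { toFun := fun x => x ^ (p ^ s)
        map_one' := one_pow _
        map_mul' := hmul }
    -- kernel
    have hker : Nat.card φ.ker ≤ p ^ s := by
      obtain ⟨H, hH, -⟩ := Sylow.exists_subgroup_card_pow_prime_le p (G := G) (n := 0) (m := s)
        (by rw [hG]; exact pow_dvd_pow p (by omega)) ⊥ (by simp) (Nat.zero_le _)
      rw [← hH]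
      apply Nat.card_mono (Set.toFinite _)
      intro x hx
      have hx' : x ^ (p ^ s) = 1 := hx
      obtain ⟨k, hk, hk'⟩ := (Nat.dvd_prime_pow hp).1 (orderOf_dvd_of_pow_eq_one hx')
      obtain ⟨K, hK, hle⟩ := Sylow.exists_subgroup_card_pow_prime_le p (G := G) (n := k) (m := s)
        (by rw [hG]; exact pow_dvd_pow p (by omega)) (zpowers x) (by rw [Nat.card_zpowers, hk']) hk
      have := huniq K H hK hH
      exact this ▸ hle (mem_zpowers x)
    have hrange1' : p ^ (d + 2) ≤ Nat.card φ.range := by
      have h3 : Nat.card G = Nat.card φ.ker * Nat.card φ.range := by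
        have h4 := Subgroup.card_mul_index φ.ker
        rw [Subgroup.index_ker] at h4
        exact h4.symm
      rw [hG] at h3
      have h4 : p ^ (s + 1 + (d + 1)) ≤ p ^ s * Nat.card φ.range := by
        rw [h3]; exact Nat.mul_le_mul_right _ hker
      have h5 : p ^ (s + 1 + (d + 1)) = p ^ s * p ^ (d + 2) := by rw [← pow_add]; congr 1; omega
      rw [h5] at h4
      exact Nat.le_of_mul_le_mul_left h4 (pow_pos hp.pos s)
    -- the range is inside the `p ^ (s - 1)`-th powers of `Z`
    let ψ : Z →* G :=
      { toFun := fun z => (z : G) ^ (p ^ (s - 1))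
        map_one' := one_pow _
        map_mul' := by
          intro a b
          have : Commute (a : G) (b : G) := hZc a a.2 b
          exact this.mul_pow _ }
    have hsub : φ.range ≤ ψ.range := by
      rintro _ ⟨x, rfl⟩
      refine ⟨⟨x ^ p, hpZ x⟩, ?_⟩
      show (x ^ p) ^ (p ^ (s - 1)) = x ^ (p ^ s)
      rw [← pow_mul, ← pow_succ']
      congr 2; omega
    have hrange2 : Nat.card ψ.range * p ^ (s - 1) ≤ p ^ (s + d) := by
      have h3 : Nat.card Z = Nat.card ψ.ker * Nat.card ψ.range := by
        have h4 := Subgroup.card_mul_index ψ.ker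
        rw [Subgroup.index_ker] at h4
        exact h4.symm
      have h4 : p ^ (s - 1) ≤ Nat.card ψ.ker := by
        have h5 := Cfsg.Agent.H24.frobenius_dvd (G := Z) (p ^ (s - 1))
          (by rw [hZcard]; exact pow_dvd_pow p (by omega))
        have h6 : Nat.card {g : Z // g ^ (p ^ (s - 1)) = 1} = Nat.card ψ.ker := by
          refine Nat.card_congr (Equiv.subtypeEquivRight ?_)
          intro z
          constructor
          · intro h
            show (z : G) ^ (p ^ (s - 1)) = 1
            have := congrArg Subtype.val h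
            exact this
          · intro h
            apply Subtype.ext
            exact h
        rw [h6] at h5
        exact Nat.le_of_dvd Nat.card_pos h5
      rw [← hZcard, h3, mul_comm]
      exact Nat.mul_le_mul_right _ h4
    have h3 : Nat.card φ.range ≤ Nat.card ψ.range :=
      Nat.card_mono (Set.toFinite _) hsub
    have h4 : p ^ (d + 2) * p ^ (s - 1) ≤ p ^ (s + d) :=
      (Nat.mul_le_mul_right _ (hrange1'.trans h3)).trans hrange2
    rw [← pow_add] at h4
    have h5 := (Nat.pow_le_pow_iff_right hp.one_lt).1 h4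
    omega

/-- Let `p` be a prime and `G` a group of order `p ^ m` which has exactly one subgroup of order `p ^ s`, where `1 ≤ s < m`, and where `s ≥ 2` if `p = 2`. Then `G` is cyclic. (For `p = 2` and `s = 1` the generalized quaternion groups also occur; that case is the classical criterion for a unique involution.) -/
theorem result {G : Type*} [Group G] [Finite G] (p m s : ℕ) (hp : p.Prime) (hG : Nat.card G = p ^ m) (hs : 1 ≤ s) (hsm : s < m) (h2 : p ≠ 2 ∨ 2 ≤ s) (huniq : ∀ H K : Subgroup G, Nat.card H = p ^ s → Nat.card K = p ^ s → H = K) : IsCyclic G := by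
  obtain ⟨d, rfl⟩ : ∃ d, m = s + 1 + d := ⟨m - (s + 1), by omega⟩
  exact isCyclic_aux p s hp hs h2 d G hG huniq

end Cfsg.Agent.S3977
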