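import Cfsg.Statements.S3978
import Cfsg.Agent.H15.Schur5

set_option autoImplicit false
open Cfsg

namespace Cfsg.Agent.S3978

open Cfsg.Agent.H15.Schur

/-- A finite group `Q` has trivial Schur multiplier if and only if, for every `n`, every homomorphism from `Q` to the projective general linear group (the quotient of `GL n ℂ` by its centre) lifts to a homomorphism into `GL n ℂ`. -/
theorem result {Q : Type*} [Group Q] [Finite Q] : Cfsg.HasCyclicSchurMultiplier Q 1 ↔ ∀ (n : ℕ) (γ : Q →* (GL (Fin n) ℂ ⧸ Subgroup.center (GL (Fin n) ℂ))), ∃ ρ : Q →* GL (Fin n) ℂ, (QuotientGroup.mk' (Subgroup.center (GL (Fin n) ℂ))).comp ρ = γ := by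
  constructor
  · intro h n γ
    obtain ⟨e⟩ := (hasSchurMultiplier_iff (canPres Q) (canPres_surjective Q)).mp h
    have h1 : (MonoidHom.id Q).ker = ⊥ := (hasCyclic_one_iff.mp h) Q _ (isStem_id Q)
    have : Unique ↥(MonoidHom.id Q).ker := by rw [h1]; infer_instance
    have : Unique (Multiplicative (ZMod 1)) := inferInstance
    obtain ⟨ρ, hρ⟩ := exists_lift_of_cover (MonoidHom.id Q) (isStem_id Q)
      ⟨(MulEquiv.ofUnique : ↥(MonoidHom.id Q).ker ≃* Multiplicative (ZMod 1)).trans e⟩ n γ
    exact ⟨ρ, hρ⟩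
  · intro h
    rw [hasCyclic_one_iff]
    intro Γ _ _ τ hτ
    obtain ⟨π, hπ⟩ := surj_of_lift (MonoidHom.id Q) (isStem_id Q) (fun n γ => by
      obtain ⟨ρ, hρ⟩ := h n γ
      exact ⟨ρ, hρ⟩) τ hτ
    have h1 : Subsingleton (MonoidHom.id Q).ker := by
      constructor
      intro a b
      have ha : a.1 = 1 := a.2
      have hb : b.1 = 1 := b.2
      exact Subtype.ext (ha.trans hb.symm)
    have : Subsingleton τ.ker := hπ.subsingleton
    exact Subgroup.eq_bot_of_subsingleton _

end Cfsg.Agent.S3978
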