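import Cfsg.Statements.S3979
import Mathlib

set_option autoImplicit false
open Cfsg

namespace Cfsg.Agent.S3979

/-- A finite cyclic group has trivial Schur multiplier: every finite stem extension of it is an isomorphism, said through `HasCyclicSchurMultiplier G 1`. -/
theorem result {G : Type*} [Group G] [Finite G] [IsCyclic G] : Cfsg.HasCyclicSchurMultiplier G 1 := by
  have key : ∀ (Γ : Type _) [Group Γ] (σ : Γ →* G), Cfsg.IsStemExtension σ → σ.ker = ⊥ := by
    intro Γ _ σ h
    obtain ⟨h1, h2, h3⟩ := h
    have hc : ∀ a b : Γ, a * b = b * a := fun a b => by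
      have := commutative_of_cyclic_center_quotient σ h2 a b
      exact this
    rw [eq_bot_iff]
    intro x hx
    have h4 : commutator Γ ≤ ⊥ := by
      rw [commutator_def, Subgroup.commutator_le]
      intro a _ b _
      rw [Subgroup.mem_bot, commutatorElement_eq_one_iff_mul_comm]
      exact hc a b
    exact h4 (h3 hx)
  refine ⟨⟨G, inferInstance, inferInstance, MonoidHom.id G, ⟨Function.surjective_id, ?_, ?_⟩, ?_⟩, ?_⟩
  · intro x hx
    have : x = 1 := hx
    rw [this]; exact Subgroup.one_mem _
  · intro x hx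
    have : x = 1 := hx
    rw [this]; exact Subgroup.one_mem _
  · have h1 : Unique ↥(MonoidHom.id G).ker := ⟨⟨1⟩, fun x => Subtype.ext x.2⟩
    have h2 : Unique (Multiplicative (ZMod 1)) := inferInstance
    exact ⟨MulEquiv.ofUnique⟩
  · intro Γ _ _ σ hσ
    refine ⟨1, ?_⟩
    intro x
    refine ⟨1, ?_⟩
    have h5 := key Γ σ hσ
    apply Subtype.ext
    have : (x : Γ) ∈ (⊥ : Subgroup Γ) := h5 ▸ x.2
    rw [Subgroup.mem_bot] at this
    rw [this]; rfl

end Cfsg.Agent.S3979
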