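import Cfsg.Statements.S3992
import Cfsg.Agent.S1475
import Cfsg.Agent.H10.Basic
import Cfsg.Agent.H3.BurnsidePQ
import Cfsg.Agent.H22.MinNormal

set_option autoImplicit false
open Cfsg

namespace Cfsg.Agent.S3992

open Cfsg.Agent Cfsg.Agent.H18

universe u

theorem exists_prime_orderOf {X : Type*} [Group X] [Finite X] {x : X} (hx : x ≠ 1) :
    ∃ (p k : ℕ), p.Prime ∧ orderOf (x ^ k) = p := by
  have h1 : orderOf x ≠ 1 := fun h => hx (orderOf_eq_one_iff.mp h)
  have hp := Nat.minFac_prime h1
  obtain ⟨k, hk⟩ := Nat.minFac_dvd (orderOf x)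
  have hk0 : k ≠ 0 := by
    rintro rfl
    rw [mul_zero] at hk
    exact (orderOf_pos x).ne' hk
  refine ⟨(orderOf x).minFac, k, hp, ?_⟩
  rw [orderOf_pow' x hk0]
  nth_rewrite 1 2 [hk]
  rw [Nat.gcd_eq_right (dvd_mul_left k _)]
  exact Nat.mul_div_cancel _ (Nat.pos_of_ne_zero hk0)

/-- In an EPPO group, if `A` and `B` commute and `B ≠ 1` then `A` is a `p`-group for some `p`. -/
theorem isPGroup_of_comm {X : Type*} [Group X] [Finite X] (h : ∀ g : X, IsPrimePow (orderOf g) ∨ g = 1)
    {A : Subgroup X} {b : X} {p : ℕ} (hp : p.Prime) (hb : orderOf b = p) (hAb : ∀ a ∈ A, a * b = b * a) :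
    IsPGroup p A := by
  have := Fact.mk hp
  rw [IsPGroup.iff_orderOf]
  intro a
  by_cases ha : a = 1
  · exact ⟨0, by rw [ha, orderOf_one, pow_zero]⟩
  have ha' : (a : X) ≠ 1 := fun hc => ha (Subtype.ext hc)
  have h1 := (h a).resolve_right ha'
  obtain ⟨r, k, hr, hk, hrk⟩ := h1
  have hr' : r.Prime := Nat.prime_iff.2 hr
  by_cases hrp : r = p
  · exact ⟨k, by rw [← Subgroup.orderOf_coe, ← hrk, hrp]⟩
  exfalso
  have h2 : orderOf ((a : X) ^ (r ^ (k - 1))) = r := by
    rw [orderOf_pow' _ (pow_ne_zero _ hr'.ne_zero), ← hrk, Nat.gcd_eq_right (pow_dvd_pow r (by omega)),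
      Nat.pow_div (by omega) hr'.pos]
    have : k - (k - 1) = 1 := by omega
    rw [this, pow_one]
  have h3 : (a : X) ^ (r ^ (k - 1)) * b = b * (a : X) ^ (r ^ (k - 1)) :=
    ((show Commute (a : X) b from hAb a a.2).pow_left _).eq
  exact S1475.not_pp h hr' hp hrp h2 hb h3

theorem part2 {X : Type u} [Group X] [Finite X] [Nontrivial X] (h : ∀ g : X, IsPrimePow (orderOf g) ∨ g = 1)
    (hrad : ∀ N : Subgroup X, N.Normal → Group.IsSolvable ↥N → N = ⊥) :
    ∃ M : Subgroup X, M.Normal ∧ IsSimpleGroup ↥M ∧ ¬ IsMulCommutative ↥M ∧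
        ∀ N : Subgroup X, N.Normal → N ≠ ⊥ → M ≤ N := by
  obtain ⟨N, -, hN⟩ := H22.exists_isMinNormalIn (⊤ : Subgroup X) ⊤ le_rfl (fun _ _ _ _ => trivial) (by
    intro hc
    exact (Subgroup.nontrivial_iff_ne_bot (⊤ : Subgroup X)).mp inferInstance hc)
  have hNn : N.Normal := H22.normal_of_conj_top hN.conj
  have hNs : ¬ Group.IsSolvable N := fun hs => hN.ne_bot (hrad N hNn hs)
  have hNp : ∀ p : ℕ, p.Prime → ¬ IsPGroup p N := by
    intro p hp hc
    have := Fact.mk hp
    have : Group.IsNilpotent N := hc.isNilpotent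
    exact hNs inferInstance
  obtain ⟨T, hTN, hT⟩ := H22.exists_isMinNormalIn N N le_rfl (fun n hn t ht => hNn.conj_mem t ht n) hN.ne_bot
  have hle := H22.le_sup_centralizer hN hT
  have hTN' : T = N := by
    by_contra hne
    set C := Subgroup.centralizer (T : Set X) ⊓ N with hC
    have hC1 : C ≠ ⊥ := by
      intro hc
      rw [hc, sup_bot_eq] at hle
      exact hne (le_antisymm hTN hle)
    obtain ⟨c, hc, hc1⟩ := H21.exists_ne_one hC1
    obtain ⟨p, k, hp, hpk⟩ := exists_prime_orderOf hc1
    have := Fact.mk hp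
    have hck : c ^ k ∈ C := C.pow_mem hc k
    have hTp : IsPGroup p T := isPGroup_of_comm h hp hpk (fun a ha =>
      (H22.mem_centralizer_iff_comm.mp hck.1 a ha))
    obtain ⟨t, ht, ht1⟩ := H21.exists_ne_one hT.ne_bot
    obtain ⟨r, l, hr, hrl⟩ := exists_prime_orderOf ht1
    have htl : t ^ l ∈ T := T.pow_mem ht l
    have hrp : r = p := by
      obtain ⟨n, hn⟩ := (IsPGroup.iff_orderOf.mp hTp) ⟨t ^ l, htl⟩
      rw [Subgroup.orderOf_mk, hrl] at hn
      exact (Nat.prime_dvd_prime_iff_eq hr hp).mp (hr.dvd_of_dvd_pow (dvd_of_eq hn))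
    subst hrp
    have hCp : IsPGroup r C := isPGroup_of_comm h hr hrl (fun a ha =>
      (H22.mem_centralizer_iff_comm.mp ha.1 _ htl).symm)
    have hCT : C ≤ Subgroup.normalizer (T : Set X) := by
      refine inf_le_left.trans ?_
      exact Subgroup.centralizer_le_normalizer _
    have hTCp : IsPGroup r (T ⊔ C : Subgroup X) := hTp.to_sup_of_normal_left' hCp hCT
    exact hNp r hr (hTCp.to_le hle)
  refine ⟨N, hNn, ?_, ?_, ?_⟩
  · have hnt : Nontrivial N := (Subgroup.nontrivial_iff_ne_bot N).mpr hN.ne_bot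
    refine { exists_pair_ne := hnt.exists_pair_ne, eq_bot_or_eq_top_of_normal := fun H hH => ?_ }
    rw [hTN'] at hT
    have h1 := hT.min (H.map N.subtype) (by
      rintro n hn _ ⟨t, ht, rfl⟩
      exact ⟨⟨n, hn⟩ * t * (⟨n, hn⟩)⁻¹, hH.conj_mem t ht ⟨n, hn⟩, rfl⟩) (Subgroup.map_subtype_le H)
    rcases h1 with h1 | h1
    · left
      exact (Subgroup.map_eq_bot_iff_of_injective _ N.subtype_injective).mp h1
    · right
      rw [eq_top_iff]
      intro x _
      have hx : (x : X) ∈ H.map N.subtype := by rw [h1]; exact x.2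
      obtain ⟨y, hy, hyx⟩ := hx
      have : y = x := Subtype.ext hyx
      rwa [← this]
  · intro hc
    exact hNs (Group.isSolvable_of_comm (fun a b => hc.is_comm.comm a b))
  · intro M hM hM1
    rcases hN.min (N ⊓ M) (fun n _ t ht => ⟨hNn.conj_mem t ht.1 n, hM.conj_mem t ht.2 n⟩) inf_le_left with h1 | h1
    · exfalso
      obtain ⟨c, hc, hc1⟩ := H21.exists_ne_one hM1
      obtain ⟨p, k, hp, hpk⟩ := exists_prime_orderOf hc1
      have hck : c ^ k ∈ M := M.pow_mem hc k
      apply hNp p hp
      apply isPGroup_of_comm h hp hpk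
      intro a ha
      exact H22.commute_of_inf_eq_bot (N := ⊤) le_top le_top (fun n _ t ht => hNn.conj_mem t ht n)
        (fun n _ t ht => hM.conj_mem t ht n) h1 a ha _ hck
    · rw [← h1]
      exact inf_le_right

theorem part1 {G : Type u} [Group G] [Finite G] (hns : ¬ Group.IsSolvable G)
    (h : ∀ g : G, IsPrimePow (orderOf g) ∨ g = 1)
    (R : Subgroup G) [R.Normal] (hRs : Group.IsSolvable ↥R) : ∃ p : ℕ, p.Prime ∧ IsPGroup p ↥R := by
  by_cases hR1 : R = ⊥
  · exact ⟨2, Nat.prime_two, by rw [hR1]; exact IsPGroup.of_bot⟩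
  have hnt : Nontrivial R := (Subgroup.nontrivial_iff_ne_bot R).mpr hR1
  obtain ⟨p, M₀, hp, hM₀c, hM₀1, -, hM₀p⟩ := H1.exists_pgroup_characteristic_of_solvable R hRs
  refine ⟨p, hp, ?_⟩
  by_contra hRp
  have := Fact.mk hp
  set M : Subgroup G := M₀.map R.subtype with hM
  have hMn : M.Normal := inferInstance
  have hMp : IsPGroup p M := hM₀p.map _
  have hM1 : M ≠ ⊥ := fun e => hM₀1 ((Subgroup.map_eq_bot_iff_of_injective _ R.subtype_injective).1 e)
  -- a second prime
  obtain ⟨q, hq, hqp, hqR⟩ : ∃ q, q.Prime ∧ q ≠ p ∧ q ∣ Nat.card R := by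
    by_contra hc
    push Not at hc
    apply hRp
    have h1 := Nat.eq_prime_pow_of_unique_prime_dvd (n := Nat.card R) (p := p) Nat.card_pos.ne'
      (fun {d} hd hdR => by
        by_contra hdp
        exact hc d hd hdp hdR)
    exact IsPGroup.of_card h1
  have := Fact.mk hq
  obtain ⟨Q⟩ := (inferInstance : Nonempty (Sylow q R))
  set Q' : Subgroup G := (Q : Subgroup R).map R.subtype with hQ'
  have hfr := Sylow.normalizer_sup_eq_top Q
  set N : Subgroup G := Subgroup.normalizer (Q' : Set G) with hN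
  have hQN : Q' ≤ N := Subgroup.le_normalizer
  have hNns : ¬ Group.IsSolvable N := by
    intro hs
    apply hns
    have h1 : Group.IsSolvable (R ⊔ N : Subgroup G) := H10.sup_isSolvable hRs hs
    have h2 : (R ⊔ N : Subgroup G) = ⊤ := by
      rw [sup_comm]
      exact hfr
    rw [h2] at h1
    exact Group.isSolvable_of_surjective (f := (Subgroup.topEquiv (G := G)).toMonoidHom) (Subgroup.topEquiv).surjective
  obtain ⟨r, hr, hrp, hrq, hrN⟩ : ∃ r, r.Prime ∧ r ≠ p ∧ r ≠ q ∧ r ∣ Nat.card N := by
    by_contra hc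
    push Not at hc
    apply hNns
    refine H3.burnside_paqb p q hp hq _ N rfl ?_
    intro r hr hrN
    by_contra hr2
    push Not at hr2
    exact hc r hr hr2.1 hr2.2 hrN
  have := Fact.mk hr
  obtain ⟨x, hx⟩ := exists_prime_orderOf_dvd_card' r hrN
  have hxo : orderOf (x : G) = r := by rw [Subgroup.orderOf_coe, hx]
  set K : Subgroup G := M ⊔ (Q' ⊔ Subgroup.zpowers (x : G)) with hK
  have hKs : Group.IsSolvable K := by
    apply H10.sup_isSolvable
    · have : Group.IsNilpotent M := hMp.isNilpotent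
      infer_instance
    · apply H10.isSolvable_sup' (K := N) hQN ((Subgroup.zpowers_le).mpr x.2) le_rfl
      · have hQp : IsPGroup q Q' := Q.2.map _
        have : Group.IsNilpotent Q' := hQp.isNilpotent
        infer_instance
      · infer_instance
  have hKpp : ∀ g : K, IsPrimePow (orderOf g) ∨ g = 1 := by
    intro g
    rcases h g with h1 | h1
    · left; rwa [Subgroup.orderOf_coe] at h1
    · right; exact Subtype.ext h1
  have h3 := S1475.result (G := K) hKpp
  have hpK : p ∣ Nat.card K := by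
    have h4 : p ∣ Nat.card M := by
      obtain ⟨n, hn⟩ := IsPGroup.iff_card.mp hMp
      rw [hn]
      apply dvd_pow_self
      rintro rfl
      rw [pow_zero] at hn
      exact hM1 (Subgroup.card_eq_one.mp hn)
    exact h4.trans (Subgroup.card_dvd_of_le le_sup_left)
  have hqK : q ∣ Nat.card K := by
    have h4 : q ∣ Nat.card Q' := by
      have h5 : Nat.card Q' = Nat.card (Q : Subgroup R) :=
        Nat.card_congr ((Q : Subgroup R).equivMapOfInjective R.subtype R.subtype_injective).symm.toEquiv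
      rw [h5]
      exact Q.dvd_card_of_dvd_card hqR
    exact h4.trans (Subgroup.card_dvd_of_le (le_sup_left.trans le_sup_right))
  have hrK : r ∣ Nat.card K := by
    have h4 : r ∣ Nat.card (Subgroup.zpowers (x : G)) := by rw [Nat.card_zpowers, hxo]
    exact h4.trans (Subgroup.card_dvd_of_le (le_sup_right.trans le_sup_right))
  have h6 : ({p, q, r} : Finset ℕ) ⊆ (Nat.card K).primeFactors := by
    intro s hs
    simp only [Finset.mem_insert, Finset.mem_singleton] at hs
    rcases hs with rfl | rfl | rfl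
    · exact Nat.mem_primeFactors.mpr ⟨hp, hpK, Nat.card_pos.ne'⟩
    · exact Nat.mem_primeFactors.mpr ⟨hq, hqK, Nat.card_pos.ne'⟩
    · exact Nat.mem_primeFactors.mpr ⟨hr, hrK, Nat.card_pos.ne'⟩
  have h7 := Finset.card_le_card h6
  have h8 : ({p, q, r} : Finset ℕ).card = 3 := Finset.card_eq_three.mpr ⟨p, q, r, hqp.symm, hrp.symm, hrq.symm, rfl⟩
  omega

/-- Let G be a finite non-solvable group in which every element has prime-power order, and let R be its largest solvable normal subgroup. Then R is a p-group for some prime p; G/R has a non-abelian simple normal subgroup contained in every nontrivial normal subgroup of G/R (its unique minimal normal subgroup); and the order of every solvable subgroup of G has at most two prime divisors. -/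
theorem result {G : Type*} [Group G] [Finite G] (hns : ¬ Group.IsSolvable G) (hpp : ∀ g : G, g ≠ 1 → IsPrimePow (orderOf g))
    (R : Subgroup G) [R.Normal] (hRs : Group.IsSolvable ↥R) (hRmax : ∀ N : Subgroup G, N.Normal → Group.IsSolvable ↥N → N ≤ R) :
    (∃ p : ℕ, p.Prime ∧ IsPGroup p ↥R) ∧
      (∃ M : Subgroup (G ⧸ R), M.Normal ∧ IsSimpleGroup ↥M ∧ ¬ IsMulCommutative ↥M ∧
        ∀ N : Subgroup (G ⧸ R), N.Normal → N ≠ ⊥ → M ≤ N) ∧
      ∀ H : Subgroup G, Group.IsSolvable ↥H → (Nat.card ↥H).primeFactors.card ≤ 2 := by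
  have h : ∀ g : G, IsPrimePow (orderOf g) ∨ g = 1 := by
    intro g
    by_cases hg : g = 1
    · exact Or.inr hg
    · exact Or.inl (hpp g hg)
  refine ⟨part1 hns h R hRs, ?_, ?_⟩
  · have hnt : Nontrivial (G ⧸ R) := by
      by_contra hc
      rw [not_nontrivial_iff_subsingleton] at hc
      apply hns
      exact Group.isSolvable_of_ker_le_range R.subtype (QuotientGroup.mk' R) (by simp)
    refine part2 ?_ ?_
    · intro g
      by_cases hg : g = 1
      · exact Or.inr hg
      left
      obtain ⟨x, rfl⟩ := QuotientGroup.mk_surjective g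
      have hx : x ≠ 1 := by
        rintro rfl
        exact hg rfl
      have h1 := hpp x hx
      have h2 : orderOf (x : G ⧸ R) ∣ orderOf x := orderOf_map_dvd (QuotientGroup.mk' R) x
      obtain ⟨r, k, hr, hk, hrk⟩ := h1
      have hr' : r.Prime := Nat.prime_iff.2 hr
      rw [← hrk] at h2
      obtain ⟨j, hj, hj2⟩ := (Nat.dvd_prime_pow hr').mp h2
      rw [hj2]
      refine IsPrimePow.pow hr'.isPrimePow ?_
      rintro rfl
      rw [pow_zero] at hj2
      exact hg (orderOf_eq_one_iff.mp hj2)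
    · intro N hN hNs
      have h1 : (N.comap (QuotientGroup.mk' R)).Normal := inferInstance
      have h2 : Group.IsSolvable (N.comap (QuotientGroup.mk' R)) := by
        have hle : R ≤ N.comap (QuotientGroup.mk' R) := by
          intro x hx
          rw [Subgroup.mem_comap]
          have : QuotientGroup.mk' R x = 1 := (QuotientGroup.eq_one_iff x).2 hx
          rw [this]
          exact N.one_mem
        let f : N.comap (QuotientGroup.mk' R) →* N := (QuotientGroup.mk' R).subgroupComap N
        refine Group.isSolvable_of_ker_le_range (Subgroup.inclusion hle) f ?_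
        intro x hx
        have h3 : (QuotientGroup.mk' R (x : G)) = 1 := congrArg Subtype.val (MonoidHom.mem_ker.mp hx)
        exact ⟨⟨x, (QuotientGroup.eq_one_iff _).mp h3⟩, rfl⟩
      have h3 := hRmax _ h1 h2
      rw [eq_bot_iff]
      intro y hy
      obtain ⟨x, rfl⟩ := QuotientGroup.mk'_surjective R y
      have h4 : x ∈ R := h3 hy
      rw [Subgroup.mem_bot]
      exact (QuotientGroup.eq_one_iff x).2 h4
  · intro H hH
    apply S1475.result (G := H)
    intro g
    rcases h g with h1 | h1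
    · left; rwa [Subgroup.orderOf_coe] at h1
    · right; exact Subtype.ext h1

end Cfsg.Agent.S3992
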