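import Cfsg.Statements.S3994
import Cfsg.Agent.H24.Frobenius

set_option autoImplicit false
open Cfsg

namespace Cfsg.Agent.S3994

/-- Let G be a finite group and n a positive integer. The number of elements of G whose order is divisible by n is either 0 or divisible by the largest divisor of the order of G that is coprime to n. -/
theorem result {G : Type*} [Group G] [Finite G] (n : ℕ) (hn : 0 < n) :
    Nat.card {g : G // n ∣ orderOf g} = 0 ∨
      (Nat.card G / Nat.gcd (Nat.card G) (n ^ Nat.card G)) ∣ Nat.card {g : G // n ∣ orderOf g} := by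
  right
  classical
  have hG0 : Nat.card G ≠ 0 := Nat.card_pos.ne'
  set gg := Nat.gcd (Nat.card G) (n ^ Nat.card G) with hgg
  have hggd : gg ∣ Nat.card G := Nat.gcd_dvd_left _ _
  have hgg0 : gg ≠ 0 := fun h => hG0 (Nat.eq_zero_of_zero_dvd (h ▸ hggd))
  rw [Nat.dvd_iff_prime_pow_dvd_dvd]
  intro q k hq hqk
  have hfq : Fact q.Prime := ⟨hq⟩
  have hD0 : Nat.card G / gg ≠ 0 := (Nat.div_pos (Nat.le_of_dvd Nat.card_pos hggd)
    (Nat.pos_of_ne_zero hgg0)).ne'
  have hk : k ≤ (Nat.card G / gg).factorization q := (hq.pow_dvd_iff_le_factorization hD0).1 hqk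
  rw [Nat.factorization_div hggd] at hk
  by_cases hqn : q ∣ n
  · have h1 : q ^ (Nat.card G).factorization q ∣ gg := by
      apply Nat.dvd_gcd (Nat.ordProj_dvd _ _)
      have h2 : (Nat.card G).factorization q ≤ Nat.card G := by
        exact (Nat.factorization_lt q hG0).le
      exact (pow_dvd_pow q h2).trans (pow_dvd_pow_of_dvd hqn _)
    have h3 := (hq.pow_dvd_iff_le_factorization hgg0).1 h1
    have h4 : k = 0 := by
      simp only [Finsupp.coe_tsub, Pi.sub_apply] at hk
      omega
    rw [h4, pow_zero]; exact one_dvd _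
  · have h1 : k ≤ (Nat.card G).factorization q := by
      simp only [Finsupp.coe_tsub, Pi.sub_apply] at hk
      omega
    refine (pow_dvd_pow q h1).trans ?_
    refine Cfsg.Agent.H24.dvd_card_of_pCount q (fun o => n ∣ o) _ ?_
    intro v hv
    set C := Subgroup.centralizer ({v} : Set G) with hC
    by_cases hnv : n ∣ orderOf v
    · have h2 : Cfsg.Agent.H24.pCount q (fun o => n ∣ o) v =
          Nat.card {u : C // ∃ k : ℕ, orderOf u = q ^ k} := by
        unfold Cfsg.Agent.H24.pCount
        refine Nat.card_congr (Equiv.subtypeEquivRight ?_)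
        intro u
        exact ⟨fun h => h.1, fun h => ⟨h, hnv.mul_left _⟩⟩
      rw [h2]
      have hGc : Nat.card G = C.index * Nat.card C := by rw [mul_comm, Subgroup.card_mul_index]
      have hC0 : Nat.card C ≠ 0 := Nat.card_pos.ne'
      have hI0 : C.index ≠ 0 := Subgroup.index_ne_zero_of_finite
      rw [hGc, Nat.factorization_mul hI0 hC0]
      simp only [Finsupp.coe_add, Pi.add_apply, pow_add]
      exact Nat.mul_dvd_mul (Nat.ordProj_dvd _ _) (Cfsg.Agent.H24.ordProj_dvd_card_pElt q)
    · have h2 : Cfsg.Agent.H24.pCount q (fun o => n ∣ o) v = 0 := by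
        unfold Cfsg.Agent.H24.pCount
        rw [Nat.card_eq_zero]
        left
        refine ⟨?_⟩
        rintro ⟨u, ⟨j, hj⟩, hd⟩
        apply hnv
        have h3 : n ∣ orderOf u * orderOf v := hd
        rw [hj] at h3
        refine Nat.Coprime.dvd_of_dvd_mul_left ?_ h3
        exact Nat.Coprime.pow_right _ ((Nat.Prime.coprime_iff_not_dvd hq).2 hqn).symm
      rw [h2]; simp

end Cfsg.Agent.S3994
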