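import Cfsg.Statements.S3995
import Cfsg.Agent.H24.Frobenius
import Cfsg.Agent.H23.RankOne

set_option autoImplicit false
set_option linter.all false
open Cfsg

namespace Cfsg.Agent.S3995

noncomputable def sc (G : Type*) [Group G] (m : ℕ) : ℕ := Nat.card {g : G // orderOf g = m}

theorem sc_sum {G : Type*} [Group G] [Finite G] (m : ℕ) (hm0 : m ≠ 0) :
    Nat.card {g : G // g ^ m = 1} = ∑ d ∈ m.divisors, sc G d := by
  classical
  haveI : Fintype G := Fintype.ofFinite G
  have h1 : Nat.card {g : G // g ^ m = 1} = (Finset.univ.filter (fun g : G => g ^ m = 1)).card := by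
    rw [Nat.card_eq_fintype_card, Fintype.card_subtype]
  rw [h1, Finset.card_eq_sum_card_fiberwise (f := fun g : G => orderOf g) (t := m.divisors)]
  · refine Finset.sum_congr rfl fun d hd => ?_
    rw [sc, Nat.card_eq_fintype_card, Fintype.card_subtype]
    congr 1
    ext g
    simp only [Finset.mem_filter, Finset.mem_univ, true_and, and_iff_right_iff_imp]
    intro hg
    rw [← orderOf_dvd_iff_pow_eq_one, hg]
    exact Nat.dvd_of_mem_divisors hd
  · intro g hg
    simp only [Finset.coe_filter, Finset.mem_univ, true_and, Set.mem_setOf_eq] at hg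
    rw [Finset.mem_coe, Nat.mem_divisors]
    exact ⟨orderOf_dvd_of_pow_eq_one hg, hm0⟩

theorem sc_dvd {G : Type*} [Group G] [Finite G] (m : ℕ) (hm : m ∣ Nat.card G) :
    m ∣ ∑ d ∈ m.divisors, sc G d := by
  have hm0 : m ≠ 0 := fun h => Nat.card_pos.ne' (Nat.eq_zero_of_zero_dvd (h ▸ hm))
  rw [← sc_sum m hm0]
  exact Cfsg.Agent.H24.frobenius_dvd m hm

theorem sc_one {G : Type*} [Group G] [Finite G] : sc G 1 = 1 := by
  rw [sc, Nat.card_eq_one_iff_unique]
  exact ⟨⟨fun a b => Subtype.ext ((orderOf_eq_one_iff.1 a.2).trans (orderOf_eq_one_iff.1 b.2).symm)⟩, ⟨⟨1, orderOf_one⟩⟩⟩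

theorem sc_ne_zero {G : Type*} [Group G] [Finite G] {x : G} : sc G (orderOf x) ≠ 0 := by
  rw [sc, ← Nat.pos_iff_ne_zero, Nat.card_pos_iff]
  exact ⟨⟨⟨x, rfl⟩⟩, inferInstance⟩

theorem sc_ne_one {G : Type*} [Group G] [Finite G] {m : ℕ} (hm : 3 ≤ m) : sc G m ≠ 1 := by
  intro h
  rw [sc, Nat.card_eq_one_iff_unique] at h
  obtain ⟨⟨h1⟩, ⟨⟨x, hx⟩⟩⟩ := h
  have h2 := h1 ⟨x, hx⟩ ⟨x⁻¹, by rw [orderOf_inv, hx]⟩
  have h3 : x = x⁻¹ := congrArg Subtype.val h2
  have h4 : x ^ 2 = 1 := by rw [pow_two]; nth_rw 2 [h3]; exact mul_inv_cancel x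
  have h5 := Nat.le_of_dvd (by norm_num) (orderOf_dvd_of_pow_eq_one h4)
  omega

theorem sc_eq_zero_or {G : Type*} [Group G] [Finite G] {n : ℕ}
    (h : ((fun m : ℕ => Nat.card {g : G // orderOf g = m}) '' Set.range (orderOf : G → ℕ)) = {1, n}) (m : ℕ) :
    (sc G m = 0 ∧ ∀ x : G, orderOf x ≠ m) ∨ sc G m = 1 ∨ sc G m = n := by
  by_cases hx : ∃ x : G, orderOf x = m
  · obtain ⟨x, rfl⟩ := hx
    right
    have : sc G (orderOf x) ∈ ({1, n} : Set ℕ) := by
      rw [← h]; exact ⟨orderOf x, ⟨x, rfl⟩, rfl⟩
    exact this
  · left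
    push Not at hx
    refine ⟨?_, hx⟩
    rw [sc, Nat.card_eq_zero]
    left
    exact ⟨fun a => hx a a.2⟩

theorem arith {p n k : ℕ} (hp : p.Prime) (hp2 : p ≠ 2) (h1 : p ∣ 1 + n) (h2 : p ∣ k) 
    (h : k = 1 + 2 * n ∨ k = 1 + 3 * n ∨ k = 2 + 3 * n ∨ k = 2 + 4 * n) : False := by
  have hp3 : 3 ≤ p := by have := hp.two_le; omega
  have hz1 : (p : ℤ) ∣ 1 + n := by exact_mod_cast h1
  have hz2 : (p : ℤ) ∣ k := by exact_mod_cast h2
  have key : (p : ℤ) ∣ 2 := by
    rcases h with h | h | h | h
    · subst h
      push_cast at hz2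
      have := dvd_sub (hz1.mul_left 4) (hz2.mul_left 2)
      have e : (4 : ℤ) * (1 + n) - 2 * (1 + 2 * n) = 2 := by ring
      rwa [e] at this
    · subst h
      push_cast at hz2
      have := dvd_sub (hz1.mul_left 3) hz2
      have e : (3 : ℤ) * (1 + n) - (1 + 3 * n) = 2 := by ring
      rwa [e] at this
    · subst h
      push_cast at hz2
      have := dvd_sub (hz1.mul_left 6) (hz2.mul_left 2)
      have e : (6 : ℤ) * (1 + n) - 2 * (2 + 3 * n) = 2 := by ring
      rwa [e] at this
    · subst h
      push_cast at hz2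
      have := dvd_sub (hz1.mul_left 4) hz2
      have e : (4 : ℤ) * (1 + n) - (2 + 4 * n) = 2 := by ring
      rwa [e] at this
  have := Int.le_of_dvd (by norm_num) key
  omega

theorem prod_iso {G : Type*} [Group G] [Finite G] (P : Subgroup G) (z : G) (hz2 : z * z = 1)
    (hzc : ∀ g : G, g * z = z * g) (hzP : z ∉ P) (hc : Nat.card G = 2 * Nat.card P) :
    Nonempty (G ≃* Multiplicative (ZMod 2) × P) := by
  classical
  let f : Multiplicative (ZMod 2) →* G :=
    { toFun := fun a => z ^ (Multiplicative.toAdd a).val
      map_one' := by simp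
      map_mul' := by
        intro a b
        rw [← pow_add]
        show z ^ (Multiplicative.toAdd a + Multiplicative.toAdd b).val = _
        rw [ZMod.val_add]
        have h2 : z ^ 2 = 1 := by rw [pow_two]; exact hz2
        exact (pow_eq_pow_mod _ h2).symm }
  have hcomm : ∀ (a : Multiplicative (ZMod 2)) (x : P), Commute (f a) (P.subtype x) := by
    intro a x
    exact (show Commute z (x : G) from (hzc x).symm).pow_left _
  let F := MonoidHom.noncommCoprod f P.subtype hcomm
  have hinj : Function.Injective F := by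
    rw [injective_iff_map_eq_one]
    rintro ⟨a, x⟩ hax
    have h1 : z ^ (Multiplicative.toAdd a).val * (x : G) = 1 := hax
    have h2 : (Multiplicative.toAdd a).val < 2 := ZMod.val_lt _
    have h3 : (Multiplicative.toAdd a).val = 0 := by
      by_contra h
      have h4 : (Multiplicative.toAdd a).val = 1 := by omega
      rw [h4, pow_one] at h1
      apply hzP
      rw [mul_eq_one_iff_eq_inv] at h1
      rw [h1]; exact inv_mem x.2
    rw [h3, pow_zero, one_mul] at h1
    have h4 : Multiplicative.toAdd a = 0 := (ZMod.val_eq_zero _).1 h3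
    ext1
    · exact h4
    · exact Subtype.ext h1
  have hcard : Nat.card (Multiplicative (ZMod 2) × P) = Nat.card G := by
    rw [Nat.card_prod, hc]
    congr 1
    rw [Nat.card_congr Multiplicative.toAdd, Nat.card_eq_fintype_card, ZMod.card]
  have hbij : Function.Bijective F := (Nat.bijective_iff_injective_and_card F).2 ⟨hinj, hcard⟩
  exact ⟨(MulEquiv.ofBijective F hbij).symm⟩

/-- Let G be a finite group such that the numbers of elements of each order that occurs in G (the numbers #{g : o(g) = m}, m ranging over the element orders of G) take exactly two values, 1 and some n ≠ 1. Then either G is a p-group of exponent p and order at least 3 for some prime p, or G is the quaternion group of order 8, or G is cyclic of order 4, or G ≅ Z₂ × P for a p-group P of exponent p with p an odd prime. -/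
theorem result {G : Type*} [Group G] [Finite G] (n : ℕ) (hn : n ≠ 1) (h : ((fun m : ℕ => Nat.card {g : G // orderOf g = m}) '' Set.range (orderOf : G → ℕ)) = {1, n}) :
    (∃ p : ℕ, p.Prime ∧ IsPGroup p G ∧ 3 ≤ Nat.card G ∧ Monoid.exponent G = p) ∨
      Nonempty (G ≃* QuaternionGroup 2) ∨ (IsCyclic G ∧ Nat.card G = 4) ∨
      (∃ (p : ℕ) (P : Type) (_ : Group P) (_ : Finite P), p.Prime ∧ p ≠ 2 ∧ IsPGroup p P ∧ Monoid.exponent P = p ∧
        Nonempty (G ≃* Multiplicative (ZMod 2) × P)) := by
  classical
  haveI : Fact (Nat.Prime 2) := ⟨Nat.prime_two⟩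
  have hval := sc_eq_zero_or h
  have hsn : ∀ m, 3 ≤ m → (∃ x : G, orderOf x = m) → sc G m = n := by
    rintro m hm ⟨x, rfl⟩
    rcases hval (orderOf x) with ⟨h1, h2⟩ | h1 | h1
    · exact absurd rfl (h2 x)
    · exact absurd h1 (sc_ne_one hm)
    · exact h1
  have hsz : ∀ m, (¬ ∃ x : G, orderOf x = m) → sc G m = 0 := by
    intro m hm
    rcases hval m with ⟨h1, -⟩ | h1 | h1
    · exact h1
    all_goals
      rw [sc, Nat.card_eq_zero]
      left
      exact ⟨fun a => hm ⟨a, a.2⟩⟩
  have hcauchy : ∀ q : ℕ, q.Prime → q ∣ Nat.card G → ∃ x : G, orderOf x = q := by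
    intro q hq hqd
    haveI : Fact q.Prime := ⟨hq⟩
    exact exists_prime_orderOf_dvd_card' q hqd
  have hndvd : ∀ m, (∃ x : G, orderOf x = m) → m ∣ Nat.card G := by
    rintro m ⟨x, rfl⟩; exact orderOf_dvd_natCard x
  by_cases hodd : ∃ p : ℕ, p.Prime ∧ p ≠ 2 ∧ p ∣ Nat.card G
  · obtain ⟨p, hp, hp2, hpd⟩ := hodd
    haveI : Fact p.Prime := ⟨hp⟩
    have hp3 : 3 ≤ p := by have := hp.two_le; omega
    have hn1 : ∀ q : ℕ, q.Prime → q ≠ 2 → q ∣ Nat.card G → sc G q = n ∧ q ∣ 1 + n := by
      intro q hq hq2 hqd
      have hq3 : 3 ≤ q := by have := hq.two_le; omega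
      have h1 := hsn q hq3 (hcauchy q hq hqd)
      refine ⟨h1, ?_⟩
      have h2 := sc_dvd (G := G) q hqd
      rw [Nat.Prime.sum_divisors hq, sc_one, h1, add_comm] at h2
      exact h2
    obtain ⟨hsp, hpn⟩ := hn1 p hp hp2 hpd
    -- no element of order p^2
    have hpsq : ∀ x : G, orderOf x ≠ p ^ 2 := by
      intro x hx
      have h1 := hndvd _ ⟨x, hx⟩
      have h2 := sc_dvd (G := G) (p ^ 2) h1
      rw [Nat.divisors_prime_pow hp, Finset.sum_map] at h2
      simp only [Function.Embedding.coeFn_mk, Finset.sum_range_succ, Finset.sum_range_zero, pow_zero, pow_one, zero_add] at h2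
      rw [sc_one, hsp, hsn (p ^ 2) (by nlinarith) ⟨x, hx⟩] at h2
      exact arith hp hp2 hpn ((dvd_pow_self p two_ne_zero).trans h2) (Or.inl (by ring))
    have hexp : ∀ x : G, (∃ k, orderOf x = p ^ k) → x ^ p = 1 := by
      rintro x ⟨k, hk⟩
      rw [← orderOf_dvd_iff_pow_eq_one, hk]
      rcases Nat.lt_or_ge k 2 with h2 | h2
      · calc p ^ k ∣ p ^ 1 := pow_dvd_pow p (by omega)
          _ = p := pow_one p
      · exfalso
        apply hpsq (x ^ (p ^ (k - 2)))
        rw [orderOf_pow_of_dvd (pow_pos hp.pos _).ne' (by rw [hk]; exact pow_dvd_pow p (by omega)), hk,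
          Nat.pow_div (by omega) hp.pos]
        congr 1; omega
    have huniq : ∀ q : ℕ, q.Prime → q ≠ 2 → q ∣ Nat.card G → q = p := by
      intro q hq hq2 hqd
      by_contra hne
      obtain ⟨hsq, hqn⟩ := hn1 q hq hq2 hqd
      have hcop : Nat.Coprime p q := (Nat.coprime_primes hp hq).2 (Ne.symm hne)
      have h2 := sc_dvd (G := G) (p * q) (hcop.mul_dvd_of_dvd_of_dvd hpd hqd)
      have hdiv : (p * q).divisors = {1, p, q, p * q} := by
        rw [Nat.divisors_mul, hp.divisors, hq.divisors]
        ext x
        simp only [Finset.mem_mul, Finset.mem_insert, Finset.mem_singleton]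
        constructor
        · rintro ⟨a, ha | ha, b, hb | hb, rfl⟩ <;> subst ha <;> subst hb <;> simp
        · rintro (rfl | rfl | rfl | rfl)
          · exact ⟨1, Or.inl rfl, 1, Or.inl rfl, by ring⟩
          · exact ⟨x, Or.inr rfl, 1, Or.inl rfl, by ring⟩
          · exact ⟨1, Or.inl rfl, x, Or.inr rfl, by ring⟩
          · exact ⟨p, Or.inr rfl, q, Or.inr rfl, rfl⟩
      have hp1 : 1 < p := hp.one_lt
      have hq1 : 1 < q := hq.one_lt
      have e1 : (1 : ℕ) ∉ ({p, q, p * q} : Finset ℕ) := by
        simp only [Finset.mem_insert, Finset.mem_singleton]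
        rintro (h | h | h)
        · omega
        · omega
        · nlinarith
      have e2 : p ∉ ({q, p * q} : Finset ℕ) := by
        simp only [Finset.mem_insert, Finset.mem_singleton]
        rintro (h | h)
        · exact hne h.symm
        · nlinarith
      have e3 : q ∉ ({p * q} : Finset ℕ) := by
        simp only [Finset.mem_singleton]
        intro h
        nlinarith
      rw [hdiv, Finset.sum_insert e1, Finset.sum_insert e2, Finset.sum_insert e3, Finset.sum_singleton,
        sc_one, hsp, hsq] at h2
      have h3 := (dvd_mul_right p q).trans h2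
      by_cases hx : ∃ x : G, orderOf x = p * q
      · rw [hsn (p * q) (by nlinarith) hx] at h3
        exact arith hp hp2 hpn h3 (Or.inr (Or.inl (by ring)))
      · rw [hsz _ hx] at h3
        exact arith hp hp2 hpn h3 (Or.inl (by ring))
    by_cases h2d : 2 ∣ Nat.card G
    · right; right; right
      have hcop2 : Nat.Coprime 2 p := (Nat.coprime_primes Nat.prime_two hp).2 (Ne.symm hp2)
      have hinv := hcauchy 2 Nat.prime_two h2d
      have hs2 : sc G 2 = 1 := by
        have h2 := sc_dvd (G := G) (2 * p) (hcop2.mul_dvd_of_dvd_of_dvd h2d hpd)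
        have hdiv : (2 * p).divisors = {1, 2, p, 2 * p} := by
          rw [Nat.divisors_mul, Nat.prime_two.divisors, hp.divisors]
          ext x
          simp only [Finset.mem_mul, Finset.mem_insert, Finset.mem_singleton]
          constructor
          · rintro ⟨a, ha | ha, b, hb | hb, rfl⟩ <;> subst ha <;> subst hb <;> simp
          · rintro (rfl | rfl | rfl | rfl)
            · exact ⟨1, Or.inl rfl, 1, Or.inl rfl, by ring⟩
            · exact ⟨2, Or.inr rfl, 1, Or.inl rfl, by ring⟩
            · exact ⟨1, Or.inl rfl, x, Or.inr rfl, by ring⟩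
            · exact ⟨2, Or.inr rfl, p, Or.inr rfl, rfl⟩
        have e1 : (1 : ℕ) ∉ ({2, p, 2 * p} : Finset ℕ) := by
          simp only [Finset.mem_insert, Finset.mem_singleton]; omega
        have e2 : 2 ∉ ({p, 2 * p} : Finset ℕ) := by
          simp only [Finset.mem_insert, Finset.mem_singleton]; omega
        have e3 : p ∉ ({2 * p} : Finset ℕ) := by
          simp only [Finset.mem_singleton]; omega
        rw [hdiv, Finset.sum_insert e1, Finset.sum_insert e2, Finset.sum_insert e3, Finset.sum_singleton,
          sc_one, hsp] at h2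
        have h3 := (dvd_mul_left p 2).trans h2
        rcases hval 2 with ⟨h4, h5⟩ | h4 | h4
        · obtain ⟨x, hx⟩ := hinv
          exact absurd hx (h5 x)
        · exact h4
        · exfalso
          rw [h4] at h3
          by_cases hx : ∃ x : G, orderOf x = 2 * p
          · rw [hsn (2 * p) (by omega) hx] at h3
            exact arith hp hp2 hpn h3 (Or.inr (Or.inl (by ring)))
          · rw [hsz _ hx] at h3
            exact arith hp hp2 hpn h3 (Or.inl (by ring))
      have hs2p : sc G (2 * p) = n := by
        have h2 := sc_dvd (G := G) (2 * p) (hcop2.mul_dvd_of_dvd_of_dvd h2d hpd)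
        have hdiv : (2 * p).divisors = {1, 2, p, 2 * p} := by
          rw [Nat.divisors_mul, Nat.prime_two.divisors, hp.divisors]
          ext x
          simp only [Finset.mem_mul, Finset.mem_insert, Finset.mem_singleton]
          constructor
          · rintro ⟨a, ha | ha, b, hb | hb, rfl⟩ <;> subst ha <;> subst hb <;> simp
          · rintro (rfl | rfl | rfl | rfl)
            · exact ⟨1, Or.inl rfl, 1, Or.inl rfl, by ring⟩
            · exact ⟨2, Or.inr rfl, 1, Or.inl rfl, by ring⟩
            · exact ⟨1, Or.inl rfl, x, Or.inr rfl, by ring⟩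
            · exact ⟨2, Or.inr rfl, p, Or.inr rfl, rfl⟩
        have e1 : (1 : ℕ) ∉ ({2, p, 2 * p} : Finset ℕ) := by
          simp only [Finset.mem_insert, Finset.mem_singleton]; omega
        have e2 : 2 ∉ ({p, 2 * p} : Finset ℕ) := by
          simp only [Finset.mem_insert, Finset.mem_singleton]; omega
        have e3 : p ∉ ({2 * p} : Finset ℕ) := by
          simp only [Finset.mem_singleton]; omega
        rw [hdiv, Finset.sum_insert e1, Finset.sum_insert e2, Finset.sum_insert e3, Finset.sum_singleton,
          sc_one, hsp, hs2] at h2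
        have h3 := (dvd_mul_left p 2).trans h2
        by_cases hx : ∃ x : G, orderOf x = 2 * p
        · exact hsn (2 * p) (by omega) hx
        · exfalso
          rw [hsz _ hx] at h3
          have h4 : (p : ℤ) ∣ 1 := by
            have hz1 : (p : ℤ) ∣ 1 + n := by exact_mod_cast hpn
            have hz2 : (p : ℤ) ∣ 1 + (1 + (n + 0)) := by exact_mod_cast h3
            have := dvd_sub hz2 hz1
            have e : (1 + (1 + ((n : ℤ) + 0))) - (1 + n) = 1 := by ring
            rwa [e] at this
          have := Int.le_of_dvd (by norm_num) h4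
          omega
      have hno4 : ∀ x : G, orderOf x ≠ 4 := by
        intro x hx
        have h4d := hndvd 4 ⟨x, hx⟩
        have hcop4 : Nat.Coprime 4 p := by
          have : (4 : ℕ) = 2 ^ 2 := rfl
          rw [this]; exact hcop2.pow_left 2
        have h2 := sc_dvd (G := G) (4 * p) (hcop4.mul_dvd_of_dvd_of_dvd h4d hpd)
        have hdiv : (4 * p).divisors = {1, 2, 4, p, 2 * p, 4 * p} := by
          rw [Nat.divisors_mul, hp.divisors, show Nat.divisors 4 = {1, 2, 4} by decide]
          ext x
          simp only [Finset.mem_mul, Finset.mem_insert, Finset.mem_singleton]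
          constructor
          · rintro ⟨a, ha | ha | ha, b, hb | hb, rfl⟩ <;> subst ha <;> subst hb <;> simp
          · rintro (rfl | rfl | rfl | rfl | rfl | rfl)
            · exact ⟨1, Or.inl rfl, 1, Or.inl rfl, by ring⟩
            · exact ⟨2, Or.inr (Or.inl rfl), 1, Or.inl rfl, by ring⟩
            · exact ⟨4, Or.inr (Or.inr rfl), 1, Or.inl rfl, by ring⟩
            · exact ⟨1, Or.inl rfl, x, Or.inr rfl, by ring⟩
            · exact ⟨2, Or.inr (Or.inl rfl), p, Or.inr rfl, rfl⟩
            · exact ⟨4, Or.inr (Or.inr rfl), p, Or.inr rfl, rfl⟩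
        have hpo : p ≠ 4 := by rintro rfl; norm_num at hp
        have e1 : (1 : ℕ) ∉ ({2, 4, p, 2 * p, 4 * p} : Finset ℕ) := by
          simp only [Finset.mem_insert, Finset.mem_singleton]; omega
        have e2 : 2 ∉ ({4, p, 2 * p, 4 * p} : Finset ℕ) := by
          simp only [Finset.mem_insert, Finset.mem_singleton]; omega
        have e3 : 4 ∉ ({p, 2 * p, 4 * p} : Finset ℕ) := by
          simp only [Finset.mem_insert, Finset.mem_singleton]; omega
        have e4 : p ∉ ({2 * p, 4 * p} : Finset ℕ) := by
          simp only [Finset.mem_insert, Finset.mem_singleton]; omega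
        have e5 : 2 * p ∉ ({4 * p} : Finset ℕ) := by
          simp only [Finset.mem_singleton]; omega
        rw [hdiv, Finset.sum_insert e1, Finset.sum_insert e2, Finset.sum_insert e3, Finset.sum_insert e4,
          Finset.sum_insert e5, Finset.sum_singleton,
          sc_one, hsp, hs2, hs2p, hsn 4 (by norm_num) ⟨x, hx⟩] at h2
        have h3 := (dvd_mul_left p 4).trans h2
        by_cases hx : ∃ x : G, orderOf x = 4 * p
        · rw [hsn (4 * p) (by omega) hx] at h3
          exact arith hp hp2 hpn h3 (Or.inr (Or.inr (Or.inr (by ring))))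
        · rw [hsz _ hx] at h3
          exact arith hp hp2 hpn h3 (Or.inr (Or.inr (Or.inl (by ring))))
      -- unique involution
      obtain ⟨z, hz⟩ := hinv
      have hzu : ∀ x : G, orderOf x = 2 → x = z := by
        intro x hx
        rw [sc, Nat.card_eq_one_iff_unique] at hs2
        obtain ⟨⟨h1⟩, -⟩ := hs2
        exact congrArg Subtype.val (h1 ⟨x, hx⟩ ⟨z, hz⟩)
      have hzc : ∀ g : G, g * z = z * g := by
        intro g
        have h1 : g * z * g⁻¹ = z := by
          apply hzu
          have e2 : g * z * g⁻¹ = MulAut.conj g z := by simp [MulAut.conj_apply]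
          rw [e2, MulEquiv.orderOf_eq, hz]
        calc g * z = (g * z * g⁻¹) * g := by group
          _ = z * g := by rw [h1]
      obtain ⟨P⟩ : Nonempty (Sylow p G) := inferInstance
      obtain ⟨S⟩ : Nonempty (Sylow 2 G) := inferInstance
      have hScard : Nat.card S = 2 := by
        have h1 : (S : Subgroup G) ≤ Subgroup.zpowers z := by
          intro x hx
          obtain ⟨k, hk⟩ := IsPGroup.iff_orderOf.1 S.2 ⟨x, hx⟩
          rw [Subgroup.orderOf_mk] at hk
          rcases Nat.lt_or_ge k 2 with h2 | h2
          · interval_cases k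
            · rw [pow_zero, orderOf_eq_one_iff] at hk; rw [hk]; exact one_mem _
            · rw [pow_one] at hk; rw [hzu x hk]; exact Subgroup.mem_zpowers z
          · exfalso
            apply hno4 (x ^ (2 ^ (k - 2)))
            rw [orderOf_pow_of_dvd (pow_pos (by norm_num) _).ne' (by rw [hk]; exact pow_dvd_pow 2 (by omega)), hk,
              Nat.pow_div (by omega) (by norm_num)]
            have : k - (k - 2) = 2 := by omega
            rw [this]
        have h2 := Subgroup.card_dvd_of_le h1
        rw [Nat.card_zpowers, hz] at h2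
        refine Nat.dvd_antisymm h2 ?_
        rw [S.card_eq_multiplicity]
        exact dvd_pow_self 2 ((Nat.prime_two.factorization_pos_of_dvd Nat.card_pos.ne' h2d).ne')
      have hcardG : Nat.card G = 2 * Nat.card P := by
        have h1 : (Nat.card G).primeFactors ⊆ {2, p} := by
          intro q hq
          have hqp := Nat.prime_of_mem_primeFactors hq
          have hqd := Nat.dvd_of_mem_primeFactors hq
          simp only [Finset.mem_insert, Finset.mem_singleton]
          by_cases hq2 : q = 2
          · exact Or.inl hq2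
          · exact Or.inr (huniq q hqp hq2 hqd)
        have h2 := Nat.prod_factorization_pow_eq_self (n := Nat.card G) Nat.card_pos.ne'
        rw [Finsupp.prod_of_support_subset _ (s := {2, p}) (by rw [Nat.support_factorization]; exact h1) _ (by simp)] at h2
        rw [Finset.prod_pair (Ne.symm hp2)] at h2
        rw [← h2, P.card_eq_multiplicity, ← S.card_eq_multiplicity, hScard]
      -- the product
      have hzP : z ∉ (P : Subgroup G) := by
        intro hzP
        obtain ⟨k, hk⟩ := IsPGroup.iff_orderOf.1 P.2 ⟨z, hzP⟩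
        rw [Subgroup.orderOf_mk, hz] at hk
        have h1 : 2 ∣ p ^ k := by rw [← hk]
        exact hp2 ((Nat.prime_dvd_prime_iff_eq Nat.prime_two hp).1 (Nat.prime_two.dvd_of_dvd_pow h1)).symm
      have hz2 : z * z = 1 := by rw [← pow_two, ← hz, pow_orderOf_eq_one]
      obtain ⟨e⟩ := prod_iso (P : Subgroup G) z hz2 hzc hzP hcardG
      have es : Shrink.{0} (P : Subgroup G) ≃* (P : Subgroup G) := Shrink.mulEquiv
      refine ⟨p, Shrink.{0} (P : Subgroup G), inferInstance, inferInstance, hp, hp2, ?_, ?_, ?_⟩
      · exact P.2.of_equiv es.symm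
      · rw [Monoid.exponent_eq_of_mulEquiv es]
        have h5 : Monoid.exponent (P : Subgroup G) ∣ p := by
          apply Monoid.exponent_dvd_of_forall_pow_eq_one
          intro x
          apply Subtype.ext
          refine hexp x ?_
          obtain ⟨k, hk⟩ := IsPGroup.iff_orderOf.1 P.2 x
          exact ⟨k, by rw [Subgroup.orderOf_coe]; exact hk⟩
        rcases (Nat.dvd_prime hp).1 h5 with h6 | h6
        · exfalso
          have h7 : Nat.card (P : Subgroup G) = 1 := by
            have : Subsingleton (P : Subgroup G) := Monoid.exp_eq_one_iff.1 h6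
            exact Nat.card_eq_one_iff_unique.2 ⟨this, ⟨1⟩⟩
          have h8 : p ∣ Nat.card (P : Subgroup G) := by
            have h9 : Nat.card (P : Subgroup G) = p ^ (Nat.card G).factorization p := P.card_eq_multiplicity
            rw [h9]
            exact dvd_pow_self p ((hp.factorization_pos_of_dvd Nat.card_pos.ne' hpd).ne')
          rw [h7] at h8
          exact hp.one_lt.ne' (Nat.dvd_one.1 h8)
        · exact h6
      · exact ⟨e.trans ((MulEquiv.refl _).prodCongr es.symm)⟩
    · left
      have hpG : IsPGroup p G := by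
        rw [IsPGroup.iff_card]
        refine ⟨(Nat.card G).factorization p, ?_⟩
        have h1 : (Nat.card G).primeFactors ⊆ {p} := by
          intro q hq
          have hqp := Nat.prime_of_mem_primeFactors hq
          have hqd := Nat.dvd_of_mem_primeFactors hq
          rw [Finset.mem_singleton]
          exact huniq q hqp (fun h => h2d (h ▸ hqd)) hqd
        have h2 := Nat.prod_factorization_pow_eq_self (n := Nat.card G) Nat.card_pos.ne'
        rw [Finsupp.prod_of_support_subset _ (s := {p}) (by rw [Nat.support_factorization]; exact h1) _ (by simp),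
          Finset.prod_singleton] at h2
        exact h2.symm
      refine ⟨p, hp, hpG, hp3.trans (Nat.le_of_dvd Nat.card_pos hpd), ?_⟩
      have h5 : Monoid.exponent G ∣ p := by
        apply Monoid.exponent_dvd_of_forall_pow_eq_one
        intro x
        exact hexp x (IsPGroup.iff_orderOf.1 hpG x)
      rcases (Nat.dvd_prime hp).1 h5 with h6 | h6
      · exfalso
        have h7 : Nat.card G = 1 := by
          have : Subsingleton G := Monoid.exp_eq_one_iff.1 h6
          exact Nat.card_eq_one_iff_unique.2 ⟨this, ⟨1⟩⟩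
        rw [h7] at hpd
        exact hp.one_lt.ne' (Nat.dvd_one.1 hpd)
      · exact h6
  · -- 2-group
    push Not at hodd
    have h2G : IsPGroup 2 G := by
      rw [IsPGroup.iff_card]
      refine ⟨(Nat.card G).factorization 2, ?_⟩
      have h1 : (Nat.card G).primeFactors ⊆ {2} := by
        intro q hq
        have hqp := Nat.prime_of_mem_primeFactors hq
        have hqd := Nat.dvd_of_mem_primeFactors hq
        rw [Finset.mem_singleton]
        by_contra hne
        exact hodd q hqp hne hqd
      have h2 := Nat.prod_factorization_pow_eq_self (n := Nat.card G) Nat.card_pos.ne'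
      rw [Finsupp.prod_of_support_subset _ (s := {2}) (by rw [Nat.support_factorization]; exact h1) _ (by simp),
        Finset.prod_singleton] at h2
      exact h2.symm
    -- `n` is attained
    obtain ⟨m, ⟨x, hx⟩, hm⟩ : n ∈ ((fun m : ℕ => Nat.card {g : G // orderOf g = m}) '' Set.range (orderOf : G → ℕ)) := by
      rw [h]; simp
    have hm' : sc G m = n := hm
    have hm1 : m ≠ 1 := by
      rintro rfl
      rw [sc_one] at hm'
      exact hn hm'.symm
    have hx1 : x ≠ 1 := by
      rintro rfl
      rw [orderOf_one] at hx; exact hm1 hx.symm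
    have h2d : 2 ∣ Nat.card G := by
      obtain ⟨k, hk⟩ := IsPGroup.iff_orderOf.1 h2G x
      have hk0 : k ≠ 0 := by
        rintro rfl
        rw [pow_zero, orderOf_eq_one_iff] at hk; exact hx1 hk
      exact (dvd_pow_self 2 hk0).trans (hk ▸ orderOf_dvd_natCard x)
    have hinv := hcauchy 2 Nat.prime_two h2d
    by_cases h4 : ∃ x : G, orderOf x = 4
    · right
      have hs4 := hsn 4 (by norm_num) h4
      have d2 := sc_dvd (G := G) 2 h2d
      rw [Nat.prime_two.sum_divisors, sc_one] at d2
      have d4 := sc_dvd (G := G) 4 (hndvd 4 h4)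
      rw [show Nat.divisors 4 = {1, 2, 4} by decide, Finset.sum_insert (by decide), Finset.sum_insert (by decide),
        Finset.sum_singleton, sc_one, hs4] at d4
      have hs2 : sc G 2 = 1 := by
        rcases hval 2 with ⟨h5, h6⟩ | h5 | h5
        · obtain ⟨x, hx⟩ := hinv
          exact absurd hx (h6 x)
        · exact h5
        · exfalso
          rw [h5] at d4
          omega
      rw [hs2] at d4
      have hno8 : ∀ x : G, orderOf x ≠ 8 := by
        intro x hx
        have d8 := sc_dvd (G := G) 8 (hndvd 8 ⟨x, hx⟩)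
        rw [show Nat.divisors 8 = {1, 2, 4, 8} by decide, Finset.sum_insert (by decide), Finset.sum_insert (by decide),
          Finset.sum_insert (by decide), Finset.sum_singleton, sc_one, hs4, hs2, hsn 8 (by norm_num) ⟨x, hx⟩] at d8
        omega
      obtain ⟨z, hz⟩ := hinv
      have hzu : ∀ x : G, orderOf x = 2 → x = z := by
        intro x hx
        rw [sc, Nat.card_eq_one_iff_unique] at hs2
        obtain ⟨⟨h1⟩, -⟩ := hs2
        exact congrArg Subtype.val (h1 ⟨x, hx⟩ ⟨z, hz⟩)
      have hpow8 : ∀ (x : G) (k : ℕ), orderOf x = 2 ^ k → k ≤ 2 := by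
        intro x k hk
        by_contra hcon
        apply hno8 (x ^ (2 ^ (k - 3)))
        rw [orderOf_pow_of_dvd (pow_pos (by norm_num) _).ne' (by rw [hk]; exact pow_dvd_pow 2 (by omega)), hk,
          Nat.pow_div (by omega) (by norm_num)]
        have : k - (k - 3) = 3 := by omega
        rw [this]
      rcases Cfsg.Agent.H23.cyclic_or_quaternion h2G (fun x y hx hy => by
        rw [hzu x hx, hzu y hy]; exact Subgroup.mem_zpowers z) with hc | ⟨-, k, hk, ⟨e⟩⟩
      · right; left
        refine ⟨hc, ?_⟩
        obtain ⟨g, hg⟩ := IsCyclic.exists_ofOrder_eq_natCard (α := G)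
        obtain ⟨k, hk⟩ := IsPGroup.iff_orderOf.1 h2G g
        have h5 := hpow8 g k hk
        obtain ⟨w, hw⟩ := h4
        have h6 : 4 ∣ Nat.card G := by rw [← hw]; exact orderOf_dvd_natCard w
        rw [← hg, hk] at h6 ⊢
        interval_cases k
        · norm_num at h6
        · norm_num at h6
        · norm_num
      · left
        haveI : NeZero (2 ^ k) := ⟨by positivity⟩
        have h5 : orderOf (e.symm (QuaternionGroup.a 1)) = 2 ^ (k + 1) := by
          rw [MulEquiv.orderOf_eq, QuaternionGroup.orderOf_a_one]; ring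
        have h6 := hpow8 _ _ h5
        have h7 : k = 1 := by omega
        subst h7
        exact ⟨e⟩
    · left
      have hexp2 : ∀ x : G, x ^ 2 = 1 := by
        intro x
        obtain ⟨k, hk⟩ := IsPGroup.iff_orderOf.1 h2G x
        rw [← orderOf_dvd_iff_pow_eq_one, hk]
        rcases Nat.lt_or_ge k 2 with h2 | h2
        · calc 2 ^ k ∣ 2 ^ 1 := pow_dvd_pow 2 (by omega)
            _ = 2 := pow_one 2
        · exfalso
          apply h4
          refine ⟨x ^ (2 ^ (k - 2)), ?_⟩
          rw [orderOf_pow_of_dvd (pow_pos (by norm_num) _).ne' (by rw [hk]; exact pow_dvd_pow 2 (by omega)), hk,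
            Nat.pow_div (by omega) (by norm_num)]
          have : k - (k - 2) = 2 := by omega
          rw [this]
      refine ⟨2, Nat.prime_two, h2G, ?_, ?_⟩
      · -- card ≥ 3
        have h5 : m = 2 := by
          have h6 := orderOf_dvd_of_pow_eq_one (hexp2 x)
          rw [hx] at h6
          rcases (Nat.dvd_prime Nat.prime_two).1 h6 with h7 | h7
          · exact absurd h7 hm1
          · exact h7
        subst h5
        by_contra hcon
        have h7 : Nat.card G = 2 := by
          have := Nat.le_of_dvd Nat.card_pos h2d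
          omega
        apply hn
        rw [← hm', sc, Nat.card_eq_one_iff_unique]
        refine ⟨⟨fun a b => ?_⟩, ⟨⟨x, hx⟩⟩⟩
        -- cyclic of order two
        have hcyc := isCyclic_of_prime_card (p := 2) h7
        apply Subtype.ext
        have h8 : Subgroup.zpowers (a : G) = Subgroup.zpowers (b : G) := by
          have e1 : Subgroup.zpowers (a : G) = ⊤ := Subgroup.eq_top_of_card_eq _ (by rw [Nat.card_zpowers, a.2, h7])
          have e2 : Subgroup.zpowers (b : G) = ⊤ := Subgroup.eq_top_of_card_eq _ (by rw [Nat.card_zpowers, b.2, h7])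
          rw [e1, e2]
        have h9 : (a : G) ∈ Subgroup.zpowers (b : G) := by rw [← h8]; exact Subgroup.mem_zpowers _
        obtain ⟨j, hj⟩ := Subgroup.mem_zpowers_iff.1 h9
        have hb2 : (b : G) ^ (2 : ℤ) = 1 := by
          have := hexp2 (b : G); exact_mod_cast this
        rcases Int.even_or_odd j with ⟨i, hi⟩ | ⟨i, hi⟩
        · exfalso
          rw [hi, ← two_mul, zpow_mul, hb2, one_zpow] at hj
          have := a.2
          rw [← hj, orderOf_one] at this
          omega
        · rw [hi, zpow_add, zpow_mul, hb2, one_zpow, one_mul, zpow_one] at hj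
          exact hj.symm
      · have h5 : Monoid.exponent G ∣ 2 := Monoid.exponent_dvd_of_forall_pow_eq_one hexp2
        rcases (Nat.dvd_prime Nat.prime_two).1 h5 with h6 | h6
        · exfalso
          have h7 : Nat.card G = 1 := by
            have : Subsingleton G := Monoid.exp_eq_one_iff.1 h6
            exact Nat.card_eq_one_iff_unique.2 ⟨this, ⟨1⟩⟩
          rw [h7] at h2d
          norm_num at h2d
        · exact h6

end Cfsg.Agent.S3995
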