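import Cfsg.Statements.S3997
import Mathlib
import Cfsg.Agent.H1.Cores
import Cfsg.Agent.H24.OrderType

set_option autoImplicit false
open Cfsg

namespace Cfsg.Agent.S3997

/-- Let G and H be finite groups with the same order type: for every m they have the same number of elements of order m. If G is nilpotent then so is H. -/
theorem result {G H : Type*} [Group G] [Finite G] [Group H] [Finite H] (hT : (∀ m : ℕ, Nat.card {g : G // orderOf g = m} = Nat.card {h : H // orderOf h = m})) (hG : Group.IsNilpotent G) :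
    Group.IsNilpotent H := by
  classical
  obtain ⟨f, hf⟩ := Cfsg.Agent.H24.exists_equiv_orderOf hT
  have hcard : Nat.card G = Nat.card H := Nat.card_congr f
  rw [Cfsg.Agent.H1.isNilpotent_iff_sylow_normal] at hG ⊢
  intro p hp P
  obtain ⟨Q⟩ : Nonempty (Sylow p G) := inferInstance
  have hQ := hG p hp Q
  have hpp := hp.out
  -- elements of `p`-power order of `G` are in `Q`
  have h1 : {g : G | ∃ k : ℕ, orderOf g = p ^ k} = (Q : Set G) := by
    ext g
    constructor
    · rintro ⟨k, hk⟩
      have h2 : IsPGroup p (Subgroup.zpowers g) := by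
        apply IsPGroup.of_card (n := k)
        rw [Nat.card_zpowers, hk]
      obtain ⟨R, hR⟩ := h2.exists_le_sylow
      have : R = Q := by
        have := Sylow.unique_of_normal Q hQ
        exact Subsingleton.elim _ _
      rw [this] at hR
      exact hR (Subgroup.mem_zpowers g)
    · intro hg
      obtain ⟨k, hk⟩ := (IsPGroup.iff_orderOf.1 Q.isPGroup') ⟨g, hg⟩
      exact ⟨k, by rw [← hk, Subgroup.orderOf_mk]⟩
  have h2 : Nat.card {h : H // ∃ k : ℕ, orderOf h = p ^ k} = Nat.card P := by
    rw [← Cfsg.Agent.H24.card_subtype_of_orderOf_equiv f hf (fun n => ∃ k : ℕ, n = p ^ k)]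
    have h3 : Nat.card {g : G // ∃ k : ℕ, orderOf g = p ^ k} = Nat.card Q := by
      have := congrArg Set.ncard h1
      rw [← Nat.card_coe_set_eq, ← Nat.card_coe_set_eq] at this
      exact this
    rw [h3]
    have h4 := Q.card_eq_multiplicity
    have h5 := P.card_eq_multiplicity
    rw [h4, h5, hcard]
  have hPsub : (P : Set H) ⊆ {h : H | ∃ k : ℕ, orderOf h = p ^ k} := by
    intro g hg
    obtain ⟨k, hk⟩ := (IsPGroup.iff_orderOf.1 P.isPGroup') ⟨g, hg⟩
    exact ⟨k, by rw [← hk, Subgroup.orderOf_mk]⟩
  have h6 : (P : Set H) = {h : H | ∃ k : ℕ, orderOf h = p ^ k} := by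
    apply Set.eq_of_subset_of_ncard_le hPsub _ (Set.toFinite _)
    rw [← Nat.card_coe_set_eq, ← Nat.card_coe_set_eq]
    exact h2.le
  constructor
  intro n hn g
  have h7 : g * n * g⁻¹ ∈ (P : Set H) := by
    rw [h6]
    have h7 : orderOf (g * n * g⁻¹) = orderOf n := by
      have := MulEquiv.orderOf_eq (MulAut.conj g) n
      simpa using this
    show ∃ k : ℕ, orderOf (g * n * g⁻¹) = p ^ k
    rw [h7]
    have : n ∈ (P : Set H) := hn
    rw [h6] at this
    exact this
  exact h7

end Cfsg.Agent.S3997
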