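import Cfsg.Statements.S3999
import Cfsg.Agent.H24.OrderType4

set_option autoImplicit false
open Cfsg

namespace Cfsg.Agent.S3999

open Subgroup Cfsg.Agent.H24
open scoped Pointwise

universe u v

/-- data for a group with a normal solvable Hall subgroup -/
theorem orderType_quot {F : Type u} {G : Type v} [Group F] [Finite F] [Group G] [Finite G]
    (f : F ≃ G) (hf : ∀ x, orderOf (f x) = orderOf x) (K : Subgroup F) [K.Normal] (N : Subgroup G)
    [N.Normal] (hKN : Nat.card K = Nat.card N) (hK : (Nat.card K).Coprime K.index)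
    (hN : (Nat.card N).Coprime N.index) :
    ∃ e : (F ⧸ K) ≃ (G ⧸ N), ∀ x, orderOf (e x) = orderOf x := by
  apply exists_equiv_orderOf
  intro m
  have h1 := card_preimage_quotient K (fun x => orderOf x = m)
  have h2 := card_preimage_quotient N (fun x => orderOf x = m)
  have h3 : Nat.card {g : F // orderOf (QuotientGroup.mk g : F ⧸ K) = m} =
      Nat.card {g : G // orderOf (QuotientGroup.mk g : G ⧸ N) = m} := by
    simp only [orderOf_mk_hall K hK, orderOf_mk_hall N hN]
    rw [hKN]
    exact card_subtype_of_orderOf_equiv f hf (fun n => n / Nat.gcd n (Nat.card N) = m)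
  rw [h1, h2, hKN] at h3
  exact Nat.eq_of_mul_eq_mul_left Nat.card_pos h3

theorem solv_transfer {F : Type u} {G : Type v} [Group F] [Finite F] [Group G] [Finite G]
    (e : F ≃ G) (he : ∀ x, orderOf (e x) = orderOf x) (hF : Group.IsSolvable F) (hcl : Cl5 F) :
    Group.IsSolvable G :=
  TC5.isSolvable (TC5.of_equiv e he (Cl5.tc5 _ F rfl hF hcl))

theorem cl5_congr {A : Type u} {B : Type v} [Group A] [Group B] (e : A ≃* B) (h : Cl5 A) : Cl5 B := by
  intro s hs Q hQ
  have hQ' : IsPGroup s (Q.comap e.toMonoidHom) := by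
    intro x
    obtain ⟨k, hk⟩ := hQ ⟨e x, x.2⟩
    refine ⟨k, ?_⟩
    apply Subtype.ext
    apply e.injective
    have h3 : (e x) ^ s ^ k = 1 := congrArg Subtype.val hk
    show e ((x : A) ^ s ^ k) = e 1
    rw [map_pow, h3, map_one]
  obtain ⟨h1, x, y, hxy⟩ := h s hs _ hQ'
  have hmap : (Q.comap e.toMonoidHom).map e.toMonoidHom = Q :=
    Subgroup.map_comap_eq_self_of_surjective e.surjective Q
  refine ⟨fun hs2 => ?_, ?_⟩
  · obtain ⟨z, hz⟩ := h1 hs2
    refine ⟨e z, ?_⟩
    rw [← hmap, hz, MonoidHom.map_zpowers]; rfl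
  · refine ⟨e x, e y, ?_⟩
    rw [← hmap, hxy, MonoidHom.map_closure, Set.image_pair]; rfl

/-- Let F be a finite Frobenius group (it has a Frobenius complement) and G a finite group with the same order type as F (for every m the same number of elements of order m). Then G is a Frobenius group; moreover G is solvable if and only if F is. -/
theorem result {F G : Type*} [Group F] [Finite F] [Group G] [Finite G] (hF : (∃ C : Subgroup F, Cfsg.IsFrobeniusComplement C)) (hT : (∀ m : ℕ, Nat.card {g : F // orderOf g = m} = Nat.card {h : G // orderOf h = m})) :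
    (∃ C : Subgroup G, Cfsg.IsFrobeniusComplement C) ∧ (Group.IsSolvable G ↔ Group.IsSolvable F) := by
  obtain ⟨C, hC⟩ := hF
  obtain ⟨f, hf⟩ := exists_equiv_orderOf hT
  obtain ⟨K, hK1, hK2, hK3⟩ := H25.frobenius_kernel hC
  haveI := hK2
  have hKnil : Group.IsNilpotent K := by
    obtain ⟨K', h1, h2, h3⟩ := H20.Fpf.frobenius_nilpotent hC
    have : K' = K := SetLike.coe_injective (h1.trans hK1.symm)
    rwa [this] at h3
  have hcardK : Nat.card K = C.index := by
    rw [← H1.frob_card_kernel hC, ← hK1]; rfl
  have hKidx : K.index = Nat.card C := hK3.symm.index_eq_card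
  have hKcop : (Nat.card K).Coprime K.index := by
    rw [hcardK, hKidx]
    exact (H1.frob_coprime hC).symm
  have hcard : Nat.card F = Nat.card G := Nat.card_congr f
  have hKdvd : Nat.card K ∣ Nat.card G := hcard ▸ Subgroup.card_subgroup_dvd_card K
  have hdiv : Nat.card G / Nat.card K = K.index := by
    rw [← hcard, ← Subgroup.card_mul_index K, Nat.mul_div_cancel_left _ Nat.card_pos]
  -- normal Sylow subgroups of `G`
  have hSyl : ∀ s : ℕ, s.Prime → s ∣ Nat.card K → ∃ S : Sylow s G, (S : Subgroup G).Normal := by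
    intro s hs hsk
    haveI : Fact s.Prime := ⟨hs⟩
    obtain ⟨P0⟩ : Nonempty (Sylow s K) := inferInstance
    have hP0n := sylow_of_nilpotent_normal hKnil P0
    haveI hchar : (P0 : Subgroup K).Characteristic := Sylow.characteristic_of_normal P0 hP0n
    have hPn : ((P0 : Subgroup K).map K.subtype).Normal :=
      ConjAct.normal_of_characteristic_of_normal
    have hPp : IsPGroup s ((P0 : Subgroup K).map K.subtype) := P0.isPGroup'.map _
    have hidx : ¬ s ∣ ((P0 : Subgroup K).map K.subtype).index := by
      rw [Subgroup.index_map_subtype]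
      intro h
      rcases (Nat.Prime.dvd_mul hs).1 h with h | h
      · exact P0.not_dvd_index h
      · have h2 := Nat.dvd_gcd hsk h
        rw [hKcop] at h2
        exact hs.one_lt.ne' (Nat.dvd_one.1 h2)
    let SF : Sylow s F := hPp.toSylow hidx
    have hSF : (SF : Subgroup F).Normal := hPn
    obtain ⟨S⟩ : Nonempty (Sylow s G) := inferInstance
    refine ⟨S, sylow_normal_of_count S ?_⟩
    rw [← card_subtype_of_orderOf_equiv f hf (fun n => ∃ j, n = s ^ j), count_of_sylow_normal SF hSF,
      SF.card_eq_multiplicity, S.card_eq_multiplicity, hcard]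
  obtain ⟨N, hN, hNc, hNs⟩ := exists_normal_hall (Nat.card K) hKdvd (by rw [hdiv]; exact hKcop) hSyl
  haveI := hN
  have hNidx : N.index = K.index := by
    have h1 := Subgroup.card_mul_index N
    have h2 := Subgroup.card_mul_index K
    rw [hNc] at h1
    rw [hcard, ← h1] at h2
    exact (Nat.eq_of_mul_eq_mul_left Nat.card_pos h2).symm
  have hNcop : (Nat.card N).Coprime N.index := by rw [hNc, hNidx]; exact hKcop
  obtain ⟨D, hD⟩ := Subgroup.exists_right_complement'_of_coprime hNcop
  have hDc : Nat.card D = K.index := by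
    rw [← hNidx]; exact hD.symm.index_eq_card.symm
  have hKb : Nat.card K ≠ 1 := by
    rw [hcardK]
    intro h
    exact hC.2.1 (Subgroup.index_eq_one.1 h)
  have hCb : K.index ≠ 1 := by
    rw [hKidx]
    intro h
    exact hC.1 (Subgroup.card_eq_one.1 h)
  have hfrob : IsFrobeniusComplement D := by
    refine (H1.frob_criterion (K := N) hD.disjoint.eq_bot hD.sup_eq_top ?_ ?_ ?_).1
    · intro h
      rw [h, Subgroup.card_bot] at hNc
      exact hKb hNc.symm
    · intro h
      rw [h, Subgroup.card_bot] at hDc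
      exact hCb hDc.symm
    · intro x hx hx1 k hk hxk
      by_contra hk1
      obtain ⟨r, hr, hrx⟩ := Nat.exists_prime_and_dvd
        (fun h => hx1 (orderOf_eq_one_iff.1 h) : orderOf x ≠ 1)
      obtain ⟨s, hs, hsk⟩ := Nat.exists_prime_and_dvd
        (fun h => hk1 (orderOf_eq_one_iff.1 h) : orderOf k ≠ 1)
      have hrD : r ∣ K.index := by
        rw [← hDc]; exact hrx.trans (Subgroup.orderOf_dvd_natCard D hx)
      have hsN : s ∣ Nat.card K := by
        rw [← hNc]; exact hsk.trans (Subgroup.orderOf_dvd_natCard N hk)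
      have hrs : r ≠ s := by
        rintro rfl
        have h2 := Nat.dvd_gcd hsN hrD
        rw [hKcop] at h2
        exact hs.one_lt.ne' (Nat.dvd_one.1 h2)
      have hx' : orderOf (x ^ (orderOf x / r)) = r := orderOf_pow_orderOf_div (orderOf_pos x).ne' hrx
      have hk' : orderOf (k ^ (orderOf k / s)) = s := orderOf_pow_orderOf_div (orderOf_pos k).ne' hsk
      have hcomm : Commute (x ^ (orderOf x / r)) (k ^ (orderOf k / s)) := hxk.pow_pow _ _
      have hord := hcomm.orderOf_mul_eq_mul_orderOf_of_coprime (by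
        rw [hx', hk']; exact (Nat.coprime_primes hr hs).2 hrs)
      rw [hx', hk'] at hord
      set w := f.symm (x ^ (orderOf x / r) * k ^ (orderOf k / s)) with hw
      have hwo : orderOf w = r * s := by
        rw [← hf w, hw, f.apply_symm_apply, hord]
      -- `u = w ^ r` has order `s`, `v = w ^ s` has order `r`
      have hu : orderOf (w ^ r) = s := by
        rw [orderOf_pow_of_dvd hr.pos.ne' (by rw [hwo]; exact dvd_mul_right r s), hwo,
          Nat.mul_div_cancel_left _ hr.pos]
      have hv : orderOf (w ^ s) = r := by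
        rw [orderOf_pow_of_dvd hs.pos.ne' (by rw [hwo]; exact dvd_mul_left s r), hwo,
          Nat.mul_div_cancel _ hs.pos]
      have huK : w ^ r ∈ K := by
        rw [← QuotientGroup.eq_one_iff, ← orderOf_eq_one_iff]
        have h1 : orderOf (QuotientGroup.mk (w ^ r) : F ⧸ K) ∣ s := by
          rw [← hu]; exact orderOf_map_dvd (QuotientGroup.mk' K) _
        have h2 : orderOf (QuotientGroup.mk (w ^ r) : F ⧸ K) ∣ K.index := by
          rw [Subgroup.index_eq_card]; exact orderOf_dvd_natCard _
        have h3 := Nat.dvd_gcd (h1.trans hsN) h2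
        rw [hKcop] at h3
        exact Nat.dvd_one.1 h3
      have hvK : w ^ s ∉ K := by
        intro h
        have h1 := Subgroup.orderOf_dvd_natCard K h
        rw [hv] at h1
        have h3 := Nat.dvd_gcd h1 hrD
        rw [hKcop] at h3
        exact hr.one_lt.ne' (Nat.dvd_one.1 h3)
      have hvk : w ^ s ∉ (frobeniusKernel C) := by
        rw [← hK1]; exact hvK
      have hvk' : ¬ (w ^ s = 1 ∨ ∀ g : F, w ^ s ∉ MulAut.conj g • C) := hvk
      push Not at hvk'
      obtain ⟨hv1, g, hg⟩ := hvk'
      have h1 := H1.frob_centralizer_le (H1.frob_conj hC g) hg hv1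
      have h2 : w ^ r ∈ centralizer ({w ^ s} : Set F) := by
        rw [mem_centralizer_singleton_iff]
        exact ((Commute.refl w).pow_pow r s).eq
      have h3 := h1 h2
      have h4 : w ^ r ∈ frobeniusKernel C := by rw [← hK1]; exact huK
      rcases (h4 : w ^ r = 1 ∨ ∀ g : F, w ^ r ∉ MulAut.conj g • C) with h5 | h5
      · rw [h5, orderOf_one] at hu
        exact hs.one_lt.ne hu
      · exact h5 g h3
  refine ⟨⟨D, hfrob⟩, ?_⟩
  obtain ⟨e, he⟩ := orderType_quot f hf K N hNc.symm hKcop hNcop
  have hclF : Cl5 (F ⧸ K) := cl5_congr (hK3.symm.QuotientMulEquiv).symm (cl5_of_frob hC)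
  have hclG : Cl5 (G ⧸ N) := cl5_congr (hD.symm.QuotientMulEquiv).symm (cl5_of_frob hfrob)
  constructor
  · intro hG
    haveI := hG
    have h1 : Group.IsSolvable (F ⧸ K) := solv_transfer e.symm (fun x => by
      rw [← he (e.symm x), e.apply_symm_apply]) inferInstance hclG
    rw [Group.isSolvable_iff_subgroup_quotient K]
    refine ⟨?_, h1⟩
    haveI := hKnil
    infer_instance
  · intro hF
    haveI := hF
    have h1 : Group.IsSolvable (G ⧸ N) := solv_transfer e he inferInstance hclF
    rw [Group.isSolvable_iff_subgroup_quotient N]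
    exact ⟨hNs, h1⟩

end Cfsg.Agent.S3999
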