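import Cfsg.Statements.S4001
import Cfsg.Agent.H18.TwoFrob2

set_option autoImplicit false
open Cfsg
open Subgroup Cfsg.Agent.H18 Cfsg.Agent.H18.TwoFrob

namespace Cfsg.Agent.S4001

universe u

section
variable {G : Type u} [Group G] [Finite G] {H K : Subgroup G} [hHn : H.Normal] [hKn : K.Normal]

theorem mem_K (h : Data H K) {p : ℕ} (hp : p.Prime) {x : G} (hx : orderOf x = p) (hpm : p ∣ H.relIndex K) :
    x ∈ K := by
  have h1 : orderOf (QuotientGroup.mk' K x) ∣ p := by rw [← hx]; exact orderOf_map_dvd _ x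
  have h2 : orderOf (QuotientGroup.mk' K x) ∣ K.index := orderOf_dvd_natCard _
  have h3 : orderOf (QuotientGroup.mk' K x) = 1 :=
    Nat.eq_one_of_dvd_coprimes h.copG (h1.trans hpm) h2
  rw [orderOf_eq_one_iff] at h3
  exact (QuotientGroup.eq_one_iff (N := K) x).1 h3

theorem mem_H (h : Data H K) {p : ℕ} (hp : p.Prime) {x : G} (hx : orderOf x = p) (hpm : ¬ p ∣ H.relIndex K)
    (hxK : x ∈ K) : x ∈ H := by
  have h1 : orderOf (QuotientGroup.mk' (H.subgroupOf K) ⟨x, hxK⟩) ∣ p := by
    rw [← hx, ← Subgroup.orderOf_mk x hxK]; exact orderOf_map_dvd _ _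
  have h2 : orderOf (QuotientGroup.mk' (H.subgroupOf K) ⟨x, hxK⟩) ∣ H.relIndex K := orderOf_dvd_natCard _
  rcases (Nat.dvd_prime hp).1 h1 with h3 | h3
  · rw [orderOf_eq_one_iff] at h3
    exact (QuotientGroup.eq_one_iff (N := H.subgroupOf K) _).1 h3
  · rw [h3] at h2
    exact absurd h2 hpm

theorem not_mem_H (h : Data H K) {p : ℕ} (hp : p.Prime) {x : G} (hx : orderOf x = p) (hpm : p ∣ H.relIndex K) :
    x ∉ H := by
  intro hxH
  have h1 : orderOf x ∣ Nat.card H := by
    rw [← Subgroup.orderOf_mk x hxH]; exact orderOf_dvd_natCard _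
  rw [hx] at h1
  have := Nat.eq_one_of_dvd_coprimes h.copH hpm h1
  exact hp.one_lt.ne' this

theorem fwd (h : Data H K) {p q : ℕ} (hp : p.Prime) (hq : q.Prime) {g : G} (hg : orderOf g = p * q)
    (hpm : p ∣ H.relIndex K) : q ∣ H.relIndex K := by
  by_contra hqm
  have hx : orderOf (g ^ q) = p := by
    rw [orderOf_pow_of_dvd hq.pos.ne' (by rw [hg]; exact dvd_mul_left q p), hg, Nat.mul_div_cancel _ hq.pos]
  have hy : orderOf (g ^ p) = q := by
    rw [orderOf_pow_of_dvd hp.pos.ne' (by rw [hg]; exact dvd_mul_right p q), hg, Nat.mul_div_cancel_left _ hp.pos]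
  have hcomm : g ^ q * g ^ p = g ^ p * g ^ q := by rw [← pow_add, ← pow_add, add_comm]
  have hxK := mem_K h hp hx hpm
  have hxH := not_mem_H h hp hx hpm
  have hyK : g ^ p ∈ K := by
    by_contra hyK
    exact h.F2 _ _ hxK hxH hyK hcomm
  have hyH := mem_H h hq hy hqm hyK
  have hy1 : g ^ p ≠ 1 := by
    intro h1
    rw [h1, orderOf_one] at hy
    exact hq.one_lt.ne hy
  exact h.F1 _ _ hyH hy1 hxK hxH hcomm.symm

set_option maxHeartbeats 1000000 in
/-- the mixed case -/
theorem mixed (h : Data H K) {p q : ℕ} (hp : p.Prime) (hq : q.Prime) (hpq : p ≠ q) (hpH : p ∣ Nat.card H)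
    (hqG : q ∣ K.index) (hpm : ¬ p ∣ H.relIndex K) (hqm : ¬ q ∣ H.relIndex K) : ∃ g : G, orderOf g = p * q := by
  haveI : Fact p.Prime := ⟨hp⟩
  haveI : Fact q.Prime := ⟨hq⟩
  obtain ⟨z, hz, hzp⟩ := exists_central_prime h.nilH hpH
  obtain ⟨A, hA⟩ : ∃ A, A = omegaP p H := ⟨_, rfl⟩
  haveI hAn : A.Normal := by rw [hA]; exact omegaP_normal p H
  have hAH : ∀ a ∈ A, a ∈ H := fun a ha => by rw [hA] at ha; exact ha.1
  have hAc : ∀ a ∈ A, ∀ b ∈ A, a * b = b * a := fun a ha b hb => by
    have hb' := hAH b hb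
    rw [hA] at ha; exact ha.2.1 b hb'
  have hAp : ∀ a ∈ A, a ^ p = 1 := fun a ha => by rw [hA] at ha; exact ha.2.2
  have hzA : (z : G) ∈ A := by
    rw [hA]
    refine ⟨z.2, fun y hy => ?_, ?_⟩
    · exact (congrArg Subtype.val (Subgroup.mem_center_iff.1 hz ⟨y, hy⟩)).symm
    · have h1 : z ^ p = 1 := orderOf_dvd_iff_pow_eq_one.1 hzp.dvd
      exact congrArg Subtype.val h1
  have hz1 : (z : G) ≠ 1 := by
    intro h1
    have h2 : z = 1 := Subtype.ext h1
    rw [h2, orderOf_one] at hzp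
    exact hp.one_lt.ne hzp
  -- the prime `r`
  obtain ⟨r, hr, hrm⟩ := Nat.exists_prime_and_dvd h.m1
  haveI : Fact r.Prime := ⟨hr⟩
  obtain ⟨R⟩ : Nonempty (Sylow r K) := inferInstance
  obtain ⟨Q, hQ⟩ : ∃ Q, Q = (R : Subgroup K).map K.subtype := ⟨_, rfl⟩
  have hQK : Q ≤ K := by rw [hQ]; exact map_subtype_le _
  have hQp : IsPGroup r Q := by rw [hQ]; exact R.2.map _
  have hQH : ∀ x ∈ Q, x ∈ H → x = 1 := by
    intro x hx hxH
    obtain ⟨k, hk⟩ := (IsPGroup.iff_orderOf.1 hQp) ⟨x, hx⟩
    rw [Subgroup.orderOf_mk] at hk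
    rw [← orderOf_eq_one_iff]
    have h1 : orderOf x ∣ Nat.card H := by
      rw [← Subgroup.orderOf_mk x hxH]; exact orderOf_dvd_natCard _
    have h2 : Nat.Coprime (r ^ k) (Nat.card H) := Nat.Coprime.pow_left k (Nat.Coprime.coprime_dvd_left hrm h.copH)
    rw [hk] at h1 ⊢
    exact Nat.eq_one_of_dvd_coprimes h2 dvd_rfl h1
  obtain ⟨x₀, hx₀, hx₀1⟩ : ∃ x ∈ Q, x ≠ 1 := by
    by_contra hall
    push Not at hall
    have h1 : (R : Subgroup K) = ⊥ := by
      rw [eq_bot_iff]
      intro x hx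
      rw [mem_bot]
      apply Subtype.ext
      exact hall x (by rw [hQ]; exact ⟨x, hx, rfl⟩)
    apply R.not_dvd_index
    rw [h1, Subgroup.index_bot]
    have h2 := H1.card_mul_relIndex h.le
    rw [← h2]
    exact hrm.trans (dvd_mul_left _ _)
  have hfrat := Sylow.normalizer_sup_eq_top R
  rw [← hQ] at hfrat
  have hdvd : q ∣ Nat.card (normalizer (Q : Set G)) := by
    have h1 : K.relIndex (normalizer (Q : Set G) ⊔ K) = K.relIndex (normalizer (Q : Set G)) := Subgroup.relIndex_sup_right _ _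
    have h2 : K.relIndex (normalizer (Q : Set G)) = K.index := by
      rw [← h1, hfrat, Subgroup.relIndex_top_right]
    have h3 := Subgroup.relIndex_dvd_card K (normalizer (Q : Set G))
    rw [h2] at h3
    exact hqG.trans h3
  obtain ⟨⟨y, hyN⟩, hy⟩ := exists_prime_orderOf_dvd_card' q hdvd
  rw [Subgroup.orderOf_mk] at hy
  have hy1 : y ≠ 1 := by
    intro h1
    rw [h1, orderOf_one] at hy
    exact hq.one_lt.ne hy
  have hyK : y ∉ K := by
    intro hyK
    have hyH := mem_H h hq hy hqm hyK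
    have h1 : y * x₀ * y⁻¹ * x₀⁻¹ = 1 := by
      apply hQH
      · exact mul_mem ((mem_normalizer_iff.1 hyN x₀).1 hx₀) (inv_mem hx₀)
      · have : y * x₀ * y⁻¹ * x₀⁻¹ = y * (x₀ * y⁻¹ * x₀⁻¹) := by group
        rw [this]
        exact mul_mem hyH (hHn.conj_mem _ (inv_mem hyH) _)
    have h2 : y * x₀ = x₀ * y := by
      calc y * x₀ = (y * x₀ * y⁻¹ * x₀⁻¹) * x₀ * y := by group
        _ = x₀ * y := by rw [h1, one_mul]
    exact h.F1 y x₀ hyH hy1 (hQK hx₀) (fun h3 => hx₀1 (hQH _ hx₀ h3)) h2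
  -- a fixed point of `y`
  letI : CommGroup A := { (inferInstance : Group A) with mul_comm := fun a b => Subtype.ext (hAc a a.2 b b.2) }
  have hfix : ∃ a : A, a ≠ 1 ∧ y * (a : G) * y⁻¹ = a := by
    by_contra hall
    push Not at hall
    have h1 := H22.frob_fixed (MulAut.conjNormal : G →* MulAut A) Q y hq
      (orderOf_dvd_iff_pow_eq_one.1 hy.dvd) (fun x hx => (mem_normalizer_iff.1 hyN x).1 hx)
      (by
        intro a ha
        by_contra ha1
        have h2 : x₀ * (a : G) * x₀⁻¹ = a := congrArg Subtype.val (ha x₀ hx₀)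
        refine h.F1 a x₀ (hAH _ a.2) (fun h3 => ha1 (Subtype.ext h3)) (hQK hx₀) (fun h3 => hx₀1 (hQH _ hx₀ h3)) ?_
        calc (a : G) * x₀ = (x₀ * (a : G) * x₀⁻¹) * x₀ := by rw [h2]
          _ = x₀ * a := by group)
      (by
        intro x hx hyx
        by_contra hx1
        exact h.F2 x y (hQK hx) (fun h3 => hx1 (hQH _ hx h3)) hyK hyx.symm)
      (by
        intro a ha
        have h2 : orderOf a ∣ Nat.card Q := orderOf_dvd_of_pow_eq_one ha
        have h3 : orderOf a ∣ p := orderOf_dvd_of_pow_eq_one (Subtype.ext (hAp a a.2))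
        obtain ⟨k, hk⟩ := IsPGroup.iff_card.1 hQp
        rw [hk] at h2
        rw [← orderOf_eq_one_iff]
        have h4 : Nat.Coprime (r ^ k) p := by
          apply Nat.Coprime.pow_left
          rw [Nat.coprime_primes hr hp]
          rintro rfl
          exact hpm hrm
        exact Nat.eq_one_of_dvd_coprimes h4 h2 h3)
      (by
        intro a ha
        by_contra ha1
        exact hall a ha1 (congrArg Subtype.val ha))
      ⟨z, hzA⟩
    exact hz1 (congrArg Subtype.val h1)
  obtain ⟨a, ha1, hya⟩ := hfix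
  refine H22.exists_orderOf_mul hp hq hpq (x := (a : G)) (y := y) ?_ (fun h3 => ha1 (Subtype.ext h3)) hy1 (m := 1) (n := 1) ?_ ?_
  · calc (a : G) * y = (y * a * y⁻¹) * y := by rw [hya]
      _ = y * a := by group
  · rw [pow_one]; exact hAp a a.2
  · rw [pow_one]; exact orderOf_dvd_iff_pow_eq_one.1 hy.dvd

end

/-- Let G be a 2-Frobenius group: it has normal subgroups H < K with K a Frobenius group with kernel H and G/H a Frobenius group with kernel K/H. Then G is solvable; K/H has odd order coprime to the order of H and to the order of G/K (it is the image of an odd-order Hall subgroup); G/K is cyclic; and the prime graph of G has exactly two connected components, both complete: for distinct primes p, q dividing the order of G, G has an element of order pq exactly when p and q either both divide the order of K/H or both do not. -/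
theorem result {G : Type*} [Group G] [Finite G] (H K : Subgroup G) [H.Normal] [K.Normal] (hlt : H < K)
    (hK : ∃ C : Subgroup ↥K, Cfsg.IsFrobeniusComplement C ∧ Cfsg.frobeniusKernel C = (H.subgroupOf K : Set ↥K))
    (hGH : ∃ C : Subgroup (G ⧸ H), Cfsg.IsFrobeniusComplement C ∧ Cfsg.frobeniusKernel C = (K.map (QuotientGroup.mk' H) : Set (G ⧸ H))) :
    Group.IsSolvable G ∧ Odd (Nat.card (↥K ⧸ H.subgroupOf K)) ∧
      Nat.Coprime (Nat.card (↥K ⧸ H.subgroupOf K)) (Nat.card ↥H * Nat.card (G ⧸ K)) ∧ IsCyclic (G ⧸ K) ∧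
      ∀ p q : ℕ, p.Prime → q.Prime → p ≠ q → p ∣ Nat.card G → q ∣ Nat.card G →
        ((∃ g : G, orderOf g = p * q) ↔ (p ∣ Nat.card (↥K ⧸ H.subgroupOf K) ↔ q ∣ Nat.card (↥K ⧸ H.subgroupOf K))) := by
  obtain ⟨C₁, hC₁, hk₁⟩ := hK
  obtain ⟨C₂, hC₂, hk₂⟩ := hGH
  have h := data_of H K hlt hC₁ hk₁ hC₂ hk₂
  have hm : Nat.card (↥K ⧸ H.subgroupOf K) = H.relIndex K := rfl
  have hGK : Nat.card (G ⧸ K) = K.index := rfl
  rw [hm, hGK]
  refine ⟨?_, h.odd, Nat.Coprime.mul_right h.copH h.copG, h.cycG, ?_⟩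
  · -- solvable
    haveI := h.nilH
    haveI hHs : Group.IsSolvable H := inferInstance
    haveI := h.cycK
    haveI := h.cycG
    letI := IsCyclic.commGroup (α := ↥K ⧸ H.subgroupOf K)
    letI := IsCyclic.commGroup (α := G ⧸ K)
    haveI h1 : Group.IsSolvable (↥K ⧸ H.subgroupOf K) := inferInstance
    haveI h2 : Group.IsSolvable (G ⧸ K) := inferInstance
    haveI hKs : Group.IsSolvable K := by
      haveI : Group.IsSolvable (H.subgroupOf K) := Group.isSolvable_of_isSolvable_injective (f := (Subgroup.subgroupOfEquivOfLe h.le).toMonoidHom)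
        (Subgroup.subgroupOfEquivOfLe h.le).injective
      exact Group.isSolvable_of_ker_le_range (H.subgroupOf K).subtype (QuotientGroup.mk' (H.subgroupOf K))
        (by rw [QuotientGroup.ker_mk', Subgroup.range_subtype])
    exact Group.isSolvable_of_ker_le_range K.subtype (QuotientGroup.mk' K)
        (by rw [QuotientGroup.ker_mk', Subgroup.range_subtype])
  · intro p q hp hq hpq hpG hqG
    haveI : Fact p.Prime := ⟨hp⟩
    haveI : Fact q.Prime := ⟨hq⟩
    constructor
    · rintro ⟨g, hg⟩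
      exact ⟨fun h1 => fwd h hp hq hg h1, fun h1 => fwd h hq hp (by rw [hg, mul_comm]) h1⟩
    · intro hiff
      by_cases hpm : p ∣ H.relIndex K
      · have hqm := hiff.1 hpm
        have hcop : Nat.Coprime p q := (Nat.coprime_primes hp hq).2 hpq
        obtain ⟨x, hx⟩ := exists_order_cyclic h.cycK (n := p * q) (by rw [hm]; exact hcop.mul_dvd_of_dvd_of_dvd hpm hqm)
          (Nat.mul_pos hp.pos hq.pos)
        obtain ⟨k, rfl⟩ := QuotientGroup.mk_surjective x
        obtain ⟨y, hy⟩ := exists_order_lift (QuotientGroup.mk' (H.subgroupOf K)) (g := k) hx (Nat.mul_pos hp.pos hq.pos)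
        exact ⟨y, by rw [Subgroup.orderOf_coe, hy]⟩
      · have hqm : ¬ q ∣ H.relIndex K := fun h1 => hpm (hiff.2 h1)
        have hcard : Nat.card G = Nat.card H * H.relIndex K * K.index := by
          rw [H1.card_mul_relIndex h.le, mul_comm, K.index_mul_card]
        have hsplit : ∀ r : ℕ, r.Prime → r ∣ Nat.card G → ¬ r ∣ H.relIndex K → r ∣ Nat.card H ∨ r ∣ K.index := by
          intro r hr hrG hrm
          rw [hcard] at hrG
          rcases hr.dvd_mul.1 hrG with h1 | h1
          · rcases hr.dvd_mul.1 h1 with h2 | h2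
            · exact Or.inl h2
            · exact absurd h2 hrm
          · exact Or.inr h1
        rcases hsplit p hp hpG hpm with hp1 | hp1
        · rcases hsplit q hq hqG hqm with hq1 | hq1
          · obtain ⟨z, hz, hzp⟩ := exists_central_prime h.nilH hp1
            obtain ⟨y, hy⟩ := exists_prime_orderOf_dvd_card' q hq1
            obtain ⟨w, hw⟩ := H22.exists_orderOf_mul hp hq hpq (x := z) (y := y) (Subgroup.mem_center_iff.1 hz y).symm
              (by rintro rfl; rw [orderOf_one] at hzp; exact hp.one_lt.ne hzp)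
              (by rintro rfl; rw [orderOf_one] at hy; exact hq.one_lt.ne hy) (m := 1) (n := 1)
              (by rw [pow_one]; exact orderOf_dvd_iff_pow_eq_one.1 hzp.dvd)
              (by rw [pow_one]; exact orderOf_dvd_iff_pow_eq_one.1 hy.dvd)
            exact ⟨w, by rw [Subgroup.orderOf_coe, hw]⟩
          · exact mixed h hp hq hpq hp1 hq1 hpm hqm
        · rcases hsplit q hq hqG hqm with hq1 | hq1
          · obtain ⟨g, hg⟩ := mixed h hq hp hpq.symm hq1 hp1 hqm hpm
            exact ⟨g, by rw [hg, mul_comm]⟩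
          · have hcop : Nat.Coprime p q := (Nat.coprime_primes hp hq).2 hpq
            obtain ⟨x, hx⟩ := exists_order_cyclic h.cycG (n := p * q) (by rw [hGK]; exact hcop.mul_dvd_of_dvd_of_dvd hp1 hq1)
              (Nat.mul_pos hp.pos hq.pos)
            obtain ⟨k, rfl⟩ := QuotientGroup.mk_surjective x
            exact exists_order_lift (QuotientGroup.mk' K) (g := k) hx (Nat.mul_pos hp.pos hq.pos)

end Cfsg.Agent.S4001
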