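import Cfsg.Statements.S4002
import Cfsg.Agent.S1475

set_option autoImplicit false
open Cfsg

namespace Cfsg.Agent.S4002

open Cfsg.Agent Cfsg.Agent.H18

theorem three_primes (n : ℕ) (hn : 7 ≤ n) : ∃ p q r : ℕ, p.Prime ∧ q.Prime ∧ r.Prime ∧ p < q ∧ q < r ∧ r ≤ n ∧
    n < p * q := by
  rcases Nat.lt_or_ge n 15 with h | h
  · exact ⟨3, 5, 7, by norm_num, by norm_num, by norm_num, by omega, by omega, by omega, by omega⟩
  rcases Nat.lt_or_ge n 35 with h | h
  · exact ⟨5, 7, 11, by norm_num, by norm_num, by norm_num, by omega, by omega, by omega, by omega⟩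
  obtain ⟨p, hp, hp1, hp2⟩ := Nat.exists_prime_lt_and_le_two_mul (n / 8) (by omega)
  obtain ⟨q, hq, hq1, hq2⟩ := Nat.exists_prime_lt_and_le_two_mul (n / 4) (by omega)
  obtain ⟨r, hr, hr1, hr2⟩ := Nat.exists_prime_lt_and_le_two_mul (n / 2) (by omega)
  refine ⟨p, q, r, hp, hq, hr, by omega, by omega, by omega, ?_⟩
  have h1 : n < 8 * p := by omega
  have h2 : n < 4 * q := by omega
  nlinarith

theorem isPrimePow_of {m : ℕ} (hm : m ≠ 1) (hm0 : m ≠ 0) (h : ∀ s t : ℕ, s.Prime → t.Prime → s ∣ m → t ∣ m → s = t) :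
    IsPrimePow m := by
  have hs : m.minFac.Prime := Nat.minFac_prime hm
  have h1 := Nat.eq_prime_pow_of_unique_prime_dvd (n := m) (p := m.minFac) hm0
    (fun {d} hd hdm => h d m.minFac hd hs hdm (Nat.minFac_dvd m))
  rw [h1]
  refine IsPrimePow.pow hs.isPrimePow ?_
  intro h2
  rw [h2, pow_zero] at h1
  exact hm h1

/-- If the set of element orders of a finite group G is {1, 2, …, n} with n ≥ 7, then G is not solvable. -/
theorem result {G : Type*} [Group G] [Finite G] (n : ℕ) (hn : 7 ≤ n) (h : Set.range (orderOf : G → ℕ) = {k : ℕ | 1 ≤ k ∧ k ≤ n}) : ¬ Group.IsSolvable G := by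
  intro hsolv
  obtain ⟨p, q, r, hp, hq, hr, hpq, hqr, hrn, hpqn⟩ := three_primes n hn
  have hsol : Group.IsSolvable (⊤ : Subgroup G) := inferInstance
  obtain ⟨H, hH⟩ := OOT.hallOf_exists hsol ({p, q, r} : Set ℕ)
  have hdvd : ∀ s : ℕ, s.Prime → s ∈ ({p, q, r} : Set ℕ) → s ∣ Nat.card G → s ∣ Nat.card H := by
    intro s hs hsm hd
    have h1 := L.card_mul_relIndex hH.1
    rw [Subgroup.card_top] at h1
    rw [← h1] at hd
    exact (hs.dvd_mul.1 hd).resolve_right (hH.2.2 s hs hsm)
  have hG : ∀ s : ℕ, 1 ≤ s → s ≤ n → s ∣ Nat.card G := by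
    intro s hs hsn
    have h1 : s ∈ Set.range (orderOf : G → ℕ) := by rw [h]; exact ⟨hs, hsn⟩
    obtain ⟨g, hg⟩ := h1
    rw [← hg]
    exact orderOf_dvd_natCard g
  have hpp : ∀ g : H, IsPrimePow (orderOf g) ∨ g = 1 := by
    intro g
    by_cases hg : g = 1
    · exact Or.inr hg
    left
    apply isPrimePow_of (fun hc => hg (orderOf_eq_one_iff.mp hc)) (orderOf_pos g).ne'
    intro s t hs ht hsg htg
    by_contra hst
    have hsH : s ∈ ({p, q, r} : Set ℕ) := hH.2.1 s hs (hsg.trans (orderOf_dvd_natCard g))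
    have htH : t ∈ ({p, q, r} : Set ℕ) := hH.2.1 t ht (htg.trans (orderOf_dvd_natCard g))
    have hd : s * t ∣ orderOf g := ((Nat.coprime_primes hs ht).mpr hst).mul_dvd_of_dvd_of_dvd hsg htg
    obtain ⟨k, hk⟩ := hd
    have hk0 : k ≠ 0 := by
      rintro rfl
      rw [mul_zero] at hk
      exact (orderOf_pos g).ne' hk
    have h1 : orderOf ((g ^ k : H) : G) = s * t := by
      rw [Subgroup.orderOf_coe, orderOf_pow' g hk0, hk, Nat.gcd_eq_right (dvd_mul_left k (s * t))]
      exact Nat.mul_div_cancel _ (Nat.pos_of_ne_zero hk0)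
    have h2 : s * t ∈ {k : ℕ | 1 ≤ k ∧ k ≤ n} := by
      rw [← h]
      exact ⟨_, h1⟩
    have h3 : s * t ≤ n := h2.2
    simp only [Set.mem_insert_iff, Set.mem_singleton_iff] at hsH htH
    have h4 : p * q ≤ s * t := by
      rcases hsH with rfl | rfl | rfl <;> rcases htH with rfl | rfl | rfl
      · exact absurd rfl hst
      · exact le_rfl
      · exact Nat.mul_le_mul le_rfl hqr.le
      · exact (mul_comm _ _).le
      · exact absurd rfl hst
      · exact Nat.mul_le_mul hpq.le hqr.le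
      · rw [mul_comm]; exact Nat.mul_le_mul hqr.le le_rfl
      · exact Nat.mul_le_mul (hpq.trans hqr).le le_rfl |>.trans' (by rfl)
      · exact absurd rfl hst
    omega
  have : Group.IsSolvable H := inferInstance
  have h5 := S1475.result (G := H) hpp
  have h6 : ({p, q, r} : Finset ℕ) ⊆ (Nat.card H).primeFactors := by
    intro s hs
    simp only [Finset.mem_insert, Finset.mem_singleton] at hs
    have hsP : s.Prime := by rcases hs with rfl | rfl | rfl <;> assumption
    have hsn : s ≤ n := by rcases hs with rfl | rfl | rfl <;> omega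
    refine Nat.mem_primeFactors.mpr ⟨hsP, ?_, Nat.card_pos.ne'⟩
    apply hdvd s hsP _ (hG s hsP.pos hsn)
    simpa using hs
  have h7 := Finset.card_le_card h6
  have h8 : ({p, q, r} : Finset ℕ).card = 3 := Finset.card_eq_three.mpr ⟨p, q, r, by omega, by omega, by omega, rfl⟩
  omega

end Cfsg.Agent.S4002
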