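import Cfsg.Statements.S4003
import Cfsg.Agent.H1.Coprime2
import Cfsg.Agent.H1.Basic
import Cfsg.Agent.H23.RankOne

set_option autoImplicit false
set_option linter.all false
open Cfsg

namespace Cfsg.Agent.S4003

open Subgroup
open scoped Pointwise commutatorElement
universe u

/-- generators of a cyclic subgroup -/
theorem card_gen {K : Type*} [Group K] [Finite K] (B : Subgroup K) (hB : IsCyclic B) :
    Nat.card {x : K // zpowers x = B} = Nat.totient (Nat.card B) := by
  classical
  have := Fintype.ofFinite B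
  have h3 := IsCyclic.card_orderOf_eq_totient (α := B) (d := Fintype.card B) dvd_rfl
  rw [Nat.card_eq_fintype_card (α := B), ← h3, ← Fintype.card_subtype, ← Nat.card_eq_fintype_card]
  refine Nat.card_congr ⟨fun x => ⟨⟨x.1, (le_of_eq x.2) (mem_zpowers x.1)⟩, ?_⟩, fun a => ⟨a.1.1, ?_⟩, fun x => rfl, fun a => rfl⟩
  · rw [Subgroup.orderOf_mk, ← Nat.card_zpowers, x.2, Nat.card_eq_fintype_card]
  · apply Subgroup.eq_of_le_of_card_ge (zpowers_le.mpr a.1.2)
    rw [Nat.card_zpowers, Subgroup.orderOf_coe, a.2, Nat.card_eq_fintype_card]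

theorem card_order_eq {K : Type*} [Group K] [Finite K] (n : ℕ) : Nat.card {x : K // orderOf x = n} =
    n.totient * Nat.card {C : Subgroup K // IsCyclic C ∧ Nat.card C = n} := by
  classical
  have := Fintype.ofFinite {C : Subgroup K // IsCyclic C ∧ Nat.card C = n}
  let F : (Σ C : {C : Subgroup K // IsCyclic C ∧ Nat.card C = n}, {x : K // zpowers x = C.1}) → {x : K // orderOf x = n} :=
    fun y => ⟨y.2.1, by rw [← Nat.card_zpowers, y.2.2, y.1.2.2]⟩
  have hF : Function.Bijective F := by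
    constructor
    · rintro ⟨⟨C, hC⟩, ⟨x, hx⟩⟩ ⟨⟨C', hC'⟩, ⟨x', hx'⟩⟩ h
      have h1 : x = x' := congrArg Subtype.val h
      subst h1
      change zpowers x = C at hx
      change zpowers x = C' at hx'
      subst hx
      subst hx'
      rfl
    · rintro ⟨x, hx⟩
      exact ⟨⟨⟨zpowers x, inferInstance, by rw [Nat.card_zpowers, hx]⟩, ⟨x, rfl⟩⟩, rfl⟩
  rw [← Nat.card_eq_of_bijective F hF, Nat.card_sigma, Finset.sum_congr rfl (fun C _ => card_gen C.1 C.2.1),
    Finset.sum_congr rfl (fun C _ => congrArg Nat.totient C.2.2), Finset.sum_const, smul_eq_mul, mul_comm,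
    Finset.card_univ, Nat.card_eq_fintype_card]

/-- power formula in class two -/
theorem mul_pow_class2 {K : Type*} [Group K] {x e d : K} (h : e * x = x * e * d) (hdx : Commute d x) (hde : Commute d e)
    (n : ℕ) : (x * e) ^ n = x ^ n * e ^ n * d ^ (n.choose 2) := by
  have h1 : ∀ n : ℕ, e ^ n * x = x * e ^ n * d ^ n := by
    intro n
    induction n with
    | zero => simp
    | succ n ih =>
      calc e^(n+1)*x = e*(e^n*x) := by rw [pow_succ', mul_assoc]
        _ = e*(x*e^n*d^n) := by rw [ih]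
        _ = (e*x)*(e^n*d^n) := by simp only [mul_assoc]
        _ = (x*e*d)*(e^n*d^n) := by rw [h]
        _ = x*e*(d*e^n)*d^n := by simp only [mul_assoc]
        _ = x*e*(e^n*d)*d^n := by rw [(hde.pow_right n).eq]
        _ = x*e^(n+1)*d^(n+1) := by rw [pow_succ', pow_succ']; simp only [mul_assoc]
  induction n with
  | zero => simp
  | succ n ih =>
    have hc : (n+1).choose 2 = n + n.choose 2 := by
      rw [Nat.choose_succ_succ' n 1, Nat.choose_one_right]
    calc (x*e)^(n+1) = (x*e)^n*(x*e) := pow_succ _ _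
      _ = x^n*e^n*d^(n.choose 2)*(x*e) := by rw [ih]
      _ = x^n*e^n*(d^(n.choose 2)*(x*e)) := by simp only [mul_assoc]
      _ = x^n*e^n*((x*e)*d^(n.choose 2)) := by rw [((hdx.mul_right hde).pow_left _).eq]
      _ = x^n*(e^n*x)*(e*d^(n.choose 2)) := by simp only [mul_assoc]
      _ = x^n*(x*e^n*d^n)*(e*d^(n.choose 2)) := by rw [h1]
      _ = x^n*x*e^n*(d^n*e)*d^(n.choose 2) := by simp only [mul_assoc]
      _ = x^n*x*e^n*(e*d^n)*d^(n.choose 2) := by rw [(hde.pow_left n).eq]
      _ = x^(n+1)*e^(n+1)*d^((n+1).choose 2) := by rw [hc, pow_succ, pow_succ, pow_add]; simp only [mul_assoc]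

section
variable {K : Type*} [Group K] [Finite K] {p : ℕ} [hp : Fact p.Prime]

theorem coset_order (hK : IsPGroup p K) (hp2 : p ≠ 2) {E : Subgroup K} (hEn : E.Normal) (hEc : Nat.card E = p ^ 2)
    (hEp : ∀ a ∈ E, a ^ p = 1) {s : ℕ} (hs : 2 ≤ s) {x : K} (hx : orderOf x = p ^ s) {e : K} (he : e ∈ E) :
    orderOf (x * e) = p ^ s := by
  haveI : Group.IsNilpotent K := hK.isNilpotent
  have hnil : Group.IsNilpotent (⊤ : Subgroup K) := Cfsg.Agent.H1.isNilpotent_of_equiv Subgroup.topEquiv.symm inferInstance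
  have hE1 : E ≠ ⊥ := by
    intro h
    rw [h, Subgroup.card_bot] at hEc
    exact (Nat.one_lt_pow (by norm_num) hp.out.one_lt).ne hEc
  have hle : ⁅E, (⊤ : Subgroup K)⁆ ≤ E := Subgroup.commutator_le_left _ _
  have hlt := Cfsg.Agent.H1.commutator_lt_of_nilpotent hnil le_top hle hE1
  have hD : ⁅E, (⊤ : Subgroup K)⁆ ≤ Subgroup.center K := by
    by_cases hD1 : ⁅E, (⊤ : Subgroup K)⁆ = ⊥
    · rw [hD1]; exact bot_le
    have hlt2 := Cfsg.Agent.H1.commutator_lt_of_nilpotent hnil le_top (Subgroup.commutator_le_left ⁅E, (⊤ : Subgroup K)⁆ ⊤) hD1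
    have hcD : Nat.card (⁅E, (⊤ : Subgroup K)⁆ : Subgroup K) = p := by
      have h1 := Subgroup.card_dvd_of_le hle
      rw [hEc] at h1
      obtain ⟨j, hj, hj2⟩ := (Nat.dvd_prime_pow hp.out).mp h1
      have h2 := Cfsg.Agent.H1.card_lt_of_lt' hlt
      rw [hEc, hj2] at h2
      have h3 : j < 2 := (Nat.pow_lt_pow_iff_right hp.out.one_lt).mp h2
      have h4 : j ≠ 0 := by
        rintro rfl
        rw [pow_zero] at hj2
        exact hD1 (Subgroup.card_eq_one.mp hj2)
      have h5 : j = 1 := by omega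
      rw [hj2, h5, pow_one]
    have h6 : ⁅⁅E, (⊤ : Subgroup K)⁆, (⊤ : Subgroup K)⁆ = ⊥ := by
      have h1 := Subgroup.card_dvd_of_le hlt2.le
      rw [hcD] at h1
      rcases (Nat.dvd_prime hp.out).mp h1 with h2 | h2
      · exact Subgroup.card_eq_one.mp h2
      · have h3 := Cfsg.Agent.H1.card_lt_of_lt' hlt2
        omega
    rw [Subgroup.commutator_eq_bot_iff_le_centralizer] at h6
    intro a ha
    rw [Subgroup.mem_center_iff]
    intro g
    exact (Subgroup.mem_centralizer_iff.mp (h6 ha) g (Subgroup.mem_top g))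
  -- d = e⁻¹ x⁻¹ e x
  have hdE : e⁻¹ * x⁻¹ * e * x ∈ ⁅E, (⊤ : Subgroup K)⁆ := by
    have := Subgroup.commutator_mem_commutator (inv_mem he) (Subgroup.mem_top x⁻¹) 
    rw [commutatorElement_def] at this
    simpa [mul_assoc] using this
  obtain ⟨d, hd⟩ : ∃ d, d = e⁻¹ * x⁻¹ * e * x := ⟨_, rfl⟩
  rw [← hd] at hdE
  have hdc := Subgroup.mem_center_iff.mp (hD hdE)
  have hpow : (x * e) ^ p = x ^ p := by
    rw [mul_pow_class2 (d := d) (by rw [hd]; group) (hdc x).symm (hdc e).symm, hEp e he, mul_one]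
    have h1 : p.choose 2 = p * ((p - 1) / 2) := by
      rw [Nat.choose_two_right, Nat.mul_div_assoc]
      have := hp.out.eq_two_or_odd'
      rcases this with h | ⟨k, hk⟩
      · exact absurd h hp2
      · exact ⟨k, by omega⟩
    rw [h1, pow_mul, hEp d (hle hdE), one_pow, mul_one]
  obtain ⟨t, rfl⟩ : ∃ t, s = t + 2 := ⟨s - 2, by omega⟩
  apply orderOf_eq_prime_pow
  · rw [pow_succ' p t, pow_mul, hpow, ← pow_mul, ← pow_succ']
    intro h
    have h1 := orderOf_dvd_of_pow_eq_one h
    rw [hx] at h1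
    have := (Nat.pow_dvd_pow_iff_le_right hp.out.one_lt).mp h1
    omega
  · rw [pow_succ' p (t + 1), pow_mul, hpow, ← pow_mul, ← pow_succ', ← hx]
    exact pow_orderOf_eq_one x

theorem pow_dvd_X (hK : IsPGroup p K) (hp2 : p ≠ 2) (hnc : ¬ IsCyclic K) {s : ℕ} (hs : 2 ≤ s) :
    p ^ s ∣ Nat.card {x : K // orderOf x = p ^ s} := by
  classical
  have := Fintype.ofFinite K
  obtain ⟨E, hEn, hEc, hEp⟩ := Cfsg.Agent.H23.exists_normal_sq_of_odd hK hp2 hnc
  have hcos : ∀ x : K, orderOf x = p ^ s → ∀ e ∈ E, orderOf (x * e) = p ^ s := fun x hx e he =>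
    coset_order hK hp2 hEn hEc hEp hs hx he
  rw [Nat.card_eq_fintype_card, Fintype.card_subtype,
    Finset.card_eq_sum_card_fiberwise (f := fun x : K => zpowers (QuotientGroup.mk' E x)) (t := Finset.univ)
      (fun _ _ => Finset.mem_coe.2 (Finset.mem_univ _))]
  apply Finset.dvd_sum
  intro B _
  by_cases hne : ∃ x, orderOf x = p ^ s ∧ zpowers (QuotientGroup.mk' E x) = B
  · obtain ⟨x₀, hx₀, rfl⟩ := hne
    -- the order of the image
    obtain ⟨j, hj⟩ : ∃ j, orderOf (QuotientGroup.mk' E x₀) = p ^ j := by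
      obtain ⟨j, hj⟩ := IsPGroup.iff_orderOf.mp (hK.to_quotient E) (QuotientGroup.mk' E x₀)
      exact ⟨j, hj⟩
    have hjs : s ≤ j + 1 := by
      have h1 : x₀ ^ p ^ j ∈ E := by
        rw [← QuotientGroup.eq_one_iff]
        have h2 : (QuotientGroup.mk' E x₀) ^ p ^ j = 1 := by rw [← hj, pow_orderOf_eq_one]
        rw [← map_pow] at h2
        exact h2
      have h2 := hEp _ h1
      rw [← pow_mul, ← pow_succ] at h2
      have h3 := orderOf_dvd_of_pow_eq_one h2
      rw [hx₀] at h3
      exact (Nat.pow_dvd_pow_iff_le_right hp.out.one_lt).mp h3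
    have h1 : ∀ x, zpowers (QuotientGroup.mk' E x) = zpowers (QuotientGroup.mk' E x₀) → orderOf x = p ^ s := by
      intro x hx
      have h2 : QuotientGroup.mk' E x ∈ Submonoid.powers (QuotientGroup.mk' E x₀) := by
        rw [mem_powers_iff_mem_zpowers, ← hx]
        exact mem_zpowers _
      obtain ⟨k, hk⟩ := h2
      have hk' : (QuotientGroup.mk' E x₀) ^ k = QuotientGroup.mk' E x := hk
      have ho : orderOf ((QuotientGroup.mk' E x₀) ^ k) = orderOf (QuotientGroup.mk' E x₀) := by
        rw [hk', ← Nat.card_zpowers, hx, Nat.card_zpowers]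
      have hcop : (p ^ s).Coprime k := by
        rw [orderOf_pow, hj] at ho
        have h3 : Nat.gcd (p ^ j) k = 1 := by
          have h4 : Nat.gcd (p ^ j) k ∣ p ^ j := Nat.gcd_dvd_left _ _
          have h5 := Nat.div_mul_cancel h4
          rw [ho] at h5
          have h6 : 0 < p ^ j := pow_pos hp.out.pos j
          nlinarith
        apply Nat.Coprime.pow_left
        exact Nat.Coprime.coprime_dvd_left (dvd_pow_self p (by omega : j ≠ 0)) h3
      have h3 : x₀⁻¹ ^ k * x ∈ E := by
        rw [← map_pow] at hk'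
        have := QuotientGroup.eq.mp hk'
        rwa [inv_pow]
      have h4 : x = x₀ ^ k * (x₀⁻¹ ^ k * x) := by rw [inv_pow]; group
      rw [h4]
      apply hcos _ _ _ h3
      rw [Nat.Coprime.orderOf_pow (by rw [hx₀]; exact hcop), hx₀]
    have h2 : (Finset.filter (fun a => zpowers (QuotientGroup.mk' E a) = zpowers (QuotientGroup.mk' E x₀))
        (Finset.univ.filter (fun g : K => orderOf g = p ^ s))).card = Nat.card E * Nat.totient (p ^ j) := by
      have h3 : (Finset.filter (fun a => zpowers (QuotientGroup.mk' E a) = zpowers (QuotientGroup.mk' E x₀))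
        (Finset.univ.filter (fun g : K => orderOf g = p ^ s))) =
          Finset.univ.filter (fun a : K => zpowers (QuotientGroup.mk' E a) = zpowers (QuotientGroup.mk' E x₀)) := by
        ext a
        simp only [Finset.mem_filter, Finset.mem_univ, true_and]
        exact ⟨fun h => h.2, fun h => ⟨h1 a h, h⟩⟩
      rw [h3, ← Fintype.card_subtype, ← Nat.card_eq_fintype_card]
      have h4 := QuotientGroup.card_preimage_mk E {y : K ⧸ E | zpowers y = zpowers (QuotientGroup.mk' E x₀)}
      have h5 := card_gen (zpowers (QuotientGroup.mk' E x₀)) inferInstance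
      rw [Nat.card_zpowers, hj] at h5
      rw [← h5]
      exact h4
    rw [h2, hEc]
    obtain ⟨i, rfl⟩ : ∃ i, j = i + 1 := ⟨j - 1, by omega⟩
    rw [Nat.totient_prime_pow_succ hp.out, ← mul_assoc, ← pow_add]
    exact (pow_dvd_pow p (by omega)).mul_right _
  · have h1 : Finset.filter (fun a => zpowers (QuotientGroup.mk' E a) = B)
        (Finset.univ.filter (fun g : K => orderOf g = p ^ s)) = ∅ := by
      rw [Finset.eq_empty_iff_forall_notMem]
      intro a ha
      simp only [Finset.mem_filter, Finset.mem_univ, true_and] at ha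
      exact hne ⟨a, ha⟩
    rw [h1]; simp

theorem dvd_card_cyc (hK : IsPGroup p K) (hp2 : p ≠ 2) (hnc : ¬ IsCyclic K) {s : ℕ} (hs : 2 ≤ s) :
    p ∣ Nat.card {C : Subgroup K // IsCyclic C ∧ Nat.card C = p ^ s} := by
  have h1 := pow_dvd_X hK hp2 hnc hs
  rw [card_order_eq] at h1
  obtain ⟨t, rfl⟩ : ∃ t, s = t + 1 := ⟨s - 1, by omega⟩
  rw [Nat.totient_prime_pow_succ hp.out, pow_succ, mul_assoc] at h1
  have h2 := Nat.dvd_of_mul_dvd_mul_left (pow_pos hp.out.pos t) h1
  exact (Nat.Coprime.dvd_mul_left (by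
    rw [Nat.Prime.coprime_iff_not_dvd hp.out]
    intro h
    have := Nat.le_of_dvd (by have := hp.out.two_le; omega) h
    have := hp.out.two_le
    omega)).mp h2

/-- normal cyclic subgroups -/
theorem dvd_card_ncyc (hK : IsPGroup p K) (hp2 : p ≠ 2) (hnc : ¬ IsCyclic K) {s : ℕ} (hs : 2 ≤ s) :
    p ∣ Nat.card {C : Subgroup K // (IsCyclic C ∧ Nat.card C = p ^ s) ∧ ∀ g : K, MulAut.conj g • C = C} := by
  classical
  let act : MulAction K {C : Subgroup K // IsCyclic C ∧ Nat.card C = p ^ s} :=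
    { smul := fun g C => ⟨MulAut.conj g • C.1, by
        have := C.2.1
        exact ⟨isCyclic_of_surjective (Subgroup.equivSMul (MulAut.conj g) C.1) (Subgroup.equivSMul (MulAut.conj g) C.1).surjective,
          by rw [Cfsg.Agent.H1.card_conj_smul, C.2.2]⟩⟩
      one_smul := fun C => Subtype.ext (by
        show MulAut.conj (1 : K) • C.1 = C.1
        rw [map_one, one_smul])
      mul_smul := fun g h C => Subtype.ext (by
        show MulAut.conj (g * h) • C.1 = MulAut.conj g • (MulAut.conj h • C.1)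
        rw [map_mul, mul_smul]) }
  have h1 := hK.card_modEq_card_fixedPoints {C : Subgroup K // IsCyclic C ∧ Nat.card C = p ^ s}
  have h2 := dvd_card_cyc hK hp2 hnc hs
  have h3 : Nat.card (MulAction.fixedPoints K {C : Subgroup K // IsCyclic C ∧ Nat.card C = p ^ s}) =
      Nat.card {C : Subgroup K // (IsCyclic C ∧ Nat.card C = p ^ s) ∧ ∀ g : K, MulAut.conj g • C = C} :=
    Nat.card_congr ⟨fun C => ⟨C.1.1, C.1.2, fun g => congrArg Subtype.val (C.2 g)⟩,
      fun C => ⟨⟨C.1, C.2.1⟩, fun g => Subtype.ext (C.2.2 g)⟩, fun _ => rfl, fun _ => rfl⟩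
  rw [h3] at h1
  exact (Nat.modEq_zero_iff_dvd).mp (h1.symm.trans ((Nat.modEq_zero_iff_dvd).mpr h2))

end
theorem le_sylow_of_normalizes {G : Type*} [Group G] [Finite G] {p : ℕ} [hp : Fact p.Prime] (P : Sylow p G)
    {C : Subgroup G} (hC : IsPGroup p C) (h : ∀ g ∈ (P : Subgroup G), MulAut.conj g • C = C) : C ≤ (P : Subgroup G) := by
  have h1 : (P : Subgroup G) ≤ normalizer (C : Set G) := fun g hg => Cfsg.Agent.H1.mem_normalizer_iff_conj_smul.mpr (h g hg)
  have h2 : IsPGroup p (C ⊔ (P : Subgroup G) : Subgroup G) := IsPGroup.to_sup_of_normal_left' hC P.isPGroup' h1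
  have h3 := P.is_maximal' h2 le_sup_right
  rw [← h3]
  exact le_sup_left

theorem main {G : Type*} [Group G] [Finite G] (p : ℕ) [hp : Fact p.Prime] (hodd : p ≠ 2) (P : Sylow p G)
    (hP : ¬ IsCyclic ↥(P : Subgroup G)) (s m : ℕ) (hs : 1 < s) (hm : Nat.Coprime p m) :
    p ^ s ∣ Nat.card {g : G // orderOf g = p ^ s * m} := by
  classical
  let Om := {w : G × Subgroup G // orderOf w.1 = m ∧ (IsCyclic w.2 ∧ Nat.card w.2 = p ^ s) ∧ ∀ c ∈ w.2, Commute c w.1}
  have := Fintype.ofFinite Om
  have hcop : (p ^ s).Coprime m := hm.pow_left s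
  let F : (Σ w : Om, {u : G // zpowers u = w.1.2}) → {g : G // orderOf g = p ^ s * m} := fun y =>
    ⟨y.2.1 * y.1.1.1, by
      have h1 : orderOf y.2.1 = p ^ s := by rw [← Nat.card_zpowers, y.2.2, y.1.2.2.1.2]
      have h2 : Commute y.2.1 y.1.1.1 := y.1.2.2.2 _ ((le_of_eq y.2.2) (mem_zpowers _))
      rw [h2.orderOf_mul_eq_mul_orderOf_of_coprime (by rw [h1, y.1.2.1]; exact hcop), h1, y.1.2.1]⟩
  obtain ⟨e, he1, he2⟩ := Nat.chineseRemainder hcop 1 0
  obtain ⟨f, hf1, hf2⟩ := Nat.chineseRemainder hcop 0 1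
  have key : ∀ u v : G, orderOf u = p ^ s → orderOf v = m → Commute u v → (u * v) ^ e = u ∧ (u * v) ^ f = v := by
    intro u v hu hv huv
    have a1 : u ^ e = u := by
      have : u ^ e = u ^ 1 := pow_eq_pow_iff_modEq.mpr (by rw [hu]; exact he1)
      rwa [pow_one] at this
    have a2 : v ^ e = 1 := by
      have : v ^ e = v ^ 0 := pow_eq_pow_iff_modEq.mpr (by rw [hv]; exact he2)
      rwa [pow_zero] at this
    have a3 : u ^ f = 1 := by
      have : u ^ f = u ^ 0 := pow_eq_pow_iff_modEq.mpr (by rw [hu]; exact hf1)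
      rwa [pow_zero] at this
    have a4 : v ^ f = v := by
      have : v ^ f = v ^ 1 := pow_eq_pow_iff_modEq.mpr (by rw [hv]; exact hf2)
      rwa [pow_one] at this
    rw [huv.mul_pow, huv.mul_pow, a1, a2, a3, a4, mul_one, one_mul]
    exact ⟨rfl, rfl⟩
  have hF : Function.Bijective F := by
    constructor
    · rintro ⟨⟨⟨v, C⟩, hw⟩, ⟨u, hu⟩⟩ ⟨⟨⟨v', C'⟩, hw'⟩, ⟨u', hu'⟩⟩ h
      have h1 : u * v = u' * v' := congrArg Subtype.val h
      change zpowers u = C at hu
      change zpowers u' = C' at hu'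
      subst hu
      subst hu'
      have k1 := key u v (by rw [← Nat.card_zpowers]; exact hw.2.1.2) hw.1 (hw.2.2 u (mem_zpowers u))
      have k2 := key u' v' (by rw [← Nat.card_zpowers]; exact hw'.2.1.2) hw'.1 (hw'.2.2 u' (mem_zpowers u'))
      have e1 : u = u' := by rw [← k1.1, h1, k2.1]
      have e2 : v = v' := by rw [← k1.2, h1, k2.2]
      subst e1
      subst e2
      rfl
    · rintro ⟨g, hg⟩
      have hm0 : 0 < m := by
        rcases Nat.eq_zero_or_pos m with h | h
        · rw [h, mul_zero] at hg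
          exact absurd hg (orderOf_pos g).ne'
        · exact h
      have o1 : orderOf (g ^ e) = p ^ s := by
        rw [orderOf_pow, hg]
        have h1 : (p ^ s).Coprime e := by
          have : Nat.gcd e (p ^ s) = Nat.gcd 1 (p ^ s) := he1.gcd_eq
          rw [Nat.gcd_one_left] at this
          exact Nat.Coprime.symm this
        have h2 : m ∣ e := (Nat.modEq_zero_iff_dvd).mp he2
        rw [Nat.Coprime.gcd_mul_left_cancel m h1, Nat.gcd_eq_left h2, Nat.mul_div_cancel _ hm0]
      have o2 : orderOf (g ^ f) = m := by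
        rw [orderOf_pow, hg]
        have h1 : m.Coprime f := by
          have : Nat.gcd f m = Nat.gcd 1 m := hf2.gcd_eq
          rw [Nat.gcd_one_left] at this
          exact Nat.Coprime.symm this
        have h2 : p ^ s ∣ f := (Nat.modEq_zero_iff_dvd).mp hf1
        rw [Nat.Coprime.gcd_mul_right_cancel (p ^ s) h1, Nat.gcd_eq_left h2, Nat.mul_div_cancel_left _ (pow_pos hp.out.pos s)]
      have o3 : g ^ e * g ^ f = g := by
        rw [← pow_add]
        have : g ^ (e + f) = g ^ 1 := by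
          rw [pow_eq_pow_iff_modEq, hg, ← Nat.modEq_and_modEq_iff_modEq_mul hcop]
          constructor
          · have := he1.add hf1
            simpa using this
          · have := he2.add hf2
            simpa using this
        rwa [pow_one] at this
      refine ⟨⟨⟨(g ^ f, zpowers (g ^ e)), o2, ⟨inferInstance, by rw [Nat.card_zpowers, o1]⟩, ?_⟩, ⟨g ^ e, rfl⟩⟩, Subtype.ext o3⟩
      intro c hc
      obtain ⟨k, rfl⟩ := Subgroup.mem_zpowers_iff.mp hc
      exact ((Commute.refl g).pow_pow e f).zpow_left k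
  have hcount : Nat.card {g : G // orderOf g = p ^ s * m} = Nat.card Om * Nat.totient (p ^ s) := by
    rw [← Nat.card_eq_of_bijective F hF, Nat.card_sigma, Finset.sum_congr rfl (fun (w : Om) _ => card_gen w.1.2 w.2.2.1.1),
      Finset.sum_congr rfl (fun (w : Om) _ => congrArg Nat.totient w.2.2.1.2), Finset.sum_const, smul_eq_mul,
      Finset.card_univ, Nat.card_eq_fintype_card]
  let act : MulAction (P : Subgroup G) Om :=
    { smul := fun g w => ⟨((g : G) * w.1.1 * (g : G)⁻¹, MulAut.conj (g : G) • w.1.2), by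
        refine ⟨?_, ⟨?_, ?_⟩, ?_⟩
        · exact (orderOf_injective (MulAut.conj (g : G)).toMonoidHom (MulAut.conj (g : G)).injective _).trans w.2.1
        · have := w.2.2.1.1
          exact isCyclic_of_surjective (Subgroup.equivSMul (MulAut.conj (g : G)) w.1.2)
            (Subgroup.equivSMul (MulAut.conj (g : G)) w.1.2).surjective
        · show Nat.card (MulAut.conj (g : G) • w.1.2 : Subgroup G) = p ^ s
          rw [Cfsg.Agent.H1.card_conj_smul]; exact w.2.2.1.2
        · intro c hc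
          have hc' := Cfsg.Agent.H1.mem_conj_smul.mp hc
          have h1 := w.2.2.2 _ hc'
          have h2 := h1.map (MulAut.conj (g : G)).toMonoidHom
          have h3 : (MulAut.conj (g : G)).toMonoidHom ((g : G)⁻¹ * c * g) = c := by
            show (g : G) * ((g : G)⁻¹ * c * g) * (g : G)⁻¹ = c
            group
          rw [h3] at h2
          exact h2⟩
      one_smul := fun w => Subtype.ext (Prod.ext (by
        show (1 : G) * w.1.1 * (1 : G)⁻¹ = w.1.1
        simp) (by
        show MulAut.conj (1 : G) • w.1.2 = w.1.2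
        rw [map_one, one_smul]))
      mul_smul := fun g h w => Subtype.ext (Prod.ext (by
        show ((g * h : (P : Subgroup G)) : G) * w.1.1 * ((g * h : (P : Subgroup G)) : G)⁻¹ = (g : G) * ((h : G) * w.1.1 * (h : G)⁻¹) * (g : G)⁻¹
        rw [Subgroup.coe_mul]; group) (by
        show MulAut.conj ((g * h : (P : Subgroup G)) : G) • w.1.2 = MulAut.conj (g : G) • (MulAut.conj (h : G) • w.1.2)
        rw [Subgroup.coe_mul, map_mul, mul_smul])) }
  have h1 := P.isPGroup'.card_modEq_card_fixedPoints Om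
  have h2 : Nat.card (MulAction.fixedPoints (P : Subgroup G) Om) = Nat.card ({v : G // orderOf v = m ∧ ∀ g ∈ (P : Subgroup G), g * v * g⁻¹ = v} ×
      {C : Subgroup (P : Subgroup G) // (IsCyclic C ∧ Nat.card C = p ^ s) ∧ ∀ g : (P : Subgroup G), MulAut.conj g • C = C}) := by
    have hCP : ∀ w : MulAction.fixedPoints (P : Subgroup G) Om, w.1.1.2 ≤ (P : Subgroup G) := by
      intro w
      apply le_sylow_of_normalizes P (IsPGroup.of_card (n := s) w.1.2.2.1.2)
      intro g hg
      exact congrArg (fun x : Om => x.1.2) (w.2 ⟨g, hg⟩)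
    refine Nat.card_congr ⟨fun w => (⟨w.1.1.1, w.1.2.1, fun g hg => congrArg (fun x : Om => x.1.1) (w.2 ⟨g, hg⟩)⟩,
      ⟨w.1.1.2.subgroupOf (P : Subgroup G), ⟨?_, ?_⟩, ?_⟩), fun y => ⟨⟨(y.1.1, y.2.1.map (P : Subgroup G).subtype), y.1.2.1, ⟨?_, ?_⟩, ?_⟩, ?_⟩, ?_, ?_⟩
    · have := w.1.2.2.1.1
      exact isCyclic_of_surjective (Subgroup.subgroupOfEquivOfLe (hCP w)).symm (Subgroup.subgroupOfEquivOfLe (hCP w)).symm.surjective
    · rw [Cfsg.Agent.H1.card_subgroupOf (hCP w)]; exact w.1.2.2.1.2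
    · intro g
      apply Subgroup.map_injective (P : Subgroup G).subtype_injective
      rw [Cfsg.Agent.H1.map_conj_smul, Subgroup.map_subgroupOf_eq_of_le (hCP w)]
      exact congrArg (fun x : Om => x.1.2) (w.2 g)
    · have := y.2.2.1.1
      exact isCyclic_of_surjective ((P : Subgroup G).subtype.subgroupMap y.2.1) ((P : Subgroup G).subtype.subgroupMap_surjective y.2.1)
    · show Nat.card (y.2.1.map (P : Subgroup G).subtype) = p ^ s
      rw [Cfsg.Agent.H1.card_map_subtype]; exact y.2.2.1.2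
    · rintro c ⟨c', hc', rfl⟩
      have h3 := y.1.2.2 _ c'.2
      exact mul_inv_eq_iff_eq_mul.mp h3
    · intro g
      refine Subtype.ext (Prod.ext (y.1.2.2 _ g.2) ?_)
      show MulAut.conj (g : G) • (y.2.1.map (P : Subgroup G).subtype) = y.2.1.map (P : Subgroup G).subtype
      have h3 := Cfsg.Agent.H1.map_conj_smul (P : Subgroup G).subtype g y.2.1
      rw [y.2.2.2 g] at h3
      exact h3.symm
    · intro w
      refine Subtype.ext (Subtype.ext (Prod.ext rfl ?_))
      exact Subgroup.map_subgroupOf_eq_of_le (hCP w)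
    · intro y
      refine Prod.ext rfl (Subtype.ext ?_)
      show (y.2.1.map (P : Subgroup G).subtype).subgroupOf (P : Subgroup G) = y.2.1
      rw [Subgroup.subgroupOf, Subgroup.comap_map_eq_self_of_injective (P : Subgroup G).subtype_injective]
  rw [h2, Nat.card_prod] at h1
  have h3 := dvd_card_ncyc P.isPGroup' hodd hP (s := s) hs
  have h4 : p ∣ Nat.card Om := (Nat.modEq_zero_iff_dvd).mp (h1.trans ((Nat.modEq_zero_iff_dvd).mpr (h3.mul_left _)))
  rw [hcount]
  obtain ⟨t, rfl⟩ : ∃ t, s = t + 1 := ⟨s - 1, by omega⟩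
  rw [Nat.totient_prime_pow_succ hp.out, pow_succ', ← mul_assoc]
  exact (Nat.mul_dvd_mul h4 (dvd_refl _)).mul_right _

/-- Let G be a finite group, p an odd prime dividing the order of G whose Sylow p-subgroups are not cyclic, and n = p^s·m with s > 1 and m coprime to p. Then the number of elements of G of order n is a multiple of p^s. -/
theorem result {G : Type*} [Group G] [Finite G] (p : ℕ) [Fact p.Prime] (hodd : p ≠ 2) (hpG : p ∣ Nat.card G)
    (P : Sylow p G) (hP : ¬ IsCyclic ↥(P : Subgroup G)) (s m : ℕ) (hs : 1 < s) (hm : Nat.Coprime p m) :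
    p ^ s ∣ Nat.card {g : G // orderOf g = p ^ s * m} := by
  exact main p hodd P hP s m hs hm

end Cfsg.Agent.S4003
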