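import Cfsg.Statements.S4004
import Cfsg.Agent.S3995
import Cfsg.Agent.S0144
import Cfsg.Agent.H25.FrobCount
import Cfsg.Agent.H2.InvNorm
import Cfsg.Agent.H2.Basic
import Cfsg.Agent.H1.Chief
import Cfsg.Agent.H23.Coprime5
import Cfsg.Agent.H23.RankOne

set_option autoImplicit false
set_option linter.style.haveILetI false
set_option linter.unusedVariables false
set_option linter.unusedSectionVars false
open Cfsg

namespace Cfsg.Agent.S4004

open Subgroup
open scoped Pointwise
open Cfsg.Agent.S3995 (sc sc_sum sc_dvd sc_one sc_ne_zero sc_ne_one)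

section count
variable {G : Type*} [Group G] [Finite G]

theorem totient_dvd (k : ℕ) : Nat.totient k ∣ sc G k := by
  classical
  apply H25.dvd_card_of_fiber (fun g : {g : G // orderOf g = k} => zpowers (g : G))
  intro a
  haveI : Fintype (zpowers (a : G)) := Fintype.ofFinite _
  have h1 : Nat.card {b : {g : G // orderOf g = k} // zpowers (b : G) = zpowers (a : G)} =
      Nat.card {y : zpowers (a : G) // orderOf y = k} := Nat.card_congr
    { toFun := fun b => ⟨⟨b.1.1, b.2.le (mem_zpowers _)⟩, by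
        rw [Subgroup.orderOf_mk]; exact b.1.2⟩
      invFun := fun y => ⟨⟨y.1.1, by rw [Subgroup.orderOf_coe, y.2]⟩, by
        apply Subgroup.eq_of_le_of_card_ge (zpowers_le.2 y.1.2)
        show Nat.card (zpowers (a : G)) ≤ Nat.card (zpowers (y.1.1 : G))
        rw [Nat.card_zpowers, Nat.card_zpowers, a.2, Subgroup.orderOf_coe, y.2]⟩
      left_inv := fun b => rfl
      right_inv := fun y => rfl }
  rw [h1, Nat.card_eq_fintype_card, Fintype.card_subtype, IsCyclic.card_orderOf_eq_totient]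
  rw [← Nat.card_eq_fintype_card, Nat.card_zpowers, a.2]

theorem dvd_sc_of_sq {p k : ℕ} (hp : p.Prime) (h : p ^ 2 ∣ k) : p ∣ sc G k := by
  refine Dvd.dvd.trans ?_ ((Nat.totient_dvd_of_dvd h).trans (totient_dvd k))
  rw [Nat.totient_prime_pow hp (by norm_num)]
  exact ⟨p - 1, by simp⟩

theorem two_mul_le {p r : ℕ} (hp : p.Prime) (hr : r.Prime) (hne : p ≠ r) (hr2 : r ≠ 2)
    (h : ∀ u : G, orderOf u = p → ∃ v, orderOf v = r ∧ Commute u v) :
    2 * sc G p ≤ sc G (p * r) := by
  classical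
  choose! c hc1 hc2 using h
  have hco : Nat.Coprime p r := (Nat.coprime_primes hp hr).2 hne
  let f : {u : G // orderOf u = p} × Bool → {g : G // orderOf g = p * r} := fun x =>
    if x.2 then ⟨x.1.1 * c x.1.1, by
      rw [(hc2 _ x.1.2).orderOf_mul_eq_mul_orderOf_of_coprime (by rw [x.1.2, hc1 _ x.1.2]; exact hco),
        x.1.2, hc1 _ x.1.2]⟩
    else ⟨x.1.1 * (c x.1.1)⁻¹, by
      rw [(hc2 _ x.1.2).inv_right.orderOf_mul_eq_mul_orderOf_of_coprime
        (by rw [orderOf_inv, x.1.2, hc1 _ x.1.2]; exact hco), orderOf_inv, x.1.2, hc1 _ x.1.2]⟩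
  obtain ⟨m, hm1, hm2⟩ := Nat.chineseRemainder hco 1 0
  have hpow : ∀ x, ((f x : G)) ^ m = x.1.1 := by
    intro x
    have e1 : x.1.1 ^ m = x.1.1 := by
      conv_rhs => rw [← pow_one x.1.1]
      rw [pow_eq_pow_iff_modEq, x.1.2]
      exact hm1
    have e2 : (c x.1.1) ^ m = 1 := by
      rw [← orderOf_dvd_iff_pow_eq_one, hc1 _ x.1.2]
      exact (Nat.modEq_zero_iff_dvd).1 hm2
    by_cases hx : x.2
    · have : (f x : G) = x.1.1 * c x.1.1 := by simp [f, hx]
      rw [this, (hc2 _ x.1.2).mul_pow, e1, e2, mul_one]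
    · have : (f x : G) = x.1.1 * (c x.1.1)⁻¹ := by simp [f, hx]
      rw [this, (hc2 _ x.1.2).inv_right.mul_pow, e1, inv_pow, e2, inv_one, mul_one]
  have hinj : Function.Injective f := by
    rintro ⟨x, i⟩ ⟨y, j⟩ hxy
    have h1 : x = y := by
      apply Subtype.ext
      have e1 := hpow (x, i)
      have e2 := hpow (y, j)
      rw [hxy] at e1
      exact e1.symm.trans e2
    subst h1
    have h2 : c x.1 ≠ (c x.1)⁻¹ := by
      intro h
      have h3 : (c x.1) ^ 2 = 1 := by
        rw [pow_two]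
        nth_rw 2 [h]
        exact mul_inv_cancel _
      have h4 := orderOf_dvd_of_pow_eq_one h3
      rw [hc1 _ x.2] at h4
      exact hr2 ((Nat.prime_dvd_prime_iff_eq hr Nat.prime_two).1 h4)
    have h3 : (f (x, i) : G) = f (x, j) := congrArg Subtype.val hxy
    cases i <;> cases j
    · rfl
    · exfalso
      simp only [f, if_true, Bool.false_eq_true, if_false] at h3
      exact h2 (mul_left_cancel h3).symm
    · exfalso
      simp only [f, if_true, Bool.false_eq_true, if_false] at h3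
      exact h2 (mul_left_cancel h3)
    · rfl
  have h5 := Nat.card_le_card_of_injective f hinj
  rw [Nat.card_prod] at h5
  have h6 : Nat.card Bool = 2 := by simp
  rw [h6, mul_comm] at h5
  exact h5

theorem exists_commute {p k : ℕ} [hp : Fact p.Prime] (P : Sylow p G) (h : ¬ p ∣ sc G k) :
    ∃ w : G, orderOf w = k ∧ ∀ g ∈ (P : Subgroup G), g * w = w * g := by
  letI act : MulAction P {w : G // orderOf w = k} :=
    { smul := fun a g => ⟨(a : G) * g.1 * (a : G)⁻¹, by
        have := (MulAut.conj (a : G)).orderOf_eq g.1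
        exact this.trans g.2⟩
      one_smul := fun g => Subtype.ext (by
        show ((1 : P) : G) * g * ((1 : P) : G)⁻¹ = g
        simp)
      mul_smul := fun a b g => Subtype.ext (by
        show ((a * b : P) : G) * g * ((a * b : P) : G)⁻¹ = a * (b * g * (b : G)⁻¹) * (a : G)⁻¹
        simp [mul_assoc]) }
  obtain ⟨w, hw⟩ := P.2.nonempty_fixed_point_of_prime_not_dvd_card {w : G // orderOf w = k} h
  refine ⟨w, w.2, fun g hg => ?_⟩
  have h3 : g * (w : G) * g⁻¹ = w := congrArg Subtype.val (hw ⟨g, hg⟩)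
  rwa [mul_inv_eq_iff_eq_mul] at h3

theorem mem_sylow_of_order {p : ℕ} [hp : Fact p.Prime] {x : G} (h : orderOf x = p) :
    ∃ Q : Sylow p G, x ∈ (Q : Subgroup G) := by
  have h3 : IsPGroup p (zpowers x) := IsPGroup.of_card (n := 1) (by rw [Nat.card_zpowers, h, pow_one])
  obtain ⟨Q, hQ⟩ := h3.exists_le_sylow
  exact ⟨Q, hQ (mem_zpowers x)⟩

theorem two_mul_le' {p r : ℕ} (hp : p.Prime) (hr : r.Prime) (hne : p ≠ r) (hr2 : r ≠ 2)
    (h : ¬ p ∣ sc G r) : 2 * sc G p ≤ sc G (p * r) := by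
  haveI : Fact p.Prime := ⟨hp⟩
  obtain ⟨P⟩ : Nonempty (Sylow p G) := inferInstance
  obtain ⟨w, hw, hPw⟩ := exists_commute P h
  apply two_mul_le hp hr hne hr2
  intro u hu
  obtain ⟨Q, hQ⟩ := mem_sylow_of_order hu
  obtain ⟨g, hg⟩ := MulAction.exists_smul_eq G P Q
  refine ⟨g * w * g⁻¹, ?_, ?_⟩
  · rw [← hw]
    exact (MulAut.conj g).orderOf_eq w
  · rw [← hg] at hQ
    have hx' : u ∈ MulAut.conj g • (P : Subgroup G) := hQ
    rw [Subgroup.mem_pointwise_smul_iff_inv_smul_mem] at hx'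
    have h2 : g⁻¹ * u * g ∈ (P : Subgroup G) := by
      simpa [MulAut.smul_def, ← map_inv] using hx'
    have h3 := hPw _ h2
    show u * (g * w * g⁻¹) = (g * w * g⁻¹) * u
    calc u * (g * w * g⁻¹) = g * ((g⁻¹ * u * g) * w) * g⁻¹ := by group
      _ = g * (w * (g⁻¹ * u * g)) * g⁻¹ := by rw [h3]
      _ = (g * w * g⁻¹) * u := by group

theorem frob1 {p : ℕ} (hp : p.Prime) (hd : p ∣ Nat.card G) : ((sc G p : ℕ) : ZMod p) = -1 := by
  have h1 := sc_dvd (G := G) p hd
  rw [hp.divisors, Finset.sum_pair hp.one_lt.ne, sc_one] at h1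
  have h2 := (ZMod.natCast_eq_zero_iff _ _).2 h1
  push_cast at h2
  linear_combination h2

theorem sum_pq {p q : ℕ} (hp : p.Prime) (hq : q.Prime) (hne : p ≠ q) :
    ∑ d ∈ (p * q).divisors, sc G d = 1 + sc G p + sc G q + sc G (p * q) := by
  classical
  have h1 : (p * q).divisors = {1, p, q, p * q} := by
    ext d
    simp only [Nat.mem_divisors, Finset.mem_insert, Finset.mem_singleton]
    constructor
    · rintro ⟨h, -⟩
      obtain ⟨a, b, ha, hb, rfl⟩ := (Nat.dvd_mul).1 h
      rcases (Nat.dvd_prime hp).1 ha with rfl | rfl <;>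
        rcases (Nat.dvd_prime hq).1 hb with rfl | rfl <;> simp
    · have h0 : p * q ≠ 0 := Nat.mul_ne_zero hp.ne_zero hq.ne_zero
      rintro (rfl | rfl | rfl | rfl)
      · exact ⟨one_dvd _, h0⟩
      · exact ⟨Dvd.intro _ rfl, h0⟩
      · exact ⟨Dvd.intro_left _ rfl, h0⟩
      · exact ⟨dvd_rfl, h0⟩
  have e1 := hp.one_lt
  have e2 := hq.one_lt
  have e3 : p < p * q := by nlinarith
  have e4 : q < p * q := by nlinarith
  rw [h1, Finset.sum_insert (by simp; omega), Finset.sum_insert (by simp; omega),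
    Finset.sum_insert (by simp; omega), Finset.sum_singleton, sc_one]
  ring

theorem frob2 {p q : ℕ} (hp : p.Prime) (hq : q.Prime) (hne : p ≠ q) (hd : p ∣ Nat.card G)
    (hd' : q ∣ Nat.card G) :
    (1 : ZMod p) + (sc G p : ZMod p) + (sc G q : ZMod p) + (sc G (p * q) : ZMod p) = 0 := by
  have h1 : p * q ∣ Nat.card G := ((Nat.coprime_primes hp hq).2 hne).mul_dvd_of_dvd_of_dvd hd hd'
  have h2 := sc_dvd (G := G) (p * q) h1
  rw [sum_pq hp hq hne] at h2
  have h3 := (ZMod.natCast_eq_zero_iff _ _).2 (dvd_of_mul_right_dvd h2)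
  push_cast at h3
  exact h3

theorem le_card {p q : ℕ} (hp : p.Prime) (hq : q.Prime) (hne : p ≠ q) :
    1 + sc G p + sc G q + sc G (p * q) ≤ Nat.card G := by
  rw [← sum_pq hp hq hne, ← sc_sum (p * q) (Nat.mul_ne_zero hp.ne_zero hq.ne_zero)]
  exact Nat.card_le_card_of_injective (Subtype.val : {g : G // g ^ (p * q) = 1} → G) Subtype.val_injective

/-- if there are no elements of order `r²` then `r ^ α ∣ 1 + sc r`. -/
theorem pow_dvd {r : ℕ} (hr : r.Prime) (h : sc G (r ^ 2) = 0) (α : ℕ) (hα : 0 < α)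
    (hd : r ^ α ∣ Nat.card G) : r ^ α ∣ 1 + sc G r := by
  have h1 := sc_dvd (G := G) (r ^ α) hd
  rw [Nat.sum_divisors_prime_pow hr, Finset.sum_range_succ'] at h1
  obtain ⟨β, rfl⟩ : ∃ β, α = β + 1 := ⟨α - 1, by omega⟩
  rw [Finset.sum_range_succ'] at h1
  have h2 : ∀ k ∈ Finset.range β, sc G (r ^ (k + 1 + 1)) = 0 := by
    intro k _
    by_contra hk
    have h3 : ∃ x : G, orderOf x = r ^ (k + 1 + 1) := by
      by_contra hcon
      push Not at hcon
      apply hk
      rw [sc, Nat.card_eq_zero]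
      left
      exact ⟨fun x => hcon x.1 x.2⟩
    obtain ⟨x, hx⟩ := h3
    have h4 : orderOf (x ^ (r ^ k)) = r ^ 2 := by
      rw [orderOf_pow, hx, Nat.gcd_eq_right (pow_dvd_pow r (by omega)),
        Nat.pow_div (by omega) hr.pos]
      congr 1
      omega
    have h5 := sc_ne_zero (x := x ^ (r ^ k))
    rw [h4] at h5
    exact h5 h
  rw [Finset.sum_eq_zero h2] at h1
  simp only [zero_add, pow_one, pow_zero, sc_one] at h1
  rw [add_comm (1 : ℕ) (sc G r)]
  exact h1

theorem sc_ne_zero_of_dvd {p : ℕ} (hp : p.Prime) (hd : p ∣ Nat.card G) : sc G p ≠ 0 := by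
  haveI : Fact p.Prime := ⟨hp⟩
  obtain ⟨x, hx⟩ := exists_prime_orderOf_dvd_card' (G := G) p hd
  rw [← hx]
  exact sc_ne_zero

/-- among three element orders two have the same size -/
def T (G : Type*) [Group G] : Prop := ∀ k1 k2 k3 : ℕ, k1 ≠ 1 → k2 ≠ 1 → k3 ≠ 1 → sc G k1 ≠ 0 →
  sc G k2 ≠ 0 → sc G k3 ≠ 0 → (sc G k1 = sc G k2 ∨ sc G k1 = sc G k3 ∨ sc G k2 = sc G k3)

theorem two_ne {p : ℕ} (hp : p.Prime) (hp2 : p ≠ 2) : (2 : ZMod p) ≠ 0 := by
  intro h
  have h1 : ((2 : ℕ) : ZMod p) = 0 := by exact_mod_cast h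
  rw [ZMod.natCast_eq_zero_iff] at h1
  exact hp2 ((Nat.prime_dvd_prime_iff_eq hp Nat.prime_two).1 h1)

theorem pq_ne (hodd : Odd (Nat.card G)) {p q : ℕ} (hp : p.Prime) (hq : q.Prime) (hne : p ≠ q)
    (hd : p ∣ Nat.card G) (hd' : q ∣ Nat.card G) : sc G (p * q) ≠ sc G p := by
  intro h
  haveI : Fact p.Prime := ⟨hp⟩
  have hq2 : q ≠ 2 := by
    rintro rfl
    exact (Nat.not_even_iff_odd.2 hodd) (even_iff_two_dvd.2 hd')
  have h1 := frob1 (G := G) hp hd
  have h2 := frob2 (G := G) hp hq hne hd hd'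
  rw [h] at h2
  have h3 : ((sc G q : ℕ) : ZMod p) = 1 := by linear_combination h2 - 2 * h1
  have h4 : ¬ p ∣ sc G q := by
    rw [← ZMod.natCast_eq_zero_iff, h3]
    exact one_ne_zero
  have h5 := two_mul_le' hp hq hne hq2 h4
  have h6 := sc_ne_zero_of_dvd (G := G) hp hd
  omega

theorem eq_case (hodd : Odd (Nat.card G)) {p q : ℕ} (hp : p.Prime) (hq : q.Prime) (hne : p ≠ q)
    (hd : p ∣ Nat.card G) (hd' : q ∣ Nat.card G) (he : sc G p = sc G q) :
    sc G (p * q) ≠ 0 ∧ sc G (p * q) ≠ sc G p ∧ ((sc G (p * q) : ℕ) : ZMod p) = 1 := by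
  haveI : Fact p.Prime := ⟨hp⟩
  have h1 := frob1 (G := G) hp hd
  have h2 := frob2 (G := G) hp hq hne hd hd'
  rw [← he] at h2
  have h3 : ((sc G (p * q) : ℕ) : ZMod p) = 1 := by linear_combination h2 - 2 * h1
  refine ⟨fun h => ?_, pq_ne hodd hp hq hne hd hd', h3⟩
  rw [h] at h3
  simp at h3

theorem no_eq (hodd : Odd (Nat.card G)) (hT : T G) {p q : ℕ} (hp : p.Prime) (hq : q.Prime)
    (hne : p ≠ q) (hd : p ∣ Nat.card G) (hd' : q ∣ Nat.card G) : sc G p ≠ sc G q := by
  intro he
  have hpr2 : ∀ r : ℕ, r ∣ Nat.card G → r ≠ 2 := by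
    rintro r hr rfl
    exact (Nat.not_even_iff_odd.2 hodd) (even_iff_two_dvd.2 hr)
  obtain ⟨hb0, hba, hbp⟩ := eq_case hodd hp hq hne hd hd' he
  have hsp := sc_ne_zero_of_dvd (G := G) hp hd
  have hpq1 : p * q ≠ 1 := by
    intro h
    exact hp.one_lt.ne' (Nat.eq_one_of_mul_eq_one_right h)
  have hab : ∀ k : ℕ, k ≠ 1 → sc G k ≠ 0 → sc G k = sc G p ∨ sc G k = sc G (p * q) := by
    intro k hk hk0
    rcases hT k p (p * q) hk hp.one_lt.ne' hpq1 hk0 hsp hb0 with h | h | h
    · exact Or.inl h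
    · exact Or.inr h
    · exact absurd h.symm hba
  -- all primes have the same value
  have hall : ∀ r : ℕ, r.Prime → r ∣ Nat.card G → sc G r = sc G p := by
    intro r hr hrd
    by_contra hrne
    have hrb : sc G r = sc G (p * q) :=
      (hab r hr.one_lt.ne' (sc_ne_zero_of_dvd hr hrd)).resolve_left hrne
    have hrp : p ≠ r := by
      rintro rfl
      exact hrne rfl
    haveI : Fact p.Prime := ⟨hp⟩
    have h4 : ¬ p ∣ sc G r := by
      rw [← ZMod.natCast_eq_zero_iff, hrb, hbp]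
      exact one_ne_zero
    have h5 := two_mul_le' hp hr hrp (hpr2 r hrd) h4
    have hpr1 : p * r ≠ 1 := fun h => hp.one_lt.ne' (Nat.eq_one_of_mul_eq_one_right h)
    have h6 : sc G (p * r) = sc G (p * q) := by
      refine (hab _ hpr1 (by omega)).resolve_left (fun h => ?_)
      omega
    have h7 := frob2 (G := G) hp hr hrp hd hrd
    have h8 := frob1 (G := G) hp hd
    rw [h6, hrb] at h7
    have h9 : (2 : ZMod p) = 0 := by linear_combination h7 - h8 - 2 * hbp
    exact two_ne hp (hpr2 p hd) h9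
  have hsq : ∀ r : ℕ, r.Prime → r ∣ Nat.card G → sc G (r ^ 2) = 0 := by
    intro r hr hrd
    by_contra h0
    haveI : Fact r.Prime := ⟨hr⟩
    have h1 := dvd_sc_of_sq (G := G) hr (dvd_refl (r ^ 2))
    have hr1 : r ^ 2 ≠ 1 := by
      have := hr.one_lt
      nlinarith [hr.one_lt, sq_nonneg r]
    have hbr : ((sc G (p * q) : ℕ) : ZMod r) = 1 := by
      by_cases hrp : r = p
      · subst hrp
        exact hbp
      · have h2 := eq_case hodd hr hp hrp hrd hd (hall r hr hrd)
        have hpr1 : r * p ≠ 1 := fun h => hr.one_lt.ne' (Nat.eq_one_of_mul_eq_one_right h)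
        rcases hab (r * p) hpr1 h2.1 with h3 | h3
        · exact absurd (h3.trans (hall r hr hrd).symm) h2.2.1
        · rw [← h3]
          exact h2.2.2
    rw [← ZMod.natCast_eq_zero_iff] at h1
    rcases hab _ hr1 h0 with h2 | h2
    · rw [h2, ← hall r hr hrd, frob1 hr hrd] at h1
      exact one_ne_zero (neg_eq_zero.1 h1)
    · rw [h2, hbr] at h1
      exact one_ne_zero h1
  have hdvd : Nat.card G ∣ 1 + sc G p := by
    rw [Nat.dvd_iff_prime_pow_dvd_dvd]
    intro r k hr hk
    rcases Nat.eq_zero_or_pos k with rfl | hk0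
    · simp
    · have hrd : r ∣ Nat.card G := (dvd_pow_self r hk0.ne').trans hk
      have := pow_dvd hr (hsq r hr hrd) k hk0 hk
      rwa [hall r hr hrd] at this
  have h1 := Nat.le_of_dvd (by omega) hdvd
  have h2 := le_card (G := G) hp hq hne
  omega

end count

section struct
universe u
variable {G : Type u} [Group G] [Finite G]

theorem no_pq (hodd : Odd (Nat.card G)) (hT : T G) {p q : ℕ} (hp : p.Prime) (hq : q.Prime)
    (hne : p ≠ q) (hd : p ∣ Nat.card G) (hd' : q ∣ Nat.card G) : sc G (p * q) = 0 := by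
  by_contra h0
  rcases hT p q (p * q) hp.one_lt.ne' hq.one_lt.ne'
    (fun h => hp.one_lt.ne' (Nat.eq_one_of_mul_eq_one_right h))
    (sc_ne_zero_of_dvd hp hd) (sc_ne_zero_of_dvd hq hd') h0 with h | h | h
  · exact no_eq hodd hT hp hq hne hd hd' h
  · exact pq_ne hodd hp hq hne hd hd' h.symm
  · rw [mul_comm] at h
    exact pq_ne hodd hq hp hne.symm hd' hd h.symm

theorem no_comm {p q : ℕ} (hp : p.Prime) (hq : q.Prime) (hne : p ≠ q) (h : sc G (p * q) = 0)
    {u v : G} (hu : orderOf u = p) (hv : orderOf v = q) : ¬ u * v = v * u := by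
  intro hc
  have h1 : orderOf (u * v) = p * q := by
    rw [Commute.orderOf_mul_eq_mul_orderOf_of_coprime hc
      (by rw [hu, hv]; exact (Nat.coprime_primes hp hq).2 hne), hu, hv]
  have h2 := sc_ne_zero (x := u * v)
  rw [h1] at h2
  exact h2 h

theorem no_sq (hodd : Odd (Nat.card G)) (hT : T G) {p q : ℕ} (hp : p.Prime) (hq : q.Prime)
    (hne : p ≠ q) (hd : p ∣ Nat.card G) (hd' : q ∣ Nat.card G) : sc G (p ^ 2) = 0 := by
  by_contra h0
  haveI : Fact p.Prime := ⟨hp⟩
  haveI : Fact q.Prime := ⟨hq⟩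
  have h1 := dvd_sc_of_sq (G := G) hp (dvd_refl (p ^ 2))
  have hp1 : p ^ 2 ≠ 1 := by
    nlinarith [hp.one_lt]
  have hpp := frob1 (G := G) hp hd
  have hqq := frob1 (G := G) hq hd'
  rcases hT p q (p ^ 2) hp.one_lt.ne' hq.one_lt.ne' hp1
    (sc_ne_zero_of_dvd hp hd) (sc_ne_zero_of_dvd hq hd') h0 with h | h | h
  · exact no_eq hodd hT hp hq hne hd hd' h
  · rw [← h, ← ZMod.natCast_eq_zero_iff, hpp] at h1
    exact one_ne_zero (neg_eq_zero.1 h1)
  · have h2 : ¬ q ∣ sc G (p ^ 2) := by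
      rw [← h, ← ZMod.natCast_eq_zero_iff, hqq]
      exact fun h3 => one_ne_zero (neg_eq_zero.1 h3)
    obtain ⟨z, hz⟩ := exists_prime_orderOf_dvd_card' (G := G) q hd'
    obtain ⟨Q, hQ⟩ := mem_sylow_of_order hz
    obtain ⟨w, hw, hQw⟩ := exists_commute Q h2
    have h3 : orderOf (w ^ p) = p := by
      rw [orderOf_pow, hw, Nat.gcd_eq_right (Dvd.intro_left _ (by rw [pow_two])), pow_two,
        Nat.mul_div_cancel _ hp.pos]
    have hc0 : Commute z w := hQw z hQ
    have hc : Commute z (w ^ p) := hc0.pow_right p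
    exact no_comm hp hq hne (no_pq hodd hT hp hq hne hd hd') h3 hz hc.symm.eq

theorem pow_prime_eq_one {p : ℕ} (hp : p.Prime) (h : sc G (p ^ 2) = 0) {x : G}
    (hx : ∃ k : ℕ, x ^ (p ^ k) = 1) : x ^ p = 1 := by
  obtain ⟨k, hk⟩ := hx
  obtain ⟨j, -, hj⟩ := (Nat.dvd_prime_pow hp).1 (orderOf_dvd_of_pow_eq_one hk)
  rw [← orderOf_dvd_iff_pow_eq_one, hj]
  rcases Nat.lt_or_ge j 2 with h2 | h2
  · interval_cases j
    · simp
    · simp
  · exfalso
    have h4 : orderOf (x ^ (p ^ (j - 2))) = p ^ 2 := by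
      rw [orderOf_pow, hj, Nat.gcd_eq_right (pow_dvd_pow p (by omega)),
        Nat.pow_div (by omega) hp.pos]
      congr 1
      omega
    have h5 := sc_ne_zero (x := x ^ (p ^ (j - 2)))
    rw [h4] at h5
    exact h5 h

theorem orderOf_of_pow {p : ℕ} (hp : p.Prime) {x : G} (hx : x ^ p = 1) (hx1 : x ≠ 1) :
    orderOf x = p := by
  rcases (Nat.dvd_prime hp).1 (orderOf_dvd_of_pow_eq_one hx) with h | h
  · exact absurd (orderOf_eq_one_iff.1 h) hx1
  · exact h

theorem mem_pow {p : ℕ} {P : Subgroup G} (hP : IsPGroup p P) {x : G} (hx : x ∈ P) :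
    ∃ k : ℕ, x ^ (p ^ k) = 1 := by
  obtain ⟨k, hk⟩ := hP ⟨x, hx⟩
  refine ⟨k, ?_⟩
  have := congrArg (fun z : P => (z : G)) hk
  simpa using this

theorem exponent_eq {p : ℕ} [hp : Fact p.Prime] (h : sc G (p ^ 2) = 0) (hd : p ∣ Nat.card G)
    (P : Sylow p G) : Monoid.exponent (P : Subgroup G) = p := by
  have h1 : Monoid.exponent (P : Subgroup G) ∣ p := by
    apply Monoid.exponent_dvd_of_forall_pow_eq_one
    intro x
    apply Subtype.ext
    rw [Subgroup.coe_pow]
    exact pow_prime_eq_one hp.out h (mem_pow P.2 x.2)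
  rcases (Nat.dvd_prime hp.out).1 h1 with h2 | h2
  · exfalso
    obtain ⟨z, hz⟩ := exists_prime_orderOf_dvd_card' (G := P) p (by
      rw [P.card_eq_multiplicity]
      exact dvd_pow_self p (hp.out.factorization_pos_of_dvd Nat.card_pos.ne' hd).ne')
    have h3 := Monoid.order_dvd_exponent z
    rw [h2, hz] at h3
    exact hp.out.one_lt.ne' (Nat.dvd_one.1 h3)
  · exact h2

theorem not_sq_dvd {r s : ℕ} (hr : r.Prime) (hs : s.Prime) (hne : r ≠ s) (h : sc G (r * s) = 0)
    (hr2 : sc G (r ^ 2) = 0) (hs2 : sc G (s ^ 2) = 0) (V : Subgroup G) [hV : V.Normal] (hV1 : V ≠ ⊥)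
    (hVr : IsPGroup r V) : ¬ s ^ 2 ∣ Nat.card G := by
  intro hd
  haveI : Fact s.Prime := ⟨hs⟩
  haveI : Fact r.Prime := ⟨hr⟩
  obtain ⟨E, hE⟩ := Sylow.exists_subgroup_card_pow_prime s hd
  have hEc : IsMulCommutative E := ⟨⟨fun a b => Subtype.ext (H23.comm_of_card_sq hE a a.2 b b.2)⟩⟩
  have hnc : ¬ IsCyclic E := by
    intro hc
    obtain ⟨g, hg⟩ := hc.exists_ofOrder_eq_natCard
    have h5 := sc_ne_zero (x := (g : G))
    rw [Subgroup.orderOf_coe, hg, hE] at h5
    exact h5 hs2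
  have hn : E ≤ normalizer (V : Set G) := by
    rw [normalizer_eq_top]
    exact le_top
  have hcop : (Nat.card E).Coprime (Nat.card V) := by
    obtain ⟨n, hn⟩ := IsPGroup.iff_card.1 hVr
    rw [hE, hn]
    exact Nat.Coprime.pow _ _ ((Nat.coprime_primes hs hr).2 hne.symm)
  have h1 := H23.iSup_centralizer_of_not_isCyclic hEc hnc hn hcop
  apply hV1
  rw [← h1, eq_bot_iff]
  apply iSup_le
  rintro ⟨a, haE, ha1⟩ v ⟨hvV, hvc⟩
  by_contra hv1
  have hv1' : v ≠ 1 := fun h => hv1 (mem_bot.2 h)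
  have hEp : IsPGroup s E := IsPGroup.of_card hE
  have e1 := orderOf_of_pow hs (pow_prime_eq_one hs hs2 (mem_pow hEp haE)) ha1
  have e2 := orderOf_of_pow hr (pow_prime_eq_one hr hr2 (mem_pow hVr hvV)) hv1'
  exact no_comm hr hs hne h e2 e1 (mem_centralizer_singleton_iff.1 hvc)

theorem prod_pow (V : Subgroup G) [hV : V.Normal] (hVc : ∀ a ∈ V, ∀ b ∈ V, a * b = b * a) (x : G)
    (v : V) :
    letI : CommGroup V := { (inferInstance : Group V) with
      mul_comm := fun a b => Subtype.ext (hVc a a.2 b b.2) }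
    ∀ n : ℕ, ((∏ i ∈ Finset.range n, MulAut.conjNormal (x ^ i) v : V) : G) * x ^ n = ((v : G) * x) ^ n := by
  letI instV : CommGroup V := { (inferInstance : Group V) with
    mul_comm := fun a b => Subtype.ext (hVc a a.2 b b.2) }
  intro n
  induction n with
  | zero => simp
  | succ n ih =>
    rw [Finset.prod_range_succ, Subgroup.coe_mul, pow_succ (((v : G) * x)), ← ih,
      MulAut.conjNormal_apply, pow_succ]
    group

theorem norm_eq {r s : ℕ} (hr : r.Prime) (hs : s.Prime) (hne : r ≠ s) (h : sc G (r * s) = 0)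
    (hr2 : sc G (r ^ 2) = 0) (V : Subgroup G) [hV : V.Normal] (hV1 : V ≠ ⊥)
    (hVc : ∀ a ∈ V, ∀ b ∈ V, a * b = b * a)
    (hVr : ∀ x ∈ V, x ^ r = 1) (S : Subgroup G) (hS : Nat.card S = s) {x : G}
    (hx : x ∈ normalizer (S : Set G)) (hxr : orderOf x = r) : False := by
  classical
  haveI : Fact s.Prime := ⟨hs⟩
  haveI : Fact r.Prime := ⟨hr⟩
  letI instV : CommGroup V := { (inferInstance : Group V) with
    mul_comm := fun a b => Subtype.ext (hVc a a.2 b b.2) }
  set L := S ⊔ zpowers x with hL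
  have hSL : S ≤ L := le_sup_left
  have hxL : zpowers x ≤ L := le_sup_right
  have hSs : ∀ z ∈ S, z ≠ 1 → orderOf z = s := by
    intro z hz hz1
    have h1 := H2.orderOf_dvd_card_of_mem hz
    rw [hS] at h1
    rcases (Nat.dvd_prime hs).1 h1 with h2 | h2
    · exact absurd (orderOf_eq_one_iff.1 h2) hz1
    · exact h2
  have hXs : ∀ z ∈ zpowers x, z ≠ 1 → orderOf z = r := by
    intro z hz hz1
    have h1 := H2.orderOf_dvd_card_of_mem hz
    rw [Nat.card_zpowers, hxr] at h1
    rcases (Nat.dvd_prime hr).1 h1 with h2 | h2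
    · exact absurd (orderOf_eq_one_iff.1 h2) hz1
    · exact h2
  obtain ⟨z, hzS, hzo⟩ := H2.exists_mem_orderOf_eq_prime (p := s) (A := S) (by rw [hS])
  have hKn : (S.subgroupOf L).Normal :=
    (normal_subgroupOf_iff_le_normalizer hSL).2 (sup_le le_normalizer (zpowers_le.2 hx))
  have hdisj : Disjoint (S.subgroupOf L) ((zpowers x).subgroupOf L) := by
    rw [disjoint_iff, eq_bot_iff]
    rintro a ⟨ha1, ha2⟩
    by_contra ha
    have ha' : (a : G) ≠ 1 := fun h => ha (mem_bot.2 (Subtype.ext h))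
    have e1 := hSs a (mem_subgroupOf.1 ha1) ha'
    have e2 := hXs a (mem_subgroupOf.1 ha2) ha'
    exact hne (e2.symm.trans e1)
  have hc : IsComplement' (S.subgroupOf L) ((zpowers x).subgroupOf L) := by
    apply isComplement'_of_disjoint_and_mul_eq_univ hdisj
    rw [← Subgroup.normal_mul, ← Subgroup.subgroupOf_sup hSL hxL, ← hL, subgroupOf_self]
    rfl
  let φ : L →* MulAut V := (MulAut.conjNormal : G →* MulAut V).comp L.subtype
  have hφ : ∀ (k : L) (v : V), ((φ k v : V) : G) = (k : G) * v * (k : G)⁻¹ := by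
    intro k v
    exact MulAut.conjNormal_apply _ _
  have key := H2.InvNorm.frob_norm' φ (S.subgroupOf L) ((zpowers x).subgroupOf L) hKn hc ?_ ?_ ?_
  · apply hV1
    rw [eq_bot_iff]
    intro v hv
    by_contra hv1
    have hv1' : v ≠ 1 := fun h => hv1 (mem_bot.2 h)
    have e1 : v ^ s = 1 := by
      have := key ⟨v, hv⟩
      rw [Nat.card_congr (subgroupOfEquivOfLe hSL).toEquiv, hS] at this
      exact congrArg Subtype.val this
    have e2 := orderOf_of_pow hr (hVr v hv) hv1'
    have e3 := orderOf_of_pow hs e1 hv1'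
    exact hne (e2.symm.trans e3)
  · intro a ha ha1 k hk hak
    by_contra hk1
    have e1 := hSs k (mem_subgroupOf.1 hk) (fun h => hk1 (Subtype.ext h))
    have e2 := hXs a (mem_subgroupOf.1 ha) (fun h => ha1 (Subtype.ext h))
    exact no_comm hr hs hne h e2 e1 (congrArg Subtype.val hak)
  · intro v hv
    by_contra hv1
    have e2 := orderOf_of_pow hr (hVr v v.2) (fun h => hv1 (Subtype.ext h))
    have e3 := hv ⟨z, hSL hzS⟩ (mem_subgroupOf.2 hzS)
    have e4 := congrArg Subtype.val e3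
    rw [hφ] at e4
    have e5 : z * (v : G) = v * z := by
      have e6 : z * (v : G) * z⁻¹ = v := e4
      rwa [mul_inv_eq_iff_eq_mul] at e6
    exact no_comm hr hs hne h e2 hzo e5.symm
  · intro _ v
    have e1 := prod_pow V hVc x v r
    have e0 : x ^ r = 1 := by rw [← hxr, pow_orderOf_eq_one]
    have e2 : ((v : G) * x) ^ r = 1 := by
      apply pow_prime_eq_one hr hr2
      refine ⟨2, ?_⟩
      rw [pow_two, pow_mul, ← e1, e0, mul_one]
      exact hVr _ (Subtype.property _)
    rw [e2, e0, mul_one] at e1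
    have e3 : (∏ i ∈ Finset.range r, MulAut.conjNormal (x ^ i) v : V) = 1 := Subtype.ext e1
    rw [← e3, Finset.prod_range, ← hxr]
    symm
    refine Fintype.prod_equiv ((finEquivZPowers (isOfFinOrder_of_finite x)).trans
      (subgroupOfEquivOfLe hxL).symm.toEquiv) _ _ ?_
    intro i
    rfl

theorem main_struct (hodd : Odd (Nat.card G)) (hT : T G)
    (h2 : (Nat.card G).primeFactors.card = 2) :
    ∃ C : Subgroup G, Cfsg.IsFrobeniusComplement C ∧ (Nat.card ↥C).Prime := by
  obtain ⟨p, q, hpq, hpf⟩ := Finset.card_eq_two.1 h2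
  have hp : p.Prime ∧ p ∣ Nat.card G := by
    have : p ∈ (Nat.card G).primeFactors := by rw [hpf]; simp
    exact ⟨Nat.prime_of_mem_primeFactors this, Nat.dvd_of_mem_primeFactors this⟩
  have hq : q.Prime ∧ q ∣ Nat.card G := by
    have : q ∈ (Nat.card G).primeFactors := by rw [hpf]; simp
    exact ⟨Nat.prime_of_mem_primeFactors this, Nat.dvd_of_mem_primeFactors this⟩
  have hcases : ∀ r : ℕ, r.Prime → r ∣ Nat.card G → r = p ∨ r = q := by
    intro r hr hrd
    have : r ∈ (Nat.card G).primeFactors := Nat.mem_primeFactors.2 ⟨hr, hrd, Nat.card_pos.ne'⟩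
    rw [hpf] at this
    simpa using this
  have hcard : Nat.card G = p ^ ((Nat.card G).factorization p) * q ^ ((Nat.card G).factorization q) := by
    conv_lhs => rw [← Nat.prod_factorization_pow_eq_self (Nat.card_pos (α := G)).ne']
    rw [Finsupp.prod, Nat.support_factorization, hpf, Finset.prod_pair hpq]
  have hsolv := S0144.result p q _ _ hp.1 hq.1 hcard
  haveI : Fact p.Prime := ⟨hp.1⟩
  have hne : (⊤ : Subgroup G) ≠ ⊥ := by
    intro h
    obtain ⟨z, hz⟩ := exists_prime_orderOf_dvd_card' (G := G) p hp.2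
    have : z ∈ (⊥ : Subgroup G) := by rw [← h]; trivial
    rw [mem_bot] at this
    rw [this, orderOf_one] at hz
    exact hp.1.one_lt.ne hz
  obtain ⟨V, hV, hV1, -, hVmin⟩ := H1.exists_minimal_normal_le
      (inferInstance : (⊤ : Subgroup G).Normal) hne
  obtain ⟨hVc, r, hr, hVp, hVr⟩ := H1.minimal_normal_solvable hV hV1 hVmin inferInstance
  haveI : Fact r.Prime := ⟨hr⟩
  have hrd : r ∣ Nat.card G := by
    rcases hVp.card_eq_or_dvd with h | h
    · exact absurd (Subgroup.card_eq_one.1 h) hV1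
    · exact h.trans (card_subgroup_dvd_card V)
  obtain ⟨s, hs, hsd, hrs⟩ : ∃ s, s.Prime ∧ s ∣ Nat.card G ∧ r ≠ s := by
    by_cases h : r = p
    · exact ⟨q, hq.1, hq.2, fun h' => hpq (h.symm.trans h')⟩
    · exact ⟨p, hp.1, hp.2, h⟩
  have hcases' : ∀ l : ℕ, l.Prime → l ∣ Nat.card G → l = r ∨ l = s := by
    intro l hl hld
    rcases hcases l hl hld with h | h <;> rcases hcases r hr hrd with h' | h' <;>
      rcases hcases s hs hsd with h'' | h'' <;> omega
  haveI : Fact s.Prime := ⟨hs⟩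
  have hrs0 := no_pq hodd hT hr hs hrs hrd hsd
  have hr2 := no_sq hodd hT hr hs hrs hrd hsd
  have hs2 := no_sq hodd hT hs hr hrs.symm hsd hrd
  have hnsq := not_sq_dvd hr hs hrs hrs0 hr2 hs2 V hV1 hVp
  obtain ⟨S⟩ : Nonempty (Sylow s G) := inferInstance
  have hScard : Nat.card (S : Subgroup G) = s := by
    rw [S.card_eq_multiplicity]
    have h1 : (Nat.card G).factorization s = 1 := by
      have e1 := hs.factorization_pos_of_dvd Nat.card_pos.ne' hsd
      have e2 : ¬ 2 ≤ (Nat.card G).factorization s := by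
        intro h
        exact hnsq ((hs.pow_dvd_iff_le_factorization Nat.card_pos.ne').2 h)
      omega
    rw [h1, pow_one]
  have hnorm : ∀ g ∈ normalizer ((S : Subgroup G) : Set G), g ∈ (S : Subgroup G) := by
    by_contra hcon
    push Not at hcon
    obtain ⟨g, hg, hgS⟩ := hcon
    have h1 : r ∣ Nat.card (normalizer ((S : Subgroup G) : Set G)) := by
      by_contra hnd
      have h2 : IsPGroup s (normalizer ((S : Subgroup G) : Set G)) := by
        rw [H2.isPGroup_iff_forall_orderOf]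
        intro l hl hld
        rcases hcases' l hl (hld.trans (card_subgroup_dvd_card _)) with h | h
        · rw [h] at hld
          exact absurd hld hnd
        · exact h
      have h3 := S.3 h2 le_normalizer
      rw [← h3] at hgS
      exact hgS hg
    obtain ⟨x, hx, hxr⟩ := H2.exists_mem_orderOf_eq_prime h1
    exact norm_eq hr hs hrs hrs0 hr2 V hV1 (fun a ha b hb => congrArg Subtype.val (hVc.is_comm.comm ⟨a, ha⟩ ⟨b, hb⟩)) hVr S hScard hx hxr
  refine ⟨S, ⟨?_, ?_, ?_⟩, by rw [hScard]; exact hs⟩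
  · intro h
    rw [h, Subgroup.card_bot] at hScard
    exact hs.one_lt.ne hScard
  · intro h
    rw [h, Subgroup.card_top] at hScard
    rw [hScard] at hrd
    exact hrs ((Nat.prime_dvd_prime_iff_eq hr hs).1 hrd)
  · intro g hg
    by_contra hne
    have h1 : (S : Subgroup G) ⊓ MulAut.conj g • (S : Subgroup G) = S := by
      apply Subgroup.eq_of_le_of_card_ge inf_le_left
      have h2 := card_dvd_of_le (inf_le_left : (S : Subgroup G) ⊓ MulAut.conj g • (S : Subgroup G) ≤ S)
      rw [hScard] at h2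
      rcases (Nat.dvd_prime hs).1 h2 with h3 | h3
      · exact absurd (Subgroup.card_eq_one.1 h3) hne
      · rw [h3, hScard]
    have h2 : (S : Subgroup G) ≤ MulAut.conj g • (S : Subgroup G) := inf_eq_left.1 h1
    have h3 : g ∈ normalizer ((S : Subgroup G) : Set G) := by
      rw [mem_normalizer_iff_map_conj_eq]
      symm
      apply Subgroup.eq_of_le_of_card_ge h2
      exact (card_map_of_injective (MulAut.conj g).injective).le
    exact hg (hnorm g h3)
end struct

/-- Let G be a finite group of odd order in which the numbers of elements of each order that occurs (the numbers #{g : o(g) = m}, m ranging over the element orders of G) take exactly three different values. Then the order of G has at most two prime divisors; and if it has exactly two, then every Sylow subgroup of G for a prime dividing its order has prime exponent, G is a Frobenius group, and some Frobenius complement of G has prime order. -/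
theorem result {G : Type*} [Group G] [Finite G] (hodd : Odd (Nat.card G)) (h : (((fun m : ℕ => Nat.card {g : G // orderOf g = m}) '' Set.range (orderOf : G → ℕ))).ncard = 3) :
    (Nat.card G).primeFactors.card ≤ 2 ∧
      ((Nat.card G).primeFactors.card = 2 →
        (∀ (p : ℕ) [Fact p.Prime] (P : Sylow p G), p ∣ Nat.card G → Monoid.exponent ↥(P : Subgroup G) = p) ∧
        ∃ C : Subgroup G, Cfsg.IsFrobeniusComplement C ∧ (Nat.card ↥C).Prime) := by
  classical
  have hsc1 : ∀ k : ℕ, k ≠ 1 → sc G k ≠ 0 →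
      sc G k ∈ ((fun m : ℕ => Nat.card {g : G // orderOf g = m}) '' Set.range (orderOf : G → ℕ)) ∧
        sc G k ≠ 1 := by
    intro k hk1 hk0
    obtain ⟨x, hx⟩ : ∃ x : G, orderOf x = k := by
      by_contra hcon
      push Not at hcon
      apply hk0
      rw [Cfsg.Agent.S3995.sc, Nat.card_eq_zero]
      left
      exact ⟨fun x => hcon x.1 x.2⟩
    refine ⟨⟨k, ⟨x, hx⟩, rfl⟩, ?_⟩
    apply sc_ne_one
    have h1 : k ∣ Nat.card G := hx ▸ orderOf_dvd_natCard x
    have h2 : k ≠ 2 := by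
      rintro rfl
      exact (Nat.not_even_iff_odd.2 hodd) (even_iff_two_dvd.2 h1)
    have h3 : 0 < k := hx ▸ orderOf_pos x
    omega
  have h1mem : (1 : ℕ) ∈ ((fun m : ℕ => Nat.card {g : G // orderOf g = m}) ''
      Set.range (orderOf : G → ℕ)) := ⟨1, ⟨1, orderOf_one⟩, sc_one⟩
  have hT : T G := by
    intro k1 k2 k3 h1 h2 h3 e1 e2 e3
    by_contra hcon
    push Not at hcon
    obtain ⟨n1, n2, n3⟩ := hcon
    obtain ⟨m1, o1⟩ := hsc1 k1 h1 e1
    obtain ⟨m2, o2⟩ := hsc1 k2 h2 e2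
    obtain ⟨m3, o3⟩ := hsc1 k3 h3 e3
    have hsub : ((({1, sc G k1, sc G k2, sc G k3} : Finset ℕ)) : Set ℕ) ⊆
        ((fun m : ℕ => Nat.card {g : G // orderOf g = m}) '' Set.range (orderOf : G → ℕ)) := by
      intro y hy
      simp only [Finset.coe_insert, Finset.coe_singleton, Set.mem_insert_iff,
        Set.mem_singleton_iff] at hy
      rcases hy with rfl | rfl | rfl | rfl
      · exact h1mem
      · exact m1
      · exact m2
      · exact m3
    have h4 := Set.ncard_le_ncard hsub ((Set.finite_range _).image _)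
    rw [h, Set.ncard_coe_finset, Finset.card_insert_of_notMem, Finset.card_insert_of_notMem,
      Finset.card_insert_of_notMem, Finset.card_singleton] at h4
    · omega
    · simpa using n3
    · simp only [Finset.mem_insert, Finset.mem_singleton, not_or]
      exact ⟨n1, n2⟩
    · simp only [Finset.mem_insert, Finset.mem_singleton, not_or]
      exact ⟨o1.symm, o2.symm, o3.symm⟩
  refine ⟨?_, fun h2 => ⟨?_, main_struct hodd hT h2⟩⟩
  · by_contra hcon
    push Not at hcon
    obtain ⟨p, hp, q, hq, r, hr, n1, n2, n3⟩ := Finset.two_lt_card.1 hcon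
    have hp' := Nat.prime_of_mem_primeFactors hp
    have hq' := Nat.prime_of_mem_primeFactors hq
    have hr' := Nat.prime_of_mem_primeFactors hr
    have hpd := Nat.dvd_of_mem_primeFactors hp
    have hqd := Nat.dvd_of_mem_primeFactors hq
    have hrd := Nat.dvd_of_mem_primeFactors hr
    rcases hT p q r hp'.one_lt.ne' hq'.one_lt.ne' hr'.one_lt.ne' (sc_ne_zero_of_dvd hp' hpd)
      (sc_ne_zero_of_dvd hq' hqd) (sc_ne_zero_of_dvd hr' hrd) with e | e | e
    · exact no_eq hodd hT hp' hq' n1 hpd hqd e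
    · exact no_eq hodd hT hp' hr' n2 hpd hrd e
    · exact no_eq hodd hT hq' hr' n3 hqd hrd e
  · intro p hp P hd
    obtain ⟨a, b, hab, hpf⟩ := Finset.card_eq_two.1 h2
    have ha : a.Prime ∧ a ∣ Nat.card G := by
      have : a ∈ (Nat.card G).primeFactors := by rw [hpf]; simp
      exact ⟨Nat.prime_of_mem_primeFactors this, Nat.dvd_of_mem_primeFactors this⟩
    have hb : b.Prime ∧ b ∣ Nat.card G := by
      have : b ∈ (Nat.card G).primeFactors := by rw [hpf]; simp
      exact ⟨Nat.prime_of_mem_primeFactors this, Nat.dvd_of_mem_primeFactors this⟩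
    obtain ⟨q, hq, hqd, hpq⟩ : ∃ q, q.Prime ∧ q ∣ Nat.card G ∧ p ≠ q := by
      by_cases hpa : p = a
      · exact ⟨b, hb.1, hb.2, fun h' => hab (hpa.symm.trans h')⟩
      · exact ⟨a, ha.1, ha.2, hpa⟩
    exact exponent_eq (no_sq hodd hT hp.out hq hpq hd hqd) hd P

end Cfsg.Agent.S4004
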