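import Cfsg.Statements.S4005
import Cfsg.Agent.S0058
import Cfsg.Agent.S0144
import Cfsg.Agent.H1.Cores
import Cfsg.Agent.H23.PSolvable
import Cfsg.Agent.H20.ElemAb

set_option autoImplicit false
set_option linter.all false
open Cfsg

namespace Cfsg.Agent.S4005

open Subgroup in
/-- a Sylow `s`-subgroup of exponent `s` acting fixed point freely on a normal subgroup has order `s` -/
theorem card_sylow_aux {G : Type*} [Group G] [Finite G] {s : ℕ} [hs : Fact s.Prime] (V : Subgroup G) [V.Normal]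
    (hV : V ≠ ⊥) (hVs : (Nat.card V).Coprime s) (S : Sylow s G) (hS : ∀ x ∈ (S : Subgroup G), x ^ s = 1)
    (hfix : ∀ x ∈ (S : Subgroup G), x ≠ 1 → ∀ v ∈ V, v * x = x * v → v = 1) : Nat.card S ∣ s := by
  obtain ⟨k, hk⟩ := IsPGroup.iff_card.1 S.2
  rw [hk]
  by_contra hcon
  have hk2 : 2 ≤ k := by
    by_contra h
    apply hcon
    interval_cases k
    · rw [pow_zero]; exact one_dvd _
    · rw [pow_one]
  obtain ⟨E, hE⟩ := Sylow.exists_subgroup_card_pow_prime s (G := S) (n := 2) (by rw [hk]; exact pow_dvd_pow s hk2)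
  set A := E.map (S : Subgroup G).subtype with hA
  have hAc : Nat.card A = s ^ 2 := by
    rw [hA, card_map_of_injective (subtype_injective _), hE]
  haveI hAm : IsMulCommutative A := IsPGroup.isMulCommutative_of_card_eq_prime_sq hAc
  have hAS : A ≤ S := map_subtype_le _
  have hnc : ¬ IsCyclic A := by
    intro h
    obtain ⟨g, hg⟩ := IsCyclic.exists_ofOrder_eq_natCard (α := A)
    rw [hAc] at hg
    have h1 : orderOf g ∣ s := orderOf_dvd_of_pow_eq_one (Subtype.ext (hS g (hAS g.2)))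
    rw [hg] at h1
    have h2 := Nat.le_of_dvd hs.out.pos h1
    have := hs.out.one_lt
    nlinarith
  have h1 := Cfsg.Agent.S0058.result A V hnc (by rw [Subgroup.normalizer_eq_top_iff.2 inferInstance]; exact le_top)
    (by rw [hAc]; exact (hVs.symm.pow_left 2))
  apply hV
  rw [eq_bot_iff, ← h1]
  refine iSup₂_le ?_
  rintro a ⟨ha, ha1⟩ v hv
  obtain ⟨hv1, hv2⟩ := mem_inf.1 hv
  rw [mem_centralizer_singleton_iff] at hv2
  rw [mem_bot]
  exact hfix a (hAS ha) ha1 v hv1 hv2

/-- A finite group whose set of element orders is exactly {1, 2, 3} has either a normal elementary abelian 3-subgroup of index 2 or a normal elementary abelian 2-subgroup of index 3. -/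
theorem result {G : Type*} [Group G] [Finite G] (h : Set.range (orderOf : G → ℕ) = {k : ℕ | 1 ≤ k ∧ k ≤ 3}) :
    (∃ N : Subgroup G, N.Normal ∧ Cfsg.IsElementaryAbelian 3 N ∧ N.index = 2) ∨
      (∃ N : Subgroup G, N.Normal ∧ Cfsg.IsElementaryAbelian 2 N ∧ N.index = 3) := by
  classical
  haveI : Fact (Nat.Prime 2) := ⟨Nat.prime_two⟩
  haveI : Fact (Nat.Prime 3) := ⟨Nat.prime_three⟩
  have ho : ∀ x : G, 1 ≤ orderOf x ∧ orderOf x ≤ 3 := by
    intro x
    have : orderOf x ∈ Set.range (orderOf : G → ℕ) := ⟨x, rfl⟩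
    rw [h] at this
    exact this
  obtain ⟨t0, ht0⟩ : ∃ t : G, orderOf t = 2 := by
    have : (2 : ℕ) ∈ Set.range (orderOf : G → ℕ) := by rw [h]; exact ⟨by norm_num, by norm_num⟩
    exact this
  obtain ⟨u0, hu0⟩ : ∃ t : G, orderOf t = 3 := by
    have : (3 : ℕ) ∈ Set.range (orderOf : G → ℕ) := by rw [h]; exact ⟨by norm_num, by norm_num⟩
    exact this
  have hno : ∀ x y : G, orderOf x = 2 → orderOf y = 3 → x * y = y * x → False := by
    intro x y hx hy hxy
    have h1 : orderOf (x * y) = orderOf x * orderOf y :=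
      (show Commute x y from hxy).orderOf_mul_eq_mul_orderOf_of_coprime (by rw [hx, hy]; norm_num)
    have h2 := (ho (x * y)).2
    rw [h1, hx, hy] at h2
    omega
  -- p-elements
  have h2el : ∀ x : G, (∃ k, orderOf x = 2 ^ k) → orderOf x = 1 ∨ orderOf x = 2 := by
    rintro x ⟨k, hk⟩
    have h1 := ho x
    rcases Nat.lt_or_ge k 2 with h2 | h2
    · interval_cases k
      · left; simpa using hk
      · right; simpa using hk
    · have : 2 ^ 2 ≤ 2 ^ k := Nat.pow_le_pow_right (by norm_num) h2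
      omega
  have h3el : ∀ x : G, (∃ k, orderOf x = 3 ^ k) → orderOf x = 1 ∨ orderOf x = 3 := by
    rintro x ⟨k, hk⟩
    have h1 := ho x
    rcases Nat.lt_or_ge k 2 with h2 | h2
    · interval_cases k
      · left; simpa using hk
      · right; simpa using hk
    · have : 3 ^ 2 ≤ 3 ^ k := Nat.pow_le_pow_right (by norm_num) h2
      omega
  obtain ⟨P⟩ : Nonempty (Sylow 2 G) := inferInstance
  obtain ⟨Q⟩ : Nonempty (Sylow 3 G) := inferInstance
  have hPel : ∀ {K : Subgroup G}, IsPGroup 2 K → ∀ x ∈ K, x ≠ 1 → orderOf x = 2 := by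
    intro K hK x hx hx1
    obtain ⟨k, hk⟩ := IsPGroup.iff_orderOf.1 hK ⟨x, hx⟩
    rw [Subgroup.orderOf_mk] at hk
    rcases h2el x ⟨k, hk⟩ with h1 | h1
    · exact absurd (orderOf_eq_one_iff.1 h1) hx1
    · exact h1
  have hQel : ∀ {K : Subgroup G}, IsPGroup 3 K → ∀ x ∈ K, x ≠ 1 → orderOf x = 3 := by
    intro K hK x hx hx1
    obtain ⟨k, hk⟩ := IsPGroup.iff_orderOf.1 hK ⟨x, hx⟩
    rw [Subgroup.orderOf_mk] at hk
    rcases h3el x ⟨k, hk⟩ with h1 | h1
    · exact absurd (orderOf_eq_one_iff.1 h1) hx1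
    · exact h1
  have hPexp : ∀ {K : Subgroup G}, IsPGroup 2 K → ∀ x ∈ K, x ^ 2 = 1 := by
    intro K hK x hx
    by_cases hx1 : x = 1
    · rw [hx1, one_pow]
    · rw [← hPel hK x hx hx1, pow_orderOf_eq_one]
  have hQexp : ∀ {K : Subgroup G}, IsPGroup 3 K → ∀ x ∈ K, x ^ 3 = 1 := by
    intro K hK x hx
    by_cases hx1 : x = 1
    · rw [hx1, one_pow]
    · rw [← hQel hK x hx hx1, pow_orderOf_eq_one]
  -- order of G
  have hcardG : Nat.card G = Nat.card P * Nat.card Q := by
    rw [P.card_eq_multiplicity, Q.card_eq_multiplicity]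
    have h1 : (Nat.card G).primeFactors ⊆ {2, 3} := by
      intro q hq
      have hqp := Nat.prime_of_mem_primeFactors hq
      have hqd := Nat.dvd_of_mem_primeFactors hq
      haveI : Fact q.Prime := ⟨hqp⟩
      obtain ⟨x, hx⟩ := exists_prime_orderOf_dvd_card' q hqd
      have h2 := ho x
      rw [hx] at h2
      have := hqp.two_le
      simp only [Finset.mem_insert, Finset.mem_singleton]
      omega
    have h2 := Nat.prod_factorization_pow_eq_self (n := Nat.card G) Nat.card_pos.ne'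
    rw [Finsupp.prod_of_support_subset _ (s := {2, 3}) (by rw [Nat.support_factorization]; exact h1) _ (by simp)] at h2
    rw [Finset.prod_pair (by norm_num)] at h2
    exact h2.symm
  have hsolv : Group.IsSolvable G :=
    Cfsg.Agent.S0144.result 2 3 _ _ Nat.prime_two Nat.prime_three (by
      rw [hcardG, P.card_eq_multiplicity, Q.card_eq_multiplicity])
  have hPcomm : ∀ {K : Subgroup G}, IsPGroup 2 K → ∀ a ∈ K, ∀ b ∈ K, a * b = b * a := by
    intro K hK a ha b hb
    have key : ∀ c ∈ K, c⁻¹ = c := fun c hc => inv_eq_of_mul_eq_one_left (by rw [← pow_two]; exact hPexp hK c hc)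
    have h4 := key (a * b) (mul_mem ha hb)
    rw [mul_inv_rev, key a ha, key b hb] at h4
    exact h4.symm
  have h2P : 2 ∣ Nat.card P := by
    rw [P.card_eq_multiplicity]
    exact dvd_pow_self 2 ((Nat.prime_two.factorization_pos_of_dvd Nat.card_pos.ne' (by rw [← ht0]; exact orderOf_dvd_natCard t0)).ne')
  have h3Q : 3 ∣ Nat.card Q := by
    rw [Q.card_eq_multiplicity]
    exact dvd_pow_self 3 ((Nat.prime_three.factorization_pos_of_dvd Nat.card_pos.ne' (by rw [← hu0]; exact orderOf_dvd_natCard u0)).ne')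
  by_cases hO2 : Cfsg.pCore 2 G = ⊥
  · left
    have hO3 : Cfsg.pCore 3 G ≠ ⊥ := by
      haveI : Nontrivial G := ⟨t0, 1, fun h => by rw [h, orderOf_one] at ht0; omega⟩
      rcases Cfsg.Agent.H23.pCore_ne_bot_or (p := 3) (Cfsg.Agent.H23.isPSolvable_of_isSolvable hsolv) with h1 | h1
      · exact h1
      · exfalso
        apply h1
        rw [eq_bot_iff, ← hO2]
        refine Cfsg.Agent.H1.le_pCore inferInstance ?_
        rw [IsPGroup.iff_orderOf]
        rintro ⟨x, hx⟩
        have h2 : orderOf x ∣ Nat.card (Cfsg.pPrimeCore 3 G) := by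
          have := orderOf_dvd_natCard (⟨x, hx⟩ : Cfsg.pPrimeCore 3 G)
          rwa [Subgroup.orderOf_mk] at this
        have h3 := Nat.Coprime.coprime_dvd_left h2 (Cfsg.Agent.H1.pPrimeCore_coprime 3 G)
        rw [Subgroup.orderOf_mk]
        have h4 := ho x
        have h5 : orderOf x ≠ 3 := by intro h5; rw [h5] at h3; norm_num at h3
        rcases (show orderOf x = 1 ∨ orderOf x = 2 by omega) with h6 | h6
        · exact ⟨0, by rw [h6, pow_zero]⟩
        · exact ⟨1, by rw [h6, pow_one]⟩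
    have hO3p := Cfsg.Agent.H1.pCore_isPGroup 3 G
    have hP2 : Nat.card P ∣ 2 := by
      refine card_sylow_aux (Cfsg.pCore 3 G) hO3 ?_ P (hPexp P.2) ?_
      · obtain ⟨k, hk⟩ := IsPGroup.iff_card.1 hO3p
        rw [hk]; exact Nat.Coprime.pow_left k (by norm_num)
      · intro x hx hx1 v hv hvx
        by_contra hv1
        exact hno x v (hPel P.2 x hx hx1) (hQel hO3p v hv hv1) hvx.symm
    have hP2' : Nat.card P = 2 := Nat.dvd_antisymm hP2 h2P
    have hQidx : (Q : Subgroup G).index = 2 := by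
      have h1 := (Q : Subgroup G).card_mul_index
      rw [hcardG, hP2', mul_comm 2] at h1
      exact Nat.eq_of_mul_eq_mul_left Nat.card_pos h1
    haveI hQn : (Q : Subgroup G).Normal := Subgroup.normal_of_index_eq_two hQidx
    -- `t0` inverts `Q`
    have ht0sq : t0 * t0 = 1 := by rw [← pow_two, ← ht0, pow_orderOf_eq_one]
    have ht0inv : t0⁻¹ = t0 := inv_eq_of_mul_eq_one_left ht0sq
    let φ : ↥(Q : Subgroup G) → ↥(Q : Subgroup G) := fun x =>
      ⟨(x : G)⁻¹ * (t0 * (x : G) * t0⁻¹), mul_mem (inv_mem x.2) (hQn.conj_mem _ x.2 _)⟩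
    have hφinj : Function.Injective φ := by
      intro x y hxy
      have h1 : (x : G)⁻¹ * (t0 * x * t0⁻¹) = (y : G)⁻¹ * (t0 * y * t0⁻¹) := congrArg Subtype.val hxy
      have h2 : ((y : G) * (x : G)⁻¹) * t0 = t0 * ((y : G) * (x : G)⁻¹) := by
        have : (y : G) * (x : G)⁻¹ = t0 * y * (x : G)⁻¹ * t0⁻¹ := by
          calc (y : G) * (x : G)⁻¹ = y * ((x : G)⁻¹ * (t0 * x * t0⁻¹)) * (t0 * x * t0⁻¹)⁻¹ := by group
            _ = y * ((y : G)⁻¹ * (t0 * y * t0⁻¹)) * (t0 * x * t0⁻¹)⁻¹ := by rw [h1]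
            _ = t0 * y * (x : G)⁻¹ * t0⁻¹ := by group
        calc ((y : G) * (x : G)⁻¹) * t0 = (t0 * y * (x : G)⁻¹ * t0⁻¹) * t0 := by rw [← this]
          _ = _ := by group
      by_contra hne
      have h3 : (y : G) * (x : G)⁻¹ ≠ 1 := by
        intro h3
        apply hne
        apply Subtype.ext
        exact (mul_inv_eq_one.1 h3).symm
      exact hno t0 _ ht0 (hQel Q.2 _ (mul_mem y.2 (inv_mem x.2)) h3) h2.symm
    have hφsurj := Finite.surjective_of_injective hφinj
    have hinv : ∀ y ∈ (Q : Subgroup G), t0 * y * t0⁻¹ = y⁻¹ := by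
      intro y hy
      obtain ⟨x, hx⟩ := hφsurj ⟨y, hy⟩
      have h1 : (x : G)⁻¹ * (t0 * x * t0⁻¹) = y := congrArg Subtype.val hx
      rw [← h1]
      calc t0 * ((x : G)⁻¹ * (t0 * x * t0⁻¹)) * t0⁻¹ = t0 * (x : G)⁻¹ * (t0 * x) * (t0⁻¹ * t0⁻¹) := by group
        _ = t0 * (x : G)⁻¹ * (t0⁻¹ * x) * 1 := by rw [ht0inv, ht0sq]
        _ = _ := by group
    refine ⟨Q, hQn, Cfsg.Agent.H20.isElementaryAbelian_iff.mpr ⟨?_, hQexp Q.2⟩, hQidx⟩
    intro a ha b hb
    have h1 := hinv (a⁻¹ * b⁻¹) (mul_mem (inv_mem ha) (inv_mem hb))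
    have h2 := hinv a⁻¹ (inv_mem ha)
    have h3 := hinv b⁻¹ (inv_mem hb)
    have h4 : t0 * (a⁻¹ * b⁻¹) * t0⁻¹ = (t0 * a⁻¹ * t0⁻¹) * (t0 * b⁻¹ * t0⁻¹) := by group
    rw [h4, h2, h3] at h1
    simpa using h1
  · right
    have hO2p := Cfsg.Agent.H1.pCore_isPGroup 2 G
    have hQ3 : Nat.card Q ∣ 3 := by
      refine card_sylow_aux (Cfsg.pCore 2 G) hO2 ?_ Q (hQexp Q.2) ?_
      · obtain ⟨k, hk⟩ := IsPGroup.iff_card.1 hO2p
        rw [hk]; exact Nat.Coprime.pow_left k (by norm_num)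
      · intro x hx hx1 v hv hvx
        by_contra hv1
        exact hno v x (hPel hO2p v hv hv1) (hQel Q.2 x hx hx1) hvx
    have hQ3' : Nat.card Q = 3 := Nat.dvd_antisymm hQ3 h3Q
    have hPidx : (P : Subgroup G).index = 3 := by
      have h1 := (P : Subgroup G).card_mul_index
      rw [hcardG, hQ3'] at h1
      exact Nat.eq_of_mul_eq_mul_left Nat.card_pos h1
    have hCp : IsPGroup 2 (Subgroup.centralizer (Cfsg.pCore 2 G : Set G)) := by
      rw [IsPGroup.iff_orderOf]
      rintro ⟨x, hx⟩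
      rw [Subgroup.orderOf_mk]
      obtain ⟨v, hv⟩ := (Subgroup.ne_bot_iff_exists_ne_one).1 hO2
      have h4 := ho x
      have h5 : orderOf x ≠ 3 := by
        intro h5
        exact hno v x (hPel hO2p v v.2 (fun h => hv (Subtype.ext h))) h5 (Subgroup.mem_centralizer_iff.1 hx v v.2)
      rcases (show orderOf x = 1 ∨ orderOf x = 2 by omega) with h6 | h6
      · exact ⟨0, by rw [h6, pow_zero]⟩
      · exact ⟨1, by rw [h6, pow_one]⟩
    have hCle : Subgroup.centralizer (Cfsg.pCore 2 G : Set G) ≤ Cfsg.pCore 2 G :=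
      Cfsg.Agent.H1.le_pCore inferInstance hCp
    have hPle : (P : Subgroup G) ≤ Cfsg.pCore 2 G := by
      refine le_trans ?_ hCle
      intro x hx
      rw [Subgroup.mem_centralizer_iff]
      intro v hv
      exact hPcomm P.2 v (Cfsg.Agent.H1.pCore_le_sylow P hv) x hx
    have hPeq : (P : Subgroup G) = Cfsg.pCore 2 G := le_antisymm hPle (Cfsg.Agent.H1.pCore_le_sylow P)
    refine ⟨Cfsg.pCore 2 G, inferInstance, Cfsg.Agent.H20.isElementaryAbelian_iff.mpr ⟨hPcomm hO2p, hPexp hO2p⟩, ?_⟩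
    rw [← hPeq]; exact hPidx

end Cfsg.Agent.S4005
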