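import Cfsg.Statements.S4006
import Cfsg.Agent.H14.E43

set_option autoImplicit false
open Cfsg

namespace Cfsg.Agent.S4006

/-- A finite group whose set of element orders is exactly {1, 2, 3, 4} has a normal subgroup N such that either N is a 2-group of exponent 4 and nilpotency class at most 2 with G/N of order 3, or N is an elementary abelian 2-group with G/N isomorphic to the symmetric group of degree 3, or N is an elementary abelian 3-group with G/N cyclic of order 4 or quaternion of order 8. -/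
theorem result {G : Type*} [Group G] [Finite G] (h : Set.range (orderOf : G → ℕ) = {k : ℕ | 1 ≤ k ∧ k ≤ 4}) :
    ∃ (N : Subgroup G) (_ : N.Normal),
      (IsPGroup 2 ↥N ∧ Monoid.exponent ↥N = 4 ∧ Group.nilpotencyClass ↥N ≤ 2 ∧ N.index = 3) ∨
      (Cfsg.IsElementaryAbelian 2 N ∧ Nonempty (G ⧸ N ≃* Equiv.Perm (Fin 3))) ∨
      (Cfsg.IsElementaryAbelian 3 N ∧ ((IsCyclic (G ⧸ N) ∧ N.index = 4) ∨ Nonempty (G ⧸ N ≃* QuaternionGroup 2))) := by
  classical
  haveI : Fact (Nat.Prime 2) := ⟨Nat.prime_two⟩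
  haveI : Fact (Nat.Prime 3) := ⟨Nat.prime_three⟩
  have hmem : ∀ k : ℕ, (∃ g : G, orderOf g = k) ↔ (1 ≤ k ∧ k ≤ 4) := by
    intro k
    have := Set.ext_iff.1 h k
    rw [Set.mem_range, Set.mem_setOf_eq] at this
    exact this
  have hy : Cfsg.Agent.H14.E4.Hyp G :=
    { ord := fun g => by
        have h1 := (hmem (orderOf g)).1 ⟨g, rfl⟩
        omega
      three := (hmem 3).2 ⟨by norm_num, by norm_num⟩
      four := (hmem 4).2 ⟨by norm_num, by norm_num⟩ }
  have hs := hy.solv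
  by_cases hO : Cfsg.pPrimeCore 2 G = ⊥
  · haveI hVn : (Cfsg.pCore 2 G).Normal := Cfsg.Agent.H1.pCore_normal 2 G
    have hV := Cfsg.Agent.H1.pCore_isPGroup 2 G
    have hC := Cfsg.Agent.H1.centralizer_pCore_le hs 2 hO
    have hQ := Cfsg.Agent.H1.pCore_quotient_eq_bot (G := G) 2
    refine ⟨Cfsg.pCore 2 G, hVn, ?_⟩
    rcases Cfsg.Agent.H14.E4.caseII hy (Cfsg.pCore 2 G) hV hC hQ with h1 | h1
    · exact Or.inl h1
    · exact Or.inr (Or.inl h1)
  · -- a nontrivial normal 3-subgroup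
    obtain ⟨⟨t, ht⟩, ht1'⟩ := Subgroup.ne_bot_iff_exists_ne_one.1 hO
    have ht1 : t ≠ 1 := fun h1 => ht1' (Subtype.ext h1)
    have hcop := Cfsg.Agent.H1.pPrimeCore_coprime 2 G
    haveI hn2 : (Cfsg.pPrimeCore 2 G).Normal := Cfsg.Agent.H1.pPrimeCore_normal 2 G
    have h3 : IsPGroup 3 (Cfsg.pPrimeCore 2 G) := by
      intro v
      refine ⟨1, ?_⟩
      rcases hy.pw (v : G) with h1 | h1
      · have h2 : orderOf v ∣ 4 := orderOf_dvd_of_pow_eq_one (Subtype.ext h1)
        have h4 : orderOf v ∣ Nat.card (Cfsg.pPrimeCore 2 G) := orderOf_dvd_natCard v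
        have h5 : orderOf v = 1 := Nat.Coprime.eq_one_of_dvd (Nat.Coprime.of_dvd_right h2 (Nat.Coprime.of_dvd_left h4
          (show (Nat.card (Cfsg.pPrimeCore 2 G)).Coprime 4 from Nat.Coprime.pow_right 2 hcop))) dvd_rfl
        rw [orderOf_eq_one_iff.1 h5, one_pow]
      · exact Subtype.ext (by rw [pow_one]; exact h1)
    have hO3 : Cfsg.pPrimeCore 3 G = ⊥ := by
      rw [Cfsg.Agent.H1.pPrimeCore_eq_bot_iff]
      intro N hN hNc
      rw [Subgroup.eq_bot_iff_forall]
      intro n hnN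
      haveI := hN
      have hn4 : n ^ 4 = 1 := by
        rcases hy.pw n with h1 | h1
        · exact h1
        · have h2 : orderOf (⟨n, hnN⟩ : N) ∣ 3 := orderOf_dvd_of_pow_eq_one (Subtype.ext h1)
          have h4 : orderOf (⟨n, hnN⟩ : N) ∣ Nat.card N := orderOf_dvd_natCard _
          have h5 : orderOf (⟨n, hnN⟩ : N) = 1 := Nat.Coprime.eq_one_of_dvd (Nat.Coprime.of_dvd_right h2 (Nat.Coprime.of_dvd_left h4 hNc)) dvd_rfl
          have h6 : n = 1 := congrArg Subtype.val (orderOf_eq_one_iff.1 h5)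
          rw [h6, one_pow]
      have ht3 : t ^ 3 = 1 := by
        obtain ⟨k, hk⟩ := h3 ⟨t, ht⟩
        exact hy.p3 ⟨k, congrArg Subtype.val hk⟩
      -- commuting
      have hcomm : n * t = t * n := by
        have h7 : n * t * n⁻¹ * t⁻¹ ∈ N ⊓ Cfsg.pPrimeCore 2 G := by
          constructor
          · have := mul_mem hnN (hN.conj_mem _ (inv_mem hnN) t)
            rwa [← mul_assoc, ← mul_assoc] at this
          · exact Subgroup.mul_mem _ (hn2.conj_mem t ht n) (Subgroup.inv_mem _ ht)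
        have h8 : n * t * n⁻¹ * t⁻¹ = 1 := by
          have h9 : (n * t * n⁻¹ * t⁻¹) ^ 3 = 1 := by
            obtain ⟨k, hk⟩ := h3 ⟨_, h7.2⟩
            exact hy.p3 ⟨k, congrArg Subtype.val hk⟩
          have h10 : orderOf (⟨_, h7.1⟩ : N) ∣ 3 := orderOf_dvd_of_pow_eq_one (Subtype.ext h9)
          have h11 : orderOf (⟨_, h7.1⟩ : N) ∣ Nat.card N := orderOf_dvd_natCard _
          have h12 : orderOf (⟨_, h7.1⟩ : N) = 1 := Nat.Coprime.eq_one_of_dvd (Nat.Coprime.of_dvd_right h10 (Nat.Coprime.of_dvd_left h11 hNc)) dvd_rfl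
          exact congrArg Subtype.val (orderOf_eq_one_iff.1 h12)
        have h13 := mul_inv_eq_one.1 h8
        exact mul_inv_eq_iff_eq_mul.1 h13
      exact (hy.no6 hcomm hn4 ht3).resolve_right ht1
    haveI hVn : (Cfsg.pCore 3 G).Normal := Cfsg.Agent.H1.pCore_normal 3 G
    have hV := Cfsg.Agent.H1.pCore_isPGroup 3 G
    have hC := Cfsg.Agent.H1.centralizer_pCore_le hs 3 hO3
    refine ⟨Cfsg.pCore 3 G, hVn, Or.inr (Or.inr ?_)⟩
    exact Cfsg.Agent.H14.E4.caseI hy (Cfsg.pCore 3 G) hV hC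

end Cfsg.Agent.S4006
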