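import Cfsg.Statements.S4203
import Cfsg.Agent.S0144
import Cfsg.Agent.H25.MaxNorm

set_option autoImplicit false
open Cfsg

namespace Cfsg.Agent.S4203

open Cfsg.Agent.H25

universe u

theorem key : ∀ n : ℕ, ∀ (G : Type u) [Group G] [Finite G], Nat.card G = n →
    (∀ M : Subgroup G, IsCoatom M → ∃ p : ℕ, p.Prime ∧ (M.index = p ∨ M.index = p ^ 2)) →
    Group.IsSolvable G := by
  intro n
  induction n using Nat.strong_induction_on with
  | _ n ih =>
    intro G _ _ hn h
    by_cases h1 : Nat.card G = 1
    · have : Subsingleton G := (Nat.card_eq_one_iff_unique.1 h1).1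
      exact Group.isSolvable_of_comm (fun a b => Subsingleton.elim _ _)
    have hG1 : 1 < Nat.card G := by
      have : 0 < Nat.card G := Nat.card_pos
      omega
    -- largest prime
    have hne : (Nat.card G).primeFactors.Nonempty := Nat.nonempty_primeFactors.2 hG1
    set p := (Nat.card G).primeFactors.max' hne with hpdef
    have hpmem : p ∈ (Nat.card G).primeFactors := Finset.max'_mem _ _
    have hpp : p.Prime := (Nat.mem_primeFactors.1 hpmem).1
    have hpd : p ∣ Nat.card G := (Nat.mem_primeFactors.1 hpmem).2.1
    have hmax : ∀ q : ℕ, q.Prime → q ∣ Nat.card G → q ≤ p := fun q hq hqd =>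
      Finset.le_max' _ _ (Nat.mem_primeFactors.2 ⟨hq, hqd, Nat.card_pos.ne'⟩)
    haveI : Fact p.Prime := ⟨hpp⟩
    let P : Sylow p G := default
    have hpP : p ∣ Nat.card (P : Subgroup G) := P.dvd_card_of_dvd_card hpd
    rcases eq_top_or_exists_le_coatom (Subgroup.normalizer ((P : Subgroup G) : Set G)) with hN | ⟨M, hM, hNM⟩
    · have hPn : (P : Subgroup G).Normal := Subgroup.normalizer_eq_top_iff.1 hN
      have hlt : Nat.card (G ⧸ (P : Subgroup G)) < n := by
        rw [← hn, ← Subgroup.index_eq_card]
        have h3 : 1 < Nat.card (P : Subgroup G) := lt_of_lt_of_le hpp.one_lt (Nat.le_of_dvd Nat.card_pos hpP)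
        have h4 := (P : Subgroup G).card_mul_index
        have h5 : 0 < (P : Subgroup G).index := Nat.pos_of_ne_zero Subgroup.FiniteIndex.index_ne_zero
        rw [← h4]
        nlinarith
      rw [Group.isSolvable_iff_subgroup_quotient (P : Subgroup G)]
      haveI : Group.IsNilpotent (P : Subgroup G) := P.isPGroup'.isNilpotent
      refine ⟨inferInstance, ih _ hlt _ rfl ?_⟩
      intro M hM
      have h5 := Subgroup.isCoatom_comap_of_surjective (QuotientGroup.mk'_surjective (P : Subgroup G)) hM
      have h6 := h _ h5
      rwa [Subgroup.index_comap_of_surjective _ (QuotientGroup.mk'_surjective (P : Subgroup G))] at h6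
    · have hmod := index_modEq_one_of_normalizer_le P M hNM
      obtain ⟨q, hq, hqi⟩ := h M hM
      have hqd : q ∣ Nat.card G := by
        refine dvd_trans ?_ M.index_dvd_card
        rcases hqi with h2 | h2 <;> rw [h2]
        exact dvd_pow_self q two_ne_zero
      have hqp := hmax q hq hqd
      have hPM : (P : Subgroup G) ≤ M := Subgroup.le_normalizer.trans hNM
      have hne' : q ≠ p := by
        rintro heq
        have h2 : p ∣ M.index := by
          rcases hqi with h2 | h2 <;> rw [h2, heq]
          exact dvd_pow_self p two_ne_zero
        have h3 : M.index ≡ 0 [MOD p] := (Nat.modEq_zero_iff_dvd).2 h2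
        have h4 : 1 ≡ 0 [MOD p] := hmod.symm.trans h3
        have h5 := (Nat.modEq_zero_iff_dvd).1 h4
        exact hpp.one_lt.ne' (Nat.dvd_one.1 h5)
      have hqlt : q < p := lt_of_le_of_ne hqp hne'
      have hq2 := hq.two_le
      have h23 : q = 2 ∧ p = 3 := by
        rcases hqi with h2 | h2
        · exfalso
          rw [h2] at hmod
          have := (Nat.modEq_iff_dvd' hq.one_lt.le).1 hmod.symm
          have := Nat.le_of_dvd (by omega) this
          omega
        · rw [h2] at hmod
          have h3 : p ∣ q ^ 2 - 1 := (Nat.modEq_iff_dvd' (Nat.one_le_pow _ _ hq.pos)).1 hmod.symm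
          have h4 : q ^ 2 - 1 = (q - 1) * (q + 1) := by
            obtain ⟨k, rfl⟩ : ∃ k, q = k + 1 := ⟨q - 1, by omega⟩
            have : (k + 1) ^ 2 = k * (k + 1 + 1) + 1 := by ring
            rw [this]
            simp
          rw [h4] at h3
          rcases hpp.dvd_mul.1 h3 with h5 | h5
          · have := Nat.le_of_dvd (by omega) h5
            omega
          · have := Nat.le_of_dvd (by omega) h5
            have hpq : p = q + 1 := by omega
            have hq2' : q = 2 := by
              by_contra hq3
              have hodd := hq.odd_of_ne_two hq3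
              have hpodd : ¬ Odd p := by
                rw [hpq]
                intro hc
                rcases hc with ⟨a, ha⟩
                rcases hodd with ⟨b, hb⟩
                omega
              have := hpp.eq_two_or_odd'
              rcases this with h6 | h6
              · omega
              · exact hpodd h6
            omega
      -- the order is `2^a * 3^b`
      have hall : ∀ r ∈ (Nat.card G).primeFactors, r = 2 ∨ r = 3 := by
        intro r hr
        have h3 := (Nat.mem_primeFactors.1 hr)
        have h4 := hmax r h3.1 h3.2.1
        have h5 := h3.1.two_le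
        have := h23.2
        omega
      apply Cfsg.Agent.S0144.result 2 3 ((Nat.card G).factorization 2) ((Nat.card G).factorization 3)
        Nat.prime_two Nat.prime_three
      have hsub : (Nat.card G).primeFactors ⊆ {2, 3} := by
        intro r hr
        rw [Finset.mem_insert, Finset.mem_singleton]
        exact hall r hr
      have h7 := Nat.factorization_prod_pow_eq_self (n := Nat.card G) Nat.card_pos.ne'
      have h8 : (Nat.card G).factorization.prod (fun p k => p ^ k) =
          ∏ r ∈ ({2, 3} : Finset ℕ), r ^ (Nat.card G).factorization r := by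
        apply Finsupp.prod_of_support_subset
        · rw [Nat.support_factorization]; exact hsub
        · intro i _
          exact pow_zero i
      rw [h8, Finset.prod_pair (by norm_num)] at h7
      exact h7.symm

/-- A finite group in which every maximal subgroup has index a prime or the square of a prime is solvable. -/
theorem result {G : Type*} [Group G] [Finite G] (h : ∀ M : Subgroup G, IsCoatom M → ∃ p : ℕ, p.Prime ∧ (M.index = p ∨ M.index = p ^ 2)) : Group.IsSolvable G :=
  key _ G rfl h

end Cfsg.Agent.S4203
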