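import Cfsg.Statements.S4204
import Cfsg.Agent.H25.Basic

set_option autoImplicit false
open Cfsg

namespace Cfsg.Agent.S4204

theorem result {G : Type*} [Group G] [Finite G] (H K : Subgroup G) [H.Normal] [K.Normal] (c d : ℕ) (hH : H.lowerCentralSeries c = ⊥) (hK : K.lowerCentralSeries d = ⊥) : (H ⊔ K).lowerCentralSeries (c + d) = ⊥ :=
  Cfsg.Agent.H25.fitting_lcs H K c d hH hK

end Cfsg.Agent.S4204
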