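import Cfsg.Statements.S4205

set_option autoImplicit false
open Cfsg

namespace Cfsg.Agent.S4205

theorem key {G : Type*} [Group G] (H : Subgroup G) (i : ℕ) :
    Subgroup.upperCentralSeries G i ≤ (fun K : Subgroup G => Subgroup.normalizer (K : Set G))^[i] H := by
  induction i with
  | zero => simp
  | succ n ih =>
    rw [Function.iterate_succ_apply']
    intro x hx
    rw [Subgroup.mem_normalizer_iff]
    intro y
    have hx' := hx
    rw [Subgroup.mem_upperCentralSeries_succ_iff] at hx
    constructor
    · intro hy
      have h1 := ih (hx y)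
      have : x * y * x⁻¹ = (x * y * x⁻¹ * y⁻¹) * y := by group
      rw [this]
      exact mul_mem h1 hy
    · intro hy
      have h1 := ih (hx y)
      have : y = (x * y * x⁻¹ * y⁻¹)⁻¹ * (x * y * x⁻¹) := by group
      rw [this]
      exact mul_mem (inv_mem h1) hy

theorem result {G : Type*} [Group G] [Finite G] (c : ℕ) (hG : Subgroup.upperCentralSeries G c = ⊤) (H : Subgroup G) : (fun K : Subgroup G => Subgroup.normalizer (K : Set G))^[c] H = ⊤ := by
  rw [eq_top_iff, ← hG]
  exact key H c

end Cfsg.Agent.S4205
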