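import Cfsg.Statements.S4207
import Cfsg.Agent.H25.FratAut

set_option autoImplicit false
open Cfsg

namespace Cfsg.Agent.S4207

open Subgroup

/-- Let `P` be a group of order `p^n` whose Frattini subgroup has index `p^r`. Then any group of automorphisms of `P` each of which induces the identity on the Frattini quotient has order dividing `p^(r(n-r))`; in particular it is a `p`-group. -/
theorem result {P : Type*} [Group P] [Finite P] {p n r : ℕ} [Fact p.Prime] (hP : Nat.card P = p ^ n) (hr : (frattini P).index = p ^ r) (A : Subgroup (MulAut P)) (hA : ∀ α ∈ A, ∀ x : P, α x * x⁻¹ ∈ frattini P) : Nat.card A ∣ p ^ (r * (n - r)) := by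
  have hpp : IsPGroup p P := IsPGroup.of_card hP
  have h1 := H25.card_generating (p := p) (r := r) (frattini P) (H2.commutator_le_frattini hpp)
    (H2.pow_mem_frattini hpp) (fun H h => frattini_nongenerating h) hr
  have hF : Nat.card (frattini P) = p ^ (n - r) := by
    have h2 := (frattini P).card_mul_index
    rw [hr, hP] at h2
    have h3 : r ≤ n := by
      rw [← Nat.pow_dvd_pow_iff_le_right (Fact.out : p.Prime).one_lt, ← h2]
      exact Dvd.intro_left _ rfl
    have h4 : p ^ (n - r) * p ^ r = p ^ n := by rw [← pow_add, Nat.sub_add_cancel h3]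
    exact Nat.eq_of_mul_eq_mul_right (pow_pos (Fact.out : p.Prime).pos r) (h2.trans h4.symm)
  have hne : Nonempty {y : Fin r → P // closure (Set.range y) = ⊤} := by
    have h2 : Nat.card {y : Fin r → P // closure (Set.range y) = ⊤} ≠ 0 := by
      rw [h1]
      apply mul_ne_zero (pow_ne_zero _ Nat.card_pos.ne')
      rw [Finset.prod_ne_zero_iff]
      intro i hi
      have := Nat.pow_lt_pow_right (Fact.out : p.Prime).one_lt (Finset.mem_range.1 hi)
      omega
    exact (Nat.card_ne_zero.1 h2).1
  obtain ⟨y, hy⟩ := hne
  letI : MulAction A {z : Fin r → P // ∀ i, (y i)⁻¹ * z i ∈ frattini P} :=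
    { smul := fun α z => ⟨fun i => (α : MulAut P) (z.1 i), fun i => by
        have h2 := hA α α.2 (z.1 i)
        have h3 : (frattini P).Normal := inferInstance
        have h4 := h3.conj_mem _ h2 (z.1 i)⁻¹
        have h5 := (frattini P).mul_mem (z.2 i) h4
        have h6 : (y i)⁻¹ * z.1 i * ((z.1 i)⁻¹ * ((α : MulAut P) (z.1 i) * (z.1 i)⁻¹) * (z.1 i)⁻¹⁻¹) =
          (y i)⁻¹ * (α : MulAut P) (z.1 i) := by group
        rwa [h6] at h5⟩
      one_smul := fun y => rfl
      mul_smul := fun α β y => rfl }
  have h2 : Nat.card {z : Fin r → P // ∀ i, (y i)⁻¹ * z i ∈ frattini P} = p ^ (r * (n - r)) := by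
    have h3 : Nat.card {z : Fin r → P // ∀ i, (y i)⁻¹ * z i ∈ frattini P} =
        Nat.card (Fin r → frattini P) := by
      apply Nat.card_congr
      refine
        { toFun := fun z i => ⟨_, z.2 i⟩
          invFun := fun f => ⟨fun i => y i * f i, fun i => by rw [inv_mul_cancel_left]; exact (f i).2⟩
          left_inv := fun z => by
            apply Subtype.ext
            funext i
            show y i * ((y i)⁻¹ * z.1 i) = z.1 i
            rw [mul_inv_cancel_left]
          right_inv := fun f => by
            funext i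
            apply Subtype.ext
            show (y i)⁻¹ * (y i * f i) = f i
            rw [inv_mul_cancel_left] }
    haveI := Fintype.ofFinite (frattini P)
    rw [h3, Nat.card_eq_fintype_card, Fintype.card_fun, Fintype.card_fin, ← Nat.card_eq_fintype_card, hF,
      ← pow_mul, mul_comm]
  rw [← h2]
  apply H25.card_dvd_of_free
  rintro α ⟨z, hz⟩ h
  have h3 : ∀ i, (α : MulAut P) (z i) = z i := fun i => congrFun (congrArg Subtype.val h) i
  have hztop : closure (Set.range z) = ⊤ := by
    apply frattini_nongenerating
    rw [eq_top_iff, ← hy, closure_le]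
    rintro _ ⟨i, rfl⟩
    have h4 : y i = z i * ((y i)⁻¹ * z i)⁻¹ := by group
    rw [SetLike.mem_coe, h4]
    exact mul_mem ((le_sup_left : closure (Set.range z) ≤ _) (subset_closure ⟨i, rfl⟩))
      ((le_sup_right : frattini P ≤ _) (inv_mem (hz i)))
  have h5 : ((α : MulAut P).toMonoidHom : P →* P) = MonoidHom.id P := by
    apply MonoidHom.eq_of_eqOn_top
    rw [← hztop]
    apply MonoidHom.eqOn_closure
    rintro _ ⟨i, rfl⟩
    exact h3 i
  apply Subtype.ext
  ext x
  exact DFunLike.congr_fun h5 x

end Cfsg.Agent.S4207
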