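import Cfsg.Statements.S4208
import Cfsg.Agent.H25.FratAut

set_option autoImplicit false
open Cfsg

namespace Cfsg.Agent.S4208

open Subgroup

/-- Let `P` be a group of order `p^n` whose Frattini subgroup has index `p^r`. Then the order of the automorphism group of `P` divides `p^(r(n-r)) · (p^r - 1)(p^r - p) ⋯ (p^r - p^(r-1))`. -/
theorem result {P : Type*} [Group P] [Finite P] {p n r : ℕ} [Fact p.Prime] (hP : Nat.card P = p ^ n) (hr : (frattini P).index = p ^ r) : Nat.card (MulAut P) ∣ p ^ (r * (n - r)) * ∏ i ∈ Finset.range r, (p ^ r - p ^ i) := by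
  have hpp : IsPGroup p P := IsPGroup.of_card hP
  have h1 := H25.card_generating (p := p) (r := r) (frattini P) (H2.commutator_le_frattini hpp)
    (H2.pow_mem_frattini hpp) (fun H h => frattini_nongenerating h) hr
  have hF : Nat.card (frattini P) = p ^ (n - r) := by
    have h2 := (frattini P).card_mul_index
    rw [hr, hP] at h2
    have h3 : r ≤ n := by
      rw [← Nat.pow_dvd_pow_iff_le_right (Fact.out : p.Prime).one_lt, ← h2]
      exact Dvd.intro_left _ rfl
    have h4 : p ^ (n - r) * p ^ r = p ^ n := by rw [← pow_add, Nat.sub_add_cancel h3]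
    exact Nat.eq_of_mul_eq_mul_right (pow_pos (Fact.out : p.Prime).pos r) (h2.trans h4.symm)
  rw [hF, ← pow_mul, mul_comm (n - r) r] at h1
  rw [← h1]
  letI : MulAction (MulAut P) {y : Fin r → P // closure (Set.range y) = ⊤} :=
    { smul := fun α y => ⟨fun i => α (y.1 i), by
        have : Set.range (fun i => α (y.1 i)) = (α.toMonoidHom) '' Set.range y.1 := by
          rw [← Set.range_comp]; rfl
        rw [this, ← MonoidHom.map_closure, y.2, ← MonoidHom.range_eq_map, MonoidHom.range_eq_top]
        exact α.surjective⟩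
      one_smul := fun y => rfl
      mul_smul := fun α β y => rfl }
  apply H25.card_dvd_of_free
  rintro α ⟨y, hy⟩ h
  have h2 : ∀ i, α (y i) = y i := fun i => congrFun (congrArg Subtype.val h) i
  have h3 : (α.toMonoidHom : P →* P) = MonoidHom.id P := by
    apply MonoidHom.eq_of_eqOn_top
    rw [← hy]
    apply MonoidHom.eqOn_closure
    rintro _ ⟨i, rfl⟩
    exact h2 i
  ext x
  exact DFunLike.congr_fun h3 x

end Cfsg.Agent.S4208
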