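import Cfsg.Statements.S4211
import Cfsg.Agent.H25.Hamilton

set_option autoImplicit false
open Cfsg

namespace Cfsg.Agent.S4211

open Subgroup H25
open scoped commutatorElement

theorem quat_invol : ∀ z w : QuaternionGroup 2, z * z = 1 → z ≠ 1 → w * w = 1 → w ≠ 1 → z = w := by
  decide

/-- complements of a central involution in an elementary abelian subgroup -/
theorem exists_compl {G : Type*} [Group G] [Finite G] (T : Subgroup G) (hT : ∀ t ∈ T, t * t = 1) (c : G)
    (hc : c ∈ T) (hc1 : c ≠ 1) : ∃ E : Subgroup G, E ≤ T ∧ c ∉ E ∧ T = zpowers c ⊔ E := by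
  have hcomm : ∀ a ∈ T, ∀ b ∈ T, a * b = b * a := by
    intro a ha b hb
    have h1 := hT a ha
    have h2 := hT b hb
    have h3 := hT (a * b) (mul_mem ha hb)
    have h4 : a⁻¹ = a := inv_eq_of_mul_eq_one_left h1
    have h5 : b⁻¹ = b := inv_eq_of_mul_eq_one_left h2
    have h6 : (a * b)⁻¹ = a * b := inv_eq_of_mul_eq_one_left h3
    rw [mul_inv_rev, h4, h5] at h6
    exact h6.symm
  obtain ⟨E, ⟨hE1, hE2⟩, hmax⟩ := Set.Finite.exists_maximal (s := {E : Subgroup G | E ≤ T ∧ c ∉ E})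
    (Set.toFinite _) ⟨⊥, bot_le, by rwa [mem_bot]⟩
  refine ⟨E, hE1, hE2, le_antisymm ?_ (sup_le (zpowers_le.2 hc) hE1)⟩
  intro t ht
  by_cases htE : t ∈ E
  · exact (le_sup_right : E ≤ _) htE
  · -- the subgroup generated by `E` and `t` contains `c`
    have hcE : c ∈ E ⊔ zpowers t := by
      by_contra hcE
      have h1 : E ⊔ zpowers t ∈ {E : Subgroup G | E ≤ T ∧ c ∉ E} :=
        ⟨sup_le hE1 (zpowers_le.2 ht), hcE⟩
      have h2 := hmax h1 le_sup_left
      exact htE (h2 ((le_sup_right : zpowers t ≤ _) (mem_zpowers t)))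
    have hn : zpowers t ≤ normalizer (E : Set G) := by
      rw [zpowers_le]
      apply centralizer_le_normalizer
      rw [mem_centralizer_iff]
      intro e he
      exact hcomm e (hE1 he) t ht
    have h3 : c ∈ ((E ⊔ zpowers t : Subgroup G) : Set G) := hcE
    rw [Subgroup.coe_mul_of_right_le_normalizer_left E (zpowers t) hn] at h3
    obtain ⟨e, he, t', ⟨k, rfl⟩, hk⟩ := Set.mem_mul.1 h3
    have hk' : e * t ^ k = c := hk
    have ht2 : t ^ (2 : ℤ) = 1 := by rw [zpow_two]; exact hT t ht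
    rcases Int.even_or_odd' k with ⟨l, rfl | rfl⟩
    · rw [zpow_mul, ht2, one_zpow, mul_one] at hk'
      exact absurd (hk' ▸ he) hE2
    · rw [zpow_add, zpow_mul, ht2, one_zpow, one_mul, zpow_one] at hk'
      have h4 : t = e⁻¹ * c := by rw [← hk']; group
      rw [h4]
      exact mul_mem ((le_sup_right : E ≤ _) (E.inv_mem he)) ((le_sup_left : zpowers c ≤ _) (mem_zpowers c))

theorem eq_or_inv {G : Type*} [Group G] [Finite G] {u v : G} (hu : orderOf u = 4) (hv : v ∈ zpowers u)
    (hv4 : orderOf v = 4) : v = u ∨ v = u⁻¹ := by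
  have hu4 : u ^ 4 = 1 := by rw [← hu]; exact pow_orderOf_eq_one u
  obtain ⟨k, hk⟩ := (isOfFinOrder_of_finite u).mem_powers_iff_mem_zpowers.2 hv
  have hk' : u ^ k = v := hk
  have h1 : u ^ (k % 4) = v := by
    rw [← hk']
    conv_rhs => rw [← pow_mod_orderOf, hu]
  have h2 : k % 4 < 4 := Nat.mod_lt _ (by norm_num)
  interval_cases hm : k % 4
  · rw [pow_zero] at h1
    rw [← h1, orderOf_one] at hv4
    omega
  · left; rw [← h1, pow_one]
  · have : v ^ 2 = 1 := by rw [← h1, ← pow_mul]; exact hu4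
    have := orderOf_dvd_of_pow_eq_one this
    rw [hv4] at this
    norm_num at this
  · right
    rw [← h1]
    apply eq_inv_of_mul_eq_one_left
    rw [← pow_succ]
    exact hu4

/-- A finite non-abelian group in which every subgroup is normal is the internal direct product of a subgroup isomorphic to the quaternion group of order `8`, an elementary abelian `2`-subgroup and an abelian subgroup of odd order. -/
theorem result {G : Type*} [Group G] [Finite G] (hna : ¬ IsMulCommutative G) (hn : ∀ H : Subgroup G, H.Normal) : ∃ Q E A : Subgroup G, Nonempty (Q ≃* QuaternionGroup 2) ∧ Cfsg.IsElementaryAbelian 2 E ∧ IsMulCommutative A ∧ Odd (Nat.card A) ∧ E ⊓ A = ⊥ ∧ Q ⊓ (E ⊔ A) = ⊥ ∧ Q ⊔ (E ⊔ A) = ⊤ := by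
  haveI : Fact (Nat.Prime 2) := ⟨Nat.prime_two⟩
  have hnil : Group.IsNilpotent G := H1.isNilpotent_iff_sylow_normal.2 (fun p _ P => hn _)
  have hodd : ∀ (p : ℕ) [Fact p.Prime], p ≠ 2 → ∀ x y : G, IsPEl p x → IsPEl p y → Commute x y := by
    intro p _ hp x y hx hy
    by_contra h
    exact hp (ham_exists hn hx hy h).1
  have hpel : ∀ {q k : ℕ} {z : G}, q.Prime → orderOf z = q ^ k → IsPGroup q (zpowers z) := by
    intro q k z _ hz
    exact IsPGroup.of_card (n := k) (by rw [Nat.card_zpowers, hz])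
  -- noncommuting 2-elements
  have hex : ∃ x y : G, orderOf x = 4 ∧ x ^ 2 = y ^ 2 ∧ ⁅x, y⁆ = x ^ 2 := by
    by_contra hno
    apply hna
    have hall : ∀ (p : ℕ) [Fact p.Prime] (x y : G), IsPEl p x → IsPEl p y → Commute x y := by
      intro p _ x y hx hy
      by_contra h
      obtain ⟨-, x', y', h'⟩ := ham_exists hn hx hy h
      exact hno ⟨x', y', h'⟩
    have hcen : ∀ (p k : ℕ) (x : G), p.Prime → orderOf x = p ^ k → (⊤ : Subgroup G) ≤ centralizer ({x} : Set G) := by
      intro p k x hp hx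
      haveI := Fact.mk hp
      apply le_of_primary
      intro z _ q l hq hz
      haveI := Fact.mk hq
      rw [mem_centralizer_singleton_iff]
      by_cases hqp : q = p
      · subst hqp
        exact (hall q z x ⟨l, hz⟩ ⟨k, hx⟩)
      · exact (H23.commute_of_isNilpotent hnil hqp (hpel hq hz) (hpel hp hx))
    have htop : (⊤ : Subgroup G) ≤ center G := by
      apply le_of_primary
      intro x _ p k hp hx
      rw [mem_center_iff]
      intro g
      exact (mem_centralizer_singleton_iff.1 (hcen p k x hp hx (mem_top g)))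
    exact ⟨⟨fun a b => (mem_center_iff.1 (htop (mem_top b)) a)⟩⟩
  obtain ⟨x, y, hx4, hxy, hc⟩ := hex
  have hxx : x ^ 4 = 1 := by rw [← hx4]; exact pow_orderOf_eq_one x
  have hx2 : x ^ 2 ≠ 1 := by
    intro h
    have := orderOf_dvd_of_pow_eq_one h
    rw [hx4] at this
    norm_num at this
  set c := x ^ 2 with hcdef
  have hcc : c * c = 1 := by rw [hcdef, ← pow_add]; exact hxx
  have hcinv : c⁻¹ = c := inv_eq_of_mul_eq_one_left hcc
  have hcx : Commute c x := (Commute.refl x).pow_left 2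
  have hcy : Commute c y := by rw [hxy]; exact (Commute.refl y).pow_left 2
  have hxyc : x * y = c * y * x := by rw [← hc, commutatorElement_def]; group
  have hyx : y * x * y⁻¹ = x⁻¹ := by
    have h1 : x * y * x⁻¹ * y⁻¹ = c := hc
    have h2 : y * x * y⁻¹ = c⁻¹ * x := by
      rw [← h1]; group
    rw [h2, hcinv, hcdef, pow_two]
    have h3 : x * x * x * x = 1 := by rw [← hxx]; simp only [pow_succ, pow_zero, one_mul]
    exact eq_inv_of_mul_eq_one_left h3
  have hxy' : x * y * x⁻¹ = y⁻¹ := by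
    have h1 : x * y * x⁻¹ * y⁻¹ = c := hc
    have h2 : x * y * x⁻¹ = c * y := by rw [← h1]; group
    rw [h2, hxy, pow_two]
    have h3 : y * y * y * y = 1 := by
      have : y * y = c := by rw [hxy, pow_two]
      rw [this, mul_assoc, this, hcc]
    exact eq_inv_of_mul_eq_one_left h3
  set Q := closure ({x, y} : Set G) with hQ
  have hxQ : x ∈ Q := subset_closure (by simp)
  have hyQ : y ∈ Q := subset_closure (by simp)
  have hcQ : c ∈ Q := pow_mem hxQ 2
  have hyx0 : y ∉ zpowers x := by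
    rintro ⟨k, hk⟩
    have h1 : x ^ k = y := hk
    have h2 : Commute x y := by rw [← h1]; exact (Commute.refl x).zpow_right k
    exact hx2 (by rw [← hc]; exact commutatorElement_eq_one_iff_commute.2 h2)
  -- `Q` is quaternion
  obtain ⟨e⟩ : Nonempty (Q ≃* QuaternionGroup 2) := by
    apply H23.nonempty_mulEquiv_quaternionGroup 2 (⟨x, hxQ⟩ : Q) ⟨y, hyQ⟩
    · rw [← Subgroup.orderOf_coe]; exact hx4
    · apply Subtype.ext
      show y * y = x ^ 2
      rw [← pow_two]; exact hxy.symm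
    · apply Subtype.ext
      exact hyx
    · rintro ⟨k, hk⟩
      exact hyx0 ⟨k, congrArg Subtype.val hk⟩
    · rw [eq_top_iff]
      rintro ⟨z, hz⟩ -
      have h1 : (closure ({(⟨x, hxQ⟩ : Q), ⟨y, hyQ⟩} : Set Q)).map Q.subtype = Q := by
        rw [MonoidHom.map_closure]
        congr 1
        ext w
        simp [Set.image_pair]
      have h2 : z ∈ (closure ({(⟨x, hxQ⟩ : Q), ⟨y, hyQ⟩} : Set Q)).map Q.subtype := by rw [h1]; exact hz
      obtain ⟨w, hw, hwz⟩ := h2
      have : w = ⟨z, hz⟩ := Subtype.ext hwz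
      rwa [this] at hw
  -- the centralizer
  set C := centralizer ({x, y} : Set G) with hCdef
  have hCmem : ∀ g : G, g ∈ C ↔ g * x * g⁻¹ = x ∧ g * y * g⁻¹ = y := by
    intro g
    rw [mem_centralizer_iff]
    constructor
    · intro h
      exact ⟨by rw [mul_inv_eq_iff_eq_mul]; exact (h x (by simp)).symm,
        by rw [mul_inv_eq_iff_eq_mul]; exact (h y (by simp)).symm⟩
    · rintro ⟨h1, h2⟩ z hz
      rcases hz with rfl | hz
      · rw [mul_inv_eq_iff_eq_mul] at h1; exact h1.symm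
      · rw [Set.mem_singleton_iff] at hz
        subst hz
        rw [mul_inv_eq_iff_eq_mul] at h2; exact h2.symm
  have hy4 : orderOf y = 4 := by
    have h1 : y ^ 2 ≠ 1 := by rw [← hxy]; exact hx2
    have h2 : y ^ 4 = 1 := by
      have : y ^ 4 = (y ^ 2) ^ 2 := by rw [← pow_mul]
      rw [this, ← hxy, pow_two]; exact hcc
    have h3 : orderOf y ∣ 2 ^ 2 := orderOf_dvd_of_pow_eq_one h2
    obtain ⟨k, hk, hk'⟩ := (Nat.dvd_prime_pow Nat.prime_two).1 h3
    interval_cases k
    · rw [pow_zero, orderOf_eq_one_iff] at hk'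
      rw [hk', one_pow] at h1
      exact absurd rfl h1
    · rw [pow_one] at hk'
      exact absurd (by rw [← hk']; exact pow_orderOf_eq_one y) h1
    · exact hk'
  have hxinv : y * x⁻¹ * y⁻¹ = x := by
    have : y * x⁻¹ * y⁻¹ = (y * x * y⁻¹)⁻¹ := by group
    rw [this, hyx, inv_inv]
  have hyinv : x * y⁻¹ * x⁻¹ = y := by
    have : x * y⁻¹ * x⁻¹ = (x * y * x⁻¹)⁻¹ := by group
    rw [this, hxy', inv_inv]
  have hdec : ∀ g : G, ∃ q ∈ Q, ∃ h ∈ C, g = h * q := by
    intro g
    have h1 : g * x * g⁻¹ = x ∨ g * x * g⁻¹ = x⁻¹ := by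
      apply eq_or_inv hx4 ((hn (zpowers x)).conj_mem x (mem_zpowers x) g)
      have : g * x * g⁻¹ = MulAut.conj g x := rfl
      rw [this, MulEquiv.orderOf_eq]; exact hx4
    have h2 : g * y * g⁻¹ = y ∨ g * y * g⁻¹ = y⁻¹ := by
      apply eq_or_inv hy4 ((hn (zpowers y)).conj_mem y (mem_zpowers y) g)
      have : g * y * g⁻¹ = MulAut.conj g y := rfl
      rw [this, MulEquiv.orderOf_eq]; exact hy4
    rcases h1 with h1 | h1 <;> rcases h2 with h2 | h2
    · exact ⟨1, one_mem _, g, (hCmem g).2 ⟨h1, h2⟩, by group⟩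
    · refine ⟨x⁻¹, inv_mem hxQ, g * x, (hCmem _).2 ⟨?_, ?_⟩, by group⟩
      · calc g * x * x * (g * x)⁻¹ = g * x * g⁻¹ := by group
          _ = x := h1
      · calc g * x * y * (g * x)⁻¹ = g * (x * y * x⁻¹) * g⁻¹ := by group
          _ = (g * y * g⁻¹)⁻¹ := by rw [hxy']; group
          _ = y := by rw [h2, inv_inv]
    · refine ⟨y⁻¹, inv_mem hyQ, g * y, (hCmem _).2 ⟨?_, ?_⟩, by group⟩
      · calc g * y * x * (g * y)⁻¹ = g * (y * x * y⁻¹) * g⁻¹ := by group
          _ = (g * x * g⁻¹)⁻¹ := by rw [hyx]; group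
          _ = x := by rw [h1, inv_inv]
      · calc g * y * y * (g * y)⁻¹ = g * y * g⁻¹ := by group
          _ = y := h2
    · refine ⟨(x * y)⁻¹, inv_mem (mul_mem hxQ hyQ), g * (x * y), (hCmem _).2 ⟨?_, ?_⟩, by group⟩
      · calc g * (x * y) * x * (g * (x * y))⁻¹ = g * x * (y * x * y⁻¹) * x⁻¹ * g⁻¹ := by group
          _ = (g * x * g⁻¹)⁻¹ := by rw [hyx]; group
          _ = x := by rw [h1, inv_inv]
      · calc g * (x * y) * y * (g * (x * y))⁻¹ = g * (x * y * x⁻¹) * g⁻¹ := by group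
          _ = (g * y * g⁻¹)⁻¹ := by rw [hxy']; group
          _ = y := by rw [h2, inv_inv]
  -- no elements of order 4 in `C`
  have hno4 : ∀ h ∈ C, orderOf h ≠ 4 := by
    intro h hh h4
    obtain ⟨hhx, hhy⟩ := (hCmem h).1 hh
    rw [mul_inv_eq_iff_eq_mul] at hhx hhy
    have hchy : Commute h y := hhy
    have hchx : Commute h x := hhx
    have h44 : h ^ 4 = 1 := by rw [← h4]; exact pow_orderOf_eq_one h
    have h2 : h ^ 2 ≠ 1 := by
      intro h'
      have := orderOf_dvd_of_pow_eq_one h'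
      rw [h4] at this
      norm_num at this
    have hsq : (h * y) ^ 2 = h ^ 2 * c := by rw [hchy.mul_pow, hxy]
    have hcmem : c ∈ zpowers (h * y) := by
      have h5 := (hn (zpowers (h * y))).conj_mem _ (mem_zpowers (h * y)) x
      have h6 := mul_mem h5 (inv_mem (mem_zpowers (h * y)))
      have e : x * (h * y) * x⁻¹ * (h * y)⁻¹ = c := by
        calc x * (h * y) * x⁻¹ * (h * y)⁻¹ = (x * h) * y * x⁻¹ * y⁻¹ * h⁻¹ := by group
          _ = h * (x * y * x⁻¹ * y⁻¹) * h⁻¹ := by rw [← hchx.eq]; group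
          _ = h * c * h⁻¹ := by rw [show x * y * x⁻¹ * y⁻¹ = c from hc]
          _ = c := by
            have : Commute h c := hchx.pow_right 2
            rw [this.eq]; group
      rwa [e] at h6
    have h4' : (h * y) ^ 4 = 1 := by
      have : (h * y) ^ 4 = ((h * y) ^ 2) ^ 2 := by rw [← pow_mul]
      have hc2 : Commute (h ^ 2) c := (hchx.pow_pow 2 2)
      rw [this, hsq, hc2.mul_pow, ← pow_mul, pow_two c, hcc, mul_one]
      exact h44
    obtain ⟨k, hk⟩ := (isOfFinOrder_of_finite (h * y)).mem_powers_iff_mem_zpowers.2 hcmem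
    have hk' : (h * y) ^ k = c := hk
    have h7 : (h * y) ^ (k % 4) = c := by
      rw [← hk']
      conv_rhs => rw [← Nat.mod_add_div k 4, pow_add, pow_mul, h4', one_pow, mul_one]
    have h8 : k % 4 < 4 := Nat.mod_lt _ (by norm_num)
    have hxhy : ¬ Commute x (h * y) := by
      intro h'
      have h9 : Commute x y := by
        have := (hchx.symm.inv_right).mul_right h'
        rwa [inv_mul_cancel_left] at this
      exact hx2 (by rw [← hc]; exact commutatorElement_eq_one_iff_commute.2 h9)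
    interval_cases hm : k % 4
    · rw [pow_zero] at h7
      exact hx2 h7.symm
    · rw [pow_one] at h7
      apply hxhy
      rw [h7]
      exact hcx.symm
    · rw [hsq] at h7
      exact h2 (mul_eq_right.1 h7)
    · have h9 : (h * y)⁻¹ = c := by
        rw [← h7]
        symm
        apply eq_inv_of_mul_eq_one_left
        rw [← pow_succ]
        exact h4'
      apply hxhy
      have : h * y = c⁻¹ := by rw [← h9, inv_inv]
      rw [this]
      exact hcx.symm.inv_right
  have hsq1 : ∀ h ∈ C, ∀ k : ℕ, orderOf h = 2 ^ k → h * h = 1 := by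
    intro h hh k hk
    by_cases hk2 : k ≤ 1
    · have : orderOf h ∣ 2 := by
        rw [hk]
        have := pow_dvd_pow 2 hk2
        rwa [pow_one] at this
      rw [← pow_two]
      exact orderOf_dvd_iff_pow_eq_one.1 this
    · exfalso
      apply hno4 (h ^ 2 ^ (k - 2)) (pow_mem hh _)
      rw [orderOf_pow' h (pow_ne_zero _ two_ne_zero), hk, Nat.gcd_eq_right (pow_dvd_pow 2 (by omega))]
      have e : 2 ^ k = 4 * 2 ^ (k - 2) := by
        obtain ⟨m, rfl⟩ : ∃ m, k = m + 2 := ⟨k - 2, by omega⟩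
        rw [Nat.add_sub_cancel, pow_add]; ring
      rw [e, Nat.mul_div_cancel _ (pow_pos two_pos _)]
  obtain ⟨P, A, hAn, hcompl⟩ := H2.HasNormalPComplement.of_isNilpotent (p := 2) hnil
  have hPsub : ∀ z : G, (∃ k, orderOf z = 2 ^ k) → z ∈ (P : Subgroup G) := by
    rintro z ⟨k, hk⟩
    haveI : (P : Subgroup G).Normal := hn _
    obtain ⟨R, hR⟩ := (hpel Nat.prime_two hk).exists_le_sylow
    have hRP : R = P := by
      obtain ⟨g, rfl⟩ := MulAction.exists_smul_eq G P R
      exact Sylow.smul_eq_of_normal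
    exact hRP ▸ hR (mem_zpowers z)
  have hPel : ∀ z ∈ (P : Subgroup G), ∃ k, orderOf z = 2 ^ k := by
    intro z hz
    obtain ⟨k, hk⟩ := P.isPGroup' ⟨z, hz⟩
    exact IsPEl.of_pow_eq_one Nat.prime_two (congrArg Subtype.val hk)
  have hxP : x ∈ (P : Subgroup G) := hPsub x ⟨2, by rw [hx4]; norm_num⟩
  have hyP : y ∈ (P : Subgroup G) := hPsub y ⟨2, by rw [hy4]; norm_num⟩
  have hQP : Q ≤ (P : Subgroup G) := by
    rw [hQ, closure_le]
    rintro z (rfl | rfl)
    · exact hxP
    · exact hyP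
  have hcC : c ∈ C := by
    rw [hCmem]
    exact ⟨by rw [mul_inv_eq_iff_eq_mul]; exact hcx.eq, by rw [mul_inv_eq_iff_eq_mul]; exact hcy.eq⟩
  obtain ⟨E, hE1, hE2, hE3⟩ := exists_compl ((P : Subgroup G) ⊓ C) (by
      rintro t ⟨ht1, ht2⟩
      obtain ⟨k, hk⟩ := hPel t ht1
      exact hsq1 t ht2 k hk) c ⟨pow_mem hxP 2, hcC⟩ hx2
  have hEP : E ≤ (P : Subgroup G) := hE1.trans inf_le_left
  have hEC : E ≤ C := hE1.trans inf_le_right
  have hAodd : ¬ 2 ∣ Nat.card A := by rw [← hcompl.index_eq_card]; exact P.not_dvd_index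
  have hPA : (P : Subgroup G) ⊓ A = ⊥ := by rw [inf_comm]; exact hcompl.disjoint.eq_bot
  refine ⟨Q, E, A, ⟨e⟩, ⟨⟨⟨?_⟩⟩, ?_⟩, ⟨⟨?_⟩⟩, Nat.not_even_iff_odd.1 (fun h => hAodd h.two_dvd), ?_, ?_, ?_⟩
  · rintro ⟨a, ha⟩ ⟨b, hb⟩
    apply Subtype.ext
    show a * b = b * a
    have hsq : ∀ t ∈ E, t * t = 1 := by
      intro t ht
      obtain ⟨k, hk⟩ := hPel t (hEP ht)
      exact hsq1 t (hEC ht) k hk
    have h4 : a⁻¹ = a := inv_eq_of_mul_eq_one_left (hsq a ha)
    have h5 : b⁻¹ = b := inv_eq_of_mul_eq_one_left (hsq b hb)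
    have h6 : (a * b)⁻¹ = a * b := inv_eq_of_mul_eq_one_left (hsq _ (mul_mem ha hb))
    rw [mul_inv_rev, h4, h5] at h6
    exact h6.symm
  · intro t ht
    obtain ⟨k, hk⟩ := hPel t (hEP ht)
    rw [pow_two]
    exact hsq1 t (hEC ht) k hk
  · -- `A` is abelian
    have hcen : ∀ (p k : ℕ) (u : G), u ∈ A → p.Prime → orderOf u = p ^ k → A ≤ centralizer ({u} : Set G) := by
      intro p k u huA hp hu
      haveI := Fact.mk hp
      apply le_of_primary
      intro z hzA q l hq hz
      haveI := Fact.mk hq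
      rw [mem_centralizer_singleton_iff]
      by_cases hqp : q = p
      · subst hqp
        by_cases hq2 : q = 2
        · subst hq2
          have h1 : z ∈ (P : Subgroup G) ⊓ A := ⟨hPsub z ⟨l, hz⟩, hzA⟩
          rw [hPA, mem_bot] at h1
          rw [h1, one_mul, mul_one]
        · exact (hodd q hq2 z u ⟨l, hz⟩ ⟨k, hu⟩)
      · exact (H23.commute_of_isNilpotent hnil hqp (hpel hq hz) (hpel hp hu))
    have htop : A ≤ centralizer (A : Set G) := by
      apply le_of_primary
      intro u huA p k hp hu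
      rw [mem_centralizer_iff]
      intro g hg
      exact (mem_centralizer_singleton_iff.1 (hcen p k u huA hp hu hg))
    rintro ⟨a, ha⟩ ⟨b, hb⟩
    apply Subtype.ext
    exact (mem_centralizer_iff.1 (htop hb) a ha)
  · rw [eq_bot_iff, ← hPA]
    exact inf_le_inf_right _ hEP
  · -- `Q ∩ EA = 1`
    rw [eq_bot_iff]
    rintro z ⟨hzQ, hzEA⟩
    haveI := hAn
    have hzEA' : z ∈ E ⊔ A := hzEA
    rw [mem_sup_of_normal_right] at hzEA'
    obtain ⟨a, ha, b, hb, rfl⟩ := hzEA'
    have hb1 : b ∈ (P : Subgroup G) ⊓ A := by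
      refine ⟨?_, hb⟩
      have := mul_mem (inv_mem (hEP ha)) (hQP hzQ)
      rwa [inv_mul_cancel_left] at this
    rw [hPA, mem_bot] at hb1
    subst hb1
    rw [mul_one] at hzQ ⊢
    rw [mem_bot]
    by_contra ha1
    -- involutions of `Q`
    have h1 : (⟨a, hzQ⟩ : Q) = ⟨c, hcQ⟩ := by
      apply e.injective
      apply quat_invol
      · rw [← map_mul]
        have : (⟨a, hzQ⟩ : Q) * ⟨a, hzQ⟩ = 1 := by
          apply Subtype.ext
          obtain ⟨k, hk⟩ := hPel a (hEP ha)
          exact hsq1 a (hEC ha) k hk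
        rw [this, map_one]
      · intro h
        rw [map_eq_one_iff e e.injective] at h
        exact ha1 (congrArg Subtype.val h)
      · rw [← map_mul]
        have : (⟨c, hcQ⟩ : Q) * ⟨c, hcQ⟩ = 1 := Subtype.ext hcc
        rw [this, map_one]
      · intro h
        rw [map_eq_one_iff e e.injective] at h
        exact hx2 (congrArg Subtype.val h)
    have h2 : a = c := congrArg Subtype.val h1
    exact hE2 (h2 ▸ ha)
  · rw [eq_top_iff]
    intro g _
    have hg : g ∈ A ⊔ (P : Subgroup G) := by rw [hcompl.sup_eq_top]; trivial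
    haveI := hAn
    rw [mem_sup_of_normal_left] at hg
    obtain ⟨a, ha, z, hz, rfl⟩ := hg
    apply mul_mem ((le_sup_right : E ⊔ A ≤ _) ((le_sup_right : A ≤ _) ha))
    obtain ⟨q, hq, h, hh, rfl⟩ := hdec z
    refine mul_mem ?_ ((le_sup_left : Q ≤ _) hq)
    have hhP : h ∈ (P : Subgroup G) := by
      have := mul_mem hz (inv_mem (hQP hq))
      rwa [mul_inv_cancel_right] at this
    have h1 : h ∈ zpowers c ⊔ E := by rw [← hE3]; exact ⟨hhP, hh⟩
    have h2 : zpowers c ⊔ E ≤ Q ⊔ (E ⊔ A) :=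
      sup_le ((zpowers_le.2 hcQ).trans le_sup_left) (le_sup_left.trans le_sup_right)
    exact h2 h1

end Cfsg.Agent.S4211
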