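import Cfsg.Statements.S4213
import Cfsg.Agent.H25.FrobCount
import Cfsg.Agent.H1.Chief

set_option autoImplicit false
open Cfsg

namespace Cfsg.Agent.S4213

open Subgroup

/-- in a commuting situation, a coset of a normal subgroup of exponent `p` contains a solution -/
theorem exists_sol {G : Type*} [Group G] {K : Subgroup G} {p n : ℕ} (hn : n.Coprime p)
    (hKp : ∀ x ∈ K, x ^ p = 1) {x : G} (hx : x ^ n ∈ K) : ∃ y : G, y ^ n = 1 ∧ x⁻¹ * y ∈ K := by
  obtain ⟨s, hs1, hs2⟩ := Nat.chineseRemainder hn 1 0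
  have hs2' : p ∣ s := (Nat.modEq_zero_iff_dvd).1 hs2
  refine ⟨x ^ s, ?_, ?_⟩
  · obtain ⟨t, rfl⟩ := hs2'
    rw [← pow_mul, mul_comm, ← mul_assoc, pow_mul, pow_mul, hKp _ hx, one_pow]
  · -- `s ≡ 1 mod n`
    have h1 : (n : ℤ) ∣ (s : ℤ) - 1 := by
      have := (Nat.modEq_iff_dvd.1 hs1.symm)
      simpa using this
    obtain ⟨t, ht⟩ := h1
    have h2 : x⁻¹ * x ^ s = (x ^ n) ^ t := by
      rw [← zpow_natCast x n, ← zpow_mul, ← ht, ← zpow_natCast x s, zpow_sub, zpow_one]
      group
    rw [h2]
    exact K.zpow_mem hx t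

theorem main.{u} (N : ℕ) : ∀ (G : Type u) [Group G] [Finite G], Nat.card G = N →
    Group.IsSolvable G → ∀ n : ℕ, n ∣ Nat.card G → Nat.card {x : G // x ^ n = 1} = n →
    ∃ H : Subgroup G, H.Normal ∧ (H : Set G) = {x : G | x ^ n = 1} := by
  induction N using Nat.strong_induction_on with
  | _ N ih =>
    intro G _ _ hN hs n hn hcount
    by_cases htriv : (⊤ : Subgroup G) = ⊥
    · refine ⟨⊤, inferInstance, ?_⟩
      ext x
      have : x ∈ (⊤ : Subgroup G) := trivial
      rw [htriv, mem_bot] at this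
      simp [this]
    obtain ⟨K, hK, hK1, -, hmin⟩ := H1.exists_minimal_normal_le (N := (⊤ : Subgroup G)) inferInstance htriv
    obtain ⟨-, p, hp, hKp, hKe⟩ := H1.minimal_normal_solvable hK hK1 hmin (by
      haveI := hs
      infer_instance)
    haveI : Fact p.Prime := ⟨hp⟩
    obtain ⟨i, hi⟩ := IsPGroup.iff_card.1 hKp
    have hi0 : i ≠ 0 := by
      rintro rfl
      rw [pow_zero, card_eq_one] at hi
      exact hK1 hi
    have hcardG : Nat.card (G ⧸ K) * p ^ i = Nat.card G := by
      rw [← hi, mul_comm, ← index_eq_card, card_mul_index]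
    have hlt : Nat.card (G ⧸ K) < N := by
      rw [← hN, ← hcardG]
      exact lt_mul_of_one_lt_right Nat.card_pos (Nat.one_lt_pow hi0 hp.one_lt)
    haveI hsq : Group.IsSolvable (G ⧸ K) := by
      haveI := hs
      infer_instance
    have hpre : ∀ ν : ℕ, Nat.card {x : G // (x : G ⧸ K) ^ ν = 1} = p ^ i * Nat.card {y : G ⧸ K // y ^ ν = 1} := by
      intro ν
      rw [← hi, ← Nat.card_prod]
      apply Nat.card_congr
      have hout : ∀ q : G ⧸ K, ((Quotient.out q : G) : G ⧸ K) = q := fun q => QuotientGroup.out_eq' q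
      refine
        { toFun := fun x => (⟨(Quotient.out (x.1 : G ⧸ K))⁻¹ * x.1, by
            rw [← QuotientGroup.eq, hout]⟩, ⟨(x.1 : G ⧸ K), x.2⟩)
          invFun := fun ky => ⟨Quotient.out ky.2.1 * ky.1.1, by
            rw [QuotientGroup.mk_mul, hout, (QuotientGroup.eq_one_iff _).2 ky.1.2, mul_one]
            exact ky.2.2⟩
          left_inv := fun x => Subtype.ext (by simp)
          right_inv := ?_ }
      rintro ⟨k, y, hy⟩
      have h1 : ((Quotient.out y * (k : G) : G) : G ⧸ K) = y := by
        rw [QuotientGroup.mk_mul, hout, (QuotientGroup.eq_one_iff _).2 k.2, mul_one]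
      apply Prod.ext
      · apply Subtype.ext
        show (Quotient.out ((Quotient.out y * (k : G) : G) : G ⧸ K))⁻¹ * (Quotient.out y * k) = k
        rw [h1, inv_mul_cancel_left]
      · exact Subtype.ext h1
    have hn0 : n ≠ 0 := by
      rintro rfl
      exact Nat.card_pos.ne' (zero_dvd_iff.1 hn)
    have hmono : ∀ ν : ℕ, ν * p ∣ n → p ^ i * Nat.card {y : G ⧸ K // y ^ ν = 1} ≤ n ∧
        (p ^ i * Nat.card {y : G ⧸ K // y ^ ν = 1} = n → ∀ x : G, x ^ n = 1 → (x : G ⧸ K) ^ ν = 1) := by
      intro ν hν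
      have himp : ∀ x : G, (x : G ⧸ K) ^ ν = 1 → x ^ n = 1 := by
        intro x hx
        rw [← QuotientGroup.mk_pow, QuotientGroup.eq_one_iff] at hx
        obtain ⟨t, rfl⟩ := hν
        rw [pow_mul, pow_mul, hKe _ hx, one_pow]
      have hsub : {x : G | (x : G ⧸ K) ^ ν = 1} ⊆ {x : G | x ^ n = 1} := himp
      have hle := Set.ncard_le_ncard hsub (Set.toFinite _)
      have e1 : ({x : G | (x : G ⧸ K) ^ ν = 1}).ncard = p ^ i * Nat.card {y : G ⧸ K // y ^ ν = 1} := by
        rw [← hpre]; rfl
      have e2 : ({x : G | x ^ n = 1}).ncard = n := hcount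
      refine ⟨by rw [← e1]; exact hle.trans e2.le, fun h x hx => ?_⟩
      have h3 := Set.eq_of_subset_of_ncard_le hsub (by rw [e1, e2, h]) (Set.toFinite _)
      have : x ∈ {x : G | (x : G ⧸ K) ^ ν = 1} := by rw [h3]; exact hx
      exact this
    by_cases hpn : p ∣ n
    · -- write `n = p ^ a * m`
      obtain ⟨a, m, hm, hnm⟩ := Nat.exists_eq_pow_mul_and_not_dvd hn0 p hp.ne_one
      have ha : a ≠ 0 := by
        rintro rfl
        rw [pow_zero, one_mul] at hnm
        exact hm (hnm ▸ hpn)
      have hm0 : 0 < m := Nat.pos_of_ne_zero (by rintro rfl; exact hm (dvd_zero _))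
      have hai : i ≤ a := by
        by_contra hlt'
        push Not at hlt'
        have h1 := (hmono m (by
          rw [hnm, mul_comm]
          exact mul_dvd_mul_right (dvd_pow_self p ha) m)).1
        have hmd : m ∣ Nat.card (G ⧸ K) := by
          have h2 : m ∣ Nat.card (G ⧸ K) * p ^ i := by
            rw [hcardG]; exact (Dvd.intro_left _ hnm.symm).trans hn
          exact Nat.Coprime.dvd_of_dvd_mul_right (Nat.Coprime.pow_right i
            (Nat.coprime_comm.1 ((Nat.Prime.coprime_iff_not_dvd hp).2 hm))) h2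
        have h3 : m ≤ Nat.card {y : G ⧸ K // y ^ m = 1} := by
          have h4 := H25.card_pow_eq_one_dvd (G := G ⧸ K) m
          rw [Nat.gcd_eq_left hmd] at h4
          haveI : Nonempty {y : G ⧸ K // y ^ m = 1} := ⟨⟨1, one_pow _⟩⟩
          exact Nat.le_of_dvd Nat.card_pos h4
        have h5 : p ^ a * m < p ^ i * m := Nat.mul_lt_mul_of_pos_right (Nat.pow_lt_pow_right hp.one_lt hlt') hm0
        have h6 : p ^ i * m ≤ p ^ i * Nat.card {y : G ⧸ K // y ^ m = 1} := Nat.mul_le_mul_left _ h3
        rw [hnm] at h1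
        omega
      -- `ν = n / p ^ i`
      set ν := p ^ (a - i) * m with hν
      have hνn : p ^ i * ν = n := by
        rw [hν, ← mul_assoc, ← pow_add, Nat.add_sub_cancel' hai, ← hnm]
      have hνd : ν ∣ Nat.card (G ⧸ K) := by
        have h1 : ν * p ^ i ∣ Nat.card (G ⧸ K) * p ^ i := by
          rw [hcardG, mul_comm, hνn]; exact hn
        exact Nat.dvd_of_mul_dvd_mul_right (pow_pos hp.pos i) h1
      have h1 := hmono ν (by
        rw [← hνn, mul_comm]
        exact mul_dvd_mul_right (dvd_pow_self p hi0) ν)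
      have h3 : ν ≤ Nat.card {y : G ⧸ K // y ^ ν = 1} := by
        have h4 := H25.card_pow_eq_one_dvd (G := G ⧸ K) ν
        rw [Nat.gcd_eq_left hνd] at h4
        haveI : Nonempty {y : G ⧸ K // y ^ ν = 1} := ⟨⟨1, one_pow _⟩⟩
        exact Nat.le_of_dvd Nat.card_pos h4
      have h4 : Nat.card {y : G ⧸ K // y ^ ν = 1} = ν := by
        apply le_antisymm _ h3
        have h5 : p ^ i * Nat.card {y : G ⧸ K // y ^ ν = 1} ≤ p ^ i * ν := by rw [hνn]; exact h1.1
        exact Nat.le_of_mul_le_mul_left h5 (pow_pos hp.pos i)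
      obtain ⟨T, hT, hTe⟩ := ih _ hlt (G ⧸ K) rfl hsq ν hνd h4
      refine ⟨T.comap (QuotientGroup.mk' K), hT.comap _, ?_⟩
      ext x
      rw [SetLike.mem_coe, mem_comap, ← SetLike.mem_coe, hTe]
      constructor
      · intro hx
        have hx' : (x : G ⧸ K) ^ ν = 1 := hx
        rw [← QuotientGroup.mk_pow, QuotientGroup.eq_one_iff] at hx'
        show x ^ n = 1
        obtain ⟨i', rfl⟩ := Nat.exists_eq_succ_of_ne_zero hi0
        have hn' : n = ν * (p * p ^ i') := by rw [← hνn, Nat.succ_eq_add_one, pow_succ]; ring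
        rw [hn', pow_mul, pow_mul, hKe _ hx', one_pow]
      · intro hx
        exact h1.2 (by rw [h4, hνn]) x hx
    · -- coprime case
      have hcop : n.Coprime p := Nat.coprime_comm.1 ((Nat.Prime.coprime_iff_not_dvd hp).2 hpn)
      have hnd : n ∣ Nat.card (G ⧸ K) := by
        have h2 : n ∣ Nat.card (G ⧸ K) * p ^ i := by rw [hcardG]; exact hn
        exact Nat.Coprime.dvd_of_dvd_mul_right (Nat.Coprime.pow_right i hcop) h2
      have hge : n ≤ Nat.card {y : G ⧸ K // y ^ n = 1} := by
        have h4 := H25.card_pow_eq_one_dvd (G := G ⧸ K) n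
        rw [Nat.gcd_eq_left hnd] at h4
        haveI : Nonempty {y : G ⧸ K // y ^ n = 1} := ⟨⟨1, one_pow _⟩⟩
        exact Nat.le_of_dvd Nat.card_pos h4
      have hle : Nat.card {y : G ⧸ K // y ^ n = 1} ≤ n := by
        conv_rhs => rw [← hcount]
        let f : {x : G // x ^ n = 1} → {y : G ⧸ K // y ^ n = 1} := fun x =>
          ⟨(x.1 : G ⧸ K), by rw [← QuotientGroup.mk_pow, x.2]; rfl⟩
        apply Nat.card_le_card_of_surjective f
        rintro ⟨y, hy⟩
        obtain ⟨x, rfl⟩ := QuotientGroup.mk_surjective y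
        rw [← QuotientGroup.mk_pow, QuotientGroup.eq_one_iff] at hy
        obtain ⟨z, hz, hxz⟩ := exists_sol hcop hKe hy
        refine ⟨⟨z, hz⟩, Subtype.ext ?_⟩
        exact (QuotientGroup.eq.2 hxz).symm
      have heq := le_antisymm hle hge
      obtain ⟨T, hT, hTe⟩ := ih _ hlt (G ⧸ K) rfl hsq n hnd heq
      -- preimage of `T` has a complement to `K`
      set M := T.comap (QuotientGroup.mk' K) with hM
      have hKM : K ≤ M := by
        intro x hx
        rw [hM, mem_comap]
        have : QuotientGroup.mk' K x = 1 := (QuotientGroup.eq_one_iff x).2 hx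
        rw [this]; exact one_mem _
      have hTcard : Nat.card T = n := by
        rw [← heq]
        exact Nat.card_congr (Equiv.setCongr hTe)
      have hMcard : Nat.card M = n * p ^ i := by
        have h1 := hpre n
        rw [heq] at h1
        rw [mul_comm, ← h1]
        apply Nat.card_congr
        apply Equiv.subtypeEquivRight
        intro x
        rw [hM, mem_comap, ← SetLike.mem_coe, hTe]
        rfl
      have hindex : (K.subgroupOf M).index = n := by
        have h1 := (K.subgroupOf M).card_mul_index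
        rw [Nat.card_congr (subgroupOfEquivOfLe hKM).toEquiv, hMcard, hi, mul_comm n] at h1
        exact Nat.eq_of_mul_eq_mul_left (pow_pos hp.pos i) h1
      haveI : (K.subgroupOf M).Normal := hK.subgroupOf M
      obtain ⟨H, hH⟩ := exists_right_complement'_of_coprime (N := K.subgroupOf M) (by
        rw [hindex, Nat.card_congr (subgroupOfEquivOfLe hKM).toEquiv, hi]
        exact (Nat.Coprime.pow_right i hcop).symm)
      have hHcard : Nat.card H = n := by rw [← hH.symm.index_eq_card, hindex]
      have hHS : ∀ x ∈ H.map M.subtype, x ^ n = 1 := by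
        rintro _ ⟨h, hh, rfl⟩
        have := pow_card_eq_one' (x := (⟨h, hh⟩ : H))
        rw [hHcard] at this
        exact congrArg (fun z : H => ((z : M) : G)) this
      have hHset : ((H.map M.subtype : Subgroup G) : Set G) = {x : G | x ^ n = 1} := by
        have hsub : ((H.map M.subtype : Subgroup G) : Set G) ⊆ {x : G | x ^ n = 1} := fun x hx => hHS x hx
        refine Set.eq_of_subset_of_ncard_le hsub ?_ (Set.toFinite _)
        have e2 : ({x : G | x ^ n = 1}).ncard = n := hcount
        have e3 : ((H.map M.subtype : Subgroup G) : Set G).ncard = n := by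
          have : Nat.card (H.map M.subtype) = n := by
            rw [← Nat.card_congr (H.equivMapOfInjective M.subtype M.subtype_injective).toEquiv, hHcard]
          exact this
        rw [e2, e3]
      refine ⟨H.map M.subtype, ⟨fun x hx g => ?_⟩, hHset⟩
      rw [← SetLike.mem_coe, hHset] at hx ⊢
      show (g * x * g⁻¹) ^ n = 1
      have hx' : x ^ n = 1 := hx
      rw [conj_pow, hx', mul_one, mul_inv_cancel]

/-- If `G` is a finite solvable group and `n` divides the order of `G` and exactly `n` elements `x` of `G` satisfy `x^n = 1`, then these elements form a normal subgroup. -/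
theorem result {G : Type*} [Group G] [Finite G] [Group.IsSolvable G] (n : ℕ) (hn : n ∣ Nat.card G) (hcount : Nat.card {x : G // x ^ n = 1} = n) : ∃ H : Subgroup G, H.Normal ∧ (H : Set G) = {x : G | x ^ n = 1} := by
  exact main _ G rfl inferInstance n hn hcount

end Cfsg.Agent.S4213
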