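import Cfsg.Statements.S4216
import Cfsg.Agent.H25.TransferMackey

set_option autoImplicit false
open Cfsg

namespace Cfsg.Agent.S4216

open Cfsg.Agent.H25 MulAction
open scoped commutatorElement

/-- The right hand side. -/
def W {G : Type*} [Group G] (P : Subgroup G) : Subgroup G :=
  (P ⊓ ⁅Subgroup.normalizer (P : Set G), Subgroup.normalizer (P : Set G)⁆) ⊔
    ⨆ z : G, P ⊓ (⁅P, P⁆).map (MulAut.conj z).toMonoidHom

theorem orbit_card {G : Type*} [Group G] [Finite G] (P : Subgroup G)
    (o : orbitRel.Quotient P (G ⧸ P)) :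
    Nat.card {q : G ⧸ P // (Quotient.mk'' q : orbitRel.Quotient P (G ⧸ P)) = o} =
      (MulAction.stabilizer P (Quotient.out o : G ⧸ P)).index := by
  rw [MulAction.index_stabilizer, ← Nat.card_coe_set_eq]
  apply Nat.card_congr
  apply Equiv.subtypeEquivRight
  intro q
  rw [← MulAction.orbitRel_apply]
  constructor
  · intro h
    have h2 : (Quotient.mk'' q : orbitRel.Quotient P (G ⧸ P)) = Quotient.mk'' (Quotient.out o) := by
      rw [h]; exact (Quotient.out_eq' o).symm
    exact Quotient.exact' h2
  · intro h
    have h2 : (Quotient.mk'' q : orbitRel.Quotient P (G ⧸ P)) = Quotient.mk'' (Quotient.out o) :=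
      Quotient.sound' h
    rw [h2]; exact Quotient.out_eq' o

/-- `x^k` fixes a point of an orbit of length `k` of a `p`-group. -/
theorem pow_mem_stab {P : Type*} [Group P] [Finite P] {p : ℕ} [Fact p.Prime] (hP : IsPGroup p P)
    (S : Subgroup P) (x : P) : x ^ S.index ∈ S := by
  obtain ⟨k, hk⟩ := IsPGroup.iff_card.1 hP
  have h1 : S.relIndex (Subgroup.zpowers x) ∣ p ^ k := by
    rw [← hk]
    exact (Subgroup.relIndex_dvd_card _ _).trans (Subgroup.card_subgroup_dvd_card _)
  have h2 : S.index ∣ p ^ k := by
    rw [← hk]; exact S.index_dvd_card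
  obtain ⟨i, -, hi⟩ := (Nat.dvd_prime_pow (Fact.out : p.Prime)).1 h1
  obtain ⟨j, -, hj⟩ := (Nat.dvd_prime_pow (Fact.out : p.Prime)).1 h2
  have h3 : S.relIndex (Subgroup.zpowers x) ≤ S.index := by
    rw [← Subgroup.relIndex_top_right]
    exact Subgroup.relIndex_le_of_le_right le_top
      (by rw [Subgroup.relIndex_top_right]; exact Subgroup.FiniteIndex.index_ne_zero)
  have hij : i ≤ j := by
    rw [hi, hj] at h3
    exact (Nat.pow_le_pow_iff_right (Fact.out : p.Prime).one_lt).1 h3
  have h4 : (⟨x, Subgroup.mem_zpowers x⟩ : Subgroup.zpowers x) ^ (S.subgroupOf (Subgroup.zpowers x)).index ∈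
      S.subgroupOf (Subgroup.zpowers x) := by
    letI : CommGroup (Subgroup.zpowers x) := IsCyclic.commGroup
    exact Subgroup.pow_index_mem _ _
  rw [Subgroup.mem_subgroupOf] at h4
  have h5 : x ^ p ^ i ∈ S := by
    have h6 : (S.subgroupOf (Subgroup.zpowers x)).index = p ^ i := hi
    rw [h6] at h4
    exact h4
  rw [hj]
  obtain ⟨c, hc⟩ := pow_dvd_pow p hij
  rw [hc, pow_mul]
  exact S.pow_mem h5 c

theorem W_le {G : Type*} [Group G] (P : Subgroup G) : W P ≤ P ⊓ commutator G := by
  apply sup_le
  · apply inf_le_inf le_rfl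
    exact Subgroup.commutator_mono le_top le_top
  · apply iSup_le
    intro z
    apply inf_le_inf le_rfl
    rw [Subgroup.map_le_iff_le_comap]
    refine (Subgroup.commutator_mono le_top le_top : ⁅P, P⁆ ≤ commutator G).trans ?_
    intro y hy
    rw [Subgroup.mem_comap]
    exact (inferInstance : (commutator G).Normal).conj_mem y hy z

theorem commutator_le_W {G : Type*} [Group G] (P : Subgroup G) : ⁅P, P⁆ ≤ W P := by
  refine le_trans ?_ (le_sup_left.trans (le_refl (W P)))
  apply le_inf (Subgroup.commutator_le_self P)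
  exact Subgroup.commutator_mono Subgroup.le_normalizer Subgroup.le_normalizer

/-- Grün's first theorem, the nontrivial inclusion. -/
theorem main {G : Type*} [Group G] [Finite G] {p : ℕ} [Fact p.Prime] (P : Sylow p G) :
    ∀ n : ℕ, ∀ x : G, orderOf x = n → x ∈ (P : Subgroup G) → x ∈ commutator G →
      x ∈ W (P : Subgroup G) := by
  classical
  intro n
  induction n using Nat.strong_induction_on with
  | _ n ih =>
    intro x hn hxP hxG
    by_cases hx1 : x = 1
    · rw [hx1]; exact Subgroup.one_mem _
    set W' : Subgroup (P : Subgroup G) := (W (P : Subgroup G)).subgroupOf (P : Subgroup G) with hW'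
    have hmapc : (commutator (P : Subgroup G)).map (P : Subgroup G).subtype = ⁅(P : Subgroup G), (P : Subgroup G)⁆ :=
      Subgroup.map_subtype_commutator _
    have hcomm : commutator (P : Subgroup G) ≤ W' := by
      intro y hy
      rw [hW', Subgroup.mem_subgroupOf]
      apply commutator_le_W
      rw [← hmapc]
      exact ⟨y, hy, rfl⟩
    haveI hWn : W'.Normal := Subgroup.Normal.of_commutator_le _ hcomm
    letI : CommGroup ((P : Subgroup G) ⧸ W') :=
      { (inferInstance : Group ((P : Subgroup G) ⧸ W')) with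
        mul_comm := ((Subgroup.Normal.quotient_commutative_iff_commutator_le (N := W')).2 hcomm).is_comm.comm }
    let ϕ : (P : Subgroup G) →* (P : Subgroup G) ⧸ W' := QuotientGroup.mk' W'
    have hϕ1 : ∀ y : (P : Subgroup G), ϕ y = 1 ↔ (y : G) ∈ W (P : Subgroup G) := by
      intro y
      rw [show ϕ y = (y : (P : Subgroup G) ⧸ W') from rfl, QuotientGroup.eq_one_iff, hW',
        Subgroup.mem_subgroupOf]
    set X : (P : Subgroup G) := ⟨x, hxP⟩ with hX
    haveI : Fintype (orbitRel.Quotient (P : Subgroup G) (G ⧸ (P : Subgroup G))) := Fintype.ofFinite _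
    have hconj : ∀ r : G, ∀ d : conjInf (P : Subgroup G) r,
        (d : (P : Subgroup G)) ∈ commutator (P : Subgroup G) → twist ϕ r d = 1 := by
      intro r d hd
      rw [twist_apply, hϕ1]
      apply (le_sup_right : _ ≤ W (P : Subgroup G))
      apply Subgroup.mem_iSup_of_mem r⁻¹
      refine ⟨mem_conjInf.1 d.2, ((d : (P : Subgroup G)) : G), ?_, ?_⟩
      · rw [SetLike.mem_coe, ← hmapc]
        exact ⟨_, hd, rfl⟩
      · simp
    have hpow : ∀ o : orbitRel.Quotient (P : Subgroup G) (G ⧸ (P : Subgroup G)),
        X ^ Nat.card {q : G ⧸ (P : Subgroup G) // (Quotient.mk'' q : orbitRel.Quotient (P : Subgroup G) (G ⧸ (P : Subgroup G))) = o} ∈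
        conjInf (P : Subgroup G) (orbRep (P : Subgroup G) o) := by
      intro o
      rw [orbit_card]
      have h1 := pow_mem_stab P.isPGroup' (MulAction.stabilizer (P : Subgroup G) (Quotient.out o : G ⧸ (P : Subgroup G))) X
      rw [MulAction.mem_stabilizer_iff] at h1
      rw [mem_conjInf]
      have h2 : ((orbRep (P : Subgroup G) o : G) : G ⧸ (P : Subgroup G)) =
        (((X ^ (MulAction.stabilizer (P : Subgroup G) (Quotient.out o : G ⧸ (P : Subgroup G))).index : (P : Subgroup G)) : G) *
          orbRep (P : Subgroup G) o : G) := by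
        have e : (((((X ^ (MulAction.stabilizer (P : Subgroup G) (Quotient.out o : G ⧸ (P : Subgroup G))).index : (P : Subgroup G)) : G) *
          orbRep (P : Subgroup G) o : G)) : G ⧸ (P : Subgroup G)) =
          (X ^ (MulAction.stabilizer (P : Subgroup G) (Quotient.out o : G ⧸ (P : Subgroup G))).index : (P : Subgroup G)) •
            ((orbRep (P : Subgroup G) o : G) : G ⧸ (P : Subgroup G)) := rfl
        rw [e, orbRep_coe]
        exact h1.symm
      rw [QuotientGroup.eq] at h2
      rw [mul_assoc]
      exact h2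
    have hV := transfer_mackey (P : Subgroup G) ϕ X hconj hpow
    have hV1 : MonoidHom.transfer ϕ (X : G) = 1 := by
      have := Abelianization.commutator_subset_ker (MonoidHom.transfer ϕ) hxG
      exact this
    rw [hV1] at hV
    obtain ⟨a, ha⟩ := IsPGroup.iff_card.1 P.isPGroup'
    have hpp := (Fact.out : p.Prime)
    -- evaluate the factors
    let Good : orbitRel.Quotient (P : Subgroup G) (G ⧸ (P : Subgroup G)) → Prop := fun o =>
      Nat.card {q : G ⧸ (P : Subgroup G) // (Quotient.mk'' q : orbitRel.Quotient (P : Subgroup G) (G ⧸ (P : Subgroup G))) = o} = 1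
    have hdiv : ∀ o, ¬ Good o → p ∣ Nat.card {q : G ⧸ (P : Subgroup G) // (Quotient.mk'' q : orbitRel.Quotient (P : Subgroup G) (G ⧸ (P : Subgroup G))) = o} := by
      intro o ho
      simp only [Good] at ho
      rw [orbit_card] at ho ⊢
      have h1 : (MulAction.stabilizer (P : Subgroup G) (Quotient.out o : G ⧸ (P : Subgroup G))).index ∣ p ^ a := by
        rw [← ha]; exact Subgroup.index_dvd_card _
      obtain ⟨j, -, hj⟩ := (Nat.dvd_prime_pow hpp).1 h1
      rw [hj] at ho ⊢
      apply dvd_pow_self
      rintro rfl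
      exact ho (pow_zero p)
    have hfac : ∀ o, twist ϕ (orbRep (P : Subgroup G) o) ⟨_, hpow o⟩ = if Good o then ϕ X else 1 := by
      intro o
      rw [twist_apply]
      split_ifs with ho
      · have hk : Nat.card {q : G ⧸ (P : Subgroup G) // (Quotient.mk'' q : orbitRel.Quotient (P : Subgroup G) (G ⧸ (P : Subgroup G))) = o} = 1 := ho
        have hst : MulAction.stabilizer (P : Subgroup G) (Quotient.out o : G ⧸ (P : Subgroup G)) = ⊤ := by
          rw [orbit_card, Subgroup.index_eq_one] at hk
          exact hk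
        set r := orbRep (P : Subgroup G) o with hr
        have hrP : ∀ y ∈ (P : Subgroup G), r⁻¹ * y * r ∈ (P : Subgroup G) := by
          intro y hy
          have h1 : (⟨y, hy⟩ : (P : Subgroup G)) ∈ MulAction.stabilizer (P : Subgroup G) (Quotient.out o : G ⧸ (P : Subgroup G)) := by
            rw [hst]; trivial
          rw [MulAction.mem_stabilizer_iff] at h1
          have h2 : ((r : G) : G ⧸ (P : Subgroup G)) = ((y * r : G) : G ⧸ (P : Subgroup G)) := by
            have e : ((y * r : G) : G ⧸ (P : Subgroup G)) = (⟨y, hy⟩ : (P : Subgroup G)) • ((r : G) : G ⧸ (P : Subgroup G)) := rfl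
            rw [e, hr, orbRep_coe]
            exact h1.symm
          rw [QuotientGroup.eq] at h2
          rw [mul_assoc]
          exact h2
        have hrN : r⁻¹ ∈ Subgroup.normalizer ((P : Subgroup G) : Set G) := by
          have h1 : (r⁻¹ • P : Sylow p G) = P := by
            apply Sylow.ext
            refine ((r⁻¹ • P : Sylow p G).is_maximal' P.isPGroup' ?_).symm
            rintro _ ⟨y, hy, rfl⟩
            have := hrP y hy
            simpa using this
          exact Sylow.smul_eq_iff_mem_normalizer.1 h1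
        rw [← mul_inv_eq_one, ← map_inv, mul_comm, ← map_mul, hϕ1]
        have e : (((X⁻¹ * ⟨r⁻¹ * (((X ^ Nat.card {q : G ⧸ (P : Subgroup G) // (Quotient.mk'' q : orbitRel.Quotient (P : Subgroup G) (G ⧸ (P : Subgroup G))) = o} : (P : Subgroup G))) : G) * r,
            mem_conjInf.1 (hpow o)⟩ : (P : Subgroup G))) : G) = ⁅x⁻¹, r⁻¹⁆ := by
          push_cast
          rw [hk, pow_one, commutatorElement_def]
          simp only [hX]
          group
        rw [e]
        apply (le_sup_left : _ ≤ W (P : Subgroup G))
        refine ⟨?_, ?_⟩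
        · rw [commutatorElement_def]
          have h5 := (P : Subgroup G).mul_mem ((P : Subgroup G).inv_mem hxP) (hrP x hxP)
          have e2 : x⁻¹ * r⁻¹ * x⁻¹⁻¹ * r⁻¹⁻¹ = x⁻¹ * (r⁻¹ * x * r) := by group
          rw [SetLike.mem_coe, e2]
          exact h5
        · exact Subgroup.commutator_mem_commutator
            (Subgroup.le_normalizer ((P : Subgroup G).inv_mem hxP)) hrN
      · rw [hϕ1]
        set k := Nat.card {q : G ⧸ (P : Subgroup G) // (Quotient.mk'' q : orbitRel.Quotient (P : Subgroup G) (G ⧸ (P : Subgroup G))) = o} with hk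
        have hpk : p ∣ k := hdiv o ho
        have hpx : p ∣ orderOf x := by
          obtain ⟨j, hj⟩ := IsPGroup.iff_orderOf.1 P.isPGroup' X
          have h1 : orderOf x = p ^ j := by rw [← hj, hX, Subgroup.orderOf_mk]
          rw [h1]
          apply dvd_pow_self
          rintro rfl
          rw [pow_zero, orderOf_eq_one_iff] at h1
          exact hx1 h1
        have hlt : orderOf (x ^ k) < n := by
          rw [orderOf_pow, ← hn]
          apply Nat.div_lt_self (orderOf_pos x)
          exact lt_of_lt_of_le hpp.one_lt (Nat.le_of_dvd (Nat.gcd_pos_of_pos_left _ (orderOf_pos x)) (Nat.dvd_gcd hpx hpk))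
        have hval : ((X ^ k : (P : Subgroup G)) : G) = x ^ k := rfl
        refine ih _ hlt _ ?_ ?_ ?_
        · show orderOf ((orbRep (P : Subgroup G) o)⁻¹ * x ^ k * orbRep (P : Subgroup G) o) = _
          have := orderOf_injective (MulAut.conj (orbRep (P : Subgroup G) o)⁻¹).toMonoidHom (MulAut.conj (orbRep (P : Subgroup G) o)⁻¹).injective (x ^ k)
          simpa using this
        · exact mem_conjInf.1 (hpow o)
        · show (orbRep (P : Subgroup G) o)⁻¹ * x ^ k * orbRep (P : Subgroup G) o ∈ commutator G
          have := (inferInstance : (commutator G).Normal).conj_mem (x ^ k) (Subgroup.pow_mem _ hxG k) (orbRep (P : Subgroup G) o)⁻¹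
          simpa using this
    rw [Finset.prod_congr rfl (fun o _ => hfac o), Finset.prod_ite, Finset.prod_const_one, mul_one,
      Finset.prod_const] at hV
    set m := (Finset.univ.filter Good).card with hm
    -- `m` is prime to `p`
    have hpm : ¬ p ∣ m := by
      intro hpm
      haveI : Fintype (G ⧸ (P : Subgroup G)) := Fintype.ofFinite _
      have h1 : Nat.card (G ⧸ (P : Subgroup G)) = ∑ o : orbitRel.Quotient (P : Subgroup G) (G ⧸ (P : Subgroup G)),
          Nat.card {q : G ⧸ (P : Subgroup G) // (Quotient.mk'' q : orbitRel.Quotient (P : Subgroup G) (G ⧸ (P : Subgroup G))) = o} := by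
        rw [← Nat.card_sigma]
        exact Nat.card_congr (Equiv.sigmaFiberEquiv _).symm
      have h2 : p ∣ Nat.card (G ⧸ (P : Subgroup G)) := by
        rw [h1, ← Finset.sum_filter_add_sum_filter_not Finset.univ Good]
        apply dvd_add
        · have : ∑ o ∈ Finset.univ.filter Good, Nat.card {q : G ⧸ (P : Subgroup G) // (Quotient.mk'' q : orbitRel.Quotient (P : Subgroup G) (G ⧸ (P : Subgroup G))) = o} =
              ∑ o ∈ Finset.univ.filter Good, 1 := by
            apply Finset.sum_congr rfl
            intro o ho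
            exact (Finset.mem_filter.1 ho).2
          rw [this, Finset.sum_const, smul_eq_mul, mul_one]
          exact hpm
        · apply Finset.dvd_sum
          intro o ho
          exact hdiv o (Finset.mem_filter.1 ho).2
      rw [← Subgroup.index_eq_card] at h2
      exact P.not_dvd_index h2
    have h3 : ϕ X ^ p ^ a = 1 := by
      rw [← map_pow, ← ha, pow_card_eq_one', map_one]
    have h4 : ϕ X = 1 := by
      have hcop : Nat.Coprime m (p ^ a) := Nat.Coprime.pow_right _ ((hpp.coprime_iff_not_dvd.2 hpm).symm)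
      have h5 : orderOf (ϕ X) ∣ m := orderOf_dvd_of_pow_eq_one hV.symm
      have h6 : orderOf (ϕ X) ∣ p ^ a := orderOf_dvd_of_pow_eq_one h3
      exact orderOf_eq_one_iff.1 (Nat.eq_one_of_dvd_coprimes hcop h5 h6)
    exact (hϕ1 X).1 h4

/-- Grün's first Theorem: if `P` is a Sylow `p`-subgroup of the finite group `G`, then `P ∩ G'` is the subgroup generated by `P ∩ N_G(P)'` together with the subgroups `P ∩ z P' z⁻¹` for all `z ∈ G`, where `'` denotes the derived subgroup and `N_G(P)` the normalizer of `P`. -/
theorem result {G : Type*} [Group G] [Finite G] {p : ℕ} [Fact p.Prime] (P : Sylow p G) : (P : Subgroup G) ⊓ commutator G = ((P : Subgroup G) ⊓ ⁅Subgroup.normalizer ((P : Subgroup G) : Set G), Subgroup.normalizer ((P : Subgroup G) : Set G)⁆) ⊔ ⨆ z : G, (P : Subgroup G) ⊓ (⁅(P : Subgroup G), (P : Subgroup G)⁆).map (MulAut.conj z).toMonoidHom := by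
  apply le_antisymm
  · rintro x ⟨hxP, hxG⟩
    exact main P _ x rfl hxP hxG
  · exact W_le (P : Subgroup G)

end Cfsg.Agent.S4216
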