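import Cfsg.Statements.S4217
import Cfsg.Agent.H25.CrossTransfer

set_option autoImplicit false
open Cfsg

namespace Cfsg.Agent.S4217

open Subgroup

/-- Let `A` be an abelian normal subgroup of the finite group `G`. Then `A` has a complement in `G` if and only if, for every prime `p` dividing the index of `A`, there are a Sylow `p`-subgroup `S` of `G/A` and a subgroup `K` of `G` with `K ∩ A = 1` and `KA` equal to the preimage of `S` (that is, `A` has a complement in the preimage of a Sylow `p`-subgroup of `G/A`). -/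
theorem result {G : Type*} [Group G] [Finite G] (A : Subgroup G) [A.Normal] (hA : IsMulCommutative A) : (∃ K : Subgroup G, K.IsComplement' A) ↔ ∀ p : ℕ, p.Prime → p ∣ A.index → ∃ (S : Sylow p (G ⧸ A)) (K : Subgroup G), K ⊓ A = ⊥ ∧ K ⊔ A = (S : Subgroup (G ⧸ A)).comap (QuotientGroup.mk' A) := by
  constructor
  · rintro ⟨K, hK⟩ p hp hpA
    haveI := Fact.mk hp
    obtain ⟨S⟩ : Nonempty (Sylow p (G ⧸ A)) := inferInstance
    refine ⟨S, K ⊓ (S : Subgroup (G ⧸ A)).comap (QuotientGroup.mk' A), ?_, ?_⟩
    · rw [eq_bot_iff]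
      intro x hx
      have : x ∈ K ⊓ A := ⟨hx.1.1, hx.2⟩
      rwa [hK.disjoint.eq_bot] at this
    · have hAS : A ≤ (S : Subgroup (G ⧸ A)).comap (QuotientGroup.mk' A) := by
        intro x hx
        rw [mem_comap, QuotientGroup.mk'_apply, (QuotientGroup.eq_one_iff x).2 hx]
        exact (S : Subgroup (G ⧸ A)).one_mem
      apply le_antisymm
      · exact sup_le inf_le_right hAS
      · intro x hx
        have h1 : x ∈ K ⊔ A := by rw [hK.sup_eq_top]; trivial
        rw [mem_sup_of_normal_right] at h1
        obtain ⟨k, hk, a, ha, rfl⟩ := h1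
        apply Subgroup.mul_mem_sup _ ha
        refine ⟨hk, ?_⟩
        have := mul_mem hx (inv_mem (hAS ha))
        rwa [mul_inv_cancel_right] at this
  · intro h
    apply H25.exists_complement_of_partial A (fun x y => hA.is_comm.comm x y)
    intro p hp hpA
    haveI := Fact.mk hp
    obtain ⟨S, K, h1, h2⟩ := h p hp hpA
    refine ⟨_, K, ?_, h1, h2, ?_⟩
    · intro x hx
      rw [mem_comap, QuotientGroup.mk'_apply, (QuotientGroup.eq_one_iff x).2 hx]
      exact (S : Subgroup (G ⧸ A)).one_mem
    · rw [index_comap_of_surjective _ (QuotientGroup.mk'_surjective A)]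
      exact S.not_dvd_index

end Cfsg.Agent.S4217
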