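import Cfsg.Statements.S4218
import Cfsg.Agent.H23.PSolvable
import Cfsg.Agent.H23.Coprime2
import Cfsg.Agent.H2.Frat

set_option autoImplicit false
open Cfsg

namespace Cfsg.Agent.S4218

open Subgroup
open scoped commutatorElement

/-- the core statement -/
theorem core {X : Type*} [Group X] [Finite X] {p : ℕ} [hp : Fact p.Prime]
    (hC : centralizer (Cfsg.pCore p X : Set X) ≤ Cfsg.pCore p X) (g : X) :
    (∀ v ∈ Cfsg.pCore p X, g * v * g⁻¹ * v⁻¹ ∈
      (frattini (Cfsg.pCore p X)).map (Cfsg.pCore p X).subtype) ↔ g ∈ Cfsg.pCore p X := by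
  set V := Cfsg.pCore p X with hV
  haveI hVn : V.Normal := H1.pCore_normal p X
  have hVp : IsPGroup p V := H1.pCore_isPGroup p X
  set Φ := (frattini V).map V.subtype with hΦ
  haveI hΦn : Φ.Normal := ConjAct.normal_of_characteristic_of_normal
  have hΦV : Φ ≤ V := map_subtype_le _
  let C : Subgroup X := (centralizer ((V.map (QuotientGroup.mk' Φ) : Subgroup (X ⧸ Φ)) : Set (X ⧸ Φ))).comap
    (QuotientGroup.mk' Φ)
  have hCmem : ∀ x : X, x ∈ C ↔ ∀ v ∈ V, x * v * x⁻¹ * v⁻¹ ∈ Φ := by
    intro x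
    rw [mem_comap, mem_centralizer_iff]
    constructor
    · intro h v hv
      have h1 := h (QuotientGroup.mk' Φ v) ⟨v, hv, rfl⟩
      rw [← QuotientGroup.eq_one_iff]
      show QuotientGroup.mk' Φ (x * v * x⁻¹ * v⁻¹) = 1
      rw [map_mul, map_mul, map_mul, ← h1, map_inv, map_inv, mul_inv_cancel_right, mul_inv_cancel]
    · rintro h _ ⟨v, hv, rfl⟩
      have h1 := h v hv
      rw [← QuotientGroup.eq_one_iff] at h1
      have h2 : QuotientGroup.mk' Φ (x * v * x⁻¹ * v⁻¹) = 1 := h1
      rw [map_mul, map_mul, map_mul, map_inv, map_inv, mul_inv_eq_one, mul_inv_eq_iff_eq_mul] at h2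
      exact h2.symm
  rw [← hCmem]
  suffices h : C = V by rw [h]
  haveI hVm : (V.map (QuotientGroup.mk' Φ)).Normal := Normal.map hVn _ (QuotientGroup.mk'_surjective Φ)
  haveI hCn : C.Normal := by
    haveI : (centralizer ((V.map (QuotientGroup.mk' Φ) : Subgroup (X ⧸ Φ)) : Set (X ⧸ Φ))).Normal :=
      inferInstance
    exact this.comap _
  apply le_antisymm
  · -- `C` is a `p`-group
    have hCp : IsPGroup p C := by
      by_contra hnp
      have : ∃ q : ℕ, q.Prime ∧ q ∣ Nat.card C ∧ q ≠ p := by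
        by_contra hno
        push Not at hno
        apply hnp
        apply IsPGroup.of_card (n := (Nat.card C).primeFactorsList.length)
        exact Nat.eq_prime_pow_of_unique_prime_dvd Nat.card_pos.ne' (fun {d} hd hdvd => hno d hd hdvd)
      obtain ⟨q, hq, hqC, hqp⟩ := this
      haveI := Fact.mk hq
      obtain ⟨c, hc⟩ := exists_prime_orderOf_dvd_card' q hqC
      have hco : orderOf (c : X) = q := by rw [Subgroup.orderOf_coe, hc]
      have hcard : Nat.card (zpowers (c : X)) = q := by rw [Nat.card_zpowers, hco]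
      obtain ⟨k, hk⟩ := IsPGroup.iff_card.1 hVp
      have hcop : (Nat.card (zpowers (c : X))).Coprime (Nat.card V) := by
        rw [hcard, hk]
        exact Nat.Coprime.pow_right k ((Nat.coprime_primes hq hp.out).2 hqp)
      have hle : zpowers (c : X) ≤ C := zpowers_le.2 c.2
      have h1 : V ≤ centralizer ((zpowers (c : X) : Subgroup X) : Set X) := by
        apply H23.le_centralizer_of_commutator_le_frattini (by rw [normalizer_eq_top]; exact le_top) hcop
        · right
          haveI := hVp.isNilpotent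
          infer_instance
        · rw [commutator_comm, commutator_le]
          intro a ha v hv
          exact (hCmem a).1 (hle ha) v hv
      have h2 : (c : X) ∈ centralizer (V : Set X) := by
        rw [mem_centralizer_iff]
        intro v hv
        exact ((mem_centralizer_iff.1 (h1 hv)) c (mem_zpowers _)).symm
      have h3 : (c : X) ∈ V := hC h2
      obtain ⟨m, hm⟩ := hVp ⟨c, h3⟩
      have h4 : (c : X) ^ p ^ m = 1 := congrArg Subtype.val hm
      have h5 := orderOf_dvd_of_pow_eq_one h4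
      rw [hco] at h5
      exact hqp ((Nat.prime_dvd_prime_iff_eq hq hp.out).1 (hq.dvd_of_dvd_pow h5))
    exact le_sSup ⟨hCn, hCp⟩
  · intro x hx
    rw [hCmem]
    intro v hv
    have h1 : ⁅(⟨x, hx⟩ : V), (⟨v, hv⟩ : V)⁆ ∈ commutator V := commutator_mem_commutator (mem_top _) (mem_top _)
    have h2 := H2.commutator_le_frattini hVp h1
    exact ⟨_, h2, rfl⟩

/-- Let `G` be a finite `p`-solvable group, `N₀ = O_{p'}(G)`, `P₁ = O_{p',p}(G)`, and let `F ≤ P₁` be the preimage of the Frattini subgroup of `P₁/N₀`. Then an element `g` of `G` induces the identity on `P₁/F` by conjugation (that is, `g x g⁻¹ x⁻¹ ∈ F` for all `x ∈ P₁`) if and only if `g ∈ P₁`: the group `G/P₁` acts faithfully on `P₁/F`. -/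
theorem result {G : Type*} [Group G] [Finite G] {p : ℕ} [Fact p.Prime] (hG : Cfsg.IsPSolvable p G) (g : G) : (∀ x ∈ Cfsg.pPrimePCore p G, g * x * g⁻¹ * x⁻¹ ∈ ((frattini (↥(Cfsg.pPrimePCore p G) ⧸ (Cfsg.pPrimeCore p G).subgroupOf (Cfsg.pPrimePCore p G))).comap (QuotientGroup.mk' ((Cfsg.pPrimeCore p G).subgroupOf (Cfsg.pPrimePCore p G)))).map (Cfsg.pPrimePCore p G).subtype) ↔ g ∈ Cfsg.pPrimePCore p G := by
  set N := Cfsg.pPrimeCore p G with hN
  set q := QuotientGroup.mk' N with hq
  have hC : centralizer (Cfsg.pCore p (G ⧸ N) : Set (G ⧸ N)) ≤ Cfsg.pCore p (G ⧸ N) :=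
    H23.centralizer_pCore_le (H23.isPSolvable_quotient N hG) (H23.pPrimeCore_quotient_eq_bot p G)
  set V := Cfsg.pCore p (G ⧸ N) with hV
  have hP1 : Cfsg.pPrimePCore p G = V.comap q := rfl
  -- the isomorphism
  let f : Cfsg.pPrimePCore p G →* V := q.subgroupComap V
  have hf : Function.Surjective f :=
    MonoidHom.subgroupComap_surjective_of_surjective q _ (QuotientGroup.mk'_surjective _)
  have hker : f.ker = N.subgroupOf (Cfsg.pPrimePCore p G) := by
    ext x
    rw [MonoidHom.mem_ker, mem_subgroupOf, ← QuotientGroup.eq_one_iff]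
    exact ⟨fun h => congrArg Subtype.val h, fun h => Subtype.ext h⟩
  let e : (Cfsg.pPrimePCore p G ⧸ N.subgroupOf (Cfsg.pPrimePCore p G)) ≃* V :=
    (QuotientGroup.quotientMulEquivOfEq hker.symm).trans (QuotientGroup.quotientKerEquivOfSurjective f hf)
  have he : ∀ x : Cfsg.pPrimePCore p G, e (QuotientGroup.mk' _ x) = f x := fun x => rfl
  have hfr : ∀ x : Cfsg.pPrimePCore p G,
      QuotientGroup.mk' (N.subgroupOf (Cfsg.pPrimePCore p G)) x ∈ frattini _ ↔ f x ∈ frattini V := by
    intro x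
    constructor
    · intro h
      have := frattini_le_comap_frattini_of_surjective (φ := e.toMonoidHom) e.surjective h
      exact this
    · intro h
      have h1 := frattini_le_comap_frattini_of_surjective (φ := e.symm.toMonoidHom) e.symm.surjective h
      have h2 : e.symm (f x) ∈ frattini _ := h1
      rw [← he, e.symm_apply_apply] at h2
      exact h2
  have hF : ∀ x ∈ Cfsg.pPrimePCore p G, (x ∈ ((frattini (↥(Cfsg.pPrimePCore p G) ⧸ (Cfsg.pPrimeCore p G).subgroupOf (Cfsg.pPrimePCore p G))).comap (QuotientGroup.mk' ((Cfsg.pPrimeCore p G).subgroupOf (Cfsg.pPrimePCore p G)))).map (Cfsg.pPrimePCore p G).subtype ↔ q x ∈ (frattini V).map V.subtype) := by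
    intro x hx
    constructor
    · rintro ⟨y, hy, rfl⟩
      exact ⟨f y, (hfr y).1 hy, rfl⟩
    · rintro ⟨v, hv, hvx⟩
      refine ⟨⟨x, hx⟩, ?_, rfl⟩
      show QuotientGroup.mk' (N.subgroupOf (Cfsg.pPrimePCore p G)) ⟨x, hx⟩ ∈ frattini _
      rw [hfr]
      have : f ⟨x, hx⟩ = v := Subtype.ext hvx.symm
      rw [this]
      exact hv
  haveI hPn : (Cfsg.pPrimePCore p G).Normal := by
    rw [hP1]; exact (H1.pCore_normal p _).comap _
  have hmem : g ∈ Cfsg.pPrimePCore p G ↔ q g ∈ V := Iff.rfl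
  rw [hmem, ← core hC (q g)]
  constructor
  · rintro h v hv
    obtain ⟨x, rfl⟩ := QuotientGroup.mk'_surjective N v
    have hx : x ∈ Cfsg.pPrimePCore p G := hv
    have h1 := h x hx
    rw [hF _ (mul_mem (hPn.conj_mem x hx g) (inv_mem hx))] at h1
    rwa [map_mul, map_mul, map_mul, map_inv, map_inv] at h1
  · intro h x hx
    rw [hF _ (mul_mem (hPn.conj_mem x hx g) (inv_mem hx)), map_mul, map_mul, map_mul, map_inv, map_inv]
    exact h (q x) hx

end Cfsg.Agent.S4218
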