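import Cfsg.Statements.S4219

set_option autoImplicit false
open Cfsg

namespace Cfsg.Agent.S4219

open scoped Pointwise

/-- Let a finite group `G` act `t`-fold transitively on a finite set, let `H` be the stabilizer of `t` distinct points and `P` a Sylow `p`-subgroup of `H`. Then the normalizer of `P` in `G` is `t`-fold transitive on the fixed points of `P`: any `t` distinct fixed points of `P` can be carried to any other `t` distinct fixed points of `P` by an element normalizing `P`. -/
theorem result {G : Type*} [Group G] [Finite G] {α : Type*} [Fintype α] [MulAction G α] {t : ℕ} (hG : MulAction.IsMultiplyPretransitive G α t) (x : Fin t ↪ α) {p : ℕ} [Fact p.Prime] (P : Sylow p (MulAction.stabilizer G x)) (a b : Fin t ↪ α) (ha : ∀ i, a i ∈ MulAction.fixedPoints ((P : Subgroup (MulAction.stabilizer G x)).map (MulAction.stabilizer G x).subtype) α) (hb : ∀ i, b i ∈ MulAction.fixedPoints ((P : Subgroup (MulAction.stabilizer G x)).map (MulAction.stabilizer G x).subtype) α) : ∃ g ∈ Subgroup.normalizer ((((P : Subgroup (MulAction.stabilizer G x)).map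 (MulAction.stabilizer G x).subtype) : Subgroup G) : Set G), g • a = b := by
  set Q : Subgroup G := (P : Subgroup (MulAction.stabilizer G x)).map (MulAction.stabilizer G x).subtype with hQ
  have hQa : Q ≤ MulAction.stabilizer G a := by
    intro g hg
    rw [MulAction.mem_stabilizer_iff]
    ext i
    exact ha i ⟨g, hg⟩
  have hQb : Q ≤ MulAction.stabilizer G b := by
    intro g hg
    rw [MulAction.mem_stabilizer_iff]
    ext i
    exact hb i ⟨g, hg⟩
  have hQp : IsPGroup p Q := P.isPGroup'.map _
  obtain ⟨g, hg⟩ := hG.exists_smul_eq a b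
  obtain ⟨h, hh⟩ := hG.exists_smul_eq x b
  have hstab : ∀ {u v : Fin t ↪ α} {k : G}, k • u = v →
      MulAction.stabilizer G v = MulAut.conj k • MulAction.stabilizer G u := by
    rintro u v k rfl
    exact MulAction.stabilizer_smul_eq_stabilizer_map_conj k u
  have hcard : Nat.card (MulAction.stabilizer G b) = Nat.card (MulAction.stabilizer G x) := by
    rw [hstab hh]
    exact (Nat.card_congr (Subgroup.equivSMul (MulAut.conj h) (MulAction.stabilizer G x)).toEquiv).symm
  have hQcard : Nat.card Q = p ^ (Nat.card (MulAction.stabilizer G b)).factorization p := by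
    rw [hcard, ← P.card_eq_multiplicity]
    exact (Nat.card_congr ((P : Subgroup (MulAction.stabilizer G x)).equivMapOfInjective _
      (Subgroup.subtype_injective _)).toEquiv).symm
  -- two Sylow subgroups of the stabilizer of `b`
  have key : ∀ R : Subgroup G, IsPGroup p R → R ≤ MulAction.stabilizer G b → Nat.card R = Nat.card Q →
      ∃ S : Sylow p (MulAction.stabilizer G b), (S : Subgroup (MulAction.stabilizer G b)).map
        (MulAction.stabilizer G b).subtype = R := by
    intro R hR hRb hRc
    have h1 : Nat.card (R.subgroupOf (MulAction.stabilizer G b)) =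
        p ^ (Nat.card (MulAction.stabilizer G b)).factorization p := by
      rw [Nat.card_congr (Subgroup.subgroupOfEquivOfLe hRb).toEquiv, hRc, hQcard]
    refine ⟨Sylow.ofCard (R.subgroupOf (MulAction.stabilizer G b)) h1, ?_⟩
    show (R.subgroupOf (MulAction.stabilizer G b)).map (MulAction.stabilizer G b).subtype = R
    rw [Subgroup.subgroupOf_map_subtype, inf_eq_left.2 hRb]
  obtain ⟨S₁, hS₁⟩ := key Q hQp hQb rfl
  obtain ⟨S₂, hS₂⟩ := key (MulAut.conj g • Q) (hQp.map _) (by
    rw [hstab hg]
    exact Subgroup.pointwise_smul_le_pointwise_smul_iff.2 hQa)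
    (Nat.card_congr (Subgroup.equivSMul (MulAut.conj g) Q).toEquiv).symm
  obtain ⟨k, hk⟩ := MulAction.exists_smul_eq (MulAction.stabilizer G b) S₂ S₁
  refine ⟨k * g, ?_, ?_⟩
  · have h1 : MulAut.conj ((k : G) * g) • Q = Q := by
      rw [map_mul, mul_smul, ← hS₂, ← hS₁, ← hk]
      ext y
      rw [Subgroup.mem_pointwise_smul_iff_inv_smul_mem, ← map_inv, MulAut.smul_def,
        MulAut.conj_apply, inv_inv]
      constructor
      · rintro ⟨z, hz, hzy⟩
        refine ⟨k * z * k⁻¹, ?_, ?_⟩
        · rw [SetLike.mem_coe, Sylow.coe_subgroup_smul, Subgroup.mem_pointwise_smul_iff_inv_smul_mem,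
            ← map_inv, MulAut.smul_def, MulAut.conj_apply, inv_inv]
          have : k⁻¹ * (k * z * k⁻¹) * k = z := by group
          rw [this]; exact hz
        · show (k : G) * z * (k : G)⁻¹ = y
          have hzy' : (z : G) = (k : G)⁻¹ * y * k := hzy
          rw [hzy']; group
      · rintro ⟨z, hz, rfl⟩
        rw [SetLike.mem_coe, Sylow.coe_subgroup_smul, Subgroup.mem_pointwise_smul_iff_inv_smul_mem,
          ← map_inv, MulAut.smul_def, MulAut.conj_apply, inv_inv] at hz
        exact ⟨k⁻¹ * z * k, hz, rfl⟩
    rw [Subgroup.mem_normalizer_iff]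
    intro y
    constructor
    · intro hy
      rw [← h1]
      exact ⟨y, hy, rfl⟩
    · intro hy
      rw [← h1, Subgroup.mem_pointwise_smul_iff_inv_smul_mem, ← map_inv, MulAut.smul_def,
        MulAut.conj_apply, inv_inv] at hy
      have : ((k : G) * g)⁻¹ * ((k : G) * g * y * ((k : G) * g)⁻¹) * ((k : G) * g) = y := by group
      rwa [this] at hy
  · rw [mul_smul, hg]
    exact k.2

end Cfsg.Agent.S4219
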