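import Cfsg.Statements.S4222

set_option autoImplicit false
open Cfsg

namespace Cfsg.Agent.S4222

theorem result {T : Type*} [Group T] [Finite T] (N : Subgroup T) [N.Normal] (hz : Subgroup.center ↥N = ⊥) (ha : Function.Surjective (MulAut.conj : ↥N →* MulAut ↥N)) : (Subgroup.centralizer (N : Set T)).IsComplement' N := by
  apply Subgroup.isComplement'_of_disjoint_and_mul_eq_univ
  · rw [Subgroup.disjoint_def]
    intro x hx hxN
    have h1 : (⟨x, hxN⟩ : N) ∈ Subgroup.center N := by
      rw [Subgroup.mem_center_iff]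
      intro g
      apply Subtype.ext
      exact (Subgroup.mem_centralizer_iff.1 hx) g g.2
    rw [hz, Subgroup.mem_bot] at h1
    exact congrArg Subtype.val h1
  · rw [Set.eq_univ_iff_forall]
    intro t
    obtain ⟨n, hn⟩ := ha (MulAut.conjNormal t)
    refine ⟨t * (n : T)⁻¹, ?_, n, n.2, by group⟩
    rw [SetLike.mem_coe, Subgroup.mem_centralizer_iff]
    intro h hh
    have h1 := DFunLike.congr_fun hn (⟨h, hh⟩ : N)
    have h2 : (n : T) * h * (n : T)⁻¹ = t * h * t⁻¹ := by
      have := congrArg Subtype.val h1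
      simpa using this
    have hh2 : ((n : T)⁻¹ * h * (n : T)) ∈ N := N.mul_mem (N.mul_mem (N.inv_mem n.2) hh) n.2
    have h3 := DFunLike.congr_fun hn (⟨_, hh2⟩ : N)
    have h4 : (n : T) * ((n : T)⁻¹ * h * (n : T)) * (n : T)⁻¹ = t * ((n : T)⁻¹ * h * (n : T)) * t⁻¹ := by
      have := congrArg Subtype.val h3
      simpa using this
    have h5 : h = t * ((n : T)⁻¹ * h * (n : T)) * t⁻¹ := by rw [← h4]; group
    calc h * (t * (n : T)⁻¹) = (t * ((n : T)⁻¹ * h * (n : T)) * t⁻¹) * (t * (n : T)⁻¹) := by rw [← h5]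
      _ = t * (n : T)⁻¹ * h := by group

end Cfsg.Agent.S4222
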