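import Cfsg.Statements.S4225
import Cfsg.Agent.H25.RegP

set_option autoImplicit false
open Cfsg

namespace Cfsg.Agent.S4225

/-- In a regular `p`-group, for every `k` the elements whose `p^k`-th power is `1` form a characteristic subgroup. -/
theorem result {G : Type*} [Group G] [Finite G] {p : ℕ} [Fact p.Prime] (hG : Cfsg.IsRegularPGroup p G) (k : ℕ) : ∃ H : Subgroup G, H.Characteristic ∧ (H : Set G) = {x : G | x ^ p ^ k = 1} := by
  let H : Subgroup G :=
    { carrier := {x | x ^ p ^ k = 1}
      one_mem' := one_pow _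
      mul_mem' := by
        intro x y hx hy
        exact H25.RegP.pow_mul_one hG hx hy
      inv_mem' := by
        intro x hx
        show (x⁻¹) ^ p ^ k = 1
        rw [inv_pow, show x ^ p ^ k = 1 from hx, inv_one] }
  refine ⟨H, ?_, rfl⟩
  rw [Subgroup.characteristic_iff_comap_le]
  intro φ x hx
  have h1 : (φ x) ^ p ^ k = 1 := hx
  have h2 : φ (x ^ p ^ k) = φ 1 := by rw [map_pow, h1, map_one]
  exact φ.injective h2

end Cfsg.Agent.S4225
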