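import Cfsg.Statements.S4227
import Cfsg.Agent.H25.PLenAb

set_option autoImplicit false
open Cfsg

namespace Cfsg.Agent.S4227

/-- A finite group in which every element has order dividing `6` has `2`-length at most `1` and `3`-length at most `1`. -/
theorem result {G : Type*} [Group G] [Finite G] (h : ∀ x : G, x ^ 6 = 1) : Cfsg.PLengthLE 2 1 G ∧ Cfsg.PLengthLE 3 1 G := by
  exact H25.PLenAb.main h


end Cfsg.Agent.S4227
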