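import Cfsg.Statements.S4276
import Cfsg.Agent.H25.OddDesign2
import Cfsg.Agent.S4275

set_option autoImplicit false
open Cfsg

namespace Cfsg.Agent.S4276

open Cfsg.Agent.H25

/-- Let G be a doubly transitive group of permutations of a finite set Ω of size n, let o ∈ Ω, and let α be an automorphism of G of odd order. Suppose that the image under α of the stabilizer of o has an orbit on Ω whose length k is coprime to n. Then α is induced by conjugation by a permutation of Ω normalizing G, and k = 1 or k = n − 1. -/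
theorem result {Ω : Type*} [Fintype Ω] (G : Subgroup (Equiv.Perm Ω)) (h2 : MulAction.IsMultiplyPretransitive G Ω 2) (o : Ω) (α : MulAut G) (hα : Odd (orderOf α)) (ω : Ω) (hk : (Nat.card (MulAction.orbit ((MulAction.stabilizer G o).map α.toMonoidHom) ω)).Coprime (Fintype.card Ω)) : (∃ σ : Equiv.Perm Ω, σ ∈ Subgroup.normalizer (G : Set (Equiv.Perm Ω)) ∧ ∀ g : G, ((α g : G) : Equiv.Perm Ω) = σ * (g : Equiv.Perm Ω) * σ⁻¹) ∧ (Nat.card (MulAction.orbit ((MulAction.stabilizer G o).map α.toMonoidHom) ω) = 1 ∨ Nat.card (MulAction.orbit ((MulAction.stabilizer G o).map α.toMonoidHom) ω) = Fintype.card Ω - 1) := by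
  classical
  set K : Subgroup G := (MulAction.stabilizer G o).map α.toMonoidHom with hK
  set B : Set Ω := MulAction.orbit K ω with hB
  set k := Nat.card B with hkdef
  have h2' : ∀ {a b c d : Ω} (_ : a ≠ b) (_ : c ≠ d), ∃ g : G, g • a = c ∧ g • b = d :=
    MulAction.is_two_pretransitive_iff.1 h2
  have htr : MulAction.IsPretransitive G Ω := MulAction.isPretransitive_of_is_two_pretransitive
  have hk1 : 1 ≤ k := by
    haveI : Nonempty B := ⟨⟨ω, MulAction.mem_orbit_self ω⟩⟩
    exact Nat.card_pos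
  have hkn : k ≤ Fintype.card Ω := by
    rw [← Nat.card_eq_fintype_card]
    exact Finite.card_subtype_le _
  -- K-invariance of B
  have hKB : ∀ κ ∈ K, ∀ x, κ • x ∈ B ↔ x ∈ B := by
    intro κ hκ x
    constructor
    · intro hx
      obtain ⟨c, hc⟩ := hx
      refine ⟨⟨κ, hκ⟩⁻¹ * c, ?_⟩
      show ((⟨κ, hκ⟩⁻¹ * c : K) : G) • ω = x
      have hc' : (c : G) • ω = κ • x := hc
      rw [Subgroup.coe_mul, mul_smul, hc']
      exact inv_smul_smul κ x
    · rintro ⟨c, hc⟩
      refine ⟨⟨κ, hκ⟩ * c, ?_⟩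
      show ((⟨κ, hκ⟩ * c : K) : G) • ω = κ • x
      have hc' : (c : G) • ω = x := hc
      rw [Subgroup.coe_mul, mul_smul, hc']
  have hconcl : k = 1 ∨ k = Fintype.card Ω - 1 := by
    rcases Nat.lt_or_ge (Fintype.card Ω) 2 with hlt | hn
    · left; omega
    let E : Ω → Ω → Prop := fun x y => ∃ g : G, g • o = y ∧ (α g)⁻¹ • x ∈ B
    have hE : ∀ (g : G) (x y : Ω), g • o = y → (E x y ↔ (α g)⁻¹ • x ∈ B) := by
      intro g x y hg
      constructor
      · rintro ⟨h, hh, hx⟩
        have hs : g⁻¹ * h ∈ MulAction.stabilizer G o := by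
          rw [MulAction.mem_stabilizer_iff, mul_smul, hh, ← hg, inv_smul_smul]
        have hκ : α (g⁻¹ * h) ∈ K := ⟨_, hs, rfl⟩
        rw [← hKB _ hκ] at hx
        rwa [← mul_smul, map_mul, map_inv, mul_assoc, mul_inv_cancel, mul_one] at hx
      · intro hx
        exact ⟨g, hg, hx⟩
    let A : Matrix Ω Ω ℤ := Matrix.of fun x y => if E x y then 1 else 0
    have hA01 : ∀ x y, A x y * A x y = A x y := by
      intro x y
      simp only [A, Matrix.of_apply]
      split_ifs <;> simp
    have hAinv : ∀ (g : G) (x y : Ω), A (α g • x) (g • y) = A x y := by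
      intro g x y
      obtain ⟨h, hh⟩ := htr.exists_smul_eq o y
      have e1 := hE h x y hh
      have e2 := hE (g * h) (α g • x) (g • y) (by rw [mul_smul, hh])
      have e3 : E (α g • x) (g • y) ↔ E x y := by
        rw [e1, e2, map_mul, mul_inv_rev, ← mul_smul, inv_mul_cancel_right]
      simp only [A, Matrix.of_apply]
      by_cases h3 : E x y
      · rw [if_pos h3, if_pos (e3.2 h3)]
      · rw [if_neg h3, if_neg (fun h4 => h3 (e3.1 h4))]
    have hcol : ∀ y, ∑ x, A x y = (k : ℤ) := by
      intro y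
      obtain ⟨h, hh⟩ := htr.exists_smul_eq o y
      simp only [A, Matrix.of_apply]
      rw [Finset.sum_boole]
      congr 1
      rw [hkdef, Nat.card_coe_set_eq, Set.ncard_eq_toFinset_card']
      apply Finset.card_bij (fun x _ => (α h)⁻¹ • x)
      · intro x hx
        rw [Set.mem_toFinset]
        exact (hE h x y hh).1 (Finset.mem_filter.1 hx).2
      · intro a _ b _ hab
        exact MulAction.injective _ hab
      · intro b hb
        refine ⟨α h • b, ?_, inv_smul_smul _ _⟩
        rw [Finset.mem_filter]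
        refine ⟨Finset.mem_univ _, (hE h _ y hh).2 ?_⟩
        rw [inv_smul_smul]
        exact Set.mem_toFinset.1 hb
    obtain ⟨j, hj⟩ := hα
    have hα1 : α ^ (2 * j + 1) = 1 := by rw [← hj]; exact pow_orderOf_eq_one α
    have := odd_design (G := G) h2' htr.exists_smul_eq hn α hα1 A hA01 hAinv (k : ℤ) hcol
      (by exact_mod_cast hk1) (by exact_mod_cast hkn) (Nat.isCoprime_iff_coprime.2 hk)
    rcases this with h | h
    · left; exact_mod_cast h
    · right; omega
  refine ⟨?_, hconcl⟩
  rw [Cfsg.Agent.S4275.result G htr o α]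
  rcases hconcl with h1 | h1
  · refine ⟨ω, ?_⟩
    intro g hg
    have h3 : g • ω ∈ B := (hKB g hg ω).2 (MulAction.mem_orbit_self ω)
    have h4 : Subsingleton B := (Nat.card_eq_one_iff_unique.1 h1).1
    exact congrArg Subtype.val (h4.elim ⟨g • ω, h3⟩ ⟨ω, MulAction.mem_orbit_self ω⟩)
  · have h3 : Nat.card (Bᶜ : Set Ω) = 1 := by
      have h4 := Set.ncard_add_ncard_compl B
      rw [Nat.card_coe_set_eq] at hkdef ⊢
      rw [← hkdef, h1, Nat.card_eq_fintype_card] at h4
      omega
    obtain ⟨h5, ⟨z, hz⟩⟩ := Nat.card_eq_one_iff_unique.1 h3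
    refine ⟨z, ?_⟩
    intro g hg
    have h6 : g • z ∈ Bᶜ := fun h7 => hz ((hKB g hg z).1 h7)
    exact congrArg Subtype.val (h5.elim ⟨g • z, h6⟩ ⟨z, hz⟩)

end Cfsg.Agent.S4276
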