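import Cfsg.Statements.S4278
import Cfsg.Agent.H15.OInv7
import Cfsg.Agent.H15.OInvG2

set_option autoImplicit false
open Cfsg

namespace Cfsg.Agent.S4278

open Cfsg.Agent.H6 Cfsg.Agent.H15.OInv

/-- In the Chevalley group of type G₂ over a finite field of odd order, any two involutions are conjugate. -/
theorem result {F : Type*} [Field F] [Fintype F] (hF : Odd (Fintype.card F)) (s t : ↥(Cfsg.Lie.chevG2.group F)) (hs : orderOf s = 2) (ht : orderOf t = 2) : IsConj s t := by
  have key : ∀ u : ↥(Cfsg.Lie.chevG2.group F), orderOf u = 2 →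
      IsConj u ⟨hv Cfsg.Lie.chevG2 F (cO TG2.MO) (2 ^ 1), TG2.good.diagonal_le OG2.hm1⟩ := by
    intro u hu
    obtain ⟨h3, h4⟩ := inv_props hu
    obtain ⟨x, hx, j, hj, he⟩ := inv_class TG2.good TG2.ext OG2.odd hF OG2.hM OG2.hT OG2.hTl OG2.hf u.2 h3 h4
    simp only [List.mem_cons, List.not_mem_nil, or_false] at hj
    subst hj
    exact isConj_of _ hx he
  exact (key s hs).trans (key t ht).symm

end Cfsg.Agent.S4278
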