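import Cfsg.Statements.S4279
import Cfsg.Agent.H15.OInv9

set_option autoImplicit false
open Cfsg

namespace Cfsg.Agent.S4279

open Cfsg.Agent.H6 Cfsg.Agent.H15.OInv Cfsg.Agent.H22
open Cfsg.Lie in
theorem hcomm : ∀ r ∈ [7, 4], ∀ s ∈ [11, 0], chevG2.commTerms r s = [] := by decide +kernel
open Cfsg.Lie in
theorem hne : ∀ r ∈ [7, 4], ∀ s ∈ [11, 0], s ≠ r ∧ s ≠ chevG2.neg r ∧ r < chevG2.nroots ∧ s < chevG2.nroots := by decide +kernel
open Cfsg.Lie in
theorem hpar : ∀ r < 12, (chevG2.pairing 7 r - cO TG2.MO r 1) % 2 = 0 ∧ (chevG2.pairing 11 r - cO TG2.MO r 1) % 2 = 0 := by decide +kernel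
open Cfsg.Lie in
theorem hneg : chevG2.neg 7 = 4 ∧ chevG2.neg 11 = 0 := by decide +kernel

open Cfsg.Lie in
theorem pow_parity {F : Type*} [Field F] {a b : ℤ} (h : (a - b) % 2 = 0) : (-1 : Fˣ) ^ a = (-1) ^ b := by
  have h1 : a = b + 2 * ((a - b) / 2) := by omega
  rw [h1, zpow_add, zpow_mul]
  have : ((-1 : Fˣ) ^ (2 : ℤ)) = 1 := by
    rw [show (2 : ℤ) = ((2 : ℕ) : ℤ) from rfl, zpow_natCast]; simp
  rw [this, one_zpow, mul_one]

/-- In the Chevalley group G of type G₂ over a finite field F of odd order q, the centralizer of an involution t has order q²(q² − 1)² and contains two elementwise commuting subgroups, each isomorphic to SL(2, F), which meet exactly in the subgroup generated by t and whose join has index 2 in the centralizer. -/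
theorem result {F : Type*} [Field F] [Fintype F] (hF : Odd (Fintype.card F)) (t : ↥(Cfsg.Lie.chevG2.group F)) (ht : orderOf t = 2) : Nat.card (Subgroup.centralizer ({t} : Set ↥(Cfsg.Lie.chevG2.group F))) = Fintype.card F ^ 2 * (Fintype.card F ^ 2 - 1) ^ 2 ∧ ∃ L₁ L₂ : Subgroup ↥(Cfsg.Lie.chevG2.group F), Nonempty (L₁ ≃* Matrix.SpecialLinearGroup (Fin 2) F) ∧ Nonempty (L₂ ≃* Matrix.SpecialLinearGroup (Fin 2) F) ∧ (∀ x ∈ L₁, ∀ y ∈ L₂, x * y = y * x) ∧ L₁ ⊓ L₂ = Subgroup.zpowers t ∧ L₁ ⊔ L₂ ≤ Subgroup.centralizer ({t} : Set ↥(Cfsg.Lie.chevG2.group F)) ∧ (L₁ ⊔ L₂).relIndex (Subgroup.centralizer ({t} : Set ↥(Cfsg.Lie.chevG2.group F))) = 2 := by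
  classical
  have h2 : (2 : F) ≠ 0 := two_ne hF
  have e1 : ((-1 : Fˣ) : F) = -1 := by push_cast; rfl
  have ht7 : hgr Cfsg.Lie.chevG2 F 7 (-1) = hv Cfsg.Lie.chevG2 F (cO TG2.MO) (2 ^ 1) := by
    have := TG2.good.hgr_eq_tor (F := F) 7 (by decide) (-1)
    rw [e1] at this
    rw [this]
    unfold hv
    rw [tor_eq_iff]
    intro r hr
    rw [chr_two_pow TG2.good (show 1 < 2 by decide)]
    exact pow_parity (hpar r hr).1
  have ht11 : hgr Cfsg.Lie.chevG2 F 11 (-1) = hv Cfsg.Lie.chevG2 F (cO TG2.MO) (2 ^ 1) := by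
    have := TG2.good.hgr_eq_tor (F := F) 11 (by decide) (-1)
    rw [e1] at this
    rw [this]
    unfold hv
    rw [tor_eq_iff]
    intro r hr
    rw [chr_two_pow TG2.good (show 1 < 2 by decide)]
    exact pow_parity (hpar r hr).2
  have hne1 := hv_ne_one (F := F) TG2.good h2 (show 1 < 2 by decide)
  obtain ⟨φ₁, x1, y1⟩ := exists_sl2_hom (Cfsg.Agent.S1030.sl2rel (F := F) TG2.good TG2.ext (show 7 < Cfsg.Lie.chevG2.nroots by decide))
  obtain ⟨φ₂, x2, y2⟩ := exists_sl2_hom (Cfsg.Agent.S1030.sl2rel (F := F) TG2.good TG2.ext (show 11 < Cfsg.Lie.chevG2.nroots by decide))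
  obtain ⟨i1, m1⟩ := sl2_inj TG2.good TG2.ext h2 (by decide) (by rw [ht7]; exact hne1) φ₁ x1 y1
  obtain ⟨i2, m2⟩ := sl2_inj TG2.good TG2.ext h2 (by decide) (by rw [ht11]; exact hne1) φ₂ x2 y2
  rw [ht7] at m1
  rw [ht11] at m2
  rw [hneg.1] at y1
  rw [hneg.2] at y2
  -- generation of `SL₂`
  have hgen : ∀ K : Subgroup (Matrix.SpecialLinearGroup (Fin 2) F), (∀ t, ux t ∈ K) → (∀ t, uy t ∈ K) → K = ⊤ := by
    intro K hx hy
    apply sl2_gen hx
    have e : (uw : Matrix.SpecialLinearGroup (Fin 2) F) = ux 1 * uy (-1) * ux 1 := by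
      apply Subtype.ext
      show (uw : Matrix.SpecialLinearGroup (Fin 2) F).1 = (ux 1).1 * (uy (-1)).1 * (ux 1).1
      simp only [uw, ux, uy]
      rw [Matrix.mul_fin_two, Matrix.mul_fin_two]
      simp
    rw [e]
    exact mul_mem (mul_mem (hx _) (hy _)) (hx _)
  -- commuting root elements
  have hxx : ∀ r ∈ [7, 4], ∀ s ∈ [11, 0], ∀ a b : F, xg Cfsg.Lie.chevG2 F r a * xg Cfsg.Lie.chevG2 F s b =
      xg Cfsg.Lie.chevG2 F s b * xg Cfsg.Lie.chevG2 F r a := by
    intro r hr s hs a b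
    obtain ⟨n1, n2, n3, n4⟩ := hne r hr s hs
    have h := (TG2.good.rd (F := F) TG2.ext).comm r n3 s n4 n1 n2 a b
    have h3 : Cfsg.Lie.chevG2.commWord F r s a b = [] := by
      unfold Cfsg.Lie.ChevalleyDatum.commWord
      rw [hcomm r hr s hs]
      rfl
    rw [h3] at h
    simp only [xw, List.map_nil, List.prod_nil, mul_one] at h
    exact h.symm
  have hcomm' : ∀ x y, φ₁ x * φ₂ y = φ₂ y * φ₁ x := by
    have s1 : ∀ s ∈ [11, 0], ∀ b x, φ₁ x * xg Cfsg.Lie.chevG2 F s b = xg Cfsg.Lie.chevG2 F s b * φ₁ x := by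
      intro s hs b x
      have hK : (Subgroup.centralizer ({xg Cfsg.Lie.chevG2 F s b} : Set (GL Cfsg.Lie.chevG2.Idx F))).comap φ₁ = ⊤ := by
        apply hgen
        · intro a
          rw [Subgroup.mem_comap, Subgroup.mem_centralizer_iff, x1]
          intro z hz
          rw [Set.mem_singleton_iff] at hz
          rw [hz, hxx 7 (by simp) s hs]
        · intro a
          rw [Subgroup.mem_comap, Subgroup.mem_centralizer_iff, y1]
          intro z hz
          rw [Set.mem_singleton_iff] at hz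
          rw [hz, hxx 4 (by simp) s hs]
      have := (hK ▸ Subgroup.mem_top x : x ∈ (Subgroup.centralizer ({xg Cfsg.Lie.chevG2 F s b} : Set (GL Cfsg.Lie.chevG2.Idx F))).comap φ₁)
      rw [Subgroup.mem_comap, Subgroup.mem_centralizer_iff] at this
      exact (this _ rfl).symm
    intro x y
    have hK : (Subgroup.centralizer ({φ₁ x} : Set (GL Cfsg.Lie.chevG2.Idx F))).comap φ₂ = ⊤ := by
      apply hgen
      · intro a
        rw [Subgroup.mem_comap, Subgroup.mem_centralizer_iff, x2]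
        intro z hz
        rw [Set.mem_singleton_iff] at hz
        rw [hz, s1 11 (by simp)]
      · intro a
        rw [Subgroup.mem_comap, Subgroup.mem_centralizer_iff, y2]
        intro z hz
        rw [Set.mem_singleton_iff] at hz
        rw [hz, s1 0 (by simp)]
    have := (hK ▸ Subgroup.mem_top y : y ∈ (Subgroup.centralizer ({φ₁ x} : Set (GL Cfsg.Lie.chevG2.Idx F))).comap φ₂)
    rw [Subgroup.mem_comap, Subgroup.mem_centralizer_iff] at this
    exact this _ rfl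
  -- the images lie in the group
  have hr1 : ∀ x, φ₁ x ∈ Cfsg.Lie.chevG2.group F := by
    intro x
    have hK : (Cfsg.Lie.chevG2.group F).comap φ₁ = ⊤ := by
      apply hgen
      · intro a; rw [Subgroup.mem_comap, x1]; exact TG2.good.xg_mem_group _ _
      · intro a; rw [Subgroup.mem_comap, y1]; exact TG2.good.xg_mem_group _ _
    exact (hK ▸ Subgroup.mem_top x : x ∈ (Cfsg.Lie.chevG2.group F).comap φ₁)
  have hr2 : ∀ x, φ₂ x ∈ Cfsg.Lie.chevG2.group F := by
    intro x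
    have hK : (Cfsg.Lie.chevG2.group F).comap φ₂ = ⊤ := by
      apply hgen
      · intro a; rw [Subgroup.mem_comap, x2]; exact TG2.good.xg_mem_group _ _
      · intro a; rw [Subgroup.mem_comap, y2]; exact TG2.good.xg_mem_group _ _
    exact (hK ▸ Subgroup.mem_top x : x ∈ (Cfsg.Lie.chevG2.group F).comap φ₂)
  -- conjugate to the standard involution
  obtain ⟨h3, h4⟩ := inv_props ht
  obtain ⟨x, hx, j, hj, he⟩ := inv_class TG2.good TG2.ext OG2.odd hF OG2.hM OG2.hT OG2.hTl OG2.hf t.2 h3 h4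
  simp only [List.mem_cons, List.not_mem_nil, or_false] at hj
  subst hj
  have hcj := isConj_of (TG2.good.diagonal_le OG2.hm1) hx he
  have hcard : Nat.card (Subgroup.centralizer ({t} : Set ↥(Cfsg.Lie.chevG2.group F))) = Fintype.card F ^ 2 * (Fintype.card F ^ 2 - 1) ^ 2 := by
    rw [card_centralizer_conj hcj, card_centralizer, cardG2 hF]
  refine ⟨hcard, ?_⟩
  have : Finite (Matrix Cfsg.Lie.chevG2.Idx Cfsg.Lie.chevG2.Idx F) := inferInstanceAs (Finite (Cfsg.Lie.chevG2.Idx → Cfsg.Lie.chevG2.Idx → F))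
  have : Finite (GL Cfsg.Lie.chevG2.Idx F) := Finite.of_injective (fun g : GL Cfsg.Lie.chevG2.Idx F => (g : Matrix Cfsg.Lie.chevG2.Idx Cfsg.Lie.chevG2.Idx F)) fun a b h => Units.ext h
  let y : ↥(Cfsg.Lie.chevG2.group F) := ⟨x, hx⟩
  let ψ₁ : Matrix.SpecialLinearGroup (Fin 2) F →* ↥(Cfsg.Lie.chevG2.group F) :=
    (MulAut.conj y⁻¹).toMonoidHom.comp (φ₁.codRestrict (Cfsg.Lie.chevG2.group F) hr1)
  let ψ₂ : Matrix.SpecialLinearGroup (Fin 2) F →* ↥(Cfsg.Lie.chevG2.group F) :=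
    (MulAut.conj y⁻¹).toMonoidHom.comp (φ₂.codRestrict (Cfsg.Lie.chevG2.group F) hr2)
  have hi1 : Function.Injective ψ₁ := by
    intro a b hab
    have := (MulAut.conj y⁻¹).injective hab
    exact i1 (congrArg Subtype.val this)
  have hi2 : Function.Injective ψ₂ := by
    intro a b hab
    have := (MulAut.conj y⁻¹).injective hab
    exact i2 (congrArg Subtype.val this)
  have hconj : x⁻¹ * hv Cfsg.Lie.chevG2 F (cO TG2.MO) (2 ^ 1) * x⁻¹⁻¹ = t := by
    change x⁻¹ * hv Cfsg.Lie.chevG2 F (cO TG2.MO) 2 * x⁻¹⁻¹ = t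
    rw [← he]; group
  apply two_sl2 h2 ψ₁ ψ₂ hi1 hi2
  · apply Subtype.ext
    change x⁻¹ * φ₁ (-1) * x⁻¹⁻¹ = t
    rw [m1, hconj]
  · apply Subtype.ext
    change x⁻¹ * φ₂ (-1) * x⁻¹⁻¹ = t
    rw [m2, hconj]
  · intro a b
    change (MulAut.conj y⁻¹) _ * (MulAut.conj y⁻¹) _ = (MulAut.conj y⁻¹) _ * (MulAut.conj y⁻¹) _
    rw [← map_mul, ← map_mul]
    congr 1
    exact Subtype.ext (hcomm' a b)
  · exact hcard

end Cfsg.Agent.S4279
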