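import Cfsg.Statements.S4280
import Cfsg.Agent.H15.OInv8

set_option autoImplicit false
open Cfsg

namespace Cfsg.Agent.S4280

open Cfsg.Agent.H6 Cfsg.Agent.H15.OInv

/-- In the Chevalley group of type F₄ over a finite field of odd order q there are exactly two conjugacy classes of involutions; the centralizer of an involution in one class has order q¹⁶(q² − 1)(q⁴ − 1)(q⁶ − 1)(q⁸ − 1), and in the other class q¹⁰(q² − 1)²(q⁴ − 1)(q⁶ − 1). -/
theorem result {F : Type*} [Field F] [Fintype F] (hF : Odd (Fintype.card F)) : ∃ s t : ↥(Cfsg.Lie.chevF4.group F), orderOf s = 2 ∧ orderOf t = 2 ∧ ¬ IsConj s t ∧ (∀ u : ↥(Cfsg.Lie.chevF4.group F), orderOf u = 2 → IsConj u s ∨ IsConj u t) ∧ Nat.card (Subgroup.centralizer ({s} : Set ↥(Cfsg.Lie.chevF4.group F))) = Fintype.card F ^ 16 * (Fintype.card F ^ 2 - 1) * (Fintype.card F ^ 4 - 1) * (Fintype.card F ^ 6 - 1) * (Fintype.card F ^ 8 - 1) ∧ Nat.card (Subgroup.centralizer ({t} : Set ↥(Cfsg.Lie.chevF4.group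 F))) = Fintype.card F ^ 10 * (Fintype.card F ^ 2 - 1) ^ 2 * (Fintype.card F ^ 4 - 1) * (Fintype.card F ^ 6 - 1) := by
  have hq : 2 ≤ Fintype.card F := Fintype.one_lt_card
  have h1 : 1 ≤ Fintype.card F := by omega
  have hne : Fintype.card F ^ 16 * (Fintype.card F ^ 2 - 1) * (Fintype.card F ^ 4 - 1) * (Fintype.card F ^ 6 - 1) * (Fintype.card F ^ 8 - 1) ≠
      Fintype.card F ^ 10 * (Fintype.card F ^ 2 - 1) ^ 2 * (Fintype.card F ^ 4 - 1) * (Fintype.card F ^ 6 - 1) := by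
    intro h
    apply ne_of_qpart hq (a := 10) (b := 16) (A := (Fintype.card F ^ 2 - 1) ^ 2 * (Fintype.card F ^ 4 - 1) * (Fintype.card F ^ 6 - 1))
      (B := (Fintype.card F ^ 2 - 1) * (Fintype.card F ^ 4 - 1) * (Fintype.card F ^ 6 - 1) * (Fintype.card F ^ 8 - 1)) (by norm_num)
      (Nat.Coprime.mul_right (Nat.Coprime.mul_right (Nat.Coprime.pow_right 2 (coprime_sub h1 (by norm_num))) (coprime_sub h1 (by norm_num)))
        (coprime_sub h1 (by norm_num)))
    simp only [← mul_assoc]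
    exact h.symm
  exact two_classes TF4.good TF4.ext OF4.odd hF (a := 0) (b := 3) (show 0 < 4 by decide) (show 3 < 4 by decide) OF4.hM OF4.hT OF4.hTl
    OF4.hf OF4.hm0 OF4.hm3 (cardF4a hF) (cardF4b hF) hne

end Cfsg.Agent.S4280
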