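import Cfsg.Statements.S4282
import Cfsg.Agent.H23.HHMain

set_option autoImplicit false
set_option linter.all false
open Cfsg

namespace Cfsg.Agent.S4282

open Subgroup

/-- A critical case behind the Hall–Higman theorem. Let p ≠ q be primes and G a finite group generated by a normal q-subgroup Q and a cyclic p-subgroup generated by x, such that the centralizer of every non-identity element of that cyclic subgroup is its product with the centre of G. Let K be an algebraically closed field of characteristic p and ρ a faithful representation of G on a nonzero finite-dimensional K-space whose restriction to Q is irreducible. If s is the least exponent with (ρ(x) − 1)^s = 0, then |⟨x⟩| − 1 ≤ s ≤ |⟨x⟩|; and if s = |⟨x⟩| − 1 then |⟨x⟩| − 1 is a power of q and Q is non-abelian. -/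
theorem result {G : Type*} [Group G] [Finite G] (p q : ℕ) [Fact p.Prime] [Fact q.Prime] (hpq : p ≠ q) (Q : Subgroup G) [Q.Normal] (hQ : IsPGroup q Q) (x : G) (hx : IsPGroup p (Subgroup.zpowers x)) (hgen : Q ⊔ Subgroup.zpowers x = ⊤) (hC : ∀ y ∈ Subgroup.zpowers x, y ≠ 1 → Subgroup.centralizer ({y} : Set G) = Subgroup.zpowers x ⊔ Subgroup.center G) {K : Type*} [Field K] [IsAlgClosed K] [CharP K p] {V : Type*} [AddCommGroup V] [Module K V] [FiniteDimensional K V] [Nontrivial V] (ρ : Representation K G V) (hfaith : Function.Injective ρ) (hirr : ∀ W : Submodule K V, (∀ g ∈ Q, Submodule.map (ρ g) W ≤ W) → W = ⊥ ∨ W = ⊤) (s : ℕ) (hs : (ρ x - 1) ^ s = 0) (hmin : ∀ k < s, (ρ x - 1) ^ k ≠ 0) : Nat.card (Subgroup.zpowers x) - 1 ≤ s ∧ s ≤ Nat.card (Subgroup.zpowers x) ∧ (s = Nat.card (Subgroup.zpowers x) - 1 → (∃ b : ℕ, Nat.card (Subgroup.zpowers x) - 1 = q ^ b) ∧ ¬ IsMulCommutative Q) := by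
  classical
  have hp := (Fact.out : p.Prime)
  have hq := (Fact.out : q.Prime)
  have hxfin : IsOfFinOrder x := isOfFinOrder_of_finite x
  obtain ⟨a, ha⟩ := hx.exists_card_eq
  rw [ha]
  have hxN : x ^ p ^ a = 1 := by
    rw [← ha, Nat.card_zpowers, pow_orderOf_eq_one]
  have hs0 : s ≠ 0 := by
    rintro rfl
    rw [pow_zero] at hs
    exact one_ne_zero hs
  set ρ' : G →* Module.End K V := ρ with hρ'
  have hbound : s ≤ p ^ a := by
    by_contra hcon
    push Not at hcon
    apply hmin _ hcon
    haveI : CharP (Module.End K V) p := charP_of_injective_algebraMap' K (A := Module.End K V) p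
    rw [sub_pow_char_pow_of_commute, one_pow, ← map_pow, hxN, map_one, sub_self]
    exact Commute.one_right _
  rcases Nat.eq_zero_or_pos a with ha0 | hapos
  · subst ha0
    rw [pow_zero] at hbound ⊢
    refine ⟨by omega, hbound, fun h => ?_⟩
    omega
  obtain ⟨n, rfl⟩ : ∃ n, a = n + 1 := ⟨a - 1, by omega⟩
  have hord : orderOf x = p ^ (n + 1) := by rw [← Nat.card_zpowers, ha]
  set y := x ^ p ^ n with hy
  have hy1 : y ≠ 1 := by
    intro h1
    have h2 := orderOf_dvd_of_pow_eq_one h1
    rw [hord] at h2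
    have h3 := (Nat.pow_dvd_pow_iff_le_right hp.one_lt).mp h2
    omega
  have hyx : y ∈ zpowers x := (zpowers x).pow_mem (mem_zpowers x) _
  have hschur : ∀ φ : Module.End K V, (∀ g ∈ Q, φ * ρ' g = ρ' g * φ) → ∃ c : K, φ = c • 1 := by
    intro φ hφ
    have h1 := H23.schur_scalar (ρ'.comp Q.subtype) (by
      intro S hS
      apply hirr S
      intro g hg
      rw [Submodule.map_le_iff_le_comap]
      intro w hw
      exact hS ⟨g, hg⟩ w hw) φ (fun u => hφ u u.2)
    exact h1
  have hscal1 : ∀ g : G, g ∈ zpowers x → (∃ c : K, ρ' g = c • 1) → g = 1 := by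
    rintro g hg ⟨c, hc⟩
    apply hfaith
    have h1 : g ^ p ^ (n + 1) = 1 := by
      obtain ⟨i, rfl⟩ := hg
      simp only
      rw [← zpow_natCast, ← zpow_mul, mul_comm, zpow_mul, zpow_natCast, hxN, one_zpow]
    have h2 : c ^ p ^ (n + 1) = 1 := by
      have h3 := congrArg ρ' h1
      rw [map_pow, hc, smul_pow, one_pow, map_one] at h3
      have h4 : (c ^ p ^ (n + 1) - 1) • (1 : Module.End K V) = 0 := by rw [sub_smul, h3, one_smul, sub_self]
      rcases smul_eq_zero.mp h4 with h | h
      · exact sub_eq_zero.mp h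
      · exact absurd h one_ne_zero
    have h3 : c = 1 := by
      have h4 : (c - 1) ^ p ^ (n + 1) = 0 := by rw [sub_pow_char_pow, one_pow, h2, sub_self]
      exact sub_eq_zero.mp (pow_eq_zero_iff (pow_ne_zero _ hp.ne_zero) |>.mp h4)
    change ρ' g = ρ' 1
    rw [hc, h3, one_smul, map_one]
  have hne : ∃ u ∈ Q, y * u ≠ u * y := by
    by_contra hcon
    push Not at hcon
    have h1 : (⊤ : Subgroup G) ≤ centralizer ({y} : Set G) := by
      rw [← hgen, sup_le_iff, zpowers_le]
      constructor
      · intro u hu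
        rw [mem_centralizer_singleton_iff]
        exact (hcon u hu).symm
      · rw [mem_centralizer_singleton_iff]
        exact (Commute.refl x).pow_right _
    rw [hC y hyx hy1] at h1
    have hxc : ∀ g : G, x * g = g * x := by
      intro g
      have hg := h1 (mem_top g)
      obtain ⟨z, hz, w, hw, rfl⟩ := mem_sup_of_normal_right.mp hg
      obtain ⟨i, rfl⟩ := hz
      have h2 := mem_center_iff.mp hw x
      have h3 : x * x ^ i = x ^ i * x := (Commute.refl x).zpow_right i
      calc x * (x ^ i * w) = (x * x ^ i) * w := by group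
        _ = x ^ i * (x * w) := by rw [h3]; group
        _ = (x ^ i * w) * x := by rw [h2]; group
    have h2 := hscal1 x (mem_zpowers x) (hschur (ρ' x) (by
      intro g _
      rw [← map_mul, ← map_mul, hxc]))
    apply hy1
    rw [hy, h2, one_pow]
  have hsc : ∀ u ∈ Q, x ^ p ^ n * u = u * x ^ p ^ n → ∃ c : K, ρ' u = c • 1 := by
    intro u hu hcom
    have h1 : u ∈ centralizer ({y} : Set G) := by
      rw [mem_centralizer_singleton_iff]
      exact hcom.symm
    rw [hC y hyx hy1] at h1
    obtain ⟨z, hz, w, hw, hzw⟩ := mem_sup_of_normal_right.mp h1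
    obtain ⟨b, hb⟩ := hQ ⟨u, hu⟩
    have hb' : u ^ q ^ b = 1 := by
      have := congrArg (fun v : Q => (v : G)) hb
      simpa using this
    have hwc := mem_center_iff.mp hw
    have h2 : z ^ q ^ b * w ^ q ^ b = 1 := by
      rw [← (show Commute z w from hwc z).mul_pow, hzw, hb']
    have h3 : z ^ q ^ b = 1 := by
      apply hscal1 _ ((zpowers x).pow_mem hz _)
      apply hschur
      intro g _
      have h4 : z ^ q ^ b = (w ^ q ^ b)⁻¹ := eq_inv_of_mul_eq_one_left h2
      have h5 : Commute (w ^ q ^ b)⁻¹ g := ((show Commute w g from (hwc g).symm).pow_left _).inv_left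
      rw [h4, ← map_mul, ← map_mul, h5.eq]
    have h4 : z = 1 := by
      have h5 := orderOf_dvd_of_pow_eq_one h3
      have h6 : orderOf z ∣ p ^ (n + 1) := by
        rw [← hord]
        exact orderOf_dvd_of_mem_zpowers hz
      have h7 : Nat.Coprime (p ^ (n + 1)) (q ^ b) :=
        Nat.Coprime.pow _ _ ((Nat.coprime_primes hp hq).mpr hpq)
      have h8 := Nat.dvd_gcd h6 h5
      rw [h7] at h8
      exact orderOf_eq_one_iff.mp (Nat.dvd_one.mp h8)
    rw [h4, one_mul] at hzw
    apply hschur
    intro g _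
    rw [← map_mul, ← map_mul, ← hzw, hwc g]
  rcases H23.hh_qgroup hpq ρ' hfaith hxN Q hQ (by rw [normalizer_eq_top]; exact mem_top x) hne with
    h1 | ⟨k, hk, ⟨m, _, hm⟩, hna, hbd, hk0⟩
  · have h2 : p ^ (n + 1) ≤ s := by
      by_contra hcon
      push Not at hcon
      apply h1
      obtain ⟨d, hd⟩ := Nat.exists_eq_add_of_le (show s ≤ p ^ (n + 1) - 1 by omega)
      rw [hd, pow_add, hs, zero_mul]
    have h3 : 0 < p ^ (n + 1) := pow_pos hp.pos _
    refine ⟨by omega, hbound, fun h => ?_⟩
    omega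
  · have hk00 := hk0 hsc
    subst hk00
    rw [pow_zero, one_mul, Nat.sub_zero] at hbd
    refine ⟨hbd s hs, hbound, fun _ => ⟨⟨m, hm⟩, ?_⟩⟩
    intro hcom
    apply hna
    intro a ha b hb
    have := hcom.is_comm.comm ⟨a, ha⟩ ⟨b, hb⟩
    exact congrArg (fun z : Q => (z : G)) this

end Cfsg.Agent.S4282
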