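import Cfsg.Statements.S4283
import Cfsg.Agent.H1.FrobComp
import Cfsg.Agent.H21.Frob
import Cfsg.Agent.H25.ClassSize

set_option autoImplicit false
open Cfsg

namespace Cfsg.Agent.S4283

open Subgroup
open scoped Pointwise

/-- Let G be a finite group with centre Z and let K, H be abelian subgroups of G containing Z such that G/Z is a Frobenius group with complement H/Z and kernel K/Z. Then the conjugacy class sizes of G are exactly 1, [G : K] and [G : H], and these two indices are coprime. (This is the converse half of the characterization of finite groups whose conjugacy class sizes are exactly 1, m and n with m and n coprime.) -/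
theorem result {G : Type*} [Group G] [Finite G] (K H : Subgroup G) (hZK : Subgroup.center G ≤ K) (hZH : Subgroup.center G ≤ H) (hK : IsMulCommutative K) (hH : IsMulCommutative H) (hFrob : Cfsg.IsFrobeniusComplement (H.map (QuotientGroup.mk' (Subgroup.center G)))) (hker : Cfsg.frobeniusKernel (H.map (QuotientGroup.mk' (Subgroup.center G))) = (K.map (QuotientGroup.mk' (Subgroup.center G)) : Set (G ⧸ Subgroup.center G))) : Set.range (fun x : G => (Subgroup.centralizer ({x} : Set G)).index) = ({1, K.index, H.index} : Set ℕ) ∧ K.index.Coprime H.index := by
  set π := QuotientGroup.mk' (Subgroup.center G) with hπ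
  have hπker : π.ker = center G := QuotientGroup.ker_mk' _
  have hπs : Function.Surjective π := QuotientGroup.mk'_surjective _
  have hmem : ∀ {S : Subgroup G}, center G ≤ S → ∀ x, π x ∈ S.map π ↔ x ∈ S := by
    intro S hS x
    rw [← mem_comap, comap_map_eq_self (by rw [hπker]; exact hS)]
  have hone : ∀ x : G, π x = 1 ↔ x ∈ center G := by
    intro x
    rw [← MonoidHom.mem_ker, hπker]
  have hcent : ∀ {x g : G}, g ∈ centralizer {x} → π g ∈ centralizer {π x} := by
    intro x g hg
    rw [mem_centralizer_singleton_iff] at hg ⊢
    rw [← map_mul, hg, map_mul]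
  have hcH : ∀ h ∈ H, h ∉ center G → centralizer {h} = H := by
    intro h hh hhz
    apply le_antisymm
    · intro g hg
      rw [← hmem hZH]
      exact H1.frob_centralizer_le hFrob ((hmem hZH h).2 hh) (fun e => hhz ((hone h).1 e)) (hcent hg)
    · intro g hg
      rw [mem_centralizer_singleton_iff]
      exact congrArg Subtype.val (hH.is_comm.comm (⟨g, hg⟩ : H) ⟨h, hh⟩)
  have hKb : ∀ y, y ∈ K.map π ↔ y ∈ frobeniusKernel (H.map π) := by
    intro y
    rw [hker]; rfl
  have hcK : ∀ k ∈ K, k ∉ center G → centralizer {k} = K := by
    intro k hk hkz
    apply le_antisymm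
    · intro g hg
      rw [← hmem hZK, hKb]
      by_contra hn
      obtain ⟨h1, a, ha⟩ := H21.frob_not_mem_kernel hn
      have h2 := hcent hg
      rw [mem_centralizer_singleton_iff] at h2
      have h3 : a⁻¹ * π k * a ∈ centralizer {a⁻¹ * π g * a} := by
        rw [mem_centralizer_singleton_iff]
        have : (a⁻¹ * π k * a) * (a⁻¹ * π g * a) = a⁻¹ * (π k * π g) * a := by group
        rw [this, ← h2]
        group
      have h4 := H1.frob_centralizer_le hFrob ha (by
        intro e
        apply h1
        have : π g = a * (a⁻¹ * π g * a) * a⁻¹ := by group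
        rw [this, e]; group) h3
      have h5 : π k ∈ frobeniusKernel (H.map π) := (hKb _).1 ((hmem hZK k).2 hk)
      rcases h5 with h5 | h5
      · exact hkz ((hone k).1 h5)
      · apply h5 a
        rw [Subgroup.mem_pointwise_smul_iff_inv_smul_mem, ← map_inv, MulAut.smul_def,
          MulAut.conj_apply, inv_inv]
        exact h4
    · intro g hg
      rw [mem_centralizer_singleton_iff]
      exact congrArg Subtype.val (hK.is_comm.comm (⟨g, hg⟩ : K) ⟨k, hk⟩)
  have hindH : (H.map π).index = H.index := by
    have := H.index_map π
    rw [hπker, sup_eq_left.2 hZH, (MonoidHom.range_eq_top.2 hπs), index_top, mul_one] at this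
    exact this
  have hindK : (K.map π).index = K.index := by
    have := K.index_map π
    rw [hπker, sup_eq_left.2 hZK, (MonoidHom.range_eq_top.2 hπs), index_top, mul_one] at this
    exact this
  have hcardK : Nat.card (K.map π) = H.index := by
    rw [← hindH, ← H1.frob_card_kernel hFrob, hker]; rfl
  have hcardH : Nat.card (H.map π) = K.index := by
    have h1 := (H.map π).card_mul_index
    have h2 := (K.map π).card_mul_index
    rw [hindH] at h1
    rw [hcardK, hindK] at h2
    have h3 : 0 < H.index := Nat.pos_of_ne_zero index_ne_zero_of_finite
    have h4 : H.index * Nat.card (H.map π) = H.index * K.index := by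
      rw [h2, mul_comm]; exact h1
    exact Nat.eq_of_mul_eq_mul_left h3 h4
  refine ⟨?_, ?_⟩
  · ext n
    simp only [Set.mem_range, Set.mem_insert_iff, Set.mem_singleton_iff]
    constructor
    · rintro ⟨x, rfl⟩
      by_cases hxz : x ∈ center G
      · left
        rw [index_eq_one, eq_top_iff]
        intro g _
        rw [mem_centralizer_singleton_iff]
        exact (mem_center_iff.1 hxz g)
      right
      by_cases hxK : x ∈ K
      · left; rw [hcK x hxK hxz]
      · right
        have h1 : π x ∉ frobeniusKernel (H.map π) := by
          rw [← hKb, hmem hZK]; exact hxK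
        obtain ⟨h2, a, ha⟩ := H21.frob_not_mem_kernel h1
        obtain ⟨b, rfl⟩ := hπs a
        rw [← map_inv, ← map_mul, ← map_mul, hmem hZH] at ha
        have h3 : b⁻¹ * x * b ∉ center G := by
          intro h
          apply hxz
          have : x = b * (b⁻¹ * x * b) * b⁻¹ := by group
          rw [this]
          exact Normal.conj_mem inferInstance _ h b
        rw [← hcH _ ha h3]
        have h4 := H25.centralizer_conj x b⁻¹
        rw [inv_inv] at h4
        rw [h4]
        have h5 := card_mul_index (centralizer ({x} : Set G))
        have h6 := card_mul_index (MulAut.conj b⁻¹ • centralizer ({x} : Set G))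
        rw [H1.card_conj_smul, ← h5] at h6
        exact (Nat.eq_of_mul_eq_mul_left Nat.card_pos h6).symm
    · rintro (rfl | rfl | rfl)
      · refine ⟨1, ?_⟩
        rw [index_eq_one, eq_top_iff]
        intro g _
        rw [mem_centralizer_singleton_iff]
        simp
      · have : ∃ k ∈ K, k ∉ center G := by
          by_contra h
          push Not at h
          have h1 : K.map π = ⊥ := by
            rw [Subgroup.map_eq_bot_iff, hπker]
            exact h
          rw [h1, card_bot] at hcardK
          have h2 := index_eq_one.1 (hindH.trans hcardK.symm)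
          exact hFrob.2.1 h2
        obtain ⟨k, hk, hkz⟩ := this
        exact ⟨k, by rw [hcK k hk hkz]⟩
      · have : ∃ k ∈ H, k ∉ center G := by
          by_contra h
          push Not at h
          have h1 : H.map π = ⊥ := by
            rw [Subgroup.map_eq_bot_iff, hπker]
            exact h
          exact hFrob.1 h1
        obtain ⟨k, hk, hkz⟩ := this
        exact ⟨k, by rw [hcH k hk hkz]⟩
  · rw [← hcardH, ← hindH]
    exact H1.frob_coprime hFrob

end Cfsg.Agent.S4283
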