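import Cfsg.Statements.S4284
import Cfsg.Agent.H25.CSH

set_option autoImplicit false
open Cfsg

namespace Cfsg.Agent.S4284

/-- Let G be a finite group with no nontrivial abelian direct factor whose conjugacy class sizes are exactly 1, m and m·n with m, n > 1 coprime. Then m is a prime p dividing n − 1; the elements whose class has size 1 or p form an abelian normal subgroup of index p; G has a normal p-complement; and the commutator subgroup of a Sylow p-subgroup of G has order p. -/
theorem result {G : Type*} [Group G] [Finite G] (hnodf : ∀ A B : Subgroup G, A.Normal → B.Normal → A ⊓ B = ⊥ → A ⊔ B = ⊤ → IsMulCommutative A → A = ⊥) (m n : ℕ) (hm : 1 < m) (hn : 1 < n) (hcop : m.Coprime n) (h : Set.range (fun x : G => (Subgroup.centralizer ({x} : Set G)).index) = ({1, m, m * n} : Set ℕ)) : m.Prime ∧ m ∣ n - 1 ∧ (∃ M : Subgroup G, M.Normal ∧ (M : Set G) = {x : G | (Subgroup.centralizer ({x} : Set G)).index = 1 ∨ (Subgroup.centralizer ({x} : Set G)).index = m} ∧ M.index = m ∧ IsMulCommutative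 M) ∧ (∃ N : Subgroup G, N.Normal ∧ (Nat.card N).Coprime m ∧ ∃ a : ℕ, N.index = m ^ a) ∧ ∀ P : Sylow m G, Nat.card (commutator (P : Subgroup G)) = m := by
  have hmem : ∀ k : ℕ, k ∈ Set.range (fun x : G => (Subgroup.centralizer ({x} : Set G)).index) ↔ k = 1 ∨ k = m ∨ k = m * n := by
    intro k; rw [h]; simp
  have H : H25.CS3.Hyp G m n :=
    { hm := hm
      hn := hn
      cop := hcop
      or3 := fun x => (hmem _).1 ⟨x, rfl⟩
      exm := (hmem m).2 (Or.inr (Or.inl rfl))
      exmn := (hmem (m * n)).2 (Or.inr (Or.inr rfl)) }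
  obtain ⟨M, hM⟩ := H.exists_M
  have hp := H.m_prime hM
  haveI : Fact m.Prime := ⟨hp⟩
  refine ⟨hp, H.n_mod hM, ⟨M, H.M_normal hM, ?_, hM.idx, ⟨⟨fun a b => Subtype.ext (hM.comm a a.2 b b.2)⟩⟩⟩,
    H.exists_compl hM, fun P => H.comm_card hM P⟩
  ext x
  exact H.mem_M_iff hM

end Cfsg.Agent.S4284
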