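import Cfsg.Statements.S4292
import Cfsg.Agent.S3357
import Cfsg.Agent.H25.FrobExt2
import Cfsg.Agent.H25.FrobSylow

set_option autoImplicit false
set_option linter.style.haveILetI false
set_option linter.unusedVariables false
set_option linter.unusedSectionVars false
open Cfsg

namespace Cfsg.Agent.S4292

open scoped TensorProduct

section lattice
variable {K : Type*} [Field K] [CharZero K] {V : Type*} [AddCommGroup V] [Module K V]
  {G : Type*} [Group G] (σ : G →* Module.End K V) (v₀ : V)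

/-- the lattice spanned by the orbit of `v₀` -/
def lat : Submodule ℤ V := Submodule.span ℤ (Set.range (fun g : G => σ g v₀))

theorem mem_lat (h : G) (x : V) (hx : x ∈ lat σ v₀) : σ h x ∈ lat σ v₀ := by
  have h1 : (lat σ v₀).map ((σ h).toAddMonoidHom.toIntLinearMap) ≤ lat σ v₀ := by
    rw [lat, Submodule.map_span, Submodule.span_le]
    rintro _ ⟨_, ⟨k, rfl⟩, rfl⟩
    apply Submodule.subset_span
    refine ⟨h * k, ?_⟩
    show σ (h * k) v₀ = σ h (σ k v₀)
    rw [map_mul]
    rfl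
  exact h1 ⟨x, hx, rfl⟩

/-- the action on the lattice -/
def L (h : G) : lat σ v₀ →ₗ[ℤ] lat σ v₀ :=
  ((σ h).toAddMonoidHom.toIntLinearMap).restrict (fun x hx => mem_lat σ v₀ h x hx)

theorem L_coe (h : G) (x : lat σ v₀) : ((L σ v₀ h x : lat σ v₀) : V) = σ h x := rfl

/-- the sublattice `q L` -/
def qlat (q : ℕ) : Submodule ℤ (lat σ v₀) := (Ideal.span {(q : ℤ)}) • (⊤ : Submodule ℤ (lat σ v₀))

theorem L_mem (q : ℕ) (h : G) : qlat σ v₀ q ≤ (qlat σ v₀ q).comap (L σ v₀ h) := by
  rw [← Submodule.map_le_iff_le_comap, qlat, Submodule.map_smul'']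
  exact Submodule.smul_mono le_rfl le_top

/-- the action on `L / q L` -/
def ρ (q : ℕ) : G →* AddMonoid.End (lat σ v₀ ⧸ qlat σ v₀ q) where
  toFun h := ((qlat σ v₀ q).mapQ (qlat σ v₀ q) (L σ v₀ h) (L_mem σ v₀ q h)).toAddMonoidHom
  map_one' := by
    ext1 v
    obtain ⟨x, rfl⟩ := Submodule.Quotient.mk_surjective _ v
    show (qlat σ v₀ q).mapQ (qlat σ v₀ q) (L σ v₀ 1) (L_mem σ v₀ q 1) (Submodule.Quotient.mk x) =
      Submodule.Quotient.mk x
    rw [Submodule.mapQ_apply]
    congr 1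
    apply Subtype.ext
    rw [L_coe, map_one]
    rfl
  map_mul' a b := by
    ext1 v
    obtain ⟨x, rfl⟩ := Submodule.Quotient.mk_surjective _ v
    show (qlat σ v₀ q).mapQ (qlat σ v₀ q) (L σ v₀ (a * b)) (L_mem σ v₀ q _) (Submodule.Quotient.mk x) =
      (qlat σ v₀ q).mapQ (qlat σ v₀ q) (L σ v₀ a) (L_mem σ v₀ q a)
        ((qlat σ v₀ q).mapQ (qlat σ v₀ q) (L σ v₀ b) (L_mem σ v₀ q b) (Submodule.Quotient.mk x))
    rw [Submodule.mapQ_apply, Submodule.mapQ_apply, Submodule.mapQ_apply]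
    congr 1
    apply Subtype.ext
    rw [L_coe, L_coe, L_coe, map_mul]
    rfl

theorem ρ_mk (q : ℕ) (h : G) (x : lat σ v₀) :
    ρ σ v₀ q h (Submodule.Quotient.mk x) = Submodule.Quotient.mk (L σ v₀ h x) := rfl

theorem q_smul (q : ℕ) (v : lat σ v₀ ⧸ qlat σ v₀ q) : q • v = 0 := by
  obtain ⟨x, rfl⟩ := Submodule.Quotient.mk_surjective _ v
  rw [← Submodule.Quotient.mk_smul, Submodule.Quotient.mk_eq_zero]
  have : q • x = (q : ℤ) • x := by simp
  rw [this]
  exact Submodule.smul_mem_smul (Ideal.mem_span_singleton_self _) trivial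

theorem main [Finite G] [Nontrivial G] (hv₀ : v₀ ≠ 0) (hfpf : ∀ g : G, g ≠ 1 → ∀ v : V, σ g v = v → v = 0) :
    ∃ (L : Type) (_ : Group L) (_ : Finite L) (C : Subgroup L), Cfsg.IsFrobeniusComplement C ∧ Nonempty (G ≃* C) := by
  obtain ⟨q, hqG, hq⟩ := Nat.exists_infinite_primes (Nat.card G + 1)
  have hqH : ¬ q ∣ Nat.card G := by
    intro h
    have := Nat.le_of_dvd Nat.card_pos h
    omega
  haveI : Module.Finite ℤ (lat σ v₀) :=
    Module.Finite.iff_fg.2 (Submodule.fg_span (Set.finite_range _))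
  haveI hfin : Finite (lat σ v₀ ⧸ qlat σ v₀ q) := by
    haveI : Module.Finite ℤ (lat σ v₀ ⧸ qlat σ v₀ q) := inferInstance
    apply Module.finite_of_fg_torsion
    intro v
    exact ⟨⟨(q : ℤ), mem_nonZeroDivisors_of_ne_zero (by exact_mod_cast hq.ne_zero)⟩, by
      have := q_smul σ v₀ q v
      rw [← natCast_zsmul] at this
      exact this⟩
  haveI hnt : Nontrivial (lat σ v₀ ⧸ qlat σ v₀ q) := by
    rw [Submodule.Quotient.nontrivial_iff]
    intro htop
    obtain ⟨r, hr1, hr2⟩ := Submodule.exists_sub_one_mem_and_smul_eq_zero_of_fg_of_le_smul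
      (Ideal.span {(q : ℤ)}) (⊤ : Submodule ℤ (lat σ v₀)) (Module.Finite.fg_top) (by
        show ⊤ ≤ qlat σ v₀ q
        rw [htop])
    have h1 : v₀ ∈ lat σ v₀ := Submodule.subset_span ⟨1, by
      show σ 1 v₀ = v₀
      rw [map_one]
      rfl⟩
    have h2 : r • v₀ = 0 := congrArg (fun x : lat σ v₀ => (x : V)) (hr2 ⟨v₀, h1⟩ trivial)
    have h3 : r = 0 := by
      rw [← Int.cast_smul_eq_zsmul K] at h2
      rcases smul_eq_zero.1 h2 with h4 | h4
      · exact_mod_cast h4
      · exact absurd h4 hv₀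
    rw [Ideal.mem_span_singleton, h3] at hr1
    have h5 : (q : ℤ) ∣ 1 := by simpa using hr1
    have h6 : q ∣ 1 := by exact_mod_cast h5
    exact hq.one_lt.ne' (Nat.dvd_one.1 h6)
  obtain ⟨L', i1, i2, K', h1, h2, -⟩ := H25.frobExt_distrib (H := G) (M := lat σ v₀ ⧸ qlat σ v₀ q)
    inferInstance hnt (ρ σ v₀ q) (by
      intro h hh v hv
      have hpow : ∀ i : ℕ, ρ σ v₀ q (h ^ i) v = v := by
        intro i
        induction i with
        | zero => rw [pow_zero, map_one]; rfl
        | succ i ih =>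
          rw [pow_succ, map_mul]
          show ρ σ v₀ q (h ^ i) (ρ σ v₀ q h v) = v
          rw [hv, ih]
      have hsum : ∑ i ∈ Finset.range (orderOf h), ρ σ v₀ q (h ^ i) v = 0 := by
        obtain ⟨x, rfl⟩ := Submodule.Quotient.mk_surjective _ v
        simp only [ρ_mk]
        have e1 : ∀ y : lat σ v₀, (Submodule.Quotient.mk y : lat σ v₀ ⧸ qlat σ v₀ q) = (qlat σ v₀ q).mkQ y :=
          fun y => rfl
        simp only [e1]
        rw [← map_sum]
        have : ∑ i ∈ Finset.range (orderOf h), L σ v₀ (h ^ i) x = 0 := by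
          apply Subtype.ext
          rw [Submodule.coe_sum]
          simp only [L_coe]
          apply hfpf h hh
          rw [map_sum]
          have h1 : ∀ i, σ h (σ (h ^ i) (x : V)) = σ (h ^ (i + 1)) (x : V) := by
            intro i
            rw [pow_succ', map_mul]
            rfl
          simp only [h1]
          have h2 := Finset.sum_range_succ (fun i => σ (h ^ i) (x : V)) (orderOf h)
          have h3 := Finset.sum_range_succ' (fun i => σ (h ^ i) (x : V)) (orderOf h)
          rw [h2, pow_orderOf_eq_one, pow_zero] at h3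
          exact (add_right_cancel h3).symm
        rw [this, map_zero]
      simp only [hpow, Finset.sum_const, Finset.card_range] at hsum
      have hcop : (orderOf h).Coprime q := by
        rw [Nat.coprime_comm, Nat.Prime.coprime_iff_not_dvd hq]
        intro hd
        exact hqH (hd.trans (orderOf_dvd_natCard h))
      have h7 : addOrderOf v ∣ 1 := by
        rw [← hcop]
        exact Nat.dvd_gcd (addOrderOf_dvd_of_nsmul_eq_zero hsum) (addOrderOf_dvd_of_nsmul_eq_zero (q_smul σ v₀ q v))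
      exact AddMonoid.addOrderOf_eq_one_iff.1 (Nat.dvd_one.1 h7))
  exact ⟨L', i1, i2, K', h1, h2⟩

end lattice

/-- the representation of a Frobenius complement as a homomorphism to endomorphisms -/
theorem rep {G : Type*} [Group G] [Finite G]
    (hFC : ∃ (L : Type) (_ : Group L) (_ : Finite L) (H : Subgroup L), Cfsg.IsFrobeniusComplement H ∧ Nonempty (G ≃* H)) :
    ∃ (n : ℕ) (σ : G →* Module.End (AlgebraicClosure ℚ) (Fin n → AlgebraicClosure ℚ)), 0 < n ∧
      ∀ g : G, g ≠ 1 → ∀ v : Fin n → AlgebraicClosure ℚ, σ g v = v → v = 0 := by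
  obtain ⟨n, ρ, hn, -, -, hf⟩ := S3357.result hFC
  refine ⟨n, ((Matrix.toLinAlgEquiv' : Matrix (Fin n) (Fin n) (AlgebraicClosure ℚ) ≃ₐ[AlgebraicClosure ℚ] _) :
    Matrix (Fin n) (Fin n) (AlgebraicClosure ℚ) →* _).comp ((Units.coeHom _).comp ρ), hn, ?_⟩
  intro g hg v hv
  exact hf g hg v hv

theorem sub_compl {G H : Type*} [Group G] [Finite G] [Group H] [Finite H] [Nontrivial H]
    (hFC : ∃ (L : Type) (_ : Group L) (_ : Finite L) (H : Subgroup L), Cfsg.IsFrobeniusComplement H ∧ Nonempty (G ≃* H))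
    (j : H →* G) (hj : Function.Injective j) :
    ∃ (L : Type) (_ : Group L) (_ : Finite L) (C : Subgroup L), Cfsg.IsFrobeniusComplement C ∧ Nonempty (H ≃* C) := by
  obtain ⟨n, σ, hn, hf⟩ := rep hFC
  haveI : Nonempty (Fin n) := ⟨⟨0, hn⟩⟩
  obtain ⟨v₀, hv₀⟩ := exists_ne (0 : Fin n → AlgebraicClosure ℚ)
  refine main (σ.comp j) v₀ hv₀ ?_
  intro g hg v hv
  refine hf (j g) ?_ v hv
  intro h
  exact hg (hj (by rw [h, map_one]))

theorem prod_compl {A B : Type*} [Group A] [Finite A] [Nontrivial A] [Group B] [Finite B] [Nontrivial B]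
    (hA : ∃ (L : Type) (_ : Group L) (_ : Finite L) (H : Subgroup L), Cfsg.IsFrobeniusComplement H ∧ Nonempty (A ≃* H))
    (hB : ∃ (L : Type) (_ : Group L) (_ : Finite L) (H : Subgroup L), Cfsg.IsFrobeniusComplement H ∧ Nonempty (B ≃* H))
    (hcop : (Nat.card A).Coprime (Nat.card B)) :
    ∃ (L : Type) (_ : Group L) (_ : Finite L) (C : Subgroup L), Cfsg.IsFrobeniusComplement C ∧ Nonempty ((A × B) ≃* C) := by
  obtain ⟨n, α, hn, hα⟩ := rep hA
  obtain ⟨m, β, hm, hβ⟩ := rep hB
  haveI : Nonempty (Fin n) := ⟨⟨0, hn⟩⟩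
  haveI : Nonempty (Fin m) := ⟨⟨0, hm⟩⟩
  obtain ⟨K, hK⟩ : ∃ K, K = AlgebraicClosure ℚ := ⟨_, rfl⟩
  let σ : A × B →* Module.End (AlgebraicClosure ℚ) ((Fin n → AlgebraicClosure ℚ) ⊗[AlgebraicClosure ℚ] (Fin m → AlgebraicClosure ℚ)) :=
    { toFun := fun x => TensorProduct.map (α x.1) (β x.2)
      map_one' := by
        show TensorProduct.map (α 1) (β 1) = 1
        rw [map_one, map_one]
        exact TensorProduct.map_one
      map_mul' := fun x y => by
        show TensorProduct.map (α (x.1 * y.1)) (β (x.2 * y.2)) = _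
        rw [map_mul, map_mul]
        exact TensorProduct.map_mul _ _ _ _ }
  haveI : Nontrivial ((Fin n → AlgebraicClosure ℚ) ⊗[AlgebraicClosure ℚ] (Fin m → AlgebraicClosure ℚ)) := by
    rw [← Module.finrank_pos_iff (R := AlgebraicClosure ℚ), Module.finrank_tensorProduct]
    apply Nat.mul_pos
    · rw [Module.finrank_fin_fun]; exact hn
    · rw [Module.finrank_fin_fun]; exact hm
  obtain ⟨v₀, hv₀⟩ := exists_ne (0 : (Fin n → AlgebraicClosure ℚ) ⊗[AlgebraicClosure ℚ] (Fin m → AlgebraicClosure ℚ))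
  refine main σ v₀ hv₀ ?_
  have hA1 : ∀ a : A, a ≠ 1 → ∀ v, σ (a, 1) v = v → v = 0 := by
    intro a ha v hv
    have h1 : Function.Injective (LinearMap.rTensor (Fin m → AlgebraicClosure ℚ) (α a - 1)) := by
      apply Module.Flat.rTensor_preserves_injective_linearMap
      rw [← LinearMap.ker_eq_bot, LinearMap.ker_eq_bot']
      intro w hw
      apply hα a ha w
      rw [LinearMap.sub_apply] at hw
      exact sub_eq_zero.1 hw
    have h2 : LinearMap.rTensor (Fin m → AlgebraicClosure ℚ) (α a - 1) v = 0 := by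
      rw [LinearMap.rTensor_sub, LinearMap.sub_apply]
      have e1 : LinearMap.rTensor (Fin m → AlgebraicClosure ℚ) (α a) v = σ (a, 1) v := by
        show _ = TensorProduct.map (α a) (β 1) v
        rw [map_one]
        rfl
      have e2 : LinearMap.rTensor (Fin m → AlgebraicClosure ℚ) (1 : Module.End (AlgebraicClosure ℚ) (Fin n → AlgebraicClosure ℚ)) v = v := by
        show TensorProduct.map 1 1 v = v
        rw [TensorProduct.map_one]
        rfl
      rw [e1, e2, hv, sub_self]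
    exact h1 (by rw [h2, map_zero])
  have hB1 : ∀ b : B, b ≠ 1 → ∀ v, σ (1, b) v = v → v = 0 := by
    intro b hb v hv
    have h1 : Function.Injective (LinearMap.lTensor (Fin n → AlgebraicClosure ℚ) (β b - 1)) := by
      apply Module.Flat.lTensor_preserves_injective_linearMap
      rw [← LinearMap.ker_eq_bot, LinearMap.ker_eq_bot']
      intro w hw
      apply hβ b hb w
      rw [LinearMap.sub_apply] at hw
      exact sub_eq_zero.1 hw
    have h2 : LinearMap.lTensor (Fin n → AlgebraicClosure ℚ) (β b - 1) v = 0 := by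
      rw [LinearMap.lTensor_sub, LinearMap.sub_apply]
      have e1 : LinearMap.lTensor (Fin n → AlgebraicClosure ℚ) (β b) v = σ (1, b) v := by
        show _ = TensorProduct.map (α 1) (β b) v
        rw [map_one]
        rfl
      have e2 : LinearMap.lTensor (Fin n → AlgebraicClosure ℚ) (1 : Module.End (AlgebraicClosure ℚ) (Fin m → AlgebraicClosure ℚ)) v = v := by
        show TensorProduct.map 1 1 v = v
        rw [TensorProduct.map_one]
        rfl
      rw [e1, e2, hv, sub_self]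
    exact h1 (by rw [h2, map_zero])
  rintro ⟨a, b⟩ hab v hv
  have hpow : ∀ k : ℕ, σ ((a, b) ^ k) v = v := by
    intro k
    induction k with
    | zero => rw [pow_zero, map_one]; rfl
    | succ k ih =>
      rw [pow_succ, map_mul]
      show σ ((a, b) ^ k) (σ (a, b) v) = v
      rw [hv, ih]
  by_cases ha : a = 1
  · refine hB1 b ?_ v ?_
    · rintro rfl
      exact hab (by rw [ha]; rfl)
    · rw [ha] at hv
      exact hv
  · refine hA1 (a ^ Nat.card B) ?_ v ?_
    · intro h
      apply ha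
      have h1 : orderOf a ∣ 1 := by
        rw [← hcop]
        exact Nat.dvd_gcd (orderOf_dvd_natCard a) (orderOf_dvd_of_pow_eq_one h)
      exact orderOf_eq_one_iff.1 (Nat.dvd_one.1 h1)
    · have h1 := hpow (Nat.card B)
      have h2 : ((a, b) : A × B) ^ Nat.card B = (a ^ Nat.card B, 1) := by
        rw [Prod.pow_mk, pow_card_eq_one']
      rw [h2] at h1
      exact h1

theorem coprime_of {A B : Type*} [Group A] [Finite A] [Group B] [Finite B]
    (hFC : ∃ (L : Type) (_ : Group L) (_ : Finite L) (H : Subgroup L), Cfsg.IsFrobeniusComplement H ∧ Nonempty ((A × B) ≃* H)) :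
    (Nat.card A).Coprime (Nat.card B) := by
  obtain ⟨L, _, _, C, hC, ⟨e⟩⟩ := hFC
  rw [Nat.coprime_iff_gcd_eq_one]
  by_contra hg
  obtain ⟨p, hp, hpg⟩ := Nat.exists_prime_and_dvd hg
  haveI : Fact p.Prime := ⟨hp⟩
  obtain ⟨a, ha⟩ := exists_prime_orderOf_dvd_card' p (hpg.trans (Nat.gcd_dvd_left _ _))
  obtain ⟨b, hb⟩ := exists_prime_orderOf_dvd_card' p (hpg.trans (Nat.gcd_dvd_right _ _))
  -- the subgroup generated by a and b
  let j : A × B →* L := C.subtype.comp e.toMonoidHom
  have hj : Function.Injective j := C.subtype_injective.comp e.injective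
  let S : Subgroup (A × B) := (Subgroup.zpowers a).prod (Subgroup.zpowers b)
  have hSc : Nat.card S = p * p := by
    rw [Nat.card_congr (Subgroup.prodEquiv (Subgroup.zpowers a) (Subgroup.zpowers b)).toEquiv, Nat.card_prod]
    rw [Nat.card_zpowers, Nat.card_zpowers, ha, hb]
  have hcomm : ∀ x ∈ S, ∀ y ∈ S, x * y = y * x := by
    rintro ⟨x1, x2⟩ ⟨hx1, hx2⟩ ⟨y1, y2⟩ ⟨hy1, hy2⟩
    obtain ⟨i, rfl⟩ := Subgroup.mem_zpowers_iff.1 hx1
    obtain ⟨k, rfl⟩ := Subgroup.mem_zpowers_iff.1 hy1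
    obtain ⟨l, rfl⟩ := Subgroup.mem_zpowers_iff.1 hx2
    obtain ⟨m, rfl⟩ := Subgroup.mem_zpowers_iff.1 hy2
    exact Prod.ext (zpow_mul_comm a i k) (zpow_mul_comm b l m)
  have hexp : ∀ x ∈ S, x ^ p = 1 := by
    rintro ⟨x1, x2⟩ ⟨hx1, hx2⟩
    obtain ⟨i, rfl⟩ := Subgroup.mem_zpowers_iff.1 hx1
    obtain ⟨l, rfl⟩ := Subgroup.mem_zpowers_iff.1 hx2
    rw [Prod.pow_mk]
    refine Prod.ext ?_ ?_
    · show (a ^ i) ^ p = 1
      rw [← zpow_natCast, ← zpow_mul, mul_comm, zpow_mul, zpow_natCast, ← ha, pow_orderOf_eq_one, one_zpow]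
    · show (b ^ l) ^ p = 1
      rw [← zpow_natCast, ← zpow_mul, mul_comm, zpow_mul, zpow_natCast, ← hb, pow_orderOf_eq_one, one_zpow]
  have hcyc : IsCyclic (S.map j) := by
    refine H25.frob_isCyclic_of_comm hC ?_ ?_
    · rintro _ ⟨x, -, rfl⟩
      exact (e x).2
    · refine ⟨⟨?_⟩⟩
      rintro ⟨_, x, hx, rfl⟩ ⟨_, y, hy, rfl⟩
      apply Subtype.ext
      show j x * j y = j y * j x
      rw [← map_mul, ← map_mul, hcomm x hx y hy]
  obtain ⟨g, hg⟩ := hcyc.exists_ofOrder_eq_natCard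
  have h1 : g ^ p = 1 := by
    obtain ⟨x, hx, hxg⟩ := g.2
    apply Subtype.ext
    show (g : L) ^ p = 1
    rw [← hxg, ← map_pow, hexp x hx, map_one]
  have h2 : orderOf g ≤ p := orderOf_le_of_pow_eq_one hp.pos h1
  rw [hg, Subgroup.card_map_of_injective hj, hSc] at h2
  nlinarith [hp.one_lt]

/-- Let A and B be nontrivial finite groups. Then the direct product A × B occurs as a Frobenius complement if and only if A and B both occur as Frobenius complements and the orders of A and B are coprime. -/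
theorem result {A B : Type*} [Group A] [Finite A] [Nontrivial A] [Group B] [Finite B] [Nontrivial B] :
    (∃ (L : Type) (_ : Group L) (_ : Finite L) (H : Subgroup L), Cfsg.IsFrobeniusComplement H ∧ Nonempty ((A × B) ≃* H)) ↔
    ((∃ (L : Type) (_ : Group L) (_ : Finite L) (H : Subgroup L), Cfsg.IsFrobeniusComplement H ∧ Nonempty (A ≃* H)) ∧
     (∃ (L : Type) (_ : Group L) (_ : Finite L) (H : Subgroup L), Cfsg.IsFrobeniusComplement H ∧ Nonempty (B ≃* H)) ∧
     (Nat.card A).Coprime (Nat.card B)) := by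
  constructor
  · intro h
    refine ⟨sub_compl h (MonoidHom.inl A B) (fun x y hxy => congrArg Prod.fst hxy),
      sub_compl h (MonoidHom.inr A B) (fun x y hxy => congrArg Prod.snd hxy), coprime_of h⟩
  · rintro ⟨hA, hB, hcop⟩
    exact prod_compl hA hB hcop

end Cfsg.Agent.S4292
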