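import Cfsg.Statements.S4293
import Cfsg.Agent.H25.FrobExt2

set_option autoImplicit false
open Cfsg

namespace Cfsg.Agent.S4293

theorem exists_prime {D : Type*} [DivisionRing D] (H : Subgroup Dˣ) [Finite H] :
    ∃ q : ℕ, q.Prime ∧ ¬ q ∣ Nat.card H ∧ ∀ r : ℤ, (r : D) = 0 → (q : ℤ) ∣ r := by
  obtain ⟨p, hp⟩ := CharP.exists D
  rcases CharP.char_is_prime_or_zero D p with hpp | rfl
  · refine ⟨p, hpp, ?_, fun r hr => (CharP.intCast_eq_zero_iff D p r).1 hr⟩
    intro hd
    haveI : Fact p.Prime := ⟨hpp⟩
    obtain ⟨x, hx⟩ := exists_prime_orderOf_dvd_card' p hd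
    have h1 : x ^ p = 1 := hx ▸ pow_orderOf_eq_one x
    have h2 : (((x : Dˣ) : D)) ^ p = 1 := by
      have := congrArg (fun y : H => ((y : Dˣ) : D)) h1
      simpa using this
    have h3 : (((x : Dˣ) : D) - 1) ^ p = 0 := by
      rw [sub_pow_char_of_commute p (Commute.one_right _), h2, one_pow, sub_self]
    have h4 : ((x : Dˣ) : D) = 1 := by
      rw [← sub_eq_zero]
      exact pow_eq_zero_iff hpp.ne_zero |>.1 h3
    have h5 : x = 1 := Subtype.ext (Units.ext h4)
    rw [h5, orderOf_one] at hx
    exact hpp.one_lt.ne hx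
  · haveI : CharZero D := CharP.charP_to_charZero D
    obtain ⟨q, hq, hqp⟩ := Nat.exists_infinite_primes (Nat.card H + 1)
    refine ⟨q, hqp, fun h => ?_, fun r hr => ?_⟩
    · have := Nat.le_of_dvd Nat.card_pos h
      omega
    · rw [Int.cast_eq_zero.1 hr]
      exact dvd_zero _

variable {D : Type*} [DivisionRing D] (H : Subgroup Dˣ)

/-- the lattice spanned by `H` -/
def lat : Submodule ℤ D := Submodule.span ℤ (Set.range (fun h : H => ((h : Dˣ) : D)))

theorem mul_mem_lat (h : H) (x : D) (hx : x ∈ lat H) : ((h : Dˣ) : D) * x ∈ lat H := by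
  have h1 : (lat H).map (LinearMap.mulLeft ℤ ((h : Dˣ) : D)) ≤ lat H := by
    rw [lat, Submodule.map_span, Submodule.span_le]
    rintro _ ⟨_, ⟨k, rfl⟩, rfl⟩
    apply Submodule.subset_span
    exact ⟨h * k, by simp⟩
  exact h1 ⟨x, hx, rfl⟩

/-- left multiplication on the lattice -/
def L (h : H) : lat H →ₗ[ℤ] lat H :=
  (LinearMap.mulLeft ℤ ((h : Dˣ) : D)).restrict (fun x hx => mul_mem_lat H h x hx)

theorem L_coe (h : H) (x : lat H) : ((L H h x : lat H) : D) = ((h : Dˣ) : D) * x := rfl

/-- the sublattice `q L` -/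
def qlat (q : ℕ) : Submodule ℤ (lat H) := (Ideal.span {(q : ℤ)}) • (⊤ : Submodule ℤ (lat H))

theorem L_mem (q : ℕ) (h : H) : qlat H q ≤ (qlat H q).comap (L H h) := by
  rw [← Submodule.map_le_iff_le_comap, qlat, Submodule.map_smul'']
  exact Submodule.smul_mono le_rfl le_top

/-- the action on `L / q L` -/
def ρ (q : ℕ) : H →* AddMonoid.End (lat H ⧸ qlat H q) where
  toFun h := ((qlat H q).mapQ (qlat H q) (L H h) (L_mem H q h)).toAddMonoidHom
  map_one' := by
    ext1 v
    obtain ⟨x, rfl⟩ := Submodule.Quotient.mk_surjective _ v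
    show (qlat H q).mapQ (qlat H q) (L H 1) (L_mem H q 1) (Submodule.Quotient.mk x) =
      Submodule.Quotient.mk x
    rw [Submodule.mapQ_apply]
    congr 1
    apply Subtype.ext
    rw [L_coe]
    simp
  map_mul' a b := by
    ext1 v
    obtain ⟨x, rfl⟩ := Submodule.Quotient.mk_surjective _ v
    show (qlat H q).mapQ (qlat H q) (L H (a * b)) (L_mem H q _) (Submodule.Quotient.mk x) =
      (qlat H q).mapQ (qlat H q) (L H a) (L_mem H q a)
        ((qlat H q).mapQ (qlat H q) (L H b) (L_mem H q b) (Submodule.Quotient.mk x))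
    rw [Submodule.mapQ_apply, Submodule.mapQ_apply, Submodule.mapQ_apply]
    congr 1
    apply Subtype.ext
    rw [L_coe, L_coe, L_coe]
    simp [mul_assoc]

theorem ρ_mk (q : ℕ) (h : H) (x : lat H) :
    ρ H q h (Submodule.Quotient.mk x) = Submodule.Quotient.mk (L H h x) := rfl

theorem q_smul (q : ℕ) (v : lat H ⧸ qlat H q) : q • v = 0 := by
  obtain ⟨x, rfl⟩ := Submodule.Quotient.mk_surjective _ v
  rw [← Submodule.Quotient.mk_smul, Submodule.Quotient.mk_eq_zero]
  have : q • x = (q : ℤ) • x := by simp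
  rw [this]
  exact Submodule.smul_mem_smul (Ideal.mem_span_singleton_self _) trivial

/-- A nontrivial finite subgroup of the multiplicative group of a division ring occurs as a Frobenius complement of some finite Frobenius group. -/
theorem result {D : Type*} [DivisionRing D] (H : Subgroup Dˣ) [Finite H] (hH : H ≠ ⊥) :
    ∃ (L : Type) (_ : Group L) (_ : Finite L) (C : Subgroup L), Cfsg.IsFrobeniusComplement C ∧ Nonempty (H ≃* C) := by
  obtain ⟨q, hq, hqH, hqD⟩ := exists_prime H
  haveI : Module.Finite ℤ (lat H) :=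
    Module.Finite.iff_fg.2 (Submodule.fg_span (Set.finite_range _))
  haveI hfin : Finite (lat H ⧸ qlat H q) := by
    haveI : Module.Finite ℤ (lat H ⧸ qlat H q) := inferInstance
    apply Module.finite_of_fg_torsion
    intro v
    exact ⟨⟨(q : ℤ), mem_nonZeroDivisors_of_ne_zero (by exact_mod_cast hq.ne_zero)⟩, by
      have := q_smul H q v
      rw [← natCast_zsmul] at this
      exact this⟩
  haveI hnt : Nontrivial (lat H ⧸ qlat H q) := by
    rw [Submodule.Quotient.nontrivial_iff]
    intro htop
    obtain ⟨r, hr1, hr2⟩ := Submodule.exists_sub_one_mem_and_smul_eq_zero_of_fg_of_le_smul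
      (Ideal.span {(q : ℤ)}) (⊤ : Submodule ℤ (lat H)) (Module.Finite.fg_top) (by
        show ⊤ ≤ qlat H q
        rw [htop])
    have h1 : (1 : D) ∈ lat H := Submodule.subset_span ⟨1, by simp⟩
    have h2 := congrArg (fun x : lat H => (x : D)) (hr2 ⟨1, h1⟩ trivial)
    have h3 : (r : D) = 0 := by
      simpa using h2
    have h4 := hqD r h3
    rw [Ideal.mem_span_singleton] at hr1
    have h5 : (q : ℤ) ∣ 1 := by
      have := dvd_sub h4 hr1
      simpa using this
    have h6 : q ∣ 1 := by exact_mod_cast h5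
    exact hq.one_lt.ne' (Nat.dvd_one.1 h6)
  haveI : Nontrivial H := (Subgroup.nontrivial_iff_ne_bot H).2 hH
  obtain ⟨L', i1, i2, K, h1, h2, -⟩ := H25.frobExt_distrib (H := H) (M := lat H ⧸ qlat H q)
    inferInstance hnt (ρ H q) (by
      intro h hh v hv
      have hpow : ∀ i : ℕ, ρ H q (h ^ i) v = v := by
        intro i
        induction i with
        | zero => rw [pow_zero, map_one]; rfl
        | succ i ih =>
          rw [pow_succ, map_mul]
          show ρ H q (h ^ i) (ρ H q h v) = v
          rw [hv, ih]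
      have hsum : ∑ i ∈ Finset.range (orderOf h), ρ H q (h ^ i) v = 0 := by
        obtain ⟨x, rfl⟩ := Submodule.Quotient.mk_surjective _ v
        simp only [ρ_mk]
        have e1 : ∀ y : lat H, (Submodule.Quotient.mk y : lat H ⧸ qlat H q) = (qlat H q).mkQ y :=
          fun y => rfl
        simp only [e1]
        rw [← map_sum]
        have : ∑ i ∈ Finset.range (orderOf h), L H (h ^ i) x = 0 := by
          apply Subtype.ext
          rw [Submodule.coe_sum]
          simp only [L_coe]
          rw [← Finset.sum_mul]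
          have h0 : ∑ i ∈ Finset.range (orderOf h), (((h ^ i : H) : Dˣ) : D) = 0 := by
            have h1 : (((h : Dˣ) : D) - 1) * ∑ i ∈ Finset.range (orderOf h), (((h ^ i : H) : Dˣ) : D) = 0 := by
              have : ∀ i, (((h ^ i : H) : Dˣ) : D) = ((h : Dˣ) : D) ^ i := by intro i; simp
              simp only [this]
              rw [mul_geom_sum]
              rw [← this, pow_orderOf_eq_one]
              simp
            rcases mul_eq_zero.1 h1 with h2 | h2
            · exfalso
              apply hh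
              exact Subtype.ext (Units.ext (by simpa using sub_eq_zero.1 h2))
            · exact h2
          rw [h0, zero_mul]
          rfl
        rw [this, map_zero]
      simp only [hpow, Finset.sum_const, Finset.card_range] at hsum
      have hcop : (orderOf h).Coprime q := by
        rw [Nat.coprime_comm, Nat.Prime.coprime_iff_not_dvd hq]
        intro hd
        exact hqH (hd.trans (orderOf_dvd_natCard h))
      have h7 : addOrderOf v ∣ 1 := by
        rw [← hcop]
        exact Nat.dvd_gcd (addOrderOf_dvd_of_nsmul_eq_zero hsum) (addOrderOf_dvd_of_nsmul_eq_zero (q_smul H q v))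
      exact AddMonoid.addOrderOf_eq_one_iff.1 (Nat.dvd_one.1 h7))
  exact ⟨L', i1, i2, K, h1, h2⟩

end Cfsg.Agent.S4293
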