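import Cfsg.Statements.S4295
import Cfsg.Agent.H25.FrobExt3
import Cfsg.Agent.H25.QuatSquare

set_option autoImplicit false
open Cfsg

namespace Cfsg.Agent.S4295

open Cfsg.Agent.H25

theorem fpf_prime (p : ℕ) [Fact p.Prime] (hp2 : p ≠ 2) : FpfCard (QuaternionGroup 2) (p ^ 2) := by
  obtain ⟨α, β, hab⟩ := ZMod.sq_add_sq p (-1)
  let A : Matrix.SpecialLinearGroup (Fin 2) (ZMod p) :=
    ⟨!![0, 1; -1, 0], by simp [Matrix.det_fin_two_of]⟩
  let X : Matrix.SpecialLinearGroup (Fin 2) (ZMod p) :=
    ⟨!![α, β; β, -α], by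
      rw [Matrix.det_fin_two_of]
      linear_combination -hab⟩
  haveI hodd : Odd p := (Fact.out : p.Prime).odd_of_ne_two hp2
  have h21 : (-1 : ZMod p) ≠ 1 := by
    haveI : Fact (2 < p) := ⟨lt_of_le_of_ne (Fact.out : p.Prime).two_le (Ne.symm hp2)⟩
    exact ZMod.neg_one_ne_one
  have hA2 : A * A = ⟨!![-1, 0; 0, -1], by simp [Matrix.det_fin_two_of]⟩ := by
    apply Subtype.ext
    show !![(0 : ZMod p), 1; -1, 0] * !![0, 1; -1, 0] = !![-1, 0; 0, -1]
    simp
  have hX2 : X * X = A * A := by
    rw [hA2]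
    apply Subtype.ext
    show !![α, β; β, -α] * !![α, β; β, -α] = !![-1, 0; 0, -1]
    have h1 : α * α + β * β = -1 := by linear_combination hab
    have h2 : β * β + α * α = -1 := by linear_combination hab
    simp [Matrix.mul_fin_two, h1, h2, mul_comm β α]
  have hA4 : (A * A) * (A * A) = 1 := by
    rw [hA2]
    apply Subtype.ext
    show !![(-1 : ZMod p), 0; 0, -1] * !![-1, 0; 0, -1] = 1
    simp [Matrix.one_fin_two]
  have hAX : A * X = X * A⁻¹ := by
    rw [eq_mul_inv_iff_mul_eq]
    apply Subtype.ext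
    show !![(0 : ZMod p), 1; -1, 0] * !![α, β; β, -α] * !![0, 1; -1, 0] = !![α, β; β, -α]
    simp
  have hord : orderOf A = 2 * 2 := by
    have : orderOf A = 2 ^ (1 + 1) := by
      apply orderOf_eq_prime_pow
      · rw [pow_one, sq, hA2]
        intro h
        have := congrFun (congrFun (congrArg Subtype.val h) 0) 0
        exact h21 this
      · rw [show (2 : ℕ) ^ (1 + 1) = 2 + 2 from rfl, pow_add, sq]
        exact hA4
    exact this
  have hX : X ∉ Subgroup.zpowers A := by
    intro h
    obtain ⟨k, hk⟩ := h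
    have h1 : A * X = X * A := by
      rw [← hk]
      exact ((Commute.refl A).zpow_right k).eq
    rw [hAX] at h1
    have h2 : A⁻¹ = A := mul_left_cancel h1
    have h3 : A ^ 2 = 1 := by
      rw [sq]
      nth_rewrite 1 [← h2]
      exact inv_mul_cancel A
    have h4 := orderOf_dvd_of_pow_eq_one h3
    rw [hord] at h4
    omega
  haveI : NeZero (2 : ℕ) := ⟨by norm_num⟩
  have hA4' : A ^ (2 * 2) = 1 := by
    rw [← hord, pow_orderOf_eq_one]
  have hX2' : X * X = A ^ 2 := by rw [hX2, sq]
  obtain ⟨ρ, hρ⟩ := frobExt_sl2_rep (quatLift 2 A X hA4' hX2' hAX)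
    (quatLift_injective 2 A X hA4' hX2' hAX hord hX) (by
      rw [Nat.card_eq_fintype_card, QuaternionGroup.card]
      exact (Nat.coprime_pow_left_iff (n := 3) (by norm_num) 2 p).2 ((Nat.coprime_primes Nat.prime_two
        (Fact.out : p.Prime)).2 (Ne.symm hp2)))
  refine ⟨Fin 2 → ZMod p, inferInstance, inferInstance, ρ, hρ, ?_⟩
  rw [Nat.card_eq_fintype_card, Fintype.card_fun, ZMod.card, Fintype.card_fin]

theorem fpf_sq (m : ℕ) : Odd m → FpfCard (QuaternionGroup 2) (m ^ 2) := by
  induction m using induction_on_primes with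
  | zero => intro h; exact absurd h (by decide)
  | one => intro _; exact FpfCard.one _
  | prime_mul p a hp ih =>
    intro h
    rw [Nat.odd_mul] at h
    rw [mul_pow]
    haveI : Fact p.Prime := ⟨hp⟩
    refine FpfCard.mul (fpf_prime p ?_) (ih h.2)
    rintro rfl
    exact absurd h.1 (by decide)

/-- For a natural number m the following are equivalent: (a) some finite group has a Frobenius complement isomorphic to the quaternion group of order 8 whose Frobenius kernel (the identity together with the elements lying in no conjugate of the complement) has exactly m elements; (b) m is an odd perfect square greater than 1. -/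
theorem result (m : ℕ) :
    (∃ (L : Type) (_ : Group L) (_ : Finite L) (H : Subgroup L), Cfsg.IsFrobeniusComplement H ∧
        Nonempty (H ≃* QuaternionGroup 2) ∧ Nat.card (Cfsg.frobeniusKernel H) = m) ↔
    (Odd m ∧ IsSquare m ∧ 1 < m) := by
  constructor
  · rintro ⟨L, _, _, H, hH, ⟨e⟩, rfl⟩
    have h1 : ∀ x y : QuaternionGroup 2, ((e.symm (x * y) : H) : L) = (e.symm x : L) * (e.symm y : L) := by
      intro x y
      rw [map_mul, Subgroup.coe_mul]
    have hz : ((e.symm (.a 2) : H) : L) ≠ 1 := by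
      intro h
      have h2 : e.symm (.a 2) = 1 := Subtype.ext h
      have h3 : (QuaternionGroup.a 2 : QuaternionGroup 2) = 1 := by
        rw [← e.apply_symm_apply (.a 2), h2, map_one]
      exact absurd h3 (by decide)
    have key := frob_quat_square H hH (i := (e.symm (.a 1) : L)) (j := (e.symm (.xa 0) : L))
      (z := (e.symm (.a 2) : L)) (SetLike.coe_mem _) (SetLike.coe_mem _) hz
      (by rw [← h1, QuaternionGroup.a_mul_a, show (2 + 2 : ZMod (2 * 2)) = 0 from by decide,
        QuaternionGroup.a_zero, map_one]; rfl)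
      (by rw [← h1, QuaternionGroup.a_mul_a]; rfl)
      (by rw [← h1, QuaternionGroup.xa_mul_xa]; rfl)
      (by rw [← h1, ← h1, ← h1]; rfl)
    refine ⟨key.1, key.2, ?_⟩
    rw [H1.frob_card_kernel hH]
    have h2 : H.index ≠ 1 := by
      intro h
      exact hH.2.1 (Subgroup.index_eq_one.1 h)
    have h3 : H.index ≠ 0 := Subgroup.index_ne_zero_of_finite
    omega
  · rintro ⟨h1, ⟨k, rfl⟩, h2⟩
    have hk : Odd k := (Nat.odd_mul.1 h1).1
    obtain ⟨L, i1, i2, K, hK, ⟨e⟩, hc⟩ := FpfCard.exists_frob (H := QuaternionGroup 2) (m := k * k)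
      (by rw [← sq]; exact fpf_sq k hk) h2
    exact ⟨L, i1, i2, K, hK, ⟨e.symm⟩, hc⟩

end Cfsg.Agent.S4295
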