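import Cfsg.Statements.S4296
import Cfsg.Agent.H25.FrobSylow
import Cfsg.Agent.H25.QuatSquare

set_option autoImplicit false
open Cfsg

namespace Cfsg.Agent.S4296

open Cfsg.Agent.H25

/-- Let H be a Frobenius complement in a finite group, and suppose some Sylow subgroup of H is not cyclic. Then the number of elements of the Frobenius kernel (the identity together with the elements lying in no conjugate of H) is an odd perfect square. -/
theorem result {L : Type*} [Group L] [Finite L] (H : Subgroup L) (hF : Cfsg.IsFrobeniusComplement H)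
    (hZ : ∃ (p : ℕ) (_ : Fact p.Prime) (P : Sylow p H), ¬ IsCyclic P) :
    Odd (Nat.card (Cfsg.frobeniusKernel H)) ∧ IsSquare (Nat.card (Cfsg.frobeniusKernel H)) := by
  obtain ⟨p, hp, P, hP⟩ := hZ
  rcases frob_pgroup hF P.isPGroup' (H.subtype.comp (P : Subgroup H).subtype)
    (H.subtype_injective.comp (P : Subgroup H).subtype_injective) (fun x => SetLike.coe_mem _) with h | ⟨-, n, hn, ⟨e⟩⟩
  · exact absurd h hP
  let F : QuaternionGroup (2 ^ n) →* L :=
    (H.subtype.comp (P : Subgroup H).subtype).comp e.symm.toMonoidHom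
  have hFinj : Function.Injective F :=
    (H.subtype_injective.comp (P : Subgroup H).subtype_injective).comp e.symm.injective
  have hFH : ∀ x, F x ∈ H := fun x => SetLike.coe_mem _
  obtain ⟨k, rfl⟩ : ∃ k, n = k + 1 := ⟨n - 1, by omega⟩
  have hk : ((2 ^ k : ℕ) : ZMod (2 * 2 ^ (k + 1))) + ((2 ^ k : ℕ) : ZMod (2 * 2 ^ (k + 1))) =
      ((2 ^ (k + 1) : ℕ) : ZMod (2 * 2 ^ (k + 1))) := by
    rw [← Nat.cast_add]
    congr 1
    ring
  have hk2 : ((2 ^ (k + 1) : ℕ) : ZMod (2 * 2 ^ (k + 1))) + ((2 ^ (k + 1) : ℕ) : ZMod (2 * 2 ^ (k + 1))) = 0 := by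
    rw [← Nat.cast_add, ← two_mul, ZMod.natCast_self]
  refine frob_quat_square H hF (i := F (.a ((2 ^ k : ℕ) : ZMod (2 * 2 ^ (k + 1)))))
    (j := F (.xa 0)) (z := F (.a ((2 ^ (k + 1) : ℕ) : ZMod (2 * 2 ^ (k + 1)))))
    (hFH _) (hFH _) ?_ ?_ ?_ ?_ ?_
  · intro h
    have h1 := hFinj (h.trans (map_one F).symm)
    rw [← QuaternionGroup.a_zero] at h1
    injection h1 with h2
    rw [ZMod.natCast_eq_zero_iff] at h2
    have := Nat.le_of_dvd (by positivity) h2
    have : 0 < 2 ^ (k + 1) := by positivity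
    omega
  · rw [← map_mul, QuaternionGroup.a_mul_a, hk2, QuaternionGroup.a_zero, map_one]
  · rw [← map_mul, QuaternionGroup.a_mul_a, hk]
  · rw [← map_mul, QuaternionGroup.xa_mul_xa, add_zero, sub_zero]
  · rw [← map_mul, ← map_mul, ← map_mul, QuaternionGroup.a_mul_xa, QuaternionGroup.xa_mul_a,
      QuaternionGroup.a_mul_xa, zero_sub, zero_add, ← hk]
    congr 2
    ring

end Cfsg.Agent.S4296
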