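import Cfsg.Statements.S4297
import Cfsg.Agent.H25.FrobExt2

set_option autoImplicit false
open Cfsg

namespace Cfsg.Agent.S4297

variable {q n : ℕ} [Fact q.Prime]

/-- the image of `QuaternionGroup n` in SL(2,q) -/
def f (z : ZMod (2 * n) → ZMod q) : QuaternionGroup n → Matrix (Fin 2) (Fin 2) (ZMod q)
  | .a i => !![z i, 0; 0, z (-i)]
  | .xa i => !![0, z (-i); -z i, 0]

theorem det_f (z : ZMod (2 * n) → ZMod q) (hz1 : z 0 = 1)
    (hz : ∀ i j, z (i + j) = z i * z j) (x : QuaternionGroup n) : (f z x).det = 1 := by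
  have hneg : ∀ i, z i * z (-i) = 1 := by
    intro i
    rw [← hz, add_neg_cancel, hz1]
  cases x with
  | a i => simp [f, Matrix.det_fin_two_of, hneg]
  | xa i => simp [f, Matrix.det_fin_two_of, hneg, mul_comm]

theorem f_mul (z : ZMod (2 * n) → ZMod q) (hz1 : z 0 = 1) (hz : ∀ i j, z (i + j) = z i * z j)
    (hn : z n = -1) (x y : QuaternionGroup n) : f z (x * y) = f z x * f z y := by
  have hn' : z (-n) = -1 := by
    have : z n * z (-n) = 1 := by rw [← hz, add_neg_cancel, hz1]
    rw [hn] at this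
    linear_combination -this
  cases x with
  | a i =>
    cases y with
    | a j =>
      rw [QuaternionGroup.a_mul_a]
      simp [f, hz, Matrix.mul_fin_two, neg_add, -neg_add_rev]
    | xa j =>
      rw [QuaternionGroup.a_mul_xa]
      simp [f, hz, Matrix.mul_fin_two, sub_eq_add_neg, mul_comm]
  | xa i =>
    cases y with
    | a j =>
      rw [QuaternionGroup.xa_mul_a]
      simp [f, hz, Matrix.mul_fin_two, mul_comm]
    | xa j =>
      rw [QuaternionGroup.xa_mul_xa]
      simp [f, hz, hn, hn', Matrix.mul_fin_two, sub_eq_add_neg, mul_comm]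

/-- For every n ≥ 2 the dicyclic group of order 4n (generated by an element a of order 2n and an element x with x² = aⁿ and x a x⁻¹ = a⁻¹) occurs as a Frobenius complement of some finite Frobenius group. -/
theorem result (n : ℕ) (hn : 2 ≤ n) :
    ∃ (L : Type) (_ : Group L) (_ : Finite L) (H : Subgroup L), Cfsg.IsFrobeniusComplement H ∧ Nonempty (H ≃* QuaternionGroup n) := by
  obtain ⟨q, hq, hlt, hmod⟩ := Nat.exists_prime_gt_modEq_one (k := 4 * n) (4 * n) (by omega)
  haveI : Fact q.Prime := ⟨hq⟩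
  haveI : NeZero n := ⟨by omega⟩
  have hdvd : 2 * n ∣ q - 1 := by
    have := (Nat.modEq_iff_dvd' hq.one_le).1 hmod.symm
    exact dvd_trans ⟨2, by ring⟩ this
  obtain ⟨g, hg⟩ := IsCyclic.exists_ofOrder_eq_natCard (α := (ZMod q)ˣ)
  rw [Nat.card_eq_fintype_card, ZMod.card_units] at hg
  obtain ⟨m, hm⟩ := hdvd
  have hm0 : m ≠ 0 := by
    rintro rfl
    have := hq.two_le
    omega
  have hζ : orderOf (g ^ m) = 2 * n := by
    rw [orderOf_pow_of_dvd hm0 (by rw [hg, hm]; exact Dvd.intro_left _ rfl), hg, hm]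
    exact Nat.mul_div_cancel _ (Nat.pos_of_ne_zero hm0)
  set ζ := g ^ m with hζd
  let z : ZMod (2 * n) → ZMod q := fun i => ((ζ ^ i.val : (ZMod q)ˣ) : ZMod q)
  haveI : NeZero (2 * n) := ⟨by omega⟩
  have hz : ∀ i j, z (i + j) = z i * z j := by
    intro i j
    show ((ζ ^ (i + j).val : (ZMod q)ˣ) : ZMod q) = ((ζ ^ i.val : (ZMod q)ˣ) : ZMod q) *
      ((ζ ^ j.val : (ZMod q)ˣ) : ZMod q)
    rw [ZMod.val_add, ← Units.val_mul, ← pow_add]
    congr 1
    generalize i.val + j.val = k
    rw [← hζ]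
    exact pow_mod_orderOf _ _
  have hz1 : z 0 = 1 := by
    show ((ζ ^ (0 : ZMod (2 * n)).val : (ZMod q)ˣ) : ZMod q) = 1
    rw [ZMod.val_zero, pow_zero, Units.val_one]
  have hzn : z n = -1 := by
    have h1 : ((n : ZMod (2 * n))).val = n := by
      rw [ZMod.val_natCast, Nat.mod_eq_of_lt (by omega)]
    show ((ζ ^ ((n : ZMod (2 * n))).val : (ZMod q)ˣ) : ZMod q) = -1
    rw [h1]
    have h2 : (ζ ^ n) ^ 2 = 1 := by
      rw [← pow_mul, mul_comm, ← hζ, pow_orderOf_eq_one]
    have h3 : ζ ^ n ≠ 1 := by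
      intro h
      have := orderOf_dvd_of_pow_eq_one h
      rw [hζ] at this
      have := Nat.le_of_dvd (by omega) this
      omega
    have h4 : ((ζ ^ n : (ZMod q)ˣ) : ZMod q) ^ 2 = 1 := by
      rw [← Units.val_pow_eq_pow_val, h2, Units.val_one]
    rcases sq_eq_one_iff.1 h4 with h5 | h5
    · exact absurd (Units.ext h5) h3
    · exact h5
  have hzinj : ∀ i, z i = 1 → i = 0 := by
    intro i hi
    have h1 : ζ ^ i.val = 1 := Units.ext hi
    have h2 := orderOf_dvd_of_pow_eq_one h1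
    rw [hζ] at h2
    have h3 := Nat.eq_zero_of_dvd_of_lt h2 i.val_lt
    exact (ZMod.val_eq_zero i).1 h3
  let F : QuaternionGroup n →* Matrix.SpecialLinearGroup (Fin 2) (ZMod q) :=
    MonoidHom.mk' (fun x => ⟨f z x, det_f z hz1 hz x⟩)
      (fun x y => Subtype.ext (f_mul z hz1 hz hzn x y))
  have hF : Function.Injective F := by
    rw [injective_iff_map_eq_one]
    intro x hx
    have h00 : f z x 0 0 = 1 := congrFun (congrFun (congrArg Subtype.val hx) 0) 0
    cases x with
    | a i =>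
      have : z i = 1 := h00
      rw [hzinj i this]
      rfl
    | xa i =>
      have : (0 : ZMod q) = 1 := h00
      exact absurd this zero_ne_one
  have hc : Nat.card (QuaternionGroup n) = 4 * n := by
    rw [Nat.card_eq_fintype_card, QuaternionGroup.card]
  obtain ⟨L, i1, i2, K, h1, ⟨e⟩, -⟩ := H25.frobExt_sl2 (q := q) (H := QuaternionGroup n)
    inferInstance F hF (by
      rw [hc, Nat.coprime_comm]
      exact (Nat.Prime.coprime_iff_not_dvd hq).2 (fun h => absurd (Nat.le_of_dvd (by omega) h) (by omega)))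
  exact ⟨L, i1, i2, K, h1, ⟨e.symm⟩⟩

end Cfsg.Agent.S4297
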