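import Cfsg.Statements.S4298
import Cfsg.Agent.H25.FrobExt2

set_option autoImplicit false
open Cfsg

namespace Cfsg.Agent.S4298

/-- the table of an embedding of SL(2,3) in SL(2,5) -/
def tab : List ℕ := [126, 126, 126, 126, 126, 126, 126, 126, 126, 126, 126, 126, 126, 126, 126, 45, 537, 223, 126, 126, 126, 105, 557, 243, 126, 126, 126, 126, 126, 126, 126, 163, 126, 126, 491, 126, 126, 183, 126, 126, 126, 253, 349, 126, 126, 126, 471, 126, 369, 126, 126, 126, 126, 90, 126, 126, 504, 126, 126, 289, 126, 126, 617, 126, 126, 309, 126, 60, 126, 411, 126, 126, 126, 126, 597, 431, 126, 126, 126, 377, 126]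

def code (a b c d : ZMod 3) : ℕ := tab.getD (27 * a.val + 9 * b.val + 3 * c.val + d.val) 0

def e00 (a b c d : ZMod 3) : ZMod 5 := ((code a b c d / 125 : ℕ) : ZMod 5)
def e01 (a b c d : ZMod 3) : ZMod 5 := ((code a b c d / 25 : ℕ) : ZMod 5)
def e10 (a b c d : ZMod 3) : ZMod 5 := ((code a b c d / 5 : ℕ) : ZMod 5)
def e11 (a b c d : ZMod 3) : ZMod 5 := ((code a b c d : ℕ) : ZMod 5)

theorem det_one : ∀ a b c d : ZMod 3, a * d - b * c = 1 →
    e00 a b c d * e11 a b c d - e01 a b c d * e10 a b c d = 1 := by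
  decide +kernel

theorem inj : ∀ a b c d : ZMod 3, a * d - b * c = 1 → e00 a b c d = 1 → e01 a b c d = 0 →
    e10 a b c d = 0 → e11 a b c d = 1 → a = 1 ∧ b = 0 ∧ c = 0 ∧ d = 1 := by
  decide +kernel

theorem e_mul : ∀ a b c d a' b' c' d' : ZMod 3, a * d - b * c = 1 → a' * d' - b' * c' = 1 →
    (e00 (a * a' + b * c') (a * b' + b * d') (c * a' + d * c') (c * b' + d * d') =
      e00 a b c d * e00 a' b' c' d' + e01 a b c d * e10 a' b' c' d' ∧
    e01 (a * a' + b * c') (a * b' + b * d') (c * a' + d * c') (c * b' + d * d') =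
      e00 a b c d * e01 a' b' c' d' + e01 a b c d * e11 a' b' c' d' ∧
    e10 (a * a' + b * c') (a * b' + b * d') (c * a' + d * c') (c * b' + d * d') =
      e10 a b c d * e00 a' b' c' d' + e11 a b c d * e10 a' b' c' d' ∧
    e11 (a * a' + b * c') (a * b' + b * d') (c * a' + d * c') (c * b' + d * d') =
      e10 a b c d * e01 a' b' c' d' + e11 a b c d * e11 a' b' c' d') := by
  decide +kernel

theorem det' (M : Matrix.SpecialLinearGroup (Fin 2) (ZMod 3)) :
    M.1 0 0 * M.1 1 1 - M.1 0 1 * M.1 1 0 = 1 := by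
  have := M.2
  rwa [Matrix.det_fin_two] at this

/-- the embedding of matrices -/
def mk (M : Matrix (Fin 2) (Fin 2) (ZMod 3)) : Matrix (Fin 2) (Fin 2) (ZMod 5) :=
  !![e00 (M 0 0) (M 0 1) (M 1 0) (M 1 1),
      e01 (M 0 0) (M 0 1) (M 1 0) (M 1 1); e10 (M 0 0) (M 0 1) (M 1 0) (M 1 1),
      e11 (M 0 0) (M 0 1) (M 1 0) (M 1 1)]

theorem mk_mul (M N : Matrix (Fin 2) (Fin 2) (ZMod 3)) (hM : M 0 0 * M 1 1 - M 0 1 * M 1 0 = 1)
    (hN : N 0 0 * N 1 1 - N 0 1 * N 1 0 = 1) : mk (M * N) = mk M * mk N := by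
  obtain ⟨h1, h2, h3, h4⟩ := e_mul _ _ _ _ _ _ _ _ hM hN
  have hmul : ∀ i j, (M * N) i j = M i 0 * N 0 j + M i 1 * N 1 j := by
    intro i j
    rw [Matrix.mul_apply, Fin.sum_univ_two]
  simp only [← hmul] at h1 h2 h3 h4
  ext i j
  rw [Matrix.mul_apply, Fin.sum_univ_two]
  fin_cases i <;> fin_cases j <;> [exact h1; exact h2; exact h3; exact h4]

/-- the embedding of SL(2,3) in SL(2,5) -/
def emb : Matrix.SpecialLinearGroup (Fin 2) (ZMod 3) →* Matrix.SpecialLinearGroup (Fin 2) (ZMod 5) :=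
  MonoidHom.mk' (fun M => ⟨mk M.1, by
      rw [mk, Matrix.det_fin_two_of]; exact det_one _ _ _ _ (det' M)⟩) (by
    intro M N
    exact Subtype.ext (mk_mul M.1 N.1 (det' M) (det' N)))

/-- The group SL(2,3) of order 24 (the binary tetrahedral group) occurs as a Frobenius complement of some finite Frobenius group. -/
theorem result :
    ∃ (L : Type) (_ : Group L) (_ : Finite L) (H : Subgroup L), Cfsg.IsFrobeniusComplement H ∧ Nonempty (H ≃* Matrix.SpecialLinearGroup (Fin 2) (ZMod 3)) := by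
  have hinj : Function.Injective emb := by
    rw [injective_iff_map_eq_one]
    intro M hM
    have h00 := congrFun (congrFun (congrArg Subtype.val hM) 0) 0
    have h01 := congrFun (congrFun (congrArg Subtype.val hM) 0) 1
    have h10 := congrFun (congrFun (congrArg Subtype.val hM) 1) 0
    have h11 := congrFun (congrFun (congrArg Subtype.val hM) 1) 1
    obtain ⟨h1, h2, h3, h4⟩ := inj _ _ _ _ (det' M) h00 h01 h10 h11
    apply Subtype.ext
    ext i j
    fin_cases i <;> fin_cases j <;> [exact h1; exact h2; exact h3; exact h4]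
  haveI : Fact (Nat.Prime 5) := ⟨by norm_num⟩
  have hcard : Nat.card (Matrix.SpecialLinearGroup (Fin 2) (ZMod 3)) = 24 := by
    rw [Nat.card_eq_fintype_card]
    decide +kernel
  obtain ⟨L, i1, i2, K, h1, ⟨e⟩, -⟩ := H25.frobExt_sl2 (q := 5)
    (by
      rw [← Finite.one_lt_card_iff_nontrivial, hcard]
      norm_num) emb hinj (by rw [hcard]; norm_num)
  exact ⟨L, i1, i2, K, h1, ⟨e.symm⟩⟩

end Cfsg.Agent.S4298
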