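import Cfsg.Statements.S4299
import Cfsg.Agent.H25.FrobExt2

set_option autoImplicit false
open Cfsg

namespace Cfsg.Agent.S4299

/-- Every nontrivial finite cyclic group occurs as a Frobenius complement of some finite Frobenius group. -/
theorem result {C : Type*} [Group C] [Finite C] [IsCyclic C] [Nontrivial C] :
    ∃ (L : Type) (_ : Group L) (_ : Finite L) (H : Subgroup L), Cfsg.IsFrobeniusComplement H ∧ Nonempty (C ≃* H) := by
  have hc0 : Nat.card C ≠ 0 := Nat.card_pos.ne'
  obtain ⟨q, hq, hlt, hmod⟩ := Nat.exists_prime_gt_modEq_one (k := Nat.card C) 2 hc0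
  haveI : Fact q.Prime := ⟨hq⟩
  have hdvd : Nat.card C ∣ q - 1 := (Nat.modEq_iff_dvd' hq.one_le).1 hmod.symm
  obtain ⟨g, hg⟩ := IsCyclic.exists_ofOrder_eq_natCard (α := (ZMod q)ˣ)
  rw [Nat.card_eq_fintype_card, ZMod.card_units] at hg
  obtain ⟨m, hm⟩ := hdvd
  have hm0 : m ≠ 0 := by
    rintro rfl
    have := hq.two_le
    omega
  have hζ : orderOf (g ^ m) = Nat.card C := by
    rw [orderOf_pow_of_dvd hm0 (by rw [hg, hm]; exact Dvd.intro_left _ rfl), hg, hm]
    exact Nat.mul_div_cancel _ (Nat.pos_of_ne_zero hm0)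
  set ζ := g ^ m with hζd
  have e : C ≃* Subgroup.zpowers ζ := mulEquivOfCyclicCardEq (by rw [Nat.card_zpowers, hζ])
  let ρ : C →* AddMonoid.End (ZMod q) :=
    { toFun := fun c => AddMonoidHom.mulLeft ((e c : (ZMod q)ˣ) : ZMod q)
      map_one' := by
        rw [map_one]
        ext1 v
        show ((1 : (ZMod q)ˣ) : ZMod q) * v = v
        simp
      map_mul' := fun a b => by
        ext1 v
        rw [map_mul]
        show (((e a * e b : Subgroup.zpowers ζ) : (ZMod q)ˣ) : ZMod q) * v =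
          ((e a : (ZMod q)ˣ) : ZMod q) * (((e b : (ZMod q)ˣ) : ZMod q) * v)
        simp [mul_assoc] }
  obtain ⟨L, i1, i2, K, h1, h2, -⟩ := H25.frobExt_distrib (H := C) (M := ZMod q) inferInstance
    inferInstance ρ (by
      intro h hh v hv
      have h1 : ((e h : (ZMod q)ˣ) : ZMod q) * v = v := hv
      have h2 : (((e h : (ZMod q)ˣ) : ZMod q) - 1) * v = 0 := by rw [sub_mul, h1, one_mul, sub_self]
      rcases mul_eq_zero.1 h2 with h3 | h3
      · exfalso
        apply hh
        have h4 : (e h : (ZMod q)ˣ) = 1 := Units.ext (by rw [Units.val_one]; exact sub_eq_zero.1 h3)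
        have h5 : e h = 1 := Subtype.ext h4
        exact (map_eq_one_iff e e.injective).1 h5
      · exact h3)
  exact ⟨L, i1, i2, K, h1, h2⟩

end Cfsg.Agent.S4299
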