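import Cfsg.Statements.S4300

set_option autoImplicit false
open Cfsg

namespace Cfsg.Agent.S4300

/-- Let G act faithfully and primitively on a set X, and suppose the stabilizer of some point is a simple group. Then either G is simple, or G has a normal subgroup, neither trivial nor the whole group, that acts regularly on X (transitively with trivial point stabilizers). -/
theorem result {G : Type*} [Group G] {X : Type*} [MulAction G X] [FaithfulSMul G X]
    (hprim : MulAction.IsPreprimitive G X) (x : X) (hsimple : IsSimpleGroup (MulAction.stabilizer G x)) :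
    IsSimpleGroup G ∨ ∃ N : Subgroup G, N.Normal ∧ N ≠ ⊥ ∧ N ≠ ⊤ ∧
      MulAction.IsPretransitive N X ∧ ∀ y : X, MulAction.stabilizer N y = ⊥ := by
  by_cases hG : IsSimpleGroup G
  · exact Or.inl hG
  right
  haveI hnt : Nontrivial G := by
    obtain ⟨a, b, hab⟩ := hsimple.exists_pair_ne
    exact ⟨a, b, fun h => hab (Subtype.ext h)⟩
  obtain ⟨N, hN, hb, ht⟩ : ∃ N : Subgroup G, N.Normal ∧ N ≠ ⊥ ∧ N ≠ ⊤ := by
    by_contra hcon
    apply hG
    refine { exists_pair_ne := hnt.exists_pair_ne, eq_bot_or_eq_top_of_normal := ?_ }
    intro N hN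
    by_contra h2
    push Not at h2
    exact hcon ⟨N, hN, h2.1, h2.2⟩
  refine ⟨N, hN, hb, ht, ?_, ?_⟩
  · apply MulAction.IsQuasiPreprimitive.isPretransitive_of_normal (G := G)
    intro h
    apply hb
    rw [eq_bot_iff]
    intro g hg
    rw [Subgroup.mem_bot]
    apply FaithfulSMul.eq_of_smul_eq_smul (α := X)
    intro y
    have : y ∈ MulAction.fixedPoints N X := by rw [h]; trivial
    rw [one_smul]
    exact this ⟨g, hg⟩
  · have htr : MulAction.IsPretransitive N X := by
      apply MulAction.IsQuasiPreprimitive.isPretransitive_of_normal (G := G)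
      intro h
      apply hb
      rw [eq_bot_iff]
      intro g hg
      rw [Subgroup.mem_bot]
      apply FaithfulSMul.eq_of_smul_eq_smul (α := X)
      intro y
      have : y ∈ MulAction.fixedPoints N X := by rw [h]; trivial
      rw [one_smul]
      exact this ⟨g, hg⟩
    have hx : MulAction.stabilizer N x = ⊥ := by
      rcases hsimple.eq_bot_or_eq_top_of_normal (N.subgroupOf (MulAction.stabilizer G x)) inferInstance with h | h
      · rw [eq_bot_iff]
        intro n hn
        rw [Subgroup.mem_bot]
        have h1 : (⟨(n : G), hn⟩ : MulAction.stabilizer G x) ∈ N.subgroupOf (MulAction.stabilizer G x) := by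
          rw [Subgroup.mem_subgroupOf]
          exact n.2
        rw [h, Subgroup.mem_bot] at h1
        have h2 : (n : G) = 1 := congrArg (fun z : MulAction.stabilizer G x => (z : G)) h1
        exact Subtype.ext h2
      · exfalso
        apply ht
        rw [Subgroup.subgroupOf_eq_top] at h
        rw [eq_top_iff]
        intro g _
        obtain ⟨n, hn⟩ := htr.exists_smul_eq x (g • x)
        have h1 : (n : G)⁻¹ * g ∈ MulAction.stabilizer G x := by
          rw [MulAction.mem_stabilizer_iff, mul_smul, inv_smul_eq_iff]
          exact hn.symm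
        have h2 := N.mul_mem n.2 (h h1)
        rwa [mul_inv_cancel_left] at h2
    intro y
    rw [eq_bot_iff]
    intro n hn
    rw [Subgroup.mem_bot]
    obtain ⟨g, hg⟩ := htr.exists_smul_eq x y
    have h1 : g⁻¹ * n * g ∈ MulAction.stabilizer N x := by
      rw [MulAction.mem_stabilizer_iff, mul_smul, mul_smul, hg, inv_smul_eq_iff, hg]
      exact hn
    rw [hx, Subgroup.mem_bot] at h1
    have h2 : n = g * (g⁻¹ * n * g) * g⁻¹ := by group
    rw [h2, h1]
    group

end Cfsg.Agent.S4300
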