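import Cfsg.Statements.S4301

set_option autoImplicit false
open Cfsg

namespace Cfsg.Agent.S4301

theorem exists_emb {X : Type*} {k : ℕ} (hk : 2 ≤ k) (e : Fin k ↪ X) (p q : X) (hpq : p ≠ q) :
    ∃ e' : Fin k ↪ X, e' ⟨0, by omega⟩ = p ∧ e' ⟨1, by omega⟩ = q := by
  classical
  let e1 : Fin k ↪ X := e.trans (Equiv.swap (e ⟨0, by omega⟩) p).toEmbedding
  have h1 : e1 ⟨0, by omega⟩ = p := by
    show Equiv.swap (e ⟨0, by omega⟩) p (e ⟨0, by omega⟩) = p
    exact Equiv.swap_apply_left _ _
  let e2 : Fin k ↪ X := e1.trans (Equiv.swap (e1 ⟨1, by omega⟩) q).toEmbedding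
  refine ⟨e2, ?_, ?_⟩
  · show Equiv.swap (e1 ⟨1, by omega⟩) q (e1 ⟨0, by omega⟩) = p
    rw [Equiv.swap_apply_of_ne_of_ne _ _, h1]
    · intro h
      have := e1.injective h
      simp at this
    · rw [h1]; exact hpq
  · show Equiv.swap (e1 ⟨1, by omega⟩) q (e1 ⟨1, by omega⟩) = q
    exact Equiv.swap_apply_left _ _

/-- One-point extension of a multiply transitive group. Let X be a set and G a group of permutations of Option X (the set X with one extra point ∗ = none) all of whose elements fix ∗, such that G is k-transitive on the points of X for some k ≥ 2, X having at least k points. Suppose a permutation h of Option X and an element g of G satisfy: h interchanges ∗ with a point x of X and fixes a point y of X; g interchanges x and y; (g h)³ and h² lie in G; and for every f in G fixing x, the product h f h lies in G and fixes x. Then an element of the group generated by G and h fixes ∗ exactly when it lies in G, and that group acts (k+1)-transitively on Option X. -/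
theorem result {X : Type*} (G : Subgroup (Equiv.Perm (Option X))) (hfix : ∀ f ∈ G, f none = none)
    (k : ℕ) (hk : 2 ≤ k) (hkX : Nonempty (Fin k ↪ X))
    (htrans : ∀ a b : Fin k ↪ X, ∃ f ∈ G, ∀ i, f (some (a i)) = some (b i))
    (h g : Equiv.Perm (Option X)) (hg : g ∈ G) (x y : X)
    (h1 : h none = some x) (h2 : h (some x) = none) (h3 : h (some y) = some y)
    (h4 : g (some x) = some y) (h5 : g (some y) = some x)
    (h6 : (g * h) ^ 3 ∈ G) (h7 : h ^ 2 ∈ G)
    (h8 : ∀ f ∈ G, f (some x) = some x → h * f * h ∈ G ∧ (h * f * h) (some x) = some x) :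
    (∀ f ∈ Subgroup.closure ((G : Set (Equiv.Perm (Option X))) ∪ {h}), f none = none ↔ f ∈ G) ∧
      MulAction.IsMultiplyPretransitive (Subgroup.closure ((G : Set (Equiv.Perm (Option X))) ∪ {h})) (Option X) (k + 1) := by
  obtain ⟨e⟩ := hkX
  have hxy : x ≠ y := by
    rintro rfl
    rw [h2] at h3
    exact absurd h3 (by simp)
  -- two-transitivity of `G` on `X`
  have htwo : ∀ p q p' q' : X, p ≠ q → p' ≠ q' → ∃ f ∈ G, f (some p) = some p' ∧ f (some q) = some q' := by
    intro p q p' q' hpq hpq'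
    obtain ⟨a, ha0, ha1⟩ := exists_emb hk e p q hpq
    obtain ⟨b, hb0, hb1⟩ := exists_emb hk e p' q' hpq'
    obtain ⟨f, hf, hfi⟩ := htrans a b
    refine ⟨f, hf, ?_, ?_⟩
    · have := hfi ⟨0, by omega⟩
      rwa [ha0, hb0] at this
    · have := hfi ⟨1, by omega⟩
      rwa [ha1, hb1] at this
  have hone : ∀ p q : X, ∃ f ∈ G, f (some p) = some q := by
    intro p q
    have : ∀ p : X, ∃ p', p ≠ p' := by
      intro p
      by_cases hpx : p = x
      · exact ⟨y, hpx ▸ hxy⟩
      · exact ⟨x, hpx⟩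
    obtain ⟨p', hp'⟩ := this p
    obtain ⟨q', hq'⟩ := this q
    obtain ⟨f, hf, hf1, -⟩ := htwo p p' q q' hp' hq'
    exact ⟨f, hf, hf1⟩
  -- decomposition of `G`
  have hdec : ∀ f ∈ G, f (some x) = some x ∨ ∃ f1 ∈ G, ∃ f2 ∈ G, f1 (some x) = some x ∧
      f2 (some x) = some x ∧ f = f1 * g⁻¹ * f2 := by
    intro f hf
    by_cases hfx : f (some x) = some x
    · exact Or.inl hfx
    right
    obtain ⟨u, hu⟩ : ∃ u, f (some x) = some u := by
      cases hfu : f (some x) with
      | none =>
        exfalso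
        have := f.injective (hfu.trans (hfix f hf).symm)
        exact absurd this (by simp)
      | some u => exact ⟨u, rfl⟩
    have hux : x ≠ u := by
      rintro rfl
      exact hfx hu
    obtain ⟨f1, hf1, hf1x, hf1y⟩ := htwo x y x u hxy hux
    refine ⟨f1, hf1, g * f1⁻¹ * f, G.mul_mem (G.mul_mem hg (G.inv_mem hf1)) hf, hf1x, ?_, ?_⟩
    · rw [Equiv.Perm.mul_apply, Equiv.Perm.mul_apply, hu, ← hf1y]
      show g (f1.symm (f1 (some y))) = some x
      rw [Equiv.symm_apply_apply, h5]
    · group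
  have hhinv : h⁻¹ = h * (h ^ 2)⁻¹ := by group
  -- the double coset computation
  let T : Set (Equiv.Perm (Option X)) := {σ | σ ∈ G ∨ ∃ a ∈ G, ∃ b ∈ G, σ = a * h * b}
  have hT : ∀ σ ∈ T, ∀ a ∈ G, ∀ b ∈ G, a * σ * b ∈ T := by
    rintro σ (hσ | ⟨c, hc, d, hd, rfl⟩) a ha b hb
    · exact Or.inl (G.mul_mem (G.mul_mem ha hσ) hb)
    · right
      exact ⟨a * c, G.mul_mem ha hc, d * b, G.mul_mem hd hb, by group⟩
  have hhfh : ∀ f ∈ G, h * f * h ∈ T := by
    intro f hf
    rcases hdec f hf with hfx | ⟨f1, hf1, f2, hf2, hf1x, hf2x, rfl⟩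
    · exact Or.inl (h8 f hf hfx).1
    right
    refine ⟨(h * f1 * h) * (((g * h) ^ 3)⁻¹ * g), G.mul_mem (h8 f1 hf1 hf1x).1
      (G.mul_mem (G.inv_mem h6) hg), g * (h * f2 * h), G.mul_mem hg (h8 f2 hf2 hf2x).1, ?_⟩
    have e3 : (g * h) ^ 3 = g * h * (g * h) * (g * h) := by rw [pow_succ, sq]
    rw [e3]
    group
  let K : Subgroup (Equiv.Perm (Option X)) :=
    { carrier := T
      one_mem' := Or.inl G.one_mem
      mul_mem' := by
        rintro a b (ha | ⟨c, hc, d, hd, rfl⟩) (hb | ⟨c', hc', d', hd', rfl⟩)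
        · exact Or.inl (G.mul_mem ha hb)
        · exact Or.inr ⟨a * c', G.mul_mem ha hc', d', hd', by group⟩
        · exact Or.inr ⟨c, hc, d * b, G.mul_mem hd hb, by group⟩
        · have := hT _ (hhfh (d * c') (G.mul_mem hd hc')) c hc d' hd'
          have e1 : c * h * d * (c' * h * d') = c * (h * (d * c') * h) * d' := by group
          rw [e1]
          exact this
      inv_mem' := by
        rintro a (ha | ⟨c, hc, d, hd, rfl⟩)
        · exact Or.inl (G.inv_mem ha)
        · refine Or.inr ⟨d⁻¹, G.inv_mem hd, (h ^ 2)⁻¹ * c⁻¹, G.mul_mem (G.inv_mem h7) (G.inv_mem hc), ?_⟩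
          group }
  have hle : Subgroup.closure ((G : Set (Equiv.Perm (Option X))) ∪ {h}) ≤ K := by
    rw [Subgroup.closure_le]
    rintro σ (hσ | hσ)
    · exact Or.inl hσ
    · rw [Set.mem_singleton_iff.1 hσ]
      exact Or.inr ⟨1, G.one_mem, 1, G.one_mem, by group⟩
  have hGC : ∀ f ∈ G, f ∈ Subgroup.closure ((G : Set (Equiv.Perm (Option X))) ∪ {h}) :=
    fun f hf => Subgroup.subset_closure (Or.inl hf)
  have hhC : h ∈ Subgroup.closure ((G : Set (Equiv.Perm (Option X))) ∪ {h}) :=
    Subgroup.subset_closure (Or.inr rfl)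
  refine ⟨?_, ?_⟩
  · intro f hf
    refine ⟨fun hfn => ?_, hfix f⟩
    rcases hle hf with hf' | ⟨a, ha, b, hb, rfl⟩
    · exact hf'
    · exfalso
      rw [Equiv.Perm.mul_apply, Equiv.Perm.mul_apply, hfix b hb, h1] at hfn
      have := a.injective (hfn.trans (hfix a ha).symm)
      exact absurd this (by simp)
  · have hmove : ∀ z : Option X, ∃ u ∈ Subgroup.closure ((G : Set (Equiv.Perm (Option X))) ∪ {h}),
        u z = none := by
      intro z
      cases z with
      | none => exact ⟨1, Subgroup.one_mem _, rfl⟩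
      | some z =>
        obtain ⟨f, hf, hfz⟩ := hone z x
        exact ⟨h * f, Subgroup.mul_mem _ hhC (hGC f hf), by rw [Equiv.Perm.mul_apply, hfz, h2]⟩
    have hext : ∀ a : Fin (k + 1) ↪ Option X,
        ∃ u ∈ Subgroup.closure ((G : Set (Equiv.Perm (Option X))) ∪ {h}), ∃ a' : Fin k ↪ X,
          u (a 0) = none ∧ ∀ i : Fin k, u (a i.succ) = some (a' i) := by
      intro a
      obtain ⟨u, hu, hu0⟩ := hmove (a 0)
      have hne : ∀ i : Fin k, ∃ z : X, u (a i.succ) = some z := by
        intro i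
        cases hui : u (a i.succ) with
        | none =>
          exfalso
          have := a.injective (u.injective (hui.trans hu0.symm))
          exact Fin.succ_ne_zero i this
        | some z => exact ⟨z, rfl⟩
      choose a' ha' using hne
      refine ⟨u, hu, ⟨a', ?_⟩, hu0, ha'⟩
      intro i j hij
      have : u (a i.succ) = u (a j.succ) := by rw [ha', ha', hij]
      exact Fin.succ_injective _ (a.injective (u.injective this))
    refine ⟨fun a b => ?_⟩
    obtain ⟨u, hu, a', hu0, hua⟩ := hext a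
    obtain ⟨v, hv, b', hv0, hvb⟩ := hext b
    obtain ⟨f, hf, hfi⟩ := htrans a' b'
    refine ⟨⟨v⁻¹ * f * u, Subgroup.mul_mem _ (Subgroup.mul_mem _ (Subgroup.inv_mem _ hv) (hGC f hf)) hu⟩, ?_⟩
    ext1 i
    show (v⁻¹ * f * u) (a i) = b i
    rw [Equiv.Perm.mul_apply, Equiv.Perm.mul_apply, Equiv.Perm.inv_eq_iff_eq]
    refine Fin.cases ?_ (fun i => ?_) i
    · rw [hu0, hfix f hf, hv0]
    · rw [hua, hfi, hvb]

end Cfsg.Agent.S4301
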