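import Cfsg.Statements.S4303
import Cfsg.Agent.H25.SylowMult2

set_option autoImplicit false
open Cfsg

universe u

namespace Cfsg.Agent.S4303

open Subgroup

theorem primeParts (p : ℕ) [Fact p.Prime] (n : ℕ) (hn : n ≠ 0)
    (h : ∀ ℓ : ℕ, ℓ.Prime → ℓ ^ n.factorization ℓ ≡ 1 [MOD p]) :
    ∃ l : List ℕ, l.prod = n ∧ ∀ m ∈ l, IsPrimePow m ∧ m % p = 1 := by
  refine ⟨(n.primeFactors.toList).map (fun ℓ => ℓ ^ n.factorization ℓ), ?_, ?_⟩
  · rw [Finset.prod_map_toList]
    exact Nat.factorization_prod_pow_eq_self hn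
  · intro m hm
    rw [List.mem_map] at hm
    obtain ⟨ℓ, hℓ, rfl⟩ := hm
    rw [Finset.mem_toList, Nat.mem_primeFactors] at hℓ
    refine ⟨hℓ.1.isPrimePow.pow ?_, ?_⟩
    · exact (hℓ.1.factorization_pos_of_dvd hn hℓ.2.1).ne'
    · have h1 := h ℓ hℓ.1
      rw [Nat.ModEq] at h1
      rw [h1]
      exact Nat.mod_eq_of_lt (Fact.out : p.Prime).one_lt

theorem aux (p : ℕ) [Fact p.Prime] (n : ℕ) :
    ∀ (G : Type u) [Group G] [Finite G], Nat.card G = n →
      ∃ l : List ℕ, l.prod = Nat.card (Sylow p G) ∧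
      ∀ m ∈ l, (IsPrimePow m ∧ m % p = 1) ∨
        ∃ (S : Type u) (_ : Group S) (_ : Finite S), IsSimpleGroup S ∧ m = Nat.card (Sylow p S) := by
  induction n using Nat.strong_induction_on with
  | _ n ih =>
  intro G _ _ hn
  by_cases hs : IsSimpleGroup G
  · refine ⟨[Nat.card (Sylow p G)], by simp, ?_⟩
    intro m hm
    rw [List.mem_singleton] at hm
    exact Or.inr ⟨G, inferInstance, inferInstance, hs, hm⟩
  by_cases htr : Nontrivial G
  swap
  · rw [not_nontrivial_iff_subsingleton] at htr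
    refine ⟨[], ?_, by simp⟩
    symm
    rw [List.prod_nil, Nat.card_eq_one_iff_unique]
    refine ⟨⟨fun P Q => ?_⟩, inferInstance⟩
    apply Sylow.ext
    exact Subsingleton.elim _ _
  have hex : ∃ K : Subgroup G, K.Normal ∧ K ≠ ⊥ ∧ K ≠ ⊤ := by
    by_contra hno
    push Not at hno
    apply hs
    refine { eq_bot_or_eq_top_of_normal := fun H hH => ?_ }
    by_cases h : H = ⊥
    · exact Or.inl h
    · exact Or.inr (hno H hH h)
  obtain ⟨K, hK, hK0, hK1⟩ := hex
  have hKlt : Nat.card K < n := by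
    rw [← hn]
    exact lt_of_le_of_ne (Nat.le_of_dvd Nat.card_pos K.card_subgroup_dvd_card)
      (fun h => hK1 (eq_top_of_card_eq K h))
  have hQlt : Nat.card (G ⧸ K) < n := by
    rw [← hn, ← K.index_eq_card, ← K.card_mul_index]
    have h1 : 1 < Nat.card K := by
      rw [Finite.one_lt_card_iff_nontrivial]
      exact (Subgroup.nontrivial_iff_ne_bot K).2 hK0
    have h2 : 0 < K.index := Nat.pos_of_ne_zero index_ne_zero_of_finite
    nlinarith
  obtain ⟨l1, h1, h1'⟩ := ih _ hKlt K rfl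
  obtain ⟨l2, h2, h2'⟩ := ih _ hQlt (G ⧸ K) rfl
  obtain ⟨P⟩ : Nonempty (Sylow p G) := inferInstance
  set N := ((P : Subgroup G) ⊔ K) ⊓ Subgroup.normalizer (((P : Subgroup G) ⊓ K : Subgroup G) : Set G) with hN
  have hPN : (P : Subgroup G) ≤ N := by
    refine le_inf le_sup_left ?_
    intro g hg
    rw [mem_normalizer_iff]
    intro x
    constructor
    · rintro ⟨h1, h2⟩
      exact ⟨(P : Subgroup G).mul_mem ((P : Subgroup G).mul_mem hg h1) ((P : Subgroup G).inv_mem hg),
        hK.conj_mem _ h2 g⟩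
    · rintro ⟨h1, h2⟩
      have e : g⁻¹ * (g * x * g⁻¹) * g = x := by group
      refine ⟨?_, ?_⟩
      · rw [← e]
        exact (P : Subgroup G).mul_mem ((P : Subgroup G).mul_mem ((P : Subgroup G).inv_mem hg) h1) hg
      · have := hK.conj_mem _ h2 g⁻¹
        rwa [inv_inv, e] at this
  have h3 : ∀ ℓ : ℕ, ℓ.Prime → ℓ ^ (Nat.card (Sylow p N)).factorization ℓ ≡ 1 [MOD p] := by
    intro ℓ hℓ
    apply H25.sylow_part_modEq' (K.subgroupOf N) (P.subtype hPN) _ _ ℓ hℓ
    · rw [eq_top_iff]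
      rintro ⟨x, hx⟩ -
      have hx1 : x ∈ (P : Subgroup G) ⊔ K := hx.1
      rw [mem_sup_of_normal_right] at hx1
      obtain ⟨a, ha, k, hk, rfl⟩ := hx1
      have hkN : k ∈ N := by
        have := N.mul_mem (N.inv_mem (hPN ha)) hx
        rwa [inv_mul_cancel_left] at this
      have e : (⟨a * k, hx⟩ : N) = ⟨a, hPN ha⟩ * ⟨k, hkN⟩ := rfl
      rw [e]
      exact mul_mem_sup ha hk
    · have h4 : ((P.subtype hPN : Sylow p N) : Subgroup N) ⊓ K.subgroupOf N =
          ((P : Subgroup G) ⊓ K).subgroupOf N := rfl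
      rw [h4, normal_subgroupOf_iff_le_normalizer (inf_le_left.trans hPN)]
      exact inf_le_right
  obtain ⟨l3, h4, h4'⟩ := primeParts p _ Nat.card_pos.ne' h3
  refine ⟨l2 ++ (l1 ++ l3), ?_, ?_⟩
  · rw [List.prod_append, List.prod_append, h1, h2, h4, H25.card_sylow_eq_quotient_mul K P,
      H25.card_sylow_sup_eq K P N hN]
  · intro m hm
    rw [List.mem_append, List.mem_append] at hm
    rcases hm with hm | hm | hm
    · exact h2' m hm
    · exact h1' m hm
    · exact Or.inl (h4' m hm)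

/-- For a finite group `G` and a prime `p`, the number of Sylow `p`-subgroups of `G` is a product of natural numbers each of which is either a prime power congruent to 1 modulo `p` or the number of Sylow `p`-subgroups of some finite simple group. -/
theorem result {G : Type u} [Group G] [Finite G]
    (p : ℕ) [Fact p.Prime] :
    ∃ l : List ℕ, l.prod = Nat.card (Sylow p G) ∧
      ∀ m ∈ l, (IsPrimePow m ∧ m % p = 1) ∨
        ∃ (S : Type u) (_ : Group S) (_ : Finite S), IsSimpleGroup S ∧ m = Nat.card (Sylow p S) :=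
  aux p _ G rfl

end Cfsg.Agent.S4303
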