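import Cfsg.Statements.S4304
import Cfsg.Agent.H25.SylowNum2

set_option autoImplicit false
open Cfsg

namespace Cfsg.Agent.S4304

open Cfsg.Agent.H25

/-- No finite group has exactly 15 Sylow 7-subgroups. -/
theorem result {G : Type*} [Group G] [Finite G] : Nat.card (Sylow 7 G) ≠ 15 := by
  haveI : Fact (Nat.Prime 7) := ⟨by norm_num⟩
  refine card_sylow_ne_of_min 7 15 ?_ G
  intro G _ _ hn hf hmin
  obtain ⟨e, he, hodd, hcard⟩ := card_eq (p := 7) (by norm_num) (by rw [hn]) hf hmin
  have he6 : e ∣ 6 := he
  have he' : e = 1 ∨ e = 3 := by
    have h1 : e ≤ 6 := Nat.le_of_dvd (by norm_num) he6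
    interval_cases e <;> revert he6 <;> first | (intro; omega) | skip
    all_goals (rw [hcard] at hodd; revert hodd; decide)
  have h5 : (Nat.card G).factorization 5 = 1 := by
    rw [hcard]
    rcases he' with rfl | rfl
    · have : (2 * 7 + 1) * (7 * 1) = 3 * 5 * 7 := by norm_num
      rw [this, Nat.factorization_mul (by norm_num) (by norm_num),
        Nat.factorization_mul (by norm_num) (by norm_num)]
      simp [Nat.Prime.factorization (show Nat.Prime 3 by norm_num),
        Nat.Prime.factorization (show Nat.Prime 5 by norm_num),
        Nat.Prime.factorization (show Nat.Prime 7 by norm_num)]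
    · have : (2 * 7 + 1) * (7 * 3) = 3 * 3 * 5 * 7 := by norm_num
      rw [this, Nat.factorization_mul (by norm_num) (by norm_num),
        Nat.factorization_mul (by norm_num) (by norm_num), Nat.factorization_mul (by norm_num) (by norm_num)]
      simp [Nat.Prime.factorization (show Nat.Prime 3 by norm_num),
        Nat.Prime.factorization (show Nat.Prime 5 by norm_num),
        Nat.Prime.factorization (show Nat.Prime 7 by norm_num)]
  obtain ⟨K, hK, hKi⟩ := exists_normal_index_five hodd h5
  have hKt : K = ⊤ := by
    apply hmin K hK
    intro P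
    apply sylow_le_of_coprime_index
    rw [hKi]; norm_num
  rw [hKt, Subgroup.index_top] at hKi
  omega

end Cfsg.Agent.S4304
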