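import Cfsg.Statements.S4305
import Cfsg.Agent.H25.FpfS3f

set_option autoImplicit false
open Cfsg

namespace Cfsg.Agent.S4305

/-- Let the symmetric group of degree 3 act by automorphisms on a finite solvable group `G` of order prime to 6, so that only the identity of `G` is fixed by all of it. Then the derived subgroup of `G` is nilpotent. -/
theorem result {G : Type*} [Group G] [Finite G] [Group.IsSolvable G]
    [MulDistribMulAction (Equiv.Perm (Fin 3)) G] (hcop : (Nat.card G).Coprime 6)
    (hfpf : ∀ g : G, (∀ a : Equiv.Perm (Fin 3), a • g = g) → g = 1) :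
    Group.IsNilpotent ↥(commutator G) := by
  haveI : Finite (G ⋊[MulDistribMulAction.toMulAut (Equiv.Perm (Fin 3)) G] Equiv.Perm (Fin 3)) :=
    Finite.of_equiv _ SemidirectProduct.equivProd.symm
  exact Cfsg.Agent.H25.s3_abstract inferInstance hcop hfpf
    (SemidirectProduct.inl : G →* G ⋊[MulDistribMulAction.toMulAut (Equiv.Perm (Fin 3)) G] Equiv.Perm (Fin 3))
    SemidirectProduct.inr SemidirectProduct.inl_injective
    (by rw [SemidirectProduct.range_inl_eq_ker_rightHom]; infer_instance)
    (fun a g => by
      have h1 := SemidirectProduct.inl_aut (φ := MulDistribMulAction.toMulAut (Equiv.Perm (Fin 3)) G) a g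
      have h2 : MulDistribMulAction.toMulAut (Equiv.Perm (Fin 3)) G a g = a • g := rfl
      rw [← h2, h1, map_inv, inv_mul_cancel_right])
    (fun x => ⟨x.left, x.right, (SemidirectProduct.inl_left_mul_inr_right x).symm⟩)

end Cfsg.Agent.S4305
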