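import Cfsg.Statements.S4306
import Cfsg.Agent.H25.FpfPQ
-- import your own Cfsg.Agent.* helpers here

set_option autoImplicit false
open Cfsg

namespace Cfsg.Agent.S4306

/-- Let `A` be a non-abelian group of order `pq` with `p, q` distinct primes, acting by automorphisms on a finite solvable group `G` of order prime to `pq`, so that only the identity of `G` is fixed by all of `A`. Then `G` has Fitting height at most 2: there is a normal nilpotent subgroup `F` of `G` with `G/F` nilpotent. -/
theorem result {G A : Type*} [Group G] [Finite G]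
    [Group.IsSolvable G] [Group A] [Finite A] [MulDistribMulAction A G] (p q : ℕ) (hp : p.Prime) (hq : q.Prime) (hpq : p ≠ q)
    (hA : Nat.card A = p * q) (hAna : ¬ IsMulCommutative A) (hcop : (Nat.card G).Coprime (p * q))
    (hfpf : ∀ g : G, (∀ a : A, a • g = g) → g = 1) :
    ∃ F : Subgroup G, ∃ hF : F.Normal, Group.IsNilpotent ↥F ∧ Group.IsNilpotent (G ⧸ F) := by
  haveI : Finite (G ⋊[MulDistribMulAction.toMulAut A G] A) :=
    Finite.of_equiv _ SemidirectProduct.equivProd.symm
  obtain ⟨F, hF, hFn, -, k, hk⟩ := Cfsg.Agent.H25.pq_abstract (G := G) (A := A) inferInstance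
    (MulDistribMulAction.toMulAut A G) ⟨p, q, hp, hq, hA⟩ (by rw [hA]; exact hcop.symm) hfpf
    (SemidirectProduct.inl : G →* G ⋊[MulDistribMulAction.toMulAut A G] A)
    SemidirectProduct.inr SemidirectProduct.inl_injective SemidirectProduct.inr_injective
    (by rw [SemidirectProduct.range_inl_eq_ker_rightHom]; infer_instance)
    (fun a g => by
      rw [SemidirectProduct.inl_aut (φ := MulDistribMulAction.toMulAut A G) a g, map_inv,
        inv_mul_cancel_right])
  refine ⟨F, hF, hFn, ?_⟩
  rw [Subgroup.nilpotent_iff_lowerCentralSeries]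
  refine ⟨k, ?_⟩
  have h1 : (⊤ : Subgroup (G ⧸ F)) = (⊤ : Subgroup G).map (QuotientGroup.mk' F) :=
    (Subgroup.map_top_of_surjective _ (QuotientGroup.mk'_surjective F)).symm
  rw [h1, ← Subgroup.map_lowerCentralSeries, Cfsg.Agent.H1.map_mk'_eq_bot_iff]
  exact hk

end Cfsg.Agent.S4306
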