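import Cfsg.Statements.S4309
import Cfsg.Agent.H25.Fitting

set_option autoImplicit false
open Cfsg

namespace Cfsg.Agent.S4309

open Cfsg.Agent.H25

theorem result {G : Type*} [Group G] [Finite G] (π : Set ℕ)
    (H A : Subgroup G) [A.Normal] (hH : Cfsg.IsPiHall π H) :
    Cfsg.IsPiHall π ((H ⊓ A).subgroupOf A) ∧ Cfsg.IsPiHall π (H.map (QuotientGroup.mk' A)) := by
  refine ⟨⟨?_, ?_⟩, ⟨?_, ?_⟩⟩
  · intro p hp hd
    apply hH.1 p hp
    have h1 : Nat.card ((H ⊓ A).subgroupOf A) = Nat.card (H ⊓ A : Subgroup G) :=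
      Nat.card_congr (Subgroup.subgroupOfEquivOfLe inf_le_right).toEquiv
    rw [h1] at hd
    exact hd.trans (Subgroup.card_dvd_of_le inf_le_left)
  · intro p hp hpπ hd
    apply hH.2 p hp hpπ
    have h1 : ((H ⊓ A).subgroupOf A).index = H.relIndex A := by
      change (H ⊓ A).relIndex A = _
      rw [Subgroup.inf_relIndex_right]
    rw [h1] at hd
    exact hd.trans (relIndex_dvd_index_of_normal_right H A)
  · intro p hp hd
    apply hH.1 p hp
    exact hd.trans (Subgroup.card_map_dvd _ _)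
  · intro p hp hpπ hd
    apply hH.2 p hp hpπ
    exact hd.trans (Subgroup.index_map_dvd _ (QuotientGroup.mk'_surjective A))

end Cfsg.Agent.S4309
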