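import Cfsg.Statements.S4310
import Cfsg.Agent.H13.SZ2

set_option autoImplicit false
open Cfsg

namespace Cfsg.Agent.S4310

/-- Let `π` be a set of primes and `A` a normal subgroup of the finite group `G`. Suppose `A` has a Hall `π`-subgroup and all Hall `π`-subgroups of `A` are conjugate in `A`, and likewise for `G/A`. Then `G` has a Hall `π`-subgroup and all Hall `π`-subgroups of `G` are conjugate. (The conjugacy of complements of coprime order that the usual proof uses rests, in general, on the odd order Theorem.) -/
theorem result {G : Type*} [Group G] [Finite G] (π : Set ℕ) (A : Subgroup G) [A.Normal]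
    (hA : Cfsg.IsCPiGroup π ↥A) (hQ : Cfsg.IsCPiGroup π (G ⧸ A)) : Cfsg.IsCPiGroup π G :=
  Cfsg.Agent.H13.cpi_extension A hA hQ

end Cfsg.Agent.S4310
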