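import Cfsg.Statements.S4314
import Cfsg.Agent.H25.ClassProd
import Cfsg.Agent.H24.ClassSize
import Cfsg.Agent.H1.SysNorm
import Cfsg.Agent.H25.Primary

set_option autoImplicit false
open Cfsg

namespace Cfsg.Agent.S4314

open Subgroup H25
open scoped commutatorElement Pointwise

/-- the mixed case -/
theorem mixed {G : Type*} [Group G] [Finite G]
    (h : ∀ x : G, (Subgroup.centralizer ({x} : Set G)).index = 1 ∨ ((Subgroup.centralizer ({x} : Set G)).index).Prime)
    {x y : G} {p q : ℕ} (hp : p.Prime) (hq : q.Prime) (hpq : p < q)
    (hx : (centralizer ({x} : Set G)).index = p) (hy : (centralizer ({y} : Set G)).index = q) :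
    Nat.card (G ⧸ Subgroup.center G) = p * q ∧ ¬ IsMulCommutative (G ⧸ Subgroup.center G) := by
  haveI := Fact.mk hp
  haveI := Fact.mk hq
  have hcop : (centralizer ({x} : Set G)).index.Coprime (centralizer ({y} : Set G)).index := by
    rw [hx, hy]; exact (Nat.coprime_primes hp hq).2 hpq.ne
  have hxy : (centralizer ({x * y} : Set G)).index = (centralizer ({y} : Set G)).index := by
    have h1 := index_le_index_mul hcop
    have h2 := index_mul_dvd hcop
    rw [hx, hy] at h2
    rw [hy] at h1 ⊢
    rcases h (x * y) with h3 | h3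
    · rw [h3] at h1
      exact absurd hq.one_lt (not_lt.2 h1)
    · rcases (Nat.Prime.dvd_mul h3).1 h2 with h4 | h4
      · rw [(Nat.prime_dvd_prime_iff_eq h3 hp).1 h4] at h1
        exact absurd hpq (not_lt.2 h1)
      · exact (Nat.prime_dvd_prime_iff_eq h3 hq).1 h4
  set N := classStab y with hN
  have hxnc : x ∉ center G := by
    intro hc
    rw [← index_centralizer_eq_one_iff, hx] at hc
    exact hp.one_lt.ne' hc
  have hdisp : ∀ g : G, x⁻¹ * (g * x * g⁻¹) ∈ N := fun g =>
    inv_mul_mem_classStab hcop hxy (IsConj.refl x) (isConj_iff.2 ⟨g, rfl⟩)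
  have hNq : Nat.card N = q := by
    have h1 := card_classStab_dvd y
    rw [hy] at h1
    rcases (Nat.dvd_prime hq).1 h1 with h2 | h2
    · exfalso
      apply hxnc
      have hbot : N = ⊥ := Subgroup.eq_bot_of_card_eq N h2
      rw [mem_center_iff]
      intro g
      have h3 := hdisp g
      rw [hbot, mem_bot, inv_mul_eq_one] at h3
      rw [mul_inv_eq_iff_eq_mul.1 h3.symm]
    · exact h2
  have hNdvd : ∀ w : G, (centralizer ({w} : Set G)).relIndex N = 1 ∨
      (centralizer ({w} : Set G)).relIndex N = q := by
    intro w
    apply (Nat.dvd_prime hq).1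
    rw [← hNq]
    exact relIndex_dvd_card _ _
  have hle1 : ∀ w : G, (centralizer ({w} : Set G)).relIndex N = 1 → ∀ n ∈ N, n * w = w * n := by
    intro w hw n hn
    rw [relIndex_eq_one] at hw
    exact mem_centralizer_singleton_iff.1 (hw hn)
  -- N centralizes x
  have hNx : ∀ n ∈ N, n * x = x * n := by
    rcases hNdvd x with h1 | h1
    · exact hle1 x h1
    · exfalso
      have h2 := H1.relIndex_dvd_index_of_normal_right (centralizer ({x} : Set G)) N
      rw [h1, hx] at h2
      exact absurd hpq (not_lt.2 (Nat.le_of_dvd hp.pos h2))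
  have hNcomm : ∀ a ∈ N, ∀ b ∈ N, a * b = b * a := by
    intro a ha b hb
    haveI : IsCyclic N := isCyclic_of_prime_card hNq
    letI : CommGroup N := IsCyclic.commGroup
    exact congrArg Subtype.val (mul_comm (⟨a, ha⟩ : N) ⟨b, hb⟩)
  -- centralizers of nontrivial elements of N
  have hNgen : ∀ n ∈ N, n ≠ 1 → N = zpowers n := by
    intro n hn hn1
    apply le_antisymm
    · intro m hm
      have h1 := mem_zpowers_of_prime_card (g := (⟨n, hn⟩ : N)) (g' := ⟨m, hm⟩) hNq
        (fun h => hn1 (congrArg Subtype.val h))
      obtain ⟨k, hk⟩ := h1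
      exact ⟨k, congrArg Subtype.val hk⟩
    · exact zpowers_le.2 hn
  set K := centralizer (N : Set G) with hK
  haveI hKn : K.Normal := inferInstance
  have hKmem : ∀ n ∈ N, n ≠ 1 → centralizer ({n} : Set G) = K := by
    intro n hn hn1
    apply le_antisymm
    · intro g hg
      rw [hK, mem_centralizer_iff]
      intro m hm
      have h1 : m ∈ zpowers n := by rw [← hNgen n hn hn1]; exact hm
      obtain ⟨k, rfl⟩ := h1
      exact ((show Commute n g from (mem_centralizer_singleton_iff.1 hg).symm).zpow_left k)
    · intro g hg
      rw [mem_centralizer_singleton_iff]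
      exact ((mem_centralizer_iff.1 hg) n hn).symm
  -- K ≤ C(x)
  have hKx : K ≤ centralizer ({x} : Set G) := by
    intro k hk
    rw [mem_centralizer_singleton_iff]
    by_contra hne
    set n := x⁻¹ * (k * x * k⁻¹) with hn
    have hnN : n ∈ N := hdisp k
    have hn1 : n ≠ 1 := by
      intro h1
      rw [hn, inv_mul_eq_one] at h1
      exact hne (mul_inv_eq_iff_eq_mul.1 h1.symm)
    have hkn : k * n = n * k := ((mem_centralizer_iff.1 hk) n hnN).symm
    have hconj : ∀ j : ℕ, k ^ j * x * (k ^ j)⁻¹ = x * n ^ j := by
      intro j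
      induction j with
      | zero => simp
      | succ j ih =>
        have h1 : k * x * k⁻¹ = x * n := by rw [hn]; group
        calc k ^ (j + 1) * x * (k ^ (j + 1))⁻¹ = k * (k ^ j * x * (k ^ j)⁻¹) * k⁻¹ := by
              rw [pow_succ']; group
          _ = k * x * (n ^ j) * k⁻¹ := by rw [ih]; group
          _ = (k * x * k⁻¹) * (k * n ^ j * k⁻¹) := by group
          _ = (x * n) * (n ^ j) := by
              rw [h1]
              have h2 : Commute k (n ^ j) := (show Commute k n from hkn).pow_right j
              rw [h2.eq]; group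
          _ = x * n ^ (j + 1) := by rw [pow_succ']; group
    have hle : Nat.card N ≤ Nat.card {z : G // IsConj x z} := by
      have hmem : ∀ m ∈ N, IsConj x (x * m) := by
        intro m hm
        have h1 : m ∈ zpowers n := by rw [← hNgen n hnN hn1]; exact hm
        obtain ⟨j, hj⟩ := (isOfFinOrder_of_finite n).mem_powers_iff_mem_zpowers.2 h1
        have hj' : n ^ j = m := hj
        rw [isConj_iff]
        exact ⟨k ^ j, by rw [hconj, hj']⟩
      apply Nat.card_le_card_of_injective (fun m : N => (⟨x * m.1, hmem _ m.2⟩ : {z : G // IsConj x z}))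
      intro a b hab
      apply Subtype.ext
      exact mul_left_cancel (congrArg Subtype.val hab)
    rw [card_conj_eq_index, hx, hNq] at hle
    exact absurd hpq (not_lt.2 hle)
  obtain ⟨n₀, hn₀⟩ : ∃ n ∈ N, n ≠ 1 := by
    by_contra hno
    push Not at hno
    have : N = ⊥ := by rw [eq_bot_iff]; exact fun n hn => mem_bot.2 (hno n hn)
    rw [this, card_bot] at hNq
    exact hq.one_lt.ne hNq
  have hKidx : K.index = p := by
    have h1 : K.index = 1 ∨ K.index.Prime := by rw [← hKmem n₀ hn₀.1 hn₀.2]; exact h n₀
    have h2 : p ∣ K.index := by rw [← hx]; exact index_dvd_of_le hKx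
    rcases h1 with h1 | h1
    · rw [h1] at h2; exact absurd (Nat.dvd_one.1 h2) hp.one_lt.ne'
    · exact ((Nat.prime_dvd_prime_iff_eq hp h1).1 h2).symm
  -- elements outside K
  have hout : ∀ w : G, w ∉ K → centralizer ({w} : Set G) ⊓ N = ⊥ ∧ (centralizer ({w} : Set G)).index = q := by
    intro w hw
    have h1 : centralizer ({w} : Set G) ⊓ N = ⊥ := by
      rw [eq_bot_iff]
      rintro n ⟨hn1, hn2⟩
      rw [mem_bot]
      by_contra hne
      apply hw
      rw [← hKmem n hn2 hne, mem_centralizer_singleton_iff]
      exact (mem_centralizer_singleton_iff.1 hn1).symm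
    refine ⟨h1, ?_⟩
    have h2 : (centralizer ({w} : Set G)).relIndex N = q := by
      rw [← inf_relIndex_right, h1, relIndex_bot_left, hNq]
    have h3 := H1.relIndex_dvd_index_of_normal_right (centralizer ({w} : Set G)) N
    rw [h2] at h3
    rcases h w with h4 | h4
    · rw [h4] at h3; exact absurd (Nat.dvd_one.1 h3) hq.one_lt.ne'
    · exact ((Nat.prime_dvd_prime_iff_eq hq h4).1 h3).symm
  have hcompl : ∀ w : G, w ∉ K → IsComplement' (centralizer ({w} : Set G)) N := by
    intro w hw
    obtain ⟨h1, h2⟩ := hout w hw
    apply isComplement'_of_card_mul_and_disjoint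
    · rw [hNq, ← h2, card_mul_index]
    · exact disjoint_iff.2 h1
  have hwN : ∀ w : G, w ∉ K → ∀ g : G, ⁅g, w⁆ ∈ N := by
    intro w hw g
    have h1 : g ∈ N ⊔ centralizer ({w} : Set G) := by
      rw [sup_comm, (hcompl w hw).sup_eq_top]; trivial
    rw [mem_sup_of_normal_left] at h1
    obtain ⟨n, hn, c, hc, rfl⟩ := h1
    have h2 := mem_centralizer_singleton_iff.1 hc
    have h3 : ⁅n * c, w⁆ = n * (w * n⁻¹ * w⁻¹) := by
      rw [commutatorElement_def]
      calc n * c * w * (n * c)⁻¹ * w⁻¹ = n * (c * w) * c⁻¹ * n⁻¹ * w⁻¹ := by group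
        _ = n * (w * n⁻¹ * w⁻¹) := by rw [h2]; group
    rw [h3]
    exact N.mul_mem hn ((inferInstance : N.Normal).conj_mem _ (N.inv_mem hn) w)
  obtain ⟨w, hw⟩ : ∃ w : G, w ∉ K := by
    by_contra hno
    push Not at hno
    have : K = ⊤ := by rw [eq_top_iff]; exact fun g _ => hno g
    rw [this, index_top] at hKidx
    exact hp.one_lt.ne hKidx
  have hab : ∀ a b : G, ⁅a, b⁆ ∈ N := by
    intro a b
    by_cases hb : b ∈ K
    · have h1 : b * w ∉ K := by
        intro h1
        have := K.mul_mem (K.inv_mem hb) h1
        rw [inv_mul_cancel_left] at this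
        exact hw this
      have h2 := hwN _ h1 a
      have h3 := hwN _ hw a
      have h4 : ⁅a, b⁆ = ⁅a, b * w⁆ * (b * ⁅a, w⁆⁻¹ * b⁻¹) := by
        simp only [commutatorElement_def]; group
      rw [h4]
      exact N.mul_mem h2 ((inferInstance : N.Normal).conj_mem _ (N.inv_mem h3) b)
    · exact hwN b hb a
  obtain ⟨hCN, hCidx⟩ := hout w hw
  set C := centralizer ({w} : Set G) with hC
  have hCab : ∀ a ∈ C, ∀ b ∈ C, a * b = b * a := by
    intro a ha b hb
    have h1 : ⁅a, b⁆ ∈ C ⊓ N := by
      refine ⟨?_, hab a b⟩
      rw [commutatorElement_def]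
      exact C.mul_mem (C.mul_mem (C.mul_mem ha hb) (C.inv_mem ha)) (C.inv_mem hb)
    rw [hCN, mem_bot] at h1
    exact commutatorElement_eq_one_iff_mul_comm.1 h1
  have hwC : w ∈ C := mem_centralizer_singleton_iff.2 rfl
  have hcen : center G = C ⊓ K := by
    apply le_antisymm
    · exact le_inf (center_le_centralizer _) (center_le_centralizer _)
    · rintro z ⟨hzC, hzK⟩
      rw [mem_center_iff]
      intro g
      have h1 : g ∈ N ⊔ C := by
        rw [sup_comm, (hcompl w hw).sup_eq_top]; trivial
      rw [mem_sup_of_normal_left] at h1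
      obtain ⟨n, hn, c, hc, rfl⟩ := h1
      have h2 := (mem_centralizer_iff.1 hzK) n hn
      have h3 := hCab c hc z hzC
      rw [mul_assoc, h3, ← mul_assoc, h2, mul_assoc]
  have hidx : (center G).index = p * q := by
    have h1 : (C ⊓ K).relIndex C * C.index = (C ⊓ K).index := relIndex_mul_index inf_le_left
    rw [inf_relIndex_left, hCidx] at h1
    have h2 : K.relIndex C = p := by
      have h3 : K.relIndex C ∣ p := by rw [← hKidx]; exact relIndex_dvd_index_of_normal K C
      rcases (Nat.dvd_prime hp).1 h3 with h4 | h4
      · rw [relIndex_eq_one] at h4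
        exact absurd (h4 hwC) hw
      · exact h4
    rw [hcen, ← h1, h2]
  refine ⟨by rw [← index_eq_card, hidx], ?_⟩
  intro hcomm
  -- then `N` commutes with `w`
  have h1 : ⁅n₀, w⁆ ∈ C ⊓ N := by
    refine ⟨?_, hab _ _⟩
    have h2 : ⁅n₀, w⁆ ∈ center G := by
      rw [← QuotientGroup.eq_one_iff]
      have h3 := hcomm.is_comm.comm (QuotientGroup.mk' (center G) n₀) (QuotientGroup.mk' (center G) w)
      show QuotientGroup.mk' (center G) ⁅n₀, w⁆ = 1
      rw [map_commutatorElement, commutatorElement_eq_one_iff_mul_comm]
      exact h3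
    rw [hcen] at h2
    exact h2.1
  rw [hCN, mem_bot, commutatorElement_eq_one_iff_mul_comm] at h1
  apply hw
  rw [← hKmem n₀ hn₀.1 hn₀.2, mem_centralizer_singleton_iff]
  exact h1.symm

/-- Let `G` be a finite group every conjugacy class of which has size 1 or a prime. Then either `G` is nilpotent of class at most 2, or `G/Z(G)` is a non-abelian group of order `pq` for distinct primes `p, q` (a Frobenius group of order `pq`). -/
theorem result {G : Type*} [Group G] [Finite G]
    (h : ∀ x : G, (Subgroup.centralizer ({x} : Set G)).index = 1 ∨ ((Subgroup.centralizer ({x} : Set G)).index).Prime) :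
    Subgroup.upperCentralSeries G 2 = ⊤ ∨
      ∃ p q : ℕ, p.Prime ∧ q.Prime ∧ p ≠ q ∧ Nat.card (G ⧸ Subgroup.center G) = p * q ∧ ¬ IsMulCommutative (G ⧸ Subgroup.center G) := by
  by_cases hmix : ∃ x y : G, (centralizer ({x} : Set G)).index.Prime ∧ (centralizer ({y} : Set G)).index.Prime ∧
      (centralizer ({x} : Set G)).index < (centralizer ({y} : Set G)).index
  · right
    obtain ⟨x, y, hx, hy, hlt⟩ := hmix
    obtain ⟨h1, h2⟩ := mixed h hx hy hlt rfl rfl
    exact ⟨_, _, hx, hy, hlt.ne, h1, h2⟩
  · left
    push Not at hmix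
    -- all noncentral classes have the same size
    have hcls : ∀ x y : G, (centralizer ({x} : Set G)).index.Prime → (centralizer ({y} : Set G)).index.Prime →
        (centralizer ({x} : Set G)).index = (centralizer ({y} : Set G)).index := fun x y hx hy =>
      le_antisymm (hmix y x hy hx) (hmix x y hx hy)
    have hnorm : ∀ x : G, (centralizer ({x} : Set G)).Normal := by
      intro x
      rcases h x with h1 | h1
      · rw [index_eq_one.1 h1]; infer_instance
      set p := (centralizer ({x} : Set G)).index with hp
      haveI := Fact.mk h1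
      -- Sylow subgroups for other primes are central
      have hcen : ∀ (r : ℕ) [Fact r.Prime], r ≠ p → ∀ R : Sylow r G, (R : Subgroup G) ≤ center G := by
        intro r _ hr R
        have htop : centralizer ((R : Subgroup G) : Set G) = ⊤ := by
          apply eq_top_of_forall_conj_mem
          intro z
          have hz : ¬ r ∣ (centralizer ({z} : Set G)).index := by
            intro hdvd
            rcases h z with h2 | h2
            · rw [h2] at hdvd
              exact (Fact.out : r.Prime).one_lt.ne' (Nat.dvd_one.1 hdvd)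
            · rw [hcls z x h2 h1] at hdvd
              exact hr ((Nat.prime_dvd_prime_iff_eq (Fact.out : r.Prime) h1).1 hdvd)
          obtain ⟨Q, hQ⟩ := H24.exists_sylow_centralizes_of_not_dvd (p := r) z hz
          obtain ⟨g, rfl⟩ := MulAction.exists_smul_eq G Q R
          refine ⟨g, ?_⟩
          rw [mem_centralizer_iff]
          intro u hu
          have hu' : g⁻¹ * u * g ∈ (Q : Subgroup G) := by
            have h3 : u ∈ MulAut.conj g • (Q : Subgroup G) := hu
            rw [mem_pointwise_smul_iff_inv_smul_mem] at h3
            simpa [MulAut.smul_def, MulAut.conj_apply, mul_assoc] using h3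
          have h4 := (mem_centralizer_iff.1 hQ) _ hu'
          calc u * (g * z * g⁻¹) = g * ((g⁻¹ * u * g) * z) * g⁻¹ := by group
            _ = g * z * g⁻¹ * u := by rw [h4]; group
        intro u hu
        rw [mem_center_iff]
        intro g
        have h5 : g ∈ centralizer ((R : Subgroup G) : Set G) := by rw [htop]; trivial
        exact ((mem_centralizer_iff.1 h5) u hu).symm
      -- so `G` is nilpotent
      have hnil : Group.IsNilpotent G := by
        apply nilpotent_of_center_quotient_pGroup (p := p)
        intro u hu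
        have h2 : zpowers u ≤ center G := by
          apply le_of_primary
          intro v hv r k hr hvk
          haveI := Fact.mk hr
          rcases Nat.eq_zero_or_pos k with h0 | h0
          · rw [h0, pow_zero, orderOf_eq_one_iff] at hvk
            rw [hvk]; exact one_mem _
          have hrp : r ≠ p := by
            intro hrp
            have h3 : r ∣ orderOf u := by
              have h4 : r ∣ orderOf v := by rw [hvk]; exact dvd_pow_self r h0.ne'
              exact h4.trans (orderOf_dvd_of_mem_zpowers hv)
            have h5 : r ∣ Nat.gcd (orderOf u) p := Nat.dvd_gcd h3 (hrp ▸ dvd_refl r)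
            rw [hu] at h5
            exact hr.one_lt.ne' (Nat.dvd_one.1 h5)
          obtain ⟨R, hR⟩ := (IsPGroup.of_card (n := k) (by rw [Nat.card_zpowers, hvk]) :
            IsPGroup r (zpowers v)).exists_le_sylow
          exact hcen r hrp R (hR (mem_zpowers v))
        exact h2 (mem_zpowers u)
      haveI := hnil
      have hmax : IsCoatom (centralizer ({x} : Set G)) := by
        constructor
        · intro h2
          rw [hp, h2, index_top] at h1
          exact Nat.not_prime_one h1
        · intro M hM
          have h2 : M.index ∣ p := index_dvd_of_le hM.le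
          rcases (Nat.dvd_prime h1).1 h2 with h3 | h3
          · exact index_eq_one.1 h3
          · exfalso
            have h4 := relIndex_mul_index hM.le
            rw [h3, ← hp] at h4
            have h5 : (centralizer ({x} : Set G)).relIndex M = 1 :=
              Nat.eq_of_mul_eq_mul_right h1.pos (by rw [h4, one_mul])
            rw [relIndex_eq_one] at h5
            exact absurd hM (not_lt_of_ge h5)
      exact NormalizerCondition.normal_of_coatom _ Group.normalizerCondition_of_isNilpotent hmax
    have hcomm : ∀ a b : G, ⁅a, b⁆ ∈ center G := by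
      intro a b
      rw [mem_center_iff]
      intro g
      -- G / C(g) is cyclic
      have h1 : ⁅a, b⁆ ∈ centralizer ({g} : Set G) := by
        haveI := hnorm g
        have hcyc : IsCyclic (G ⧸ centralizer ({g} : Set G)) := by
          rcases h g with h2 | h2
          · haveI : Subsingleton (G ⧸ centralizer ({g} : Set G)) := by
              rw [index_eq_card, Nat.card_eq_one_iff_unique] at h2
              exact h2.1
            infer_instance
          · haveI := Fact.mk h2
            exact isCyclic_of_prime_card (index_eq_card (centralizer ({g} : Set G))).symm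
        letI : CommGroup (G ⧸ centralizer ({g} : Set G)) := IsCyclic.commGroup
        rw [← QuotientGroup.eq_one_iff]
        show QuotientGroup.mk' (centralizer ({g} : Set G)) ⁅a, b⁆ = 1
        rw [map_commutatorElement, commutatorElement_eq_one_iff_mul_comm]
        exact mul_comm _ _
      exact (mem_centralizer_singleton_iff.1 h1).symm
    rw [eq_top_iff]
    intro a _
    rw [Subgroup.mem_upperCentralSeries_succ_iff]
    intro b
    rw [Subgroup.mem_upperCentralSeries_succ_iff]
    intro g
    rw [Subgroup.upperCentralSeries_zero, mem_bot]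
    have h1 := hcomm a b
    rw [mem_center_iff] at h1
    have h2 := h1 g
    rw [commutatorElement_eq_one_iff_mul_comm]
    exact h2.symm

end Cfsg.Agent.S4314
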