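import Cfsg.Statements.S4320
import Cfsg.Agent.H25.PrincipalIdeal

set_option autoImplicit false
open Cfsg

namespace Cfsg.Agent.S4320

open Subgroup Subgroup.leftTransversals

section
variable {Q B : Type*} [CommGroup Q] [AddCommGroup B]

/-- translation action on functions -/
def trans : Q →* AddMonoid.End (Q → B) where
  toFun s :=
    { toFun := fun f q => f (s⁻¹ * q)
      map_zero' := rfl
      map_add' := fun _ _ => rfl }
  map_one' := by
    apply AddMonoidHom.ext
    intro f
    funext q
    show f (1⁻¹ * q) = f q
    rw [inv_one, one_mul]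
  map_mul' a b := by
    apply AddMonoidHom.ext
    intro f
    funext q
    show f ((a * b)⁻¹ * q) = f (b⁻¹ * (a⁻¹ * q))
    congr 1
    rw [mul_inv_rev, mul_assoc]

/-- the ring homomorphism -/
noncomputable def rho : MonoidAlgebra ℤ Q →+* AddMonoid.End (Q → B) :=
  (MonoidAlgebra.lift ℤ (AddMonoid.End (Q → B)) Q trans).toRingHom

theorem rho_single (s : Q) (f : Q → B) (q : Q) : rho (MonoidAlgebra.single s 1) f q = f (s⁻¹ * q) := by
  have : (rho (MonoidAlgebra.single s 1) : AddMonoid.End (Q → B)) = trans s := by
    unfold rho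
    show MonoidAlgebra.lift ℤ (AddMonoid.End (Q → B)) Q trans (MonoidAlgebra.single s 1) = _
    rw [MonoidAlgebra.lift_single, one_smul]
  rw [this]
  rfl

end

/-- The Principal Ideal Theorem of class field theory in its group-theoretic form: for every finite group `G`, the transfer homomorphism from `G` into the abelianization `G'/G''` of its derived subgroup `G'` is the trivial homomorphism. -/
theorem result {G : Type*} [Group G] [Finite G] :
    MonoidHom.transfer (Abelianization.of : ↥(commutator G) →* Abelianization ↥(commutator G)) =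
      (1 : G →* Abelianization ↥(commutator G)) := by
  classical
  ext x
  let P : Subgroup G := commutator G
  let τ : Abelianization G → G := fun q => Quotient.out (s := QuotientGroup.leftRel P) q
  have hτ : ∀ q : G ⧸ P, ((τ q : G) : G ⧸ P) = q := fun q => Quotient.out_eq' q
  let T : P.LeftTransversal := ⟨Set.range τ, isComplement_range_left hτ⟩
  have hT : ∀ q, (T.2.leftQuotientEquiv q : G) = τ q := fun q =>
    IsComplement.leftQuotientEquiv_apply hτ q
  haveI : Fintype (G ⧸ P) := P.fintypeQuotientOfFiniteIndex
  haveI : Fintype (Abelianization G) := this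
  have hmem : ∀ (x : G) (q : Abelianization G), (τ q)⁻¹ * (x * τ ((Abelianization.of x)⁻¹ * q)) ∈ P := by
    intro x q
    rw [← QuotientGroup.eq]
    refine Eq.trans (hτ q) ?_
    have h2 : ((τ ((Abelianization.of x)⁻¹ * q) : G) : G ⧸ P) = ((Abelianization.of x)⁻¹ * q : Abelianization G) := hτ _
    have h1 : ((x * τ ((Abelianization.of x)⁻¹ * q) : G) : G ⧸ P) =
      ((x : G) : G ⧸ P) * ((τ ((Abelianization.of x)⁻¹ * q) : G) : G ⧸ P) := rfl
    refine Eq.trans ?_ h1.symm
    refine Eq.trans ?_ (congrArg (fun z : G ⧸ P => ((x : G) : G ⧸ P) * z) h2.symm)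
    exact (mul_inv_cancel_left (Abelianization.of x) q).symm
  let d : G → (Abelianization G → Additive (Abelianization ↥P)) := fun x q =>
    Additive.ofMul (Abelianization.of ⟨_, hmem x q⟩)
  have hd : ∀ x y : G, d (x * y) = d x + rho (MonoidAlgebra.single (Abelianization.of x) 1) (d y) := by
    intro x y
    funext q
    rw [Pi.add_apply, rho_single]
    show Additive.ofMul (Abelianization.of _) = Additive.ofMul (Abelianization.of _) +
      Additive.ofMul (Abelianization.of _)
    rw [← ofMul_mul, ← map_mul]
    congr 2
    apply Subtype.ext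
    show (τ q)⁻¹ * (x * y * τ ((Abelianization.of (x * y))⁻¹ * q)) =
      (τ q)⁻¹ * (x * τ ((Abelianization.of x)⁻¹ * q)) *
        ((τ ((Abelianization.of x)⁻¹ * q))⁻¹ * (y * τ ((Abelianization.of y)⁻¹ * ((Abelianization.of x)⁻¹ * q))))
    have : (Abelianization.of (x * y))⁻¹ * q = (Abelianization.of y)⁻¹ * ((Abelianization.of x)⁻¹ * q) := by
      rw [map_mul, mul_inv_rev, mul_assoc]
    rw [this]
    group
  have hmain := H25.PIT.norm_zero rho d hd x
  have h1 : MonoidHom.transfer (Abelianization.of : P →* Abelianization P) x =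
      ∏ q : Abelianization G, Abelianization.of ⟨_, hmem x q⟩ := by
    rw [MonoidHom.transfer_def _ T]
    unfold diff
    apply Finset.prod_congr
    · exact congrArg (@Finset.univ (G ⧸ P)) (Subsingleton.elim _ _)
    · intro q _
      congr 1
      apply Subtype.ext
      show ((T.2.leftQuotientEquiv q : G))⁻¹ * _ = _
      rw [smul_apply_eq_smul_apply_inv_smul, hT, hT]
      rfl
  show MonoidHom.transfer (Abelianization.of : P →* Abelianization P) x = 1
  rw [h1]
  have h2 := congrFun hmain 1
  rw [map_sum] at h2
  have h3 : (∑ q : Abelianization G, rho (MonoidAlgebra.single q 1) : AddMonoid.End _) (d x) 1 =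
      ∑ q : Abelianization G, d x q := by
    have h4 : (∑ q : Abelianization G, rho (MonoidAlgebra.single q 1) : AddMonoid.End _) (d x) =
        ∑ q : Abelianization G, rho (MonoidAlgebra.single q 1) (d x) := AddMonoidHom.finsetSum_apply _ _ _
    rw [h4, Finset.sum_apply]
    simp only [rho_single, mul_one]
    exact Fintype.sum_equiv (Equiv.inv _) _ _ (fun _ => rfl)
  rw [h3] at h2
  have h5 : Additive.ofMul (∏ q : Abelianization G, Abelianization.of (⟨_, hmem x q⟩ : P)) = ∑ q : Abelianization G, d x q :=
    ofMul_prod _ _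
  rw [h2] at h5
  exact h5

end Cfsg.Agent.S4320
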