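import Cfsg.Statements.S4321
import Cfsg.Agent.H10.PS2

set_option autoImplicit false
open Cfsg

namespace Cfsg.Agent.S4321

open H10.PS in
theorem exists_p_elt {G : Type*} [Group G] [Finite G] (p : ℕ) [hp : Fact p.Prime]
    (hZ : ¬ p ∣ Nat.card ↥(Subgroup.center G)) {x : G} (hx : p ∣ orderOf x) :
    ∃ b : G, PE p b ∧ (C b).index ∣ (C x).index ∧ (C b).index ≠ 1 := by
  obtain ⟨i, j, hij, hi, hj⟩ := H24.exists_pPart_decomp p x
  have h1 : x ^ i ≠ 1 := by
    intro h0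
    rw [h0, one_mul] at hij
    rw [← hij] at hj
    have := Nat.Coprime.eq_one_of_dvd hj.symm hx
    exact hp.out.one_lt.ne' this
  refine ⟨x ^ i, hi, Subgroup.index_dvd_of_le (H25.centralizer_le_pow x i), ?_⟩
  intro h0
  have h2 := (H25.index_centralizer_eq_one_iff (x ^ i)).1 h0
  apply hZ
  have h3 : p ∣ orderOf (x ^ i) := PE.dvd hi h1
  have h4 := orderOf_dvd_natCard (⟨x ^ i, h2⟩ : Subgroup.center G)
  rw [Subgroup.orderOf_mk] at h4
  exact h3.trans h4

/-- Let `G` be a finite group and `p` a prime not dividing the order of the centre of `G`. Consider the primes dividing the size of some conjugacy class of a `p`-singular element (an element of order divisible by `p`), two of them adjacent when their product divides such a class size. Then any two distinct such primes are joined by a path with at most 3 edges (the graph is connected of diameter at most 3). -/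
theorem result {G : Type*} [Group G] [Finite G] (p : ℕ) [Fact p.Prime]
    (hZ : ¬ p ∣ Nat.card ↥(Subgroup.center G)) (r s : ℕ) (hr : (r.Prime ∧ ∃ x : G, p ∣ orderOf x ∧ r ∣ (Subgroup.centralizer ({x} : Set G)).index)) (hs : (s.Prime ∧ ∃ x : G, p ∣ orderOf x ∧ s ∣ (Subgroup.centralizer ({x} : Set G)).index)) (hrs : r ≠ s) :
    (∃ x : G, p ∣ orderOf x ∧ r * s ∣ (Subgroup.centralizer ({x} : Set G)).index) ∨ (∃ t : ℕ, (t.Prime ∧ ∃ x : G, p ∣ orderOf x ∧ t ∣ (Subgroup.centralizer ({x} : Set G)).index) ∧ t ≠ r ∧ t ≠ s ∧ (∃ x : G, p ∣ orderOf x ∧ r * t ∣ (Subgroup.centralizer ({x} : Set G)).index) ∧ (∃ x : G, p ∣ orderOf x ∧ t * s ∣ (Subgroup.centralizer ({x} : Set G)).index)) ∨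
      (∃ t u : ℕ, (t.Prime ∧ ∃ x : G, p ∣ orderOf x ∧ t ∣ (Subgroup.centralizer ({x} : Set G)).index) ∧ (u.Prime ∧ ∃ x : G, p ∣ orderOf x ∧ u ∣ (Subgroup.centralizer ({x} : Set G)).index) ∧ t ≠ r ∧ u ≠ s ∧ t ≠ u ∧ (∃ x : G, p ∣ orderOf x ∧ r * t ∣ (Subgroup.centralizer ({x} : Set G)).index) ∧ (∃ x : G, p ∣ orderOf x ∧ t * u ∣ (Subgroup.centralizer ({x} : Set G)).index) ∧ (∃ x : G, p ∣ orderOf x ∧ u * s ∣ (Subgroup.centralizer ({x} : Set G)).index)) := by
  obtain ⟨hrp, x, hx, hrx⟩ := hr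
  obtain ⟨hsp, y, hy, hsy⟩ := hs
  have hmul : ∀ {a b n : ℕ}, a.Prime → b.Prime → a ≠ b → a ∣ n → b ∣ n → a * b ∣ n :=
    fun ha hb hab h1 h2 => Nat.Coprime.mul_dvd_of_dvd_of_dvd ((Nat.coprime_primes ha hb).2 hab) h1 h2
  by_cases h1 : r ∣ (Subgroup.centralizer ({y} : Set G)).index
  · exact Or.inl ⟨y, hy, hmul hrp hsp hrs h1 hsy⟩
  by_cases h2 : s ∣ (Subgroup.centralizer ({x} : Set G)).index
  · exact Or.inl ⟨x, hx, hmul hrp hsp hrs hrx h2⟩
  by_cases hco : (Subgroup.centralizer ({x} : Set G)).index.Coprime (Subgroup.centralizer ({y} : Set G)).index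
  · obtain ⟨b, hb, hbx, hb1⟩ := exists_p_elt p hZ hx
    obtain ⟨c, hc, hcy, hc1⟩ := exists_p_elt p hZ hy
    have hbc := Nat.Coprime.coprime_dvd_left hbx (Nat.Coprime.coprime_dvd_right hcy hco)
    obtain ⟨d, hd, hdb, hdc⟩ := H10.PS.exists_link hb hc hb1 hc1 hbc
    obtain ⟨t, ht, htd, htb⟩ := Nat.Prime.not_coprime_iff_dvd.1 hdb
    obtain ⟨u, hu, hud, huc⟩ := Nat.Prime.not_coprime_iff_dvd.1 hdc
    have htx : t ∣ (Subgroup.centralizer ({x} : Set G)).index := htb.trans hbx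
    have huy : u ∣ (Subgroup.centralizer ({y} : Set G)).index := huc.trans hcy
    have htu : t ≠ u := by
      rintro rfl
      exact Nat.Prime.not_coprime_iff_dvd.2 ⟨t, ht, htx, huy⟩ hco
    have hts : t ≠ s := by rintro rfl; exact h2 htx
    have hur : u ≠ r := by rintro rfl; exact h1 huy
    by_cases htr : t = r
    · by_cases hus : u = s
      · left
        refine ⟨d, hd, hmul hrp hsp hrs ?_ ?_⟩
        · rw [← htr]; exact htd
        · rw [← hus]; exact hud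
      · right; left
        refine ⟨u, ⟨hu, y, hy, huy⟩, hur, hus, ⟨d, hd, hmul hrp hu hur.symm ?_ hud⟩,
          ⟨y, hy, hmul hu hsp hus huy hsy⟩⟩
        rw [← htr]; exact htd
    · by_cases hus : u = s
      · right; left
        refine ⟨t, ⟨ht, x, hx, htx⟩, htr, hts, ⟨x, hx, hmul hrp ht (Ne.symm htr) hrx htx⟩,
          ⟨d, hd, hmul ht hsp hts htd ?_⟩⟩
        rw [← hus]; exact hud
      · right; right
        exact ⟨t, u, ⟨ht, x, hx, htx⟩, ⟨hu, y, hy, huy⟩, htr, hus, htu,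
          ⟨x, hx, hmul hrp ht (Ne.symm htr) hrx htx⟩, ⟨d, hd, hmul ht hu htu htd hud⟩,
          ⟨y, hy, hmul hu hsp hus huy hsy⟩⟩
  · obtain ⟨t, ht, htx, hty⟩ := Nat.Prime.not_coprime_iff_dvd.1 hco
    right; left
    have htr : t ≠ r := by rintro rfl; exact h1 hty
    have hts : t ≠ s := by rintro rfl; exact h2 htx
    exact ⟨t, ⟨ht, x, hx, htx⟩, htr, hts, ⟨x, hx, hmul hrp ht (Ne.symm htr) hrx htx⟩,
      ⟨y, hy, hmul ht hsp hts hty hsy⟩⟩

end Cfsg.Agent.S4321
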