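import Cfsg.Statements.S4416
import Cfsg.Agent.H18.Xt2

set_option autoImplicit false
open Cfsg
open Cfsg.Agent.H18

namespace Cfsg.Agent.S4416

/-- Classification of extraspecial 2-groups in intrinsic form. An extraspecial 2-group has order 2^(2m+1) for some m ≥ 1, and the number of its elements squaring to the identity is either 2^(2m) + 2^m or 2^(2m) − 2^m; two extraspecial 2-groups of the same order with the same number of such elements are isomorphic. (The two cases are the central products of m dihedral groups of order 8, and of m − 1 dihedral groups with one quaternion group.) -/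
theorem result (E : Type*) [Group E] [Finite E] (hE : Cfsg.IsExtraspecial 2 E) :
    (∃ m : ℕ, 1 ≤ m ∧ Nat.card E = 2 ^ (2 * m + 1) ∧
      (Nat.card {x : E // x ^ 2 = 1} = 2 ^ (2 * m) + 2 ^ m ∨ Nat.card {x : E // x ^ 2 = 1} = 2 ^ (2 * m) - 2 ^ m)) ∧
    ∀ (E' : Type*) [Group E'] [Finite E'], Cfsg.IsExtraspecial 2 E' → Nat.card E' = Nat.card E →
      Nat.card {x : E' // x ^ 2 = 1} = Nat.card {x : E // x ^ 2 = 1} → Nonempty (E ≃* E') := by
  obtain ⟨z, hxs⟩ := H29.xs_top hE
  have h := Xt.of_xs hxs
  refine ⟨?_, ?_⟩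
  · obtain ⟨m, hm1, hm2⟩ := Xt.card_inv2 _ E z h le_rfl
    have hm : 1 ≤ m := by
      by_contra hcon
      have h0 : m = 0 := by omega
      subst h0
      -- E of order two is not extraspecial
      have h2 : Nat.card E = 2 := by simpa using hm1
      obtain ⟨⟨_, _, hc⟩, hz2⟩ := hE
      have htop : Subgroup.center E = ⊤ := Subgroup.eq_top_of_card_eq _ (by rw [hz2, h2])
      have hbot := (commutator_eq_bot_iff_center_eq_top (G := E)).2 htop
      rw [hbot] at hc
      rw [← hc] at hz2
      simp at hz2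
    refine ⟨m, hm, hm1, ?_⟩
    rcases hm2 with h1 | ⟨_, h1⟩
    · exact Or.inl h1
    · exact Or.inr h1
  · intro E' _ _ hE' hcard hinv
    obtain ⟨z', hxs'⟩ := H29.xs_top hE'
    obtain ⟨e, he⟩ := Xt.classify _ E z E' z' h (Xt.of_xs hxs') le_rfl hcard.symm hinv.symm
    exact ⟨e⟩

end Cfsg.Agent.S4416
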