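import Cfsg.Statements.S4421

set_option autoImplicit false
open Cfsg

namespace Cfsg.Agent.S4421

theorem mem_norm_iff {G : Type*} [Group G] [Finite G] (S : Subgroup G) (x : G) :
    x ∈ Subgroup.normalizer (S : Set G) ↔ S.map (MulAut.conj x).toMonoidHom = S := by
  rw [Subgroup.mem_normalizer_iff]
  constructor
  · intro h
    ext y
    rw [Subgroup.mem_map]
    constructor
    · rintro ⟨z, hz, rfl⟩
      exact (h z).1 hz
    · intro hy
      refine ⟨x⁻¹ * y * x, ?_, ?_⟩
      · rw [h]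
        have : x * (x⁻¹ * y * x) * x⁻¹ = y := by group
        rwa [this]
      · simp [mul_assoc]
  · intro h y
    constructor
    · intro hy
      rw [← h]
      exact ⟨y, hy, rfl⟩
    · intro hy
      rw [← h] at hy
      obtain ⟨z, hz, hzy⟩ := hy
      have : z = y := (MulAut.conj x).injective hzy
      rwa [← this]

theorem map_conj_mul {G : Type*} [Group G] (S : Subgroup G) (x y : G) :
    S.map (MulAut.conj (x * y)).toMonoidHom =
      (S.map (MulAut.conj y).toMonoidHom).map (MulAut.conj x).toMonoidHom := by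
  rw [Subgroup.map_map]
  congr 1
  ext z
  simp

theorem map_conj_mono {G : Type*} [Group G] {S T : Subgroup G} (h : S ≤ T) (x : G) :
    S.map (MulAut.conj x).toMonoidHom ≤ T.map (MulAut.conj x).toMonoidHom := Subgroup.map_mono h

theorem result {G : Type*} [Group G] [Finite G] (A S H : Subgroup G)
    (hAS : A ≤ S) (hSH : S ≤ H)
    (h1 : ∀ g : G, A.map (MulAut.conj g).toMonoidHom ≤ S → ∃ s ∈ S, A.map (MulAut.conj g).toMonoidHom = A.map (MulAut.conj s).toMonoidHom)
    (h2 : ∀ g : G, S.map (MulAut.conj g).toMonoidHom ≤ H → ∃ y ∈ H, S.map (MulAut.conj g).toMonoidHom = S.map (MulAut.conj y).toMonoidHom)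
    (h3 : ∀ x ∈ Subgroup.normalizer (A : Set G), S.map (MulAut.conj x).toMonoidHom ≤ H) :
    ∀ x ∈ Subgroup.normalizer (A : Set G), ∃ y ∈ H ⊓ Subgroup.normalizer (A : Set G),
      ∃ z ∈ Subgroup.normalizer (S : Set G) ⊓ Subgroup.normalizer (A : Set G), x = y * z := by
  intro x hx
  obtain ⟨y, hyH, hy⟩ := h2 x (h3 x hx)
  -- `S^x = S^y`, so `S^(y⁻¹ x) = S`
  have hS : S.map (MulAut.conj (y⁻¹ * x)).toMonoidHom = S := by
    rw [map_conj_mul, hy, ← map_conj_mul]
    simp
    exact Subgroup.map_id S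
  have hA : A.map (MulAut.conj (y⁻¹ * x)).toMonoidHom ≤ S := by
    rw [← hS]
    exact map_conj_mono hAS _
  obtain ⟨s, hs, hsA⟩ := h1 _ hA
  -- `A^(y⁻¹x) = A^s`; `x` normalizes `A` so `A^(y⁻¹) = A^s`
  have hxA := (mem_norm_iff A x).1 hx
  have h4 : A.map (MulAut.conj y⁻¹).toMonoidHom = A.map (MulAut.conj s).toMonoidHom := by
    rw [← hsA, map_conj_mul, hxA]
  have h5 : y * s ∈ Subgroup.normalizer (A : Set G) := by
    rw [mem_norm_iff, map_conj_mul, ← h4, ← map_conj_mul]
    simp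
    exact Subgroup.map_id A
  refine ⟨y * s, ⟨H.mul_mem hyH (hSH hs), h5⟩, (y * s)⁻¹ * x, ⟨?_, ?_⟩, by group⟩
  · have h6 : (y * s)⁻¹ * x = s⁻¹ * (y⁻¹ * x) := by group
    rw [h6]
    apply mul_mem
    · exact Subgroup.le_normalizer (S.inv_mem hs)
    · exact (mem_norm_iff S _).2 hS
  · exact Subgroup.mul_mem _ (Subgroup.inv_mem _ h5) hx

end Cfsg.Agent.S4421
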