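import Cfsg.Statements.S4422

set_option autoImplicit false
open Cfsg

namespace Cfsg.Agent.S4422

theorem aux (e : ℕ) (m : ℕ) (hm : m ≠ 0) (h : ∀ r : ℕ, r.Prime → r ∣ m → r ≡ 1 [MOD e]) :
    m ≡ 1 [MOD e] := by
  induction m using Nat.recOnMul with
  | zero => exact absurd rfl hm
  | one => rfl
  | prime p hp => exact h p hp dvd_rfl
  | mul a b iha ihb =>
    have ha : a ≠ 0 := fun h => hm (by rw [h, zero_mul])
    have hb : b ≠ 0 := fun h => hm (by rw [h, mul_zero])
    have h1 := iha ha fun r hr hd => h r hr (hd.mul_right b)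
    have h2 := ihb hb fun r hr hd => h r hr (hd.mul_left a)
    simpa using h1.mul h2

theorem result (q e m : ℕ) (hq : 2 ≤ q) (he : 1 ≤ e)
    (hm : m ∣ q ^ e - 1) (hcop : ∀ i : ℕ, 1 ≤ i → i < e → Nat.Coprime m (q ^ i - 1)) :
    m % e = 1 % e := by
  have hqe : 1 < q ^ e := Nat.one_lt_pow (by omega) (by omega)
  have hm0 : m ≠ 0 := by
    rintro rfl
    have := Nat.eq_zero_of_zero_dvd hm
    omega
  refine aux e m hm0 ?_
  intro r hr hrm
  haveI : Fact r.Prime := ⟨hr⟩
  have key : ∀ i : ℕ, ((q : ZMod r) ^ i = 1 ↔ r ∣ q ^ i - 1) := by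
    intro i
    have hqi : 1 ≤ q ^ i := Nat.one_le_pow _ _ (by omega)
    rw [← ZMod.natCast_eq_zero_iff, Nat.cast_sub hqi]
    push_cast
    rw [sub_eq_zero]
  have hord : orderOf (q : ZMod r) = e := by
    have h1 : (q : ZMod r) ^ e = 1 := (key e).2 (hrm.trans hm)
    apply le_antisymm
    · exact Nat.le_of_dvd (by omega) (orderOf_dvd_of_pow_eq_one h1)
    · by_contra hlt
      push Not at hlt
      have hpos : 0 < orderOf (q : ZMod r) := by
        rw [orderOf_pos_iff, isOfFinOrder_iff_pow_eq_one]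
        exact ⟨e, by omega, h1⟩
      have h2 := hcop _ hpos hlt
      have h3 : r ∣ q ^ orderOf (q : ZMod r) - 1 := (key _).1 (pow_orderOf_eq_one _)
      have h4 := Nat.dvd_gcd hrm h3
      rw [h2] at h4
      exact hr.one_lt.ne' (Nat.dvd_one.1 h4)
  have hq0 : (q : ZMod r) ≠ 0 := by
    intro h0
    have h1 : (q : ZMod r) ^ e = 1 := (key e).2 (hrm.trans hm)
    rw [h0, zero_pow (by omega)] at h1
    exact zero_ne_one h1
  have h5 : e ∣ r - 1 := by
    rw [← hord]
    exact ZMod.orderOf_dvd_card_sub_one hq0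
  exact ((Nat.modEq_iff_dvd' hr.one_lt.le).2 h5).symm

end Cfsg.Agent.S4422
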