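import Cfsg.Statements.S4423
import Cfsg.Agent.H18.Prim3

set_option autoImplicit false
open Cfsg
open Cfsg.Agent.H18.Zsig

namespace Cfsg.Agent.S4423

theorem key_le {m N : ℕ} (A P : ℕ) (hP : 0 < P) (hN : N = A * P) (hm : m ∣ N) (hc : Nat.Coprime m A) :
    m ≤ P := by
  rw [hN] at hm
  exact Nat.le_of_dvd hP (hc.dvd_of_dvd_mul_left hm)

theorem cop {m q i : ℕ} (d : ℕ) (h : Nat.Coprime m (q ^ i - 1)) (hd : d ∣ q ^ i - 1) : Nat.Coprime m d :=
  Nat.Coprime.coprime_dvd_right hd h

/-- Size of the primitive part of `q^e - 1`. For a prime power `q` and `e ≥ 3`, call a divisor of `q^e - 1` primitive when it is coprime to `q^i - 1` for every `1 ≤ i < e`; the primitive part is the largest primitive divisor. Apart from thirteen exceptional pairs, the primitive part is at least `3e + 1`: there is a primitive divisor `m ≥ 3e + 1` unless `(q, e)` is `(2, 6)` (where every primitive divisor is 1), one of `(2,4), (2,10), (2,12), (2,18), (3,4), (3,6), (5,6)` (where the primitive part is exactly `e + 1`),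 or one of `(2,3), (2,8), (2,20), (4,3), (4,6)` (where it is exactly `2e + 1`). The statement asserts the existence of a primitive divisor `m ≥ 3e + 1` outside the thirteen pairs, and that every primitive divisor is at most `2e + 1` for the thirteen pairs. -/
theorem result (q e : ℕ) (hq : IsPrimePow q) (he : 3 ≤ e) :
    ((q, e) ∉ [(2, 6), (2, 4), (2, 10), (2, 12), (2, 18), (3, 4), (3, 6), (5, 6), (2, 3), (2, 8), (2, 20), (4, 3), (4, 6)] →
      ∃ m : ℕ, m ∣ q ^ e - 1 ∧ (∀ i : ℕ, 1 ≤ i → i < e → Nat.Coprime m (q ^ i - 1)) ∧ 3 * e + 1 ≤ m) ∧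
    ((q, e) ∈ [(2, 6), (2, 4), (2, 10), (2, 12), (2, 18), (3, 4), (3, 6), (5, 6), (2, 3), (2, 8), (2, 20), (4, 3), (4, 6)] →
      ∀ m : ℕ, m ∣ q ^ e - 1 → (∀ i : ℕ, 1 ≤ i → i < e → Nat.Coprime m (q ^ i - 1)) → m ≤ 2 * e + 1) := by
  have hq2 : 2 ≤ q := hq.two_le
  constructor
  · intro hex
    simp only [List.mem_cons, List.not_mem_nil, or_false, Prod.mk.injEq, not_or] at hex
    obtain ⟨x1, x2, x3, x4, x5, x6, x7, x8, x9, x10, x11, x12, x13⟩ := hex
    have hb : 3 * e + 1 ≤ Phi e q ∧ ∀ r, r.Prime → r ∣ e → r ∣ Phi e q → (3 * e + 1) * r ≤ Phi e q := by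
      by_cases hq' : q = 2
      · subst hq'
        exact bound_two (by omega) (fun h => x9 ⟨rfl, h⟩) (fun h => x2 ⟨rfl, h⟩) (fun h => x1 ⟨rfl, h⟩)
          (fun h => x10 ⟨rfl, h⟩) (fun h => x3 ⟨rfl, h⟩) (fun h => x4 ⟨rfl, h⟩) (fun h => x5 ⟨rfl, h⟩)
          (fun h => x11 ⟨rfl, h⟩)
      · exact bound_ge3 (by omega) (by omega) x6 x7 x8 x12 x13
    obtain ⟨m, hm, hcop, hcase⟩ := prim_part (n := e) (a := q) (by omega) (by omega)
    refine ⟨m, hm, hcop, ?_⟩
    rcases hcase with rfl | ⟨r, hr, hre, hrm⟩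
    · exact hb.1
    · have h1 := hb.2 r hr hre (by rw [hrm]; exact dvd_mul_right r m)
      rw [hrm, mul_comm r m] at h1
      exact Nat.le_of_mul_le_mul_right h1 hr.pos
  · intro hmem m hm h
    simp only [List.mem_cons, List.not_mem_nil, or_false, Prod.mk.injEq] at hmem
    rcases hmem with ⟨rfl, rfl⟩ | ⟨rfl, rfl⟩ | ⟨rfl, rfl⟩ | ⟨rfl, rfl⟩ | ⟨rfl, rfl⟩ | ⟨rfl, rfl⟩ | ⟨rfl, rfl⟩ |
      ⟨rfl, rfl⟩ | ⟨rfl, rfl⟩ | ⟨rfl, rfl⟩ | ⟨rfl, rfl⟩ | ⟨rfl, rfl⟩ | ⟨rfl, rfl⟩
    · have c3 := cop 3 (h 2 (by norm_num) (by norm_num)) (by norm_num)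
      have c7 := cop 7 (h 3 (by norm_num) (by norm_num)) (by norm_num)
      exact (key_le (3 * 3 * 7) 1 (by norm_num) (by norm_num) hm ((c3.mul_right c3).mul_right c7)).trans (by norm_num)
    · have c3 := cop 3 (h 2 (by norm_num) (by norm_num)) (by norm_num)
      exact (key_le 3 5 (by norm_num) (by norm_num) hm c3).trans (by norm_num)
    · have c3 := cop 3 (h 2 (by norm_num) (by norm_num)) (by norm_num)
      have c31 := cop 31 (h 5 (by norm_num) (by norm_num)) (by norm_num)
      exact (key_le (3 * 31) 11 (by norm_num) (by norm_num) hm (c3.mul_right c31)).trans (by norm_num)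
    · have c3 := cop 3 (h 2 (by norm_num) (by norm_num)) (by norm_num)
      have c5 := cop 5 (h 4 (by norm_num) (by norm_num)) (by norm_num)
      have c7 := cop 7 (h 3 (by norm_num) (by norm_num)) (by norm_num)
      exact (key_le (3 * 3 * (5 * 7)) 13 (by norm_num) (by norm_num) hm
        ((c3.mul_right c3).mul_right (c5.mul_right c7))).trans (by norm_num)
    · have c3 := cop 3 (h 2 (by norm_num) (by norm_num)) (by norm_num)
      have c7 := cop 7 (h 3 (by norm_num) (by norm_num)) (by norm_num)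
      have c73 := cop 73 (h 9 (by norm_num) (by norm_num)) (by norm_num)
      exact (key_le (3 * 3 * 3 * (7 * 73)) 19 (by norm_num) (by norm_num) hm
        (((c3.mul_right c3).mul_right c3).mul_right (c7.mul_right c73))).trans (by norm_num)
    · have c2 := cop 2 (h 1 (by norm_num) (by norm_num)) (by norm_num)
      exact (key_le (2 * 2 * (2 * 2)) 5 (by norm_num) (by norm_num) hm
        ((c2.mul_right c2).mul_right (c2.mul_right c2))).trans (by norm_num)
    · have c2 := cop 2 (h 1 (by norm_num) (by norm_num)) (by norm_num)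
      have c13 := cop 13 (h 3 (by norm_num) (by norm_num)) (by norm_num)
      exact (key_le (2 * 2 * (2 * 13)) 7 (by norm_num) (by norm_num) hm
        ((c2.mul_right c2).mul_right (c2.mul_right c13))).trans (by norm_num)
    · have c2 := cop 2 (h 1 (by norm_num) (by norm_num)) (by norm_num)
      have c3 := cop 3 (h 2 (by norm_num) (by norm_num)) (by norm_num)
      have c31 := cop 31 (h 3 (by norm_num) (by norm_num)) (by norm_num)
      exact (key_le (2 * 2 * 2 * (3 * 3 * 31)) 7 (by norm_num) (by norm_num) hm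
        (((c2.mul_right c2).mul_right c2).mul_right ((c3.mul_right c3).mul_right c31))).trans (by norm_num)
    · exact Nat.le_of_dvd (by norm_num) hm
    · have c15 := cop 15 (h 4 (by norm_num) (by norm_num)) (by norm_num)
      exact (key_le 15 17 (by norm_num) (by norm_num) hm c15).trans (by norm_num)
    · have c3 := cop 3 (h 2 (by norm_num) (by norm_num)) (by norm_num)
      have c5 := cop 5 (h 4 (by norm_num) (by norm_num)) (by norm_num)
      have c11 := cop 11 (h 10 (by norm_num) (by norm_num)) (by norm_num)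
      have c31 := cop 31 (h 5 (by norm_num) (by norm_num)) (by norm_num)
      exact (key_le (3 * (5 * 5) * (11 * 31)) 41 (by norm_num) (by norm_num) hm
        ((c3.mul_right (c5.mul_right c5)).mul_right (c11.mul_right c31))).trans (by norm_num)
    · have c3 := cop 3 (h 1 (by norm_num) (by norm_num)) (by norm_num)
      exact (key_le (3 * 3) 7 (by norm_num) (by norm_num) hm (c3.mul_right c3)).trans (by norm_num)
    · have c3 := cop 3 (h 1 (by norm_num) (by norm_num)) (by norm_num)
      have c5 := cop 5 (h 2 (by norm_num) (by norm_num)) (by norm_num)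
      have c7 := cop 7 (h 3 (by norm_num) (by norm_num)) (by norm_num)
      exact (key_le (3 * 3 * (5 * 7)) 13 (by norm_num) (by norm_num) hm
        ((c3.mul_right c3).mul_right (c5.mul_right c7))).trans (by norm_num)

end Cfsg.Agent.S4423
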