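import Cfsg.Statements.S4440
import Cfsg.Agent.L.KO4

set_option autoImplicit false
open Cfsg

namespace Cfsg.Agent.S4440

/-- Let G be a finite p-solvable group and fix a maximal ideal M of the algebraic integers containing p. Let U be a set of irreducible characters of G such that the class function Σ_{χ ∈ U} χ(1)·χ vanishes at every p-singular element of G. Then U is a union of p-blocks: if χ ∈ U and ψ lies in the same block as χ, then ψ ∈ U. -/
theorem result {G : Type*} [Group G] [Finite G] (p : ℕ) [Fact p.Prime] (M : Ideal Cfsg.AlgInt) (hM : Cfsg.IsPModular p M) (hsolv : Cfsg.IsPSolvable p G) (U : Set (Cfsg.IrrCharacter G)) (hU : ∀ x : G, p ∣ orderOf x → ∑ᶠ χ ∈ U, (χ : G → ℂ) 1 * (χ : G → ℂ) x = 0) (χ : Cfsg.IrrCharacter G) (hχ : χ ∈ U) (ψ : Cfsg.IrrCharacter G) (hψ : Cfsg.SameBlock M (χ : G → ℂ) (ψ : G → ℂ)) : ψ ∈ U := by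
  classical
  letI : Fintype G := Fintype.ofFinite G
  letI := Fintype.ofFinite (Cfsg.IrrCharacter G)
  refine Cfsg.Agent.LKO.main p M hM (Nat.card G) G le_rfl hsolv U ?_ χ hχ ψ hψ
  intro x hx
  have h := congrArg (starRingEnd ℂ) (hU x hx)
  rw [map_zero, Cfsg.Agent.H11.finsum_mem_irr, map_sum] at h
  rw [Cfsg.Agent.H11.coeff_fIdem]
  unfold Cfsg.blockCoeff
  rw [Cfsg.Agent.H11.finsum_mem_irr, ← mul_zero (Nat.card G : ℂ)⁻¹, ← h]
  congr 1
  refine Finset.sum_congr rfl fun η _ => ?_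
  obtain ⟨d, -, hd⟩ := Cfsg.Agent.H3.irr_one_eq_nat η.2
  rw [map_mul (starRingEnd ℂ), hd, Complex.conj_natCast]

end Cfsg.Agent.S4440
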