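import Cfsg.Statements.S4442
import Cfsg.Agent.L.DO12

set_option autoImplicit false
open Cfsg

namespace Cfsg.Agent.S4442

/-- Blocks of defect one. Let p be an odd prime and G a finite group whose Sylow p-subgroup P has order p; let C = C_G(P) and N = N_G(P), and fix a maximal ideal M of the algebraic integers containing p. Let B be a block of G with defect group P, b a block of C inducing B, and θ the member of b having P in its kernel (there is exactly one). Let T be the stabilizer of θ in N (the elements g ∈ N with θ(g c g⁻¹) = θ(c) for all c ∈ C) and e the index of C in T. Then e divides p − 1 and B contains exactly e + (p − 1)/e irreducible characters. Moreover B is the disjoint union of a set X of e characters and a set Y of (p − 1)/e characters such that, with f the index of C in N: every χ ∈ X has χ(1) ≡ ±(f/e)·θ(1) (mod p), there is one sign ε with ψ(1) ≡ ε f θ(1) (mod p) for all ψ ∈ Y, and all members of Y agree on the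 p-regular elements of G. -/
theorem result {G : Type*} [Group G] [Finite G] (p : ℕ) [Fact p.Prime] (M : Ideal Cfsg.AlgInt) (hM : Cfsg.IsPModular p M) (hodd : p ≠ 2) (P : Sylow p G) (hP : Nat.card P = p) (B : Set (Cfsg.IrrCharacter G)) (hB : Cfsg.IsPBlock M B) (hBP : Cfsg.IsDefectGroup p M B P) (b : Set (Cfsg.IrrCharacter (Subgroup.centralizer ((P : Subgroup G) : Set G)))) (hind : Cfsg.IsInducedBlock M (Subgroup.centralizer ((P : Subgroup G) : Set G)) b B) (θ : Cfsg.IrrCharacter (Subgroup.centralizer ((P : Subgroup G) : Set G))) (hθ : θ ∈ b) (hθP : ∀ x : Subgroup.centralizer ((P : Subgroup G) : Set G), (x : G) ∈ (P : Subgroup G) → (θ : Subgroup.centralizer ((P : Subgroup G) : Set G) → ℂ) x = (θ : Subgroup.centralizer ((P : Subgroup G) : Set G) → ℂ) 1) (T : Subgroup G) (hT : ∀ g : G, g ∈ T ↔ (g ∈ Subgroup.normalizer ((P : Subgroup G) : Set G) ∧ ∀ c c' : Subgroup.centralizer ((P : Subgroup G) : Set G), (c' : G) = g * c * g⁻¹ → (θ :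 Subgroup.centralizer ((P : Subgroup G) : Set G) → ℂ) c' = (θ : Subgroup.centralizer ((P : Subgroup G) : Set G) → ℂ) c)) (e f : ℕ) (he : (Subgroup.centralizer ((P : Subgroup G) : Set G)).relIndex T = e) (hf : (Subgroup.centralizer ((P : Subgroup G) : Set G)).relIndex (Subgroup.normalizer ((P : Subgroup G) : Set G)) = f) : e ∣ p - 1 ∧ Nat.card B = e + (p - 1) / e ∧ ∃ X Y : Set (Cfsg.IrrCharacter G), B = X ∪ Y ∧ Disjoint X Y ∧ Nat.card X = e ∧ Nat.card Y = (p - 1) / e ∧ (∀ χ ∈ X, (Cfsg.charDegree (χ : G → ℂ) : ℤ) ≡ ((f / e * Cfsg.charDegree (θ : Subgroup.centralizer ((P : Subgroup G) : Set G) → ℂ) : ℕ) : ℤ) [ZMOD p] ∨ (Cfsg.charDegree (χ : G → ℂ) : ℤ) ≡ -((f / e * Cfsg.charDegree (θ : Subgroup.centralizer ((P : Subgroup G) : Set G) → ℂ) : ℕ) : ℤ) [ZMOD p]) ∧ (∃ ε : ℤ, (ε = 1 ∨ ε = -1) ∧ ∀ ψ ∈ Y, (Cfsg.charDegree (ψ : G → ℂ) : ℤ) ≡ ε * ((f * Cfsg.charDegree (θ : Subgroup.centralizer ((P : Subgroup G) : Set G) → ℂ) : ℕ) : ℤ) [ZMOD p])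 ∧ ∀ ψ ∈ Y, ∀ ψ' ∈ Y, ∀ g : G, ¬ p ∣ orderOf g → (ψ : G → ℂ) g = (ψ' : G → ℂ) g := by
  classical
  let _ : Fintype G := Fintype.ofFinite G
  let _ : Fintype (Cfsg.Agent.H26.cz (P : Subgroup G)) := Fintype.ofFinite _
  have hpr := hM.2.1.isPrime
  have h := Cfsg.Agent.LD.Loc.of_sylow P hP
  have hker := Cfsg.Agent.LD.Loc.inKer_of h θ.2 hθP
  have hTh : θ ∈ Cfsg.Agent.LD.Th M (P : Subgroup G) B :=
    ⟨hker, by rw [← Cfsg.Agent.H11.isPBlock_eq_blockOf hind.1 hθ]; exact hind⟩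
  have hTe : T = Cfsg.Agent.LD.stT (P : Subgroup G) θ := by
    ext g
    rw [hT, Cfsg.Agent.LD.mem_stT_iff']
  obtain ⟨k0, hg, f', Y, c, s, D⟩ := h.exists_dat hM hB hBP hTh
  have hfm := D.exc.fmul
  rw [hTe] at he
  rw [he] at hfm
  obtain ⟨hfpos, hepos⟩ := h.fpos hM hB hTh D.exc
  rw [he] at hepos
  have hdiv : (p - 1) / e = f' := by rw [← hfm, Nat.mul_div_cancel_left _ hepos]
  have hcT := h.card_Th hM hB hBP hTh
  rw [he, hf] at hcT
  have hfe : f / e = Nat.card (Cfsg.Agent.LD.Th M (P : Subgroup G) B) := by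
    rw [← hcT, Nat.mul_div_cancel _ hepos]
  refine ⟨⟨f', hfm.symm⟩, ?_, B \ Y, Y, ?_, ?_, ?_, ?_, ?_, ⟨-s, ?_, ?_⟩, ?_⟩
  · rw [Cfsg.Agent.LD.card_block_eq B Y D.exc.sub, D.cardX, he, D.exc.card, hdiv]
  · rw [Set.diff_union_self, Set.union_eq_left.mpr D.exc.sub]
  · exact Set.disjoint_sdiff_left
  · rw [D.cardX, he]
  · rw [D.exc.card, hdiv]
  · rintro χ ⟨hχ, hY⟩
    have h1 := h.deg_X hM hB hBP hTh D hχ hY
    rw [hfe]
    rcases D.c1 χ hχ hY with h2 | h2
    · left; rw [h2, one_mul] at h1; exact h1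
    · right; rw [h2, neg_one_mul] at h1; exact h1
  · rcases D.s1 with h1 | h1
    · right; rw [h1]
    · left; rw [h1, neg_neg]
  · intro ψ hψ
    have h1 := h.deg_Y hM hB hBP hTh D hψ
    rw [hf] at h1
    exact h1
  · exact D.yreg

end Cfsg.Agent.S4442
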