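import Cfsg.Statements.S4444
import Cfsg.Agent.H27.GlMain

set_option autoImplicit false
open Cfsg

namespace Cfsg.Agent.S4444

open Cfsg.Agent.H27


/-- The Glauberman correspondence for a p-group of operators. Inside a finite group Γ let S normalise G with the orders of G and S coprime, S a p-group, and let C = G ⊓ C(S) be the fixed points. Call an irreducible character χ of G S-invariant when χ(s g s⁻¹) = χ(g) for s ∈ S, g ∈ G. Then: (i) for every S-invariant χ there is exactly one irreducible character β of C whose multiplicity [χ_C, β] in the restriction of χ is not divisible by p; (ii) that multiplicity is ≡ 1 or ≡ −1 (mod p); (iii) distinct S-invariant χ give distinct β; (iv) every irreducible character of C arises in this way. So χ ↦ β is a bijection from the S-invariant irreducible characters of G onto the irreducible characters of C. -/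
theorem result {Γ : Type*} [Group Γ] [Fintype Γ] (G S : Subgroup Γ) [Fintype G] (hnorm : ∀ s ∈ S, ∀ g ∈ G, s * g * s⁻¹ ∈ G) (hcop : (Nat.card G).Coprime (Nat.card S)) (p : ℕ) (hp : p.Prime) (hS : IsPGroup p S) (C : Subgroup Γ) [Fintype C] (hC : C = G ⊓ Subgroup.centralizer (S : Set Γ)) (hCG : C ≤ G) : (∀ χ : Cfsg.IrrCharacter G, (∀ s ∈ S, ∀ g g' : G, (g' : Γ) = s * g * s⁻¹ → (χ : G → ℂ) g' = (χ : G → ℂ) g) → ∃! β : Cfsg.IrrCharacter C, ∃ m : ℕ, Cfsg.classInner (fun c : C => (χ : G → ℂ) ⟨c, hCG c.2⟩) (β : C → ℂ) = (m : ℂ) ∧ ¬ p ∣ m) ∧ (∀ χ : Cfsg.IrrCharacter G, (∀ s ∈ S, ∀ g g' : G, (g' : Γ) = s * g * s⁻¹ → (χ : G → ℂ) g' = (χ : G → ℂ) g) → ∀ β : Cfsg.IrrCharacter C, ∀ m : ℕ, Cfsg.classInner (fun c : C => (χ : G → ℂ) ⟨c, hCG c.2⟩) (β : C → ℂ) = (m : ℂ) → ¬ p ∣ m → ((m : ℤ) ≡ 1 [ZMOD p] ∨ (m : ℤ) ≡ -1 [ZMOD p])) ∧ (∀ χ χ' : Cfsg.IrrCharacter G, (∀ s ∈ S, ∀ g g' : G, (g' : Γ) = s * g * s⁻¹ → (χ : G → ℂ) g' = (χ : G → ℂ) g) → (∀ s ∈ S,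 ∀ g g' : G, (g' : Γ) = s * g * s⁻¹ → (χ' : G → ℂ) g' = (χ' : G → ℂ) g) → ∀ β : Cfsg.IrrCharacter C, ∀ m m' : ℕ, Cfsg.classInner (fun c : C => (χ : G → ℂ) ⟨c, hCG c.2⟩) (β : C → ℂ) = (m : ℂ) → ¬ p ∣ m → Cfsg.classInner (fun c : C => (χ' : G → ℂ) ⟨c, hCG c.2⟩) (β : C → ℂ) = (m' : ℂ) → ¬ p ∣ m' → χ = χ') ∧ (∀ β : Cfsg.IrrCharacter C, ∃ χ : Cfsg.IrrCharacter G, (∀ s ∈ S, ∀ g g' : G, (g' : Γ) = s * g * s⁻¹ → (χ : G → ℂ) g' = (χ : G → ℂ) g) ∧ ∃ m : ℕ, Cfsg.classInner (fun c : C => (χ : G → ℂ) ⟨c, hCG c.2⟩) (β : C → ℂ) = (m : ℂ) ∧ ¬ p ∣ m) := by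
  classical
  have hpF := Fact.mk hp
  have hSG : S ≤ Subgroup.normalizer (G : Set Γ) := by
    intro s hs
    rw [Subgroup.mem_normalizer_iff]
    intro g
    refine ⟨hnorm s hs g, fun h => ?_⟩
    have := hnorm s⁻¹ (inv_mem hs) _ h
    have e : s⁻¹ * (s * g * s⁻¹) * s⁻¹⁻¹ = g := by group
    rwa [e] at this
  have hgood : Good p (S : Set Γ) G C hCG := by
    by_cases hS1 : S = ⊥
    · apply good_base
      rw [hC, hS1]
      ext g
      rw [Subgroup.mem_inf]
      refine ⟨fun h => h.1, fun h => ⟨h, ?_⟩⟩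
      rw [Subgroup.mem_centralizer_iff]
      intro h hh
      rw [SetLike.mem_coe, Subgroup.mem_bot] at hh
      subst hh
      simp
    · have hb : (⊥ : Subgroup Γ).Normal := inferInstance
      have hn : ∀ L : Subgroup Γ, L ≤ Subgroup.normalizer ((⊥ : Subgroup Γ) : Set Γ) := by
        intro L
        rw [Subgroup.normalizer_eq_top_iff.mpr hb]
        exact le_top
      refine good_main hp (hn G) bot_le ?_ (Nat.card S) S C le_rfl hS hSG (hn S) hCG ?_
      · rw [Subgroup.relIndex_bot_left]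
        intro hd
        have hnt : Nontrivial S := (Subgroup.nontrivial_iff_ne_bot S).mpr hS1
        obtain ⟨n, hn0, hn⟩ := hS.nontrivial_iff_card.mp hnt
        have h2 : p ∣ Nat.card S := by rw [hn]; exact dvd_pow_self p hn0.ne'
        exact hp.one_lt.ne' (Nat.eq_one_of_dvd_coprimes hcop hd h2)
      · intro k
        rw [hC, Subgroup.mem_inf, Subgroup.mem_centralizer_iff]
        apply and_congr_right
        intro _
        constructor
        · intro h y hy
          rw [Subgroup.mem_bot, h y hy]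
          group
        · intro h y hy
          have := h y hy
          rw [Subgroup.mem_bot, mul_inv_eq_one, mul_inv_eq_iff_eq_mul] at this
          exact this
  have hCinv : ∀ β : IrrCharacter C, Inv (S : Set Γ) C β := by
    intro β s hs c c' hcc
    have h1 : (c : Γ) ∈ Subgroup.centralizer (S : Set Γ) := by
      have h0 : ∀ x : Γ, x ∈ C → x ∈ Subgroup.centralizer (S : Set Γ) := by
        intro x hx
        rw [hC] at hx
        exact hx.2
      exact h0 c c.2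
    have h2 := Subgroup.mem_centralizer_iff.mp h1 s hs
    have h3 : c' = c := by
      apply Subtype.ext
      rw [hcc, h2]
      group
    rw [h3]
  have hmlt : ∀ (χ : IrrCharacter G) (β : IrrCharacter C) (m : ℕ),
      classInner (fun c : C => (χ : G → ℂ) ⟨c, hCG c.2⟩) (β : C → ℂ) = (m : ℂ) ↔
        mlt hCG χ β = m := by
    intro χ β m
    have h1 := mlt_eq_classInner hCG χ β
    have h2 : classInner (fun c : C => (χ : G → ℂ) ⟨c, hCG c.2⟩) (β : C → ℂ) =
        (mlt hCG χ β : ℂ) := h1.symm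
    rw [h2]
    exact Nat.cast_inj
  have hz : ∀ m : ℕ, ¬ p ∣ m ↔ (m : ZMod p) ≠ 0 := by
    intro m
    rw [Ne, ZMod.natCast_eq_zero_iff]
  refine ⟨?_, ?_, ?_, ?_⟩
  · intro χ hχ
    obtain ⟨β, _, h2, h3⟩ := hgood.1 χ hχ
    refine ⟨β, ⟨mlt hCG χ β, (hmlt _ _ _).mpr rfl, ?_⟩, ?_⟩
    · rw [hz]
      intro h0
      rw [h0] at h2
      simp at h2
    · rintro β' ⟨m, hm, hpm⟩
      by_contra hne
      rw [hmlt] at hm
      rw [hz, ← hm] at hpm
      exact hpm (h3 β' (hCinv β') hne)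
  · intro χ hχ β m hm hpm
    obtain ⟨β', _, h2, h3⟩ := hgood.1 χ hχ
    rw [hmlt] at hm
    rw [hz, ← hm] at hpm
    have he : β = β' := by
      by_contra hne
      exact hpm (h3 β (hCinv β) hne)
    subst he
    rw [hm] at h2
    rcases sq_eq_one_iff.mp h2 with h | h
    · left
      rw [← ZMod.intCast_eq_intCast_iff]
      push_cast
      exact h
    · right
      rw [← ZMod.intCast_eq_intCast_iff]
      push_cast
      exact h
  · intro χ χ' hχ hχ' β m m' hm hpm hm' hpm'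
    obtain ⟨ψ, _, h2, h3⟩ := hgood.2 β (hCinv β)
    rw [hmlt] at hm hm'
    rw [hz, ← hm] at hpm
    rw [hz, ← hm'] at hpm'
    have e1 : χ = ψ := by
      by_contra hne
      exact hpm (h3 χ hχ hne)
    have e2 : χ' = ψ := by
      by_contra hne
      exact hpm' (h3 χ' hχ' hne)
    rw [e1, e2]
  · intro β
    obtain ⟨ψ, h1, h2, h3⟩ := hgood.2 β (hCinv β)
    refine ⟨ψ, h1, mlt hCG ψ β, (hmlt _ _ _).mpr rfl, ?_⟩
    rw [hz]
    intro h0
    rw [h0] at h2
    simp at h2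

end Cfsg.Agent.S4444
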