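import Cfsg.Statements.S4446
import Cfsg.Agent.H27.GlCan3

set_option autoImplicit false
open Cfsg

namespace Cfsg.Agent.S4446

open Cfsg.Agent.H27


/-- Let the finite group Γ be generated by a normal subgroup G and a cyclic subgroup S of coprime orders, C = G ⊓ C(S), and let χ be an S-invariant irreducible character of G with canonical extension χ̂ to Γ (the extension whose determinantal order is coprime to the order of S). Then there are exactly one irreducible character β of C and one sign ε such that χ̂(c s) = ε β(c) for every c ∈ C and every generator s of S; this β is a constituent of the restriction of χ to C; distinct S-invariant χ give distinct β; and every irreducible character of C arises in this way. -/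
theorem result {Γ : Type*} [Group Γ] [Fintype Γ] (G S : Subgroup Γ) [Fintype G] (hnorm : ∀ s ∈ S, ∀ g ∈ G, s * g * s⁻¹ ∈ G) (hcop : (Nat.card G).Coprime (Nat.card S)) (htop : G ⊔ S = ⊤) (hcyc : IsCyclic S) (C : Subgroup Γ) [Fintype C] (hC : C = G ⊓ Subgroup.centralizer (S : Set Γ)) (hCG : C ≤ G) : (∀ (χ : Cfsg.IrrCharacter G) (χh : Cfsg.IrrCharacter Γ), (∀ s ∈ S, ∀ g g' : G, (g' : Γ) = s * g * s⁻¹ → (χ : G → ℂ) g' = (χ : G → ℂ) g) → (∀ g : G, (χh : Γ → ℂ) g = (χ : G → ℂ) g) → (Cfsg.detOrder (χh : Γ → ℂ)).Coprime (Nat.card S) → (∃! βε : Cfsg.IrrCharacter C × ℤ, (βε.2 = 1 ∨ βε.2 = -1) ∧ ∀ c : C, ∀ s : Γ, Subgroup.zpowers s = S → (χh : Γ → ℂ) ((c : Γ) * s) = (βε.2 : ℂ) * (βε.1 : C → ℂ) c) ∧ ∀ β : Cfsg.IrrCharacter C, ∀ ε : ℤ, (ε = 1 ∨ ε = -1) → (∀ c : C, ∀ s : Γ, Subgroup.zpowers s = S → (χh : Γ → ℂ) ((c : Γ) * s) = (ε : ℂ) * (β : C → ℂ) c) → Cfsg.classInner (fun c : C => (χ : G → ℂ)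 ⟨c, hCG c.2⟩) (β : C → ℂ) ≠ 0) ∧ (∀ (χ χ' : Cfsg.IrrCharacter G) (χh χh' : Cfsg.IrrCharacter Γ), (∀ s ∈ S, ∀ g g' : G, (g' : Γ) = s * g * s⁻¹ → (χ : G → ℂ) g' = (χ : G → ℂ) g) → (∀ s ∈ S, ∀ g g' : G, (g' : Γ) = s * g * s⁻¹ → (χ' : G → ℂ) g' = (χ' : G → ℂ) g) → (∀ g : G, (χh : Γ → ℂ) g = (χ : G → ℂ) g) → (∀ g : G, (χh' : Γ → ℂ) g = (χ' : G → ℂ) g) → (Cfsg.detOrder (χh : Γ → ℂ)).Coprime (Nat.card S) → (Cfsg.detOrder (χh' : Γ → ℂ)).Coprime (Nat.card S) → ∀ β : Cfsg.IrrCharacter C, ∀ ε ε' : ℤ, (ε = 1 ∨ ε = -1) → (ε' = 1 ∨ ε' = -1) → (∀ c : C, ∀ s : Γ, Subgroup.zpowers s = S → (χh : Γ → ℂ) ((c : Γ) * s) = (ε : ℂ) * (β : C → ℂ) c) → (∀ c : C, ∀ s : Γ, Subgroup.zpowers s = S → (χh' : Γ → ℂ) ((c : Γ) * s) = (ε' : ℂ) * (β : C → ℂ) c) → χ = χ') ∧ (∀ β : Cfsg.IrrCharacter C, ∃ (χ : Cfsg.IrrCharacter G) (χh : Cfsg.IrrCharacter Γ) (ε : ℤ), (∀ s ∈ S, ∀ g g' : G, (g' : Γ) = s * g * s⁻¹ → (χ : G →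 ℂ) g' = (χ : G → ℂ) g) ∧ (∀ g : G, (χh : Γ → ℂ) g = (χ : G → ℂ) g) ∧ (Cfsg.detOrder (χh : Γ → ℂ)).Coprime (Nat.card S) ∧ (ε = 1 ∨ ε = -1) ∧ ∀ c : C, ∀ s : Γ, Subgroup.zpowers s = S → (χh : Γ → ℂ) ((c : Γ) * s) = (ε : ℂ) * (β : C → ℂ) c) := by
  classical
  obtain ⟨s, hs, h⟩ := copH_of hnorm hcop htop hcyc hC
  subst hs
  have hle : h.C_le = hCG := rfl
  haveI := h.Kn
  have key : ∀ (χ : IrrCharacter G) (χh : IrrCharacter Γ), Inv (Subgroup.zpowers s : Set Γ) G χ →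
      (∀ g : G, (χh : Γ → ℂ) g = (χ : G → ℂ) g) →
      (detOrder (χh : Γ → ℂ)).Coprime (Nat.card (Subgroup.zpowers s)) →
      ∃ (β : IrrCharacter C) (ε : ℤ), (ε = 1 ∨ ε = -1) ∧ cf C (χh : Γ → ℂ) β s = ε ∧
      ∀ (c : C) (t : Γ), Subgroup.zpowers t = Subgroup.zpowers s →
        (χh : Γ → ℂ) (c * t) = ε * (β : C → ℂ) c := by
    intro χ χh _ hext hdet
    exact h.main (h.canExt_iff χh.2 hext hdet)
  have hinj : ∀ (χ χ' : IrrCharacter G) (χh χh' : IrrCharacter Γ),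
      (∀ g : G, (χh : Γ → ℂ) g = (χ : G → ℂ) g) → (∀ g : G, (χh' : Γ → ℂ) g = (χ' : G → ℂ) g) →
      ∀ (β : IrrCharacter C) (ε ε' : ℤ), (ε = 1 ∨ ε = -1) → (ε' = 1 ∨ ε' = -1) →
      (∀ c : C, ∀ t : Γ, Subgroup.zpowers t = Subgroup.zpowers s →
        (χh : Γ → ℂ) ((c : Γ) * t) = (ε : ℂ) * (β : C → ℂ) c) →
      (∀ c : C, ∀ t : Γ, Subgroup.zpowers t = Subgroup.zpowers s →
        (χh' : Γ → ℂ) ((c : Γ) * t) = (ε' : ℂ) * (β : C → ℂ) c) → χ = χ' := by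
    intro χ χ' χh χh' hext hext' β ε ε' hε hε' hv hv'
    have hne : ∀ e : ℤ, (e = 1 ∨ e = -1) → (e : ℂ) ≠ 0 := by
      rintro e (rfl | rfl) <;> simp
    exact h.inj χh.2 hext χh'.2 hext' (hne ε hε) (hne ε' hε') (fun c => hv c s rfl)
      (fun c => hv' c s rfl)
  have hex : ∀ χ : IrrCharacter G, Inv (Subgroup.zpowers s : Set Γ) G χ →
      ∃ χh : IrrCharacter Γ, (∀ g : G, (χh : Γ → ℂ) g = (χ : G → ℂ) g) ∧
        (detOrder (χh : Γ → ℂ)).Coprime (Nat.card (Subgroup.zpowers s)) := by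
    intro χ hχ
    obtain ⟨X, hX, _⟩ := canExt_aux h.hcop' χ (h.inv_univ hχ)
    refine ⟨⟨X, hX.irr⟩, hX.res, ?_⟩
    have := hX.det
    rw [h.card_index, ← Nat.card_zpowers] at this
    exact this
  refine ⟨fun χ χh hinv hext hdet => ⟨?_, ?_⟩, ?_, ?_⟩
  · obtain ⟨β, ε, hε, hcf, hv⟩ := key χ χh hinv hext hdet
    refine ⟨(β, ε), ⟨hε, fun c t ht => hv c t ht⟩, ?_⟩
    rintro ⟨β', ε'⟩ ⟨hε', hv'⟩
    have h1 : ∀ c : C, (ε : ℂ) * (β : C → ℂ) c = (ε' : ℂ) * (β' : C → ℂ) c := by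
      intro c
      rw [← hv c s rfl]
      exact hv' c s rfl
    have hd1 := Cfsg.Agent.H11.charDegree_spec β.2
    have hd2 := Cfsg.Agent.H11.charDegree_spec β'.2
    have h2 := h1 1
    rw [hd1.1, hd2.1] at h2
    have h3 : ε * (charDegree (β : C → ℂ) : ℤ) = ε' * (charDegree (β' : C → ℂ) : ℤ) := by
      exact_mod_cast h2
    have hp1 : (0 : ℤ) < charDegree (β : C → ℂ) := by
      have := Nat.pos_of_ne_zero hd1.2; exact_mod_cast this
    have hp2 : (0 : ℤ) < charDegree (β' : C → ℂ) := by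
      have := Nat.pos_of_ne_zero hd2.2; exact_mod_cast this
    have h4 : ε' = ε := by
      rcases hε with rfl | rfl <;> rcases hε' with h5 | h5 <;> simp only at h5 <;> subst h5
      · rfl
      · omega
      · omega
      · rfl
    have h5 : β' = β := by
      apply Subtype.ext
      funext c
      have h6 := h1 c
      rw [h4] at h6
      have h7 : (ε : ℂ) ≠ 0 := by
        rcases hε with rfl | rfl <;> simp
      exact (mul_left_cancel₀ h7 h6).symm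
    rw [h4, h5]
  · intro β ε hε hv
    have h1 : cf C (χh : Γ → ℂ) β s = ε := CopH.cf_of_eq C (fun c => hv c s rfl)
    have h2 : mlt h.C_le χ β ≠ 0 := by
      apply h.mlt_ne χh.2 hext
      rw [h1]
      rcases hε with rfl | rfl <;> simp
    exact (mlt_ne_zero_iff h.C_le χ β).mp h2
  · intro χ χ' χh χh' _ _ hext hext' _ _ β ε ε' hε hε' hv hv'
    exact hinj χ χ' χh χh' hext hext' β ε ε' hε hε' hv hv'
  · have hcard := card_inv_eq (S := Subgroup.zpowers s) (G := G) (C := C)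
      (by
        letI := IsCyclic.commGroup (α := Subgroup.zpowers s)
        infer_instance) Subgroup.le_normalizer_of_normal
      hcop h.isFx
    choose E hE1 hE2 using hex
    let F : {χ : IrrCharacter G // Inv (Subgroup.zpowers s : Set Γ) G χ} → IrrCharacter C :=
      fun χ => Classical.choose (key χ.1 (E χ.1 χ.2) χ.2 (hE1 χ.1 χ.2) (hE2 χ.1 χ.2))
    have hF := fun χ : {χ : IrrCharacter G // Inv (Subgroup.zpowers s : Set Γ) G χ} =>
      Classical.choose_spec (key χ.1 (E χ.1 χ.2) χ.2 (hE1 χ.1 χ.2) (hE2 χ.1 χ.2))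
    have hFinj : Function.Injective F := by
      intro a b hab
      obtain ⟨ε, hε, _, hv⟩ := hF a
      obtain ⟨ε', hε', _, hv'⟩ := hF b
      apply Subtype.ext
      change F a = F b at hab
      have h1 : ∀ c : C, ∀ t : Γ, Subgroup.zpowers t = Subgroup.zpowers s →
          (E b.1 b.2 : Γ → ℂ) ((c : Γ) * t) = (ε' : ℂ) * (F a : C → ℂ) c := by
        rw [hab]; exact hv'
      exact hinj a.1 b.1 (E a.1 a.2) (E b.1 b.2) (hE1 a.1 a.2) (hE1 b.1 b.2) (F a) ε ε' hε hε'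
        hv h1
    haveI : Finite {χ : IrrCharacter G // Inv (Subgroup.zpowers s : Set Γ) G χ} := inferInstance
    have hFs : Function.Surjective F := by
      have h2 : Function.Bijective F :=
        (Nat.bijective_iff_injective_and_card F).mpr ⟨hFinj, hcard⟩
      exact h2.2
    intro β
    obtain ⟨χ, rfl⟩ := hFs β
    obtain ⟨ε, hε, _, hv⟩ := hF χ
    exact ⟨χ.1, E χ.1 χ.2, ε, χ.2, hE1 χ.1 χ.2, hE2 χ.1 χ.2, hε, hv⟩

end Cfsg.Agent.S4446
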