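import Cfsg.Statements.S4447
import Cfsg.Agent.H27.GlInv3

set_option autoImplicit false
open Cfsg

namespace Cfsg.Agent.S4447

open Cfsg.Agent.H27


/-- Inside a finite group Γ let S normalise G and also normalise a normal subgroup N of G, with the order of S coprime to the index of N in G and S or G/N solvable. Then for every S-invariant irreducible character χ of G, the restriction of χ to N has an S-invariant irreducible constituent. -/
theorem result {Γ : Type*} [Group Γ] [Fintype Γ] (G S N : Subgroup Γ) [Fintype G] [Fintype N] (hnorm : ∀ s ∈ S, ∀ g ∈ G, s * g * s⁻¹ ∈ G) (hNG : N ≤ G) [hNn : (N.subgroupOf G).Normal] (hNS : ∀ s ∈ S, ∀ n ∈ N, s * n * s⁻¹ ∈ N) (hcop : (N.relIndex G).Coprime (Nat.card S)) (hsolv : Group.IsSolvable S ∨ Group.IsSolvable (G ⧸ N.subgroupOf G)) (χ : Cfsg.IrrCharacter G) (hinv : (∀ s ∈ S, ∀ g g' : G, (g' : Γ) = s * g * s⁻¹ → (χ : G → ℂ) g' = (χ : G → ℂ) g)) : ∃ θ : Cfsg.IrrCharacter N, Cfsg.classInner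 (fun n : N => (χ : G → ℂ) ⟨n, hNG n.2⟩) (θ : N → ℂ) ≠ 0 ∧ (∀ s ∈ S, ∀ g g' : N, (g' : Γ) = s * g * s⁻¹ → (θ : N → ℂ) g' = (θ : N → ℂ) g) := by
  have hSG : S ≤ Subgroup.normalizer (G : Set Γ) := Cfsg.Agent.H23.le_normalizer_of_conj_mem hnorm
  have hSN : S ≤ Subgroup.normalizer (N : Set Γ) := Cfsg.Agent.H23.le_normalizer_of_conj_mem hNS
  have hGN : G ≤ Subgroup.normalizer (N : Set Γ) :=
    (Subgroup.normal_subgroupOf_iff_le_normalizer hNG).mp hNn
  obtain ⟨θ, h1, h2⟩ := exists_inv_below hSG hSN hNG hGN hcop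
    (by
      rcases hsolv with h | h
      · exact Or.inl h
      · exact Or.inr (fun {_} => h)) χ hinv
  exact ⟨θ, (mlt_ne_zero_iff hNG χ θ).mp h1, h2⟩

end Cfsg.Agent.S4447
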