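import Cfsg.Statements.S4450
import Cfsg.Agent.H27.GlTri2

set_option autoImplicit false
open Cfsg

namespace Cfsg.Agent.S4450

open Cfsg.Agent.H27
open scoped Pointwise


/-- Let N ≤ G be normal subgroups of the finite group Γ with the index of G in Γ coprime to the index of N in G, and Γ/G or G/N solvable. Then for every irreducible character ϑ of N invariant under conjugation by Γ, the induced character ϑ^G has an irreducible constituent invariant under conjugation by Γ. -/
theorem result {Γ : Type*} [Group Γ] [Fintype Γ] (G N : Subgroup Γ) [hG : G.Normal] [hN : N.Normal] [Fintype G] [Fintype N] (hNG : N ≤ G) (hcop : (G.index).Coprime (N.relIndex G)) (hsolv : Group.IsSolvable (Γ ⧸ G) ∨ Group.IsSolvable (G ⧸ N.subgroupOf G)) (θ : Cfsg.IrrCharacter N) (hinv : ∀ (x : Γ) (n : N), (θ : N → ℂ) ⟨x * n * x⁻¹, hN.conj_mem n n.2 x⟩ = (θ : N → ℂ) n) : ∃ χ : Cfsg.IrrCharacter G, Cfsg.classInner (fun n : N => (χ : G → ℂ) ⟨n, hNG n.2⟩) (θ : N → ℂ) ≠ 0 ∧ ∀ (x : Γ) (g : G), (χ : G → ℂ) ⟨x * g * x⁻¹, hG.conj_mem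 g g.2 x⟩ = (χ : G → ℂ) g := by
  classical
  have hθ : Inv Set.univ N θ := by
    intro x _ k k' hk
    have h1 := hinv x k
    have h2 : k' = ⟨x * k * x⁻¹, hN.conj_mem k k.2 x⟩ := Subtype.ext hk
    rw [h2]; exact h1
  suffices h : ∃ χ : IrrCharacter G, Inv Set.univ G χ ∧ mlt hNG χ θ ≠ 0 by
    obtain ⟨χ, h1, h2⟩ := h
    exact ⟨χ, (mlt_ne_zero_iff hNG χ θ).mp h2, fun x g => h1 x (Set.mem_univ x) g _ rfl⟩
  rcases hsolv with hs | hs
  · exact exists_inv_above2 hNG hcop hs θ hθ
  · let π := QuotientGroup.mk' N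
    have hπ : Function.Surjective π := QuotientGroup.mk'_surjective N
    have hker : π.ker = N := QuotientGroup.ker_mk' N
    haveI : (G.map π).Normal := hG.map π hπ
    have hidx : (G.map π).index = G.index := Subgroup.index_map_eq G hπ (by rw [hker]; exact hNG)
    have hcard : Nat.card (G.map π) = N.relIndex G := by
      rw [← Subgroup.relIndex_ker, hker]
    obtain ⟨T, hT⟩ := Subgroup.exists_right_complement'_of_coprime (N := G.map π)
      (by rw [hidx, hcard]; exact hcop.symm)
    let L := T.comap π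
    have hNL : N ≤ L := by
      intro n hn
      show π n ∈ T
      have : π n = 1 := (QuotientGroup.eq_one_iff n).mpr hn
      rw [this]; exact T.one_mem
    have hrel : N.relIndex L = G.index := by
      have h1 := Subgroup.relIndex_ker L π
      rw [hker] at h1
      rw [h1, Subgroup.map_comap_eq_self_of_surjective hπ, ← hidx]
      exact hT.symm.index_eq_card.symm
    have hsup : G ⊔ L = ⊤ := by
      rw [eq_top_iff]
      intro x _
      have h1 := hT.mul_eq
      have h2 : π x ∈ ((G.map π : Subgroup (Γ ⧸ N)) : Set (Γ ⧸ N)) * (T : Set (Γ ⧸ N)) := by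
        rw [h1]; exact Set.mem_univ _
      obtain ⟨_, ⟨g, hg, rfl⟩, t, ht, he⟩ := Set.mem_mul.mp h2
      have hl : g⁻¹ * x ∈ L := by
        show π (g⁻¹ * x) ∈ T
        rw [map_mul, map_inv, ← he]
        simpa using ht
      have e : x = g * (g⁻¹ * x) := by group
      rw [e]
      exact Subgroup.mul_mem _ (Subgroup.mem_sup_left hg) (Subgroup.mem_sup_right hl)
    obtain ⟨χ, h1, h2⟩ := exists_inv_above (L := L) (G := G) (N := N)
      Subgroup.le_normalizer_of_normal Subgroup.le_normalizer_of_normal hNG hs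
      (by rw [inf_eq_right.mpr hNL, hrel]; exact hcop) θ
      (fun x _ k k' hk => hθ x (Set.mem_univ x) k k' hk)
    refine ⟨χ, ?_, h2⟩
    have h3 := inv_sup (P := G) (Q := L) (G := G) Subgroup.le_normalizer
      Subgroup.le_normalizer_of_normal (inv_self G χ) h1
    rw [hsup] at h3
    exact h3

end Cfsg.Agent.S4450
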