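import Cfsg.Statements.S4451
import Cfsg.Agent.H27.GlFpf

set_option autoImplicit false
open Cfsg

namespace Cfsg.Agent.S4451

open Cfsg.Agent.H27


/-- Let the finite group Γ be generated by a normal subgroup G and a cyclic subgroup S of coprime orders such that every non-identity element of S has the same centraliser C = G ⊓ C(S) in G. Let χ be an S-invariant irreducible character of G, χ̂ its canonical extension to Γ (determinantal order coprime to the order of S), and β the irreducible character of C with χ̂(c s) = ε₀ β(c) for c ∈ C and generators s of S (ε₀ = ±1). Then there are a sign ε = ±1, which may differ from ε₀, and a linear character μ of S with μ² = 1, such that: (a) χ̂(c x) = ε β(c) μ(x) for all c ∈ C and all x ∈ S other than 1; (b) the restriction of χ to C equals |S|·ϑ + ε β for some character ϑ of C or ϑ = 0; (c) |S| divides χ(1) − ε β(1). -/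
theorem result {Γ : Type*} [Group Γ] [Fintype Γ] (G S : Subgroup Γ) [Fintype G] (hnorm : ∀ s ∈ S, ∀ g ∈ G, s * g * s⁻¹ ∈ G) (hcop : (Nat.card G).Coprime (Nat.card S)) (htop : G ⊔ S = ⊤) (hcyc : IsCyclic S) (C : Subgroup Γ) [Fintype C] (hC : C = G ⊓ Subgroup.centralizer (S : Set Γ)) (hCG : C ≤ G) (hfpf : ∀ x ∈ S, x ≠ 1 → G ⊓ Subgroup.centralizer ({x} : Set Γ) = C) (χ : Cfsg.IrrCharacter G) (hinv : (∀ s ∈ S, ∀ g g' : G, (g' : Γ) = s * g * s⁻¹ → (χ : G → ℂ) g' = (χ : G → ℂ) g)) (χh : Cfsg.IrrCharacter Γ) (hext : (∀ g : G, (χh : Γ → ℂ) g = (χ : G → ℂ) g)) (hdet : (Cfsg.detOrder (χh : Γ → ℂ)).Coprime (Nat.card S)) (β : Cfsg.IrrCharacter C) (ε₀ : ℤ) (hε₀ : ε₀ = 1 ∨ ε₀ = -1) (hβ : ∀ c : C, ∀ s : Γ, Subgroup.zpowers s = S → (χh : Γ → ℂ) ((c : Γ) * s) = (ε₀ : ℂ) * (β : C → ℂ) c) : ∃ ε : ℤ, (ε = 1 ∨ ε = -1) ∧ (∃ μ : S → ℂ, Cfsg.IsCharacter S μ ∧ μ 1 = 1 ∧ (∀ x : S, μ x * μ x = 1) ∧ ∀ c : C,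 ∀ x : S, x ≠ 1 → (χh : Γ → ℂ) ((c : Γ) * x) = (ε : ℂ) * (β : C → ℂ) c * μ x) ∧ (∃ ϑ : C → ℂ, Cfsg.IsCharacter C ϑ ∧ (fun c : C => (χ : G → ℂ) ⟨c, hCG c.2⟩) = fun c => (Nat.card S : ℂ) * ϑ c + (ε : ℂ) * (β : C → ℂ) c) ∧ (Nat.card S : ℤ) ∣ (Cfsg.charDegree (χ : G → ℂ) : ℤ) - ε * (Cfsg.charDegree (β : C → ℂ) : ℤ) := by
  classical
  obtain ⟨s, hs, h⟩ := copH_of hnorm hcop htop hcyc hC
  subst hs
  haveI := h.Kn
  have hX : CanExt G χ (χh : Γ → ℂ) := h.canExt_iff χh.2 hext hdet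
  have hβd := Cfsg.Agent.H11.charDegree_spec β.2
  have hχd := Cfsg.Agent.H11.charDegree_spec χ.2
  by_cases hs1 : s = 1
  · subst hs1
    have hv : ∀ c : C, (χ : G → ℂ) ⟨c, hCG c.2⟩ = (ε₀ : ℂ) * (β : C → ℂ) c := by
      intro c
      rw [← hext ⟨c, hCG c.2⟩, ← hβ c 1 rfl, mul_one]
    refine ⟨ε₀, hε₀, ⟨fun _ => 1, Cfsg.Agent.H3.isChar_one, rfl, fun _ => one_mul _, ?_⟩,
      ⟨0, Cfsg.Agent.H3.isChar_zero, ?_⟩, ?_⟩
    · intro c x hx
      exfalso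
      apply hx
      obtain ⟨m, hm⟩ := Subgroup.mem_zpowers_iff.mp x.2
      rw [one_zpow] at hm
      exact Subtype.ext hm.symm
    · funext c
      rw [hv c]; simp
    · have h1 : Nat.card (Subgroup.zpowers (1 : Γ)) = 1 := by
        rw [Nat.card_zpowers, orderOf_one]
      rw [h1]; exact one_dvd _
  · have hfpf' : ∀ x ∈ Subgroup.zpowers s, x ≠ 1 → ∀ k ∈ G, x * k = k * x → k ∈ C := by
      intro x hx hx1 k hk hc
      rw [← hfpf x hx hx1, Subgroup.mem_inf, Subgroup.mem_centralizer_iff]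
      refine ⟨hk, ?_⟩
      intro y hy
      rw [Set.mem_singleton_iff] at hy
      rw [hy]; exact hc
    obtain ⟨ε, hε, ⟨μ, hμ, hμ1, hμ2, hv⟩, ϑ, hϑ, hd⟩ := h.fpf_main hs1 hfpf' hX hβ
    refine ⟨ε, hε, ⟨μ, hμ, hμ1, hμ2, hv⟩, ⟨ϑ, hϑ, ?_⟩, ?_⟩
    · funext c
      rw [← hext ⟨c, hCG c.2⟩]
      exact hd c
    · obtain ⟨n, ρ, rfl⟩ := hϑ
      have h1 := hd 1
      have h2 : (χh : Γ → ℂ) ((1 : C) : Γ) = (charDegree (χ : G → ℂ) : ℂ) := by
        rw [← hχd.1]; exact hext 1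
      rw [h2, hβd.1, Representation.char_one] at h1
      simp only [Module.finrank_fintype_fun_eq_card, Fintype.card_fin] at h1
      have h3 : (charDegree (χ : G → ℂ) : ℤ) = (Nat.card (Subgroup.zpowers s) : ℤ) * n +
          ε * (charDegree (β : C → ℂ) : ℤ) := by exact_mod_cast h1
      rw [h3]
      exact ⟨n, by ring⟩

end Cfsg.Agent.S4451
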