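import Cfsg.Statements.S4452
import Cfsg.Agent.H27.GlCnt

set_option autoImplicit false
open Cfsg

namespace Cfsg.Agent.S4452

open Cfsg.Agent.H27


/-- Let the finite group G be the product of a normal subgroup K and a solvable subgroup H of coprime orders, and let N = N_G(H). Then the number of irreducible characters of G of degree coprime to the order of H equals the number of irreducible characters of N of degree coprime to the order of H. (The two sets are in fact in a canonical bijection; only the equality of their sizes is stated here.) -/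
theorem result {G : Type*} [Group G] [Finite G] (K H : Subgroup G) [K.Normal] (hKH : K ⊔ H = ⊤) (hcop : (Nat.card K).Coprime (Nat.card H)) (hsolv : Group.IsSolvable H) : Nat.card {χ : Cfsg.IrrCharacter G // (Cfsg.charDegree (χ : G → ℂ)).Coprime (Nat.card H)} = Nat.card {η : Cfsg.IrrCharacter (Subgroup.normalizer (H : Set G)) // (Cfsg.charDegree (η : Subgroup.normalizer (H : Set G) → ℂ)).Coprime (Nat.card H)} := by
  classical
  set N := Subgroup.normalizer (H : Set G) with hN
  have hHN : H ≤ N := Subgroup.le_normalizer
  have hdisj : K ⊓ H = ⊥ := Subgroup.inf_eq_bot_of_coprime hcop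
  have hfx : IsFx K H (K ⊓ N) := by
    intro x
    rw [Subgroup.mem_inf]
    apply and_congr_right
    intro hx
    constructor
    · intro hxN s hs
      have h1 : x * s * x⁻¹ * s⁻¹ ∈ K ⊓ H := by
        refine ⟨?_, ?_⟩
        · have h2 : s * x⁻¹ * s⁻¹ ∈ K := Subgroup.Normal.conj_mem inferInstance _ (K.inv_mem hx) s
          have h3 := K.mul_mem hx h2
          have e : x * (s * x⁻¹ * s⁻¹) = x * s * x⁻¹ * s⁻¹ := by group
          rwa [e] at h3
        · exact H.mul_mem ((Subgroup.mem_normalizer_iff.mp hxN s).mp hs) (H.inv_mem hs)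
      rw [hdisj, Subgroup.mem_bot, mul_inv_eq_one, mul_inv_eq_iff_eq_mul] at h1
      exact h1.symm
    · intro h
      rw [hN, Subgroup.mem_normalizer_iff]
      intro s
      constructor
      · intro hs
        have : x * s * x⁻¹ = s := by rw [← h s hs]; group
        rw [this]; exact hs
      · intro hs
        have h1 := h _ hs
        have h2 : x * s * x⁻¹ = s := by
          have h3 : x * s * x⁻¹ * x = x * (x * s * x⁻¹) := h1
          have h4 : x * s = x * (x * s * x⁻¹) := by
            rw [← h3]; group
          exact (mul_left_cancel h4).symm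
        rw [h2] at hs; exact hs
  rw [count_cop' hcop hKH]
  have hcard : Nat.card (H.subgroupOf N) = Nat.card H :=
    Nat.card_congr (Subgroup.subgroupOfEquivOfLe hHN).toEquiv
  let e : K.subgroupOf N ≃* (K ⊓ N : Subgroup G) :=
    (MulEquiv.subgroupCongr (Subgroup.inf_subgroupOf_right K N).symm).trans
      (Subgroup.subgroupOfEquivOfLe inf_le_right)
  have hcardK : Nat.card (K.subgroupOf N) ∣ Nat.card K := by
    rw [Nat.card_congr e.toEquiv]
    exact Subgroup.card_dvd_of_le inf_le_left
  have hsup : K.subgroupOf N ⊔ H.subgroupOf N = ⊤ := by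
    rw [eq_top_iff]
    intro x _
    have hx : (x : G) ∈ K ⊔ H := by rw [hKH]; exact Subgroup.mem_top _
    rw [← SetLike.mem_coe, Subgroup.normal_mul] at hx
    obtain ⟨k, hk, h, hh, he⟩ := Set.mem_mul.mp hx
    have hkN : k ∈ N := by
      have : k = x * h⁻¹ := by rw [← he]; group
      rw [this]
      exact N.mul_mem x.2 (N.inv_mem (hHN hh))
    have e1 : x = (⟨k, hkN⟩ : N) * ⟨h, hHN hh⟩ := Subtype.ext he.symm
    rw [e1]
    exact Subgroup.mul_mem _ (Subgroup.mem_sup_left (Subgroup.mem_subgroupOf.mpr hk))
      (Subgroup.mem_sup_right (Subgroup.mem_subgroupOf.mpr hh))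
  haveI : (K.subgroupOf N).Normal := inferInstance
  have h2 := count_cop' (K := K.subgroupOf N) (H := H.subgroupOf N)
    (by rw [hcard]; exact Nat.Coprime.coprime_dvd_left hcardK hcop) hsup
  rw [hcard] at h2
  rw [h2]
  congr 1
  · rw [card_inv_eq hsolv Subgroup.le_normalizer_of_normal hcop hfx]
    have h3 : ∀ θ : IrrCharacter (K.subgroupOf N),
        Inv (H.subgroupOf N : Set N) (K.subgroupOf N) θ := by
      intro θ x hx k k' hk
      have h4 : k' = k := by
        apply Subtype.ext
        rw [hk]
        have hk2 : ((k : N) : G) ∈ K ⊓ N := ⟨Subgroup.mem_subgroupOf.mp k.2, (k : N).2⟩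
        have h5 := ((hfx _).mp hk2).2 (x : G) (Subgroup.mem_subgroupOf.mp hx)
        apply Subtype.ext
        show (x : G) * k * (x : G)⁻¹ = k
        rw [h5]; group
      rw [h4]
    rw [Nat.card_congr (Equiv.subtypeUnivEquiv h3)]
    exact (Nat.card_congr (Cfsg.Agent.H26.irrMap e)).symm
  · exact (Nat.card_congr ((Subgroup.subgroupOfEquivOfLe hHN).monoidHomCongrLeft).toEquiv).symm

end Cfsg.Agent.S4452
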