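import Cfsg.Statements.S4458
import Cfsg.Agent.H27.Ch12D

set_option autoImplicit false
open Cfsg

namespace Cfsg.Agent.S4458

open Subgroup Cfsg.Agent.H27 Cfsg.Agent.H3
open scoped commutatorElement


/-- If a finite group has exactly two irreducible character degrees, 1 and m with m ≠ 1, then its commutator subgroup is abelian. -/
theorem result {G : Type*} [Group G] [Finite G] (m : ℕ) (hcd : ∀ χ : Cfsg.IrrCharacter G, Cfsg.charDegree (χ : G → ℂ) = 1 ∨ Cfsg.charDegree (χ : G → ℂ) = m) (hm : ∃ χ : Cfsg.IrrCharacter G, Cfsg.charDegree (χ : G → ℂ) = m) (hm1 : m ≠ 1) : ∀ a ∈ commutator G, ∀ b ∈ commutator G, a * b = b * a := by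
  classical
  haveI := Fintype.ofFinite G
  have hcd' : ∀ χ : IrrCharacter G, charDegree (χ : G → ℂ) = 1 ∨ m ≤ charDegree (χ : G → ℂ) :=
    fun χ => (hcd χ).imp id fun h => h.ge
  rcases two_degrees hcd hm hm1 with ⟨A, hA, hab, hidx⟩ | ⟨p, e, hp, hme, P, A, hP, hA, hPp, hab, hi, hs, hcent, k, hk⟩
  · have h1 := commutator_le_of_index_le hcd' hidx.le
    exact fun a ha b hb => hab a (h1 ha) b (h1 hb)
  · -- nilpotent
    haveI : Fact p.Prime := ⟨hp⟩
    have hnil : Group.IsNilpotent G := by
      apply Group.of_quotient_center_nilpotent
      have hpg : IsPGroup p (G ⧸ center G) := by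
        obtain ⟨j, hj, hj'⟩ := (Nat.dvd_prime_pow hp).mp (hk ▸ Subgroup.index_dvd_of_le hcent)
        exact IsPGroup.of_card (by rw [← Subgroup.index_eq_card]; exact hj')
      exact hpg.isNilpotent
    -- `G'' = 1`
    have h2 : ∀ g ∈ ⁅commutator G, commutator G⁆, g = 1 := by
      intro g hg
      have : IsConj g 1 := by
        rw [isConj_iff_irr]
        intro χ
        rcases hcd χ with h | h
        · have h1 : (χ : G → ℂ) 1 = 1 := by
            rw [← charDegree_cast (irr_isChar χ.2), h, Nat.cast_one]
          obtain ⟨ν, hν⟩ := exists_hom_of_one (irr_isChar χ.2) h1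
          have h3 : commutator G ≤ ν.ker := Abelianization.commutator_subset_ker ν
          have h4 : g ∈ commutator G := Subgroup.commutator_le_left _ _ hg
          rw [h1, hν, MonoidHom.mem_ker.mp (h3 h4), Units.val_one]
        · obtain ⟨H, lam, hind⟩ := monomial_of_nilpotent χ.2
          haveI := Fintype.ofFinite H
          have hH : H.index = m := by
            have h3 := indFun_one_apply H (fun h => (lam h : ℂ))
            rw [← hind, ← charDegree_cast (irr_isChar χ.2), h, map_one, Units.val_one, mul_one] at h3
            exact_mod_cast h3.symm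
          have hGH := commutator_le_of_index_le hcd' hH.le
          have hval : ∀ x ∈ ⁅commutator G, commutator G⁆, (χ : G → ℂ) x =
              (Nat.card H : ℂ)⁻¹ * Nat.card G := by
            intro x hx
            rw [hind, indFun]
            have h4 : ∀ y : G, extendByZero H (fun h => (lam h : ℂ)) (y⁻¹ * x * y) = 1 := by
              intro y
              have h5 : y⁻¹ * x * y ∈ ⁅commutator G, commutator G⁆ := by
                have := (inferInstance : (⁅commutator G, commutator G⁆).Normal).conj_mem x hx y⁻¹
                rwa [inv_inv] at this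
              have h6 : y⁻¹ * x * y ∈ H := hGH (Subgroup.commutator_le_left _ _ h5)
              rw [extendByZero_mem H _ h6]
              have h7 : (⁅commutator G, commutator G⁆) ≤ lam.ker.map H.subtype := by
                rw [Subgroup.commutator_le]
                intro a ha b hb
                refine ⟨⁅(⟨a, hGH ha⟩ : H), (⟨b, hGH hb⟩ : H)⁆, ?_, rfl⟩
                exact Abelianization.commutator_subset_ker lam
                  (commutator_mem_commutator (mem_top _) (mem_top _))
              obtain ⟨z, hz, hzx⟩ := h7 h5
              have h8 : z = ⟨y⁻¹ * x * y, h6⟩ := Subtype.ext hzx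
              rw [← h8, MonoidHom.mem_ker.mp hz, Units.val_one]
            rw [Finset.sum_congr rfl fun y _ => h4 y, Finset.sum_const, Finset.card_univ,
              nsmul_eq_mul, mul_one, Nat.card_eq_fintype_card]
            simp
          rw [hval g hg, hval 1 (Subgroup.one_mem _)]
      exact isConj_one_left.mp this
    intro a ha b hb
    exact commutatorElement_eq_one_iff_mul_comm.mp (h2 _ (commutator_mem_commutator ha hb))

end Cfsg.Agent.S4458
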