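import Cfsg.Statements.S4459
import Cfsg.Agent.H20.CD2

set_option autoImplicit false
open Cfsg


namespace Cfsg.Agent.S4459


open Cfsg.Agent.H3 Cfsg.Agent.H27 Cfsg.Agent.H20.CD Subgroup

universe u

section

variable {G : Type u} [Group G]

theorem eq_of_index [Finite G] {H K : Subgroup G} (h : H ≤ K) (hi : H.index = K.index) : H = K := by
  refine eq_of_le_of_card_ge h ?_
  have h3 := H.card_mul_index
  have h4 := K.card_mul_index
  rw [← h3, hi] at h4
  exact (Nat.eq_of_mul_eq_mul_right (Nat.pos_of_ne_zero index_ne_zero_of_finite) h4).le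

theorem exists_ab [Finite G] [Group.IsNilpotent G] {p : ℕ} (hp : p.Prime)
    (hcd : ∀ χ : IrrCharacter G, charDegree (χ : G → ℂ) = 1 ∨ charDegree (χ : G → ℂ) = p)
    (hc : (center G).index = p ^ 4) (hna : ∃ a b : G, a * b ≠ b * a)
    (hno : ¬ ∃ A : Subgroup G, A.Normal ∧ (∀ a ∈ A, ∀ b ∈ A, a * b = b * a) ∧ A.index = p) :
    ∃ B : Subgroup G, (∀ a ∈ B, ∀ b ∈ B, a * b = b * a) ∧ B.index = p ^ 2 := by
  classical
  haveI := Fintype.ofFinite G
  haveI := Fintype.ofFinite (IrrCharacter G)
  by_contra hcon
  push Not at hcon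
  have hZ : ∀ a ∈ center G, ∀ b ∈ center G, a * b = b * a := fun a ha b _ =>
    (mem_center_iff.mp ha b).symm
  have key : ∀ x, x ∉ center G → (centralizer ({x} : Set G)).index = p ^ 3 := by
    intro x hx
    have hA := ab_sup hZ (x := x) (fun b hb => mem_center_iff.mp hb x)
    obtain ⟨j, hj2, hj⟩ := ab_index hp hc hna hno (le_sup_left : center G ≤ center G ⊔ zpowers x) hA
    have h1 := index_dvd_of_le (le_sup_left : center G ≤ center G ⊔ zpowers x)
    rw [hc, hj, Nat.pow_dvd_pow_iff_le_right hp.one_lt] at h1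
    have hj4 : j ≠ 4 := by
      rintro rfl
      apply hx
      rw [eq_of_index (le_sup_left : center G ≤ center G ⊔ zpowers x) (by rw [hc, hj])]
      exact (le_sup_right : zpowers x ≤ _) (mem_zpowers x)
    have hj2' : j ≠ 2 := by
      rintro rfl
      exact hcon _ hA hj
    have hj3 : j = 3 := by omega
    rw [hj3] at hj
    have hle : center G ⊔ zpowers x ≤ centralizer ({x} : Set G) := fun a ha =>
      mem_centralizer_singleton_iff.mpr (hA a ha x
        ((le_sup_right : zpowers x ≤ center G ⊔ zpowers x) (mem_zpowers x)))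
    have hge : centralizer ({x} : Set G) ≤ center G ⊔ zpowers x := by
      intro y hy
      by_contra hyA
      have hyA' : center G ⊔ zpowers x ≤ centralizer ({y} : Set G) := by
        rw [sup_le_iff]
        refine ⟨fun a ha => mem_centralizer_singleton_iff.mpr (mem_center_iff.mp ha y).symm, ?_⟩
        rw [zpowers_le, mem_centralizer_singleton_iff]
        exact (mem_centralizer_singleton_iff.mp hy).symm
      have hA2 := ab_sup hA (x := y) (fun b hb =>
        (mem_centralizer_singleton_iff.mp (hyA' hb)).symm)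
      obtain ⟨i, hi2, hi⟩ := ab_index hp hc hna hno (B := center G ⊔ zpowers x ⊔ zpowers y)
        (le_sup_left.trans le_sup_left) hA2
      have h2 := index_dvd_of_le
        (le_sup_left : center G ⊔ zpowers x ≤ center G ⊔ zpowers x ⊔ zpowers y)
      rw [hj, hi, Nat.pow_dvd_pow_iff_le_right hp.one_lt] at h2
      have hi3 : i ≠ 3 := by
        rintro rfl
        apply hyA
        rw [eq_of_index (le_sup_left : center G ⊔ zpowers x ≤ center G ⊔ zpowers x ⊔ zpowers y)
          (by rw [hi, hj])]
        exact (le_sup_right : zpowers y ≤ _) (mem_zpowers y)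
      have hi2' : i ≠ 2 := by
        rintro rfl
        exact hcon _ hA2 hi
      omega
    rw [le_antisymm hge hle, hj]
  -- class counting
  have hk1 : Nat.card G ≤ Nat.card (ConjClasses G) * p ^ 2 := by
    have h := sum_degree_sq (G := G)
    have h1 : ∑ χ : IrrCharacter G, charDegree (χ : G → ℂ) ^ 2 = Nat.card G := by
      have h2 : ((∑ χ : IrrCharacter G, charDegree (χ : G → ℂ) ^ 2 : ℕ) : ℂ) =
          (Nat.card G : ℂ) := by
        rw [← h]
        push_cast
        exact Finset.sum_congr rfl fun χ _ => by rw [charDegree_cast (irr_isChar χ.2)]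
      exact_mod_cast h2
    rw [← h1, ← card_irr_eq, Nat.card_eq_fintype_card, ← smul_eq_mul, ← Finset.card_univ]
    refine Finset.sum_le_card_nsmul _ _ _ fun χ _ => ?_
    apply Nat.pow_le_pow_left
    rcases hcd χ with h | h
    · rw [h]; exact hp.one_lt.le
    · rw [h]
  have hk2 : Nat.card (ConjClasses G) * Nat.card G =
      ∑ x : G, Nat.card (centralizer ({x} : Set G)) := by
    rw [← card_comm_eq_card_conjClasses_mul_card]
    rw [Nat.card_congr (show {q : G × G // Commute q.1 q.2} ≃
      Σ x : G, (centralizer ({x} : Set G)) from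
      { toFun := fun q => ⟨q.1.1, q.1.2, mem_centralizer_singleton_iff.mpr q.2.symm.eq⟩
        invFun := fun s => ⟨(s.1, s.2.1), (mem_centralizer_singleton_iff.mp s.2.2).symm⟩
        left_inv := fun q => rfl
        right_inv := fun s => rfl }), Nat.card_sigma]
  have hG : Nat.card G = Nat.card (center G) * p ^ 4 := by rw [← hc, card_mul_index]
  have hcent : ∀ x, x ∉ center G → Nat.card (centralizer ({x} : Set G)) =
      Nat.card (center G) * p := by
    intro x hx
    have h := (centralizer ({x} : Set G)).card_mul_index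
    rw [key x hx, hG] at h
    have : Nat.card (centralizer ({x} : Set G)) * p ^ 3 = Nat.card (center G) * p * p ^ 3 := by
      rw [h]; ring
    exact Nat.eq_of_mul_eq_mul_right (pow_pos hp.pos 3) this
  have hsum : ∑ x : G, Nat.card (centralizer ({x} : Set G)) ≤
      Nat.card (center G) * Nat.card G + Nat.card G * (Nat.card (center G) * p) := by
    rw [← Finset.sum_filter_add_sum_filter_not Finset.univ (fun g => g ∈ center G)]
    have hcB : (Finset.univ.filter (fun g : G => g ∈ center G)).card = Nat.card (center G) := by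
      rw [Nat.card_eq_fintype_card, ← Fintype.card_subtype]
    refine add_le_add ?_ ?_
    · refine (Finset.sum_le_card_nsmul _ _ (Nat.card G) fun g hg =>
        Nat.card_le_card_of_injective _ Subtype.val_injective).trans ?_
      rw [hcB, smul_eq_mul]
    · refine (Finset.sum_le_card_nsmul _ _ (Nat.card (center G) * p) fun g hg =>
        (hcent g (Finset.mem_filter.mp hg).2).le).trans ?_
      rw [smul_eq_mul]
      refine Nat.mul_le_mul_right _ ?_
      rw [Nat.card_eq_fintype_card, ← Finset.card_univ]
      exact Finset.card_filter_le _ _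
  have hz0 : 0 < Nat.card (center G) := Nat.card_pos
  have hG0 : 0 < Nat.card G := Nat.card_pos
  have h1 : Nat.card (ConjClasses G) * Nat.card G ≤ (Nat.card (center G) * (p + 1)) * Nat.card G := by
    rw [hk2]
    refine hsum.trans (le_of_eq ?_)
    ring
  have h2 := Nat.le_of_mul_le_mul_right h1 hG0
  have h3 : Nat.card (center G) * p ^ 2 * p ^ 2 ≤ Nat.card (center G) * (p + 1) * p ^ 2 := by
    calc _ = Nat.card G := by rw [hG]; ring
      _ ≤ _ := hk1.trans (Nat.mul_le_mul_right _ h2)
  have h4 := Nat.le_of_mul_le_mul_right h3 (pow_pos hp.pos 2)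
  have h5 := Nat.le_of_mul_le_mul_left h4 hz0
  have h6 := hp.two_le
  nlinarith

theorem main {p : ℕ} (hp : p.Prime) (n : ℕ) : ∀ (G : Type u) [Group G] [Finite G],
    Nat.card G = n →
    (∀ χ : IrrCharacter G, charDegree (χ : G → ℂ) = 1 ∨ charDegree (χ : G → ℂ) = p) →
    (∃ a b : G, a * b ≠ b * a) →
    (¬ ∃ A : Subgroup G, A.Normal ∧ (∀ a ∈ A, ∀ b ∈ A, a * b = b * a) ∧ A.index = p) →
    (center G).index = p ^ 3 := by
  induction n using Nat.strong_induction_on with
  | _ n ih =>
  intro G _ _ hn hcd hna hno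
  classical
  haveI : Fact p.Prime := ⟨hp⟩
  obtain ⟨c, hc⟩ := index_center hp hcd hna hno
  haveI := nilp hp hc
  have hc3 := three_le hp hc hna hno
  suffices h : c ≤ 3 by
    rw [hc, le_antisymm h hc3]
  obtain ⟨K, hK⟩ := Sylow.exists_subgroup_card_pow_prime (G := G ⧸ center G) p (n := c - 1) (by
    show p ^ (c - 1) ∣ (center G).index
    rw [hc]
    exact pow_dvd_pow _ (by omega))
  have hKi : K.index = p := by
    have h := K.card_mul_index
    rw [hK, show Nat.card (G ⧸ center G) = p ^ c from hc] at h
    have h1 : p ^ (c - 1) * K.index = p ^ (c - 1) * p := by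
      rw [h, ← pow_succ]; congr 1; omega
    exact Nat.eq_of_mul_eq_mul_left (pow_pos hp.pos _) h1
  set M : Subgroup G := K.comap (QuotientGroup.mk' (center G)) with hMdef
  have hMi : M.index = p := by
    rw [hMdef, index_comap_of_surjective _ (QuotientGroup.mk'_surjective _), hKi]
  have hMn : M.Normal := normal_of_index (hMi ▸ hp)
  have hMna : ∃ a ∈ M, ∃ b ∈ M, a * b ≠ b * a := by
    by_contra hcon
    push Not at hcon
    exact hno ⟨M, hMn, hcon, hMi⟩
  have hMcd : ∀ ψ : IrrCharacter M, charDegree (ψ : M → ℂ) = 1 ∨ charDegree (ψ : M → ℂ) = p := by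
    intro ψ
    obtain ⟨χ, hχ, -, hd, -⟩ := exists_over hMn ψ.2
    rcases hcd ⟨χ, hχ⟩ with h | h
    · left
      have h' : charDegree χ = 1 := h
      rw [h'] at hd
      exact Nat.dvd_one.mp hd
    · have h' : charDegree χ = p := h
      rw [h'] at hd
      exact (Nat.dvd_prime hp).mp hd
  by_cases hnoM : ∃ A : Subgroup M, A.Normal ∧ (∀ a ∈ A, ∀ b ∈ A, a * b = b * a) ∧ A.index = p
  · obtain ⟨A, -, hA, hAi⟩ := hnoM
    refine final_step hp hcd hc hno (B := A.map M.subtype) ?_ ?_
    · rintro _ ⟨x, hx, rfl⟩ _ ⟨y, hy, rfl⟩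
      rw [← map_mul, hA x hx y hy, map_mul]
    · rw [index_map_subtype, hAi, hMi, sq]
  · have hlt : Nat.card M < n := by
      have h := M.card_mul_index
      rw [hMi, hn] at h
      have h1 : 0 < Nat.card M := Nat.card_pos
      have h2 := hp.two_le
      nlinarith
    have hM3 := ih _ hlt M rfl hMcd (by
      obtain ⟨a, ha, b, hb, hab⟩ := hMna
      exact ⟨⟨a, ha⟩, ⟨b, hb⟩, fun h => hab (congrArg Subtype.val h)⟩) hnoM
    have hle : (center M).map M.subtype ≤ center G := by
      rintro _ ⟨z, hz, rfl⟩
      refine center_le hp hcd hMn hMna z.2 ?_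
      intro m hm
      exact (congrArg Subtype.val (mem_center_iff.mp hz ⟨m, hm⟩)).symm
    have h4 := index_dvd_of_le hle
    rw [index_map_subtype, hM3, hMi, ← pow_succ, hc, Nat.pow_dvd_pow_iff_le_right hp.one_lt] at h4
    by_contra hlt4
    have hc4 : c = 4 := by omega
    subst hc4
    obtain ⟨B, hB, hBi⟩ := exists_ab hp hcd hc hna hno
    exact hlt4 (final_step hp hcd hc hno hB hBi)

end

/-- Let G be a non-abelian finite group and p a prime. Then the irreducible character degrees of G are exactly 1 and p if and only if either G has an abelian normal subgroup of index p or the centre of G has index p³. -/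
theorem result {G : Type*} [Group G] [Finite G] (hG : ∃ a b : G, a * b ≠ b * a) (p : ℕ) (hp : p.Prime) : ((∀ χ : Cfsg.IrrCharacter G, Cfsg.charDegree (χ : G → ℂ) = 1 ∨ Cfsg.charDegree (χ : G → ℂ) = p) ∧ ∃ χ : Cfsg.IrrCharacter G, Cfsg.charDegree (χ : G → ℂ) = p) ↔ ((∃ A : Subgroup G, A.Normal ∧ (∀ a ∈ A, ∀ b ∈ A, a * b = b * a) ∧ A.index = p) ∨ (Subgroup.center G).index = p ^ 3) := by
  classical
  constructor
  · rintro ⟨hcd, -⟩
    by_cases hno : ∃ A : Subgroup G, A.Normal ∧ (∀ a ∈ A, ∀ b ∈ A, a * b = b * a) ∧ A.index = p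
    · exact Or.inl hno
    · exact Or.inr (main hp _ G rfl hcd hG hno)
  · intro h
    have hcd : ∀ χ : IrrCharacter G, charDegree (χ : G → ℂ) = 1 ∨ charDegree (χ : G → ℂ) = p := by
      intro χ
      rcases h with ⟨A, hA, hab, hAi⟩ | h3
      · have h1 := ito_degree_dvd χ.2 A hA hab (charDegree_cast (irr_isChar χ.2)).symm
        rw [hAi] at h1
        exact (Nat.dvd_prime hp).mp h1
      · haveI := Fintype.ofFinite G
        have h1 := ito_degree_dvd χ.2 (center G) inferInstance
          (fun a ha b _ => (mem_center_iff.mp ha b).symm) (charDegree_cast (irr_isChar χ.2)).symm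
        rw [h3] at h1
        obtain ⟨j, -, hj⟩ := (Nat.dvd_prime_pow hp).mp h1
        have h2 := Cfsg.Agent.H20.Zass.degree_sq_mul_card_le χ.2
          (charDegree_cast (irr_isChar χ.2)).symm (center G) (by
            intro m hm k
            rw [mem_center_iff.mp hm k, mul_inv_cancel_right, mul_inv_cancel])
        have h4 := (center G).card_mul_index
        rw [h3] at h4
        rw [← h4, mul_comm (Nat.card (center G)), hj, ← pow_mul] at h2
        have h5 := Nat.le_of_mul_le_mul_right h2 Nat.card_pos
        rw [Nat.pow_le_pow_iff_right hp.one_lt] at h5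
        have hcases : j = 0 ∨ j = 1 := by omega
        rcases hcases with rfl | rfl
        · left; rw [hj, pow_zero]
        · right; rw [hj, pow_one]
    refine ⟨hcd, ?_⟩
    by_contra hcon
    push Not at hcon
    obtain ⟨a, b, hab⟩ := hG
    exact hab (comm_of_linear (fun χ => (hcd χ).resolve_right (hcon χ)) a b)


end Cfsg.Agent.S4459
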