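import Cfsg.Statements.S4464
import Cfsg.Agent.H3.Perm
import Cfsg.Agent.H3.Inflate
import Cfsg.Agent.H3.Basic2
import Cfsg.Agent.H27.CentralChar

set_option autoImplicit false
open Cfsg


namespace Cfsg.Agent.S4464


open Cfsg.Agent.H3

universe u

theorem card_ge {G : Type u} [Group G] [Finite G] (p : ℕ) [Fact p.Prime] (P : Sylow p G) :
    1 + p * (Nat.card (MulAction.orbitRel.Quotient (P : Subgroup G) (Sylow p G)) - 1) ≤
      Nat.card (Sylow p G) := by
  classical
  haveI := Fintype.ofFinite (Sylow p G)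
  haveI := Fintype.ofFinite (MulAction.orbitRel.Quotient (P : Subgroup G) (Sylow p G))
  have h1 : Nat.card (Sylow p G) =
      ∑ ω : MulAction.orbitRel.Quotient (P : Subgroup G) (Sylow p G),
        Nat.card (MulAction.orbit (P : Subgroup G) ω.out) := by
    rw [Nat.card_congr (MulAction.selfEquivSigmaOrbits (P : Subgroup G) (Sylow p G)), Nat.card_sigma]
  let ω0 : MulAction.orbitRel.Quotient (P : Subgroup G) (Sylow p G) := Quotient.mk'' P
  have h2 : ∀ ω : MulAction.orbitRel.Quotient (P : Subgroup G) (Sylow p G), ω ≠ ω0 →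
      p ≤ Nat.card (MulAction.orbit (P : Subgroup G) ω.out) := by
    intro ω hω
    obtain ⟨n, hn⟩ := P.isPGroup'.card_orbit ω.out
    rcases Nat.eq_zero_or_pos n with rfl | hpos
    · exfalso
      rw [pow_zero, Nat.card_eq_one_iff_unique] at hn
      obtain ⟨hs, -⟩ := hn
      apply hω
      have hfix : ω.out ∈ MulAction.fixedPoints (P : Subgroup G) (Sylow p G) := by
        intro x
        have := hs.elim ⟨x • ω.out, MulAction.mem_orbit _ _⟩ ⟨ω.out, MulAction.mem_orbit_self _⟩
        exact congrArg Subtype.val this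
      have h3 := P.isPGroup'.sylow_mem_fixedPoints_iff.mp hfix
      have h4 : P = ω.out := Sylow.ext (le_antisymm h3 (P.is_maximal' ω.out.isPGroup' h3).le)
      have h5 := Quotient.out_eq' ω
      rw [← h4] at h5
      exact h5.symm
    · rw [hn]
      calc p = p ^ 1 := (pow_one p).symm
        _ ≤ p ^ n := Nat.pow_le_pow_right (Fact.out : p.Prime).pos hpos
  have h3 : 1 ≤ Nat.card (MulAction.orbit (P : Subgroup G) ω0.out) := by
    haveI : Nonempty (MulAction.orbit (P : Subgroup G) ω0.out) := ⟨⟨_, MulAction.mem_orbit_self _⟩⟩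
    exact Nat.card_pos
  rw [h1, ← Finset.add_sum_erase _ _ (Finset.mem_univ ω0)]
  have h4 : ∑ ω ∈ Finset.univ.erase ω0, p ≤
      ∑ ω ∈ Finset.univ.erase ω0, Nat.card (MulAction.orbit (P : Subgroup G) ω.out) :=
    Finset.sum_le_sum fun ω hω => h2 ω (Finset.ne_of_mem_erase hω)
  rw [Finset.sum_const, smul_eq_mul, Finset.card_erase_of_mem (Finset.mem_univ _), Finset.card_univ,
    ← Nat.card_eq_fintype_card, mul_comm] at h4
  omega

theorem normal_of_small {G : Type u} [Group G] [Finite G] (p : ℕ) [Fact p.Prime]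
    (hb : ∀ χ : IrrCharacter G, ∃ n : ℕ, (χ : G → ℂ) 1 = n ∧ n < p) (P : Sylow p G) :
    Subsingleton (Sylow p G) := by
  classical
  haveI := Fintype.ofFinite G
  haveI := Fintype.ofFinite (IrrCharacter G)
  haveI := Fintype.ofFinite (Sylow p G)
  set π : G → ℂ := permChar G (Sylow p G) with hπ
  have hπc : IsCharacter G π := isChar_permChar _
  choose d hd1 hdp using hb
  have hm : ∀ χ : IrrCharacter G, ∃ n : ℕ, classInner π χ = n := fun χ =>
    classInner_char_nat hπc (irr_isChar χ.2)
  choose m hm using hm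
  -- degree
  have hdeg : Nat.card (Sylow p G) = ∑ χ, m χ * d χ := by
    have h := classFun_expand_apply (char_classFun hπc) 1
    rw [show π 1 = (Nat.card (Sylow p G) : ℂ) by
      rw [hπ, permChar]
      congr 1
      refine Nat.card_congr ((Equiv.subtypeUnivEquiv ?_))
      intro x; simp] at h
    simp only [hm, hd1] at h
    exact_mod_cast h
  -- norm
  have hnorm : ∑ χ, m χ * m χ ≤
      Nat.card (MulAction.orbitRel.Quotient (P : Subgroup G) (Sylow p G)) := by
    have h1 : classInner π π = ((∑ χ, m χ * m χ : ℕ) : ℂ) := by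
      rw [classInner_eq_sum (char_classFun hπc)]
      simp only [hm]
      push_cast
      simp
    have h2 : classInner π π = (Nat.card (MulAction.orbitRel.Quotient
        (MulAction.stabilizer G P) (Sylow p G)) : ℂ) := by
      have h3 : π = indFun (MulAction.stabilizer G P) (fun _ => 1) := permChar_eq_indFun _ P
      haveI := Fintype.ofFinite (MulAction.stabilizer G P)
      calc classInner π π = classInner (indFun (MulAction.stabilizer G P) (fun _ => 1)) π := by
            rw [← h3]
        _ = classInner (fun _ : MulAction.stabilizer G P => (1 : ℂ))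
            (fun h : MulAction.stabilizer G P => π h) :=
          frobenius_reciprocity _ _ (char_classFun hπc)
        _ = classInner (fun h : MulAction.stabilizer G P => π h)
            (fun _ : MulAction.stabilizer G P => (1 : ℂ)) :=
          classInner_char_symm isChar_one (isChar_restrict _ hπc)
        _ = _ := classInner_permChar_one (G := MulAction.stabilizer G P) (Sylow p G)
    rw [h1] at h2
    have h3 : ∑ χ, m χ * m χ = Nat.card (MulAction.orbitRel.Quotient
        (MulAction.stabilizer G P) (Sylow p G)) := by exact_mod_cast h2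
    rw [h3]
    have hle : (P : Subgroup G) ≤ MulAction.stabilizer G P := by
      rw [Sylow.stabilizer_eq_normalizer]
      exact Subgroup.le_normalizer
    refine Nat.card_le_card_of_surjective (Quotient.map' id ?_) ?_
    · rintro a b ⟨g, hg⟩
      exact ⟨⟨g, hle g.2⟩, hg⟩
    · intro q
      induction q using Quotient.inductionOn' with
      | h x => exact ⟨Quotient.mk'' x, rfl⟩
  -- trivial character
  have hone : m (⟨fun _ => 1, isIrr_one⟩ : IrrCharacter G) = 1 := by
    have h1 := hm ⟨fun _ => 1, isIrr_one⟩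
    have h2 : classInner π (fun _ => 1) = ((1 : ℕ) : ℂ) := by
      rw [hπ, classInner_permChar_one]
      congr 1
      rw [Nat.card_eq_one_iff_unique]
      exact ⟨(MulAction.pretransitive_iff_subsingleton_quotient G (Sylow p G)).mp inferInstance,
        ⟨Quotient.mk'' P⟩⟩
    have h3 : ((m ⟨fun _ => 1, isIrr_one⟩ : ℕ) : ℂ) = ((1 : ℕ) : ℂ) := by rw [← h1, ← h2]
    exact_mod_cast h3
  set e : IrrCharacter G := ⟨fun _ => 1, isIrr_one⟩ with he
  have hde : d e = 1 := by
    have := hd1 e
    have h2 : ((d e : ℕ) : ℂ) = ((1 : ℕ) : ℂ) := by rw [← this, he]; simp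
    exact_mod_cast h2
  have hge := card_ge p P
  rw [hdeg, ← Finset.add_sum_erase _ _ (Finset.mem_univ e), hone, hde] at hge
  rw [← Finset.add_sum_erase _ _ (Finset.mem_univ e), hone] at hnorm
  set s := Nat.card (MulAction.orbitRel.Quotient (P : Subgroup G) (Sylow p G))
  have hlt : ∑ χ ∈ Finset.univ.erase e, m χ * d χ ≤
      (p - 1) * ∑ χ ∈ Finset.univ.erase e, m χ * m χ := by
    rw [Finset.mul_sum]
    refine Finset.sum_le_sum fun χ _ => ?_
    have h1 : d χ ≤ p - 1 := by have := hdp χ; omega
    calc m χ * d χ ≤ (m χ * m χ) * (p - 1) := Nat.mul_le_mul (Nat.le_mul_self _) h1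
      _ = (p - 1) * (m χ * m χ) := mul_comm _ _
  have hs1 : s - 1 = 0 := by
    by_contra hne
    have h1 : (p - 1) * ∑ χ ∈ Finset.univ.erase e, m χ * m χ ≤ (p - 1) * (s - 1) :=
      Nat.mul_le_mul_left _ (by omega)
    have h2 : (p - 1) * (s - 1) < p * (s - 1) :=
      Nat.mul_lt_mul_of_pos_right (by have := (Fact.out : p.Prime).pos; omega) (by omega)
    omega
  have hzero : ∑ χ ∈ Finset.univ.erase e, m χ * d χ = 0 := by
    have h1 : ∑ χ ∈ Finset.univ.erase e, m χ * m χ = 0 := by omega
    rw [h1] at hlt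
    omega
  have hcard : Nat.card (Sylow p G) = 1 := by
    rw [hdeg, ← Finset.add_sum_erase _ _ (Finset.mem_univ e), hone, hde, hzero]
  exact (Nat.card_eq_one_iff_unique.mp hcard).1

/-- Let p be a prime and G a finite group all of whose irreducible character degrees are less than p. Then G has a normal abelian Sylow p-subgroup. -/
theorem result {G : Type*} [Group G] [Finite G] (p : ℕ) (hp : p.Prime) (hb : ∀ χ : Cfsg.IrrCharacter G, Cfsg.charDegree (χ : G → ℂ) < p) : ∃ P : Subgroup G, P.Normal ∧ (∀ x ∈ P, ∀ y ∈ P, x * y = y * x) ∧ IsPGroup p P ∧ ¬ p ∣ P.index := by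
  classical
  haveI : Fact p.Prime := ⟨hp⟩
  haveI := Fintype.ofFinite G
  have hb' : ∀ χ : IrrCharacter G, ∃ n : ℕ, (χ : G → ℂ) 1 = n ∧ n < p := fun χ =>
    ⟨charDegree (χ : G → ℂ), (Cfsg.Agent.H27.charDegree_cast (irr_isChar χ.2)).symm, hb χ⟩
  obtain ⟨P⟩ : Nonempty (Sylow p G) := inferInstance
  haveI := normal_of_small p hb' P
  have hN : (P : Subgroup G).Normal := Sylow.normal_of_subsingleton P
  refine ⟨P, hN, ?_, P.isPGroup', P.not_dvd_index⟩
  haveI := Fintype.ofFinite (P : Subgroup G)
  have habs : ∀ a b : (P : Subgroup G), a * b = b * a := by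
    rw [comm_iff_all_linear]
    intro lam
    obtain ⟨n, hn0, hn⟩ := irr_one_eq_nat lam.2
    have hne : indFun (P : Subgroup G) lam ≠ 0 := by
      intro h0
      have h1 := congrFun h0 1
      rw [indFun_one_apply] at h1
      rcases mul_eq_zero.mp h1 with h | h
      · exact Subgroup.index_ne_zero_of_finite (H := (P : Subgroup G)) (by exact_mod_cast h)
      · exact irr_one_ne_zero lam.2 h
    obtain ⟨χ, hχ⟩ := exists_constituent (isChar_ind (P : Subgroup G) (irr_isChar lam.2)) hne
    rw [frobenius_reciprocity _ _ (irr_classFun χ.2)] at hχ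
    obtain ⟨m, hm, hmp⟩ := hb' χ
    have hle : n ≤ m := char_degree_le_of_inner_ne_zero (isChar_restrict (P : Subgroup G)
      (irr_isChar χ.2)) lam.2 (classInner_ne_zero_symm hχ) (by simpa using hm) hn
    obtain ⟨k, hk⟩ := (IsPGroup.iff_card.mp P.isPGroup')
    have hdvd : n ∣ p ^ k := by rw [← hk]; exact irr_degree_dvd_card lam.2 hn
    obtain ⟨j, -, hj⟩ := (Nat.dvd_prime_pow hp).mp hdvd
    rcases Nat.eq_zero_or_pos j with rfl | hj0
    · rw [hn, hj]; simp
    · exfalso
      have : p ≤ p ^ j := by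
        calc p = p ^ 1 := (pow_one p).symm
          _ ≤ p ^ j := Nat.pow_le_pow_right hp.pos hj0
      omega
  intro x hx y hy
  exact congrArg Subtype.val (habs ⟨x, hx⟩ ⟨y, hy⟩)


end Cfsg.Agent.S4464
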