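import Cfsg.Statements.S4468
import Cfsg.Agent.H23.HHSemi3
import Cfsg.Agent.H3.Basic2
import Cfsg.Agent.H23.HHApp2

set_option autoImplicit false
set_option linter.all false
open Cfsg

namespace Cfsg.Agent.S4468

open Subgroup

theorem auxA {G : Type*} [Group G] [Finite G] {p : ℕ} (hp : p.Prime) [Fact p.Prime] (hsolv : Cfsg.IsPSolvable p G)
    (P : Sylow p G) (K : Subgroup G) (hK : K = Cfsg.pPrimeCore p G) (hKc : (Nat.card K).Coprime p)
    (hPab : ∀ a ∈ (P : Subgroup G), ∀ b ∈ (P : Subgroup G), a * b = b * a)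
    (hcon : ∀ x ∈ (P : Subgroup G), ∀ k ∈ K, x * k = k * x) : (P : Subgroup G).Normal := by
  classical
  haveI : K.Normal := by rw [hK]; infer_instance
  set f := QuotientGroup.mk' K with hf
  have hfs : Function.Surjective f := QuotientGroup.mk'_surjective K
  set Pb := P.mapSurjective hfs with hPb
  have hPbeq : (Pb : Subgroup (G ⧸ K)) = (P : Subgroup G).map f := Sylow.coe_mapSurjective hfs P
  have hO : Cfsg.pPrimeCore p (G ⧸ K) = ⊥ := by
    subst hK
    exact H23.pPrimeCore_quotient_eq_bot p G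
  have hOP : Cfsg.pCore p (G ⧸ K) ≤ (Pb : Subgroup (G ⧸ K)) := H18.pCore_le_sylow Pb
  have h1 : (Pb : Subgroup (G ⧸ K)) ≤ Cfsg.pCore p (G ⧸ K) := by
    refine le_trans ?_ (H23.centralizer_pCore_le (H23.isPSolvable_quotient K hsolv) hO)
    intro a ha
    rw [mem_centralizer_iff]
    intro b hb
    have hb' := hOP hb
    rw [hPbeq] at ha hb'
    obtain ⟨a, ha, rfl⟩ := ha
    obtain ⟨b, hb'', rfl⟩ := hb'
    rw [← map_mul, ← map_mul, hPab a ha b hb'']
  have h2 : (P : Subgroup G).map f = Cfsg.pCore p (G ⧸ K) := by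
    rw [← hPbeq]
    exact le_antisymm h1 hOP
  -- T = KP is normal
  constructor
  intro g hg a
  have h3 : a * g * a⁻¹ ∈ K ⊔ (P : Subgroup G) := by
    have h4 : f (a * g * a⁻¹) ∈ (P : Subgroup G).map f := by
      have h5 : f g ∈ Cfsg.pCore p (G ⧸ K) := by rw [← h2]; exact mem_map_of_mem f hg
      rw [h2, map_mul, map_mul, map_inv]
      exact (inferInstance : (Cfsg.pCore p (G ⧸ K)).Normal).conj_mem _ h5 _
    obtain ⟨b, hb, hbe⟩ := h4
    have h6 : b⁻¹ * (a * g * a⁻¹) ∈ K := QuotientGroup.eq.mp hbe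
    have h7 : a * g * a⁻¹ = b * (b⁻¹ * (a * g * a⁻¹)) := by group
    rw [h7]
    exact mul_mem ((le_sup_right : (P : Subgroup G) ≤ K ⊔ (P : Subgroup G)) hb)
      ((le_sup_left : K ≤ K ⊔ (P : Subgroup G)) h6)
  obtain ⟨k, hk, b, hb, hkb⟩ := mem_sup_of_normal_left.mp h3
  have hcom : Commute k b := (hcon b hb k hk).symm
  obtain ⟨j, hj⟩ := P.isPGroup' ⟨g, hg⟩
  obtain ⟨j', hj'⟩ := P.isPGroup' ⟨b, hb⟩
  have hj1 : g ^ p ^ j = 1 := by
    have := congrArg (fun z : (P : Subgroup G) => (z : G)) hj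
    simpa using this
  have hj2 : b ^ p ^ j' = 1 := by
    have := congrArg (fun z : (P : Subgroup G) => (z : G)) hj'
    simpa using this
  have h8 : (a * g * a⁻¹) ^ p ^ (j + j') = 1 := by
    rw [conj_pow, pow_add, pow_mul, hj1, one_pow, mul_one, mul_inv_cancel]
  rw [← hkb, hcom.mul_pow] at h8
  have h9 : b ^ p ^ (j + j') = 1 := by rw [add_comm, pow_add, pow_mul, hj2, one_pow]
  rw [h9, mul_one] at h8
  have h10 : k = 1 := by
    have h11 : orderOf k ∣ Nat.card K := Subgroup.orderOf_dvd_natCard K hk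
    have h12 : orderOf k ∣ p ^ (j + j') := orderOf_dvd_of_pow_eq_one h8
    have h13 : (Nat.card K).Coprime (p ^ (j + j')) := hKc.pow_right _
    have h14 := Nat.dvd_gcd h11 h12
    rw [h13] at h14
    exact orderOf_eq_one_iff.mp (Nat.dvd_one.mp h14)
  rw [← hkb, h10, one_mul]
  exact hb

theorem auxC {G : Type*} [Group G] [Finite G] {p : ℕ} [Fact p.Prime] (P : Sylow p G) (K : Subgroup G)
    (hPK : ∃ x ∈ (P : Subgroup G), ∃ k ∈ K, x * k ≠ k * x) :
    ∃ x ∈ (P : Subgroup G), ∃ k ∈ K, x * k ≠ k * x ∧ ∃ j : ℕ, orderOf x = p ^ (j + 1) ∧ ∀ k ∈ K, x ^ p * k = k * x ^ p := by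
  classical
  have hp : p.Prime := Fact.out
  have hex : ∃ m : ℕ, ∃ x ∈ (P : Subgroup G), orderOf x = m ∧ ∃ k ∈ K, x * k ≠ k * x := by
    obtain ⟨x, hx, k, hk, hne⟩ := hPK
    exact ⟨_, x, hx, rfl, k, hk, hne⟩
  obtain ⟨x, hxP, hxo, k, hk, hxk⟩ := Nat.find_spec hex
  have hx1 : x ≠ 1 := by
    rintro rfl
    apply hxk
    rw [one_mul, mul_one]
  have hxpg : ∃ j : ℕ, orderOf x = p ^ (j + 1) := by
    obtain ⟨j, hj⟩ := P.isPGroup' ⟨x, hxP⟩
    have hj1 : x ^ p ^ j = 1 := by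
      have := congrArg (fun z : (P : Subgroup G) => (z : G)) hj
      simpa using this
    obtain ⟨i, _, hi⟩ := (Nat.dvd_prime_pow hp).mp (orderOf_dvd_of_pow_eq_one hj1)
    cases i with
    | zero =>
      rw [pow_zero, orderOf_eq_one_iff] at hi
      exact absurd hi hx1
    | succ i => exact ⟨i, hi⟩
  obtain ⟨j, hj⟩ := hxpg
  have hyK : ∀ k ∈ K, x ^ p * k = k * x ^ p := by
    by_contra hcon
    push Not at hcon
    obtain ⟨k', hk', hne'⟩ := hcon
    refine Nat.find_min hex (m := orderOf (x ^ p)) ?_ ⟨x ^ p, pow_mem hxP _, rfl, k', hk', hne'⟩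
    rw [← hxo, orderOf_pow' x hp.ne_zero, hj, pow_succ, Nat.gcd_mul_left_left, Nat.mul_div_cancel _ hp.pos]
    exact lt_mul_of_one_lt_right (pow_pos hp.pos _) hp.one_lt
  exact ⟨x, hxP, k, hk, hxk, j, hj, hyK⟩

/-- quotient by the kernel and produce the semi-situation -/
theorem auxE {L V : Type*} [Group L] [Finite L] [AddCommGroup V] [Module ℂ V] [FiniteDimensional ℂ V]
    (ρb : L →* Module.End ℂ V) (hρbinj : Function.Injective ρb) {p j : ℕ} (hp : p.Prime) [Fact p.Prime]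
    (hdim : Module.finrank ℂ V + 1 ≤ p)
    (Kb : Subgroup L) [Kb.Normal] (xb : L) (hKbc : (Nat.card Kb).Coprime p) (c : ℂ) (hc0 : c ≠ 0)
    (hxc : ∀ w, ρb (xb ^ p) w = c • w) (hord : xb ^ p ^ (j + 1) = 1) (hxbne : ∃ u ∈ Kb, xb * u ≠ u * xb) :
    Module.finrank ℂ V + 1 = p ∧ (∃ m : ℕ, Module.finrank ℂ V = 2 ^ m) ∧
      ∀ U : Submodule ℂ V, (∀ g, ∀ w ∈ U, ρb g w ∈ U) → U = ⊥ ∨ U = ⊤ := by
  classical
  have hxbp : IsPGroup p (zpowers xb) := by
    apply (IsPGroup.iff_card (p := p)).mpr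
    rw [Nat.card_zpowers]
    obtain ⟨i, _, hi⟩ := (Nat.dvd_prime_pow hp).mp (orderOf_dvd_of_pow_eq_one hord)
    exact ⟨i, hi⟩
  -- invariant Sylow
  obtain ⟨i₀, hi₀⟩ := hxbp.exists_card_eq
  have hAR : zpowers xb ≤ normalizer (Kb : Set L) := by rw [normalizer_eq_top]; exact le_top
  have hcop : (Nat.card (zpowers xb)).Coprime (Nat.card Kb) := by rw [hi₀]; exact (hKbc.pow_right _).symm
  have hAsol : Group.IsSolvable (zpowers xb) := H23.isSolvable_of_isPGroup (p := p) hxbp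
  obtain ⟨q, hqf, S, hS, hAS, hSx⟩ : ∃ (q : ℕ) (_ : Fact q.Prime) (S : Subgroup L), H23.IsSylowOf q S Kb ∧
      zpowers xb ≤ normalizer (S : Set L) ∧ ∃ u ∈ S, xb * u ≠ u * xb := by
    by_contra hcon
    push Not at hcon
    have h1 : Kb ≤ centralizer ({xb} : Set L) := by
      rw [← relIndex_eq_one]
      by_contra hne
      obtain ⟨q, hq, hqd⟩ := Nat.exists_prime_and_dvd hne
      haveI : Fact q.Prime := ⟨hq⟩
      obtain ⟨S, hS, hAS⟩ := H23.exists_invariant_sylow hAR hcop (Or.inl hAsol) q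
      have h2 := hcon q inferInstance S hS hAS
      have h3 : S ≤ centralizer ({xb} : Set L) := by
        intro u hu
        rw [mem_centralizer_singleton_iff]
        exact (h2 u hu).symm
      exact hS.not_dvd (hqd.trans (relIndex_dvd_of_le_left Kb h3))
    obtain ⟨u, hu, hne⟩ := hxbne
    exact hne (mem_centralizer_singleton_iff.mp (h1 hu)).symm
  have hq := hqf.out
  have hpq : p ≠ q := by
    rintro rfl
    obtain ⟨u, hu, hne⟩ := hSx
    apply hne
    have h2 : (Nat.card S).Coprime p := Nat.Coprime.coprime_dvd_left (card_dvd_of_le hS.le) hKbc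
    obtain ⟨e, he⟩ := hS.isPGroup.exists_card_eq
    have h3 : Nat.card S = 1 := by
      rw [he] at h2 ⊢
      rcases Nat.eq_zero_or_pos e with h | h
      · rw [h, pow_zero]
      · have h4 := Nat.Coprime.coprime_dvd_left (dvd_pow_self p h.ne') h2
        exact absurd ((Nat.coprime_self p).mp h4) hp.one_lt.ne'
    rw [card_eq_one] at h3
    rw [h3, mem_bot] at hu
    rw [hu, one_mul, mul_one]
  obtain ⟨c', hc'⟩ := IsAlgClosed.exists_pow_nat_eq (c⁻¹) hp.pos
  have hX1 : (c' • ρb xb) ^ p = 1 := by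
    rw [smul_pow, hc', ← map_pow]
    have h1 : ρb (xb ^ p) = c • 1 := by
      apply LinearMap.ext
      intro w
      exact hxc w
    rw [h1, smul_smul, inv_mul_cancel₀ hc0, one_smul]
  obtain ⟨⟨m, hm1, hm⟩, _, hle, hirr⟩ := H23.hh_qgroup_semi hpq (Nat.cast_ne_zero.mpr hp.ne_zero)
    (Nat.cast_ne_zero.mpr hq.ne_zero) ρb hρbinj hxbp hX1 S hS.isPGroup (hAS (mem_zpowers xb)) hSx
    (Or.inr (by omega))
  have hn1 : Module.finrank ℂ V + 1 = p := by omega
  have hVcn : Module.finrank ℂ V = p - 1 := by omega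
  have hp2 : p ≠ 2 := by
    rintro rfl
    have h1 : 1 < q ^ m := Nat.one_lt_pow (by omega) hq.one_lt
    omega
  have hq2 : q = 2 := by
    obtain ⟨s, hs⟩ := hp.odd_of_ne_two hp2
    have h3 : 2 ∣ q ^ m := by rw [← hm, hs]; simp
    exact ((Nat.prime_dvd_prime_iff_eq Nat.prime_two hq).mp (Nat.prime_two.dvd_of_dvd_pow h3)).symm
  refine ⟨hn1, ⟨m, by rw [← hq2, ← hm]; omega⟩, fun U hU => hirr hVcn U ?_⟩
  intro u _ w hw
  exact hU u w hw

theorem exists_kerLift {L M : Type*} [Group L] [Monoid M] (ρ : L →* M) :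
    ∃ ρb : L ⧸ ρ.ker →* M, Function.Injective ρb ∧ ∀ u : L, ρb (u : L ⧸ ρ.ker) = ρ u := by
  refine ⟨QuotientGroup.lift ρ.ker ρ (fun x hx => hx), ?_, fun _ => rfl⟩
  intro a b hab
  obtain ⟨a, rfl⟩ := QuotientGroup.mk_surjective a
  obtain ⟨b, rfl⟩ := QuotientGroup.mk_surjective b
  have h : ρ a = ρ b := hab
  rw [QuotientGroup.eq, MonoidHom.mem_ker, map_mul, ← h, ← map_mul, inv_mul_cancel, map_one]

theorem auxD {L V : Type*} [Group L] [Finite L] [AddCommGroup V] [Module ℂ V] [FiniteDimensional ℂ V]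
    (ρ : L →* Module.End ℂ V) {p j : ℕ} (hp : p.Prime) [Fact p.Prime] (hdim : Module.finrank ℂ V + 1 ≤ p)
    (K : Subgroup L) [K.Normal] (x k : L) (hk : k ∈ K) (hKc : (Nat.card K).Coprime p) (c : ℂ) (hc0 : c ≠ 0)
    (hxc : ∀ w, ρ (x ^ p) w = c • w) (hord : x ^ p ^ (j + 1) = 1) (v : V) (hbv : ρ (k * x * k⁻¹ * x⁻¹) v ≠ v) :
    Module.finrank ℂ V + 1 = p ∧ (∃ m : ℕ, Module.finrank ℂ V = 2 ^ m) ∧
      ∀ U : Submodule ℂ V, (∀ g, ∀ w ∈ U, ρ g w ∈ U) → U = ⊥ ∨ U = ⊤ := by
  classical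
  haveI hKn : (K.map (QuotientGroup.mk' ρ.ker)).Normal :=
    (inferInstance : K.Normal).map _ (QuotientGroup.mk'_surjective ρ.ker)
  obtain ⟨ρb, hinj, hmk⟩ := exists_kerLift ρ
  obtain ⟨h1, h2, h3⟩ := auxE (L := L ⧸ ρ.ker) ρb hinj
    (p := p) (j := j) hp hdim (K.map (QuotientGroup.mk' ρ.ker)) (x : L ⧸ ρ.ker)
    (Nat.Coprime.coprime_dvd_left (Subgroup.card_map_dvd _ _) hKc) c hc0
    (fun w => by rw [← QuotientGroup.mk_pow, hmk]; exact hxc w)
    (by rw [← QuotientGroup.mk_pow, hord, QuotientGroup.mk_one])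
    (by
      refine ⟨(k : L ⧸ ρ.ker), mem_map_of_mem _ hk, ?_⟩
      intro h
      apply hbv
      have h1 : ((k * x * k⁻¹ * x⁻¹ : L) : L ⧸ ρ.ker) = 1 := by
        rw [QuotientGroup.mk_mul, QuotientGroup.mk_mul, QuotientGroup.mk_mul, QuotientGroup.mk_inv, QuotientGroup.mk_inv, ← h]
        group
      have h2 : ρ (k * x * k⁻¹ * x⁻¹) = 1 := by
        rw [← MonoidHom.mem_ker]
        exact (QuotientGroup.eq_one_iff _).mp h1
      rw [h2]
      rfl)
  refine ⟨h1, h2, fun U hU => h3 U ?_⟩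
  intro g w hw
  obtain ⟨g, rfl⟩ := QuotientGroup.mk_surjective g
  rw [hmk]
  exact hU g w hw

theorem auxB {G V : Type*} [Group G] [Finite G] [AddCommGroup V] [Module ℂ V] [FiniteDimensional ℂ V]
    (σ : G →* Module.End ℂ V) (hinj : Function.Injective σ) {p n : ℕ} (hp : p.Prime) [Fact p.Prime] (hdV : Module.finrank ℂ V = n)
    (hsolv : Cfsg.IsPSolvable p G) (hnp : n + 1 ≤ p) (P : Sylow p G) (hP : ¬ (P : Subgroup G).Normal) :
    n + 1 = p ∧ (∃ k : ℕ, n = 2 ^ k) ∧ ∀ U : Submodule ℂ V, (∀ g, ∀ w ∈ U, σ g w ∈ U) → U = ⊥ ∨ U = ⊤ := by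
  classical
  -- P is abelian
  have hPab : ∀ a ∈ (P : Subgroup G), ∀ b ∈ (P : Subgroup G), a * b = b * a := by
    intro a ha b hb
    have h1 := H3.comm_of_small_degree (G := (P : Subgroup G)) (σ.comp (P : Subgroup G).subtype)
      (hinj.comp (P : Subgroup G).subtype_injective) (by
        intro q hq hqd
        obtain ⟨e, he⟩ := P.isPGroup'.exists_card_eq
        rw [he] at hqd
        have h2 := (Nat.prime_dvd_prime_iff_eq hq hp).mp (hq.dvd_of_dvd_pow hqd)
        rw [hdV, h2]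
        omega) ⟨a, ha⟩ ⟨b, hb⟩
    exact congrArg (fun z : (P : Subgroup G) => (z : G)) h1
  set K := Cfsg.pPrimeCore p G with hK
  have hKc : (Nat.card K).Coprime p := H1.pPrimeCore_coprime p G
  -- P does not centralize K
  have hPK : ∃ x ∈ (P : Subgroup G), ∃ k ∈ K, x * k ≠ k * x := by
    by_contra hcon
    push Not at hcon
    exact hP (auxA hp hsolv P K hK hKc hPab (fun x hx k hk => hcon x hx k hk))
  -- x of minimal order
  obtain ⟨x, hxP, k, hk, hxk, j, hj, hyK⟩ := auxC P K hPK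
  -- common eigenvector
  set y := x ^ p with hy
  set b := k * x * k⁻¹ * x⁻¹ with hb
  have hb1 : b ≠ 1 := by
    intro h
    apply hxk
    rw [hb, mul_inv_eq_one, mul_inv_eq_iff_eq_mul] at h
    exact h.symm
  have hyx : y * x = x * y := (Commute.refl x).pow_left p
  have hyb : y * b = b * y := by
    have h1 : Commute y k := hyK k hk
    have h2 : Commute y x := hyx
    exact ((h1.mul_right h2).mul_right h1.inv_right).mul_right h2.inv_right
  have hGc : (Nat.card G : ℂ) ≠ 0 := Nat.cast_ne_zero.mpr Nat.card_pos.ne'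
  obtain ⟨w₀, hw₀⟩ : ∃ w, σ b w ≠ w := by
    by_contra hcon
    push Not at hcon
    apply hb1
    apply hinj
    rw [map_one]
    exact LinearMap.ext hcon
  obtain ⟨v, μ, _, hv0, hμ, hμb⟩ := H23.exists_common_eigenvector_ne hGc ({y, b} : Set G) σ (U := ⊤)
    (fun _ _ _ _ => Submodule.mem_top) (by
      intro a ha c hc u _
      rw [← Module.End.mul_apply, ← Module.End.mul_apply, ← map_mul, ← map_mul]
      rcases ha with rfl | ha <;> rcases hc with rfl | hc
      · rfl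
      · rw [Set.mem_singleton_iff.mp hc, hyb]
      · rw [Set.mem_singleton_iff.mp ha, hyb]
      · rw [Set.mem_singleton_iff.mp ha, Set.mem_singleton_iff.mp hc])
    (a₀ := b) (Or.inr rfl) (w := w₀) Submodule.mem_top hw₀
  set c := μ y with hc
  have hcv : σ y v = c • v := hμ y (Or.inl rfl)
  have hbv : σ b v ≠ v := by
    rw [hμ b (Or.inr rfl)]
    intro h
    have h3 : (μ b - 1) • v = 0 := by rw [sub_smul, h, one_smul, sub_self]
    rcases smul_eq_zero.mp h3 with h | h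
    · exact hμb (sub_eq_zero.mp h)
    · exact hv0 h
  have hc0 : c ≠ 0 := by
    intro h
    rw [h, zero_smul] at hcv
    apply hv0
    have h1 : σ y⁻¹ (σ y v) = v := by
      rw [← Module.End.mul_apply, ← map_mul, inv_mul_cancel, map_one]; rfl
    rw [← h1, hcv, map_zero]
  set Vc := Module.End.eigenspace (σ y) c with hVc
  have hvVc : v ∈ Vc := Module.End.mem_eigenspace_iff.mpr hcv
  set L := K ⊔ zpowers x with hL
  have hKL : K ≤ L := le_sup_left
  have hxL : x ∈ L := (le_sup_right : zpowers x ≤ L) (mem_zpowers x)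
  have hyL : ∀ g ∈ L, y * g = g * y := by
    have h1 : L ≤ centralizer ({y} : Set G) := by
      rw [hL, sup_le_iff, zpowers_le]
      refine ⟨fun g hg => ?_, ?_⟩
      · rw [mem_centralizer_singleton_iff]
        exact (hyK g hg).symm
      · rw [mem_centralizer_singleton_iff]
        exact hyx.symm
    intro g hg
    exact (mem_centralizer_singleton_iff.mp (h1 hg)).symm
  set σL : L →* Module.End ℂ V := σ.comp L.subtype with hσL
  have hVcL : ∀ (u : L), ∀ w ∈ Vc, σL u w ∈ Vc := by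
    intro u w hw
    rw [hVc, Module.End.mem_eigenspace_iff] at hw ⊢
    change σ y (σ u w) = c • σ u w
    rw [← Module.End.mul_apply, ← map_mul, hyL u u.2, map_mul, Module.End.mul_apply, hw, map_smul]
  set ρc := H23.subrep σL Vc hVcL with hρc
  have hρccoe : ∀ (u : L) (w : Vc), ((ρc u w : Vc) : V) = σ u w := fun u w => rfl
  haveI hKLn : (K.subgroupOf L).Normal := inferInstance
  have hdc : Module.finrank ℂ Vc ≤ n := by
    rw [← hdV]
    exact Submodule.finrank_le Vc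
  obtain ⟨h1, ⟨m, hm⟩, h3⟩ := auxD ρc (j := j) hp (by omega) (K.subgroupOf L) ⟨x, hxL⟩ ⟨k, hKL hk⟩ hk
    (by rw [H1.card_subgroupOf hKL]; exact hKc) c hc0 (fun w => by
      apply Subtype.ext
      rw [hρccoe]
      exact Module.End.mem_eigenspace_iff.mp w.2)
    (by
      apply Subtype.ext
      change x ^ p ^ (j + 1) = 1
      rw [← hj, pow_orderOf_eq_one]) ⟨v, hvVc⟩ (by
      intro h
      apply hbv
      exact congrArg (fun z : Vc => (z : V)) h)
  have hn : Module.finrank ℂ Vc = n := by omega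
  refine ⟨by omega, ⟨m, by omega⟩, fun U hU => ?_⟩
  have hVctop : Vc = ⊤ := by
    apply Submodule.eq_top_of_finrank_eq
    rw [hn, hdV]
  have h4 := h3 (U.comap Vc.subtype) (by
    intro u w hw
    rw [Submodule.mem_comap] at hw ⊢
    exact hU (u : G) _ hw)
  rcases h4 with h4 | h4
  · left
    rw [eq_bot_iff]
    intro w hw
    have h5 : (⟨w, by rw [hVctop]; exact Submodule.mem_top⟩ : Vc) ∈ U.comap Vc.subtype := hw
    rw [h4, Submodule.mem_bot] at h5
    rw [Submodule.mem_bot]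
    exact congrArg Subtype.val h5
  · right
    rw [eq_top_iff]
    intro w _
    have h5 : (⟨w, by rw [hVctop]; exact Submodule.mem_top⟩ : Vc) ∈ U.comap Vc.subtype := by
      rw [h4]; exact Submodule.mem_top
    exact h5

/-- Let the finite p-solvable group G have a faithful character χ of degree n ≤ p − 1 and suppose that a Sylow p-subgroup of G is not normal. Then n = p − 1, n is a power of 2, and χ is irreducible. -/
theorem result {G : Type*} [Group G] [Finite G] (χ : G → ℂ) (hχ : Cfsg.IsCharacter G χ) (hfaith : ∀ g : G, χ g = χ 1 → g = 1) (n : ℕ) (hn : Cfsg.charDegree χ = n) (p : ℕ) (hp : p.Prime) (hsolv : Cfsg.IsPSolvable p G) (hnp : n + 1 ≤ p) (P : Sylow p G) (hP : ¬ (P : Subgroup G).Normal) : n + 1 = p ∧ (∃ k : ℕ, n = 2 ^ k) ∧ Cfsg.IsIrrCharacter G χ := by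
  classical
  haveI : Fact p.Prime := ⟨hp⟩
  obtain ⟨d, σ, rfl⟩ := hχ
  have hdV : Module.finrank ℂ (Fin d → ℂ) = d := Module.finrank_fin_fun ℂ
  have hdn : n = d := by
    rw [← hn, charDegree, Representation.char_one, hdV]
    simp
  subst hdn
  have hinj : Function.Injective σ := by
    rw [injective_iff_map_eq_one]
    intro g hg
    apply hfaith
    change LinearMap.trace ℂ (Fin n → ℂ) (σ g) = LinearMap.trace ℂ (Fin n → ℂ) (σ 1)
    rw [hg, map_one σ]
  obtain ⟨h1, h2, hirr⟩ := auxB (V := Fin n → ℂ) σ hinj hp hdV hsolv hnp P hP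
  refine ⟨h1, h2, n, σ, ?_, rfl⟩
  haveI : Nontrivial (Fin n → ℂ) := Module.nontrivial_of_finrank_pos (R := ℂ) (by rw [hdV]; have := hp.two_le; omega)
  haveI hnt : Nontrivial (Subrepresentation σ) := by
    refine ⟨⊥, ⊤, fun hbt => ?_⟩
    have h1 : (⊥ : Submodule ℂ (Fin n → ℂ)) = ⊤ := congrArg Subrepresentation.toSubmodule hbt
    exact bot_ne_top h1
  refine ⟨fun U => ?_⟩
  rcases hirr U.toSubmodule (fun g w hw => U.apply_mem_toSubmodule g hw) with h4 | h4
  · left
    exact Subrepresentation.toSubmodule_injective h4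
  · right
    exact Subrepresentation.toSubmodule_injective h4

end Cfsg.Agent.S4468
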