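import Cfsg.Statements.S4474
import Cfsg.Agent.H27.FSReal3

set_option autoImplicit false
open Cfsg

namespace Cfsg.Agent.S4474

open Cfsg.Agent.H27


/-- Let χ be an irreducible character of the finite group G. Then the Frobenius–Schur indicator of χ (the average over s ∈ G of χ(s²)) equals 1 if and only if χ is afforded by a real representation: there is a representation of G on a real coordinate space whose trace function, viewed in ℂ, is χ. -/
theorem result {G : Type*} [Group G] [Fintype G] (χ : Cfsg.IrrCharacter G) : ((Nat.card G : ℂ)⁻¹ * ∑ s : G, (χ : G → ℂ) (s * s)) = 1 ↔ ∃ (n : ℕ) (ρ : Representation ℝ G (Fin n → ℝ)), ∀ g : G, ((LinearMap.trace ℝ (Fin n → ℝ) (ρ g) : ℝ) : ℂ) = (χ : G → ℂ) g := by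
  show Cfsg.Agent.H3.fsInd (χ : G → ℂ) = 1 ↔ _
  constructor
  · intro h
    have hreal : ∀ g, ((χ : G → ℂ) g).im = 0 := by
      by_contra hcon
      have h1 := (Cfsg.Agent.H3.frobenius_schur χ.2).1 (fun heq => hcon fun g =>
        Complex.conj_eq_iff_im.mp (congrFun heq g).symm)
      rw [h1] at h
      exact zero_ne_one h
    obtain ⟨χ, n, ρ, hρ, rfl⟩ := χ
    obtain ⟨R, hR1, hRm, htr⟩ := real_of_fs_one ρ hρ hreal h
    refine ⟨n, matRep R hR1 hRm, fun g => ?_⟩
    rw [matRep_apply, Matrix.trace_toLin'_eq]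
    exact htr g
  · rintro ⟨n, ρ, h⟩
    exact fs_one_of_real χ.2 ρ h

end Cfsg.Agent.S4474
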