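import Cfsg.Statements.S4478
import Cfsg.Agent.H27.Invol
import Cfsg.Agent.H3.BrauerE

set_option autoImplicit false
open Cfsg

namespace Cfsg.Agent.S4478

open Cfsg.Agent.H27

theorem mul_pow_of_self {G : Type*} [Group G] (g : G) (k : ℕ) : (g * g) ^ k = g ^ k * g ^ k := (Commute.refl g).mul_pow k


/-- Let G be a finite group of even order and χ an irreducible character of G whose degree x is divisible by the full power of 2 dividing the order of G and, for every odd prime p such that G has an element of order 2p, by the full power of p dividing the order of G. Then all involutions of G are conjugate, the centralizer of every involution has order exactly x with x coprime to its index, and the Frobenius–Schur indicator of χ equals 1. -/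
theorem result {G : Type*} [Group G] [Fintype G] (heven : Even (Nat.card G)) (χ : Cfsg.IrrCharacter G) (h2 : 2 ^ (Nat.card G).factorization 2 ∣ Cfsg.charDegree (χ : G → ℂ)) (hp : ∀ p : ℕ, p.Prime → p ≠ 2 → (∃ g : G, orderOf g = 2 * p) → p ^ (Nat.card G).factorization p ∣ Cfsg.charDegree (χ : G → ℂ)) : (∀ s t : G, orderOf s = 2 → orderOf t = 2 → IsConj s t) ∧ (∀ s : G, orderOf s = 2 → Nat.card (Subgroup.centralizer ({s} : Set G)) = Cfsg.charDegree (χ : G → ℂ) ∧ (Nat.card (Subgroup.centralizer ({s} : Set G))).Coprime (Subgroup.centralizer ({s} : Set G)).index) ∧ (Nat.card G : ℂ)⁻¹ * ∑ g : G, (χ : G → ℂ) (g * g) = 1 := by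
  classical
  obtain ⟨hdef⟩ : Nonempty (∀ p : ℕ, p.Prime → p ^ (Nat.card G).factorization p ∣ Cfsg.charDegree (χ : G → ℂ) →
      ∀ g : G, p ∣ orderOf g → (χ : G → ℂ) g = 0) := by
    refine ⟨fun p hp' hd g hg => ?_⟩
    exact Cfsg.Agent.H3.char_eq_zero_of_defect_zero χ.2 hp' (Nat.pow_succ_factorization_not_dvd Nat.card_pos.ne' hp') (deg_eq χ) hd g hg
  set x := Cfsg.charDegree (χ : G → ℂ) with hx
  have hxpos : 0 < x := deg_pos χ
  have hGpos : 0 < Nat.card G := Nat.card_pos
  obtain ⟨s0, hs0⟩ := exists_prime_orderOf_dvd_card' (G := G) 2 heven.two_dvd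
  have hne1 : (χ : G → ℂ) ≠ (fun _ => 1) := by
    intro h
    have h1 := hdef 2 Nat.prime_two h2 s0 (by rw [hs0])
    rw [h] at h1
    exact one_ne_zero h1
  -- sum of the values
  have hsum0 : ∑ g : G, (χ : G → ℂ) g = 0 := by
    have h1 := Cfsg.Agent.H3.classInner_of_irr_ne χ.2 Cfsg.Agent.H3.isIrr_one hne1
    unfold Cfsg.classInner at h1
    have h3 : (Nat.card G : ℂ) ≠ 0 := Cfsg.Agent.H3.card_ne_zeroC
    simpa [h3] using h1
  -- squaring
  set N := (Nat.card G) / 2 ^ (Nat.card G).factorization 2 with hN
  have hNodd : Odd N := by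
    rw [← Nat.not_even_iff_odd, even_iff_two_dvd]
    exact Nat.not_dvd_ordCompl Nat.prime_two hGpos.ne'
  have hpowN : ∀ g : G, Odd (orderOf g) → g ^ N = 1 := by
    intro g hg
    rw [← orderOf_dvd_iff_pow_eq_one]
    have h1 : orderOf g ∣ 2 ^ (Nat.card G).factorization 2 * N := by
      rw [hN, Nat.ordProj_mul_ordCompl_eq_self]
      exact orderOf_dvd_natCard g
    exact (Nat.Coprime.pow_right _ (Nat.coprime_two_right.mpr hg)).dvd_of_dvd_mul_left h1
  obtain ⟨r, hr⟩ := hNodd
  have hsq : ∀ g : G, Odd (orderOf g) → (g * g) ^ (r + 1) = g := by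
    intro g hg
    rw [← pow_two, ← pow_mul, show 2 * (r + 1) = N + 1 by omega, pow_succ, hpowN g hg, one_mul]
  have hoddpow : ∀ (g : G) (k : ℕ), Odd (orderOf g) → Odd (orderOf (g ^ k)) := fun g k hg =>
    hg.of_dvd_nat (orderOf_pow_dvd k)
  have hA : ∑ g ∈ Finset.univ.filter (fun g : G => Odd (orderOf g)), (χ : G → ℂ) (g * g) = 0 := by
    have h1 : ∑ g ∈ Finset.univ.filter (fun g : G => Odd (orderOf g)), (χ : G → ℂ) (g * g) =
        ∑ g ∈ Finset.univ.filter (fun g : G => Odd (orderOf g)), (χ : G → ℂ) g := by
      refine Finset.sum_bij' (fun g _ => g * g) (fun h _ => h ^ (r + 1)) ?_ ?_ ?_ ?_ ?_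
      · intro g hg
        simp only [Finset.mem_filter, Finset.mem_univ, true_and] at hg ⊢
        rw [← pow_two]; exact hoddpow g 2 hg
      · intro g hg
        simp only [Finset.mem_filter, Finset.mem_univ, true_and] at hg ⊢
        exact hoddpow g _ hg
      · intro g hg
        simp only [Finset.mem_filter, Finset.mem_univ, true_and] at hg
        exact hsq g hg
      · intro g hg
        simp only [Finset.mem_filter, Finset.mem_univ, true_and] at hg
        rw [← mul_pow_of_self g (r + 1)]
        exact hsq g hg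
      · intro g hg; rfl
    rw [h1, Finset.sum_filter]
    refine Eq.trans (Finset.sum_congr rfl fun g _ => ?_) hsum0
    split_ifs with h
    · rfl
    · rw [Nat.not_odd_iff_even, even_iff_two_dvd] at h
      exact (hdef 2 Nat.prime_two h2 g h).symm
  have hB : ∀ g : G, ¬ Odd (orderOf g) → orderOf g ≠ 2 → (χ : G → ℂ) (g * g) = 0 := by
    intro g hg hg2
    rw [Nat.not_odd_iff_even, even_iff_two_dvd] at hg
    obtain ⟨m, hm⟩ := hg
    have hmpos : 0 < m := by
      rcases Nat.eq_zero_or_pos m with h | h
      · rw [h, mul_zero] at hm; exact absurd hm (orderOf_pos g).ne'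
      · exact h
    have hog : orderOf (g * g) = m := by
      rw [← pow_two, orderOf_pow_of_dvd (by norm_num) ⟨m, hm⟩, hm]
      exact Nat.mul_div_cancel_left _ (by norm_num)
    have hm1 : m ≠ 1 := by rintro rfl; exact hg2 (by omega)
    obtain ⟨p, hpp, hpm⟩ := Nat.exists_prime_and_dvd hm1
    by_cases hp2 : p = 2
    · subst hp2
      exact hdef 2 Nat.prime_two h2 _ (by rw [hog]; exact hpm)
    · refine hdef p hpp (hp p hpp hp2 ?_) _ (by rw [hog]; exact hpm)
      obtain ⟨c, hc⟩ := hpm
      have hc0 : c ≠ 0 := by rintro rfl; rw [mul_zero] at hc; omega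
      refine ⟨g ^ c, ?_⟩
      rw [orderOf_pow_of_dvd hc0 ⟨2 * p, by rw [hm, hc]; ring⟩, hm, hc,
        show 2 * (p * c) = 2 * p * c by ring]
      exact Nat.mul_div_cancel _ (Nat.pos_of_ne_zero hc0)
  have hC : ∑ g ∈ Finset.univ.filter (fun g : G => ¬ Odd (orderOf g)), (χ : G → ℂ) (g * g) =
      (Nat.card {g : G // orderOf g = 2} : ℂ) * x := by
    have h1 : ∑ g ∈ Finset.univ.filter (fun g : G => ¬ Odd (orderOf g)), (χ : G → ℂ) (g * g) =
        ∑ g ∈ Finset.univ.filter (fun g : G => orderOf g = 2), (χ : G → ℂ) (g * g) := by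
      symm
      refine Finset.sum_subset ?_ ?_
      · intro g hg
        simp only [Finset.mem_filter, Finset.mem_univ, true_and] at hg ⊢
        rw [hg]; decide
      · intro g hg hg'
        simp only [Finset.mem_filter, Finset.mem_univ, true_and] at hg hg'
        exact hB g hg hg'
    rw [h1, Finset.sum_congr rfl (g := fun _ => (x : ℂ))]
    · rw [Finset.sum_const, nsmul_eq_mul, Nat.card_eq_fintype_card, Fintype.card_subtype]
    · intro g hg
      simp only [Finset.mem_filter, Finset.mem_univ, true_and] at hg
      rw [← pow_two, ← hg, pow_orderOf_eq_one]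
      exact deg_eq χ
  have htot : ∑ g : G, (χ : G → ℂ) (g * g) = (Nat.card {g : G // orderOf g = 2} : ℂ) * x := by
    rw [← Finset.sum_filter_add_sum_filter_not Finset.univ (fun g : G => Odd (orderOf g)), hA, hC,
      zero_add]
  set t := Nat.card {g : G // orderOf g = 2} with ht
  have htpos : 0 < t := by
    haveI : Nonempty {g : G // orderOf g = 2} := ⟨⟨s0, hs0⟩⟩
    exact Nat.card_pos
  have hG0 : (Nat.card G : ℂ) ≠ 0 := Cfsg.Agent.H3.card_ne_zeroC
  have hν : Cfsg.Agent.H3.fsInd (χ : G → ℂ) * (Nat.card G : ℂ) = (t : ℂ) * x := by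
    rw [Cfsg.Agent.H3.fsInd, htot]; field_simp
  have hν1 : Cfsg.Agent.H3.fsInd (χ : G → ℂ) = 1 := by
    obtain ⟨h3, h4⟩ := fsInd_real_cases χ
    by_cases hreal : ∀ g, ((χ : G → ℂ) g).im = 0
    · rcases h4 hreal with h5 | h5
      · exact h5
      · exfalso
        rw [h5] at hν
        have h6 : (-(Nat.card G : ℤ)) = (t : ℤ) * x := by
          have : ((-(Nat.card G : ℤ) : ℤ) : ℂ) = (((t : ℤ) * x : ℤ) : ℂ) := by
            push_cast; rw [← hν]; ring
          exact_mod_cast this
        have h7 : 0 < (t : ℤ) * x := by positivity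
        have h8 : (0 : ℤ) < Nat.card G := by exact_mod_cast hGpos
        omega
    · exfalso
      rw [h3 hreal, zero_mul] at hν
      have h6 : t * x = 0 := by exact_mod_cast hν.symm
      have h7 : 0 < t * x := Nat.mul_pos htpos hxpos
      omega
  have hcard : Nat.card G = t * x := by
    rw [hν1, one_mul] at hν
    exact_mod_cast hν
  -- centralizers
  have hdvd : ∀ s : G, orderOf s = 2 → Nat.card (Subgroup.centralizer ({s} : Set G)) ∣ x := by
    intro s hs
    rw [← (Nat.factorization_prime_le_iff_dvd (Nat.card_pos (α := Subgroup.centralizer ({s} : Set G))).ne' hxpos.ne')]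
    intro p hpp
    have hle : (Nat.card (Subgroup.centralizer ({s} : Set G))).factorization p ≤ (Nat.card G).factorization p :=
      (Nat.factorization_prime_le_iff_dvd Nat.card_pos.ne' hGpos.ne').mpr (Subgroup.card_subgroup_dvd_card _) p hpp
    by_cases hpd : p ∣ Nat.card (Subgroup.centralizer ({s} : Set G))
    · have hfull : p ^ (Nat.card G).factorization p ∣ x := by
        by_cases hp2 : p = 2
        · subst hp2; exact h2
        · refine hp p hpp hp2 ?_
          haveI : Fact p.Prime := ⟨hpp⟩
          obtain ⟨y, hy⟩ := exists_prime_orderOf_dvd_card' p hpd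
          have hyc : Commute s (y : G) := by
            have := Subgroup.mem_centralizer_singleton_iff.mp y.2
            exact this.symm
          refine ⟨s * y, ?_⟩
          rw [Commute.orderOf_mul_eq_mul_orderOf_of_coprime hyc, hs, Subgroup.orderOf_coe, hy]
          rw [hs, Subgroup.orderOf_coe, hy]
          exact (Nat.coprime_primes Nat.prime_two hpp).mpr (Ne.symm hp2)
      exact hle.trans ((hpp.pow_dvd_iff_le_factorization hxpos.ne').mp hfull)
    · rw [Nat.factorization_eq_zero_of_not_dvd hpd]; exact Nat.zero_le _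
  have hclass : ∀ s : G, orderOf s = 2 → Nat.card {y : G // IsConj s y} = t ∧
      Nat.card (Subgroup.centralizer ({s} : Set G)) = x := by
    intro s hs
    have h3 := Cfsg.Agent.H3.card_isConj_mul_card_centralizer s
    have h4 : Nat.card {y : G // IsConj s y} ≤ t := by
      refine Nat.card_le_card_of_injective (fun y => (⟨y.1, ?_⟩ : {g : G // orderOf g = 2})) ?_
      · obtain ⟨c, hc⟩ := isConj_iff.mp y.2
        rw [← hc, ← hs]
        exact orderOf_injective (MulAut.conj c).toMonoidHom (MulAut.conj c).injective s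
      · intro a b hab
        have := congrArg (fun z : {g : G // orderOf g = 2} => (z : G)) hab
        exact Subtype.ext this
    have h5 := Nat.le_of_dvd hxpos (hdvd s hs)
    have h6 : Nat.card {y : G // IsConj s y} * Nat.card (Subgroup.centralizer ({s} : Set G)) = t * x := by
      rw [h3, hcard]
    set a := Nat.card {y : G // IsConj s y}
    set b := Nat.card (Subgroup.centralizer ({s} : Set G))
    have hb : 0 < b := Nat.card_pos
    constructor
    · by_contra hne
      have h7 : a < t := lt_of_le_of_ne h4 hne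
      have h8 : a * b < t * x := by
        calc a * b < t * b := Nat.mul_lt_mul_of_pos_right h7 hb
          _ ≤ t * x := Nat.mul_le_mul_left _ h5
      omega
    · by_contra hne
      have h7 : b < x := lt_of_le_of_ne h5 hne
      have h8 : a * b < t * x := by
        calc a * b ≤ t * b := Nat.mul_le_mul_right _ h4
          _ < t * x := Nat.mul_lt_mul_of_pos_left h7 htpos
      omega
  refine ⟨?_, ?_, ?_⟩
  · intro s t' hs ht'
    by_contra hcon
    obtain ⟨h3, -⟩ := hclass s hs
    have h4 : Nat.card {y : G // IsConj s y} < t := by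
      rw [ht, Nat.card_eq_fintype_card, Nat.card_eq_fintype_card, Fintype.card_subtype, Fintype.card_subtype]
      refine Finset.card_lt_card ⟨?_, ?_⟩
      · intro y hy
        simp only [Finset.mem_filter, Finset.mem_univ, true_and] at hy ⊢
        obtain ⟨c, hc⟩ := isConj_iff.mp hy
        rw [← hc, ← hs]
        exact orderOf_injective (MulAut.conj c).toMonoidHom (MulAut.conj c).injective s
      · intro hsub
        have := hsub (show t' ∈ Finset.univ.filter (fun g : G => orderOf g = 2) by simp [ht'])
        simp only [Finset.mem_filter, Finset.mem_univ, true_and] at this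
        exact hcon this
    omega
  · intro s hs
    obtain ⟨-, h4⟩ := hclass s hs
    refine ⟨h4, ?_⟩
    rw [Nat.Coprime, Nat.eq_one_iff_not_exists_prime_dvd]
    intro p hpp hpd
    have hd1 : p ∣ Nat.card (Subgroup.centralizer ({s} : Set G)) := hpd.trans (Nat.gcd_dvd_left _ _)
    have hd2 : p ∣ (Subgroup.centralizer ({s} : Set G)).index := hpd.trans (Nat.gcd_dvd_right _ _)
    have hfull : p ^ (Nat.card G).factorization p ∣ x := by
      by_cases hp2 : p = 2
      · subst hp2; exact h2
      · refine hp p hpp hp2 ?_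
        haveI : Fact p.Prime := ⟨hpp⟩
        obtain ⟨y, hy⟩ := exists_prime_orderOf_dvd_card' p hd1
        have hyc : Commute s (y : G) := by
          have := Subgroup.mem_centralizer_singleton_iff.mp y.2
          exact this.symm
        refine ⟨s * y, ?_⟩
        rw [Commute.orderOf_mul_eq_mul_orderOf_of_coprime hyc, hs, Subgroup.orderOf_coe, hy]
        rw [hs, Subgroup.orderOf_coe, hy]
        exact (Nat.coprime_primes Nat.prime_two hpp).mpr (Ne.symm hp2)
    have h5 := (hpp.pow_dvd_iff_le_factorization hxpos.ne').mp hfull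
    have h6 := Subgroup.index_mul_card (Subgroup.centralizer ({s} : Set G))
    rw [h4] at h6
    have h7 : (Nat.card G).factorization p = (Subgroup.centralizer ({s} : Set G)).index.factorization p + x.factorization p := by
      rw [← h6, Nat.factorization_mul Subgroup.index_ne_zero_of_finite hxpos.ne']; rfl
    have h8 : 0 < (Subgroup.centralizer ({s} : Set G)).index.factorization p :=
      hpp.factorization_pos_of_dvd Subgroup.index_ne_zero_of_finite hd2
    omega
  · exact hν1

end Cfsg.Agent.S4478
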