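import Cfsg.Statements.S4486
import Cfsg.Agent.H11.Leon6
-- import your own Cfsg.Agent.* helpers here

set_option autoImplicit false
open Cfsg

namespace Cfsg.Agent.S4486

/-- Let G be a finite group and p a prime dividing its order such that every non-identity element of a Sylow p-subgroup P has the same centralizer as P; let p^n be the order of P. If G has a non-principal irreducible character χ of degree x with x² < p^n − 1, then either G has a proper normal subgroup containing P, or G has a normal subgroup of index p^n and x = 1. -/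
theorem result {G : Type*} [Group G] [Finite G] (p : ℕ) (hp : p.Prime) (hpG : p ∣ Nat.card G) (P : Sylow p G) (hstar : ∀ x ∈ (P : Subgroup G), x ≠ 1 → Subgroup.centralizer ({x} : Set G) = Subgroup.centralizer ((P : Subgroup G) : Set G)) (n : ℕ) (hn : Nat.card P = p ^ n) (χ : Cfsg.IrrCharacter G) (h1 : (χ : G → ℂ) ≠ fun _ => 1) (hdeg : Cfsg.charDegree (χ : G → ℂ) ^ 2 + 1 < p ^ n) : (∃ K : Subgroup G, K.Normal ∧ K ≠ ⊤ ∧ (P : Subgroup G) ≤ K) ∨ ((∃ N : Subgroup G, N.Normal ∧ N.index = p ^ n) ∧ Cfsg.charDegree (χ : G → ℂ) = 1) := by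
  classical
  have := Fintype.ofFinite G
  haveI : Fact p.Prime := ⟨hp⟩
  have hne : (P : Subgroup G) ≠ ⊥ := by
    intro h1
    have h2 : Nat.card (P : Subgroup G) = 1 := by rw [h1]; exact Subgroup.card_bot
    apply P.not_dvd_index
    have h3 := Subgroup.card_mul_index (P : Subgroup G)
    rw [h2, one_mul] at h3
    rw [h3]; exact hpG
  have hd := (Cfsg.Agent.H27.charDegree_cast (Cfsg.Agent.H3.irr_isChar χ.2)).symm
  rcases Cfsg.Agent.H11.Leon.main_both (P := P) hstar hne χ.2 h1 hd (by rw [hn]; exact hdeg) with h2 | ⟨⟨N, hN1, hN2⟩, h3⟩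
  · exact Or.inl h2
  · exact Or.inr ⟨⟨N, hN1, hN2.trans hn⟩, h3⟩

end Cfsg.Agent.S4486
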