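import Cfsg.Statements.S4489
import Cfsg.Agent.H3.Berger1
import Cfsg.Agent.H27.Galois
import Cfsg.Agent.H27.Kernel
import Cfsg.Agent.H1.Cores
import Cfsg.Agent.H1.MinNonNil
import Mathlib.FieldTheory.PrimitiveElement

set_option autoImplicit false
open Cfsg

namespace Cfsg.Agent.S4489

open Subgroup Cfsg.Agent.H3

universe u

/-- Galois stabilizer of a function -/
def gst {G : Type*} (χ : G → ℂ) : Subgroup (RingAut ℂ) where
  carrier := {σ | ∀ g, σ (χ g) = χ g}
  mul_mem' := by
    intro a b ha hb g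
    rw [RingAut.mul_apply, hb, ha]
  one_mem' := fun g => rfl
  inv_mem' := by
    intro a ha g
    have h := ha g
    conv_lhs => rw [← h]
    rw [← RingAut.mul_apply, inv_mul_cancel]
    rfl

theorem mem_gst {G : Type*} {χ : G → ℂ} {σ : RingAut ℂ} : σ ∈ gst χ ↔ ∀ g, σ (χ g) = χ g := Iff.rfl

theorem inv_mul_mem_gst {G : Type*} {χ : G → ℂ} {σ τ : RingAut ℂ} :
    σ⁻¹ * τ ∈ gst χ ↔ ∀ g, σ (χ g) = τ (χ g) := by
  rw [mem_gst]
  refine forall_congr' fun g => ?_
  rw [RingAut.mul_apply]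
  constructor
  · intro h
    have := congrArg σ h
    rw [← RingAut.mul_apply, mul_inv_cancel] at this
    exact this.symm
  · intro h
    rw [← h, ← RingAut.mul_apply, inv_mul_cancel]
    rfl

theorem index_le_card {A X : Type*} [Group A] [Finite X] (H : Subgroup A) (f : A → X)
    (hf : ∀ a b, f a = f b → a⁻¹ * b ∈ H) : H.index ≠ 0 ∧ H.index ≤ Nat.card X := by
  have hinj : Function.Injective (fun q : A ⧸ H => f q.out) := by
    intro q q' h
    have h1 := hf _ _ h
    rw [← QuotientGroup.eq] at h1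
    rwa [QuotientGroup.out_eq', QuotientGroup.out_eq'] at h1
  haveI := Finite.of_injective _ hinj
  refine ⟨?_, ?_⟩
  · rw [Subgroup.index_eq_card]; exact Nat.card_pos.ne'
  · rw [Subgroup.index_eq_card]; exact Nat.card_le_card_of_injective _ hinj

theorem le_index {A : Type*} [Group A] (H : Subgroup A) (hH : H.index ≠ 0) (s : Finset ℕ)
    (f : ℕ → A) (hf : ∀ k ∈ s, ∀ l ∈ s, (f k)⁻¹ * f l ∈ H → k = l) : s.card ≤ H.index := by
  haveI : Finite (A ⧸ H) := by
    apply Nat.finite_of_card_ne_zero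
    rwa [← Subgroup.index_eq_card]
  have hs : Nat.card s = s.card := by simp
  rw [Subgroup.index_eq_card, ← hs]
  refine Nat.card_le_card_of_injective (fun k : s => (QuotientGroup.mk (f k) : A ⧸ H)) ?_
  intro k l h
  exact Subtype.ext (hf k k.2 l l.2 (QuotientGroup.eq.1 h))

theorem gst_index_ne_zero {G : Type*} [Group G] [Finite G] {χ : G → ℂ} (hχ : IsIrrCharacter G χ) :
    (gst χ).index ≠ 0 := by
  refine (index_le_card (X := IrrCharacter G) (gst χ)
    (fun σ => ⟨fun g => σ (χ g), H27.isIrr_ringEquiv hχ σ⟩) ?_).1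
  intro a b h
  rw [inv_mul_mem_gst]
  intro g
  exact congrFun (congrArg Subtype.val h) g

theorem gst_index_le_finrank {G : Type*} {χ : G → ℂ}
    (h : 0 < Module.finrank ℚ (IntermediateField.adjoin ℚ (Set.range χ))) :
    (gst χ).index ≤ Module.finrank ℚ (IntermediateField.adjoin ℚ (Set.range χ)) := by
  haveI : FiniteDimensional ℚ (IntermediateField.adjoin ℚ (Set.range χ)) :=
    Module.finite_of_finrank_pos h
  rw [← AlgHom.card ℚ (IntermediateField.adjoin ℚ (Set.range χ)) ℂ, ← Nat.card_eq_fintype_card]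
  refine (index_le_card (X := (IntermediateField.adjoin ℚ (Set.range χ)) →ₐ[ℚ] ℂ) (gst χ)
    (fun σ => ((σ : ℂ →+* ℂ).toRatAlgHom).comp
      (IntermediateField.adjoin ℚ (Set.range χ)).val) ?_).2
  intro a b h
  rw [inv_mul_mem_gst]
  intro g
  exact DFunLike.congr_fun h (⟨χ g, IntermediateField.subset_adjoin ℚ _ ⟨g, rfl⟩⟩ :
    IntermediateField.adjoin ℚ (Set.range χ))

/-- the linear case -/
theorem linear_case (p : ℕ) [hp : Fact p.Prime] (a : ℕ) {P : Type u} [Group P] [Finite P]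
    (hP : Nat.card P = p ^ a) {χ : P → ℂ} (hχ : IsIrrCharacter P χ)
    (hf : ∀ g, χ g = χ 1 → g = 1) (t : ℕ) (hd : χ 1 = 1)
    (hfield : (gst χ).index ≤ (p - 1) * p ^ t) : a ≤ t + 1 := by
  rcases Nat.eq_zero_or_pos a with h0 | h0
  · omega
  obtain ⟨μ, hμ⟩ := H27.exists_hom_of_one (irr_isChar hχ) hd
  have hinj : Function.Injective μ := by
    rw [injective_iff_map_eq_one]
    intro g hg
    apply hf
    rw [hμ, hμ, hg, map_one]
  have hinj' : Function.Injective ((Units.coeHom ℂ).comp μ) :=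
    Units.val_injective.comp hinj
  haveI : IsCyclic P := isCyclic_of_subgroup_isDomain _ hinj'
  obtain ⟨g, hg⟩ := IsCyclic.exists_generator (α := P)
  have hog : orderOf g = p ^ a := by
    rw [← hP]; exact orderOf_eq_card_of_forall_mem_zpowers hg
  have hoz : orderOf ((μ g : ℂˣ) : ℂ) = p ^ a := by
    rw [← hog]
    exact orderOf_injective ((Units.coeHom ℂ).comp μ) hinj' g
  have hN : (p ^ a) ≠ 0 := pow_ne_zero _ hp.out.ne_zero
  have hσ : ∀ k : ℕ, ∃ σ : RingAut ℂ, k.Coprime (p ^ a) →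
      ∀ ζ : ℂ, ζ ^ (p ^ a) = 1 → σ ζ = ζ ^ k := by
    intro k
    by_cases hk : k.Coprime (p ^ a)
    · obtain ⟨σ, hσ⟩ := H27.exists_ringEquiv_pow hN hk
      exact ⟨σ, fun _ => hσ⟩
    · exact ⟨1, fun h => absurd h hk⟩
  choose σ hσ using hσ
  have hz : ((μ g : ℂˣ) : ℂ) ^ (p ^ a) = 1 := by
    rw [← hoz]; exact pow_orderOf_eq_one _
  have h1 := le_index (gst χ) (gst_index_ne_zero hχ) (H27.cop (p ^ a)) σ (by
    intro k hk l hl h
    rw [H27.mem_cop] at hk hl
    rw [inv_mul_mem_gst] at h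
    have h2 := h g
    rw [hμ, hσ k hk.2 _ hz, hσ l hl.2 _ hz] at h2
    exact pow_injOn_Iio_orderOf (by rw [hoz]; exact hk.1) (by rw [hoz]; exact hl.1) h2)
  rw [H27.card_cop, Nat.totient_prime_pow hp.out h0] at h1
  have h2 := h1.trans hfield
  rw [mul_comm (p - 1)] at h2
  have h3 := Nat.le_of_mul_le_mul_right h2 (by have := hp.out.two_le; omega)
  have h4 := (Nat.pow_le_pow_iff_right hp.out.one_lt).1 h3
  omega

/-- galois conjugate characters inducing the same irreducible are conjugate -/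
theorem conj_of_ind_eq {P : Type u} [Group P] [Fintype P] {M : Subgroup P} (hM : M.Normal)
    {θ η : M → ℂ} (hθ : IsIrrCharacter M θ) (hη : IsIrrCharacter M η)
    (h : indFun M θ = indFun M η) (hirr : IsIrrCharacter P (indFun M θ)) :
    ∃ x : P, cj hM x η = θ := by
  classical
  haveI := Fintype.ofFinite M
  have h1 := classInner_indFun_normal hM θ η
  rw [← h, classInner_self_of_irr hirr, mul_one] at h1
  by_contra hcon
  push Not at hcon
  rw [Finset.sum_eq_zero] at h1
  · exact card_ne_zeroC h1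
  · intro x _
    rw [classInner_irr hθ (isIrr_cj hM hη x), if_neg]
    exact fun he => hcon x he.symm

theorem indFun_ringAut {P : Type u} [Group P] [Fintype P] (M : Subgroup P) (θ : M → ℂ)
    (σ : RingAut ℂ) (g : P) : σ (indFun M θ g) = indFun M (fun m => σ (θ m)) g := by
  classical
  unfold indFun
  rw [map_mul, map_inv₀, map_natCast, map_sum]
  congr 1
  refine Finset.sum_congr rfl fun x _ => ?_
  by_cases hx : x⁻¹ * g * x ∈ M
  · rw [extendByZero_mem _ _ hx, extendByZero_mem _ _ hx]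
  · rw [extendByZero_not_mem _ _ hx, extendByZero_not_mem _ _ hx, map_zero]

theorem cj_eq_of_quot {P : Type u} [Group P] {M : Subgroup P} (hM : M.Normal) {ψ : M → ℂ}
    (hψ : IsClassFunction M ψ) {x y : P} (h : (QuotientGroup.mk x : P ⧸ M) = QuotientGroup.mk y) :
    cj hM x ψ = cj hM y ψ := by
  rw [QuotientGroup.eq] at h
  have h1 : y = x * (x⁻¹ * y) := by group
  rw [h1, cj_mul]
  exact (cj_of_mem hM (classFun_cj hM hψ x) h).symm

theorem faithful_of_cj {P : Type u} [Group P] [Fintype P] {M : Subgroup P} (hM : M.Normal)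
    {ψ : M → ℂ} {χ : P → ℂ} (hχ : χ = indFun M ψ) (hf : ∀ g, χ g = χ 1 → g = 1) {m : M}
    (h : ∀ x : P, cj hM x ψ m = ψ 1) : m = 1 := by
  apply Subtype.ext
  apply hf
  have h2 : ((1 : M) : P) = 1 := rfl
  rw [hχ, ← h2, indFun_restrict_normal hM, indFun_restrict_normal hM]
  congr 1
  refine Finset.sum_congr rfl fun x _ => ?_
  rw [h x, cj_one_apply]

theorem card_le_ker_pow {P : Type u} [Group P] [Fintype P] {M : Subgroup P} (hM : M.Normal)
    {ψ : M → ℂ} (hψ : IsCharacter M ψ) {χ : P → ℂ} (hχ : χ = indFun M ψ)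
    (hf : ∀ g, χ g = χ 1 → g = 1) :
    Nat.card M ≤ (H27.charKer hψ).index ^ M.index := by
  classical
  haveI := Fintype.ofFinite (P ⧸ M)
  let F : P ⧸ M → Subgroup M := fun q =>
    (H27.charKer hψ).comap (cjEquiv hM q.out).toMonoidHom
  have hF : ∀ q, (F q).index = (H27.charKer hψ).index := fun q =>
    Subgroup.index_comap_of_surjective _ (cjEquiv hM q.out).surjective
  have hbot : (⨅ q, F q) = ⊥ := by
    rw [eq_bot_iff]
    intro m hm
    rw [Subgroup.mem_iInf] at hm
    rw [Subgroup.mem_bot]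
    refine faithful_of_cj hM hχ hf ?_
    intro x
    have h1 := hm (QuotientGroup.mk x)
    rw [cj_eq_of_quot hM (char_classFun hψ) (QuotientGroup.out_eq' (QuotientGroup.mk x : P ⧸ M)).symm]
    exact h1
  have h1 := Subgroup.index_iInf_le F
  rw [hbot, Subgroup.index_bot, Finset.prod_congr rfl (fun q _ => hF q), Finset.prod_const,
    Finset.card_univ, ← Nat.card_eq_fintype_card, ← Subgroup.index_eq_card] at h1
  exact h1

/-- those `x` for which `ψ^x` is Galois conjugate to `ψ` -/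
def galB {P : Type u} [Group P] {M : Subgroup P} (hM : M.Normal) (ψ : M → ℂ) (χ : P → ℂ) :
    Subgroup P where
  carrier := {x | ∃ σ ∈ gst χ, cj hM x ψ = fun m => σ (ψ m)}
  mul_mem' := by
    rintro x y ⟨σ, hσ, h1⟩ ⟨τ, hτ, h2⟩
    refine ⟨σ * τ, mul_mem hσ hτ, ?_⟩
    rw [cj_mul, h1]
    funext m
    have h3 := congrFun h2 m
    rw [RingAut.mul_apply, ← h3]
    rfl
  one_mem' := ⟨1, one_mem _, by rw [cj_one]; rfl⟩
  inv_mem' := by
    rintro x ⟨σ, hσ, h1⟩
    refine ⟨σ⁻¹, inv_mem hσ, ?_⟩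
    have h2 : cj hM x⁻¹ (cj hM x ψ) = ψ := by rw [← cj_mul, mul_inv_cancel, cj_one]
    rw [h1] at h2
    funext m
    have h3 := congrFun h2 m
    rw [← h3]
    change _ = σ⁻¹ (σ (cj hM x⁻¹ ψ m))
    rw [← RingAut.mul_apply, inv_mul_cancel]
    rfl

theorem mem_galB {P : Type u} [Group P] {M : Subgroup P} {hM : M.Normal} {ψ : M → ℂ} {χ : P → ℂ}
    {x : P} : x ∈ galB hM ψ χ ↔ ∃ σ ∈ gst χ, cj hM x ψ = fun m => σ (ψ m) := Iff.rfl

theorem main (p : ℕ) [hp : Fact p.Prime] (a : ℕ) : ∀ (P : Type u) [Group P] [Finite P],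
    Nat.card P = p ^ a → ∀ χ : P → ℂ, IsIrrCharacter P χ → (∀ g, χ g = χ 1 → g = 1) →
    ∀ f t : ℕ, χ 1 = f → (gst χ).index ≤ (p - 1) * p ^ t →
    (p - 1) * a ≤ (f - 1) + (p - 1) * (t + 1) * f := by
  classical
  induction a using Nat.strong_induction_on with
  | _ a ih =>
  intro P _ _ hP χ hχ hf f t hd hfield
  haveI := Fintype.ofFinite P
  by_cases hf1 : χ 1 = 1
  · have h1 := linear_case p a hP hχ hf t hf1 hfield
    have h2 : f = 1 := by
      rw [hf1] at hd
      exact_mod_cast hd.symm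
    subst h2
    have := Nat.mul_le_mul_left (p - 1) h1
    omega
  have hpg : IsPGroup p P := IsPGroup.of_card hP
  haveI : Group.IsNilpotent P := hpg.isNilpotent
  obtain ⟨H, lam, hlam⟩ := monomial_of_nilpotent hχ
  have hHtop : H ≠ ⊤ := by
    intro h
    apply hf1
    have h2 : H.index = 1 := by rw [h, Subgroup.index_top]
    rw [hlam, indFun_one_apply, h2, map_one]
    simp
  obtain ⟨M, hMc, hHM⟩ := (eq_top_or_exists_le_coatom H).resolve_left hHtop
  have hM : M.Normal := H1.isNilpotent_iff_coatom_normal.1 inferInstance M hMc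
  have hMp : M.index = p := by
    have h1 : M.index.Prime := by
      haveI := hM
      exact H1.index_prime_of_normal_coatom hMc
    have h2 : M.index ∣ p ^ a := hP ▸ Subgroup.index_dvd_card M
    exact (Nat.prime_dvd_prime_iff_eq h1 hp.out).1 (h1.dvd_of_dvd_pow h2)
  obtain ⟨b, rfl⟩ : ∃ b, a = b + 1 := by
    rcases a with _ | b
    · exfalso
      have h2 : M.index ∣ p ^ 0 := hP ▸ Subgroup.index_dvd_card M
      rw [hMp, pow_zero, Nat.dvd_one] at h2
      exact hp.out.one_lt.ne' h2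
    · exact ⟨b, rfl⟩
  have hMcard : Nat.card M = p ^ b := by
    have h1 := M.card_mul_index
    rw [hMp, hP, pow_succ] at h1
    exact Nat.eq_of_mul_eq_mul_right hp.out.pos h1
  haveI : Fintype M := Fintype.ofFinite M
  obtain ⟨ψ, hψ, hχψ⟩ : ∃ ψ : M → ℂ, IsIrrCharacter M ψ ∧ χ = indFun M ψ := by
    have h1 := hlam.trans (indFun_trans H M hHM _).symm
    refine ⟨_, ?_, h1⟩
    refine irr_of_ind_irr ?_ ?_
    · refine isChar_ind _ ?_
      exact irr_isChar (isIrr_of_hom (lam.comp (Subgroup.subgroupOfEquivOfLe hHM).toMonoidHom))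
    · exact h1 ▸ hχ
  obtain ⟨m, hm⟩ : ∃ m : ℕ, ψ 1 = m := ⟨_, (H27.charDegree_cast (irr_isChar hψ)).symm⟩
  have hm0 : m ≠ 0 := by
    rintro rfl
    exact irr_one_ne_zero hψ (by rw [hm]; simp)
  have hfm : f = p * m := by
    rw [hχψ, indFun_one_apply, hMp, hm] at hd
    exact_mod_cast hd.symm
  obtain ⟨n, rfl⟩ : ∃ n, m = n + 1 := ⟨m - 1, by omega⟩
  obtain ⟨q, hq⟩ : ∃ q, p = q + 1 := ⟨p - 1, by have := hp.out.pos; omega⟩
  have hq1 : 1 ≤ q := by have := hp.out.two_le; omega
  have hp1 : p - 1 = q := by omega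
  have hMB : M ≤ galB hM ψ χ := fun x hx =>
    ⟨1, one_mem _, by rw [cj_of_mem hM (irr_classFun hψ) hx]; rfl⟩
  -- Galois conjugation and induction
  have hcj : ∀ σ ∈ gst χ, ∃ x : P, cj hM x ψ = fun m => σ (ψ m) := by
    intro σ hσ
    have h1 : indFun M (fun m => σ (ψ m)) = indFun M ψ := by
      funext g
      rw [← indFun_ringAut, ← hχψ]
      exact hσ g
    refine conj_of_ind_eq hM (H27.isIrr_ringEquiv hψ σ) hψ h1 ?_
    rw [h1, ← hχψ]
    exact hχ
  rcases (hMc.le_iff).1 hMB with hB | hB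
  · -- all conjugates are Galois conjugate
    have hle : gst ψ ≤ gst χ := by
      intro σ hσ g
      rw [hχψ, indFun_ringAut]
      congr 2
      funext m
      exact hσ m
    have hfaith : ∀ m : M, ψ m = ψ 1 → m = 1 := by
      intro m hm
      refine faithful_of_cj hM hχψ hf ?_
      intro x
      obtain ⟨σ, -, hσ⟩ := mem_galB.1 (hB ▸ Subgroup.mem_top x : x ∈ galB hM ψ χ)
      have h1 := congrFun hσ m
      have h2 := congrFun hσ 1
      rw [cj_one_apply] at h2
      rw [h1, h2, hm]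
    have hidx : (gst ψ).index ≤ (p - 1) * p ^ (t + 1) := by
      rw [← Subgroup.relIndex_mul_index hle]
      have h1 : (gst ψ).relIndex (gst χ) ≤ p := by
        choose! x hx using hcj
        rw [← hMp, Subgroup.index_eq_card M]
        refine (index_le_card (X := P ⧸ M) ((gst ψ).subgroupOf (gst χ))
          (fun σ => QuotientGroup.mk (x σ)) ?_).2
        intro σ τ h
        rw [Subgroup.mem_subgroupOf]
        push_cast
        rw [inv_mul_mem_gst]
        intro g
        have h1 := cj_eq_of_quot hM (irr_classFun hψ) h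
        rw [hx σ σ.2, hx τ τ.2] at h1
        exact congrFun h1 g
      calc _ ≤ p * ((p - 1) * p ^ t) := Nat.mul_le_mul h1 hfield
        _ = _ := by ring
    have h1 := ih b (Nat.lt_succ_self b) M hMcard ψ hψ hfaith (n + 1) (t + 1) hm hidx
    rw [hp1] at h1 ⊢
    rw [hfm, hq]
    have e1 : (q + 1) * (n + 1) - 1 = q * n + n + q := by
      have : (q + 1) * (n + 1) = q * n + n + q + 1 := by ring
      omega
    rw [e1]
    rw [Nat.add_sub_cancel] at h1
    have h2 : q * (t + 1 + 1) * (n + 1) ≤ q * (t + 1) * ((q + 1) * (n + 1)) := by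
      have : (t + 1 + 1) ≤ (t + 1) * (q + 1) := by nlinarith
      calc _ = q * (n + 1) * (t + 1 + 1) := by ring
        _ ≤ q * (n + 1) * ((t + 1) * (q + 1)) := Nat.mul_le_mul_left _ this
        _ = _ := by ring
    have h3 : 0 ≤ q * n := Nat.zero_le _
    have h4 : q * (b + 1) = q * b + q := by ring
    omega
  · -- only the trivial conjugates are
    have hle : gst χ ≤ gst ψ := by
      intro σ hσ
      obtain ⟨x, hx⟩ := hcj σ hσ
      have h1 : x ∈ M := by rw [← hB]; exact mem_galB.2 ⟨σ, hσ, hx⟩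
      rw [cj_of_mem hM (irr_classFun hψ) h1] at hx
      intro m
      exact (congrFun hx m).symm
    have hidx : (gst ψ).index ≤ (gst χ).index :=
      Nat.le_of_dvd (Nat.pos_of_ne_zero (gst_index_ne_zero hχ)) (Subgroup.index_dvd_of_le hle)
    have hcard := card_le_ker_pow hM (irr_isChar hψ) hχψ hf
    haveI : (H27.charKer (irr_isChar hψ)).Normal := H27.charKer_normal _
    obtain ⟨φ, hφ, hφψ⟩ := H27.exists_quotient_irr (N := H27.charKer (irr_isChar hψ)) hψ
      (fun n hn => hn)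
    have hg : gst φ = gst ψ := by
      ext σ
      rw [mem_gst, mem_gst]
      constructor
      · intro h g
        rw [hφψ]; exact h _
      · intro h y
        obtain ⟨g, rfl⟩ := QuotientGroup.mk_surjective y
        have := h g
        rwa [hφψ] at this
    have hφ1 : φ 1 = ψ 1 := by rw [hφψ 1]; rfl
    have hKd : (H27.charKer (irr_isChar hψ)).index ∣ p ^ b :=
      hMcard ▸ Subgroup.index_dvd_card _
    obtain ⟨c, hc, hcK⟩ := (Nat.dvd_prime_pow hp.out).1 hKd
    have h1 := ih c (by omega) (M ⧸ H27.charKer (irr_isChar hψ))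
      (by rw [← Subgroup.index_eq_card, hcK]) φ hφ (by
        intro y hy
        obtain ⟨g, rfl⟩ := QuotientGroup.mk_surjective y
        rw [QuotientGroup.eq_one_iff, H27.mem_charKer, hφψ, hy, hφ1])
      (n + 1) t (by rw [hφ1, hm]) (by rw [hg]; exact hidx.trans hfield)
    rw [hMcard, hcK, hMp, ← pow_mul] at hcard
    have h2 := (Nat.pow_le_pow_iff_right hp.out.one_lt).1 hcard
    rw [hp1] at h1 ⊢
    rw [hfm]
    rw [hq] at h2 ⊢
    rw [Nat.add_sub_cancel] at h1
    have e1 : (q + 1) * (n + 1) - 1 = q * n + n + q := by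
      have : (q + 1) * (n + 1) = q * n + n + q + 1 := by ring
      omega
    rw [e1]
    have h3 : q * b ≤ (q * c) * (q + 1) := by
      calc q * b ≤ q * (c * (q + 1)) := Nat.mul_le_mul_left _ h2
        _ = _ := by ring
    have h4 : (q * c) * (q + 1) ≤ (n + q * (t + 1) * (n + 1)) * (q + 1) :=
      Nat.mul_le_mul_right _ h1
    calc q * (b + 1) = q * b + q := by ring
      _ ≤ (n + q * (t + 1) * (n + 1)) * (q + 1) + q := by omega
      _ = _ := by ring

/-- Let P be a finite p-group of order p^a with a > 0, and χ a faithful irreducible character of P of degree f whose field of values ℚ(χ) has degree (p − 1)·p^t over ℚ. Then a ≤ (f − 1)/(p − 1) + (t + 1)·f; in integer form, (p − 1)·a ≤ (f − 1) + (p − 1)(t + 1)·f. -/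
theorem result {P : Type*} [Group P] [Finite P] (p a : ℕ) (hp : p.Prime) (ha : 0 < a) (hP : Nat.card P = p ^ a) (χ : Cfsg.IrrCharacter P) (hfaith : ∀ g : P, (χ : P → ℂ) g = (χ : P → ℂ) 1 → g = 1) (f t : ℕ) (hf : Cfsg.charDegree (χ : P → ℂ) = f) (hfield : Module.finrank ℚ (IntermediateField.adjoin ℚ (Set.range (χ : P → ℂ))) = (p - 1) * p ^ t) : (p - 1) * a ≤ (f - 1) + (p - 1) * (t + 1) * f := by
  haveI : Fact p.Prime := ⟨hp⟩
  have h1 : (χ : P → ℂ) 1 = f := by
    rw [← hf]; exact (H27.charDegree_cast (irr_isChar χ.2)).symm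
  have hpos : 0 < (p - 1) * p ^ t :=
    Nat.mul_pos (by have := hp.two_le; omega) (Nat.pow_pos hp.pos)
  have h2 := gst_index_le_finrank (χ := (χ : P → ℂ)) (by rw [hfield]; exact hpos)
  rw [hfield] at h2
  exact main p a P hP χ χ.2 hfaith f t h1 h2

end Cfsg.Agent.S4489
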