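import Cfsg.Statements.S4493
import Cfsg.Agent.H7.ItoP

set_option autoImplicit false
open Cfsg

namespace Cfsg.Agent.S4493

/-- Let G be a finite solvable group and p a prime. Then G has a normal abelian Sylow p-subgroup if and only if no irreducible character degree of G is divisible by p. -/
theorem result {G : Type*} [Group G] [Finite G] (hsolv : Group.IsSolvable G) (p : ℕ) (hp : p.Prime) : (∃ P : Subgroup G, P.Normal ∧ (∀ x ∈ P, ∀ y ∈ P, x * y = y * x) ∧ IsPGroup p P ∧ ¬ p ∣ P.index) ↔ ∀ χ : Cfsg.IrrCharacter G, ¬ p ∣ Cfsg.charDegree (χ : G → ℂ) := by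
  haveI : Fact p.Prime := ⟨hp⟩
  constructor
  · rintro ⟨P, hP, hc, hPp, hi⟩ χ
    obtain ⟨R, rfl⟩ := H2.exists_sylow_eq_of_isPGroup_of_not_dvd_index hPp hi
    exact H7.ItoP.degree_of_abelian R hP hc χ
  · intro h
    obtain ⟨P⟩ : Nonempty (Sylow p G) := inferInstance
    have h1 := H7.ItoP.sylow_normal _ G rfl (H23.isPSolvable_of_isSolvable hsolv) h P
    exact ⟨P, h1, fun x hx y hy => congrArg Subtype.val
      (H7.ItoP.sylow_comm P h1 h ⟨x, hx⟩ ⟨y, hy⟩), P.2, P.not_dvd_index⟩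

end Cfsg.Agent.S4493
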