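import Cfsg.Statements.S4495
import Cfsg.Agent.H9.SPrB

set_option autoImplicit false
open Cfsg

namespace Cfsg.Agent.S4495

open Subgroup MulAction
open Cfsg.Agent.H9

/-- Let the finite group G contain an element x of prime order p with C_G(x) = ⟨x⟩, and let t be the number of conjugacy classes of elements of order p. If t ≠ p − 1 then the commutator subgroup has index at most (p − 1)/t; if t = p − 1 it has index exactly p. -/
theorem result {G : Type*} [Group G] [Finite G] (p : ℕ) (hp : p.Prime) (x : G) (hx : orderOf x = p) (hC : Subgroup.centralizer ({x} : Set G) = Subgroup.zpowers x) (t : ℕ) (ht : Nat.card {C : ConjClasses G // ∃ g ∈ C.carrier, orderOf g = p} = t) : (t ≠ p - 1 → (commutator G).index * t ≤ p - 1) ∧ (t = p - 1 → (commutator G).index = p) := by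
  haveI : Fact p.Prime := ⟨hp⟩
  obtain ⟨h1, h2, h3⟩ := SPr.t_iff hx hC ht
  obtain ⟨c1, c2, c3⟩ := SPr.count hx hC ht
  refine ⟨fun hne => ?_, fun he => (SPr.complement hx hC (h2.mp he)).2.1⟩
  have hN : normalizer ((zpowers x : Subgroup G) : Set G) ≠ zpowers x := fun h => hne (h2.mpr h)
  have h4 := SPr.index_mul_le hx hC hN
  have h5 : (commutator G).index * t * p ≤ (p - 1) * p := by
    calc (commutator G).index * t * p = (commutator G).index * p * t := by ring
      _ ≤ Nat.card (normalizer ((zpowers x : Subgroup G) : Set G)) * t := Nat.mul_le_mul_right t h4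
      _ = (p - 1) * p := by rw [c1, mul_comm]
  exact Nat.le_of_mul_le_mul_right h5 hp.pos

end Cfsg.Agent.S4495
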