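import Cfsg.Statements.S4498
import Cfsg.Agent.H27.AD5
import Cfsg.Agent.H11.Weak

set_option autoImplicit false
open Cfsg

namespace Cfsg.Agent.S4498

open Cfsg.Agent.H27


/-- Let p and q be distinct primes dividing the order of the finite group G, and suppose G has no element of order p·q. Fix maximal ideals M_p over p and M_q over q of the algebraic integers. Then the principal p-block and the principal q-block of G have a non-principal irreducible character in common. -/
theorem result {G : Type*} [Group G] [Finite G] (p q : ℕ) [Fact p.Prime] [Fact q.Prime] (hpq : p ≠ q) (hp : p ∣ Nat.card G) (hq : q ∣ Nat.card G) (hno : ∀ g : G, orderOf g ≠ p * q) (Mp Mq : Ideal Cfsg.AlgInt) (hMp : Cfsg.IsPModular p Mp) (hMq : Cfsg.IsPModular q Mq) : ∃ χ : Cfsg.IrrCharacter G, (χ : G → ℂ) ≠ (fun _ => 1) ∧ χ ∈ Cfsg.principalBlock Mp G ∧ χ ∈ Cfsg.principalBlock Mq G := by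
  classical
  haveI := Fintype.ofFinite G
  haveI := Fintype.ofFinite (Cfsg.IrrCharacter G)
  haveI := Cfsg.Agent.H11.pmod_isPrime hMp
  haveI := Cfsg.Agent.H11.pmod_isPrime hMq
  by_contra hcon
  push Not at hcon
  obtain ⟨x, hx⟩ := exists_prime_orderOf_dvd_card' p hp
  obtain ⟨y, hy⟩ := exists_prime_orderOf_dvd_card' q hq
  set Bp := Cfsg.principalBlock Mp G with hBp
  set Bq := Cfsg.principalBlock Mq G with hBq
  let F : G → ℂ := ∑ χ : Cfsg.IrrCharacter G, (if χ ∈ Bp then (starRingEnd ℂ) ((χ : G → ℂ) x) else 0) • (χ : G → ℂ)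
  let H : G → ℂ := ∑ χ : Cfsg.IrrCharacter G, (if χ ∈ Bq then (starRingEnd ℂ) ((χ : G → ℂ) y) else 0) • (χ : G → ℂ)
  have hF : ∀ g, ¬ p ∣ orderOf g → F g = 0 := by
    intro g hg
    have h1 := Cfsg.Agent.H11.weak_block_orthogonality hMp (B := Bp) isPBlock_principal g x hg (by rw [hx])
    rw [Cfsg.Agent.H11.finsum_mem_irr, Finset.sum_filter] at h1
    show (∑ χ : Cfsg.IrrCharacter G, (if χ ∈ Bp then (starRingEnd ℂ) ((χ : G → ℂ) x) else 0) • (χ : G → ℂ)) g = 0
    refine Eq.trans ?_ h1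
    rw [Finset.sum_apply]
    refine Finset.sum_congr rfl fun χ _ => ?_
    rw [Pi.smul_apply, smul_eq_mul]
    split_ifs
    · ring
    · exact zero_mul _
  have hH : ∀ g, ¬ q ∣ orderOf g → H g = 0 := by
    intro g hg
    have h1 := Cfsg.Agent.H11.weak_block_orthogonality hMq (B := Bq) isPBlock_principal g y hg (by rw [hy])
    rw [Cfsg.Agent.H11.finsum_mem_irr, Finset.sum_filter] at h1
    show (∑ χ : Cfsg.IrrCharacter G, (if χ ∈ Bq then (starRingEnd ℂ) ((χ : G → ℂ) y) else 0) • (χ : G → ℂ)) g = 0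
    refine Eq.trans ?_ h1
    rw [Finset.sum_apply]
    refine Finset.sum_congr rfl fun χ _ => ?_
    rw [Pi.smul_apply, smul_eq_mul]
    split_ifs
    · ring
    · exact zero_mul _
  have h0 : Cfsg.classInner F H = 0 := by
    unfold Cfsg.classInner
    rw [Finset.sum_eq_zero, mul_zero]
    intro g _
    by_cases h1 : p ∣ orderOf g
    · by_cases h2 : q ∣ orderOf g
      · exfalso
        have hpq' : p * q ∣ orderOf g :=
          Nat.Coprime.mul_dvd_of_dvd_of_dvd ((Nat.coprime_primes Fact.out Fact.out).mpr hpq) h1 h2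
        obtain ⟨c, hc⟩ := hpq'
        have hc0 : c ≠ 0 := by
          rintro rfl
          rw [mul_zero] at hc
          exact (orderOf_pos g).ne' hc
        apply hno (g ^ c)
        rw [orderOf_pow_of_dvd hc0 ⟨p * q, by rw [hc]; ring⟩, hc]
        exact Nat.mul_div_cancel _ (Nat.pos_of_ne_zero hc0)
      · rw [hH g h2]; simp
    · rw [hF g h1]; simp
  have hcl : Cfsg.IsClassFunction G F := Cfsg.Agent.H3.classFun_sum _ _ fun χ _ =>
    Cfsg.Agent.H3.classFun_smul _ (Cfsg.Agent.H3.irr_classFun χ.2)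
  have hcF : ∀ χ : Cfsg.IrrCharacter G, Cfsg.classInner F (χ : G → ℂ) = if χ ∈ Bp then (starRingEnd ℂ) ((χ : G → ℂ) x) else 0 := by
    intro χ
    show Cfsg.classInner (∑ χ : Cfsg.IrrCharacter G, (if χ ∈ Bp then (starRingEnd ℂ) ((χ : G → ℂ) x) else 0) • (χ : G → ℂ)) _ = _
    rw [Cfsg.Agent.H3.classInner_sum_left]
    simp only [Cfsg.Agent.H3.classInner_smul_left, Cfsg.Agent.H3.classInner_irr']
    simp
  have hcH : ∀ χ : Cfsg.IrrCharacter G, Cfsg.classInner H (χ : G → ℂ) = if χ ∈ Bq then (starRingEnd ℂ) ((χ : G → ℂ) y) else 0 := by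
    intro χ
    show Cfsg.classInner (∑ χ : Cfsg.IrrCharacter G, (if χ ∈ Bq then (starRingEnd ℂ) ((χ : G → ℂ) y) else 0) • (χ : G → ℂ)) _ = _
    rw [Cfsg.Agent.H3.classInner_sum_left]
    simp only [Cfsg.Agent.H3.classInner_smul_left, Cfsg.Agent.H3.classInner_irr']
    simp
  rw [Cfsg.Agent.H3.classInner_eq_sum hcl] at h0
  have hone : ∑ χ : Cfsg.IrrCharacter G, Cfsg.classInner F (χ : G → ℂ) * (starRingEnd ℂ) (Cfsg.classInner H (χ : G → ℂ)) = 1 := by
    rw [Finset.sum_eq_single (oneIrr G)]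
    · rw [hcF, hcH, if_pos (by exact oneIrr_mem), if_pos (by exact oneIrr_mem)]
      show (starRingEnd ℂ) (1 : ℂ) * (starRingEnd ℂ) ((starRingEnd ℂ) (1 : ℂ)) = 1
      simp
    · intro χ _ hne
      rw [hcF, hcH]
      by_cases h1 : χ ∈ Bp
      · by_cases h2 : χ ∈ Bq
        · exfalso
          exact hcon χ (fun h => hne (Subtype.ext h)) h1 h2
        · rw [if_neg h2]; simp
      · rw [if_neg h1]; simp
    · intro h; exact absurd (Finset.mem_univ _) h
  rw [h0] at hone
  exact zero_ne_one hone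

end Cfsg.Agent.S4498
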