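import Cfsg.Statements.S4501
import Cfsg.Agent.H9.BTJ
import Cfsg.Agent.H9.BSWQ
import Cfsg.Agent.S0494

set_option autoImplicit false
open Cfsg

namespace Cfsg.Agent.S4501

/-- Let G be a non-abelian finite simple group and p, q distinct primes. If the order of G is 4·p^a·q^b with a ≤ 2, then G is isomorphic to the alternating group of degree 5. If the order of G is 3·p^a·q^b with a ≤ 2, then G is isomorphic to the alternating group of degree 5 or to PSL(2,7). -/
theorem result {G : Type*} [Group G] [Finite G] [IsSimpleGroup G] (hna : ∃ x y : G, x * y ≠ y * x) (p q a b : ℕ) (hp : p.Prime) (hq : q.Prime) (hpq : p ≠ q) (ha : a ≤ 2) : (Nat.card G = 4 * p ^ a * q ^ b → Nonempty (G ≃* alternatingGroup (Fin 5))) ∧ (Nat.card G = 3 * p ^ a * q ^ b → Nonempty (G ≃* alternatingGroup (Fin 5)) ∨ Nonempty (G ≃* Matrix.ProjectiveSpecialLinearGroup (Fin 2) (ZMod 7))) := by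
  have hG : ¬ IsMulCommutative G := by
    intro h
    obtain ⟨x, y, hxy⟩ := hna
    exact hxy (isMulCommutative_iff.mp h x y)
  constructor
  · intro h
    exact Cfsg.Agent.S0494.result (Cfsg.Agent.H9.BT.four hG hp hq hpq h)
  · intro h
    rcases Cfsg.Agent.H9.BT.three hG hp hq hpq ha h with h1 | ⟨F, i1, i2, hF, ⟨f⟩⟩
    · exact Or.inl (Cfsg.Agent.S0494.result h1)
    · right
      haveI : Fact (Nat.Prime 7) := ⟨by norm_num⟩
      obtain ⟨g⟩ := Cfsg.Agent.H9.BSW.psl_iso_of_card (F := F) (F' := ZMod 7) (by rw [hF, ZMod.card])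
      exact ⟨f.trans g⟩

end Cfsg.Agent.S4501
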