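import Cfsg.Statements.S4506
import Cfsg.Agent.H26.Coef3
import Cfsg.Agent.H27.PMod
import Cfsg.Agent.H27.Galois

set_option autoImplicit false
open Cfsg

namespace Cfsg.Agent.S4506

open Cfsg.Agent.H11 Cfsg.Agent.H26 Cfsg.Agent.H3 Finset
open scoped ComplexConjugate

/-- the relation -/
def Cj {G : Type*} (n : ℕ) (χ ψ : G → ℂ) : Prop :=
  ∃ σ : ℂ ≃+* ℂ, σ (Complex.exp (2 * Real.pi * Complex.I / (n : ℕ)))
    = Complex.exp (2 * Real.pi * Complex.I / (n : ℕ)) ∧ ψ = fun g => σ (χ g)

theorem conj_root {n : ℕ} (hn : n ≠ 0) {σ : ℂ ≃+* ℂ}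
    (h : σ (Complex.exp (2 * Real.pi * Complex.I / (n : ℕ)))
      = Complex.exp (2 * Real.pi * Complex.I / (n : ℕ))) (ζ : ℂ) (hζ : ζ ^ n = 1) : σ ζ = ζ := by
  haveI : NeZero n := ⟨hn⟩
  obtain ⟨i, -, rfl⟩ := (Complex.isPrimitiveRoot_exp n hn).eq_pow_of_pow_eq_one hζ
  rw [map_pow, h]

variable {G : Type*} [Group G] [Fintype G] {p : ℕ} [hp : Fact p.Prime]

theorem pow_compl {y : G} (hy : ¬ p ∣ orderOf y) :
    y ^ (Nat.card G / p ^ (Nat.card G).factorization p) = 1 := by
  rw [← orderOf_dvd_iff_pow_eq_one]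
  have h1 : (orderOf y).Coprime (p ^ (Nat.card G).factorization p) :=
    Nat.Coprime.pow_right _ ((hp.out.coprime_iff_not_dvd.mpr hy).symm)
  have h2 : orderOf y ∣ p ^ (Nat.card G).factorization p *
      (Nat.card G / p ^ (Nat.card G).factorization p) := by
    rw [Nat.ordProj_mul_ordCompl_eq_self]
    exact orderOf_dvd_natCard y
  exact h1.dvd_of_dvd_mul_left h2

theorem cj_reg {χ ψ : G → ℂ} (hχ : IsCharacter G χ)
    (h : Cj (Nat.card G / p ^ (Nat.card G).factorization p) χ ψ) {y : G} (hy : ¬ p ∣ orderOf y) :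
    ψ y = χ y := by
  obtain ⟨σ, h1, rfl⟩ := h
  have hn : Nat.card G / p ^ (Nat.card G).factorization p ≠ 0 :=
    (Nat.ordCompl_pos p Nat.card_pos.ne').ne'
  have := H27.char_galois_apply hχ (σ : ℂ →+* ℂ) (n := Nat.card G / p ^ (Nat.card G).factorization p)
    (m := 1) hn (fun ζ hζ => by simpa using conj_root hn h1 ζ hζ) (pow_compl hy)
  simpa using this

theorem cj_pr {χ ψ : G → ℂ} (hχ : IsCharacter G χ)
    (h : Cj (Nat.card G / p ^ (Nat.card G).factorization p) χ ψ) :
    pRegularPart p ψ = pRegularPart p χ := by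
  funext g
  by_cases hg : p ∣ orderOf g
  · rw [pr_sing hg, pr_sing hg]
  · rw [pr_reg hg, pr_reg hg, cj_reg hχ h hg]

theorem cj_mm {χ ψ : G → ℂ} (hχ : IsCharacter G χ)
    (h : Cj (Nat.card G / p ^ (Nat.card G).factorization p) χ ψ) :
    mm p χ ψ = mm p χ χ := by
  unfold mm
  rw [← classInner_pr_right, cj_pr hχ h, classInner_pr_right]

theorem main (χ : IrrCharacter G) {r : ℕ}
    (hr : Nat.card {ψ : IrrCharacter G // Cj (Nat.card G / p ^ (Nat.card G).factorization p)
      (χ : G → ℂ) (ψ : G → ℂ)} = r) :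
    (r * charDegree (χ : G → ℂ)).factorization p ≤ (Nat.card G).factorization p ∧
    (p ^ (Nat.card G).factorization p ∣ r * charDegree (χ : G → ℂ) →
      p ^ (Nat.card G).factorization p ∣ charDegree (χ : G → ℂ)) := by
  classical
  let _ : Fintype (IrrCharacter G) := Fintype.ofFinite _
  obtain ⟨M, hM⟩ := H27.exists_isPModular hp.out
  have hpr := hM.2.1.isPrime
  set n := Nat.card G / p ^ (Nat.card G).factorization p with hn
  set S : Finset (IrrCharacter G) := univ.filter (fun ψ => Cj n (χ : G → ℂ) (ψ : G → ℂ)) with hS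
  have hrS : S.card = r := by
    rw [← hr, Nat.card_eq_fintype_card, Fintype.card_subtype]
  have hχS : χ ∈ S := by
    simp only [hS, Finset.mem_filter, Finset.mem_univ, true_and]
    exact ⟨RingEquiv.refl ℂ, rfl, rfl⟩
  have hr0 : 0 < r := by rw [← hrS]; exact Finset.card_pos.mpr ⟨χ, hχS⟩
  set B := blockOf M (χ : G → ℂ) with hBdef
  have hB : IsPBlock M B := ⟨χ, rfl⟩
  have hχB : χ ∈ B := mem_blockOf_self χ
  obtain ⟨c, h1, h2, h3, h4, -, -⟩ := exists_cmat hM hB
  have hsq := cmat_sq hM hB h1 h2 h3 hχB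
  have hpC : (p : ℂ) ≠ 0 := by exact_mod_cast hp.out.ne_zero
  have hpz : (0 : ℤ) < p := by exact_mod_cast hp.out.pos
  -- members of `S` lie in `B`
  have hSB : ∀ ψ ∈ S, ψ ∈ B := by
    intro ψ hψ
    rw [hS, Finset.mem_filter] at hψ
    by_contra hcon
    have h5 := mm_eq_zero hM (χ := χ) (ψ := ψ) hcon
    rw [cj_mm (irr_isChar χ.2) hψ.2] at h5
    exact mm_self_ne_zero χ h5
  have hcS : ∀ ψ ∈ S, c χ ψ = c χ χ := by
    intro ψ hψ
    have h5 := h1 χ ψ hχB (hSB ψ hψ)
    rw [hS, Finset.mem_filter] at hψ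
    rw [cj_mm (irr_isChar χ.2) hψ.2, h1 χ χ hχB hχB] at h5
    exact_mod_cast h5.symm
  have hc0 : c χ χ ≠ 0 := by
    intro h
    have h5 := h1 χ χ hχB hχB
    rw [h] at h5
    push_cast at h5
    rcases mul_eq_zero.mp h5 with h6 | h6
    · exact pow_ne_zero _ hpC h6
    · exact mm_self_ne_zero χ h6
  have hcpos : 0 < c χ χ := by
    have h5 : 0 < ∑ ψ : IrrCharacter G, c χ ψ ^ 2 :=
      Finset.sum_pos' (fun _ _ => sq_nonneg _) ⟨χ, Finset.mem_univ _, by positivity⟩
    rw [hsq] at h5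
    exact pos_of_mul_pos_right h5 (by positivity)
  have hsum : (r : ℤ) * c χ χ ^ 2 = ∑ ψ ∈ S, c χ ψ ^ 2 := by
    rw [Finset.sum_congr rfl (fun ψ hψ => by rw [hcS ψ hψ]), Finset.sum_const, hrS]
    simp
  have hle : (r : ℤ) * c χ χ ≤ (p : ℤ) ^ blockDefect p B := by
    have h5 : (r : ℤ) * c χ χ ^ 2 ≤ (p : ℤ) ^ blockDefect p B * c χ χ := by
      rw [hsum, ← hsq]
      exact Finset.sum_le_sum_of_subset_of_nonneg (Finset.subset_univ _)
        (fun _ _ _ => sq_nonneg _)
    nlinarith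
  have hh : (p : ℤ) ^ blockHeight p B (χ : G → ℂ) ≤ c χ χ :=
    Int.le_of_dvd hcpos (h4 χ χ hχB hχB)
  obtain ⟨hf1, hf2⟩ := fact_degree hM hχB
  have hrh : r * p ^ blockHeight p B (χ : G → ℂ) ≤ p ^ blockDefect p B := by
    have : (r : ℤ) * (p : ℤ) ^ blockHeight p B (χ : G → ℂ) ≤ (p : ℤ) ^ blockDefect p B :=
      (mul_le_mul_of_nonneg_left hh (by positivity)).trans hle
    exact_mod_cast this
  set a := (Nat.card G).factorization p with ha
  set d := charDegree (χ : G → ℂ) with hd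
  have hd0 : d ≠ 0 := (H27.charDegree_pos χ.2).ne'
  have hrd : r * p ^ (d.factorization p) ≤ p ^ a := by
    rw [hf1]
    calc r * p ^ (a - blockDefect p B + blockHeight p B (χ : G → ℂ))
        = p ^ (a - blockDefect p B) * (r * p ^ blockHeight p B (χ : G → ℂ)) := by
          rw [pow_add]; ring
      _ ≤ p ^ (a - blockDefect p B) * p ^ blockDefect p B := Nat.mul_le_mul_left _ hrh
      _ = p ^ a := by rw [← pow_add]; congr 1; omega
  have hrr : p ^ (r.factorization p) ≤ r := Nat.ordProj_le p hr0.ne'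
  have hfac : (r * d).factorization p = r.factorization p + d.factorization p := by
    rw [Nat.factorization_mul hr0.ne' hd0]; rfl
  refine ⟨?_, ?_⟩
  · rw [hfac]
    have h5 : p ^ (r.factorization p + d.factorization p) ≤ p ^ a := by
      rw [pow_add]
      exact (Nat.mul_le_mul_right _ hrr).trans hrd
    exact (Nat.pow_le_pow_iff_right hp.out.one_lt).mp h5
  · intro hdvd
    have h5 : a ≤ r.factorization p + d.factorization p := by
      rw [← hfac]
      exact (hp.out.pow_dvd_iff_le_factorization (Nat.mul_ne_zero hr0.ne' hd0)).mp hdvd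
    have h6 : p ^ a ≤ p ^ (r.factorization p) * p ^ (d.factorization p) := by
      rw [← pow_add]; exact Nat.pow_le_pow_right hp.out.pos h5
    have h7 : r ≤ p ^ (r.factorization p) := by
      have := hrd.trans h6
      exact Nat.le_of_mul_le_mul_right this (pow_pos hp.out.pos _)
    have h8 : r * p ^ (d.factorization p) = p ^ a :=
      le_antisymm hrd (h6.trans (Nat.mul_le_mul_right _ hrr))
    -- hence `r p^h = p^d` and `c = p^h`
    have h9 : r * p ^ blockHeight p B (χ : G → ℂ) = p ^ blockDefect p B := by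
      have h10 : p ^ (a - blockDefect p B) * (r * p ^ blockHeight p B (χ : G → ℂ))
          = p ^ (a - blockDefect p B) * p ^ blockDefect p B := by
        calc p ^ (a - blockDefect p B) * (r * p ^ blockHeight p B (χ : G → ℂ))
            = r * p ^ (a - blockDefect p B + blockHeight p B (χ : G → ℂ)) := by
              rw [pow_add]; ring
          _ = p ^ a := by rw [← hf1]; exact h8
          _ = p ^ (a - blockDefect p B) * p ^ blockDefect p B := by
            rw [← pow_add]; congr 1; omega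
      exact Nat.eq_of_mul_eq_mul_left (pow_pos hp.out.pos _) h10
    have h10 : c χ χ = (p : ℤ) ^ blockHeight p B (χ : G → ℂ) := by
      apply le_antisymm _ hh
      have h11 : (r : ℤ) * c χ χ ≤ (r : ℤ) * (p : ℤ) ^ blockHeight p B (χ : G → ℂ) := by
        have : (r : ℤ) * (p : ℤ) ^ blockHeight p B (χ : G → ℂ) = (p : ℤ) ^ blockDefect p B := by
          exact_mod_cast h9
        rw [this]; exact hle
      exact le_of_mul_le_mul_left h11 (by exact_mod_cast hr0)
    have h11 : (r : ℤ) * c χ χ = (p : ℤ) ^ blockDefect p B := by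
      rw [h10]; exact_mod_cast h9
    have h12 : ∀ ψ, ψ ∉ S → c χ ψ = 0 := by
      intro ψ hψ
      have h13 : ∑ ψ ∈ S, c χ ψ ^ 2 + ∑ ψ ∈ Sᶜ, c χ ψ ^ 2 = ∑ ψ ∈ S, c χ ψ ^ 2 := by
        rw [Finset.sum_add_sum_compl, hsq, ← hsum, ← h11]; ring
      have h14 : ∑ ψ ∈ Sᶜ, c χ ψ ^ 2 = 0 := by linarith
      have h15 := (Finset.sum_eq_zero_iff_of_nonneg (fun _ _ => sq_nonneg _)).mp h14 ψ
        (Finset.mem_compl.mpr hψ)
      exact pow_eq_zero_iff (two_ne_zero) |>.mp h15
    -- the regular part of `χ` is `r⁻¹ ∑ ψ`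
    have h13 : ∀ g : G, (r : ℂ) * pRegularPart p (χ : G → ℂ) g = ∑ ψ ∈ S, (ψ : G → ℂ) g := by
      intro g
      have e1 := mm_expand p (irr_classFun χ.2) g
      have hpd : (p : ℂ) ^ blockDefect p B ≠ 0 := pow_ne_zero _ hpC
      have e2 : (p : ℂ) ^ blockDefect p B * pRegularPart p (χ : G → ℂ) g
          = ∑ ψ : IrrCharacter G, (c χ ψ : ℂ) * (ψ : G → ℂ) g := by
        rw [e1, Finset.mul_sum]
        refine Finset.sum_congr rfl fun ψ _ => ?_
        by_cases hψ : ψ ∈ B
        · rw [← h1 χ ψ hχB hψ, mul_assoc]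
        · rw [h2 χ ψ hψ, mm_eq_zero hM (fun h => hψ h)]; simp
      have e3 : ∑ ψ : IrrCharacter G, (c χ ψ : ℂ) * (ψ : G → ℂ) g
          = (c χ χ : ℂ) * ∑ ψ ∈ S, (ψ : G → ℂ) g := by
        rw [← Finset.sum_subset (Finset.subset_univ S) (fun ψ _ hψ => by rw [h12 ψ hψ]; simp),
          Finset.mul_sum]
        exact Finset.sum_congr rfl fun ψ hψ => by rw [hcS ψ hψ]
      rw [e3] at e2
      have e4 : (r : ℂ) * (c χ χ : ℂ) = (p : ℂ) ^ blockDefect p B := by exact_mod_cast h11
      have e5 : (c χ χ : ℂ) ≠ 0 := by exact_mod_cast hc0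
      rw [← e4] at e2
      apply mul_left_cancel₀ e5
      linear_combination e2
    -- restrict to a Sylow subgroup
    let P : Sylow p G := default
    haveI : Fintype (P : Subgroup G) := Fintype.ofFinite _
    obtain ⟨m, hm⟩ := classInner_gen_int (isGen_of_char (isChar_restrict (P : Subgroup G)
      (irr_isChar χ.2))) (isGen_of_char (isChar_restrict (P : Subgroup G)
      (irr_isChar (H27.oneIrr G).2)))
    have hPcard : Nat.card (P : Subgroup G) = p ^ a := P.card_eq_multiplicity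
    have hm' : ∑ x : (P : Subgroup G), (χ : G → ℂ) x = (p ^ a : ℕ) * m := by
      rw [← hm, classInner, hPcard, ← mul_assoc, mul_inv_cancel₀ (by
        exact_mod_cast (pow_ne_zero a hp.out.ne_zero)), one_mul]
      exact Finset.sum_congr rfl fun x _ => by simp
    have hψm : ∀ ψ ∈ S, ∑ x : (P : Subgroup G), (ψ : G → ℂ) x = (p ^ a : ℕ) * m := by
      intro ψ hψ
      rw [hS, Finset.mem_filter] at hψ
      obtain ⟨σ, -, hσ⟩ := hψ.2
      rw [hσ]
      have : ∑ x : (P : Subgroup G), σ ((χ : G → ℂ) x) = σ (∑ x : (P : Subgroup G), (χ : G → ℂ) x) := by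
        rw [map_sum]
      rw [this, hm']; simp
    have hsing : ∀ x : (P : Subgroup G), x ≠ 1 → ∑ ψ ∈ S, (ψ : G → ℂ) x = 0 := by
      intro x hx
      rw [← h13, pr_sing, mul_zero]
      obtain ⟨j, hj⟩ := (IsPGroup.iff_orderOf.mp P.isPGroup') x
      rw [← Subgroup.orderOf_coe] at hj
      rw [hj]
      apply dvd_pow_self
      rintro rfl
      rw [pow_zero, orderOf_eq_one_iff] at hj
      exact hx (Subtype.ext hj)
    have hone : ∑ ψ ∈ S, (ψ : G → ℂ) 1 = r * d := by
      rw [← h13, pr_reg (by rw [orderOf_one]; exact fun h => hp.out.one_lt.ne' (Nat.dvd_one.mp h)),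
        ← H27.charDegree_cast (H27.isIrr_isCharacter χ.2)]
    have e1 : ∑ x : (P : Subgroup G), ∑ ψ ∈ S, (ψ : G → ℂ) x = r * d := by
      rw [Finset.sum_eq_single (1 : (P : Subgroup G)) (fun x _ hx => hsing x hx) (by simp)]
      exact hone
    rw [Finset.sum_comm, Finset.sum_congr rfl hψm, Finset.sum_const, hrS] at e1
    have e2 : (p ^ a : ℕ) * m = (d : ℤ) := by
      have hrC : (r : ℂ) ≠ 0 := by exact_mod_cast hr0.ne'
      have e3 : ((p ^ a : ℕ) : ℂ) * m = d := by
        apply mul_left_cancel₀ hrC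
        rw [← e1]; simp
      exact_mod_cast e3
    exact Int.natCast_dvd_natCast.mp ⟨m, e2.symm⟩

/-- Let G be a finite group, p a prime, p^a the p-part of the order of G and g′ its p′-part. Call two irreducible characters p-conjugate when one is obtained from the other by applying a field automorphism of ℂ that fixes the g′-th roots of unity, and let r be the number of characters p-conjugate to the irreducible character χ (χ included). Then the exponent of p in r·χ(1) is at most a; and if p^a divides r·χ(1) then p^a already divides χ(1). -/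
theorem result {G : Type*} [Group G] [Finite G] (p : ℕ) (hp : p.Prime) (χ : Cfsg.IrrCharacter G) (r : ℕ) (hr : Nat.card {ψ : Cfsg.IrrCharacter G // ∃ σ : ℂ ≃+* ℂ, σ (Complex.exp (2 * Real.pi * Complex.I / ((Nat.card G / p ^ (Nat.card G).factorization p) : ℕ))) = Complex.exp (2 * Real.pi * Complex.I / ((Nat.card G / p ^ (Nat.card G).factorization p) : ℕ)) ∧ (ψ : G → ℂ) = fun g => σ ((χ : G → ℂ) g)} = r) : (r * Cfsg.charDegree (χ : G → ℂ)).factorization p ≤ (Nat.card G).factorization p ∧ (p ^ (Nat.card G).factorization p ∣ r * Cfsg.charDegree (χ : G → ℂ) → p ^ (Nat.card G).factorization p ∣ Cfsg.charDegree (χ : G → ℂ)) := by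
  haveI : Fact p.Prime := ⟨hp⟩
  haveI := Fintype.ofFinite G
  exact main χ hr

end Cfsg.Agent.S4506
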