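import Cfsg.Statements.S4507
import Cfsg.Agent.L.DO13

set_option autoImplicit false
open Cfsg

namespace Cfsg.Agent.S4507

/-- Let G be a finite group whose order g is divisible by the prime p exactly once, g′ = g/p, and fix a maximal ideal M of the algebraic integers containing p. Call two irreducible characters p-conjugate when a field automorphism of ℂ fixing the g′-th roots of unity carries one to the other. Let B be a p-block of positive defect (its defect group is a Sylow p-subgroup). Then B contains a subset Y (the exceptional family) such that: Y is a full p-conjugacy class (its members are pairwise p-conjugate and every p-conjugate of a member of Y lies in Y); every member of B outside Y is p-conjugate only to itself; the size t of Y divides p − 1 and B has exactly t + (p − 1)/t members; and there are signs δ_χ = ±1 (χ ∈ B) such that for every p-regular element x and every θ ∈ Y, Σ_{χ ∈ B ∖ Y} δ_χ χ(x) + δ_θ θ(x) = 0. -/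
theorem result {G : Type*} [Group G] [Finite G] (p : ℕ) [Fact p.Prime] (M : Ideal Cfsg.AlgInt) (hM : Cfsg.IsPModular p M) (hdiv : p ∣ Nat.card G) (hsq : ¬ p ^ 2 ∣ Nat.card G) (B : Set (Cfsg.IrrCharacter G)) (hB : Cfsg.IsPBlock M B) (hd : 0 < Cfsg.blockDefect p B) : ∃ Y : Set (Cfsg.IrrCharacter G), Y ⊆ B ∧ Y.Nonempty ∧ (∀ θ ∈ Y, ∀ ψ : Cfsg.IrrCharacter G, (∃ σ : ℂ ≃+* ℂ, σ (Complex.exp (2 * Real.pi * Complex.I / ((Nat.card G / p ^ (Nat.card G).factorization p) : ℕ))) = Complex.exp (2 * Real.pi * Complex.I / ((Nat.card G / p ^ (Nat.card G).factorization p) : ℕ)) ∧ (ψ : G → ℂ) = fun g => σ ((θ : G → ℂ) g)) ↔ ψ ∈ Y) ∧ (∀ χ ∈ B, χ ∉ Y → ∀ ψ : Cfsg.IrrCharacter G, (∃ σ : ℂ ≃+* ℂ, σ (Complex.exp (2 * Real.pi * Complex.I / ((Nat.card G / p ^ (Nat.card G).factorization p) : ℕ))) = Complex.exp (2 * Real.pi * Complex.I / ((Nat.card G / p ^ (Nat.card G).factorization p) : ℕ)) ∧ (ψ : G → ℂ) = fun g => σ ((χ : G → ℂ) g)) → ψ = χ) ∧ Nat.card Y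 ∣ p - 1 ∧ Nat.card B = Nat.card Y + (p - 1) / Nat.card Y ∧ ∃ δ : Cfsg.IrrCharacter G → ℤ, (∀ χ ∈ B, δ χ = 1 ∨ δ χ = -1) ∧ ∀ x : G, ¬ p ∣ orderOf x → ∀ θ ∈ Y, (∑ᶠ χ ∈ B \ Y, (δ χ : ℂ) * (χ : G → ℂ) x) + (δ θ : ℂ) * (θ : G → ℂ) x = 0 := by
  classical
  let _ : Fintype G := Fintype.ofFinite G
  have hpr := hM.2.1.isPrime
  have hp := Fact.out (p := p.Prime)
  have hn : Nat.card G ≠ 0 := Nat.card_pos.ne'
  have hfac : (Nat.card G).factorization p = 1 := by
    have h1 : 1 ≤ (Nat.card G).factorization p := (hp.dvd_iff_one_le_factorization hn).mp hdiv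
    have h2 : ¬ 2 ≤ (Nat.card G).factorization p := fun h =>
      hsq ((hp.pow_dvd_iff_le_factorization hn).mpr h)
    omega
  obtain ⟨P, hBP⟩ := Cfsg.Agent.H11.exists_isDefectGroup hM hB
  have hcard := Cfsg.Agent.H11.card_defect hM hB hBP
  have hd1 : Cfsg.blockDefect p B = 1 := by
    have : Cfsg.blockDefect p B ≤ 1 := by
      unfold Cfsg.blockDefect
      rw [hfac]; omega
    omega
  rw [hd1, pow_one] at hcard
  have h : Cfsg.Agent.LD.Loc p P := ⟨hcard, hsq⟩
  let _ : Fintype (Cfsg.Agent.H26.cz P) := Fintype.ofFinite _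
  obtain ⟨θ, hTh⟩ := h.exists_Th hM hB hBP
  obtain ⟨k0, hg, f, Y, c, s, D⟩ := h.exists_dat hM hB hBP hTh
  obtain ⟨hfpos, hepos⟩ := h.fpos hM hB hTh D.exc
  have hfm := D.exc.fmul
  rw [hfac, pow_one]
  have hiter : ∀ χ ∈ Y, ∀ j : ℕ, (Cfsg.Agent.H27.galIrr k0 hg.cop)^[j] χ ∈ Y := by
    intro χ hχ j
    induction j with
    | zero => exact hχ
    | succ j ih => rw [Function.iterate_succ_apply']; exact D.exc.stable _ ih
  refine ⟨Y, D.exc.sub, ?_, ?_, ?_, ?_, ?_, fun χ => if χ ∈ Y then s else c χ, ?_, ?_⟩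
  · rw [Set.nonempty_iff_ne_empty]
    intro h0
    have := D.exc.card
    rw [h0] at this
    simp at this
    omega
  · intro χ hχ ψ
    constructor
    · rintro ⟨σ, hσ, h1⟩
      obtain ⟨j, hj⟩ := h.aut_iterate hg σ hσ
      have h2 : ψ = (Cfsg.Agent.H27.galIrr k0 hg.cop)^[j] χ := Subtype.ext (h1.trans (hj χ))
      rw [h2]
      exact hiter χ hχ j
    · intro hψ
      obtain ⟨j, hj⟩ := D.exc.trans χ hχ ψ hψ
      obtain ⟨σ, hσ, h1⟩ := h.iterate_aut hg j
      refine ⟨σ, hσ, ?_⟩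
      rw [h1 χ, hj]
  · rintro χ hχ hY ψ ⟨σ, hσ, h1⟩
    obtain ⟨j, hj⟩ := h.aut_iterate hg σ hσ
    have h2 : ψ = (Cfsg.Agent.H27.galIrr k0 hg.cop)^[j] χ := Subtype.ext (h1.trans (hj χ))
    rw [h2]
    exact Function.iterate_fixed (D.exc.fix χ hχ hY) j
  · rw [D.exc.card, ← hfm]
    exact Dvd.intro_left _ rfl
  · rw [Cfsg.Agent.LD.card_block_eq B Y D.exc.sub, D.cardX, D.exc.card, ← hfm,
      Nat.mul_div_cancel _ hfpos, add_comm]
  · intro χ hχ
    by_cases hY : χ ∈ Y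
    · simp only [if_pos hY]; exact D.s1
    · simp only [if_neg hY]; exact D.c1 χ hχ hY
  · intro x hx ψ hψ
    have h1 := D.rel x hx ψ hψ
    simp only [if_pos hψ]
    rw [← h1]
    congr 1
    refine finsum_mem_congr rfl fun χ hχ => ?_
    rw [if_neg hχ.2]

end Cfsg.Agent.S4507
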