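import Cfsg.Statements.S4509
import Cfsg.Agent.H9.SPrC

set_option autoImplicit false
open Cfsg

namespace Cfsg.Agent.S4509

open Subgroup MulAction
open Cfsg.Agent.H9

/-- Let the finite group G contain an element x of prime order p with C_G(x) = ⟨x⟩; let t be the number of conjugacy classes of elements of order p and 1 + n·p the number of subgroups of order p. Then G has a normal subgroup of order 1 + n·p if and only if either t = p − 1, or t < p − 1 and G″ ≠ G′. Moreover, if t = p − 1 then G′ has order 1 + n·p and G/G′ is cyclic of order p; and if t < p − 1 and G″ ≠ G′ then G″ has order 1 + n·p and G′ has order p·(1 + n·p). -/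
theorem result {G : Type*} [Group G] [Finite G] (p : ℕ) (hp : p.Prime) (x : G) (hx : orderOf x = p) (hC : Subgroup.centralizer ({x} : Set G) = Subgroup.zpowers x) (t : ℕ) (ht : Nat.card {C : ConjClasses G // ∃ g ∈ C.carrier, orderOf g = p} = t) (n : ℕ) (hn : Nat.card {H : Subgroup G // Nat.card H = p} = 1 + n * p) : ((∃ S : Subgroup G, S.Normal ∧ Nat.card S = 1 + n * p) ↔ (t = p - 1 ∨ (t < p - 1 ∧ derivedSeries G 2 ≠ derivedSeries G 1))) ∧ (t = p - 1 → Nat.card (commutator G) = 1 + n * p ∧ IsCyclic (G ⧸ commutator G) ∧ (commutator G).index = p) ∧ (t < p - 1 → derivedSeries G 2 ≠ derivedSeries G 1 → Nat.card (derivedSeries G 2) = 1 + n * p ∧ Nat.card (commutator G) = p * (1 + n * p)) := by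
  haveI : Fact p.Prime := ⟨hp⟩
  obtain ⟨h1, h2, h3⟩ := SPr.t_iff hx hC ht
  obtain ⟨c1, c2, c3⟩ := SPr.count hx hC ht
  rw [hn] at c3
  have hd1 : derivedSeries G 1 = commutator G := derivedSeries_one G
  have hd2 : derivedSeries G 2 = ⁅commutator G, commutator G⁆ := by
    rw [show (2 : ℕ) = 1 + 1 from rfl, derivedSeries_succ, hd1]
  have A : t = p - 1 → Nat.card (commutator G) = 1 + n * p ∧ IsCyclic (G ⧸ commutator G) ∧ (commutator G).index = p := by
    intro he
    have hN := h2.mp he
    obtain ⟨a1, a2, a3, a4⟩ := SPr.complement hx hC hN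
    refine ⟨?_, a4, a2⟩
    have h4 := card_mul_index (commutator G)
    rw [a2, ← c2, hN, Nat.card_zpowers, hx, ← c3] at h4
    exact Nat.eq_of_mul_eq_mul_right hp.pos h4
  have B : t < p - 1 → derivedSeries G 2 ≠ derivedSeries G 1 → Nat.card (derivedSeries G 2) = 1 + n * p ∧ Nat.card (commutator G) = p * (1 + n * p) := by
    intro hlt hne
    have hN : normalizer ((zpowers x : Subgroup G) : Set G) ≠ zpowers x := fun h => hlt.ne (h2.mpr h)
    rw [hd1, hd2] at hne
    obtain ⟨b1, b2, b3⟩ := SPr.derived hx hC hN hne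
    rw [hd2, b1, b3, b2, ← c3]
    exact ⟨rfl, rfl⟩
  refine ⟨⟨?_, ?_⟩, A, B⟩
  · rintro ⟨S, hS, hSc⟩
    by_cases he : t = p - 1
    · exact Or.inl he
    · right
      refine ⟨lt_of_le_of_ne h1 he, ?_⟩
      rw [hd1, hd2]
      exact SPr.derived_ne hx hC (S := S) (by rw [hSc, c3]) (fun h => he (h2.mpr h))
  · rintro (he | ⟨hlt, hne⟩)
    · exact ⟨commutator G, inferInstance, (A he).1⟩
    · exact ⟨derivedSeries G 2, inferInstance, (B hlt hne).1⟩

end Cfsg.Agent.S4509
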