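import Cfsg.Statements.S4636
import Cfsg.Agent.H2.Cyc

set_option autoImplicit false
open scoped Pointwise
open Cfsg

namespace Cfsg.Agent.S4636

/-- Let P be a nontrivial cyclic p-subgroup of the finite group G and Z its subgroup of order p. For every x outside N_G(Z), P meets its conjugate xPx⁻¹ trivially; consequently N_G(Q) ≤ N_G(Z) for every nontrivial subgroup Q of P. -/
theorem result {G : Type*} [Group G] [Finite G] (p : ℕ) [Fact p.Prime] (P : Subgroup G) (hP : IsPGroup p P) (hP1 : P ≠ ⊥) (hcyc : IsCyclic P) (Z : Subgroup G) (hZ : Z ≤ P) (hZcard : Nat.card Z = p) : (∀ x : G, x ∉ Subgroup.normalizer (Z : Set G) → P ⊓ MulAut.conj x • P = ⊥) ∧ ∀ Q : Subgroup G, Q ≤ P → Q ≠ ⊥ → Subgroup.normalizer (Q : Set G) ≤ Subgroup.normalizer (Z : Set G) := by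
  classical
  have hp : p.Prime := Fact.out
  haveI := hcyc
  -- any nontrivial subgroup of P contains Z
  have hcont : ∀ R : Subgroup G, R ≤ P → R ≠ ⊥ → Z ≤ R := by
    intro R hRP hR
    have hRp : IsPGroup p R := hP.to_le hRP
    haveI : Nontrivial R := (Subgroup.nontrivial_iff_ne_bot R).mpr hR
    obtain ⟨n, hn0, hn⟩ := (IsPGroup.nontrivial_iff_card hRp).mp inferInstance
    have hdvd : p ∣ Nat.card R := by rw [hn]; exact dvd_pow_self p hn0.ne'
    obtain ⟨r, hr⟩ := exists_prime_orderOf_dvd_card' p hdvd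
    -- both Z and ⟨r⟩ are subgroups of order p in cyclic P
    have hrP : (r : G) ∈ P := hRP r.2
    let r' : P := ⟨(r : G), hrP⟩
    have hr' : orderOf r' = p := by
      rw [← hr, ← Subgroup.orderOf_coe, ← Subgroup.orderOf_coe]
    let ZP : Subgroup P := Z.subgroupOf P
    have hZP : Nat.card ZP = p := by
      rw [← hZcard]
      exact Nat.card_congr (Subgroup.subgroupOfEquivOfLe hZ).toEquiv
    have heq : ZP = Subgroup.zpowers r' := by
      apply Cfsg.Agent.H2.eq_of_card_eq_of_isCyclic
      rw [hZP, Nat.card_zpowers, hr']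
    intro z hz
    have hz' : (⟨z, hZ hz⟩ : P) ∈ ZP := by
      rw [Subgroup.mem_subgroupOf]; exact hz
    rw [heq, Subgroup.mem_zpowers_iff] at hz'
    obtain ⟨k, hk⟩ := hz'
    have : z = (r : G) ^ k := by
      have := congrArg (Subtype.val) hk
      simpa [r'] using this.symm
    rw [this]
    exact R.zpow_mem r.2 k
  have hZP2 : ∀ g : G, MulAut.conj g • Z = Z → g ∈ Subgroup.normalizer (Z : Set G) := by
    intro g hg
    rw [Subgroup.mem_normalizer_iff]
    intro x
    have h4 : MulAut.conj g • x = g * x * g⁻¹ := rfl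
    rw [← h4]
    constructor
    · intro hx
      rw [← hg]
      exact Subgroup.smul_mem_pointwise_smul x _ Z hx
    · intro hx
      rw [← hg] at hx
      exact (Subgroup.smul_mem_pointwise_smul_iff).mp hx
  have hcard : ∀ g : G, Z ≤ MulAut.conj g • Z → MulAut.conj g • Z = Z := by
    intro g hg
    refine (Subgroup.eq_of_le_of_card_ge hg ?_).symm
    exact (Nat.card_congr (Subgroup.equivSMul (MulAut.conj g) Z).toEquiv).symm.le
  have key : ∀ (R : Subgroup G) (g : G), R ≠ ⊥ → R ≤ P → R ≤ MulAut.conj g • P →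
      g ∈ Subgroup.normalizer (Z : Set G) := by
    intro R g hR hRP hRg
    apply hZP2
    apply hcard
    -- Z ≤ R ; R' = conj g⁻¹ • R ≤ P is nontrivial, so Z ≤ R', so conj g • Z ≤ R, 
    have h1 : Z ≤ R := hcont R hRP hR
    have h2 : MulAut.conj g⁻¹ • R ≤ P := by
      intro y hy
      obtain ⟨x, hx, rfl⟩ := (Subgroup.mem_smul_pointwise_iff_exists y _ R).mp hy
      obtain ⟨w, hw, hwx⟩ := (Subgroup.mem_smul_pointwise_iff_exists x _ P).mp (hRg hx)
      rw [← hwx]
      have : MulAut.conj g⁻¹ • (MulAut.conj g • w) = w := by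
        rw [← mul_smul, ← map_mul]; simp
      rw [this]; exact hw
    have h3 : MulAut.conj g⁻¹ • R ≠ ⊥ := by
      intro h
      apply hR
      rw [eq_bot_iff]
      intro x hx
      have h3 : MulAut.conj g⁻¹ • x ∈ MulAut.conj g⁻¹ • R := Subgroup.smul_mem_pointwise_smul x _ R hx
      rw [h, Subgroup.mem_bot] at h3
      rw [Subgroup.mem_bot]
      have : MulAut.conj g⁻¹ • x = g⁻¹ * x * g⁻¹⁻¹ := rfl
      rw [this, conj_eq_one_iff] at h3
      exact h3
    have h4 := hcont _ h2 h3
    -- conj g • Z ≤ R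
    have h5 : MulAut.conj g • Z ≤ R := by
      intro y hy
      obtain ⟨x, hx, rfl⟩ := (Subgroup.mem_smul_pointwise_iff_exists y _ Z).mp hy
      obtain ⟨w, hw, hwx⟩ := (Subgroup.mem_smul_pointwise_iff_exists x _ R).mp (h4 hx)
      rw [← hwx]
      have : MulAut.conj g • (MulAut.conj g⁻¹ • w) = w := by
        rw [← mul_smul, ← map_mul]; simp
      rw [this]; exact hw
    -- conj g • Z ≤ R ≤ P of order p, nontrivial, so contains Z
    apply hcont _ (h5.trans hRP)
    intro h
    have : Nat.card (MulAut.conj g • Z : Subgroup G) = p := by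
      rw [← hZcard]; exact (Nat.card_congr (Subgroup.equivSMul (MulAut.conj g) Z).toEquiv).symm
    rw [h, Subgroup.card_bot] at this
    exact hp.one_lt.ne this
  constructor
  · intro x hx
    by_contra h
    exact hx (key _ x h inf_le_left inf_le_right)
  · intro Q hQ hQ1 g hg
    refine key Q g hQ1 hQ ?_
    intro x hx
    have h1 : g⁻¹ * x * g ∈ Q := by
      have h2 := (Subgroup.mem_normalizer_iff.mp (inv_mem hg) x).mp hx
      simpa using h2
    have h2 : x = MulAut.conj g • (g⁻¹ * x * g) := by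
      show x = g * (g⁻¹ * x * g) * g⁻¹
      group
    rw [h2]
    exact Subgroup.smul_mem_pointwise_smul _ _ P (hQ h1)

end Cfsg.Agent.S4636
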