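import Cfsg.Statements.S4647
import Cfsg.Agent.H27.StarF
import Cfsg.Agent.H27.CentralChar

set_option autoImplicit false
open Cfsg

namespace Cfsg.Agent.S4647

open Cfsg.Agent.H11 Cfsg.Agent.H26 Cfsg.Agent.H27.Star Cfsg.Agent.H3 Cfsg.Agent.H27

/-- Let B be a block of the finite group G relative to a maximal ideal M of the algebraic integers containing the prime p, p^a the p-part of the order of G and p^d the order of a defect group D of B. If Σ_{χ ∈ B} χ(1)² = p^(2a−d) (the least possible value), then B is nilpotent. -/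
theorem result {G : Type*} [Group G] [Finite G] (p : ℕ) [Fact p.Prime] (M : Ideal Cfsg.AlgInt) (hM : Cfsg.IsPModular p M) (B : Set (Cfsg.IrrCharacter G)) (hB : Cfsg.IsPBlock M B) (D : Subgroup G) (hD : Cfsg.IsDefectGroup p M B D) (a d : ℕ) (ha : (Nat.card G).factorization p = a) (hd : Nat.card D = p ^ d) (hmin : ∑ᶠ χ ∈ B, Cfsg.charDegree (χ : G → ℂ) ^ 2 = p ^ (2 * a - d)) : Cfsg.IsNilpotentBlock p M B := by
  classical
  have hM' : M.IsPrime := hM.2.1.isPrime
  have : CharP (KF M) p := charP_KF hM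
  let _ : Fintype G := Fintype.ofFinite G
  have hDef := (isDefectGroup_iff_EG hB).mp hD
  refine ⟨hB, ?_⟩
  intro Q e hQe x hx _ hreg
  have hin := (isBrauerPairOf_iff_inB.mp hQe).2.2
  refine nil_of_sum_sq hM hB hDef ha hd ?_ Q hin.2.1.1 hin.br_ne_zero hx hreg
  have h0 : (Nat.card G : ℂ) ≠ 0 := card_ne_zeroC
  unfold blockCoeff
  rw [mul_inv_cancel_left₀ h0]
  have h1 : ((∑ᶠ χ ∈ B, Cfsg.charDegree (χ : G → ℂ) ^ 2 : ℕ) : ℂ) = (p : ℂ) ^ (2 * a - d) := by
    rw [hmin]; push_cast; rfl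
  rw [← h1]
  have := Fintype.ofFinite (IrrCharacter G)
  rw [finsum_mem_irr, finsum_mem_irr, Nat.cast_sum]
  apply Finset.sum_congr rfl
  intro χ _
  rw [← charDegree_cast (irr_isChar χ.2), Complex.conj_natCast]
  push_cast
  ring

end Cfsg.Agent.S4647
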