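import Cfsg.Statements.S4649
import Cfsg.Agent.H27.Md15
import Cfsg.Agent.H26.Nil3

set_option autoImplicit false
open Cfsg

namespace Cfsg.Agent.S4649

open Module Cfsg.Agent.H11 Cfsg.Agent.H26 Cfsg.Agent.H27.Md

/-- A block with cyclic defect group, of a finite group relative to a maximal ideal M of the algebraic integers containing the prime p, is nilpotent if and only if its p-regular rank is 1 (it has a unique irreducible Brauer character). -/
theorem result {G : Type*} [Group G] [Finite G] (p : ℕ) [Fact p.Prime] (M : Ideal Cfsg.AlgInt) (hM : Cfsg.IsPModular p M) (B : Set (Cfsg.IrrCharacter G)) (hB : Cfsg.IsPBlock M B) (P : Subgroup G) (hPD : Cfsg.IsDefectGroup p M B P) (hcyc : IsCyclic P) : Cfsg.IsNilpotentBlock p M B ↔ Cfsg.blockRank p B = 1 := by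

  classical
  haveI := Fintype.ofFinite G
  have hpr : M.IsPrime := hM.2.1.isPrime
  constructor
  · intro hnil
    have hab : ∀ x ∈ P, ∀ y ∈ P, x * y = y * x := by
      intro x hx y hy
      obtain ⟨g, hg⟩ := hcyc.exists_generator
      obtain ⟨i, hi⟩ := Subgroup.mem_zpowers_iff.mp (hg ⟨x, hx⟩)
      obtain ⟨j, hj⟩ := Subgroup.mem_zpowers_iff.mp (hg ⟨y, hy⟩)
      have h := (Commute.refl g).zpow_zpow i j
      rw [hi, hj] at h
      exact congrArg Subtype.val h.eq
    exact (nilpotent_abelian p M hM hnil hPD hab).2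
  · intro hl
    exact cyclic_nil hM hB P hPD hl hcyc

end Cfsg.Agent.S4649
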