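import Cfsg.Statements.S4655
import Cfsg.Agent.H26.Dict4

set_option autoImplicit false
open Cfsg

namespace Cfsg.Agent.S4655

/-- Fix a prime p and a maximal ideal M of the algebraic integers containing p. Let (P, e) be a Brauer pair of the finite group G (P a p-subgroup, e a p-block of C_G(P)) and Q a subgroup of P. Then there is exactly one p-block f of C_G(Q) such that the Brauer pair (Q, f) lies below (P, e). -/
theorem result {G : Type*} [Group G] [Fintype G] (p : ℕ) [Fact p.Prime] (M : Ideal Cfsg.AlgInt) (hM : Cfsg.IsPModular p M) (P Q : Subgroup G) (e : Set (Cfsg.IrrCharacter (Subgroup.centralizer (P : Set G)))) (hPe : Cfsg.IsBrauerPair p M P e) (hQP : Q ≤ P) : ∃! f : Set (Cfsg.IrrCharacter (Subgroup.centralizer (Q : Set G))), Cfsg.IsPBlock M f ∧ Cfsg.SubpairLE p M Q f P e := by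
  classical
  haveI := Cfsg.Agent.H11.pmod_isPrime hM
  haveI := Cfsg.Agent.H26.charP_KF hM
  have he : Cfsg.Agent.H26.IsBrP p P (Cfsg.Agent.H26.EH M (Cfsg.Agent.H26.cz P) e) :=
    ⟨hPe.1, Cfsg.Agent.H26.isBlk_EH hPe.2⟩
  obtain ⟨f, hf, huniq⟩ := Cfsg.Agent.H26.existsUnique_ple he Q hQP
  obtain ⟨f', hf', rfl⟩ := Cfsg.Agent.H26.exists_EH (M := M) (hf.isBrP_left he).2
  refine ⟨f', ⟨hf', (Cfsg.Agent.H26.subpairLE_iff hf' hPe.2).mpr hf⟩, ?_⟩
  rintro g ⟨hg, hle⟩
  exact Cfsg.Agent.H26.EH_injective hg hf' (huniq _ ((Cfsg.Agent.H26.subpairLE_iff hg hPe.2).mp hle))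

end Cfsg.Agent.S4655
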