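import Cfsg.Statements.S4657
import Cfsg.Agent.H26.Dict5

set_option autoImplicit false
open Cfsg

namespace Cfsg.Agent.S4657

/-- Fix a prime p and a maximal ideal M of the algebraic integers containing p. Every Brauer pair (P, e) of the finite group G is a Brauer pair of exactly one p-block B of G. -/
theorem result {G : Type*} [Group G] [Fintype G] (p : ℕ) [Fact p.Prime] (M : Ideal Cfsg.AlgInt) (hM : Cfsg.IsPModular p M) (P : Subgroup G) (e : Set (Cfsg.IrrCharacter (Subgroup.centralizer (P : Set G)))) (hPe : Cfsg.IsBrauerPair p M P e) : ∃! B : Set (Cfsg.IrrCharacter G), Cfsg.IsBrauerPairOf p M B P e := by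
  classical
  have := Cfsg.Agent.H11.pmod_isPrime hM
  have := Cfsg.Agent.H26.charP_KF hM
  have he : Cfsg.Agent.H26.IsBrP p P (Cfsg.Agent.H26.EH M (Cfsg.Agent.H26.cz P) e) :=
    ⟨hPe.1, Cfsg.Agent.H26.isBlk_EH hPe.2⟩
  obtain ⟨E, hE, hu⟩ := Cfsg.Agent.H26.existsUnique_inB he
  obtain ⟨B, hB, rfl⟩ := Cfsg.Agent.H26.exists_EG (M := M) hE.1
  refine ⟨B, Cfsg.Agent.H26.isBrauerPairOf_iff_inB.mpr ⟨hB, hPe.2, hE⟩, ?_⟩
  intro B' hB'
  have hB'' := Cfsg.Agent.H26.isBrauerPairOf_iff_inB.mp hB'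
  exact Cfsg.Agent.H26.EG_injective hB''.1 hB (hu _ hB''.2.2)

end Cfsg.Agent.S4657
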