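import Cfsg.Statements.S4664
import Cfsg.Agent.H11.Weak
import Cfsg.Agent.H27.Galois

set_option autoImplicit false
open Cfsg

namespace Cfsg.Agent.S4664

/-- Fix a prime p and a maximal ideal M of the algebraic integers containing p, and let B be a p-block of the finite group G. Let m be the p'-part of the order of G and η = exp(2πi/m). Then every coefficient of the idempotent of B lies in the cyclotomic field ℚ(η). -/
theorem result {G : Type*} [Group G] [Fintype G] (p : ℕ) [Fact p.Prime] (M : Ideal Cfsg.AlgInt) (hM : Cfsg.IsPModular p M) (B : Set (Cfsg.IrrCharacter G)) (hB : Cfsg.IsPBlock M B) (g : G) : Cfsg.blockCoeff B g ∈ IntermediateField.adjoin ℚ ({Complex.exp (2 * Real.pi * Complex.I / ((Nat.card G / p ^ (Nat.card G).factorization p : ℕ) : ℂ))} : Set ℂ) := by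
  classical
  have hp : p.Prime := Fact.out
  by_cases hg : p ∣ orderOf g
  · rw [Cfsg.Agent.H11.blockCoeff_eq_zero hM hB g hg]
    exact zero_mem _
  set m := Nat.card G / p ^ (Nat.card G).factorization p with hm
  have hm0 : m ≠ 0 := by
    have h1 : 0 < m := Nat.div_pos (Nat.le_of_dvd Nat.card_pos (Nat.ordProj_dvd _ _))
      (pow_pos hp.pos _)
    exact h1.ne'
  set η := Complex.exp (2 * Real.pi * Complex.I / ((m : ℕ) : ℂ)) with hη
  have hprim : IsPrimitiveRoot η m := Complex.isPrimitiveRoot_exp m hm0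
  set K := IntermediateField.adjoin ℚ ({η} : Set ℂ) with hK
  have hηK : η ∈ K := IntermediateField.mem_adjoin_simple_self ℚ η
  have hroot : ∀ ζ : ℂ, ζ ^ m = 1 → ζ ∈ K := by
    intro ζ hζ
    haveI : NeZero m := ⟨hm0⟩
    obtain ⟨i, _, hi⟩ := hprim.eq_pow_of_pow_eq_one hζ
    rw [← hi]
    exact pow_mem hηK i
  have hordm : ∀ y : G, ¬ p ∣ orderOf y → y ^ m = 1 := by
    intro y hy
    apply orderOf_dvd_iff_pow_eq_one.mp
    have h1 : orderOf y ∣ p ^ (Nat.card G).factorization p * m := by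
      rw [hm, Nat.ordProj_mul_ordCompl_eq_self]
      exact orderOf_dvd_natCard y
    exact (Nat.Coprime.pow_right _ ((Nat.Prime.coprime_iff_not_dvd hp).mpr hy).symm).dvd_of_dvd_mul_left h1
  have hchar : ∀ (χ : G → ℂ), IsCharacter G χ → ∀ y : G, ¬ p ∣ orderOf y → χ y ∈ K := by
    intro χ hχ y hy
    obtain ⟨n, ρ, rfl⟩ := hχ
    obtain ⟨μ, hμ, h⟩ := Cfsg.Agent.H27.exists_char_powerSum ρ y m hm0 (hordm y hy)
    have h1 := h 1
    simp only [pow_one] at h1
    rw [h1]
    exact sum_mem fun i _ => hroot _ (hμ i)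
  haveI := Fintype.ofFinite (IrrCharacter G)
  unfold blockCoeff
  rw [finsum_mem_eq_finite_toFinset_sum _ (Set.toFinite B)]
  apply mul_mem
  · exact inv_mem (natCast_mem K _)
  · refine sum_mem fun χ _ => mul_mem ?_ ?_
    · have : ¬ p ∣ orderOf (1 : G) := by
        rw [orderOf_one]; exact hp.one_lt.ne' ∘ Nat.dvd_one.mp
      exact hchar _ (Cfsg.Agent.H3.irr_isChar χ.2) 1 this
    · rw [← Cfsg.Agent.H3.char_inv (Cfsg.Agent.H3.irr_isChar χ.2)]
      exact hchar _ (Cfsg.Agent.H3.irr_isChar χ.2) _ (by rwa [orderOf_inv])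

end Cfsg.Agent.S4664
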