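import Cfsg.Statements.S4689
import Cfsg.Agent.H27.NilB

set_option autoImplicit false
open Cfsg

namespace Cfsg.Agent.S4689

open Cfsg MonoidAlgebra Cfsg.Agent.H3 Cfsg.Agent.H11 Cfsg.Agent.H26 Cfsg.Agent.H27 Finset

/-- Fix a prime p and a maximal ideal M of the algebraic integers containing p, and a nilpotent p-block B of the finite group G. Then B has p-regular rank one (a single irreducible Brauer character), and some χ₀ ∈ B restricts to that Brauer character: every χ ∈ B agrees on the p-regular elements with a natural-number multiple of χ₀. -/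
theorem result {G : Type*} [Group G] [Fintype G] (p : ℕ) [Fact p.Prime] (M : Ideal Cfsg.AlgInt) (hM : Cfsg.IsPModular p M) (B : Set (Cfsg.IrrCharacter G)) (hnil : Cfsg.IsNilpotentBlock p M B) : Cfsg.blockRank p B = 1 ∧ ∃ χ₀ ∈ B, ∀ χ ∈ B, ∃ d : ℕ, ∀ x : G, Cfsg.pRegularPart p (χ : G → ℂ) x = (d : ℂ) * Cfsg.pRegularPart p (χ₀ : G → ℂ) x := by

  have hpr : M.IsPrime := hM.2.1.isPrime
  have : CharP (KF M) p := charP_KF hM
  have hnil' := isNilpotentBlock_iff.mp hnil
  have hB := hnil'.1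
  obtain ⟨χ₀, hχ₀, h0⟩ := exists_height_zero (p := p) hM hB
  obtain ⟨D, hD⟩ := (isBlk_EG hB).exists_isDef (p := p)
  obtain ⟨e, he⟩ := hD.exists_inB (isBlk_EG hB)
  have hm := he.maxB_of_isDef hD
  have key : ∀ χ ∈ B, ∃ d : ℕ, ∀ x : G, Cfsg.pRegularPart p (χ : G → ℂ) x =
      (d : ℂ) * Cfsg.pRegularPart p (χ₀ : G → ℂ) x := by
    intro χ hχ
    obtain ⟨ζ, hζ⟩ := nil_surj hM hB hm hnil'.2 hχ₀ h0 hχ
    obtain ⟨d, hd⟩ := char_one_eq_nat (irr_isChar ζ.2)
    refine ⟨d, ?_⟩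
    intro x
    by_cases hx : p ∣ orderOf x
    · rw [pr_sing hx, pr_sing hx, mul_zero]
    · rw [pr_reg hx, pr_reg hx, hζ, nil_reg hM hB hm hnil'.2 hχ₀ ζ.2 hx, hd]
  refine ⟨?_, χ₀, hχ₀, key⟩
  apply le_antisymm
  · unfold blockRank
    have hle : Submodule.span ℂ ((fun χ : IrrCharacter G => pRegularPart p (χ : G → ℂ)) '' B) ≤
        Submodule.span ℂ {pRegularPart p (χ₀ : G → ℂ)} := by
      rw [Submodule.span_le]
      rintro _ ⟨χ, hχ, rfl⟩
      obtain ⟨d, hd⟩ := key χ hχ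
      rw [SetLike.mem_coe, Submodule.mem_span_singleton]
      exact ⟨(d : ℂ), by funext x; exact (hd x).symm⟩
    refine (Submodule.finrank_mono hle).trans ?_
    refine (finrank_span_le_card ({pRegularPart p (χ₀ : G → ℂ)} : Set (G → ℂ))).trans ?_
    simp
  · exact blockRank_pos hM hB

end Cfsg.Agent.S4689
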