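import Cfsg.Statements.S4690
import Cfsg.Agent.H27.NilB

set_option autoImplicit false
open Cfsg

namespace Cfsg.Agent.S4690

open Cfsg MonoidAlgebra Cfsg.Agent.H3 Cfsg.Agent.H11 Cfsg.Agent.H26 Cfsg.Agent.H27 Finset

/-- Fix a prime p and a maximal ideal M of the algebraic integers containing p, and a nilpotent p-block B of the finite group G with defect group P. Then there is a bijection from B onto the irreducible characters of P carrying the height of each χ ∈ B to the exponent of p in the degree of its image. -/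
theorem result {G : Type*} [Group G] [Fintype G] (p : ℕ) [Fact p.Prime] (M : Ideal Cfsg.AlgInt) (hM : Cfsg.IsPModular p M) (B : Set (Cfsg.IrrCharacter G)) (hnil : Cfsg.IsNilpotentBlock p M B) (P : Subgroup G) (hP : Cfsg.IsDefectGroup p M B P) : ∃ Φ : B ≃ Cfsg.IrrCharacter P, ∀ χ : B, Cfsg.blockHeight p B ((χ : Cfsg.IrrCharacter G) : G → ℂ) = (Cfsg.charDegree ((Φ χ : Cfsg.IrrCharacter P) : P → ℂ)).factorization p := by

  classical
  have hpr : M.IsPrime := hM.2.1.isPrime
  have : CharP (KF M) p := charP_KF hM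
  have hfP := Fintype.ofFinite P
  have hnil' := isNilpotentBlock_iff.mp hnil
  have hB := hnil'.1
  obtain ⟨χ₀, hχ₀, h0⟩ := exists_height_zero (p := p) hM hB
  have hD := (isDefectGroup_iff_EG hB).mp hP
  obtain ⟨e, he⟩ := hD.exists_inB (isBlk_EG hB)
  have hm := he.maxB_of_isDef hD
  choose T hTB hT using nil_tw hM hB hm hnil'.2 hχ₀ h0
  have hbij : Function.Bijective (fun ζ : IrrCharacter P => (⟨T ζ, hTB ζ⟩ : B)) := by
    constructor
    · intro ζ ζ' h
      have h' : T ζ = T ζ' := congrArg Subtype.val h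
      by_contra hne
      have h7 := nil_inner hM hB hm hnil'.2 hχ₀ h0 ζ.2 ζ'.2
      rw [← hT, ← hT, h', classInner_self_of_irr (T ζ').2,
        classInner_of_irr_ne ζ.2 ζ'.2 (fun h => hne (Subtype.ext h))] at h7
      exact one_ne_zero h7
    · intro ψ
      obtain ⟨ζ, hζ⟩ := nil_surj hM hB hm hnil'.2 hχ₀ h0 ψ.2
      refine ⟨ζ, Subtype.ext (Subtype.ext ?_)⟩
      change (T ζ : G → ℂ) = ((ψ : IrrCharacter G) : G → ℂ)
      rw [hT, hζ]
  have hone : ¬ p ∣ orderOf (1 : G) := one_reg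
  have hdeg : ∀ ζ : IrrCharacter P, charDegree ((T ζ : IrrCharacter G) : G → ℂ) =
      charDegree (ζ : P → ℂ) * charDegree (χ₀ : G → ℂ) := by
    intro ζ
    have h1 : ((T ζ : IrrCharacter G) : G → ℂ) 1 = (ζ : P → ℂ) 1 * (χ₀ : G → ℂ) 1 := by
      rw [hT]
      exact nil_reg hM hB hm hnil'.2 hχ₀ ζ.2 hone
    have h2 := charDegree_cast (irr_isChar (T ζ).2)
    have h3 := charDegree_cast (irr_isChar ζ.2)
    have h4 := charDegree_cast (irr_isChar χ₀.2)
    rw [← h2, ← h3, ← h4] at h1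
    exact_mod_cast h1
  refine ⟨(Equiv.ofBijective _ hbij).symm, ?_⟩
  intro χ
  obtain ⟨ζ, rfl⟩ := hbij.2 χ
  have h1 : (Equiv.ofBijective _ hbij).symm (⟨T ζ, hTB ζ⟩ : B) = ζ :=
    (Equiv.ofBijective _ hbij).symm_apply_apply ζ
  rw [h1]
  change blockHeight p B ((T ζ : IrrCharacter G) : G → ℂ) = _
  unfold blockHeight at h0 ⊢
  rw [hdeg, Nat.factorization_mul (charDegree_pos ζ.2).ne' (charDegree_pos χ₀.2).ne']
  have h2 : sInf ((fun ψ : IrrCharacter G => (charDegree (ψ : G → ℂ)).factorization p) '' B) ≤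
      (charDegree (χ₀ : G → ℂ)).factorization p := Nat.sInf_le ⟨χ₀, hχ₀, rfl⟩
  rw [Finsupp.add_apply]
  omega

end Cfsg.Agent.S4690
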