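import Cfsg.Statements.S4702
import Cfsg.Agent.H20.Zass3
import Cfsg.Agent.H20.ZPsl7
import Cfsg.Agent.H22.SL2Act
import Cfsg.Agent.S0250

set_option autoImplicit false
open Cfsg

namespace Cfsg.Agent.S4702

open MulAction Subgroup
open Cfsg.Agent

theorem exists3 {Γ β : Type*} [Group Γ] [MulAction Γ β] (h3 : IsMultiplyPretransitive Γ β 3) {a b c a' b' c' : β}
    (hab : a ≠ b) (hbc : b ≠ c) (hac : a ≠ c) (hab' : a' ≠ b') (hbc' : b' ≠ c') (hac' : a' ≠ c') :
    ∃ g : Γ, g • a = a' ∧ g • b = b' ∧ g • c = c' := by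
  have inj : ∀ {x y z : β}, x ≠ y → y ≠ z → x ≠ z → Function.Injective ![x, y, z] := by
    intro x y z h1 h2 h3 i j hij
    fin_cases i <;> fin_cases j <;> simp_all
  have h := isMultiplyPretransitive_iff.mp h3 ⟨![a, b, c], inj hab hbc hac⟩ ⟨![a', b', c'], inj hab' hbc' hac'⟩
  obtain ⟨g, hg⟩ := h
  refine ⟨g, ?_, ?_, ?_⟩
  · exact congrArg (fun f : Fin 3 ↪ β => f 0) hg
  · exact congrArg (fun f : Fin 3 ↪ β => f 1) hg
  · exact congrArg (fun f : Fin 3 ↪ β => f 2) hg

theorem exists_fourth {β : Type*} [Fintype β] [DecidableEq β] (h : 4 ≤ Fintype.card β) (a b c : β) : ∃ d, d ≠ a ∧ d ≠ b ∧ d ≠ c := by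
  by_contra hcon
  push Not at hcon
  have h1 : (Finset.univ : Finset β) ⊆ {a, b, c} := by
    intro d _
    rw [Finset.mem_insert, Finset.mem_insert, Finset.mem_singleton]
    by_cases h1 : d = a
    · exact Or.inl h1
    · by_cases h2 : d = b
      · exact Or.inr (Or.inl h2)
      · exact Or.inr (Or.inr (hcon d h1 h2))
  have h2 := Finset.card_le_card h1
  rw [Finset.card_univ] at h2
  have h3 : ({a, b, c} : Finset β).card ≤ 3 := Finset.card_le_three
  omega

theorem fixed3 {α : Type*} [Fintype α] {G : Subgroup (Equiv.Perm α)}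
    (hfix : ∀ g : G, 3 ≤ Nat.card (MulAction.fixedBy α g) → g = 1) (g : G) (a b c : α) (hab : a ≠ b) (hbc : b ≠ c)
    (hac : a ≠ c) (ha : g • a = a) (hb : g • b = b) (hc : g • c = c) : g = 1 := by
  classical
  apply hfix
  have h1 : (({a, b, c} : Finset α) : Set α) ⊆ MulAction.fixedBy α g := by
    intro x hx
    simp only [Finset.coe_insert, Finset.coe_singleton, Set.mem_insert_iff, Set.mem_singleton_iff] at hx
    rw [mem_fixedBy]
    rcases hx with rfl | rfl | rfl
    · exact ha
    · exact hb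
    · exact hc
  have h2 : ({a, b, c} : Finset α).card = 3 := Finset.card_eq_three.mpr ⟨a, b, c, hab, hac, hbc, rfl⟩
  have h3 := Set.ncard_le_ncard h1 (Set.toFinite _)
  rw [Set.ncard_coe_finset, h2] at h3
  rwa [Nat.card_coe_set_eq]

theorem isZ {α : Type*} [Fintype α] [DecidableEq α] (hm : 5 ≤ Fintype.card α) (hodd : Odd (Fintype.card α))
    (G : Subgroup (Equiv.Perm α)) (h3 : MulAction.IsMultiplyPretransitive G α 3)
    (hfix : ∀ g : G, 3 ≤ Nat.card (MulAction.fixedBy α g) → g = 1) : Cfsg.IsZassenhausGroup G α := by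
  obtain ⟨a0⟩ : Nonempty α := Fintype.card_pos_iff.mp (by omega)
  refine ⟨inferInstance, isMultiplyPretransitive_of_le (n := 3) (by omega) (by rw [Nat.card_eq_fintype_card]; omega), ?_, ?_, ?_⟩
  · intro g a b c hab hbc hac ha hb hc
    exact fixed3 hfix g a b c hab hbc hac ha hb hc
  · obtain ⟨b, hb, _, _⟩ := exists_fourth (by omega) a0 a0 a0
    obtain ⟨c, hc1, hc2, _⟩ := exists_fourth (by omega) a0 b b
    obtain ⟨d, hd1, hd2, hd3⟩ := exists_fourth (by omega) a0 b c
    obtain ⟨g, hg1, hg2, hg3⟩ := exists3 h3 hb.symm hc2.symm hc1.symm hb.symm hd2.symm hd1.symm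
    refine ⟨g, ?_, a0, b, hb.symm, hg1, hg2⟩
    rintro rfl
    rw [one_smul] at hg3
    exact hd3 hg3.symm
  · intro N hN hNt
    by_contra hcon
    push Not at hcon
    have hst : ∀ (x : G) (_ : x ∈ N) (a : α), x • a = a → x = 1 := by
      intro x hx a hxa
      have h1 : (⟨x, hx⟩ : N) ∈ stabilizer N a := hxa
      rw [hcon a] at h1
      exact congrArg Subtype.val (mem_bot.mp h1)
    obtain ⟨b, hb, _, _⟩ := exists_fourth (by omega) a0 a0 a0
    obtain ⟨⟨x, hxN⟩, hx⟩ := hNt.exists_smul_eq a0 b
    have hx' : x • a0 = b := hx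
    set c := x⁻¹ • a0 with hc
    have hxc : x • c = a0 := by rw [hc, smul_inv_smul]
    have hca : c ≠ a0 := by
      intro h
      rw [h] at hxc
      exact hb (hx'.symm.trans hxc)
    by_cases hcb : c = b
    · -- an involution
      have h1 : x * x = 1 := by
        apply hst _ (mul_mem hxN hxN) a0
        rw [mul_smul, hx', ← hcb, hxc]
      have hx1 : x ≠ 1 := by
        rintro rfl
        rw [one_smul] at hx'
        exact hb hx'.symm
      have h2 : orderOf x = 2 := orderOf_eq_prime (by rw [pow_two, h1]) hx1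
      have h3' := N.orderOf_dvd_natCard hxN
      rw [h2] at h3'
      have h4 : Nat.card N = Fintype.card α := by
        have h5 := (MulAction.orbitEquivQuotientStabilizer N a0)
        have h6 : Nat.card (orbit N a0) = Nat.card (N ⧸ stabilizer N a0) := Nat.card_congr h5
        rw [hcon a0] at h6
        have h7 : Nat.card (N ⧸ (⊥ : Subgroup N)) = Nat.card N := by
          have := card_eq_card_quotient_mul_card_subgroup (⊥ : Subgroup N)
          rw [card_bot, mul_one] at this
          exact this.symm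
        have h8 : orbit N a0 = Set.univ := orbit_eq_univ N a0
        rw [h7, h8, Nat.card_coe_set_eq, Set.ncard_univ, Nat.card_eq_fintype_card] at h6
        exact h6.symm
      rw [h4] at h3'
      obtain ⟨k, hk⟩ := hodd
      omega
    · obtain ⟨d, hd1, hd2, hd3⟩ := exists_fourth (by omega) a0 b c
      obtain ⟨g, hg1, hg2, hg3⟩ := exists3 h3 hb.symm (Ne.symm hcb) hca.symm hb.symm hd2.symm hd1.symm
      have h1 : g * x * g⁻¹ ∈ N := hN.conj_mem x hxN g
      have h2 : x⁻¹ * (g * x * g⁻¹) = 1 := by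
        apply hst _ (mul_mem (inv_mem hxN) h1) a0
        have h4 : g⁻¹ • a0 = a0 := by rw [inv_smul_eq_iff]; exact hg1.symm
        rw [mul_smul, mul_smul, mul_smul, h4, hx', hg2, ← hx', inv_smul_smul]
      have h4 : g * x = x * g := by
        have := (inv_mul_eq_one.mp h2)
        rw [eq_mul_inv_iff_mul_eq] at this
        exact this.symm
      have h5 : g • c = c := by
        have h6 : x • (g • c) = x • c := by
          rw [← mul_smul, ← h4, mul_smul, hxc, hg1]
        exact smul_left_cancel x h6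
      rw [h5] at hg3
      exact hd3 hg3.symm

/-- Let G be a triply transitive permutation group on a finite set of odd size m ≥ 3 in which only the identity fixes three or more points. Then m = 2^a + 1 for some a ≥ 1 and G is isomorphic to SL(2, 2^a). -/
theorem result {α : Type*} [Fintype α] [DecidableEq α] (hm : 3 ≤ Fintype.card α) (hodd : Odd (Fintype.card α)) (G : Subgroup (Equiv.Perm α)) (h3 : MulAction.IsMultiplyPretransitive G α 3) (hfix : ∀ g : G, 3 ≤ Nat.card (MulAction.fixedBy α g) → g = 1) : ∃ a : ℕ, 1 ≤ a ∧ Fintype.card α = 2 ^ a + 1 ∧ ∃ (F : Type) (_ : Field F) (_ : Fintype F), Fintype.card F = 2 ^ a ∧ Nonempty (G ≃* Matrix.SpecialLinearGroup (Fin 2) F) := by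
  classical
  by_cases h5 : 5 ≤ Fintype.card α
  · -- the Zassenhaus case
    have hZ := isZ h5 hodd G h3 hfix
    have hoddN : Odd (Nat.card α) := by rw [Nat.card_eq_fintype_card]; exact hodd
    haveI := H20.Zass.isSimple_of_odd hZ hoddN
    rcases H20.Zass.simple_classification hZ with ⟨F, i1, i2, hF, ⟨e⟩⟩ | ⟨a, hK2, u, v, huv⟩
    · rw [Nat.card_eq_fintype_card] at hF
      obtain ⟨r, hr⟩ := CharP.exists F
      haveI := hr
      haveI : Fact r.Prime := ⟨CharP.char_is_prime F r⟩
      obtain ⟨n, hrp, hn⟩ := FiniteField.card F r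
      have hr2 : r = 2 := by
        have h6 : 2 ∣ r ^ (n : ℕ) := by
          rw [← hn]
          obtain ⟨k, hk⟩ := hodd
          omega
        exact ((Nat.prime_dvd_prime_iff_eq Nat.prime_two hrp).mp (Nat.prime_two.dvd_of_dvd_pow h6)).symm
      subst hr2
      have hc : center (Matrix.SpecialLinearGroup (Fin 2) F) = ⊥ := H22.sl2_center_eq_bot
      refine ⟨n, n.pos, by rw [← hn, hF], F, i1, i2, hn, ⟨e.trans ((QuotientGroup.quotientMulEquivOfEq hc).trans QuotientGroup.quotientBot)⟩⟩
    · exfalso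
      -- `K` has exponent two
      have hcK := H20.Zass.card_K hZ a
      haveI : Fact (Nat.Prime 2) := ⟨Nat.prime_two⟩
      have hdvd : 2 ∣ Nat.card (H20.Zass.K hZ a) := by
        rw [Nat.card_eq_fintype_card (α := α)] at hcK
        obtain ⟨k, hk⟩ := hodd
        omega
      obtain ⟨t, ht⟩ := exists_prime_orderOf_dvd_card' 2 hdvd
      have ht1 : (t : G) ≠ 1 := by
        intro h
        have : t = 1 := Subtype.ext h
        rw [this, orderOf_one] at ht
        omega
      have ht2 : (t : G) * t = 1 := by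
        have h6 := pow_orderOf_eq_one t
        rw [ht, pow_two] at h6
        exact congrArg Subtype.val h6
      obtain ⟨b, hb, _, _⟩ := exists_fourth (by omega) a a a
      have hexp : ∀ w : G, w ∈ H20.Zass.K hZ a → w * w = 1 := by
        intro w hw
        by_cases hw1 : w = 1
        · rw [hw1, mul_one]
        have ha : ∀ y ∈ H20.Zass.K hZ a, y • a = a := fun y hy => H20.Zass.K_le hZ a hy
        have hne : ∀ y ∈ H20.Zass.K hZ a, y ≠ 1 → b ≠ y • b ∧ a ≠ y • b := by
          intro y hy hy1
          refine ⟨fun h => hy1 (H20.Zass.K_eq_one hZ hy hb h.symm), fun h => hb ?_⟩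
          have h6 : y • a = y • b := (ha y hy).trans h
          exact (smul_left_cancel y h6).symm
        obtain ⟨t1, t2⟩ := hne t t.2 ht1
        obtain ⟨w1, w2⟩ := hne w hw hw1
        obtain ⟨g, hg1, hg2, hg3⟩ := exists3 h3 hb.symm t1 t2 hb.symm w1 w2
        have h6 : g * t * g⁻¹ = w := by
          apply H20.Zass.K_inj hZ hb (H20.Zass.K_normal_in hZ hg1 t.2) hw
          have h7 : g⁻¹ • b = b := by rw [inv_smul_eq_iff]; exact hg2.symm
          rw [mul_smul, mul_smul, h7]
          exact hg3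
        rw [← h6]
        calc g * t * g⁻¹ * (g * t * g⁻¹) = g * (t * t) * g⁻¹ := by group
          _ = 1 := by rw [ht2]; group
      apply huv
      have e1 := hexp _ (mul_mem u.2 v.2)
      have e2 := hexp _ u.2
      have e3 := hexp _ v.2
      apply Subtype.ext
      change (u : G) * v = v * u
      have i1 : (u : G)⁻¹ = u := inv_eq_of_mul_eq_one_left e2
      have i2 : (v : G)⁻¹ = v := inv_eq_of_mul_eq_one_left e3
      have i3 : ((u : G) * v)⁻¹ = u * v := inv_eq_of_mul_eq_one_left e1
      rw [← i3, mul_inv_rev, i1, i2]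
  · -- degree three
    have hc3 : Fintype.card α = 3 := by
      obtain ⟨k, hk⟩ := hodd
      omega
    have htop : G = ⊤ := by
      rw [eq_top_iff]
      intro σ _
      let x : Fin 3 ≃ α := (Fintype.equivFinOfCardEq hc3).symm
      obtain ⟨g, hg⟩ := isMultiplyPretransitive_iff.mp h3 x.toEmbedding (x.trans σ).toEmbedding
      have h6 : (g : Equiv.Perm α) = σ := by
        ext y
        obtain ⟨i, rfl⟩ := x.surjective y
        exact congrArg (fun f : Fin 3 ↪ α => f i) hg
      rw [← h6]
      exact g.2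
    refine ⟨1, le_rfl, by rw [hc3]; norm_num, ZMod 2, inferInstance, inferInstance, by rw [ZMod.card]; norm_num, ?_⟩
    obtain ⟨e⟩ := S0250.result (F := ZMod 2) (ZMod.card 2)
    have e1 : G ≃* Equiv.Perm α := (MulEquiv.subgroupCongr htop).trans Subgroup.topEquiv
    have e2 : Equiv.Perm α ≃* Equiv.Perm (Fin 3) := (Fintype.equivFinOfCardEq hc3).permCongrHom
    exact ⟨(e1.trans e2).trans e.symm⟩

end Cfsg.Agent.S4702
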