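import Cfsg.Statements.S4706
import Cfsg.Agent.H9.PrTwo
import Cfsg.Agent.S1013
import Cfsg.Agent.S0676
import Cfsg.Agent.H5.Small
import Cfsg.Agent.H22.SL2Act

set_option autoImplicit false
open Cfsg

namespace Cfsg.Agent.S4706

open Subgroup MulAction Cfsg.Agent.H9 in
theorem main {α : Type*} [Fintype α] [DecidableEq α] {p : ℕ} [Fact p.Prime] (hp : 2 < p) (hα : Fintype.card α = p) (G : Subgroup (Equiv.Perm α)) (P : Sylow p G) (hN : Nat.card (Subgroup.normalizer ((P : Subgroup G) : Set G)) = 2 * p)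
    (hPn : ¬ (P : Subgroup G).Normal) : ∃ (a : ℕ) (F : Type) (_ : Field F) (_ : Fintype F), p = 2 ^ a + 1 ∧ Fintype.card F = 2 ^ a ∧ Nonempty (G ≃* Matrix.SpecialLinearGroup (Fin 2) F) := by
  classical
  have hpp : p.Prime := Fact.out
  have hα' : Nat.card α = p := by rw [Nat.card_eq_fintype_card, hα]
  have hpG : p ∣ Nat.card G := by
    refine Dvd.dvd.trans ?_ (card_subgroup_dvd_card (normalizer ((P : Subgroup G) : Set G)))
    rw [hN]; exact ⟨2, by ring⟩
  have hGf : Nat.card G ∣ p.factorial := by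
    have h1 : Nat.card (Equiv.Perm α) = p.factorial := by
      rw [Nat.card_perm, hα']
    rw [← h1]; exact card_subgroup_dvd_card G
  have hG2 : ¬ p ^ 2 ∣ Nat.card G := by
    intro h
    have h2 := h.trans hGf
    obtain ⟨q, rfl⟩ : ∃ q, p = q + 1 := ⟨p - 1, by have := hpp.pos; omega⟩
    rw [Nat.factorial_succ, pow_two] at h2
    have h3 := Nat.dvd_of_mul_dvd_mul_left hpp.pos h2
    rw [hpp.dvd_factorial] at h3
    omega
  have hPc : ∀ Q : Sylow p G, Nat.card (Q : Subgroup G) = p := fun Q => Syl.card_sylow_prime Q hpG hG2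
  have hnG : 2 * p * Nat.card (Sylow p G) = Nat.card G := by
    rw [P.card_eq_index_normalizer, ← hN]
    exact card_mul_index _
  have hp5 : 5 ≤ p := by
    by_contra hlt
    have h3 : p = 3 := by
      have h4 : p ≠ 4 := by rintro rfl; exact absurd hpp (by norm_num)
      omega
    have h1 : Nat.card G ≤ 6 := by
      have := Nat.le_of_dvd (Nat.factorial_pos p) hGf
      rw [h3] at this
      exact this
    have h2 : normalizer ((P : Subgroup G) : Set G) = ⊤ := by
      apply eq_top_of_card_eq
      apply le_antisymm (card_le_card_group _)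
      rw [hN, h3]; exact h1
    exact hPn (normalizer_eq_top_iff.mp h2)
  have hfaith : FaithfulSMul G α := inferInstance
  haveI htr : IsPretransitive G α := by
    obtain ⟨x, hx⟩ := exists_prime_orderOf_dvd_card' (G := G) p hpG
    have hfix := fun a : α => PrTwo.order_p_fix (p := p) hα' hx a
    have ho : ∀ a : α, orbit (zpowers x) a = Set.univ := by
      intro a
      apply PrTwo.eq_univ_of_card
      rw [hα']
      have h1 : Nat.card (orbit (zpowers x) a) * Nat.card (stabilizer (zpowers x) a) = Nat.card (zpowers x) := by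
        rw [← Nat.card_prod]
        exact Nat.card_congr (orbitProdStabilizerEquivGroup (zpowers x) a)
      rw [Nat.card_zpowers, hx] at h1
      rcases (Nat.dvd_prime hpp).mp ⟨_, h1.symm⟩ with h2 | h2
      · exfalso
        obtain ⟨⟨b, hb⟩, hbu⟩ := Nat.card_eq_one_iff_exists.mp h2
        have h3 := hbu ⟨a, mem_orbit_self a⟩
        have h4 := hbu ⟨x • a, ⟨⟨x, mem_zpowers x⟩, rfl⟩⟩
        exact hfix a (congrArg Subtype.val (h4.trans h3.symm))
      · exact h2
    refine ⟨fun a b => ?_⟩
    have hb : b ∈ orbit (zpowers x) a := by rw [ho a]; trivial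
    obtain ⟨g, hg⟩ := hb
    exact ⟨g, hg⟩
  have hn1 : 1 < Nat.card (Sylow p G) := by
    rcases Nat.lt_or_ge 1 (Nat.card (Sylow p G)) with h1 | h1
    · exact h1
    · exfalso
      have h2 : Nat.card (Sylow p G) = 1 := le_antisymm h1 Nat.card_pos
      rw [P.card_eq_index_normalizer, index_eq_one] at h2
      exact hPn (normalizer_eq_top_iff.mp h2)
  haveI hsim : IsSimpleGroup G := by
    refine S1013.main hα' P hn1 ?_
    have h1 := card_mul_index ((P : Subgroup G).subgroupOf (normalizer ((P : Subgroup G) : Set G)))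
    have h0 : Nat.card ((P : Subgroup G).subgroupOf (normalizer ((P : Subgroup G) : Set G))) = p := by
      rw [Nat.card_congr (subgroupOfEquivOfLe le_normalizer).toEquiv, hPc]
    rw [h0, hN, mul_comm 2 p] at h1
    have h2 := Nat.eq_of_mul_eq_mul_left hpp.pos h1
    rw [h2]; exact Nat.prime_two
  have hsol : ¬ Group.IsSolvable G := by
    intro hs
    have h2 : IsMulCommutative G := ⟨⟨fun a b => IsSimpleGroup.comm_iff_isSolvable.mpr hs a b⟩⟩
    apply hPn
    refine ⟨fun n hn g => ?_⟩
    rw [h2.is_comm.comm g n, mul_inv_cancel_right]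
    exact hn
  have hev : Even (Nat.card (normalizer ((P : Subgroup G) : Set G))) := by rw [hN]; exact ⟨p, by ring⟩
  have h3 := S0676.result hα G hsol P hev
  have hS : PrTwo.Setup G α p := ⟨hpp, hp5, hα', hfaith, h3, hPc, hnG⟩
  have hct := hS.ct
  have hncomm : ¬ IsMulCommutative G := by
    intro h2
    apply hPn
    refine ⟨fun n hn g => ?_⟩
    rw [h2.is_comm.comm g n, mul_inv_cancel_right]
    exact hn
  obtain ⟨u, hu⟩ := CT.exists_ev hncomm hct hS.two_dvd
  obtain ⟨F, iF, iFin, f, hf, hF, ⟨e⟩⟩ := hu.psl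
  letI := iF
  letI := iFin
  refine ⟨f, F, iF, iFin, ?_, hF, ?_⟩
  · have h4 := H5.card_PSL2 hF
    have hfpos : 1 ≤ 2 ^ f := Nat.one_le_two_pow
    have hgcd : Nat.gcd 2 (2 ^ f - 1) = 1 := by
      have : Odd (2 ^ f - 1) := Nat.Even.sub_odd hfpos ((Nat.even_pow.mpr ⟨even_two, by omega⟩)) odd_one
      exact Nat.coprime_two_left.mpr this
    rw [hgcd, one_mul, ← Nat.card_congr e.toEquiv] at h4
    have h5 := hS.card_G
    have h6 : ((p : ℤ)) * (p - 1) * (p - 2) = 2 ^ f * ((2 ^ f) ^ 2 - 1) := by
      rw [← h5, h4]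
      rw [Nat.cast_mul, Nat.cast_sub (by nlinarith)]
      push_cast
      ring
    set q : ℤ := 2 ^ f with hq
    have hq1 : 1 ≤ q := by rw [hq]; exact_mod_cast hfpos
    have hp5' : (5 : ℤ) ≤ p := by exact_mod_cast hp5
    have h7 : (p : ℤ) = q + 1 := by
      rcases lt_trichotomy (p : ℤ) (q + 1) with h8 | h8 | h8
      · exfalso
        have h9 : (p : ℤ) ≤ q := by linarith
        have h10 : (p : ℤ) * (p - 1) ≤ q * (q - 1) := by nlinarith
        have h11 : (p : ℤ) * (p - 1) * (p - 2) ≤ q * (q - 1) * (p - 2) := by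
          apply mul_le_mul_of_nonneg_right h10; linarith
        have h12 : q * (q - 1) * (p - 2) < q * (q - 1) * (q + 1) := by
          apply mul_lt_mul_of_pos_left (by linarith)
          apply mul_pos <;> linarith
        nlinarith
      · exact h8
      · exfalso
        have h9 : q + 2 ≤ (p : ℤ) := by linarith
        have h10 : (q + 2) * (q + 1) ≤ (p : ℤ) * (p - 1) := by nlinarith
        have h11 : (q + 2) * (q + 1) * (p - 2) ≤ (p : ℤ) * (p - 1) * (p - 2) := by
          apply mul_le_mul_of_nonneg_right h10; linarith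
        have h12 : (q + 2) * (q + 1) * q ≤ (q + 2) * (q + 1) * (p - 2) := by
          apply mul_le_mul_of_nonneg_left (by linarith)
          apply mul_nonneg <;> linarith
        nlinarith
    have h8 : ((p : ℕ) : ℤ) = ((2 ^ f + 1 : ℕ) : ℤ) := by rw [h7, hq]; push_cast; ring
    exact_mod_cast h8
  · haveI : CharP F 2 := by
      obtain ⟨r, hr⟩ := CharP.exists F
      haveI := hr
      haveI : Fact r.Prime := ⟨CharP.char_is_prime F r⟩
      obtain ⟨n, hrp, hn⟩ := FiniteField.card F r
      rw [hF] at hn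
      have : r ∣ 2 ^ f := by rw [hn]; exact dvd_pow_self r n.ne_zero
      have h9 : r = 2 := (Nat.prime_dvd_prime_iff_eq hrp Nat.prime_two).mp (hrp.dvd_of_dvd_pow this)
      rw [← h9]; exact hr
    have hc : center (Matrix.SpecialLinearGroup (Fin 2) F) = ⊥ := H22.sl2_center_eq_bot
    exact ⟨e.trans ((QuotientGroup.quotientMulEquivOfEq hc).trans QuotientGroup.quotientBot)⟩

/-- Let p > 2 be a prime and G a permutation group on p letters whose Sylow p-subgroup P has normalizer of order 2p. Then either P is normal in G, or p − 1 = 2^a for some a and G is isomorphic to SL(2, 2^a). -/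
theorem result {α : Type*} [Fintype α] [DecidableEq α] {p : ℕ} [Fact p.Prime] (hp : 2 < p) (hα : Fintype.card α = p) (G : Subgroup (Equiv.Perm α)) (P : Sylow p G) (hN : Nat.card (Subgroup.normalizer ((P : Subgroup G) : Set G)) = 2 * p) : (P : Subgroup G).Normal ∨ ∃ (a : ℕ) (F : Type) (_ : Field F) (_ : Fintype F), p = 2 ^ a + 1 ∧ Fintype.card F = 2 ^ a ∧ Nonempty (G ≃* Matrix.SpecialLinearGroup (Fin 2) F) := by
  by_cases hPn : (P : Subgroup G).Normal
  · exact Or.inl hPn
  · exact Or.inr (main hp hα G P hN hPn)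

end Cfsg.Agent.S4706
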