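import Cfsg.Statements.S4709
import Cfsg.Agent.H11.AbM4
-- import your own Cfsg.Agent.* helpers here

set_option autoImplicit false
open Cfsg

namespace Cfsg.Agent.S4709

open Cfsg.Agent.H3 Cfsg.Agent.H11 Cfsg.Agent.H27
open scoped ComplexConjugate

/-- Let p be a prime, M a maximal ideal of the algebraic integers containing p, and G a finite group with a nontrivial abelian Sylow p-subgroup P; put N = N_G(P), C = C_G(P). Suppose N/C is cyclic of order m with 1 < m < #P − 1 (C has index m in N and N is generated by C and one element), and C_G(y) ∩ N = C for every non-identity y ∈ P. Put r = (#P − 1)/m. Then there is s ≤ m such that the principal p-block is the disjoint union of a set X of s characters containing the principal character and a set Y of r characters, with integers a_χ ≠ 0 (χ ∈ X), d and a sign δ = ±1, such that: every χ ∈ X takes the value a_χ at every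 element whose p-part is a non-identity element of P; there is a map ζ from the non-principal linear characters ψ of P onto Y, constant on N-conjugacy classes, with ζ_ψ(z) = d + δ·Σ ψ'(y) for every z whose p-part y is a non-identity element of P, the sum running over the N-conjugates ψ' of ψ; (d − δ)^2 + (r − 1) d^2 + Σ_{χ ∈ X} a_χ^2 = m + 1; all members of Y agree on p-regular elements; and (r d − δ) η(g) + Σ_{χ ∈ X} a_χ χ(g) = 0 for every η ∈ Y and every p-regular g. -/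
theorem result {G : Type*} [Group G] [Finite G] (p : ℕ) [Fact p.Prime] (M : Ideal Cfsg.AlgInt) (hM : Cfsg.IsPModular p M) (P : Sylow p G) (hab : IsMulCommutative P) (hP1 : Nat.card P ≠ 1) (m : ℕ) (hm1 : 1 < m) (hm2 : m + 1 < Nat.card P) (hCN : (Subgroup.centralizer ((P : Subgroup G) : Set G)).relIndex (Subgroup.normalizer ((P : Subgroup G) : Set G)) = m) (hcyc : ∃ g : G, g ∈ Subgroup.normalizer ((P : Subgroup G) : Set G) ∧ Subgroup.centralizer ((P : Subgroup G) : Set G) ⊔ Subgroup.zpowers g = Subgroup.normalizer ((P : Subgroup G) : Set G)) (hfrob : ∀ y : G, y ∈ (P : Subgroup G) → y ≠ 1 → Subgroup.centralizer ({y} : Set G) ⊓ Subgroup.normalizer ((P : Subgroup G) : Set G) = Subgroup.centralizer ((P : Subgroup G) : Set G)) : ∃ (s : ℕ) (X Y : Set (Cfsg.IrrCharacter G)), s ≤ m ∧ Cfsg.principalBlock M G = X ∪ Y ∧ Disjoint X Y ∧ Nat.card X = s ∧ Nat.card Y = (Nat.card P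 - 1) / m ∧ (∃ χ₁ ∈ X, (χ₁ : G → ℂ) = fun _ => 1) ∧ ∃ (a : Cfsg.IrrCharacter G → ℤ) (d δ : ℤ) (ζ : (↥(P : Subgroup G) →* ℂˣ) → Cfsg.IrrCharacter G), (δ = 1 ∨ δ = -1) ∧ (∀ χ ∈ X, a χ ≠ 0 ∧ ∀ z y : G, Cfsg.IsPPart p z y → y ∈ (P : Subgroup G) → y ≠ 1 → (χ : G → ℂ) z = (a χ : ℂ)) ∧ (∀ ψ : ↥(P : Subgroup G) →* ℂˣ, ψ ≠ 1 → ζ ψ ∈ Y) ∧ (∀ η ∈ Y, ∃ ψ : ↥(P : Subgroup G) →* ℂˣ, ψ ≠ 1 ∧ ζ ψ = η) ∧ (∀ ψ ψ' : ↥(P : Subgroup G) →* ℂˣ, ψ ≠ 1 → (∃ n : G, n ∈ Subgroup.normalizer ((P : Subgroup G) : Set G) ∧ ∀ w w' : ↥(P : Subgroup G), (w' : G) = n * w * n⁻¹ → ψ' w' = ψ w) → ζ ψ' = ζ ψ) ∧ (∀ ψ : ↥(P : Subgroup G) →* ℂˣ, ψ ≠ 1 → ∀ (z : G) (y : ↥(P : Subgroup G)), Cfsg.IsPPart p z (y : G) → (y : G) ≠ 1 → (ζ ψ : G → ℂ) z = (d : ℂ) + (δ : ℂ) * ∑ᶠ ψ' ∈ {ψ' : ↥(P : Subgroup G) →* ℂˣ | ∃ n : G, n ∈ Subgroup.normalizer ((P : Subgroup G) : Set G) ∧ ∀ w w' : ↥(P : Subgroup G), (w' : G) = n *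 w * n⁻¹ → ψ' w' = ψ w}, ((ψ' y : ℂˣ) : ℂ)) ∧ ((d - δ) ^ 2 + ((Nat.card P - 1) / m - 1 : ℤ) * d ^ 2 + ∑ᶠ χ ∈ X, a χ ^ 2 = (m : ℤ) + 1) ∧ (∀ η ∈ Y, ∀ η' ∈ Y, ∀ g : G, ¬ p ∣ orderOf g → (η : G → ℂ) g = (η' : G → ℂ) g) ∧ (∀ η ∈ Y, ∀ g : G, ¬ p ∣ orderOf g → ((((Nat.card P - 1) / m : ℕ) : ℂ) * d - δ) * (η : G → ℂ) g + ∑ᶠ χ ∈ X, (a χ : ℂ) * (χ : G → ℂ) g = 0) := by
  classical
  have := Fintype.ofFinite G
  have := Fintype.ofFinite (P : Subgroup G)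
  have := Fintype.ofFinite (IrrCharacter G)
  have hpr := hM.2.1.isPrime
  have habc : ∀ x ∈ (P : Subgroup G), ∀ y ∈ (P : Subgroup G), x * y = y * x := by
    intro x hx y hy
    have h1 := hab.is_comm.comm (⟨x, hx⟩ : P) (⟨y, hy⟩ : P)
    exact congrArg Subtype.val h1
  obtain ⟨g, hg, hgC⟩ := hcyc
  have h : AbM m P g := abM_of hm1 habc hCN hg hgC hfrob
  have hcard : m + 1 < Nat.card (P : Subgroup G) := hm2
  obtain ⟨δ, d, u, z, S⟩ := h.exists_star hM hcard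
  haveI : Finite ((P : Subgroup G) →* ℂˣ) := finite_dual
  have := Fintype.ofFinite ((P : Subgroup G) →* ℂˣ)
  have horb : ∀ ψ ψ' : (P : Subgroup G) →* ℂˣ, (∃ n : G, n ∈ Subgroup.normalizer
      ((P : Subgroup G) : Set G) ∧ ∀ w w' : (P : Subgroup G), (w' : G) = n * w * n⁻¹ →
        ψ' w' = ψ w) ↔ ∃ i : Fin m, ψ = h.tw i ψ' := by
    intro ψ ψ'
    constructor
    · rintro ⟨n, hn, hw⟩
      obtain ⟨x, hx, i, hi⟩ := h.cov n hn
      refine ⟨i, ?_⟩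
      ext y
      rw [AbM.tw_apply, ← hw y (h.rot i y)]
      rw [AbM.rot_coe, hi]
      have h3 := Subgroup.mem_centralizer_iff.mp hx _ (h.rot i y).2
      rw [AbM.rot_coe] at h3
      calc g ^ (i : ℕ) * y * (g ^ (i : ℕ))⁻¹ = (g ^ (i : ℕ) * y * (g ^ (i : ℕ))⁻¹ * x) * x⁻¹ := by
            group
        _ = (x * (g ^ (i : ℕ) * y * (g ^ (i : ℕ))⁻¹)) * x⁻¹ := by rw [h3]
        _ = x * g ^ (i : ℕ) * y * (x * g ^ (i : ℕ))⁻¹ := by group
    · rintro ⟨i, rfl⟩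
      refine ⟨g ^ (i : ℕ), Subgroup.pow_mem _ hg _, ?_⟩
      intro w w' hw
      rw [AbM.tw_apply]
      congr 1
      apply Subtype.ext
      rw [hw, AbM.rot_coe]
  have hYB : ∀ η, (∃ ψ : (P : Subgroup G) →* ℂˣ, ψ ≠ 1 ∧ η = z ψ) → η ∈ principalBlock M G := by
    rintro η ⟨ψ, hψ, rfl⟩
    exact S.hz ψ hψ
  have hcY := AbM.card_Y S
  have hcY' : Nat.card {η | ∃ ψ : (P : Subgroup G) →* ℂˣ, ψ ≠ 1 ∧ η = z ψ} = (Nat.card P - 1) / m := by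
    have h6 : Nat.card P = Nat.card (P : Subgroup G) := rfl
    rw [h6, hcY, Nat.add_sub_cancel, Nat.mul_div_cancel_left _ h.mpos]
  -- finsets
  let XF : Finset (IrrCharacter G) := Finset.univ.filter
    (fun χ => χ ∈ principalBlock M G ∧ ∀ ψ : (P : Subgroup G) →* ℂˣ, ψ ≠ 1 → z ψ ≠ χ)
  let YF : Finset (IrrCharacter G) := Finset.univ.filter
    (fun χ => ∃ ψ : (P : Subgroup G) →* ℂˣ, ψ ≠ 1 ∧ χ = z ψ)
  have hXF : ∀ χ, χ ∈ XF ↔ χ ∈ principalBlock M G ∧ ∀ ψ : (P : Subgroup G) →* ℂˣ, ψ ≠ 1 → z ψ ≠ χ := by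
    intro χ; simp only [XF, Finset.mem_filter, Finset.mem_univ, true_and]
  have hYF : ∀ χ, χ ∈ YF ↔ ∃ ψ : (P : Subgroup G) →* ℂˣ, ψ ≠ 1 ∧ χ = z ψ := by
    intro χ; simp only [YF, Finset.mem_filter, Finset.mem_univ, true_and]
  have hYcard : YF.card = (Nat.card P - 1) / m := by
    rw [← hcY']
    have : {η | ∃ ψ : (P : Subgroup G) →* ℂˣ, ψ ≠ 1 ∧ η = z ψ} = (YF : Set (IrrCharacter G)) := by
      ext η; rw [Finset.mem_coe, hYF]; rfl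
    rw [this, Nat.card_coe_set_eq, Set.ncard_coe_finset]
  have hsplit : Finset.univ.filter (fun χ : IrrCharacter G => χ ∈ principalBlock M G) = XF ∪ YF := by
    ext χ
    rw [Finset.mem_union, hXF, hYF, Finset.mem_filter]
    constructor
    · rintro ⟨_, hχ⟩
      by_cases hc : ∃ ψ : (P : Subgroup G) →* ℂˣ, ψ ≠ 1 ∧ χ = z ψ
      · exact Or.inr hc
      · left
        refine ⟨hχ, fun ψ hψ he => hc ⟨ψ, hψ, he.symm⟩⟩
    · rintro (⟨hχ, _⟩ | hY)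
      · exact ⟨Finset.mem_univ _, hχ⟩
      · exact ⟨Finset.mem_univ _, hYB χ hY⟩
  have hdisj : Disjoint XF YF := by
    rw [Finset.disjoint_left]
    intro χ h1 h2
    obtain ⟨ψ, hψ, rfl⟩ := (hYF χ).mp h2
    exact ((hXF _).mp h1).2 ψ hψ rfl
  have hYpos : ∃ ψ : (P : Subgroup G) →* ℂˣ, ψ ≠ 1 := by
    by_contra hcon
    push Not at hcon
    have h1 : Nat.card ((P : Subgroup G) →* ℂˣ) ≤ 1 := by
      rw [Finite.card_le_one_iff_subsingleton]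
      exact ⟨fun x y => by rw [hcon x, hcon y]⟩
    rw [card_dual h.P_comm] at h1
    omega
  obtain ⟨ψ0, hψ0⟩ := hYpos
  -- norm relation
  have hnorm : (d - δ) ^ 2 + ((YF.card : ℤ) - 1) * d ^ 2 + ∑ χ ∈ XF, u χ ^ 2 = m + 1 := by
    have h1 := h.W_inner_self hM hψ0
    rw [hsplit, Finset.sum_union hdisj] at h1
    have h2 : ∑ χ ∈ XF, AbM.W P ψ0 χ * AbM.W P ψ0 χ = ∑ χ ∈ XF, u χ ^ 2 := by
      apply Finset.sum_congr rfl
      intro χ hχ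
      obtain ⟨h3, h4⟩ := (hXF χ).mp hχ
      rw [S.hW ψ0 hψ0 χ h3, if_neg (fun he => h4 ψ0 hψ0 he.symm)]
      ring
    have h3 : ∑ χ ∈ YF, AbM.W P ψ0 χ * AbM.W P ψ0 χ = (d - δ) ^ 2 + ((YF.card : ℤ) - 1) * d ^ 2 := by
      have h4 : ∀ χ ∈ YF, AbM.W P ψ0 χ * AbM.W P ψ0 χ = d ^ 2 + (if χ = z ψ0 then (d - δ) ^ 2 - d ^ 2 else 0) := by
        intro χ hχ
        obtain ⟨ψ, hψ, rfl⟩ := (hYF χ).mp hχ
        rw [S.hW ψ0 hψ0 _ (S.hz ψ hψ), S.hd ψ hψ]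
        split_ifs <;> ring
      rw [Finset.sum_congr rfl h4, Finset.sum_add_distrib, Finset.sum_const, Finset.sum_ite_eq',
        if_pos ((hYF _).mpr ⟨ψ0, hψ0, rfl⟩), nsmul_eq_mul]
      ring
    rw [h2, h3] at h1
    linarith
  -- regular elements
  have hreg : ∀ ψ : (P : Subgroup G) →* ℂˣ, ψ ≠ 1 → ∀ x : G, ¬ p ∣ orderOf x →
      ∑ χ : IrrCharacter G with χ ∈ principalBlock M G, (u χ : ℂ) * (χ : G → ℂ) x =
        δ * (z ψ : G → ℂ) x := by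
    intro ψ hψ x hx
    have h1 := AbM.W_reg hM P ψ hx
    have h2 : ∑ χ : IrrCharacter G with χ ∈ principalBlock M G, (AbM.W P ψ χ : ℂ) * (χ : G → ℂ) x =
        ∑ χ : IrrCharacter G with χ ∈ principalBlock M G, (u χ : ℂ) * (χ : G → ℂ) x -
          δ * (z ψ : G → ℂ) x := by
      have h3 : ∀ χ ∈ Finset.univ.filter (fun χ : IrrCharacter G => χ ∈ principalBlock M G),
          (AbM.W P ψ χ : ℂ) * (χ : G → ℂ) x = (u χ : ℂ) * (χ : G → ℂ) x -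
            (if χ = z ψ then (δ : ℂ) * (χ : G → ℂ) x else 0) := by
        intro χ hχ
        rw [S.hW ψ hψ χ (Finset.mem_filter.mp hχ).2]
        split_ifs <;> push_cast <;> ring
      rw [Finset.sum_congr rfl h3, Finset.sum_sub_distrib, Finset.sum_ite_eq',
        if_pos (Finset.mem_filter.mpr ⟨Finset.mem_univ _, S.hz ψ hψ⟩)]
    rw [h2] at h1
    exact sub_eq_zero.mp h1
  have hδ2 : (δ : ℂ) * δ = 1 := by rcases S.hδ with h1 | h1 <;> rw [h1] <;> norm_num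
  have hregeq : ∀ ψ ψ' : (P : Subgroup G) →* ℂˣ, ψ ≠ 1 → ψ' ≠ 1 → ∀ x : G, ¬ p ∣ orderOf x →
      (z ψ : G → ℂ) x = (z ψ' : G → ℂ) x := by
    intro ψ ψ' hψ hψ' x hx
    have h1 := hreg ψ hψ x hx
    rw [hreg ψ' hψ' x hx] at h1
    have h2 : (δ : ℂ) * (δ * (z ψ' : G → ℂ) x) = δ * (δ * (z ψ : G → ℂ) x) := by rw [h1]
    rw [← mul_assoc, ← mul_assoc, hδ2, one_mul, one_mul] at h2
    exact h2.symm
  have hX1 := AbM.one_X hM S hcard
  have hXset : ∀ χ, χ ∈ ({χ | χ ∈ principalBlock M G ∧ ∀ ψ : (P : Subgroup G) →* ℂˣ, ψ ≠ 1 → z ψ ≠ χ} :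
      Set (IrrCharacter G)) ↔ χ ∈ XF := fun χ => (hXF χ).symm
  have hXsetF : ({χ | χ ∈ principalBlock M G ∧ ∀ ψ : (P : Subgroup G) →* ℂˣ, ψ ≠ 1 → z ψ ≠ χ} :
      Set (IrrCharacter G)) = (XF : Set (IrrCharacter G)) := by
    ext χ; rw [Finset.mem_coe]; exact hXset χ
  have hXu : ∀ χ ∈ XF, u χ ≠ 0 := by
    intro χ hχ
    obtain ⟨h1, h2⟩ := (hXF χ).mp hχ
    exact AbM.u_ne hM S hP1 h1 h2
  refine ⟨XF.card, {χ | χ ∈ principalBlock M G ∧ ∀ ψ : (P : Subgroup G) →* ℂˣ, ψ ≠ 1 → z ψ ≠ χ},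
    {η | ∃ ψ : (P : Subgroup G) →* ℂˣ, ψ ≠ 1 ∧ η = z ψ}, ?_, ?_, ?_, ?_, hcY',
    ⟨oneIrr G, ⟨oneIrr_mem, hX1⟩, rfl⟩, u, d, δ, z, S.hδ, ?_, ?_, ?_, ?_, ?_, ?_, ?_, ?_⟩
  · -- s ≤ m
    have h1 : (XF.card : ℤ) ≤ ∑ χ ∈ XF, u χ ^ 2 := by
      have h2 : (XF.card : ℤ) = ∑ χ ∈ XF, (1 : ℤ) := by simp
      rw [h2]
      apply Finset.sum_le_sum
      intro χ hχ
      have h3 := hXu χ hχ
      have : 0 < u χ ^ 2 := by positivity
      omega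
    have hY2 : (2 : ℤ) ≤ YF.card := by
      have h6 : Nat.card (P : Subgroup G) = m * YF.card + 1 := by
        rw [hYcard, ← hcY']; exact hcY
      by_contra hcon
      push Not at hcon
      have h7 : YF.card ≤ 1 := by omega
      have h8 : m * YF.card ≤ m * 1 := Nat.mul_le_mul_left m h7
      omega
    have h3 : (1 : ℤ) ≤ (d - δ) ^ 2 + ((YF.card : ℤ) - 1) * d ^ 2 := by
      by_cases hd0 : d = 0
      · rw [hd0]
        rcases S.hδ with h4 | h4 <;> rw [h4] <;> norm_num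
      · have h4 : 0 < d ^ 2 := by positivity
        have h5 : 0 ≤ (d - δ) ^ 2 := sq_nonneg _
        nlinarith
    have h4 : (XF.card : ℤ) ≤ m := by linarith
    exact_mod_cast h4
  · ext χ
    constructor
    · intro hχ
      by_cases hc : ∃ ψ : (P : Subgroup G) →* ℂˣ, ψ ≠ 1 ∧ χ = z ψ
      · exact Or.inr hc
      · left
        exact ⟨hχ, fun ψ hψ he => hc ⟨ψ, hψ, he.symm⟩⟩
    · rintro (h1 | h1)
      · exact h1.1
      · exact hYB χ h1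
  · rw [Set.disjoint_left]
    rintro χ h1 ⟨ψ, hψ, rfl⟩
    exact h1.2 ψ hψ rfl
  · rw [hXsetF, Nat.card_coe_set_eq, Set.ncard_coe_finset]
  · intro χ hχ
    refine ⟨hXu χ ((hXset χ).mp hχ), ?_⟩
    intro x y hxy hy hy1
    have hy1' : (⟨y, hy⟩ : (P : Subgroup G)) ≠ 1 := fun he => hy1 (congrArg Subtype.val he)
    rw [h.const hM (y := ⟨y, hy⟩) hy1' hxy hχ.1]
    exact AbM.value_X S hχ.1 hχ.2 hy1'
  · intro ψ hψ; exact ⟨ψ, hψ, rfl⟩
  · rintro η ⟨ψ, hψ, rfl⟩; exact ⟨ψ, hψ, rfl⟩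
  · intro ψ ψ' hψ hn
    obtain ⟨i, hi⟩ := (horb ψ ψ').mp hn
    have hψ' : ψ' ≠ 1 := by
      rintro rfl
      apply hψ
      rw [hi, h.tw_one]
    exact ((S.heq ψ ψ' hψ hψ').mpr ⟨i, hi⟩).symm
  · intro ψ hψ x y hxy hy1
    have hy1' : y ≠ 1 := fun he => hy1 (congrArg Subtype.val he)
    rw [h.const hM hy1' hxy (S.hz ψ hψ), AbM.value_z S hψ hy1']
    congr 2
    have h1 : {ψ' : (P : Subgroup G) →* ℂˣ | ∃ n : G, n ∈ Subgroup.normalizer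
        ((P : Subgroup G) : Set G) ∧ ∀ w w' : (P : Subgroup G), (w' : G) = n * w * n⁻¹ →
        ψ' w' = ψ w} = ((Finset.univ.image (fun i : Fin m => h.tw i ψ) :
          Finset ((P : Subgroup G) →* ℂˣ)) : Set ((P : Subgroup G) →* ℂˣ)) := by
      ext ψ'
      rw [Set.mem_ofPred_eq, horb]
      simp only [Finset.coe_image, Finset.coe_univ, Set.image_univ, Set.mem_range]
      constructor
      · rintro ⟨i, hi⟩
        have hψ' : ψ' ≠ 1 := by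
          rintro rfl
          apply hψ
          rw [hi, h.tw_one]
        obtain ⟨j, hj⟩ := (S.heq ψ' ψ hψ' hψ).mp
          ((S.heq ψ ψ' hψ hψ').mpr ⟨i, hi⟩).symm
        exact ⟨j, hj.symm⟩
      · rintro ⟨i, hi⟩
        have hψ' : ψ' ≠ 1 := by
          rw [← hi]; exact h.tw_ne_one i hψ
        exact (S.heq ψ ψ' hψ hψ').mp ((S.heq ψ' ψ hψ' hψ).mpr ⟨i, hi.symm⟩).symm
    rw [h1, finsum_mem_coe_finset, Finset.sum_image (fun i _ j _ hij => h.tw_inj hψ hij)]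
  · rw [hXsetF, finsum_mem_coe_finset]
    rw [← hnorm, hYcard]
    congr 3
    have h6 : Nat.card P = Nat.card (P : Subgroup G) := rfl
    have h7 : 1 ≤ Nat.card (P : Subgroup G) := Nat.card_pos
    rw [h6]
    push_cast [Nat.cast_sub h7]
    ring
  · rintro η ⟨ψ, hψ, rfl⟩ η' ⟨ψ', hψ', rfl⟩ x hx
    exact hregeq ψ ψ' hψ hψ' x hx
  · rintro η ⟨ψ, hψ, rfl⟩ x hx
    rw [hXsetF, finsum_mem_coe_finset]
    have h1 := hreg ψ hψ x hx
    rw [hsplit, Finset.sum_union hdisj] at h1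
    have h2 : ∑ χ ∈ YF, (u χ : ℂ) * (χ : G → ℂ) x = (YF.card : ℂ) * (d * (z ψ : G → ℂ) x) := by
      have h3 : ∀ χ ∈ YF, (u χ : ℂ) * (χ : G → ℂ) x = d * (z ψ : G → ℂ) x := by
        intro χ hχ
        obtain ⟨ψ', hψ', rfl⟩ := (hYF χ).mp hχ
        rw [S.hd ψ' hψ', hregeq ψ' ψ hψ' hψ x hx]
      rw [Finset.sum_congr rfl h3, Finset.sum_const, nsmul_eq_mul]
    rw [h2] at h1
    rw [← hYcard]
    linear_combination h1

end Cfsg.Agent.S4709
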