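import Cfsg.Statements.S4720
import Cfsg.Agent.H27.PrinBlock

set_option autoImplicit false
open Cfsg

namespace Cfsg.Agent.S4720

open Cfsg.Agent.H3 Cfsg.Agent.H11 Cfsg.Agent.H27
open scoped ComplexConjugate

theorem card_fiber {G : Type*} [Group G] {N : Subgroup G} [Fintype N] [DecidableEq G] (u v : G) (n : G) (hn : n ∈ N)
    (hnv : n * u * n⁻¹ = v) :
    (Finset.univ.filter (fun x : N => (x : G) * u * (x : G)⁻¹ = v)).card
      = Nat.card (N ⊓ Subgroup.centralizer ({u} : Set G) : Subgroup G) := by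
  subst hnv
  rw [← Fintype.card_subtype, ← Nat.card_eq_fintype_card]
  refine Nat.card_congr ⟨fun x => ⟨n⁻¹ * (x.1 : G), N.mul_mem (N.inv_mem hn) x.1.2, ?_⟩,
    fun c => ⟨⟨n * (c : G), N.mul_mem hn c.2.1⟩, ?_⟩, ?_, ?_⟩
  · show n⁻¹ * (x.1 : G) ∈ Subgroup.centralizer ({u} : Set G)
    rw [Subgroup.mem_centralizer_singleton_iff]
    have h1 := x.2
    rw [mul_inv_eq_iff_eq_mul] at h1
    calc n⁻¹ * (x.1 : G) * u = n⁻¹ * ((x.1 : G) * u) := by group
      _ = n⁻¹ * (n * u * n⁻¹ * (x.1 : G)) := by rw [h1]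
      _ = u * (n⁻¹ * (x.1 : G)) := by group
  · have h1 := (Subgroup.mem_centralizer_singleton_iff).mp c.2.2
    show n * (c : G) * u * (n * (c : G))⁻¹ = _
    calc n * (c : G) * u * (n * (c : G))⁻¹ = n * ((c : G) * u) * (c : G)⁻¹ * n⁻¹ := by group
      _ = n * (u * c) * (c : G)⁻¹ * n⁻¹ := by rw [h1]
      _ = n * u * n⁻¹ := by group
  · intro x
    apply Subtype.ext; apply Subtype.ext
    simp
  · intro c
    apply Subtype.ext
    simp


/-- Let p be a prime, M a maximal ideal of the algebraic integers containing p, P a p-subgroup of the finite group G, N a subgroup with P ≤ N ≤ N_G(P), and U a nonempty subset of P normalized by N such that an element of U and an element of P that are conjugate in G are already conjugate in N, and such that λ(C_G(y)) = w·#C_N(y) for every y ∈ U with one rational number w, where λ(X) denotes the sum of the squares of the degrees of the irreducible characters in the principal p-block of X. For a complex function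 θ on P and χ in the principal block of G put a_χ(θ) = #P⁻¹ Σ_{y ∈ P} χ(y) θ(y⁻¹). Then for generalized characters θ, η of P with θ vanishing outside U, Σ_χ a_χ(θ)·conj(a_χ(η)) = (w/#P²)·Σ_{y ∈ P} θ(y)·conj(Σ_{x ∈ N} η(x y x⁻¹)) (η extended by zero off P; the conjugates lie in P), the first sum over the principal p-block of G. -/
theorem result {G : Type*} [Group G] [Finite G] (p : ℕ) [Fact p.Prime] (M : Ideal Cfsg.AlgInt) (hM : Cfsg.IsPModular p M) (P : Subgroup G) (hP : IsPGroup p P) (N : Subgroup G) (hPN : P ≤ N) (hNN : N ≤ Subgroup.normalizer (P : Set G)) (U : Set G) (hUne : U.Nonempty) (hUP : U ⊆ (P : Set G)) (hUN : ∀ n ∈ N, ∀ u ∈ U, n * u * n⁻¹ ∈ U) (hfus : ∀ u ∈ U, ∀ g : G, g * u * g⁻¹ ∈ (P : Set G) → ∃ n ∈ N, n * u * n⁻¹ = g * u * g⁻¹) (w : ℚ) (hw : ∀ y ∈ U, ((∑ᶠ ψ ∈ Cfsg.principalBlock M ↥(Subgroup.centralizer ({y} : Set G)), Cfsg.charDegree (ψ : ↥(Subgroup.centralizer ({y} : Set G)) → ℂ) ^ 2) : ℚ) = w * Nat.card ↥(N ⊓ Subgroup.centralizer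 ({y} : Set G))) (θ η : ↥P → ℂ) (hθ : Cfsg.IsGeneralizedCharacter ↥P θ) (hη : Cfsg.IsGeneralizedCharacter ↥P η) (hθU : ∀ y : ↥P, (y : G) ∉ U → θ y = 0) : ∑ᶠ χ ∈ Cfsg.principalBlock M G, ((Nat.card ↥P : ℂ)⁻¹ * ∑ᶠ y : ↥P, (χ : G → ℂ) (y : G) * θ y⁻¹) * (starRingEnd ℂ) ((Nat.card ↥P : ℂ)⁻¹ * ∑ᶠ y : ↥P, (χ : G → ℂ) (y : G) * η y⁻¹) = ((w : ℂ) / ((Nat.card ↥P : ℂ) ^ 2)) * ∑ᶠ y : ↥P, θ y * (starRingEnd ℂ) (∑ᶠ x : ↥N, Cfsg.extendByZero P η ((x : G) * (y : G) * (x : G)⁻¹)) := by
  classical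
  have := Fintype.ofFinite G
  have := Fintype.ofFinite (IrrCharacter G)
  have := Fintype.ofFinite P
  have := Fintype.ofFinite N
  have hpr := hM.2.1.isPrime
  have hpp := hM.1
  have hord : ∀ y : P, ∃ k : ℕ, orderOf (y : G) = p ^ k := by
    intro y
    obtain ⟨k, hk⟩ := (IsPGroup.iff_orderOf.mp hP) y
    exact ⟨k, by rw [Subgroup.orderOf_coe]; exact hk⟩
  have hcard : (Nat.card P : ℂ) ≠ 0 := by exact_mod_cast Nat.card_pos.ne'
  -- the coefficients
  have hA : ∀ (χ : IrrCharacter G) (τ : P → ℂ), ∑ᶠ y : P, (χ : G → ℂ) (y : G) * τ y⁻¹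
      = ∑ u : P, conj ((χ : G → ℂ) u) * τ u := by
    intro χ τ
    rw [finsum_eq_sum_of_fintype]
    refine Fintype.sum_equiv (Equiv.inv P) _ _ (fun y => ?_)
    rw [Equiv.inv_apply, Subgroup.coe_inv, ← char_inv (irr_isChar χ.2), inv_inv]
  simp only [hA]
  rw [finsum_mem_irr]
  have h1 : ∀ χ : IrrCharacter G, ((Nat.card P : ℂ)⁻¹ * ∑ u : P, conj ((χ : G → ℂ) u) * θ u) *
      conj ((Nat.card P : ℂ)⁻¹ * ∑ u : P, conj ((χ : G → ℂ) u) * η u)
      = ((Nat.card P : ℂ) ^ 2)⁻¹ * ∑ u : P, ∑ v : P, θ u * conj (η v) *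
        (conj ((χ : G → ℂ) u) * (χ : G → ℂ) v) := by
    intro χ
    rw [map_mul, map_inv₀, Complex.conj_natCast, map_sum]
    simp only [map_mul, Complex.conj_conj]
    rw [mul_mul_mul_comm, Finset.sum_mul_sum]
    congr 1
    · rw [sq, mul_inv]
    · apply Finset.sum_congr rfl
      intro u _
      apply Finset.sum_congr rfl
      intro v _
      ring
  simp only [h1]
  rw [← Finset.mul_sum, Finset.sum_comm]
  have h2 : ∀ u : P, ∑ χ : IrrCharacter G with χ ∈ principalBlock M G, ∑ v : P,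
      θ u * conj (η v) * (conj ((χ : G → ℂ) u) * (χ : G → ℂ) v)
      = θ u * ((lamC M (u : G) : ℂ) * ∑ v ∈ (Finset.univ : Finset P).filter (fun v : P => IsConj (u : G) (v : G)), conj (η v)) := by
    intro u
    rw [Finset.sum_comm, Finset.sum_filter, Finset.mul_sum, Finset.mul_sum]
    apply Finset.sum_congr rfl
    intro v _
    rw [← Finset.mul_sum]
    split_ifs with h3
    · rw [prin_orth_conj hM (hord u) h3]; ring
    · rw [prin_orth_ne hM (hord u) (hord v) h3 isPBlock_principal]; ring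
  simp only [h2]
  rw [finsum_eq_sum_of_fintype, div_eq_inv_mul, mul_assoc]
  congr 1
  rw [Finset.mul_sum]
  apply Finset.sum_congr rfl
  intro u _
  by_cases hu : (u : G) ∈ U
  swap
  · rw [hθU u hu]; ring
  have h3 := hw (u : G) hu
  have h4 : (lamC M (u : G) : ℂ) = (w : ℂ) * (Nat.card (N ⊓ Subgroup.centralizer ({(u : G)} : Set G) : Subgroup G) : ℂ) := by
    have := Fintype.ofFinite (IrrCharacter (Subgroup.centralizer ({(u : G)} : Set G)))
    have h5 : (lamC M (u : G) : ℚ) = w * (Nat.card (N ⊓ Subgroup.centralizer ({(u : G)} : Set G) : Subgroup G) : ℚ) := by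
      rw [← h3]
      unfold lamC
      rw [finsum_mem_irr, finsum_mem_irr]
      push_cast
      rfl
    have h6 := congrArg (fun q : ℚ => (q : ℂ)) h5
    push_cast at h6
    exact h6
  rw [h4]
  have h5 : ∑ᶠ x : N, extendByZero P η ((x : G) * (u : G) * (x : G)⁻¹)
      = (Nat.card (N ⊓ Subgroup.centralizer ({(u : G)} : Set G) : Subgroup G) : ℂ) *
        ∑ v ∈ (Finset.univ : Finset P).filter (fun v : P => IsConj (u : G) (v : G)), η v := by
    rw [finsum_eq_sum_of_fintype]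
    have hmem : ∀ x : N, (x : G) * (u : G) * (x : G)⁻¹ ∈ P := fun x => hUP (hUN x x.2 u hu)
    have h6 : ∀ x : N, extendByZero P η ((x : G) * (u : G) * (x : G)⁻¹) = η ⟨_, hmem x⟩ := by
      intro x
      exact extendByZero_coe P η ⟨_, hmem x⟩
    simp only [h6]
    rw [← Finset.sum_fiberwise (s := Finset.univ) (g := fun x : N => (⟨_, hmem x⟩ : P))
      (f := fun x : N => η ⟨_, hmem x⟩), Finset.mul_sum, Finset.sum_filter]
    apply Finset.sum_congr rfl
    intro v _
    rw [Finset.sum_congr rfl (fun x hx => by rw [(Finset.mem_filter.mp hx).2] :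
      ∀ x ∈ Finset.univ.filter (fun x : N => (⟨_, hmem x⟩ : P) = v), η ⟨_, hmem x⟩ = η v),
      Finset.sum_const, nsmul_eq_mul]
    split_ifs with h7
    · congr 2
      obtain ⟨g, hg⟩ := isConj_iff.mp h7
      obtain ⟨n, hn, hnv⟩ := hfus u hu g (by rw [hg]; exact v.2)
      rw [hg] at hnv
      rw [← card_fiber (G := G) (N := N) (u : G) (v : G) n hn hnv]
      congr 1
      ext x
      simp only [Finset.mem_filter, Finset.mem_univ, true_and]
      rw [Subtype.ext_iff]
    · rw [Finset.card_eq_zero.mpr, Nat.cast_zero, zero_mul]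
      rw [Finset.filter_eq_empty_iff]
      intro x _ h8
      apply h7
      rw [isConj_iff]
      exact ⟨x, congrArg Subtype.val h8⟩
  rw [h5, map_mul, Complex.conj_natCast, map_sum]
  ring

end Cfsg.Agent.S4720
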