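import Cfsg.Statements.S4721
import Cfsg.Agent.H27.AbSyl8

set_option autoImplicit false
open Cfsg

namespace Cfsg.Agent.S4721

open Cfsg.Agent.H3 Cfsg.Agent.H11 Cfsg.Agent.H27
open scoped ComplexConjugate

/-- Let p be a prime, M a maximal ideal of the algebraic integers containing p, and G a finite group with a nontrivial abelian Sylow p-subgroup P, N = N_G(P), C = C_G(P), such that N/C is cyclic of order 3, #P > 4, and C_G(y) ∩ N = C for every non-identity y ∈ P. Then the principal p-block is the disjoint union of a set X of exactly 3 characters containing the principal character and a set Y of (#P − 1)/3 characters, with signs a_χ = ±1 (χ ∈ X, a = 1 at the principal character) and δ = ±1 such that every χ ∈ X takes the value a_χ at every element whose p-part is a non-identity element of P, and there is a map ζ from the non-principal linear characters of P onto Y, constant on N-conjugacy classes, with ζ_ψ(z) = δ·Σ ψ'(y) over the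 N-orbit of ψ, for z with p-part y ≠ 1 in P. If moreover G has an involution lying in no proper normal subgroup of G, then exactly two of the three numbers −δ and a_χ (χ ∈ X non-principal) equal −1, and the product of the degrees of the two non-principal members of X and of any member of Y is a perfect square. -/
theorem result {G : Type*} [Group G] [Finite G] (p : ℕ) [Fact p.Prime] (M : Ideal Cfsg.AlgInt) (hM : Cfsg.IsPModular p M) (P : Sylow p G) (hab : IsMulCommutative P) (hP1 : Nat.card P ≠ 1) (hCN : (Subgroup.centralizer ((P : Subgroup G) : Set G)).relIndex (Subgroup.normalizer ((P : Subgroup G) : Set G)) = 3) (hcyc : ∃ g : G, g ∈ Subgroup.normalizer ((P : Subgroup G) : Set G) ∧ Subgroup.centralizer ((P : Subgroup G) : Set G) ⊔ Subgroup.zpowers g = Subgroup.normalizer ((P : Subgroup G) : Set G)) (hm2 : 3 + 1 < Nat.card P) (hfrob : ∀ y : G, y ∈ (P : Subgroup G) → y ≠ 1 → Subgroup.centralizer ({y} : Set G) ⊓ Subgroup.normalizer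 ((P : Subgroup G) : Set G) = Subgroup.centralizer ((P : Subgroup G) : Set G)) : ∃ (X Y : Set (Cfsg.IrrCharacter G)), Cfsg.principalBlock M G = X ∪ Y ∧ Disjoint X Y ∧ Nat.card X = 3 ∧ Nat.card Y = (Nat.card P - 1) / 3 ∧ (∃ χ₁ ∈ X, (χ₁ : G → ℂ) = fun _ => 1) ∧ ∃ (a : Cfsg.IrrCharacter G → ℤ) (δ : ℤ) (ζ : (↥(P : Subgroup G) →* ℂˣ) → Cfsg.IrrCharacter G), (δ = 1 ∨ δ = -1) ∧ (∀ χ ∈ X, (a χ = 1 ∨ a χ = -1) ∧ ∀ z y : G, Cfsg.IsPPart p z y → y ∈ (P : Subgroup G) → y ≠ 1 → (χ : G → ℂ) z = (a χ : ℂ)) ∧ (∀ ψ : ↥(P : Subgroup G) →* ℂˣ, ψ ≠ 1 → ζ ψ ∈ Y) ∧ (∀ η ∈ Y, ∃ ψ : ↥(P : Subgroup G) →* ℂˣ, ψ ≠ 1 ∧ ζ ψ = η) ∧ (∀ ψ ψ' : ↥(P : Subgroup G) →* ℂˣ, ψ ≠ 1 → (∃ n : G, n ∈ Subgroup.normalizer ((P : Subgroup G) : Set G) ∧ ∀ w w' : ↥(P : Subgroup G), (w' : G) = n * w * n⁻¹ → ψ' w' = ψ w) → ζ ψ' = ζ ψ) ∧ (∀ ψ : ↥(P : Subgroup G) →* ℂˣ, ψ ≠ 1 → ∀ (z : G) (y : ↥(P : Subgroup G)), Cfsg.IsPPart p z (y : G) → (y : G) ≠ 1 → (ζ ψ : G → ℂ) z = (δ : ℂ) * ∑ᶠ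 ψ' ∈ {ψ' : ↥(P : Subgroup G) →* ℂˣ | ∃ n : G, n ∈ Subgroup.normalizer ((P : Subgroup G) : Set G) ∧ ∀ w w' : ↥(P : Subgroup G), (w' : G) = n * w * n⁻¹ → ψ' w' = ψ w}, ((ψ' y : ℂˣ) : ℂ)) ∧ ((∃ t : G, orderOf t = 2 ∧ ∀ K : Subgroup G, K.Normal → t ∈ K → K = ⊤) → Nat.card {χ : Cfsg.IrrCharacter G // χ ∈ X ∧ (χ : G → ℂ) ≠ (fun _ => 1) ∧ a χ = -1} + (if δ = 1 then 1 else 0) = 2 ∧ ∀ η ∈ Y, IsSquare (Cfsg.charDegree (η : G → ℂ) * ∏ᶠ χ ∈ {χ : Cfsg.IrrCharacter G | χ ∈ X ∧ (χ : G → ℂ) ≠ fun _ => 1}, Cfsg.charDegree (χ : G → ℂ))) := by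
  classical
  have := Fintype.ofFinite G
  have := Fintype.ofFinite (P : Subgroup G)
  have hpr := hM.2.1.isPrime
  have habc : ∀ x ∈ (P : Subgroup G), ∀ y ∈ (P : Subgroup G), x * y = y * x := by
    intro x hx y hy
    have h1 := hab.is_comm.comm (⟨x, hx⟩ : P) (⟨y, hy⟩ : P)
    exact congrArg Subtype.val h1
  obtain ⟨g, hg, hgC⟩ := hcyc
  have h : Ab3 P g := ab3_of habc hCN hg hgC hfrob
  have hcard : 4 < Nat.card (P : Subgroup G) := hm2
  obtain ⟨τ, ρ, δ, c, d, z, S⟩ := h.exists_sun hM hcard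
  haveI : Finite ((P : Subgroup G) →* ℂˣ) := finite_dual
  have := Fintype.ofFinite ((P : Subgroup G) →* ℂˣ)
  let a : IrrCharacter G → ℤ := fun χ => if χ = c then τ else if χ = d then ρ else 1
  have hac : a c = τ := if_pos rfl
  have had : a d = ρ := by
    show (if d = c then τ else if d = d then ρ else 1) = ρ
    rw [if_neg S.hcd.symm, if_pos rfl]
  have ha1 : a (oneIrr G) = 1 := by
    show (if oneIrr G = c then τ else if oneIrr G = d then ρ else 1) = 1
    rw [if_neg (Ne.symm S.hc1), if_neg (Ne.symm S.hd1)]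
  have horb : ∀ ψ ψ' : (P : Subgroup G) →* ℂˣ, (∃ n : G, n ∈ Subgroup.normalizer
      ((P : Subgroup G) : Set G) ∧ ∀ w w' : (P : Subgroup G), (w' : G) = n * w * n⁻¹ →
        ψ' w' = ψ w) ↔ ∃ i : Fin 3, ψ = h.tw i ψ' := by
    intro ψ ψ'
    constructor
    · rintro ⟨n, hn, hw⟩
      obtain ⟨x, hx, i, hi⟩ := h.cov n hn
      refine ⟨i, ?_⟩
      ext y
      rw [Ab3.tw_apply, ← hw y (h.rot i y)]
      rw [Ab3.rot_coe, hi]
      have h3 := Subgroup.mem_centralizer_iff.mp hx _ (h.rot i y).2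
      rw [Ab3.rot_coe] at h3
      calc g ^ (i : ℕ) * y * (g ^ (i : ℕ))⁻¹ = (g ^ (i : ℕ) * y * (g ^ (i : ℕ))⁻¹ * x) * x⁻¹ := by
            group
        _ = (x * (g ^ (i : ℕ) * y * (g ^ (i : ℕ))⁻¹)) * x⁻¹ := by rw [h3]
        _ = x * g ^ (i : ℕ) * y * (x * g ^ (i : ℕ))⁻¹ := by group
    · rintro ⟨i, rfl⟩
      refine ⟨g ^ (i : ℕ), Subgroup.pow_mem _ hg _, ?_⟩
      intro w w' hw
      rw [Ab3.tw_apply]
      congr 1
      apply Subtype.ext
      rw [hw, Ab3.rot_coe]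
  have hΨ : ∃ ψ : (P : Subgroup G) →* ℂˣ, ψ ≠ 1 := by
    by_contra hcon
    push Not at hcon
    have h1 : Nat.card ((P : Subgroup G) →* ℂˣ) ≤ 1 := by
      rw [Finite.card_le_one_iff_subsingleton]
      exact ⟨fun x y => by rw [hcon x, hcon y]⟩
    rw [card_dual h.P_comm] at h1
    omega
  refine ⟨{oneIrr G, c, d}, {η | ∃ ψ : (P : Subgroup G) →* ℂˣ, ψ ≠ 1 ∧ η = z ψ}, ?_, ?_, ?_, ?_,
    ⟨oneIrr G, by simp, rfl⟩, a, δ, z, S.hδ, ?_, ?_, ?_, ?_, ?_, ?_⟩
  · -- union
    ext χ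
    constructor
    · intro hχ
      rcases S.cover hM h hχ with h1 | h1 | h1 | ⟨ψ, hψ, h1⟩
      · left; rw [h1]; simp
      · left; rw [h1]; simp
      · left; rw [h1]; simp
      · right; exact ⟨ψ, hψ, h1⟩
    · rintro (h1 | ⟨ψ, hψ, rfl⟩)
      · rcases h1 with rfl | rfl | rfl
        exacts [oneIrr_mem, S.hc, S.hd]
      · exact S.hz ψ hψ
  · rw [Set.disjoint_left]
    rintro χ h1 ⟨ψ, hψ, rfl⟩
    rcases h1 with h2 | h2 | h2
    · exact S.hz1 ψ hψ h2
    · exact S.hzc ψ hψ h2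
    · exact S.hzd ψ hψ h2
  · have h1 : ({oneIrr G, c, d} : Set (IrrCharacter G)) =
        (({oneIrr G, c, d} : Finset (IrrCharacter G)) : Set (IrrCharacter G)) := by simp
    rw [h1, Nat.card_coe_set_eq, Set.ncard_coe_finset]
    exact Finset.card_eq_three.mpr ⟨_, _, _, Ne.symm S.hc1, Ne.symm S.hd1, S.hcd, rfl⟩
  · have hcardι2 : Fintype.card {ψ : (P : Subgroup G) →* ℂˣ // ψ ≠ 1} + 1 =
        Nat.card (P : Subgroup G) := by
      rw [← card_dual h.P_comm, Nat.card_eq_fintype_card]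
      have h1 := Fintype.card_subtype_compl (fun ψ : (P : Subgroup G) →* ℂˣ => ψ = 1)
      rw [Fintype.card_subtype_eq] at h1
      have h2 : Fintype.card {ψ : (P : Subgroup G) →* ℂˣ // ψ ≠ 1} =
        Fintype.card {ψ : (P : Subgroup G) →* ℂˣ // ¬ ψ = 1} := rfl
      have h3 : 0 < Fintype.card ((P : Subgroup G) →* ℂˣ) := Fintype.card_pos
      omega
    have h4 := card_of_fibers (fun ψ : {ψ : (P : Subgroup G) →* ℂˣ // ψ ≠ 1} => z ψ.1) 3 (by
      intro i
      exact h.card_fiber (fun ψ' => z ψ' = z i.1) i.2 (fun ψ' hψ' => S.z_eq_iff hM h hψ' i.2))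
    have h5 : {η | ∃ ψ : (P : Subgroup G) →* ℂˣ, ψ ≠ 1 ∧ η = z ψ} =
        ((Finset.univ.image (fun ψ : {ψ : (P : Subgroup G) →* ℂˣ // ψ ≠ 1} => z ψ.1) :
          Finset (IrrCharacter G)) : Set (IrrCharacter G)) := by
      ext η
      simp only [Set.mem_ofPred_eq, Finset.coe_image, Finset.coe_univ, Set.image_univ,
        Set.mem_range, Subtype.exists]
      constructor
      · rintro ⟨ψ, hψ, h6⟩; exact ⟨ψ, hψ, h6.symm⟩
      · rintro ⟨ψ, hψ, h6⟩; exact ⟨ψ, hψ, h6.symm⟩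
    rw [h5, Nat.card_coe_set_eq, Set.ncard_coe_finset]
    have h6 : Nat.card P = Nat.card (P : Subgroup G) := rfl
    rw [h6]
    omega
  · intro χ hχ
    have hval : (a χ = 1 ∨ a χ = -1) ∧ ∀ y : (P : Subgroup G), y ≠ 1 →
        (χ : G → ℂ) y = (a χ : ℂ) := by
      rcases hχ with rfl | rfl | rfl
      · rw [ha1]; exact ⟨Or.inl rfl, fun y _ => by rw [Int.cast_one]; rfl⟩
      · rw [hac]; exact ⟨S.hτ, fun y hy => S.value_c h hy⟩
      · rw [had]; exact ⟨S.hρ, fun y hy => S.value_d h hy⟩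
    refine ⟨hval.1, ?_⟩
    intro x y hxy hy hy1
    have hmem : χ ∈ principalBlock M G := by
      rcases hχ with rfl | rfl | rfl
      exacts [oneIrr_mem, S.hc, S.hd]
    have hy1' : (⟨y, hy⟩ : (P : Subgroup G)) ≠ 1 := fun he => hy1 (congrArg Subtype.val he)
    rw [h.const hM (y := ⟨y, hy⟩) hy1' hxy hmem]
    exact hval.2 ⟨y, hy⟩ hy1'
  · intro ψ hψ; exact ⟨ψ, hψ, rfl⟩
  · rintro η ⟨ψ, hψ, rfl⟩; exact ⟨ψ, hψ, rfl⟩
  · intro ψ ψ' hψ hn
    obtain ⟨i, hi⟩ := (horb ψ ψ').mp hn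
    have hψ' : ψ' ≠ 1 := by
      rintro rfl
      apply hψ
      rw [hi, h.tw_one]
    exact ((S.z_eq_iff hM h hψ hψ').mpr ⟨i, hi⟩).symm
  · intro ψ hψ x y hxy hy1
    have hy1' : y ≠ 1 := fun he => hy1 (congrArg Subtype.val he)
    rw [h.const hM hy1' hxy (S.hz ψ hψ), S.value_z hM h hψ hy1']
    congr 1
    have h1 : {ψ' : (P : Subgroup G) →* ℂˣ | ∃ n : G, n ∈ Subgroup.normalizer
        ((P : Subgroup G) : Set G) ∧ ∀ w w' : (P : Subgroup G), (w' : G) = n * w * n⁻¹ →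
        ψ' w' = ψ w} = ((Finset.univ.image (fun i : Fin 3 => h.tw i ψ) :
          Finset ((P : Subgroup G) →* ℂˣ)) : Set ((P : Subgroup G) →* ℂˣ)) := by
      ext ψ'
      rw [Set.mem_ofPred_eq, horb]
      simp only [Finset.coe_image, Finset.coe_univ, Set.image_univ, Set.mem_range]
      constructor
      · rintro ⟨i, hi⟩
        have hψ' : ψ' ≠ 1 := by
          rintro rfl
          apply hψ
          rw [hi, h.tw_one]
        obtain ⟨j, hj⟩ := (S.z_eq_iff hM h hψ' hψ).mp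
          ((S.z_eq_iff hM h hψ hψ').mpr ⟨i, hi⟩).symm
        exact ⟨j, hj.symm⟩
      · rintro ⟨i, hi⟩
        have hψ' : ψ' ≠ 1 := by
          rw [← hi]; exact h.tw_ne_one i hψ
        exact (S.z_eq_iff hM h hψ hψ').mp ((S.z_eq_iff hM h hψ' hψ).mpr ⟨i, hi.symm⟩).symm
    rw [h1, finsum_mem_coe_finset, Finset.sum_image (fun i _ j _ hij => h.tw_inj hψ hij)]
  · rintro ⟨t, ht, hprop⟩
    have hfin : ∀ ψ : (P : Subgroup G) →* ℂˣ, ψ ≠ 1 → τ + ρ - δ = -1 ∧
        IsSquare (charDegree (c : G → ℂ) * charDegree (d : G → ℂ) *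
          charDegree (z ψ : G → ℂ)) := by
      intro ψ hψ
      by_cases hp2 : p = 2
      · have hpt : IsPGroup p (Subgroup.zpowers t) := by
          rw [IsPGroup.iff_card]
          exact ⟨1, by rw [Nat.card_zpowers, ht, hp2, pow_one]⟩
        obtain ⟨Q, hQ⟩ := hpt.exists_le_sylow
        obtain ⟨v, hv⟩ := MulAction.exists_smul_eq G Q P
        have hmem : v * t * v⁻¹ ∈ (P : Subgroup G) := by
          rw [← hv, Sylow.coe_subgroup_smul]
          exact Subgroup.smul_mem_pointwise_smul _ (MulAut.conj v) _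
            (hQ (Subgroup.mem_zpowers t))
        have ho : orderOf (v * t * v⁻¹) = 2 := by
          rw [← ht]
          exact orderOf_injective (MulAut.conj v).toMonoidHom (MulAut.conj v).injective t
        refine S.final_two hM h hp2 hcard (t := ⟨v * t * v⁻¹, hmem⟩) ho ?_ hψ
        intro K hK htK
        apply hprop K hK
        have h1 := hK.conj_mem _ htK v⁻¹
        have e : v⁻¹ * (v * t * v⁻¹) * v⁻¹⁻¹ = t := by group
        rwa [e] at h1
      · exact S.final_odd hM h hp2 ht hprop hψ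
    constructor
    · obtain ⟨ψ, hψ⟩ := hΨ
      have h1 := (hfin ψ hψ).1
      have h2 : Nat.card {χ : IrrCharacter G // χ ∈ ({oneIrr G, c, d} : Set (IrrCharacter G)) ∧
          (χ : G → ℂ) ≠ (fun _ => 1) ∧ a χ = -1} =
          (({c, d} : Finset (IrrCharacter G)).filter (fun χ => a χ = -1)).card := by
        rw [← Fintype.card_coe, ← Nat.card_eq_fintype_card]
        apply Nat.card_congr
        apply Equiv.subtypeEquivRight
        intro χ
        rw [Finset.mem_filter, Finset.mem_insert, Finset.mem_singleton]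
        constructor
        · rintro ⟨h3, h4, h5⟩
          refine ⟨?_, h5⟩
          rcases h3 with h3 | h3 | h3
          · exfalso; apply h4; rw [h3]; rfl
          · left; exact h3
          · right; exact h3
        · rintro ⟨h3, h5⟩
          refine ⟨?_, ?_, h5⟩
          · rcases h3 with rfl | rfl <;> simp
          · intro h4
            have h6 : χ = oneIrr G := Subtype.ext h4
            rcases h3 with h3 | h3
            · exact S.hc1 (h3.symm.trans h6)
            · exact S.hd1 (h3.symm.trans h6)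
      rw [h2, Finset.filter_insert, Finset.filter_singleton, hac, had]
      have hcd := S.hcd
      rcases S.hτ with h3 | h3 <;> rcases S.hρ with h4 | h4 <;> rcases S.hδ with h5 | h5 <;>
        rw [h3, h4, h5] at h1 ⊢ <;> first | (exfalso; omega) | simp [hcd]
    · rintro η ⟨ψ, hψ, rfl⟩
      have h1 := (hfin ψ hψ).2
      have h2 : {χ : IrrCharacter G | χ ∈ ({oneIrr G, c, d} : Set (IrrCharacter G)) ∧
          (χ : G → ℂ) ≠ fun _ => 1} = {c, d} := by
        ext χ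
        constructor
        · rintro ⟨h3, h4⟩
          rcases h3 with h3 | h3 | h3
          · exfalso; apply h4; rw [h3]; rfl
          · left; exact h3
          · right; exact h3
        · intro h3
          refine ⟨Or.inr h3, ?_⟩
          intro h4
          have h6 : χ = oneIrr G := Subtype.ext h4
          rcases h3 with h3 | h3
          · exact S.hc1 (h3.symm.trans h6)
          · exact S.hd1 (h3.symm.trans h6)
      rw [h2, finprod_mem_pair S.hcd, mul_comm]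
      exact h1

end Cfsg.Agent.S4721
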