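import Cfsg.Statements.S4722
import Cfsg.Agent.H27.PrinBlock
import Cfsg.Agent.H27.ClassAlg
import Cfsg.Agent.H1.Cores

set_option autoImplicit false
open Cfsg

namespace Cfsg.Agent.S4722

open Cfsg.Agent.H3 Cfsg.Agent.H11 Cfsg.Agent.H27
open scoped ComplexConjugate

theorem ratio_const {ι : Type*} (s : Finset ι) (a c d : ι → ℝ) (hd : ∀ i ∈ s, 0 < d i)
    (h1 : ∑ i ∈ s, a i * d i = 0) (h2 : ∑ i ∈ s, a i * c i = 0)
    (h3 : ∑ i ∈ s, a i * c i ^ 2 / d i = 0) {i0 : ι} (hi0 : i0 ∈ s)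
    (hneg : ∀ i ∈ s, i ≠ i0 → a i ≤ 0) : ∀ i ∈ s, a i ≠ 0 → c i * d i0 = c i0 * d i := by
  have hd0 := hd i0 hi0
  set r := c i0 / d i0 with hr
  have h4 : ∑ i ∈ s, a i * (c i - r * d i) ^ 2 / d i = 0 := by
    have h5 : ∀ i ∈ s, a i * (c i - r * d i) ^ 2 / d i
        = a i * c i ^ 2 / d i - 2 * r * (a i * c i) + r ^ 2 * (a i * d i) := by
      intro i hi
      have := (hd i hi).ne'
      field_simp
      ring
    rw [Finset.sum_congr rfl h5, Finset.sum_add_distrib, Finset.sum_sub_distrib, ← Finset.mul_sum,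
      ← Finset.mul_sum, h1, h2, h3]
    ring
  have h5 : ∀ i ∈ s, a i * (c i - r * d i) ^ 2 / d i ≤ 0 := by
    intro i hi
    by_cases h6 : i = i0
    · subst h6
      have : c i - r * d i = 0 := by
        rw [hr]; field_simp; ring
      rw [this]; simp
    · have h7 := hneg i hi h6
      exact div_nonpos_of_nonpos_of_nonneg (mul_nonpos_of_nonpos_of_nonneg h7 (sq_nonneg _)) (hd i hi).le
  have h6 := (Finset.sum_eq_zero_iff_of_nonpos h5).mp h4
  intro i hi hai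
  have h7 := h6 i hi
  have h8 : (c i - r * d i) ^ 2 = 0 := by
    rcases div_eq_zero_iff.mp h7 with h9 | h9
    · exact (mul_eq_zero.mp h9).resolve_left hai
    · exact absurd h9 (hd i hi).ne'
  have h9 : c i = r * d i := by
    have := pow_eq_zero_iff (two_ne_zero) |>.mp h8
    linarith
  rw [h9, hr]
  field_simp

theorem gen_inv {G : Type*} [Group G] [Finite G] {θ : G → ℂ} (hθ : IsGeneralizedCharacter G θ) (g : G) :
    θ g⁻¹ = conj (θ g) := by
  obtain ⟨a, b, ha, hb, rfl⟩ := hθ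
  simp only [Pi.sub_apply, map_sub, char_inv ha, char_inv hb]

theorem phi_ne {G : Type*} [Group G] [Fintype G] [Fintype (IrrCharacter G)] (t g : G)
    (h : ∑ χ : IrrCharacter G, ((χ : G → ℂ) t ^ 2 / (χ : G → ℂ) 1) * (χ : G → ℂ) g ≠ 0) :
    ∃ a b : G, IsConj t a ∧ IsConj t b ∧ a * b = g⁻¹ := by
  have h1 := card_pairs_eq t t g⁻¹
  have h2 : ∀ χ : IrrCharacter G, (χ : G → ℂ) 1 * (centralChar (χ : G → ℂ) t * centralChar (χ : G → ℂ) t)
      * conj ((χ : G → ℂ) g⁻¹) = ((cl t).card : ℂ) ^ 2 * (((χ : G → ℂ) t ^ 2 / (χ : G → ℂ) 1) * (χ : G → ℂ) g) := by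
    intro χ
    rw [centralChar_eq, ← char_inv (irr_isChar χ.2), inv_inv]
    have := irr_one_ne_zero χ.2
    field_simp
  rw [Finset.sum_congr rfl (fun χ _ => h2 χ), ← Finset.mul_sum] at h1
  have h3 : (Nat.card {p : G × G // IsConj t p.1 ∧ IsConj t p.2 ∧ p.1 * p.2 = g⁻¹} : ℂ) ≠ 0 := by
    rw [h1]
    refine mul_ne_zero (inv_ne_zero (by exact_mod_cast Nat.card_pos.ne')) (mul_ne_zero (pow_ne_zero _ ?_) h)
    exact_mod_cast (card_cl_pos t).ne'
  have h4 : Nat.card {p : G × G // IsConj t p.1 ∧ IsConj t p.2 ∧ p.1 * p.2 = g⁻¹} ≠ 0 := by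
    exact_mod_cast h3
  obtain ⟨⟨p, h5⟩⟩ := (Nat.card_ne_zero.mp h4).1
  exact ⟨p.1, p.2, h5⟩

theorem three_sums {G : Type*} [Group G] [Fintype G] [Fintype (IrrCharacter G)] {M : Ideal AlgInt}
    (hM : IsPModular 2 M) [DecidablePred (· ∈ principalBlock M G)] (t : G) (ht : orderOf t = 2)
    (y : G) (hy : ∃ k : ℕ, orderOf y = 2 ^ k)
    (hinv : ∀ g : G, (g * t * g⁻¹) * y⁻¹ * (g * t * g⁻¹)⁻¹ ≠ y⁻¹⁻¹) :
    ∑ χ : IrrCharacter G with χ ∈ principalBlock M G, (χ : G → ℂ) y * (χ : G → ℂ) 1 = 0 ∧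
    ∑ χ : IrrCharacter G with χ ∈ principalBlock M G, (χ : G → ℂ) y * (χ : G → ℂ) t = 0 ∧
    ∑ χ : IrrCharacter G with χ ∈ principalBlock M G,
      (χ : G → ℂ) y * ((χ : G → ℂ) t ^ 2 / (χ : G → ℂ) 1) = 0 := by
  classical
  have hpr := hM.2.1.isPrime
  have hy1 : y ≠ 1 := by
    rintro rfl
    apply hinv 1
    simp
  have hyd : 2 ∣ orderOf y⁻¹ := by
    rw [orderOf_inv]
    obtain ⟨k, hk⟩ := hy
    rw [hk]
    apply dvd_pow_self
    rintro rfl
    rw [pow_zero, orderOf_eq_one_iff] at hk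
    exact hy1 hk
  have h1 : ¬ 2 ∣ orderOf (1 : G) := by rw [orderOf_one]; norm_num
  refine ⟨?_, ?_, ?_⟩
  · have h2 := weak_block_orthogonality hM isPBlock_principal 1 y⁻¹ h1 hyd
    rw [finsum_mem_irr] at h2
    rw [← h2]
    apply Finset.sum_congr rfl
    intro χ _
    rw [← char_inv (irr_isChar χ.2), inv_inv, mul_comm]
  · have h2 := prin_orth_ne hM (u := y⁻¹) (v := t) (by rw [orderOf_inv]; exact hy)
      ⟨1, by rw [ht]; norm_num⟩ (by
        intro hc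
        obtain ⟨c, hc⟩ := isConj_iff.mp hc
        apply hinv c⁻¹
        have h3 : c⁻¹ * t * c⁻¹⁻¹ = y⁻¹ := by rw [← hc]; group
        rw [h3]
        have h4 : t * t = 1 := by
          have := pow_orderOf_eq_one t
          rwa [ht, sq] at this
        have h5 : y⁻¹ * y⁻¹ = 1 := by
          rw [← h3]
          calc c⁻¹ * t * c⁻¹⁻¹ * (c⁻¹ * t * c⁻¹⁻¹) = c⁻¹ * (t * t) * c := by group
            _ = 1 := by rw [h4]; group
        rw [h5, one_mul]) (isPBlock_principal (M := M) (G := G))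
    rw [← h2]
    apply Finset.sum_congr rfl
    intro χ _
    rw [← char_inv (irr_isChar χ.2), inv_inv]
  · let φ : G → ℂ := fun g => ∑ χ : IrrCharacter G, ((χ : G → ℂ) t ^ 2 / (χ : G → ℂ) 1) * (χ : G → ℂ) g
    have hφc : IsClassFunction G φ := by
      intro a b
      apply Finset.sum_congr rfl
      intro ζ _
      rw [irr_classFun ζ.2]
    have hφB : ∀ g, blockPart (principalBlock M G) φ g = ∑ χ : IrrCharacter G with χ ∈ principalBlock M G,
        (χ : G → ℂ) g * ((χ : G → ℂ) t ^ 2 / (χ : G → ℂ) 1) := by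
      intro g
      show blockPart (principalBlock M G) (fun g => ∑ χ : IrrCharacter G,
        ((χ : G → ℂ) t ^ 2 / (χ : G → ℂ) 1) * (χ : G → ℂ) g) g = _
      rw [blockPart_sum _ _ _ _ (fun i _ => irr_classFun i.2), Finset.sum_filter]
      apply Finset.sum_congr rfl
      intro ζ _
      rw [blockPart_irr]
      split_ifs
      · ring
      · ring
    rw [← hφB]
    have h2 := principal_translate hM hy hφc (1 : Subgroup.centralizer ({y} : Set G)) (by
      rw [orderOf_one]; norm_num)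
    rw [OneMemClass.coe_one, mul_one] at h2
    rw [h2]
    have := Fintype.ofFinite (Subgroup.centralizer ({y} : Set G))
    apply blockPart_eq_zero_of_pRegular hM principalBlock_isPBlock (classFun_translate y hφc) _ 1 (by
      rw [orderOf_one]; norm_num)
    intro c hc
    by_contra hne
    obtain ⟨a, b, ha, hb, hab⟩ := phi_ne t _ hne
    obtain ⟨g, rfl⟩ := isConj_iff.mp ha
    obtain ⟨g', rfl⟩ := isConj_iff.mp hb
    apply hinv g
    rw [inv_inv]
    have h4 : t * t = 1 := by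
      have := pow_orderOf_eq_one t
      rwa [ht, sq] at this
    have h4' : t⁻¹ = t := inv_eq_of_mul_eq_one_left h4
    have h5 : (g * t * g⁻¹) * (y * (c : G)) * (g * t * g⁻¹)⁻¹ = (y * (c : G))⁻¹ := by
      have h6 : y * (c : G) = (g' * t * g'⁻¹) * (g * t * g⁻¹) := by
        have h7 : y * (c : G) = ((g * t * g⁻¹) * (g' * t * g'⁻¹))⁻¹ := by rw [hab, inv_inv]
        rw [h7, mul_inv_rev]
        simp only [mul_inv_rev, inv_inv, h4', mul_assoc]
      rw [← hab, h6]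
      group
    have hcomm : Commute y (c : G) := ((Subgroup.mem_centralizer_singleton_iff).mp c.2).symm
    have h6 : IsPPart 2 (y * (c : G)) y := isPPart_mul hy hcomm (by rwa [Subgroup.orderOf_coe])
    have h7 := isPPart_conj h6 (g * t * g⁻¹)
    rw [h5] at h7
    have h8 : IsPPart 2 (y * (c : G))⁻¹ y⁻¹ := by
      rw [mul_inv_rev, ← (hcomm.inv_inv).eq]
      exact isPPart_mul (by rw [orderOf_inv]; exact hy) hcomm.inv_inv (by
        rw [orderOf_inv, Subgroup.orderOf_coe]; exact hc)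
    have h9 := isPPart_unique Nat.prime_two h7 h8
    have h10 := congrArg (·⁻¹) h9
    simp only [inv_inv] at h10
    calc g * t * g⁻¹ * y⁻¹ * (g * t * g⁻¹)⁻¹ = (g * t * g⁻¹ * y * (g * t * g⁻¹)⁻¹)⁻¹ := by group
      _ = y := h10


/-- Let M be a maximal ideal of the algebraic integers containing 2, P a 2-subgroup of the finite group G, U a subset of P, and t an involution of G such that no element of U is inverted by any conjugate of t. Let θ be a generalized character of P vanishing outside U, and for χ in the principal 2-block B₀ put a_χ = #P⁻¹ Σ_{y ∈ P} χ(y) θ(y⁻¹). Then Σ_{χ ∈ B₀} a_χ χ(t)^2/χ(1) = 0, Σ_{χ ∈ B₀} a_χ χ(1) = 0 and Σ_{χ ∈ B₀} a_χ χ(t) = 0. If moreover #P⁻¹ Σ_{y ∈ P} θ(y) ≠ 0, then either at least two of the a_χ have positive real part and at least two have negative real part, or G has a proper normal subgroup containing O_2'(G) and t. -/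
theorem result {G : Type*} [Group G] [Finite G] (M : Ideal Cfsg.AlgInt) (hM : Cfsg.IsPModular 2 M) (P : Subgroup G) (hP : IsPGroup 2 P) (U : Set G) (hUP : U ⊆ (P : Set G)) (t : G) (ht : orderOf t = 2) (hinv : ∀ u ∈ U, ∀ g : G, (g * t * g⁻¹) * u * (g * t * g⁻¹)⁻¹ ≠ u⁻¹) (θ : ↥P → ℂ) (hθ : Cfsg.IsGeneralizedCharacter ↥P θ) (hθU : ∀ y : ↥P, (y : G) ∉ U → θ y = 0) : (∑ᶠ χ ∈ Cfsg.principalBlock M G, ((Nat.card ↥P : ℂ)⁻¹ * ∑ᶠ y : ↥P, (χ : G → ℂ) (y : G) * θ y⁻¹) * (χ : G → ℂ) t ^ 2 / (χ : G → ℂ) 1 = 0) ∧ (∑ᶠ χ ∈ Cfsg.principalBlock M G, ((Nat.card ↥P : ℂ)⁻¹ * ∑ᶠ y : ↥P, (χ : G → ℂ) (y : G) * θ y⁻¹) * (χ : G → ℂ) 1 = 0) ∧ (∑ᶠ χ ∈ Cfsg.principalBlock M G, ((Nat.card ↥P : ℂ)⁻¹ * ∑ᶠ y : ↥P, (χ : G → ℂ) (y : G) * θ y⁻¹) * (χ : G → ℂ) t = 0) ∧ ((Nat.card ↥P : ℂ)⁻¹ * ∑ᶠ y : ↥P, θ y ≠ 0 → (2 ≤ Nat.card {χ : Cfsg.IrrCharacter G // χ ∈ Cfsg.principalBlock M G ∧ 0 < (((Nat.card ↥P : ℂ)⁻¹ * ∑ᶠ y : ↥P, (χ : G → ℂ) (y : G) * θ y⁻¹)).re}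 ∧ 2 ≤ Nat.card {χ : Cfsg.IrrCharacter G // χ ∈ Cfsg.principalBlock M G ∧ (((Nat.card ↥P : ℂ)⁻¹ * ∑ᶠ y : ↥P, (χ : G → ℂ) (y : G) * θ y⁻¹)).re < 0}) ∨ ∃ K : Subgroup G, K.Normal ∧ K ≠ ⊤ ∧ Cfsg.pPrimeCore 2 G ≤ K ∧ t ∈ K) := by
  classical
  have := Fintype.ofFinite G
  have := Fintype.ofFinite (IrrCharacter G)
  have := Fintype.ofFinite P
  have hpr := hM.2.1.isPrime
  have hord : ∀ y : P, ∃ k : ℕ, orderOf (y : G) = 2 ^ k := by
    intro y
    obtain ⟨k, hk⟩ := (IsPGroup.iff_orderOf.mp hP) y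
    exact ⟨k, by rw [Subgroup.orderOf_coe]; exact hk⟩
  have hcard : (Nat.card P : ℂ) ≠ 0 := by exact_mod_cast Nat.card_pos.ne'
  simp only [finsum_mem_irr]
  simp only [finsum_eq_sum_of_fintype]
  set a : IrrCharacter G → ℂ := fun χ => (Nat.card P : ℂ)⁻¹ * ∑ y : P, (χ : G → ℂ) (y : G) * θ y⁻¹ with ha
  have key : ∀ F : IrrCharacter G → ℂ, (∀ y : P, ((y⁻¹ : P) : G) ∈ U →
      ∑ χ : IrrCharacter G with χ ∈ principalBlock M G, (χ : G → ℂ) y * F χ = 0) →
      ∑ χ : IrrCharacter G with χ ∈ principalBlock M G, a χ * F χ = 0 := by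
    intro F hF
    have h1 : ∀ χ : IrrCharacter G, a χ * F χ = (Nat.card P : ℂ)⁻¹ * ∑ y : P, θ y⁻¹ * ((χ : G → ℂ) y * F χ) := by
      intro χ
      rw [ha]
      simp only
      rw [mul_assoc, Finset.sum_mul]
      congr 1
      apply Finset.sum_congr rfl
      intro y _
      ring
    simp only [h1]
    rw [← Finset.mul_sum, Finset.sum_comm]
    rw [Finset.sum_eq_zero, mul_zero]
    intro y _
    rw [← Finset.mul_sum]
    by_cases hy : ((y⁻¹ : P) : G) ∈ U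
    · rw [hF y hy, mul_zero]
    · rw [hθU _ hy, zero_mul]
  have hs : ∀ y : P, ((y⁻¹ : P) : G) ∈ U → _ := fun y hy =>
    three_sums hM t ht (y : G) (hord y) (fun g => by
      have := hinv _ hy g
      rwa [Subgroup.coe_inv] at this)
  have h1 := key (fun χ => (χ : G → ℂ) 1) (fun y hy => (hs y hy).1)
  have h2 := key (fun χ => (χ : G → ℂ) t) (fun y hy => (hs y hy).2.1)
  have h3 := key (fun χ => (χ : G → ℂ) t ^ 2 / (χ : G → ℂ) 1) (fun y hy => (hs y hy).2.2)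
  refine ⟨?_, h1, h2, ?_⟩
  · rw [← h3]
    apply Finset.sum_congr rfl
    intro χ _
    rw [mul_div_assoc]
  intro hne
  -- integrality
  have haint : ∀ χ : IrrCharacter G, ∃ n : ℤ, a χ = n := by
    intro χ
    obtain ⟨n, hn⟩ := classInner_gen_int (isGen_of_char (isChar_restrict P (irr_isChar χ.2))) hθ
    refine ⟨n, ?_⟩
    rw [← hn, ha]
    unfold classInner
    simp only [gen_inv hθ]
  choose n hn using haint
  have hare : ∀ χ, (a χ).re = n χ := fun χ => by rw [hn]; simp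
  have ha1 : n (oneIrr G) ≠ 0 := by
    intro h4
    apply hne
    have h5 := hn (oneIrr G)
    rw [h4, Int.cast_zero, ha] at h5
    simp only [oneIrr_apply, one_mul] at h5
    rw [← h5]
    congr 1
    exact (Fintype.sum_equiv (Equiv.inv P) _ _ (fun y => rfl)).symm
  have htr : ∀ χ : IrrCharacter G, (χ : G → ℂ) t = (((χ : G → ℂ) t).re : ℂ) := by
    intro χ
    have h4 : t⁻¹ = t := by
      have := pow_orderOf_eq_one t
      rw [ht, sq] at this
      exact inv_eq_of_mul_eq_one_left this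
    have h5 := char_inv (irr_isChar χ.2) t
    rw [h4] at h5
    exact (Complex.conj_eq_iff_real.mp h5.symm).elim (fun r hr => by rw [hr]; simp)
  have hd : ∀ χ : IrrCharacter G, (χ : G → ℂ) 1 = ((charDegree (χ : G → ℂ) : ℝ) : ℂ) := fun χ => by
    rw [← charDegree_cast (irr_isChar χ.2)]; simp
  set s := Finset.univ.filter (fun χ : IrrCharacter G => χ ∈ principalBlock M G) with hsdef
  have r1 : ∑ χ ∈ s, (n χ : ℝ) * (charDegree (χ : G → ℂ) : ℝ) = 0 := by
    have h4 : ((∑ χ ∈ s, (n χ : ℝ) * (charDegree (χ : G → ℂ) : ℝ) : ℝ) : ℂ) = 0 := by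
      push_cast
      rw [← h1]
      apply Finset.sum_congr rfl
      intro χ _
      rw [hn, hd]; simp
    exact_mod_cast h4
  have r2 : ∑ χ ∈ s, (n χ : ℝ) * ((χ : G → ℂ) t).re = 0 := by
    have h4 : ((∑ χ ∈ s, (n χ : ℝ) * ((χ : G → ℂ) t).re : ℝ) : ℂ) = 0 := by
      push_cast
      rw [← h2]
      apply Finset.sum_congr rfl
      intro χ _
      rw [hn, ← htr]
    exact_mod_cast h4
  have r3 : ∑ χ ∈ s, (n χ : ℝ) * ((χ : G → ℂ) t).re ^ 2 / (charDegree (χ : G → ℂ) : ℝ) = 0 := by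
    have h4 : ((∑ χ ∈ s, (n χ : ℝ) * ((χ : G → ℂ) t).re ^ 2 / (charDegree (χ : G → ℂ) : ℝ) : ℝ) : ℂ) = 0 := by
      push_cast
      rw [← h3]
      apply Finset.sum_congr rfl
      intro χ _
      rw [hn, ← htr, hd, mul_div_assoc]; simp
    exact_mod_cast h4
  have hdpos : ∀ χ ∈ s, (0 : ℝ) < (charDegree (χ : G → ℂ) : ℝ) := fun χ _ => by
    exact_mod_cast charDegree_pos χ.2
  have h1s : oneIrr G ∈ s := by
    rw [hsdef, Finset.mem_filter]
    exact ⟨Finset.mem_univ _, oneIrr_mem⟩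
  -- the final argument
  have final : (∃ i0 ∈ s, ∀ i ∈ s, i ≠ i0 → (n i : ℝ) ≤ 0) ∨ (∃ i0 ∈ s, ∀ i ∈ s, i ≠ i0 → 0 ≤ (n i : ℝ)) →
      ∃ K : Subgroup G, K.Normal ∧ K ≠ ⊤ ∧ pPrimeCore 2 G ≤ K ∧ t ∈ K := by
    intro h
    have hratio : ∃ i0 ∈ s, ∀ i ∈ s, (n i : ℝ) ≠ 0 → ((i : G → ℂ) t).re * (charDegree (i0 : G → ℂ) : ℝ)
        = ((i0 : G → ℂ) t).re * (charDegree (i : G → ℂ) : ℝ) := by
      rcases h with ⟨i0, hi0, h⟩ | ⟨i0, hi0, h⟩
      · exact ⟨i0, hi0, ratio_const s (fun i => (n i : ℝ)) _ _ hdpos r1 r2 r3 hi0 h⟩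
      · refine ⟨i0, hi0, fun i hi hni => ratio_const s (fun i => -(n i : ℝ))
          (fun i => ((i : G → ℂ) t).re) (fun i => (charDegree (i : G → ℂ) : ℝ)) hdpos ?_ ?_ ?_ hi0
          (fun j hj hne => neg_nonpos.mpr (h j hj hne)) i hi (neg_ne_zero.mpr hni)⟩
        · simp only [neg_mul, Finset.sum_neg_distrib, r1, neg_zero]
        · simp only [neg_mul, Finset.sum_neg_distrib, r2, neg_zero]
        · simp only [neg_mul, neg_div, Finset.sum_neg_distrib, r3, neg_zero]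
    obtain ⟨i0, hi0, hratio⟩ := hratio
    have h4 := hratio (oneIrr G) h1s (by exact_mod_cast ha1)
    simp only [oneIrr_apply, charDegree_oneIrr, Complex.one_re, Nat.cast_one, one_mul, mul_one] at h4
    -- a nonprincipal character with nonzero coefficient
    have h5 : ∃ χ ∈ s, χ ≠ oneIrr G ∧ n χ ≠ 0 := by
      by_contra hcon
      push Not at hcon
      rw [← Finset.add_sum_erase _ _ h1s] at r1
      rw [Finset.sum_eq_zero (fun χ hχ => by
        rw [Finset.mem_erase] at hχ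
        rw [hcon χ hχ.2 hχ.1]; simp)] at r1
      simp only [charDegree_oneIrr, Nat.cast_one, mul_one, add_zero] at r1
      exact ha1 (by exact_mod_cast r1)
    obtain ⟨χ, hχs, hχ1, hχn⟩ := h5
    have h6 := hratio χ hχs (by exact_mod_cast hχn)
    rw [← h4] at h6
    have h7 : ((χ : G → ℂ) t).re = (charDegree (χ : G → ℂ) : ℝ) := by
      have h8 := (hdpos i0 hi0).ne'
      rw [mul_comm (charDegree (i0 : G → ℂ) : ℝ)] at h6
      exact mul_right_cancel₀ h8 h6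
    refine ⟨charKer (irr_isChar χ.2), charKer_normal _, ?_, ?_, ?_⟩
    · intro h8
      exact hχ1 ((charKer_eq_top_iff χ).mp h8)
    · intro x hx
      rw [mem_charKer]
      have hcop := Cfsg.Agent.H1.pPrimeCore_coprime 2 G
      have hnorm := Cfsg.Agent.H1.pPrimeCore_normal 2 G
      rw [hsdef, Finset.mem_filter] at hχs
      exact mem_principal_trivial hM (N := pPrimeCore 2 G)
        ((Nat.Prime.coprime_iff_not_dvd Nat.prime_two).mp hcop.symm) hχs.2 x hx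
    · rw [mem_charKer, htr, h7, hd]
  by_contra hcon
  rw [not_or, not_and_or] at hcon
  obtain ⟨hcon1, hcon2⟩ := hcon
  apply hcon2
  apply final
  have hone : ∀ (Q : IrrCharacter G → Prop), ¬ 2 ≤ Nat.card {χ : IrrCharacter G // Q χ} →
      ∀ χ ψ, Q χ → Q ψ → χ = ψ := by
    intro Q hQ χ ψ h8 h9
    by_contra hne
    apply hQ
    have : Nontrivial {χ : IrrCharacter G // Q χ} := ⟨⟨χ, h8⟩, ⟨ψ, h9⟩, fun h => hne (congrArg Subtype.val h)⟩
    exact Finite.one_lt_card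
  have hmem : ∀ χ ∈ s, χ ∈ principalBlock M G := fun χ hχ => (Finset.mem_filter.mp hχ).2
  rcases hcon1 with h4 | h4
  · left
    have h5 := hone _ h4
    by_cases h6 : ∃ i ∈ s, (0 : ℝ) < n i
    · obtain ⟨i, hi, hpos⟩ := h6
      refine ⟨i, hi, fun j hj hji => ?_⟩
      by_contra h7
      rw [not_le] at h7
      exact hji (h5 j i ⟨hmem j hj, by show 0 < (a j).re; rw [hare]; exact h7⟩
        ⟨hmem i hi, by show 0 < (a i).re; rw [hare]; exact hpos⟩)
    · push Not at h6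
      exact ⟨oneIrr G, h1s, fun j hj _ => h6 j hj⟩
  · right
    have h5 := hone _ h4
    by_cases h6 : ∃ i ∈ s, (n i : ℝ) < 0
    · obtain ⟨i, hi, hpos⟩ := h6
      refine ⟨i, hi, fun j hj hji => ?_⟩
      by_contra h7
      rw [not_le] at h7
      exact hji (h5 j i ⟨hmem j hj, by show (a j).re < 0; rw [hare]; exact h7⟩
        ⟨hmem i hi, by show (a i).re < 0; rw [hare]; exact hpos⟩)
    · push Not at h6
      exact ⟨oneIrr G, h1s, fun j hj _ => h6 j hj⟩

end Cfsg.Agent.S4722
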