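import Cfsg.Statements.S4723
import Cfsg.Agent.H27.CoverA

set_option autoImplicit false
open Cfsg

namespace Cfsg.Agent.S4723

open Cfsg.Agent.H3 Cfsg.Agent.H11 Cfsg.Agent.H27
open scoped ComplexConjugate


/-- Let p be a prime, M a maximal ideal of the algebraic integers containing p, H a normal subgroup of the finite group G and b a p-block of H. Let T be the stabilizer of b in G. Then b contains a character θ of height zero whose own stabilizer in G (the elements g with θ(g h g⁻¹) = θ(h) for all h ∈ H) has index prime to p in T, i.e. contains a Sylow p-subgroup of T. -/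
theorem result {G : Type*} [Group G] [Finite G] (p : ℕ) [Fact p.Prime] (M : Ideal Cfsg.AlgInt) (hM : Cfsg.IsPModular p M) (H : Subgroup G) [H.Normal] (b : Set (Cfsg.IrrCharacter ↥H)) (hb : Cfsg.IsPBlock M b) (T : Subgroup G) (hT : (∀ g : G, g ∈ T ↔ ∀ θ ∈ b, ∀ θ' : Cfsg.IrrCharacter ↥H, (∀ h h' : ↥H, (h' : G) = g * h * g⁻¹ → (θ' : ↥H → ℂ) h' = (θ : ↥H → ℂ) h) → θ' ∈ b)) : ∃ θ ∈ b, Cfsg.blockHeight p b (θ : ↥H → ℂ) = 0 ∧ ∃ S : Subgroup G, S ≤ T ∧ (∀ g : G, g ∈ S ↔ (g ∈ T ∧ ∀ h h' : ↥H, (h' : G) = g * h * g⁻¹ → (θ : ↥H → ℂ) h' = (θ : ↥H → ℂ) h)) ∧ ¬ p ∣ S.relIndex T := by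
  classical
  have := Fintype.ofFinite G
  have hH : H.Normal := inferInstance
  have hpr := hM.2.1.isPrime
  have hTcj : ∀ g ∈ T, ∀ θ ∈ b, cjIrr hH g θ ∈ b := by
    intro g hg θ hθ
    apply (hT g⁻¹).mp (T.inv_mem hg) θ hθ
    intro h h' hh
    show (θ : H → ℂ) (cjEquiv hH g h') = (θ : H → ℂ) h
    have h1 : cjEquiv hH g h' = h := by
      apply Subtype.ext
      show g * (h' : G) * g⁻¹ = h
      rw [hh]; group
    rw [h1]
  have hHT : H ≤ T := by
    intro g hg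
    rw [hT]
    intro θ hθ θ' hθ'
    have : θ' = θ := by
      apply Subtype.ext
      funext h
      have h1 := hθ' (⟨g⁻¹, H.inv_mem hg⟩ * h * ⟨g, hg⟩) h (by
        show (h : G) = g * (g⁻¹ * h * g) * g⁻¹
        group)
      rw [h1]
      have h2 := irr_classFun θ.2 h ⟨g⁻¹, H.inv_mem hg⟩
      have h3 : (⟨g⁻¹, H.inv_mem hg⟩ : H) * h * (⟨g⁻¹, H.inv_mem hg⟩ : H)⁻¹ = ⟨g⁻¹, H.inv_mem hg⟩ * h * ⟨g, hg⟩ := by
        apply Subtype.ext
        show g⁻¹ * (h : G) * (g⁻¹)⁻¹ = g⁻¹ * h * g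
        rw [inv_inv]
      rw [h3] at h2
      exact h2
    rw [this]; exact hθ
  obtain ⟨P, hP⟩ := Cfsg.Agent.L.exists_sylIn (p := p) T
  have hLT : H ⊔ P ≤ T := sup_le hHT hP.le
  obtain ⟨θ, hθ, hθ0, hinv⟩ := exists_invariant_height_zero hM hH hb hP.isPGroup
    (fun x hx => hTcj x (hLT hx))
  refine ⟨θ, hθ, hθ0, T ⊓ inertia hH (θ : H → ℂ), inf_le_left, ?_, ?_⟩
  · intro g
    rw [Subgroup.mem_inf, mem_inertia']
    constructor
    · rintro ⟨h1, h2⟩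
      refine ⟨h1, fun h h' hh => ?_⟩
      rw [← h2 h]
      exact congrArg (θ : H → ℂ) (Subtype.ext hh)
    · rintro ⟨h1, h2⟩
      exact ⟨h1, fun n => h2 n _ rfl⟩
  · intro hd
    apply hP.not_dvd
    have h1 : P ≤ T ⊓ inertia hH (θ : H → ℂ) := by
      intro u hu
      exact ⟨hP.le hu, hinv u (Subgroup.mem_sup_right hu)⟩
    exact hd.trans ⟨P.relIndex (T ⊓ inertia hH (θ : H → ℂ)), by
      rw [mul_comm]; exact (Subgroup.relIndex_mul_relIndex _ _ _ h1 inf_le_left).symm⟩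

end Cfsg.Agent.S4723
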