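import Cfsg.Statements.S4725
import Cfsg.Agent.H27.DefZero
import Cfsg.Agent.H11.SecondMain2

set_option autoImplicit false
open Cfsg

namespace Cfsg.Agent.S4725

open Cfsg.Agent.H3 Cfsg.Agent.H11 Cfsg.Agent.H27
open scoped ComplexConjugate


/-- Let p be a prime, M a maximal ideal of the algebraic integers containing p, H a subgroup of the finite group G, and b a p-block of H inducing the p-block B of G, with b and B of the same defect. Then for every height-zero ζ ∈ b there is a height-zero χ ∈ B whose multiplicity in the character induced from ζ is not divisible by p. -/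
theorem result {G : Type*} [Group G] [Fintype G] (p : ℕ) [Fact p.Prime] (M : Ideal Cfsg.AlgInt) (hM : Cfsg.IsPModular p M) (H : Subgroup G) (b : Set (Cfsg.IrrCharacter ↥H)) (B : Set (Cfsg.IrrCharacter G)) (hind : Cfsg.IsInducedBlock M H b B) (hdef : Cfsg.blockDefect p b = Cfsg.blockDefect p B) (ζ : Cfsg.IrrCharacter ↥H) (hζ : ζ ∈ b) (hζ0 : Cfsg.blockHeight p b (ζ : ↥H → ℂ) = 0) : ∃ χ ∈ B, Cfsg.blockHeight p B (χ : G → ℂ) = 0 ∧ ∃ a : ℕ, Cfsg.classInner (Cfsg.indFun H (ζ : ↥H → ℂ)) (χ : G → ℂ) = (a : ℂ) ∧ ¬ p ∣ a := by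
  classical
  have := Fintype.ofFinite H
  have := Fintype.ofFinite (IrrCharacter G)
  have hpr := hM.2.1.isPrime
  have hpp := hM.1
  have hb := hind.1
  have hB := hind.2.1
  obtain ⟨χ₀, hχ₀⟩ := isPBlock_nonempty hB
  have h1 := li_omega_resAlg_sub hM H hind hζ hχ₀ (isZS_fIdem hB)
  rw [omega_fIdem, if_pos hχ₀] at h1
  choose a ha using fun χ : IrrCharacter G =>
    classInner_char_nat (isChar_ind H (irr_isChar ζ.2)) (irr_isChar χ.2)
  have hG0 : (Nat.card G : ℂ) ≠ 0 := by exact_mod_cast Nat.card_pos.ne'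
  have hH0 : (Nat.card H : ℂ) ≠ 0 := by exact_mod_cast Nat.card_pos.ne'
  have hidx : (Nat.card G : ℂ) = (H.index : ℂ) * (Nat.card H : ℂ) := by
    exact_mod_cast (Subgroup.index_mul_card H).symm
  have hi0 : (H.index : ℂ) ≠ 0 := by exact_mod_cast Subgroup.index_ne_zero_of_finite
  have hζ1 := irr_one_ne_zero ζ.2
  have h2 : omega (ζ : H → ℂ) (resAlg H (fIdem B)) = ∑ χ : IrrCharacter G with χ ∈ B,
      ((charDegree (χ : G → ℂ) * a χ : ℕ) : ℂ) / ((H.index * charDegree (ζ : H → ℂ) : ℕ) : ℂ) := by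
    unfold omega
    rw [lin_apply]
    simp only [coeff_resAlg, coeff_fIdem]
    have h3 : ∀ h : H, blockCoeff B (h : G) * (ζ : H → ℂ) h = ∑ χ : IrrCharacter G with χ ∈ B,
        (Nat.card G : ℂ)⁻¹ * ((χ : G → ℂ) 1 * ((ζ : H → ℂ) h * conj ((χ : G → ℂ) h))) := by
      intro h
      unfold blockCoeff
      rw [finsum_mem_irr, Finset.mul_sum, Finset.sum_mul]
      apply Finset.sum_congr rfl
      intro χ _
      ring
    rw [Finset.sum_congr rfl (fun h _ => h3 h), Finset.sum_comm, Finset.sum_div]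
    apply Finset.sum_congr rfl
    intro χ _
    rw [← Finset.mul_sum, ← Finset.mul_sum]
    have h4 : ∑ h : H, (ζ : H → ℂ) h * conj ((χ : G → ℂ) h) = (Nat.card H : ℂ) * a χ := by
      rw [← ha χ, frobenius_reciprocity H _ (irr_classFun χ.2)]
      unfold classInner
      rw [mul_inv_cancel_left₀ hH0]
    rw [h4]
    push_cast
    rw [charDegree_cast (irr_isChar χ.2), charDegree_cast (irr_isChar ζ.2), hidx]
    field_simp
  have h5 : ¬ MemLocalIdeal M (omega (ζ : H → ℂ) (resAlg H (fIdem B))) := by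
    rw [li_congr h1]; exact not_li_one M
  by_contra hcon
  push Not at hcon
  apply h5
  rw [h2]
  apply li_sum
  intro χ hχ
  rw [Finset.mem_filter] at hχ
  by_cases ha0 : a χ = 0
  · rw [ha0]; simp; exact li_zero M
  have hχ0 := (charDegree_pos χ.2).ne'
  have hζ0' := (charDegree_pos ζ.2).ne'
  rw [li_natDiv_iff hM (mul_ne_zero hχ0 ha0) (mul_ne_zero Subgroup.index_ne_zero_of_finite hζ0'),
    Nat.factorization_mul hχ0 ha0, Nat.factorization_mul Subgroup.index_ne_zero_of_finite hζ0',
    Finsupp.add_apply, Finsupp.add_apply]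
  have e1 : (Nat.card G).factorization p = H.index.factorization p + (Nat.card H).factorization p := by
    rw [← Subgroup.index_mul_card H, Nat.factorization_mul Subgroup.index_ne_zero_of_finite Nat.card_pos.ne',
      Finsupp.add_apply]
  have e2 := sInf_le_fact (p := p) hζ
  have e3 := sInf_le_fact (p := p) hχ.2
  have e4 := fact_degree_le (p := p) ζ
  have e5 := fact_degree_le (p := p) χ
  unfold blockDefect at hdef
  unfold blockHeight at hζ0
  by_cases hh : blockHeight p B (χ : G → ℂ) = 0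
  · have h6 := hcon χ hχ.2 hh (a χ) (ha χ)
    have h7 : 0 < (a χ).factorization p := hpp.factorization_pos_of_dvd ha0 h6
    unfold blockHeight at hh
    omega
  · unfold blockHeight at hh
    omega

end Cfsg.Agent.S4725
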