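import Cfsg.Statements.S4726
import Cfsg.Agent.H27.PiKer2

set_option autoImplicit false
open Cfsg

namespace Cfsg.Agent.S4726

open Cfsg.Agent.H3 Cfsg.Agent.H11 Cfsg.Agent.H27 Cfsg.Agent.H26

/-- Let p be a prime, M a maximal ideal of the algebraic integers containing p, H a subgroup of the finite group G and b a p-block of H with defect group D₀ such that C_G(D₀) ≤ H. Then b induces a block of G, and for every block B of G induced by b there is a defect group D of B with Z(D) ≤ Z(D₀) ≤ D₀ ≤ D (as subgroups of G). In particular, if the defect groups of B are abelian then D₀ is a defect group of B. -/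
theorem result {G : Type*} [Group G] [Finite G] (p : ℕ) [Fact p.Prime] (M : Ideal Cfsg.AlgInt) (hM : Cfsg.IsPModular p M) (H : Subgroup G) (b : Set (Cfsg.IrrCharacter ↥H)) (hb : Cfsg.IsPBlock M b) (D₀ : Subgroup ↥H) (hD₀ : Cfsg.IsDefectGroup p M b D₀) (hC : Subgroup.centralizer ((D₀.map H.subtype : Subgroup G) : Set G) ≤ H) : Cfsg.InducedBlockDefined M H b ∧ ∀ B : Set (Cfsg.IrrCharacter G), Cfsg.IsInducedBlock M H b B → (∃ D : Subgroup G, Cfsg.IsDefectGroup p M B D ∧ (Subgroup.center ↥D).map D.subtype ≤ ((Subgroup.center ↥D₀).map D₀.subtype).map H.subtype ∧ ((Subgroup.center ↥D₀).map D₀.subtype).map H.subtype ≤ D₀.map H.subtype ∧ D₀.map H.subtype ≤ D) ∧ (∀ D : Subgroup G, Cfsg.IsDefectGroup p M B D → IsMulCommutative ↥D → Cfsg.IsDefectGroup p M B (D₀.map H.subtype)) := by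
  classical
  have := Fintype.ofFinite G
  have hpr := hM.2.1.isPrime
  have hCh := charP_KF hM
  have hdef := (isDefectGroup_iff_EH' hb).mp hD₀
  set Q : Subgroup G := D₀.map H.subtype with hQ
  have hmem := (isBlk_EH hb).mem
  have hidem := (isBlk_EH hb).idem
  refine ⟨exists_induced hM hb hdef.2.1 hdef.1 hC hdef.2.2.1, ?_⟩
  intro B hB
  have hfx : IsFx (cz Q) (EH M H b) := hmem.2.mono hC
  obtain ⟨f, hf, hbf⟩ := exists_blk_of_ne_zero (br_mem_Zc_centralizer hfx)
    (isFx_br_idem hdef.2.1 (hmem.2.mono hdef.1) hidem) hdef.2.2.1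
  have hin : InB p (EG M B) Q f := inB_of_ind hM hB hdef.2.1 hdef.1 hC hf hbf
  obtain ⟨D, e, hmax, hle⟩ := hin.exists_maxB
  have hDdef : IsDefectGroup p M B D := (isDefectGroup_iff_EG hB.2.1).mpr hmax.isDef
  have hQD : Q ≤ D := hle.le
  -- `D ⊓ cz Q ≤ Q`
  have hinf : D ⊓ cz Q ≤ Q := by
    obtain ⟨R, hR, hDR⟩ := PLE.centralizer_isDef_ge hmax.1.2.1 hf hle
    refine hDR.trans ?_
    have hRn : R ≤ nz Q := hR.1.trans (centralizer_le_normalizer' Q)
    have hsup : IsPGroup p (R ⊔ Q : Subgroup G) := isPGroup_sup hdef.2.1 hR.2.1 hRn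
    have h1 : br (R ⊔ Q) (EH M H b) ≠ 0 := by
      intro h0
      rw [← br_sup] at h0
      apply hR.2.2.1
      have h2 : br R (br Q (EH M H b) * f) = br R f := by rw [hbf]
      rw [br_mul hR.2.1 _ (hf.isFx.mono hR.1), h0, zero_mul] at h2
      · exact h2.symm
      · exact ((br_mem_Zc_centralizer hfx).2).mono hR.1
    have h3 := hdef.eq_of_le_of_br le_sup_right (sup_le (hR.1.trans hC) hdef.1) hsup h1
    rw [h3]
    exact le_sup_left
  have hZle : (Subgroup.center D).map D.subtype ≤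
      ((Subgroup.center D₀).map D₀.subtype).map H.subtype := by
    rintro _ ⟨z, hz, rfl⟩
    have hzc : (z : G) ∈ cz Q := by
      rw [Subgroup.mem_centralizer_iff]
      intro q hq
      have := Subgroup.mem_center_iff.mp hz ⟨q, hQD hq⟩
      exact congrArg Subtype.val this
    have hzQ : (z : G) ∈ Q := hinf ⟨z.2, hzc⟩
    obtain ⟨w, hw, hwz⟩ := hzQ
    refine ⟨w, ⟨⟨w, hw⟩, ?_, rfl⟩, hwz⟩
    rw [SetLike.mem_coe, Subgroup.mem_center_iff]
    intro g
    apply Subtype.ext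
    apply Subtype.ext
    have hg : ((g : H) : G) ∈ Q := ⟨(g : H), g.2, rfl⟩
    have h5 := Subgroup.mem_centralizer_iff.mp hzc _ hg
    have h6 : ((w : H) : G) = (z : G) := hwz
    change ((g : H) : G) * ((w : H) : G) = ((w : H) : G) * ((g : H) : G)
    rw [h6]; exact h5
  have hZQ : ((Subgroup.center D₀).map D₀.subtype).map H.subtype ≤ Q :=
    Subgroup.map_mono (Subgroup.map_subtype_le _)
  refine ⟨⟨D, hDdef, hZle, hZQ, hQD⟩, ?_⟩
  intro D' hD' hcomm
  have hconj : ∃ x : G, D = cg D' x := by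
    have hd1 := (isDefectGroup_iff_EG hB.2.1).mp hDdef
    have hd2 := (isDefectGroup_iff_EG hB.2.1).mp hD'
    obtain ⟨x, _, hx⟩ := hd2.unique hd1
    exact ⟨x, hx.symm⟩
  obtain ⟨x, hx⟩ := hconj
  have hDle : D ≤ (Subgroup.center D).map D.subtype := by
    intro d hd
    refine ⟨⟨d, hd⟩, ?_, rfl⟩
    rw [SetLike.mem_coe, Subgroup.mem_center_iff]
    intro g
    apply Subtype.ext
    change (g : G) * d = d * (g : G)
    have h1 : x⁻¹ * d * x ∈ D' := by rw [hx] at hd; exact mem_cg.mp hd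
    have h2 : x⁻¹ * (g : G) * x ∈ D' := by
      exact mem_cg.mp (hx.le g.2)
    have h3 : (⟨_, h2⟩ : D') * ⟨_, h1⟩ = ⟨_, h1⟩ * ⟨_, h2⟩ := hcomm.is_comm.comm _ _
    have h4 := congrArg Subtype.val h3
    change x⁻¹ * (g : G) * x * (x⁻¹ * d * x) = x⁻¹ * d * x * (x⁻¹ * (g : G) * x) at h4
    have h5 : x * (x⁻¹ * (g : G) * x * (x⁻¹ * d * x)) * x⁻¹ =
        x * (x⁻¹ * d * x * (x⁻¹ * (g : G) * x)) * x⁻¹ := by rw [h4]
    have e1 : x * (x⁻¹ * (g : G) * x * (x⁻¹ * d * x)) * x⁻¹ = g * d := by group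
    have e2 : x * (x⁻¹ * d * x * (x⁻¹ * (g : G) * x)) * x⁻¹ = d * g := by group
    rwa [e1, e2] at h5
  have hEq : D = Q := le_antisymm (hDle.trans (hZle.trans hZQ)) hQD
  rw [← hEq]
  exact hDdef

end Cfsg.Agent.S4726
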