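import Cfsg.Statements.S4727
import Cfsg.Agent.H27.PiKer2

set_option autoImplicit false
open Cfsg

namespace Cfsg.Agent.S4727

open Cfsg.Agent.H3 Cfsg.Agent.H11 Cfsg.Agent.H27 Cfsg.Agent.H26

/-- Let p be a prime, π a set of primes containing p, M a maximal ideal of the algebraic integers containing p, and B a p-block of the finite group G with defect group D; let B₁ be the block of N_G(D) with defect group D that induces B (the Brauer correspondent of B). Suppose every element of O_π'(N_G(D)), the largest normal subgroup of N_G(D) whose order has no prime divisor in π, lies in the kernel of every member of B₁. If y is a p-element whose centralizer C has a normal Hall π'-subgroup (every element of C whose order has no prime divisor in π lies in O_π'(C)), then χ(y x) = χ(y) for every χ ∈ B and every x ∈ C whose order has no prime divisor in π. -/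
theorem result {G : Type*} [Group G] [Finite G] (p : ℕ) [Fact p.Prime] (M : Ideal Cfsg.AlgInt) (hM : Cfsg.IsPModular p M) (π : Set ℕ) (hpπ : p ∈ π) (B : Set (Cfsg.IrrCharacter G)) (hB : Cfsg.IsPBlock M B) (D : Subgroup G) (hBD : Cfsg.IsDefectGroup p M B D) (B₁ : Set (Cfsg.IrrCharacter ↥(Subgroup.normalizer (D : Set G)))) (hB₁ : Cfsg.IsInducedBlock M (Subgroup.normalizer (D : Set G)) B₁ B) (hB₁D : Cfsg.IsDefectGroup p M B₁ (D.subgroupOf (Subgroup.normalizer (D : Set G)))) (hker : ∀ n : ↥(Subgroup.normalizer (D : Set G)), n ∈ Cfsg.piCore {q | q ∉ π} ↥(Subgroup.normalizer (D : Set G)) → n ∈ Cfsg.blockKer B₁) (y : G) (hy : ∃ k : ℕ, orderOf y = p ^ k) (hC : ∀ x : ↥(Subgroup.centralizer ({y} : Set G)), (∀ q : ℕ, q.Prime → q ∣ orderOf x → q ∉ π) → x ∈ Cfsg.piCore {q | q ∉ π} ↥(Subgroup.centralizer ({y} : Set G))) : ∀ χ ∈ B, ∀ x : G, x ∈ Subgroup.centralizer ({y} : Set G) → (∀ q : ℕ, q.Prime → q ∣ orderOf x → q ∉ π) → (χ : G → ℂ) (y * x) = (χ : G → ℂ) y := by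
  classical
  have := Fintype.ofFinite G
  have hpr := hM.2.1.isPrime
  have hCh := charP_KF hM
  obtain ⟨e, he, hbe, hmax⟩ := exists_maxPair hM hBD hB₁ hB₁D
  have hDp : IsPGroup p D := hmax.1.2.1.1
  have hPK : PK π D e := (ker_iff_PK hM hpπ hDp hB₁.1 he hbe).mp hker
  intro χ hχ x hx hxo
  -- the pairs at `y`
  set Q : Subgroup G := Subgroup.zpowers y with hQ
  have hQp : IsPGroup p Q := by
    obtain ⟨k, hk⟩ := hy
    exact IsPGroup.of_card (n := k) (by rw [hQ, Nat.card_zpowers, hk])
  have hcz : cz Q = Subgroup.centralizer ({y} : Set G) := by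
    apply le_antisymm
    · exact Subgroup.centralizer_le (by
        intro z hz
        rw [Set.mem_singleton_iff] at hz
        rw [hz]
        exact Subgroup.mem_zpowers y)
    · rw [← Subgroup.le_centralizer_iff]
      rw [hQ, Subgroup.zpowers_le]
      rw [Subgroup.mem_centralizer_iff]
      intro h hh
      exact (Subgroup.mem_centralizer_singleton_iff.mp hh)
  have hQC : Q ≤ Subgroup.centralizer ({y} : Set G) := by
    rw [hQ, Subgroup.zpowers_le, Subgroup.mem_centralizer_singleton_iff]
  have hkerb : ∀ b : Set (IrrCharacter (Subgroup.centralizer ({y} : Set G))),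
      IsInducedBlock M (Subgroup.centralizer ({y} : Set G)) b B →
      ∀ z : Subgroup.centralizer ({y} : Set G),
        z ∈ piCore {q | q ∉ π} (Subgroup.centralizer ({y} : Set G)) → z ∈ blockKer b := by
    intro b hb z hz
    have hblk := isBlk_EH hb.1
    have hblk' : IsBlk (cz Q) (EH M (Subgroup.centralizer ({y} : Set G)) b) := by
      rw [hcz]; exact hblk
    have hbr : br Q (EH M (Subgroup.centralizer ({y} : Set G)) b) =
        EH M (Subgroup.centralizer ({y} : Set G)) b := hblk'.isSup.br_eq
    have hin : InB p (EG M B) Q (EH M (Subgroup.centralizer ({y} : Set G)) b) := by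
      apply inB_of_ind hM hb hQp hQC hcz.le hblk'
      rw [hbr, hblk.idem]
    have h1 : PK π Q (EH M (Subgroup.centralizer ({y} : Set G)) b) :=
      PK.all hpπ hmax hPK hin
    unfold PK at h1
    rw [hcz] at h1
    exact (av_mul_EH_iff hM (pk_le π _) (le_nz_pk π _) ((piP_pk π _).not_dvd hpπ) hb.1).mp h1
      z ((mem_pk z.2).mpr hz)
  have := Fintype.ofFinite (IrrCharacter (Subgroup.centralizer ({y} : Set G)))
  have := Fintype.ofFinite (Subgroup.centralizer ({y} : Set G))
  set x' : Subgroup.centralizer ({y} : Set G) := ⟨x, hx⟩ with hx'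
  have hox : orderOf x' = orderOf x := Subgroup.orderOf_mk x hx
  have hxc : x' ∈ piCore {q | q ∉ π} (Subgroup.centralizer ({y} : Set G)) := by
    apply hC
    intro q hq hd
    exact hxo q hq (hox ▸ hd)
  have hreg : ¬ p ∣ orderOf x' := fun hd => hxo p Fact.out (hox ▸ hd) hpπ
  have hreg1 : ¬ p ∣ orderOf (1 : Subgroup.centralizer ({y} : Set G)) := by
    rw [orderOf_one, Nat.dvd_one]
    exact (Fact.out : p.Prime).one_lt.ne'
  have e1 := blockPart_translate hM hy hB (irr_classFun χ.2) x' hreg
  have e2 := blockPart_translate hM hy hB (irr_classFun χ.2)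
    (1 : Subgroup.centralizer ({y} : Set G)) hreg1
  rw [blockPart_irr, if_pos hχ] at e1 e2
  have e3 : y * ((1 : Subgroup.centralizer ({y} : Set G)) : G) = y := by simp
  rw [e3] at e2
  have e4 : y * ((x' : Subgroup.centralizer ({y} : Set G)) : G) = y * x := rfl
  rw [e4] at e1
  rw [e1, e2]
  apply Finset.sum_congr rfl
  intro b hb
  rw [Finset.mem_filter] at hb
  rw [blockPart_eq_sum, blockPart_eq_sum]
  apply Finset.sum_congr rfl
  intro ψ hψ
  rw [Finset.mem_filter] at hψ
  rw [hkerb b hb.2 x' hxc ψ hψ.2]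

end Cfsg.Agent.S4727
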