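import Cfsg.Statements.S4728
import Cfsg.Agent.H27.PiKer2

set_option autoImplicit false
open Cfsg

namespace Cfsg.Agent.S4728

open Cfsg.Agent.H3 Cfsg.Agent.H11 Cfsg.Agent.H27 Cfsg.Agent.H26

/-- Let p be a prime, π a set of primes containing p, M a maximal ideal of the algebraic integers containing p, B a p-block of the finite group G with defect group D, and B₁ the block of N_G(D) with defect group D inducing B. Let D₀ be a p-subgroup, H₀ = D₀·C_G(D₀), and b a block of H₀ inducing B. Write O_π'(X) for the largest normal subgroup of X whose order has no prime divisor in π. Suppose that O_π'(C_G(D₀)) is a normal Hall π'-subgroup of C_G(D₀) (it contains every element of C_G(D₀) whose order has no prime divisor in π) and that every element of it lies in the kernel of every member of b. Then every element of O_π'(N_G(D)) lies in the kernel of every member of B₁. -/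
theorem result {G : Type*} [Group G] [Finite G] (p : ℕ) [Fact p.Prime] (M : Ideal Cfsg.AlgInt) (hM : Cfsg.IsPModular p M) (π : Set ℕ) (hpπ : p ∈ π) (B : Set (Cfsg.IrrCharacter G)) (hB : Cfsg.IsPBlock M B) (D : Subgroup G) (hBD : Cfsg.IsDefectGroup p M B D) (B₁ : Set (Cfsg.IrrCharacter ↥(Subgroup.normalizer (D : Set G)))) (hB₁ : Cfsg.IsInducedBlock M (Subgroup.normalizer (D : Set G)) B₁ B) (hB₁D : Cfsg.IsDefectGroup p M B₁ (D.subgroupOf (Subgroup.normalizer (D : Set G)))) (D₀ : Subgroup G) (hD₀ : IsPGroup p D₀) (H₀ : Subgroup G) (hH₀ : H₀ = D₀ ⊔ Subgroup.centralizer (D₀ : Set G)) (b : Set (Cfsg.IrrCharacter ↥H₀)) (hb : Cfsg.IsInducedBlock M H₀ b B) (hcompl : ∀ x : ↥(Subgroup.centralizer (D₀ : Set G)), (∀ q : ℕ, q.Prime → q ∣ orderOf x → q ∉ π) → x ∈ Cfsg.piCore {q | q ∉ π} ↥(Subgroup.centralizer (D₀ : Set G))) (hkerb : ∀ x : ↥(Subgroup.centralizer (D₀ : Set G)), x ∈ Cfsg.piCore {q | q ∉ π} ↥(Subgroup.centralizer (D₀ : Set G)) → ∀ θ ∈ b, ∀ h : ↥H₀,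 (h : G) = (x : G) → (θ : ↥H₀ → ℂ) h = (θ : ↥H₀ → ℂ) 1) : ∀ n : ↥(Subgroup.normalizer (D : Set G)), n ∈ Cfsg.piCore {q | q ∉ π} ↥(Subgroup.normalizer (D : Set G)) → n ∈ Cfsg.blockKer B₁ := by
  classical
  have := Fintype.ofFinite G
  have hpr := hM.2.1.isPrime
  have hCh := charP_KF hM
  obtain ⟨e, he, hbe, hmax⟩ := exists_maxPair hM hBD hB₁ hB₁D
  have hDp : IsPGroup p D := hmax.1.2.1.1
  rw [ker_iff_PK hM hpπ hDp hB₁.1 he hbe]
  subst hH₀
  have hmem := (isBlk_EH hb.1).mem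
  have hidem := (isBlk_EH hb.1).idem
  have hCN : Subgroup.centralizer (D₀ : Set G) ≤ Subgroup.normalizer (D₀ : Set G) :=
    centralizer_le_normalizer' D₀
  have hHN : D₀ ⊔ Subgroup.centralizer (D₀ : Set G) ≤ nz D₀ :=
    sup_le Subgroup.le_normalizer hCN
  have hbr : br D₀ (EH M _ b) = EH M _ b := br_idem_eq hD₀ le_sup_left hHN hmem hidem
  have hfx : IsFx (cz D₀) (EH M _ b) := hmem.2.mono le_sup_right
  have hne : br D₀ (EH M _ b) ≠ 0 := by
    rw [hbr]; exact (isBlk_EH hb.1).ne_zero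
  obtain ⟨f, hf, hbf⟩ := exists_blk_of_ne_zero (br_mem_Zc_centralizer hfx)
    (isFx_br_idem hD₀ (hmem.2.mono le_sup_left) hidem) hne
  have hin : InB p (EG M B) D₀ f := inB_of_ind hM hb hD₀ le_sup_left le_sup_right hf hbf
  rw [hbr] at hbf
  -- the kernel condition for `f`
  have hn : D₀ ⊔ Subgroup.centralizer (D₀ : Set G) ≤ nz (pk π (cz D₀)) :=
    hHN.trans ((normalizer_le_normalizer_centralizer D₀).trans (nz_le_nz_pk π (cz D₀)))
  have hle : pk π (cz D₀) ≤ D₀ ⊔ Subgroup.centralizer (D₀ : Set G) :=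
    (pk_le π _).trans le_sup_right
  have h1 : av (KF M) (pk π (cz D₀)) * EH M _ b = EH M _ b := by
    apply (av_mul_EH_iff hM hle hn ((piP_pk π _).not_dvd hpπ) hb.1).mpr
    intro x hx θ hθ
    exact hkerb ⟨(x : G), pk_le π _ hx⟩ ((mem_pk _).mp hx) θ hθ x rfl
  have hPKf : PK π D₀ f := by
    unfold PK
    calc av (KF M) (pk π (cz D₀)) * f
        = av (KF M) (pk π (cz D₀)) * (EH M _ b * f) := by rw [hbf]
      _ = f := by rw [← mul_assoc, h1, hbf]
  have hHall : HallP π D₀ := by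
    intro x hx hxo
    rw [mem_pk hx]
    apply hcompl
    intro q hq hd
    apply hxo q hq
    rwa [Subgroup.orderOf_mk] at hd
  exact PK.max hmax hin hPKf hHall

end Cfsg.Agent.S4728
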