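import Cfsg.Statements.S4729
import Cfsg.Agent.H27.DefZero
import Cfsg.Agent.H27.EigBasis

set_option autoImplicit false
open Cfsg

namespace Cfsg.Agent.S4729

open Cfsg.Agent.H3 Cfsg.Agent.H11 Cfsg.Agent.H27
open scoped ComplexConjugate


/-- Let p be a prime, M a maximal ideal of the algebraic integers containing p, G a finite perfect group and P a Sylow p-subgroup. If the principal p-block of G contains a faithful irreducible character of degree less than 2p, then the centralizer of P is a p-group. -/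
theorem result {G : Type*} [Group G] [Finite G] (p : ℕ) [Fact p.Prime] (M : Ideal Cfsg.AlgInt) (hM : Cfsg.IsPModular p M) (hperf : commutator G = ⊤) (P : Sylow p G) (χ : Cfsg.IrrCharacter G) (hχ : χ ∈ Cfsg.principalBlock M G) (hfaith : ∀ g : G, (χ : G → ℂ) g = (χ : G → ℂ) 1 → g = 1) (hdeg : Cfsg.charDegree (χ : G → ℂ) < 2 * p) : IsPGroup p ↥(Subgroup.centralizer ((P : Subgroup G) : Set G)) := by
  classical
  have := Fintype.ofFinite G
  have hpr := hM.2.1.isPrime
  have hpp := hM.1
  by_contra hnot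
  -- find a p'-element x ≠ 1 of the centralizer
  have hex : ∃ x : G, x ≠ 1 ∧ ¬ p ∣ orderOf x ∧ x ∈ Subgroup.centralizer ((P : Subgroup G) : Set G) := by
    rw [IsPGroup.iff_orderOf] at hnot
    push Not at hnot
    obtain ⟨g, hg⟩ := hnot
    have hg0 : orderOf g ≠ 0 := (orderOf_pos g).ne'
    refine ⟨(g : G) ^ (p ^ (orderOf g).factorization p), ?_, ?_, ?_⟩
    · intro h1
      have h2 : orderOf g ∣ p ^ (orderOf g).factorization p := by
        apply orderOf_dvd_of_pow_eq_one
        apply Subtype.ext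
        exact h1
      obtain ⟨k, _, hk⟩ := (Nat.dvd_prime_pow hpp).mp h2
      exact hg k hk
    · rw [← Subgroup.coe_pow, Subgroup.orderOf_coe, orderOf_pow' _ (pow_ne_zero _ hpp.ne_zero),
        Nat.gcd_eq_right (Nat.ordProj_dvd _ _)]
      exact Nat.not_dvd_ordCompl hpp hg0
    · exact Subgroup.pow_mem _ g.2 _
  obtain ⟨x, hx1, hxp, hxC⟩ := hex
  -- congruence for powers of x
  have hcong : ∀ k : ℕ, MemLocalIdeal M ((χ : G → ℂ) (x ^ k) - (χ : G → ℂ) 1) := by
    intro k
    have hmem : x ^ k ∈ Subgroup.centralizer ((P : Subgroup G) : Set G) := Subgroup.pow_mem _ hxC k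
    have hle : (P : Subgroup G) ≤ Subgroup.centralizer ({x ^ k} : Set G) := by
      intro u hu
      rw [Subgroup.mem_centralizer_singleton_iff]
      exact Subgroup.mem_centralizer_iff.mp hmem u hu
    have hnd : ¬ p ∣ (Subgroup.centralizer ({x ^ k} : Set G)).index := by
      intro h1
      exact P.not_dvd_index (h1.trans (Subgroup.index_dvd_of_le hle))
    have h2 := hχ (x ^ k)
    unfold centralChar at h2
    rw [mul_one, div_one] at h2
    have h3 := li_mul_left (lr_inv_natCast hM hnd) h2
    have h4 : (((Subgroup.centralizer ({x ^ k} : Set G)).index : ℂ))⁻¹ *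
        (((Subgroup.centralizer ({x ^ k} : Set G)).index : ℂ)
          - ((Subgroup.centralizer ({x ^ k} : Set G)).index : ℂ) * (χ : G → ℂ) (x ^ k) / (χ : G → ℂ) 1)
        = 1 - (χ : G → ℂ) (x ^ k) / (χ : G → ℂ) 1 := by
      have : (((Subgroup.centralizer ({x ^ k} : Set G)).index : ℂ)) ≠ 0 := by
        exact_mod_cast Subgroup.index_ne_zero_of_finite
      field_simp
    rw [h4] at h3
    have h5 := li_mul_left (lr_char (M := M) χ.2 1) (li_sub_comm.mp h3)
    have h6 : (χ : G → ℂ) 1 * ((χ : G → ℂ) (x ^ k) / (χ : G → ℂ) 1 - 1)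
        = (χ : G → ℂ) (x ^ k) - (χ : G → ℂ) 1 := by
      have := irr_one_ne_zero χ.2
      field_simp
    rwa [h6] at h5
  obtain ⟨m, ρ, hρ, hρχ⟩ := χ.2
  obtain ⟨μ, hμ, hpow, hdet, hone⟩ := exists_char_det_powerSum ρ x (orderOf x) (orderOf_pos x).ne'
    (pow_orderOf_eq_one x)
  set N := orderOf x with hN
  -- multiplicities
  have hmult : ∀ l : ℂ, l ^ N = 1 → l ≠ 1 →
      p ∣ (Finset.univ.filter (fun i => μ i = l)).card := by
    intro l hl hl1
    have hl0 : l ≠ 0 := by rintro rfl; rw [zero_pow (orderOf_pos x).ne'] at hl; exact zero_ne_one hl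
    have hgeo : ∀ z : ℂ, z ^ N = 1 → ∑ k ∈ Finset.range N, z ^ k = if z = 1 then (N : ℂ) else 0 := by
      intro z hz
      split_ifs with h1
      · rw [h1]; simp
      · have h2 := geom_sum_mul z N
        rw [hz, sub_self] at h2
        exact (mul_eq_zero.mp h2).resolve_right (sub_ne_zero.mpr h1)
    have h1 : ∑ k ∈ Finset.range N, (χ : G → ℂ) (x ^ k) * (l⁻¹) ^ k
        = (N : ℂ) * (Finset.univ.filter (fun i => μ i = l)).card := by
      rw [← hρχ]
      simp only [hpow, Finset.sum_mul]
      rw [Finset.sum_comm]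
      have h2 : ∀ i, ∑ k ∈ Finset.range N, μ i ^ k * l⁻¹ ^ k = if μ i = l then (N : ℂ) else 0 := by
        intro i
        simp only [← mul_pow]
        rw [hgeo _ (by rw [mul_pow, hμ, inv_pow, hl, inv_one, one_mul])]
        congr 1
        rw [eq_iff_iff, mul_inv_eq_one₀ hl0]
      simp only [h2]
      rw [← Finset.sum_filter, Finset.sum_const, nsmul_eq_mul, mul_comm]
    have h2 : ∑ k ∈ Finset.range N, (χ : G → ℂ) 1 * (l⁻¹) ^ k = 0 := by
      rw [← Finset.mul_sum, hgeo _ (by rw [inv_pow, hl, inv_one]), if_neg (by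
        rw [inv_eq_one]; exact hl1), mul_zero]
    have h3 : MemLocalIdeal M (∑ k ∈ Finset.range N, ((χ : G → ℂ) (x ^ k) * (l⁻¹) ^ k
        - (χ : G → ℂ) 1 * (l⁻¹) ^ k)) := by
      apply li_sum
      intro k _
      rw [← sub_mul]
      apply li_mul_right (hcong k)
      apply lr_int
      apply IsIntegral.pow
      exact isIntegral_of_pow_eq_one (orderOf_pos x).ne' (by rw [← hN, inv_pow, hl, inv_one])
    rw [Finset.sum_sub_distrib, h1, h2, sub_zero] at h3
    rcases (li_mul_iff (lr_natCast M _) (lr_natCast M _)).mp h3 with h4 | h4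
    · exact absurd ((li_natCast_iff hM _).mp h4) hxp
    · exact (li_natCast_iff hM _).mp h4
  -- some eigenvalue is not one
  have hex : ∃ i, μ i ≠ 1 := by
    by_contra hcon
    push Not at hcon
    apply hx1
    apply hfaith
    rw [← hρχ]
    have := hone hcon
    simp only [Representation.character, this, map_one]
  obtain ⟨i, hi⟩ := hex
  have hdeg' : Fintype.card (Fin (Module.finrank ℂ (Fin m → ℂ))) < 2 * p := by
    have h1 := charDegree_cast (irr_isChar χ.2)
    rw [← hρχ, Representation.char_one, hρχ] at h1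
    have h2 : charDegree (χ : G → ℂ) = Module.finrank ℂ (Fin m → ℂ) := by exact_mod_cast h1
    rw [Fintype.card_fin, ← h2]
    exact hdeg
  set S := Finset.univ.filter (fun j => μ j = μ i) with hS
  have hSd := hmult (μ i) (hμ i) hi
  have hSpos : 0 < S.card := Finset.card_pos.mpr ⟨i, by rw [hS, Finset.mem_filter]; exact ⟨Finset.mem_univ _, rfl⟩⟩
  have hSp : p ≤ S.card := Nat.le_of_dvd hSpos hSd
  have hSle : S.card < 2 * p := lt_of_le_of_lt (Finset.card_le_univ S) hdeg'
  have hScard : S.card = p := by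
    obtain ⟨c, hc⟩ := hSd
    rw [← hS] at hc
    have : c = 1 := by
      rcases Nat.lt_trichotomy c 1 with h | h | h
      · interval_cases c; omega
      · exact h
      · have : p * 2 ≤ p * c := Nat.mul_le_mul_left p h
        omega
    rw [hc, this, mul_one]
  have hrest : ∀ j, μ j ≠ μ i → μ j = 1 := by
    intro j hj
    by_contra hj1
    have h1 := hmult (μ j) (hμ j) hj1
    set T := Finset.univ.filter (fun k => μ k = μ j) with hT
    have hTpos : 0 < T.card := Finset.card_pos.mpr ⟨j, by rw [hT, Finset.mem_filter]; exact ⟨Finset.mem_univ _, rfl⟩⟩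
    have hTp : p ≤ T.card := Nat.le_of_dvd hTpos h1
    have hdis : Disjoint S T := by
      rw [Finset.disjoint_left]
      intro k hk hk'
      rw [hS, Finset.mem_filter] at hk
      rw [hT, Finset.mem_filter] at hk'
      exact hj (hk'.2.symm.trans hk.2)
    have h2 := Finset.card_le_univ (S ∪ T)
    rw [Finset.card_union_of_disjoint hdis] at h2
    omega
  -- determinant
  have hdet1 : LinearMap.det (ρ x) = 1 := by
    let d : G →* ℂ := (LinearMap.det : _ →* ℂ).comp (ρ : G →* Module.End ℂ (Fin m → ℂ))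
    have h1 : x ∈ commutator G := by rw [hperf]; trivial
    have h2 : commutator G ≤ (d.toHomUnits).ker := Abelianization.commutator_subset_ker _
    have h3 := h2 h1
    rw [MonoidHom.mem_ker] at h3
    have h4 := congrArg (fun u : ℂˣ => (u : ℂ)) h3
    simpa [d] using h4
  have h1 := hdet 1
  rw [pow_one, hdet1] at h1
  simp only [pow_one] at h1
  have h2 : ∏ j, μ j = μ i ^ p := by
    rw [← hScard, ← Finset.prod_const, ← Finset.prod_filter_mul_prod_filter_not Finset.univ (fun j => μ j = μ i)]
    rw [← hS]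
    rw [Finset.prod_congr rfl (fun j hj => (Finset.mem_filter.mp hj).2 : ∀ j ∈ S, μ j = μ i)]
    have h3 : ∏ j ∈ Finset.univ.filter (fun j => ¬ μ j = μ i), μ j = 1 :=
      Finset.prod_eq_one (fun j hj => hrest j (Finset.mem_filter.mp hj).2)
    rw [h3, mul_one]
  rw [h2] at h1
  apply hi
  have h3 : orderOf (μ i) ∣ p := orderOf_dvd_of_pow_eq_one h1.symm
  have h4 : orderOf (μ i) ∣ N := orderOf_dvd_of_pow_eq_one (hμ i)
  rcases (Nat.dvd_prime hpp).mp h3 with h5 | h5
  · exact orderOf_eq_one_iff.mp h5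
  · rw [h5] at h4
    exact absurd h4 hxp

end Cfsg.Agent.S4729
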