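import Cfsg.Statements.S4730
import Cfsg.Agent.H27.DefZero
import Cfsg.Agent.H27.Burnside

set_option autoImplicit false
open Cfsg

namespace Cfsg.Agent.S4730

open Cfsg.Agent.H3 Cfsg.Agent.H11 Cfsg.Agent.H27
open scoped ComplexConjugate


/-- Let p be a prime, M a maximal ideal of the algebraic integers containing p, and G a finite group with trivial centre, Sylow p-subgroup P of order p^a and centre Z(P) of order p^b. If χ is a faithful irreducible character of G whose degree is a power of p, then the p-block of χ has defect at most a − b; in particular, if P is abelian then χ lies in a block of defect zero. -/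
theorem result {G : Type*} [Group G] [Finite G] (p : ℕ) [Fact p.Prime] (M : Ideal Cfsg.AlgInt) (hM : Cfsg.IsPModular p M) (hZ : Subgroup.center G = ⊥) (P : Sylow p G) (a b : ℕ) (ha : Nat.card P = p ^ a) (hb : Nat.card (Subgroup.center ↥(P : Subgroup G)) = p ^ b) (χ : Cfsg.IrrCharacter G) (hfaith : ∀ g : G, (χ : G → ℂ) g = (χ : G → ℂ) 1 → g = 1) (n : ℕ) (hdeg : Cfsg.charDegree (χ : G → ℂ) = p ^ n) : Cfsg.blockDefect p (Cfsg.blockOf M (χ : G → ℂ)) ≤ a - b ∧ (IsMulCommutative ↥(P : Subgroup G) → Cfsg.blockDefect p (Cfsg.blockOf M (χ : G → ℂ)) = 0) := by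
  classical
  have := Fintype.ofFinite G
  have := Fintype.ofFinite (IrrCharacter G)
  have hpr := hM.2.1.isPrime
  have hpp := hM.1
  have hPle : (Nat.card G).factorization p = a := by
    have h1 := P.card_eq_multiplicity
    rw [ha] at h1
    exact (Nat.pow_right_injective hpp.two_le h1).symm
  -- characters vanish on Z(P)#
  have hvan : ∀ z : G, z ∈ (Subgroup.center (P : Subgroup G)).map (P : Subgroup G).subtype → z ≠ 1 →
      (χ : G → ℂ) z = 0 ∧ ¬ p ∣ (Subgroup.centralizer ({z} : Set G)).index := by
    rintro z ⟨w, hw, rfl⟩ hz1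
    have hle : (P : Subgroup G) ≤ Subgroup.centralizer ({((P : Subgroup G).subtype w)} : Set G) := by
      intro u hu
      rw [Subgroup.mem_centralizer_singleton_iff]
      have := Subgroup.mem_center_iff.mp hw ⟨u, hu⟩
      exact congrArg Subtype.val this
    have hnd : ¬ p ∣ (Subgroup.centralizer ({((P : Subgroup G).subtype w)} : Set G)).index := by
      intro h1
      exact P.not_dvd_index (h1.trans (Subgroup.index_dvd_of_le hle))
    refine ⟨?_, hnd⟩
    rcases irr_coprime_class χ.2 ((P : Subgroup G).subtype w) (by
      rw [hdeg]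
      exact Nat.Coprime.pow_left n ((Nat.Prime.coprime_iff_not_dvd hpp).mpr hnd)) with h2 | h2
    · exact h2
    · exfalso
      apply hz1
      set z := (P : Subgroup G).subtype w
      -- z central
      have h3 : z ∈ Subgroup.center G := by
        rw [Subgroup.mem_center_iff]
        intro g
        obtain ⟨m, ρ, hρ, hρχ⟩ := χ.2
        have hm : 0 < m := by
          have := irr_one_ne_zero χ.2
          rw [← hρχ, Representation.char_one] at this
          simpa [Nat.pos_iff_ne_zero] using this
        have h4 := rep_scalar_of_norm_char_eq ρ z (by simpa using hm) (by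
          rw [hρχ, h2]
          have h5 := charDegree_cast (irr_isChar χ.2)
          rw [← hρχ, Representation.char_one] at h5
          rw [← hρχ]
          exact_mod_cast h5)
        have h5 : ρ (g * z * (z * g)⁻¹) = 1 := by
          have h6 : ρ (g * z) = ρ (z * g) := by
            rw [map_mul, map_mul, h4]; simp
          rw [map_mul, h6, ← map_mul, mul_inv_cancel, map_one]
        have h6 : g * z * (z * g)⁻¹ = 1 := by
          apply hfaith
          rw [← hρχ]
          simp only [Representation.character, h5, map_one]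
        exact mul_inv_eq_one.mp h6
      rw [hZ, Subgroup.mem_bot] at h3
      exact h3
  -- degrees in the block
  have hdegs : ∀ ψ ∈ blockOf M (χ : G → ℂ), b ≤ (charDegree (ψ : G → ℂ)).factorization p := by
    intro ψ hψ
    set A := (Subgroup.center (P : Subgroup G)).map (P : Subgroup G).subtype with hA
    have hAc : Nat.card A = p ^ b := by
      rw [hA, ← hb]
      exact Nat.card_congr (Subgroup.equivMapOfInjective _ _ (P : Subgroup G).subtype_injective).toEquiv.symm
    have := Fintype.ofFinite A
    obtain ⟨m, hm⟩ := classInner_char_nat (isChar_restrict A (irr_isChar ψ.2)) (isChar_one (G := A))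
    have h1 : ((p ^ b : ℕ) : ℂ) * m = ∑ z : A, (ψ : G → ℂ) z := by
      rw [← hm, ← hAc]
      unfold classInner
      rw [mul_inv_cancel_left₀ (by exact_mod_cast Nat.card_pos.ne')]
      simp
    have hψ1 := irr_one_ne_zero ψ.2
    have h2 : ∀ z : G, z ∈ A → z ≠ 1 → MemLocalIdeal M ((ψ : G → ℂ) z / (ψ : G → ℂ) 1) := by
      intro z hz hz1
      obtain ⟨h3, h4⟩ := hvan z hz hz1
      have h5 := hψ z
      unfold centralChar at h5
      rw [h3, mul_zero, zero_div, zero_sub] at h5
      have h6 := li_mul_left (lr_inv_natCast hM h4) (li_neg h5)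
      rw [neg_neg, mul_div_assoc, inv_mul_cancel_left₀ (by exact_mod_cast Subgroup.index_ne_zero_of_finite)] at h6
      exact h6
    have h3 : MemLocalIdeal M (((p ^ b : ℕ) : ℂ) * m / (ψ : G → ℂ) 1 - 1) := by
      rw [h1, Finset.sum_div, ← Finset.add_sum_erase _ _ (Finset.mem_univ (1 : A))]
      rw [OneMemClass.coe_one, div_self hψ1, add_sub_cancel_left]
      apply li_sum
      intro z hz
      rw [Finset.mem_erase] at hz
      exact h2 z z.2 (fun h => hz.1 (Subtype.ext h))
    have h4 : ¬ MemLocalIdeal M (((p ^ b * m : ℕ) : ℂ) / (charDegree (ψ : G → ℂ) : ℂ)) := by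
      rw [charDegree_cast (irr_isChar ψ.2)]
      push_cast at h3 ⊢
      rw [li_congr h3]
      exact not_li_one M
    have hm0 : m ≠ 0 := by
      rintro rfl
      apply h4
      simp; exact li_zero M
    rw [li_natDiv_iff hM (mul_ne_zero (pow_ne_zero _ hpp.ne_zero) hm0) (charDegree_pos ψ.2).ne', not_lt,
      Nat.factorization_mul (pow_ne_zero _ hpp.ne_zero) hm0, Finsupp.add_apply, Nat.factorization_pow,
      Finsupp.smul_apply, hpp.factorization_self, smul_eq_mul, mul_one] at h4
    omega
  have hmain : blockDefect p (blockOf M (χ : G → ℂ)) ≤ a - b := by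
    apply blockDefect_le_of ⟨χ, mem_blockOf_self χ⟩
    intro ψ hψ
    have := hdegs ψ hψ
    rw [hPle]
    omega
  refine ⟨hmain, fun hab => ?_⟩
  have h1 : a = b := by
    apply Nat.pow_right_injective hpp.two_le
    show p ^ a = p ^ b
    rw [← ha, ← hb]
    have h2 : Subgroup.center (P : Subgroup G) = ⊤ := by
      rw [Subgroup.eq_top_iff']
      intro x
      rw [Subgroup.mem_center_iff]
      intro g
      exact hab.is_comm.comm g x
    rw [h2]
    exact (Nat.card_congr Subgroup.topEquiv.toEquiv).symm
  rw [h1, Nat.sub_self] at hmain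
  exact Nat.le_zero.mp hmain

end Cfsg.Agent.S4730
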