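import Cfsg.Statements.S4731
import Cfsg.Agent.H27.GalBlock

set_option autoImplicit false
open Cfsg

namespace Cfsg.Agent.S4731

open Cfsg.Agent.H3 Cfsg.Agent.H11 Cfsg.Agent.H27
open scoped ComplexConjugate


/-- Let p ≠ q be primes, M_p and M_q maximal ideals of the algebraic integers containing p and q respectively, and G a finite group with no element of order pq; let q^b be the q-part of the order of G. For a p-block B_p (relative to M_p), a q-block B_q (relative to M_q) and a p-singular element y, the sum of χ(1)χ(y) over the irreducible characters χ lying in both B_p and B_q is q^b times an algebraic integer. -/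
theorem result {G : Type*} [Group G] [Finite G] (p q : ℕ) [Fact p.Prime] [Fact q.Prime] (hpq : p ≠ q) (Mp Mq : Ideal Cfsg.AlgInt) (hMp : Cfsg.IsPModular p Mp) (hMq : Cfsg.IsPModular q Mq) (hno : ∀ g : G, orderOf g ≠ p * q) (b : ℕ) (hb : (Nat.card G).factorization q = b) (Bp : Set (Cfsg.IrrCharacter G)) (hBp : Cfsg.IsPBlock Mp Bp) (Bq : Set (Cfsg.IrrCharacter G)) (hBq : Cfsg.IsPBlock Mq Bq) (y : G) (hy : p ∣ orderOf y) : ∃ ω : Cfsg.AlgInt, ∑ᶠ χ ∈ Bp ∩ Bq, (Cfsg.charDegree (χ : G → ℂ) : ℂ) * (χ : G → ℂ) y = (q : ℂ) ^ b * (ω : ℂ) := by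
  classical
  have := Fintype.ofFinite G
  have := Fintype.ofFinite (IrrCharacter G)
  have hpr := hMp.2.1.isPrime
  have hqr := hMq.2.1.isPrime
  have hqq := hMq.1
  have hppr := hMp.1
  have hq0 : (q : ℂ) ≠ 0 := by exact_mod_cast hqq.ne_zero
  -- the function
  let F : G → ℂ := fun g => ∑ χ : IrrCharacter G with χ ∈ Bp ∩ Bq, (charDegree (χ : G → ℂ) : ℂ) * (χ : G → ℂ) g
  let f : G → ℂ := fun g => ∑ χ : IrrCharacter G with χ ∈ Bq, (charDegree (χ : G → ℂ) : ℂ) * (χ : G → ℂ) g
  have hfc : IsClassFunction G f := by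
    intro a c
    apply Finset.sum_congr rfl
    intro ζ _
    rw [irr_classFun ζ.2]
  have hfF : ∀ g, blockPart Bp f g = F g := by
    intro g
    show blockPart Bp (fun g => ∑ χ : IrrCharacter G with χ ∈ Bq, (charDegree (χ : G → ℂ) : ℂ) * (χ : G → ℂ) g) g = _
    rw [blockPart_sum _ _ _ _ (fun i _ => irr_classFun i.2), Finset.sum_filter]
    simp only [F]
    rw [Finset.sum_filter]
    apply Finset.sum_congr rfl
    intro ζ _
    rw [blockPart_irr]
    by_cases h1 : ζ ∈ Bq <;> by_cases h2 : ζ ∈ Bp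
    · rw [if_pos h1, if_pos h2, if_pos (Set.mem_inter h2 h1)]
    · rw [if_pos h1, if_neg h2, if_neg (fun h => h2 h.1), mul_zero]
    · rw [if_neg h1, if_neg (fun h => h1 h.2)]
    · rw [if_neg h1, if_neg (fun h => h1 h.2)]
  -- local integrality of f / q ^ b
  have hfl : ∀ g, MemLocalRing Mq (f g / (q : ℂ) ^ b) := by
    intro g
    have h1 := lr_blockCoeff hBq g⁻¹
    have h2 : f g = (Nat.card G : ℂ) * blockCoeff Bq g⁻¹ := by
      unfold blockCoeff
      rw [mul_inv_cancel_left₀ (by exact_mod_cast Nat.card_pos.ne'), finsum_mem_irr]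
      apply Finset.sum_congr rfl
      intro χ _
      rw [← char_inv (irr_isChar χ.2), inv_inv, charDegree_cast (irr_isChar χ.2)]
    rw [h2, mul_div_right_comm]
    apply lr_mul _ h1
    have h3 := lr_natDiv hMq (m := Nat.card G) (n := q ^ b) Nat.card_pos.ne' (pow_ne_zero _ hqq.ne_zero) (by
      rw [Nat.factorization_pow, Finsupp.smul_apply, hqq.factorization_self, smul_eq_mul, mul_one, hb])
    push_cast at h3
    exact h3
  have key : ∀ y : G, p ∣ orderOf y → MemLocalRing Mq (F y / (q : ℂ) ^ b) := by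
    intro y hy
    obtain ⟨u, v, huv, hcomm, hu, hv, -⟩ := exists_isPPart_full hppr y
    have hCfin := Fintype.ofFinite (Subgroup.centralizer ({u} : Set G))
    have := Fintype.ofFinite (IrrCharacter (Subgroup.centralizer ({u} : Set G)))
    have hvC : v ∈ Subgroup.centralizer ({u} : Set G) := (Subgroup.mem_centralizer_singleton_iff).mpr hcomm.symm.eq
    have h1 := blockPart_translate hMp hu hBp hfc ⟨v, hvC⟩ (by rwa [Subgroup.orderOf_mk])
    rw [hfF] at h1
    simp only at h1
    rw [huv] at h1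
    rw [h1, Finset.sum_div]
    apply lr_sum
    intro β _
    rw [blockPart_eq_sum, Finset.sum_div]
    apply lr_sum
    intro ψ _
    rw [mul_div_right_comm]
    apply lr_mul _ (lr_char ψ.2 _)
    -- q does not divide the order of the centralizer
    have hqC : ¬ q ∣ Nat.card (Subgroup.centralizer ({u} : Set G)) := by
      intro h2
      obtain ⟨c, hc⟩ := exists_prime_orderOf_dvd_card' q h2
      have hu1 : u ≠ 1 := by
        rintro rfl
        rw [one_mul] at huv
        rw [huv] at hv
        exact hv hy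
      obtain ⟨k, hk⟩ := hu
      have hk0 : k ≠ 0 := by
        rintro rfl
        rw [pow_zero, orderOf_eq_one_iff] at hk
        exact hu1 hk
      have h3 : orderOf (u ^ (p ^ (k - 1))) = p := by
        rw [orderOf_pow' _ (pow_ne_zero _ hppr.ne_zero), hk, Nat.gcd_eq_right (pow_dvd_pow p (Nat.sub_le k 1)),
          Nat.pow_div (Nat.sub_le k 1) hppr.pos, Nat.sub_sub_self (Nat.one_le_iff_ne_zero.mpr hk0), pow_one]
      have h4 : Commute (u ^ (p ^ (k - 1))) (c : G) := by
        have h5 : Commute (c : G) u := (Subgroup.mem_centralizer_singleton_iff).mp c.2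
        exact (h5.symm).pow_left _
      apply hno (u ^ (p ^ (k - 1)) * (c : G))
      rw [h4.orderOf_mul_eq_mul_orderOf_of_coprime (by
        rw [h3, Subgroup.orderOf_coe, hc]
        exact (Nat.coprime_primes hppr hqq).mpr hpq), h3, Subgroup.orderOf_coe, hc]
    unfold classInner
    rw [mul_div_assoc, Finset.sum_div]
    apply lr_mul (lr_inv_natCast hMq hqC)
    apply lr_sum
    intro c _
    rw [mul_div_right_comm]
    apply lr_mul (hfl _)
    rw [conj_char (irr_isChar ψ.2)]
    exact lr_char ψ.2 _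
  have hN : Nat.card G ≠ 0 := Nat.card_pos.ne'
  have hseq : IsGalSeq (Nat.card G) (fun m => F (y ^ m)) := by
    apply IsGalSeq.sum
    intro χ _
    exact (IsGalSeq.natCast _).mul (IsGalSeq.char (irr_isChar χ.2) hN pow_card_eq_one')
  have hint := hseq.integral_div hMq hN b (by
    intro m hm
    apply key
    have h1 : orderOf (y ^ m) = orderOf y := by
      rw [orderOf_pow, Nat.Coprime.gcd_eq_one, Nat.div_one]
      exact (Nat.Coprime.coprime_dvd_right (orderOf_dvd_natCard y) (mem_cop.mp hm).2).symm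
    rw [h1]
    exact hy)
  simp only [pow_one] at hint
  refine ⟨⟨F y / (q : ℂ) ^ b, hint⟩, ?_⟩
  rw [finsum_mem_irr]
  show F y = (q : ℂ) ^ b * (F y / (q : ℂ) ^ b)
  rw [mul_div_cancel₀ _ (pow_ne_zero _ hq0)]

end Cfsg.Agent.S4731
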