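import Cfsg.Statements.S4734
import Cfsg.Agent.H27.PiKer2

set_option autoImplicit false
open Cfsg

namespace Cfsg.Agent.S4734

open Cfsg.Agent.H3 Cfsg.Agent.H11 Cfsg.Agent.H27 Cfsg.Agent.H26

/-- Let p be a prime, π a set of primes containing p, M a maximal ideal of the algebraic integers containing p, B a p-block of the finite group G with defect group D, and B₁ the block of N_G(D) with defect group D inducing B. Write O_π'(X) for the largest normal subgroup of X whose order has no prime divisor in π, and suppose every element of O_π'(N_G(D)) lies in the kernel of every member of B₁. Let G₀ be a subgroup and B₀ a block of G₀ with defect group D₀ such that C_G(D₀) ≤ G₀ and B₀ induces B. Then every element of O_π'(G₀) lies in the kernel of every member of B₀. -/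
theorem result {G : Type*} [Group G] [Finite G] (p : ℕ) [Fact p.Prime] (M : Ideal Cfsg.AlgInt) (hM : Cfsg.IsPModular p M) (π : Set ℕ) (hpπ : p ∈ π) (B : Set (Cfsg.IrrCharacter G)) (hB : Cfsg.IsPBlock M B) (D : Subgroup G) (hBD : Cfsg.IsDefectGroup p M B D) (B₁ : Set (Cfsg.IrrCharacter ↥(Subgroup.normalizer (D : Set G)))) (hB₁ : Cfsg.IsInducedBlock M (Subgroup.normalizer (D : Set G)) B₁ B) (hB₁D : Cfsg.IsDefectGroup p M B₁ (D.subgroupOf (Subgroup.normalizer (D : Set G)))) (hker : ∀ n : ↥(Subgroup.normalizer (D : Set G)), n ∈ Cfsg.piCore {q | q ∉ π} ↥(Subgroup.normalizer (D : Set G)) → n ∈ Cfsg.blockKer B₁) (G₀ : Subgroup G) (B₀ : Set (Cfsg.IrrCharacter ↥G₀)) (hB₀ : Cfsg.IsInducedBlock M G₀ B₀ B) (D₀ : Subgroup ↥G₀) (hD₀ : Cfsg.IsDefectGroup p M B₀ D₀) (hC : Subgroup.centralizer ((D₀.map G₀.subtype : Subgroup G) : Set G) ≤ G₀) : ∀ x : ↥G₀, x ∈ Cfsg.piCore {q | q ∉ π} ↥G₀ → x ∈ Cfsg.blockKer B₀ := by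
  classical
  have := Fintype.ofFinite G
  have hpr := hM.2.1.isPrime
  have hCh := charP_KF hM
  obtain ⟨e, he, hbe, hmax⟩ := exists_maxPair hM hBD hB₁ hB₁D
  have hDp : IsPGroup p D := hmax.1.2.1.1
  have hPK : PK π D e := (ker_iff_PK hM hpπ hDp hB₁.1 he hbe).mp hker
  have hdef := (isDefectGroup_iff_EH' hB₀.1).mp hD₀
  set Q : Subgroup G := D₀.map G₀.subtype with hQ
  have hmem := (isBlk_EH hB₀.1).mem
  have hidem := (isBlk_EH hB₀.1).idem
  have hfx : IsFx (cz Q) (EH M G₀ B₀) := hmem.2.mono hC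
  obtain ⟨f, hf, hbf⟩ := exists_blk_of_ne_zero (br_mem_Zc_centralizer hfx)
    (isFx_br_idem hdef.2.1 (hmem.2.mono hdef.1) hidem) hdef.2.2.1
  have hin : InB p (EG M B) Q f := inB_of_ind hM hB₀ hdef.2.1 hdef.1 hC hf hbf
  have hPKf : PK π Q f := PK.all hpπ hmax hPK hin
  have h1 := PK.lift hpπ (isBlk_EH hB₀.1) hdef.2.1 hdef.1 hC hf.ne_zero hbf hPKf
  intro x hx
  exact (av_mul_EH_iff hM (pk_le π _) (le_nz_pk π _) ((piP_pk π _).not_dvd hpπ) hB₀.1).mp h1
    x ((mem_pk x.2).mpr hx)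

end Cfsg.Agent.S4734
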