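import Cfsg.Statements.S4735
import Cfsg.Agent.H27.GalBlock
import Cfsg.Agent.H1.Cores

set_option autoImplicit false
open Cfsg

namespace Cfsg.Agent.S4735

open Cfsg.Agent.H3 Cfsg.Agent.H11 Cfsg.Agent.H27
open scoped ComplexConjugate


/-- Let p be a prime, M a maximal ideal of the algebraic integers containing p, G a finite group, H = O_p'(G) and Ḡ = G/H. For x ∈ G write λ(G, x) for the sum of |χ(x)|^2 over the irreducible characters χ in the principal p-block of G. Then λ(G, x) is a positive integer, λ(G, x) = λ(Ḡ, x̄) where x̄ is the image of x, and λ(G, x) ≤ #C_Ḡ(x̄). Moreover λ(G, 1) = [G : H] if and only if the principal block is the only p-block of Ḡ. -/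
theorem result {G : Type*} [Group G] [Finite G] (p : ℕ) [Fact p.Prime] (M : Ideal Cfsg.AlgInt) (hM : Cfsg.IsPModular p M) (x : G) : (∃ n : ℕ, 0 < n ∧ ∑ᶠ χ ∈ Cfsg.principalBlock M G, Complex.normSq ((χ : G → ℂ) x) = n) ∧ ∑ᶠ χ ∈ Cfsg.principalBlock M G, Complex.normSq ((χ : G → ℂ) x) = ∑ᶠ ψ ∈ Cfsg.principalBlock M (G ⧸ Cfsg.pPrimeCore p G), Complex.normSq ((ψ : G ⧸ Cfsg.pPrimeCore p G → ℂ) (QuotientGroup.mk x)) ∧ ∑ᶠ χ ∈ Cfsg.principalBlock M G, Complex.normSq ((χ : G → ℂ) x) ≤ (Nat.card ↥(Subgroup.centralizer ({(QuotientGroup.mk x : G ⧸ Cfsg.pPrimeCore p G)} : Set (G ⧸ Cfsg.pPrimeCore p G))) : ℝ) ∧ ((∑ᶠ χ ∈ Cfsg.principalBlock M G, Cfsg.charDegree (χ : G → ℂ) ^ 2) = (Cfsg.pPrimeCore p G).index ↔ ∀ B : Set (Cfsg.IrrCharacter (G ⧸ Cfsg.pPrimeCore p G)), Cfsg.IsPBlock M B → B = Cfsg.principalBlock M (G ⧸ Cfsg.pPrimeCore p G)) := by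
  classical
  have := Fintype.ofFinite G
  have := Fintype.ofFinite (IrrCharacter G)
  have := Fintype.ofFinite (IrrCharacter (G ⧸ pPrimeCore p G))
  have := Fintype.ofFinite (G ⧸ pPrimeCore p G)
  have hpr := hM.2.1.isPrime
  have hpp := hM.1
  have hcop := Cfsg.Agent.H1.pPrimeCore_coprime p G
  have hN : ¬ p ∣ Nat.card (pPrimeCore p G) := (Nat.Prime.coprime_iff_not_dvd hpp).mp hcop.symm
  have hnorm := Cfsg.Agent.H1.pPrimeCore_normal p G
  set N := pPrimeCore p G with hNdef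
  have e0 : ∑ᶠ χ ∈ principalBlock M G, Complex.normSq ((χ : G → ℂ) x)
      = ∑ χ : IrrCharacter G with χ ∈ principalBlock M G, Complex.normSq ((χ : G → ℂ) x) :=
    finsum_mem_irr _ _
  have e1 : ∑ᶠ ψ ∈ principalBlock M (G ⧸ N), Complex.normSq ((ψ : G ⧸ N → ℂ) (QuotientGroup.mk x))
      = ∑ ψ : IrrCharacter (G ⧸ N) with ψ ∈ principalBlock M (G ⧸ N), Complex.normSq ((ψ : G ⧸ N → ℂ) (QuotientGroup.mk x)) :=
    finsum_mem_irr _ _
  rw [e0, e1]
  have h2 : ∑ χ : IrrCharacter G with χ ∈ principalBlock M G, Complex.normSq ((χ : G → ℂ) x)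
      = ∑ ψ : IrrCharacter (G ⧸ N) with ψ ∈ principalBlock M (G ⧸ N), Complex.normSq ((ψ : G ⧸ N → ℂ) (QuotientGroup.mk x)) := by
    rw [sum_principal_quot hM N hN]
    rfl
  refine ⟨?_, h2, ?_, ?_⟩
  · obtain ⟨k, hk⟩ := principal_norm_int (M := M) x
    have h3 : (∑ χ : IrrCharacter G with χ ∈ principalBlock M G, Complex.normSq ((χ : G → ℂ) x)) = (k : ℝ) := by
      have h4 : ((∑ χ : IrrCharacter G with χ ∈ principalBlock M G, Complex.normSq ((χ : G → ℂ) x) : ℝ) : ℂ)
          = ((k : ℝ) : ℂ) := by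
        push_cast
        rw [← hk]
        apply Finset.sum_congr rfl
        intro χ _
        rw [Complex.mul_conj]
      exact_mod_cast h4
    have h4 : (1 : ℝ) ≤ ∑ χ : IrrCharacter G with χ ∈ principalBlock M G, Complex.normSq ((χ : G → ℂ) x) := by
      have hmem : oneIrr G ∈ Finset.univ.filter (fun χ : IrrCharacter G => χ ∈ principalBlock M G) := by
        rw [Finset.mem_filter]
        exact ⟨Finset.mem_univ _, oneIrr_mem⟩
      have h5 := Finset.single_le_sum (f := fun χ : IrrCharacter G => Complex.normSq ((χ : G → ℂ) x))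
        (fun χ _ => Complex.normSq_nonneg _) hmem
      simpa using h5
    rw [h3] at h4
    have h5 : (1 : ℤ) ≤ k := by exact_mod_cast h4
    refine ⟨k.toNat, by omega, ?_⟩
    rw [h3]
    have h6 : ((k.toNat : ℤ) : ℝ) = (k : ℝ) := by
      rw [Int.toNat_of_nonneg (by omega)]
    rw [← h6]
    norm_cast
  · rw [h2]
    have h3 := column_orth (G := G ⧸ N) (QuotientGroup.mk x) (QuotientGroup.mk x)
    rw [if_pos (IsConj.refl _)] at h3
    have h4 : ∑ ψ : IrrCharacter (G ⧸ N), Complex.normSq ((ψ : G ⧸ N → ℂ) (QuotientGroup.mk x))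
        = (Nat.card (Subgroup.centralizer ({(QuotientGroup.mk x : G ⧸ N)} : Set (G ⧸ N))) : ℝ) := by
      have h5 : ((∑ ψ : IrrCharacter (G ⧸ N), Complex.normSq ((ψ : G ⧸ N → ℂ) (QuotientGroup.mk x)) : ℝ) : ℂ)
          = ((Nat.card (Subgroup.centralizer ({(QuotientGroup.mk x : G ⧸ N)} : Set (G ⧸ N))) : ℝ) : ℂ) := by
        push_cast
        rw [← h3]
        apply Finset.sum_congr rfl
        intro χ _
        rw [Complex.mul_conj]
      exact_mod_cast h5
    rw [← h4]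
    exact Finset.sum_le_sum_of_subset_of_nonneg (Finset.filter_subset _ _) (fun _ _ _ => Complex.normSq_nonneg _)
  · have h3 : ∑ᶠ χ ∈ principalBlock M G, charDegree (χ : G → ℂ) ^ 2
        = ∑ ψ : IrrCharacter (G ⧸ N) with ψ ∈ principalBlock M (G ⧸ N), charDegree (ψ : G ⧸ N → ℂ) ^ 2 := by
      rw [finsum_mem_irr, sum_principal_quot hM N hN]
      rfl
    rw [h3, Subgroup.index_eq_card, ← sum_charDegree_sq (G := G ⧸ N)]
    constructor
    · intro h B hB
      obtain ⟨χ, hχ⟩ := isPBlock_nonempty hB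
      have h4 : χ ∈ principalBlock M (G ⧸ N) := by
        by_contra hcon
        have h5 : ∑ ψ : IrrCharacter (G ⧸ N) with ψ ∈ principalBlock M (G ⧸ N), charDegree (ψ : G ⧸ N → ℂ) ^ 2
            < ∑ ψ : IrrCharacter (G ⧸ N), charDegree (ψ : G ⧸ N → ℂ) ^ 2 := by
          apply Finset.sum_lt_sum_of_subset (Finset.filter_subset _ _) (Finset.mem_univ χ)
          · rw [Finset.mem_filter]; exact fun h => hcon h.2
          · exact pow_pos (charDegree_pos χ.2) 2
          · intro _ _ _; exact Nat.zero_le _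
        omega
      rw [isPBlock_eq_blockOf hB hχ]
      exact (isPBlock_eq_blockOf (isPBlock_principal (M := M) (G := G ⧸ N)) h4).symm
    · intro h
      apply Finset.sum_congr _ (fun _ _ => rfl)
      ext ψ
      simp only [Finset.mem_filter, Finset.mem_univ, true_and, iff_true]
      rw [← h _ (isPBlock_blockOf ψ)]
      exact mem_blockOf_self ψ

end Cfsg.Agent.S4735
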