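import Cfsg.Statements.S4736
import Cfsg.Agent.H26.OpCon4
import Cfsg.Agent.H7.ItoP
import Cfsg.Agent.H27.GalBlock
import Cfsg.Agent.H27.DefZero

set_option autoImplicit false
open Cfsg


namespace Cfsg.Agent.S4736


set_option linter.style.haveILetI false

open Subgroup Cfsg.Agent Cfsg.Agent.H3 Cfsg.Agent.H27 in
theorem allB0 {X : Type*} [Group X] [Finite X] {p : ℕ} [Fact p.Prime] {M : Ideal AlgInt} (hM : IsPModular p M)
    (hX : IsPSolvable p X) (hO : pPrimeCore p X = ⊥) (ψ : IrrCharacter X) : ψ ∈ principalBlock M X := by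
  classical
  haveI : M.IsPrime := hM.2.1.isPrime
  haveI := Fintype.ofFinite X
  haveI := Fintype.ofFinite (⊥ : Subgroup X)
  obtain ⟨B, hB, hmem, -⟩ := H26.st4492 p M hM hX (⊥ : Subgroup X) hO.symm (oneIrr _) (by intro g n; rfl)
  have hall : ∀ χ : IrrCharacter X, χ ∈ B := by
    intro χ
    rw [hmem]
    have h1 : classInner (fun n : (⊥ : Subgroup X) => (χ : X → ℂ) n) (oneIrr (⊥ : Subgroup X) : _ → ℂ) = (χ : X → ℂ) 1 := by
      unfold classInner
      have hu : (Finset.univ : Finset (⊥ : Subgroup X)) = {1} := by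
        ext x
        simp only [Finset.mem_univ, Finset.mem_singleton, true_iff]
        exact Subsingleton.elim _ _
      rw [hu, Finset.sum_singleton]
      simp
    rw [h1, ← charDegree_cast (irr_isChar χ.2)]
    exact_mod_cast (charDegree_pos χ.2).ne'
  have h1 : B = blockOf M (oneIrr X : X → ℂ) := H11.isPBlock_eq_blockOf hB (hall (oneIrr X))
  have h2 : principalBlock M X = B := h1.symm
  rw [h2]; exact hall ψ

open Subgroup Cfsg.Agent Cfsg.Agent.H3 Cfsg.Agent.H27 in
/-- Let p be a prime, M a maximal ideal of the algebraic integers containing p, and G a finite p-solvable group with Sylow p-subgroup P. Then P is abelian if and only if every irreducible character in the principal p-block of G has height zero. -/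
theorem result {G : Type*} [Group G] [Finite G] (p : ℕ) [Fact p.Prime] (M : Ideal Cfsg.AlgInt) (hM : Cfsg.IsPModular p M) (hsolv : Cfsg.IsPSolvable p G) (P : Sylow p G) : IsMulCommutative P ↔ ∀ χ ∈ Cfsg.principalBlock M G, Cfsg.blockHeight p (Cfsg.principalBlock M G) (χ : G → ℂ) = 0 := by
  classical
  haveI := Fintype.ofFinite G
  haveI : M.IsPrime := hM.2.1.isPrime
  have hp : p.Prime := Fact.out
  set N := pPrimeCore p G with hN
  haveI hNn : N.Normal := H1.pPrimeCore_normal p G
  have hNp : ¬ p ∣ Nat.card N := by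
    intro h
    have h1 := H1.pPrimeCore_coprime p G
    exact hp.one_lt.ne' (Nat.Coprime.eq_one_of_dvd (Nat.Coprime.symm h1) h)
  have hqs : IsPSolvable p (G ⧸ N) := H23.isPSolvable_quotient N hsolv
  have hqO : pPrimeCore p (G ⧸ N) = ⊥ := H1.pPrimeCore_quotient_eq_bot p
  have hB0 : ∀ ψ : IrrCharacter (G ⧸ N), (irrQuotEquiv N ψ).1 ∈ principalBlock M G := fun ψ =>
    (mem_principal_quot hM N hNp ψ).2 (allB0 hM hqs hqO ψ)
  have hdeg : ∀ ψ : IrrCharacter (G ⧸ N), charDegree ((irrQuotEquiv N ψ).1 : G → ℂ) = charDegree (ψ : G ⧸ N → ℂ) := by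
    intro ψ
    unfold charDegree
    rfl
  have hsInf : sInf ((fun χ : IrrCharacter G => (charDegree (χ : G → ℂ)).factorization p) '' (principalBlock M G)) = 0 := by
    have h1 := sInf_le_fact (p := p) (oneIrr_mem (M := M) (G := G))
    simp only [charDegree_oneIrr, Nat.factorization_one, Finsupp.coe_zero, Pi.zero_apply] at h1
    exact Nat.le_zero.1 h1
  -- the Sylow subgroup of the quotient
  have hcomm : ∀ {A B : Type _} [Group A] [Group B] (e : A ≃* B), IsMulCommutative A → IsMulCommutative B := by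
    intro A B _ _ e h
    refine ⟨⟨fun a b => ?_⟩⟩
    apply e.symm.injective
    rw [map_mul, map_mul]
    exact h.is_comm.comm _ _
  have hPN : (P : Subgroup G) ⊓ N = ⊥ := by
    apply Subgroup.inf_eq_bot_of_coprime
    obtain ⟨k, hk⟩ := IsPGroup.iff_card.1 P.2
    rw [hk]
    exact Nat.Coprime.pow_left _ (Nat.Coprime.symm (H1.pPrimeCore_coprime p G))
  have hQc : ∀ (Q : Sylow p (G ⧸ N)), IsMulCommutative (Q : Subgroup (G ⧸ N)) ↔ IsMulCommutative P := by
    intro Q
    let R : Sylow p (G ⧸ N) := P.mapSurjective (QuotientGroup.mk'_surjective N)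
    have e1 : (Q : Subgroup (G ⧸ N)) ≃* (R : Subgroup (G ⧸ N)) := Sylow.equiv Q R
    have hinj : Function.Injective ((QuotientGroup.mk' N).comp (P : Subgroup G).subtype) := by
      rw [injective_iff_map_eq_one]
      intro x hx
      have h1 : (x : G) ∈ N := (QuotientGroup.eq_one_iff _).1 hx
      have h2 : (x : G) ∈ (P : Subgroup G) ⊓ N := ⟨x.2, h1⟩
      rw [hPN, mem_bot] at h2
      exact Subtype.ext h2
    have e2 : (P : Subgroup G) ≃* (R : Subgroup (G ⧸ N)) := by
      have h1 : (R : Subgroup (G ⧸ N)) = ((QuotientGroup.mk' N).comp (P : Subgroup G).subtype).range := by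
        rw [MonoidHom.range_comp, range_subtype]; rfl
      rw [h1]
      exact MonoidHom.ofInjective hinj
    constructor
    · intro h; exact hcomm e2.symm (hcomm e1 h)
    · intro h; exact hcomm e1.symm (hcomm e2 h)
  constructor
  · intro hab χ hχ
    have h1 := H11.mem_principal_trivial hM (N := N) hNp hχ
    obtain ⟨ψ, hψ⟩ := (irrQuotEquiv N).surjective ⟨χ, h1⟩
    have h2 : charDegree (χ : G → ℂ) = charDegree (ψ : G ⧸ N → ℂ) := by
      rw [← hdeg ψ, hψ]
    let Q : Sylow p (G ⧸ N) := default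
    have hQ1 : ∀ a b : (Q : Subgroup (G ⧸ N)), a * b = b * a := ((hQc Q).2 hab).is_comm.comm
    have hQn : (Q : Subgroup (G ⧸ N)).Normal := by
      have h0 : pCore p (G ⧸ N) ≤ (Q : Subgroup (G ⧸ N)) := H1.pCore_le_sylow Q
      have h3 : (Q : Subgroup (G ⧸ N)) ≤ centralizer (pCore p (G ⧸ N) : Set (G ⧸ N)) := by
        intro x hx
        rw [mem_centralizer_iff]
        intro y hy
        exact congrArg Subtype.val (hQ1 ⟨y, h0 hy⟩ ⟨x, hx⟩)
      have h4 := h3.trans (H23.centralizer_pCore_le hqs hqO)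
      have h5 : pCore p (G ⧸ N) = (Q : Subgroup (G ⧸ N)) := le_antisymm h0 h4
      rw [← h5]; infer_instance
    have h6 := (H7.ItoP.degree_of_abelian Q hQn (fun a ha b hb => congrArg Subtype.val (hQ1 ⟨a, ha⟩ ⟨b, hb⟩)) ψ)
    unfold blockHeight
    rw [hsInf, Nat.sub_zero, h2]
    exact Nat.factorization_eq_zero_of_not_dvd h6
  · intro hht
    let Q : Sylow p (G ⧸ N) := default
    rw [← hQc Q]
    have h1 : ∀ ψ : IrrCharacter (G ⧸ N), ¬ p ∣ charDegree (ψ : G ⧸ N → ℂ) := by
      intro ψ hd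
      have h2 := hht _ (hB0 ψ)
      unfold blockHeight at h2
      rw [hsInf, Nat.sub_zero, hdeg ψ] at h2
      have h3 : 1 ≤ (charDegree (ψ : G ⧸ N → ℂ)).factorization p :=
        (hp.dvd_iff_one_le_factorization (charDegree_pos ψ.2).ne').1 hd
      omega
    have h4 := H7.ItoP.sylow_normal _ (G ⧸ N) rfl hqs h1 Q
    exact ⟨⟨H7.ItoP.sylow_comm Q h4 h1⟩⟩


end Cfsg.Agent.S4736
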