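import Cfsg.Statements.S5014
import Cfsg.Agent.H3.RankA

set_option autoImplicit false
open Cfsg Cfsg.Agent Cfsg.Agent.H3 Cfsg.Agent.H28

namespace Cfsg.Agent.S5014

/-- Let X = ⟨A, B⟩ be a rank one group with unipotent subgroups A and B and let Ω be the set of conjugates of A under X. Then Ω has at least three members, X acts doubly transitively on Ω by conjugation (any two ordered pairs of distinct members are carried to one another by a single element of X), and A acts regularly on Ω with A removed: for C, D in Ω different from A there is exactly one element of A conjugating C to D. -/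
theorem result {G : Type*} [Group G] {A B : Subgroup G} (h : Cfsg.IsRankOnePair A B) :
    (∃ C₁ ∈ Cfsg.unipotentSubgroups A B, ∃ C₂ ∈ Cfsg.unipotentSubgroups A B, ∃ C₃ ∈ Cfsg.unipotentSubgroups A B,
      C₁ ≠ C₂ ∧ C₁ ≠ C₃ ∧ C₂ ≠ C₃) ∧
    (∀ C₁ ∈ Cfsg.unipotentSubgroups A B, ∀ C₂ ∈ Cfsg.unipotentSubgroups A B, ∀ D₁ ∈ Cfsg.unipotentSubgroups A B,
      ∀ D₂ ∈ Cfsg.unipotentSubgroups A B, C₁ ≠ C₂ → D₁ ≠ D₂ →
        ∃ x ∈ A ⊔ B, Cfsg.conjBy C₁ x = D₁ ∧ Cfsg.conjBy C₂ x = D₂) ∧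
    (∀ C ∈ Cfsg.unipotentSubgroups A B, ∀ D ∈ Cfsg.unipotentSubgroups A B, C ≠ A → D ≠ A →
      ∃! a : G, a ∈ A ∧ Cfsg.conjBy C a = D) := by
  refine ⟨?_, ?_, ?_⟩
  · obtain ⟨C, hC, h1, h2⟩ := ro_three h
    exact ⟨A, mem_unip_self, B, ro_right_mem h, C, hC, h.ne, h1, h2⟩
  · intro C₁ hC₁ C₂ hC₂ D₁ hD₁ D₂ hD₂ hC hD
    obtain ⟨x, hx, h1, h2⟩ := ro_two_transitive h hC₁ hC₂ hC
    obtain ⟨y, hy, h3, h4⟩ := ro_two_transitive h hD₁ hD₂ hD
    refine ⟨y⁻¹ * x, mul_mem (inv_mem hy) hx, ?_, ?_⟩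
    · rw [← conjBy_conjBy, h1, ← h3, conjBy_conjBy, inv_mul_cancel, conjBy_one]
    · rw [← conjBy_conjBy, h2, ← h4, conjBy_conjBy, inv_mul_cancel, conjBy_one]
  · intro C hC D hD hCA hDA
    exact ro_regular h hC hCA hD hDA

end Cfsg.Agent.S5014
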