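import Cfsg.Statements.S5015
import Cfsg.Agent.H3.RankA

set_option autoImplicit false
open Cfsg Cfsg.Agent Cfsg.Agent.H3 Cfsg.Agent.H28

namespace Cfsg.Agent.S5015

/-- Let a group Y act doubly transitively on a set Ω with at least three points, and suppose that the stabilizer of a point α contains a nilpotent subgroup A, normalized by that stabilizer, which acts regularly on the points other than α. Then for any y in Y moving α, the subgroups A and y A y⁻¹ are the unipotent subgroups of a rank one group, and the normal closure of A in Y (the subgroup generated by all conjugates of A) is generated by A and y A y⁻¹ alone. -/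
theorem result {Y Ω : Type*} [Group Y] [MulAction Y Ω]
    (h2 : MulAction.IsMultiplyPretransitive Y Ω 2) (hΩ : 3 ≤ ENat.card Ω) (α : Ω) (A : Subgroup Y)
    (hA : A ≤ MulAction.stabilizer Y α) (hAn : ∀ y ∈ MulAction.stabilizer Y α, Cfsg.conjBy A y = A)
    (hnil : Group.IsNilpotent A) (hreg : ∀ β γ : Ω, β ≠ α → γ ≠ α → ∃! a : Y, a ∈ A ∧ a • β = γ)
    (y : Y) (hy : y ∉ MulAction.stabilizer Y α) :
    Cfsg.IsRankOnePair A (Cfsg.conjBy A y) ∧ Subgroup.normalClosure (A : Set Y) = A ⊔ Cfsg.conjBy A y := by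
  -- the conjugate of `A` belonging to a point
  have hwd : ∀ g g' : Y, g • α = g' • α → conjBy A g = conjBy A g' := by
    intro g g' hgg
    have h1 : g'⁻¹ * g ∈ MulAction.stabilizer Y α := by
      rw [MulAction.mem_stabilizer_iff, mul_smul, hgg, inv_smul_smul]
    have h3 := hAn _ h1
    rw [← conjBy_conjBy] at h3
    rw [conjBy_eq_iff, inv_inv] at h3
    exact h3
  have hregc : ∀ (g : Y) (β γ : Ω), β ≠ g • α → γ ≠ g • α → ∃! a : Y, a ∈ conjBy A g ∧ a • β = γ := by
    intro g β γ hβ hγ
    obtain ⟨a, ⟨ha, ha'⟩, hu⟩ := hreg (g⁻¹ • β) (g⁻¹ • γ)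
      (fun h => hβ (by rw [← h, smul_inv_smul])) (fun h => hγ (by rw [← h, smul_inv_smul]))
    refine ⟨g * a * g⁻¹, ⟨conjBy_normal_iff.2 ha, ?_⟩, ?_⟩
    · rw [mul_smul, mul_smul, ha', smul_inv_smul]
    · rintro c ⟨hc, hc'⟩
      rw [mem_conjBy] at hc
      have := hu (g⁻¹ * c * g) ⟨hc, by rw [mul_smul, mul_smul, smul_inv_smul, hc']⟩
      rw [← this]; group
  have hfix : ∀ (g a : Y), a ∈ conjBy A g → a • g • α = g • α := by
    intro g a ha
    rw [mem_conjBy] at ha
    have h3 := MulAction.mem_stabilizer_iff.1 (hA ha)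
    rw [mul_smul, mul_smul, inv_smul_eq_iff] at h3
    exact h3
  set β := y • α with hβ
  have hβα : β ≠ α := fun h => hy (MulAction.mem_stabilizer_iff.2 h)
  -- the condition
  have hcond : ∀ g g' : Y, g • α ≠ g' • α → RankOneCondition (conjBy A g) (conjBy A g') := by
    intro g g' hne a ha ha1
    have h3 : a⁻¹ • g' • α ≠ g • α := by
      intro h3
      apply hne
      rw [inv_smul_eq_iff, hfix g a ha] at h3
      exact h3.symm
    have h4 : a⁻¹ • g' • α ≠ g' • α := by
      intro h4
      apply ha1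
      rw [inv_smul_eq_iff] at h4
      exact (hregc g (g' • α) (g' • α) hne.symm hne.symm).unique ⟨ha, h4.symm⟩
        ⟨one_mem _, one_smul _ _⟩
    obtain ⟨b, ⟨hb, hb'⟩, -⟩ := hregc g' (a⁻¹ • g' • α) (g • α) h4 hne
    refine ⟨b, hb, ?_, ?_⟩
    · rintro rfl
      rw [one_smul] at hb'
      exact h3 hb'
    · rw [conjBy_conjBy, conjBy_conjBy]
      apply hwd
      rw [mul_smul, mul_smul, ← hb', inv_smul_smul]
  have h01 : conjBy A 1 = A := conjBy_one A
  have h3pt : ∃ γ : Ω, γ ≠ α ∧ γ ≠ β := by
    by_contra hcon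
    push Not at hcon
    have h3 : ENat.card Ω ≤ 2 := by
      have h4 : (Set.univ : Set Ω) ⊆ {α, β} := by
        intro γ _
        by_cases h : γ = α
        · left; exact h
        · right; exact hcon γ h
      rw [← Set.encard_univ]
      refine (Set.encard_le_encard h4).trans ((Set.encard_insert_le _ _).trans ?_)
      rw [Set.encard_singleton]; norm_num
    have h5 := hΩ.trans h3
    norm_num at h5
  obtain ⟨γ, hγα, hγβ⟩ := h3pt
  have hne : A ≠ conjBy A y := by
    intro h3
    obtain ⟨a, ⟨ha, ha'⟩, -⟩ := hregc y α γ hβα.symm hγβ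
    rw [← h3] at ha
    have := MulAction.mem_stabilizer_iff.1 (hA ha)
    rw [ha'] at this
    exact hγα this
  refine ⟨⟨hne, hnil, ?_, ?_, ?_⟩, ?_⟩
  · exact (Group.isNilpotent_congr (A.equivMapOfInjective _ (MulAut.conj y).injective)).1 hnil
  · have := hcond 1 y (by rw [one_smul]; exact hβα.symm)
    rwa [h01] at this
  · have := hcond y 1 (by rw [one_smul]; exact hβα)
    rwa [h01] at this
  · apply le_antisymm
    · have hle : ∀ g : Y, conjBy A g ≤ A ⊔ conjBy A y := by
        intro g
        by_cases hg : g • α = α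
        · rw [hAn g (MulAction.mem_stabilizer_iff.2 hg)]; exact le_sup_left
        · obtain ⟨a, ⟨ha, ha'⟩, -⟩ := hreg β (g • α) hβα hg
          rw [hwd g (a * y) (by rw [mul_smul, ha']), ← conjBy_conjBy]
          have h5 := conjBy_mono (le_sup_right : conjBy A y ≤ A ⊔ conjBy A y) a
          rwa [conjBy_mem_self (Subgroup.mem_sup_left ha : a ∈ A ⊔ conjBy A y)] at h5
      rw [Subgroup.normalClosure, Subgroup.closure_le]
      intro x hx
      rw [Group.mem_conjugatesOfSet_iff] at hx
      obtain ⟨a, ha, hax⟩ := hx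
      obtain ⟨g, rfl⟩ := isConj_iff.1 hax
      exact hle g (conjBy_normal_iff.2 ha)
    · refine sup_le Subgroup.le_normalClosure ?_
      intro x hx
      rw [mem_conjBy] at hx
      have h5 := (Subgroup.normalClosure_normal (s := (A : Set Y))).conj_mem _
        (Subgroup.le_normalClosure hx) y
      have h6 : y * (y⁻¹ * x * y) * y⁻¹ = x := by group
      rwa [h6] at h5

end Cfsg.Agent.S5015
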