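import Cfsg.Statements.S5017
import Cfsg.Agent.H3.RankB

set_option autoImplicit false
open Cfsg Cfsg.Agent Cfsg.Agent.H3 Cfsg.Agent.H28

namespace Cfsg.Agent.S5017

theorem simple_quot {X : Type*} [Group X] {A B : Subgroup X} (h : Cfsg.IsRankOneGroup X A B)
    [Group.IsPerfect X] : IsSimpleGroup (X ⧸ Subgroup.center X) := by
  have hne : Nontrivial (X ⧸ Subgroup.center X) := by
    by_contra h0
    rw [not_nontrivial_iff_subsingleton, QuotientGroup.subsingleton_iff] at h0
    have h1 : ⁅A, B⁆ = ⊥ := by
      rw [eq_bot_iff, Subgroup.commutator_le]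
      intro a _ b _
      have h2 : a ∈ Subgroup.center X := h0 ▸ Subgroup.mem_top a
      rw [Subgroup.mem_bot, commutatorElement_eq_one_iff_mul_comm]
      exact (Subgroup.mem_center_iff.1 h2 b).symm
    exact ro_not_comm h.2 h1
  refine { eq_bot_or_eq_top_of_normal := fun N hN => ?_ }
  rcases ro_normal h.1 h.2 (hN.comap (QuotientGroup.mk' (Subgroup.center X))) with h1 | h1
  · right
    have h2 := eq_top_of_perfect h1 h.2.nilpotent_left
    rw [← Subgroup.comap_top (QuotientGroup.mk' (Subgroup.center X))] at h2
    exact Subgroup.comap_injective (QuotientGroup.mk'_surjective _) h2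
  · left
    rw [eq_bot_iff]
    intro x hx
    obtain ⟨y, rfl⟩ := QuotientGroup.mk_surjective x
    have h2 : y ∈ N.comap (QuotientGroup.mk' (Subgroup.center X)) := hx
    rw [Subgroup.mem_bot, QuotientGroup.eq_one_iff]
    exact h1 h2

/-- Let X be a rank one group with unipotent subgroups A and B and N a normal subgroup of X. Then either X = N A or N lies in the centre of X. Consequently a perfect rank one group is quasisimple. -/
theorem result {X : Type*} [Group X] {A B : Subgroup X} (h : Cfsg.IsRankOneGroup X A B) :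
    (∀ N : Subgroup X, N.Normal → N ⊔ A = ⊤ ∨ N ≤ Subgroup.center X) ∧
    (Group.IsPerfect X → Cfsg.IsQuasisimple X) := by

  refine ⟨fun N hN => ro_normal h.1 h.2 hN, fun hp => ⟨hp, ?_⟩⟩
  haveI := hp
  exact simple_quot h

end Cfsg.Agent.S5017
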