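import Cfsg.Statements.S5018
import Cfsg.Agent.H3.RankB

set_option autoImplicit false
open Cfsg Cfsg.Agent Cfsg.Agent.H3 Cfsg.Agent.H28

namespace Cfsg.Agent.S5018

/-- A rank one group is not nilpotent, and its second centre equals its centre. -/
theorem result {X : Type*} [Group X] {A B : Subgroup X} (h : Cfsg.IsRankOneGroup X A B) :
    Subgroup.upperCentralSeries X 2 = Subgroup.center X ∧ ¬ Group.IsNilpotent X := by
  refine ⟨?_, ro_not_nilpotent h.1 h.2⟩
  apply le_antisymm
  · rcases ro_normal h.1 h.2 (N := Subgroup.upperCentralSeries X 2) inferInstance with h1 | h1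
    · exfalso
      apply ro_not_nilpotent h.1 h.2
      have h2 := quot_nilpotent h1 h.2.nilpotent_left
      -- `X / Z` is nilpotent
      have hle : Subgroup.center X ≤ Subgroup.upperCentralSeries X 2 := by
        rw [← Subgroup.upperCentralSeries_one]
        exact Subgroup.upperCentralSeries_mono X one_le_two
      have h3 : Group.IsNilpotent (X ⧸ Subgroup.center X) := by
        refine Subgroup.isNilpotent_of_ker_le_center (QuotientGroup.map (Subgroup.center X)
          (Subgroup.upperCentralSeries X 2) (MonoidHom.id X) hle) ?_
        intro x hx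
        obtain ⟨y, rfl⟩ := QuotientGroup.mk_surjective x
        rw [MonoidHom.mem_ker] at hx
        have h4 : y ∈ Subgroup.upperCentralSeries X 2 := by
          rw [← QuotientGroup.eq_one_iff]; exact hx
        rw [Subgroup.mem_center_iff]
        intro g
        obtain ⟨z, rfl⟩ := QuotientGroup.mk_surjective g
        rw [Subgroup.mem_upperCentralSeries_succ_iff] at h4
        have h5 := h4 z
        rw [Subgroup.upperCentralSeries_one, ← QuotientGroup.eq_one_iff] at h5
        have h6 : (y : X ⧸ Subgroup.center X) * z * (y : X ⧸ Subgroup.center X)⁻¹ * (z : X ⧸ Subgroup.center X)⁻¹ = 1 := h5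
        rw [mul_inv_eq_one, mul_inv_eq_iff_eq_mul] at h6
        exact h6.symm
      exact Group.of_quotient_center_nilpotent h3
    · exact h1
  · rw [← Subgroup.upperCentralSeries_one]
    exact Subgroup.upperCentralSeries_mono X one_le_two

end Cfsg.Agent.S5018
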