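import Cfsg.Statements.S5020
import Cfsg.Agent.H3.RankSp
import Cfsg.Agent.H3.RankQ
import Cfsg.Agent.H13.Quasi
import Cfsg.Agent.S5017

set_option autoImplicit false
open Cfsg Cfsg.Agent Cfsg.Agent.H3 Cfsg.Agent.H28

namespace Cfsg.Agent.S5020

theorem zmod2_sq : ∀ r : ZMod 2, r ^ 2 = 1 → r = 1 := by decide

theorem small_iso {X : Type*} [Group X] {A B : Subgroup X} (h : Cfsg.IsRankOneGroup X A B)
    (hs : Cfsg.IsSpecialRankOnePair A B) (hab : Cfsg.HasAbelianUnipotents A B)
    {p : ℕ} [Fact p.Prime] (hc : Nat.card A = p) :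
    ∃ φ : Matrix.SpecialLinearGroup (Fin 2) (ZMod p) →* X, φ.range = ⊤ ∧
      φ.ker ≤ Subgroup.center (Matrix.SpecialLinearGroup (Fin 2) (ZMod p)) := by
  have hp := Fact.out (p := p.Prime)
  haveI : Finite A := Nat.finite_of_card_ne_zero (by rw [hc]; exact hp.ne_zero)
  obtain ⟨a, ha, ha1⟩ := exists_ne_one_of_ne_bot (ro_ne_bot h.2)
  obtain ⟨b, hb⟩ := brel_left h.2 ha ha1
  have hA : ∀ a ∈ A, a ^ p = 1 := by
    intro a ha
    have := pow_card_eq_one' (x := (⟨a, ha⟩ : A))
    rw [hc] at this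
    exact congrArg Subtype.val this
  obtain ⟨φ, h1, h2, h3, h4⟩ := sl2_of_brel hs hab hA hb
  refine ⟨φ, ?_, h4⟩
  -- `A = ⟨a⟩`
  have hzp : ∀ {C : Subgroup X}, Nat.card C = p → ∀ c ∈ C, c ≠ 1 → C ≤ Subgroup.zpowers c := by
    intro C hC c hc hc1 x hx
    have h5 := mem_zpowers_of_prime_card (G := C) hC (g := ⟨c, hc⟩) (g' := ⟨x, hx⟩)
      (fun h => hc1 (congrArg Subtype.val h))
    obtain ⟨n, hn⟩ := h5
    exact ⟨n, congrArg Subtype.val hn⟩
  obtain ⟨x, hx, hx'⟩ := ro_mem_right h.2
  have hcB : Nat.card B = p := by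
    rw [hx', ← hc]
    exact (Nat.card_congr (A.equivMapOfInjective _ (MulAut.conj x).injective).toEquiv).symm
  rw [h3, eq_top_iff, ← h.1]
  refine sup_le ((hzp hc a ha ha1).trans ?_) ((hzp hcB b hb.hb hb.hb1).trans ?_)
  · rw [Subgroup.zpowers_le]; exact Subgroup.subset_closure (by simp)
  · rw [Subgroup.zpowers_le]; exact Subgroup.subset_closure (by simp)

/-- Let X be a special rank one group with abelian unipotent subgroups A and B, and H = N(A) ∩ N(B) its diagonal subgroup. Then either A has at most three elements and X is isomorphic to SL₂(2), SL₂(3) or PSL₂(3); or X = X' A with the commutator subgroup X' quasisimple and the commutator subgroup ⁅A, H⁆ having more than three elements. -/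
theorem result {X : Type*} [Group X] {A B : Subgroup X} (h : Cfsg.IsRankOneGroup X A B)
    (hs : Cfsg.IsSpecialRankOnePair A B) (hab : Cfsg.HasAbelianUnipotents A B) :
    (ENat.card A ≤ 3 ∧ (Nonempty (X ≃* Matrix.SpecialLinearGroup (Fin 2) (ZMod 2)) ∨
        Nonempty (X ≃* Matrix.SpecialLinearGroup (Fin 2) (ZMod 3)) ∨
        Nonempty (X ≃* Matrix.ProjectiveSpecialLinearGroup (Fin 2) (ZMod 3)))) ∨
    (commutator X ⊔ A = ⊤ ∧ Cfsg.IsQuasisimple (commutator X) ∧
      3 < ENat.card ↥(⁅A, Cfsg.rankOneDiagonal A B⁆ : Subgroup X)) := by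

  by_cases h3 : ENat.card A ≤ 3
  · left
    refine ⟨h3, ?_⟩
    have hfin : Finite A := by
      rw [← ENat.card_lt_top]
      exact lt_of_le_of_lt h3 (by decide)
    have hle : Nat.card A ≤ 3 := by
      rw [ENat.card_eq_coe_natCard] at h3
      exact_mod_cast h3
    have hgt : 1 < Nat.card A := by
      rw [Subgroup.one_lt_card_iff_ne_bot]
      exact ro_ne_bot h.2
    have htop : ∀ {S : Subgroup X}, S = ⊤ → Nonempty (X ≃* S) := by
      rintro _ rfl
      exact ⟨Subgroup.topEquiv.symm⟩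
    have hcard : Nat.card A = 2 ∨ Nat.card A = 3 := by omega
    rcases hcard with hc | hc
    · left
      haveI : Fact (Nat.Prime 2) := ⟨Nat.prime_two⟩
      obtain ⟨φ, hr, hk⟩ := small_iso h hs hab hc
      obtain ⟨e⟩ := htop hr
      have hk0 : φ.ker = ⊥ := by
        rw [eq_bot_iff]
        intro c hc
        obtain ⟨r, hr, hrc⟩ := Matrix.SpecialLinearGroup.mem_center_iff.1 (hk hc)
        rw [Fintype.card_fin] at hr
        have hr1 : r = 1 := by
          exact zmod2_sq r hr
        rw [Subgroup.mem_bot]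
        apply Subtype.ext
        rw [← hrc, hr1]
        simp
      exact ⟨e.trans (MonoidHom.ofInjective ((MonoidHom.ker_eq_bot_iff φ).1 hk0)).symm⟩
    · right
      haveI : Fact (Nat.Prime 3) := ⟨Nat.prime_three⟩
      obtain ⟨φ, hr, hk⟩ := small_iso h hs hab hc
      obtain ⟨e⟩ := htop hr
      rcases iso_of_ker_le_center φ hk with f | f
      · left; exact ⟨e.trans f.some⟩
      · right; exact ⟨e.trans f.some⟩
  · right
    have h4 := fourElts_of_card h3
    have hperf := sp_perfect hs hab h4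
    rw [h.1] at hperf
    have hct : commutator X = ⊤ := hperf
    refine ⟨by rw [hct, top_sup_eq], ?_, ?_⟩
    · haveI : Group.IsPerfect X := ⟨hct⟩
      rw [hct]
      exact H13.isQuasisimple_congr Subgroup.topEquiv.symm ((S5017.result h).2 inferInstance)
    · rw [comm_diag_eq hs hab h4]
      exact not_le.1 h3

end Cfsg.Agent.S5020
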