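import Cfsg.Statements.S5023
import Cfsg.Agent.H3.RankT

set_option autoImplicit false
open Cfsg Cfsg.Agent Cfsg.Agent.H3 Cfsg.Agent.H28

namespace Cfsg.Agent.S5023

theorem comm_of_quad {X : Type*} [Group X] {A : Subgroup X}
    {V : Type*} [AddCommGroup V] [DistribMulAction X V] (hf : ∀ x : X, (∀ v : V, x • v = v) → x = 1)
    (hq : ∀ a ∈ A, ∀ a' ∈ A, ∀ v : V, a' • (a • v - v) = a • v - v) :
    ∀ a ∈ A, ∀ a' ∈ A, a * a' = a' * a := by
  intro a ha a' ha'
  rw [← mul_inv_eq_one]
  apply hf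
  intro v
  have h1 : ∀ w : V, a • a' • w = a' • a • w := by
    intro w
    have h2 := hq a ha a' ha' w
    have h3 := hq a' ha' a ha w
    rw [smul_sub, sub_eq_iff_eq_add] at h2 h3
    rw [h2, h3]; abel
  rw [mul_smul, mul_smul, h1, ← mul_smul a' a, smul_inv_smul]

/-- Let X be a rank one group with unipotent subgroups A and B that acts faithfully on an abelian group V (written additively) with A acting quadratically: a' • (a • v − v) = a • v − v for all a, a' in A and v in V. Then A is either torsion-free or an elementary abelian p-group for some prime p. -/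
theorem result {X : Type*} [Group X] {A B : Subgroup X} (h : Cfsg.IsRankOneGroup X A B)
    {V : Type*} [AddCommGroup V] [DistribMulAction X V] (hf : ∀ x : X, (∀ v : V, x • v = v) → x = 1)
    (hq : ∀ a ∈ A, ∀ a' ∈ A, ∀ v : V, a' • (a • v - v) = a • v - v) :
    (∀ a ∈ A, a ≠ 1 → ¬ IsOfFinOrder a) ∨ ∃ p : ℕ, p.Prime ∧ Cfsg.IsElementaryAbelian p A := by

  have hcA := comm_of_quad hf hq
  obtain ⟨x₀, hx₀, hx₀'⟩ := ro_mem_right h.2
  have hqB : ∀ a ∈ B, ∀ a' ∈ B, ∀ n : V, a' • (a • n - n) = a • n - n := by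
    rw [hx₀']; exact quad_conj hq x₀
  have hcB := comm_of_quad hf hqB
  have hab : HasAbelianUnipotents A B :=
    ⟨⟨⟨fun a b => Subtype.ext (hcA a a.2 b b.2)⟩⟩, ⟨⟨fun a b => Subtype.ext (hcB a a.2 b b.2)⟩⟩⟩
  have hn : ∃ x y : X, ∃ n : V, y • (x • n - n) ≠ x • n - n := by
    by_contra hcon
    push Not at hcon
    have hc := comm_of_quad (A := (⊤ : Subgroup X)) hf (fun a _ a' _ v => hcon a a' v)
    apply ro_not_comm h.2
    rw [eq_bot_iff, Subgroup.commutator_le]
    intro a _ b _
    rw [Subgroup.mem_bot, commutatorElement_eq_one_iff_mul_comm]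
    exact hc a (Subgroup.mem_top _) b (Subgroup.mem_top _)
  have hs := quad_special h.1 h.2 hq hn
  rcases sp_dichotomy hs hab with h1 | h1
  · exact Or.inr h1
  · exact Or.inl h1.1

end Cfsg.Agent.S5023
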