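import Cfsg.Statements.S5024
import Cfsg.Agent.H3.RootA

set_option autoImplicit false
open Cfsg Cfsg.Agent Cfsg.Agent.H3 Cfsg.Agent.H28

namespace Cfsg.Agent.S5024

/-- Let S be a set of abstract root subgroups of G, A and C members of S, B a rank one partner of A in S and D a rank one partner of C in S. If the rank one group ⟨A, B⟩ is contained in ⟨C, D⟩ then the two coincide, and C and D are conjugates of A inside ⟨A, B⟩. -/
theorem result {G : Type*} [Group G] {S : Set (Subgroup G)} (hS : Cfsg.IsRootSubgroupSet S)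
    {A B C D : Subgroup G} (hA : A ∈ S) (hC : C ∈ S) (hB : B ∈ Cfsg.rankOnePartners S A) (hD : D ∈ Cfsg.rankOnePartners S C)
    (hle : A ⊔ B ≤ C ⊔ D) : A ⊔ B = C ⊔ D ∧ C ∈ Cfsg.unipotentSubgroups A B ∧ D ∈ Cfsg.unipotentSubgroups A B := by
  obtain ⟨hBS, hAB⟩ := hB
  obtain ⟨hDS, hCD⟩ := hD
  have hA1 : A ∈ unipotentSubgroups C D := by
    apply mem_unip_of_le hS hA hC hDS hCD (le_sup_left.trans hle)
    intro h
    apply ro_not_comm hAB
    rw [comm_bot_iff] at h ⊢
    exact fun a ha b hb => h a ha b (hle (Subgroup.mem_sup_right hb))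
  have hB1 : B ∈ unipotentSubgroups C D := by
    apply mem_unip_of_le hS hBS hC hDS hCD (le_sup_right.trans hle)
    intro h
    apply ro_not_comm hAB
    rw [comm_bot_iff] at h ⊢
    exact fun a ha b hb => (h b hb a (hle (Subgroup.mem_sup_left ha))).symm
  have heq := (ro_pair_of_mem hCD hA1 hB1 hAB.ne).2
  have key : ∀ E ∈ unipotentSubgroups C D, E ∈ unipotentSubgroups A B := by
    intro E hE
    obtain ⟨x, hx, hx'⟩ := hA1
    obtain ⟨y, hy, hy'⟩ := hE
    refine ⟨y * x⁻¹, heq ▸ mul_mem hy (inv_mem hx), ?_⟩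
    rw [hx', conjBy_conjBy, inv_mul_cancel_right, hy']
  exact ⟨heq, key C mem_unip_self, key D (ro_right_mem hCD)⟩

end Cfsg.Agent.S5024
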