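import Cfsg.Statements.S5026
import Cfsg.Agent.H3.RootA

set_option autoImplicit false
open Cfsg Cfsg.Agent Cfsg.Agent.H3 Cfsg.Agent.H28

namespace Cfsg.Agent.S5026

/-- Let S be a degenerate set of abstract root subgroups of G (a set of abstract transvection groups) and let a, b be commuting non-identity elements of members of S with a b ≠ 1. Then the members of S centralizing a b are exactly those centralizing both a and b. -/
theorem result {G : Type*} [Group G] {S : Set (Subgroup G)} (hS : Cfsg.IsRootSubgroupSet S) (hdeg : Cfsg.IsDegenerateRootSet S)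
    {a b : G} (ha : a ∈ Cfsg.rootElements S) (hb : b ∈ Cfsg.rootElements S) (hab : a * b = b * a) (hab1 : a * b ≠ 1) :
    Cfsg.centralizingMembers S (Subgroup.zpowers (a * b)) =
      Cfsg.centralizingMembers S (Subgroup.zpowers a) ∩ Cfsg.centralizingMembers S (Subgroup.zpowers b) := by
  obtain ⟨ha1, A, hA, haA⟩ := ha
  obtain ⟨hb1, B, hB, hbB⟩ := hb
  have hcz : ∀ (x : G) (C : Subgroup G), C ≤ Subgroup.centralizer (Subgroup.zpowers x : Set G) ↔
      ∀ c ∈ C, x * c = c * x := by
    intro x C
    constructor
    · intro h c hc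
      exact Subgroup.mem_centralizer_iff.1 (h hc) x (Subgroup.mem_zpowers x)
    · intro h c hc
      rw [Subgroup.mem_centralizer_iff]
      rintro _ ⟨n, rfl⟩
      exact (show Commute x c from h c hc).zpow_left n
  ext C
  simp only [centralizingMembers, Set.mem_setOf_eq, Set.mem_inter_iff, hcz]
  constructor
  · rintro ⟨hC, hc⟩
    -- case analysis for an element
    have key : ∀ {A : Subgroup G} {a : G}, A ∈ S → a ∈ A → a ≠ 1 →
        (∀ c ∈ C, a * c = c * a) ∨ IsRankOnePair A C := by
      intro A a hA ha ha1
      rcases hS.pair A hA C hC with h1 | h1 | h1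
      · exact Or.inl (comm_bot_iff.1 h1 a ha)
      · exact Or.inr h1
      · exact absurd h1 (hdeg A hA C hC)
    have k1 : (∀ c ∈ C, a * c = c * a) → (∀ c ∈ C, b * c = c * b) := by
      intro h c hc'
      have h1 := hc c hc'
      rw [mul_assoc, ← mul_assoc c, ← h c hc', mul_assoc] at h1
      exact mul_left_cancel h1
    by_cases h1 : ∀ c ∈ C, a * c = c * a
    · exact ⟨⟨hC, h1⟩, hC, k1 h1⟩
    · exfalso
      have h2 : ¬ ∀ c ∈ C, b * c = c * b := by
        intro h2
        apply h1
        intro c hc'
        have h3 := hc c hc'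
        rw [mul_assoc, h2 c hc', ← mul_assoc, ← mul_assoc] at h3
        exact mul_right_cancel h3
      have r1 := (key hA haA ha1).resolve_left h1
      have r2 := (key hB hbB hb1).resolve_left h2
      -- `b ∈ B`, `C^a = C^{b⁻¹}`
      obtain ⟨c, hc1⟩ := brel_left r1 haA ha1
      obtain ⟨c', hc2⟩ := brel_left r2 (inv_mem hbB) (inv_ne_one.2 hb1)
      have h3 : conjBy C (a * b) = C := by
        rw [← mem_normalizer_iff_conjBy, Subgroup.mem_normalizer_iff]
        intro x
        constructor
        · intro hx; rwa [hc x hx, mul_inv_cancel_right]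
        · intro hx
          have h4 := hc _ hx
          have h5 : x = a * b * x * (a * b)⁻¹ := by
            have h6 : a * b * (a * b * x * (a * b)⁻¹) = a * b * x := by rw [h4]; group
            exact (mul_left_cancel h6).symm
          rwa [h5]
      have h4 : conjBy C a⁻¹ = conjBy C b := by
        rw [conjBy_eq_iff, inv_inv, conjBy_conjBy, h3]
      have h5 : conjBy A c⁻¹ = conjBy B c'⁻¹ := by
        rw [hc1.eq, hc2.eq, inv_inv, h4]
      have hBX : B ∈ unipotentSubgroups A C := by
        rw [eq_comm, conjBy_eq_iff, inv_inv, conjBy_conjBy] at h5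
        exact ⟨_, Subgroup.mem_sup_right (mul_mem hc2.hb (inv_mem hc1.hb)), h5⟩
      have hbX : b ∈ A ⊔ C := by
        obtain ⟨x, hx, hBx⟩ := hBX
        have := conjBy_mono (le_sup_left : A ≤ A ⊔ C) x
        rw [conjBy_mem_self hx, ← hBx] at this
        exact this hbB
      have hAB : A = B := by
        by_contra hne
        have h6 := (ro_pair_of_mem r1 hBX mem_unip_self (Ne.symm hne)).1
        apply hb1
        apply rankOne_left_normalizer h6 hbB
        rw [mem_normalizer_iff_conjBy]
        apply ro_eq_of_mem r1 (unip_conj hbX mem_unip_self) mem_unip_self ha1 _ haA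
        rw [mem_conjBy, mul_assoc, hab, inv_mul_cancel_left]
        exact haA
      rw [← hAB] at hbB
      exact ro_comm_absurd r1 (mul_mem haA hbB) hab1 hc
  · rintro ⟨⟨hC, h1⟩, -, h2⟩
    refine ⟨hC, fun c hc => ?_⟩
    rw [mul_assoc, h2 c hc, ← mul_assoc, h1 c hc, mul_assoc]

end Cfsg.Agent.S5026
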