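import Cfsg.Statements.S5027
import Cfsg.Agent.H3.RootA

set_option autoImplicit false
open Cfsg Cfsg.Agent Cfsg.Agent.H3 Cfsg.Agent.H28

namespace Cfsg.Agent.S5027

/-- Let S be a set of abstract root subgroups of G such that every member of S has a rank one partner in S (the graph of rank one pairs on S has no isolated vertex). Then the second centre of G equals its centre. -/
theorem result {G : Type*} [Group G] {S : Set (Subgroup G)} (hS : Cfsg.IsRootSubgroupSet S)
    (hF : ∀ A ∈ S, ¬ Cfsg.IsIsolatedIn (Cfsg.FAdj S) S A) : Subgroup.upperCentralSeries G 2 = Subgroup.center G := by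
  apply le_antisymm
  · intro z hz
    have h2 : ∀ g : G, z * g * z⁻¹ * g⁻¹ ∈ Subgroup.center G := by
      intro g
      rw [Subgroup.mem_upperCentralSeries_succ_iff] at hz
      have := hz g
      rwa [Subgroup.upperCentralSeries_one] at this
    have key : ∀ A ∈ S, ∀ a ∈ A, a * z = z * a := by
      intro A hA a ha
      by_contra hne
      have ha1 : a ≠ 1 := by rintro rfl; exact hne (by rw [mul_one, one_mul])
      obtain ⟨B, hB, hAB⟩ := (not_isolated_iff hA).1 (hF A hA)
      have hw := h2 a
      set w := z * a * z⁻¹ * a⁻¹ with hw'
      have hw1 : w ≠ 1 := by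
        intro h3
        rw [hw', mul_inv_eq_one, mul_inv_eq_iff_eq_mul] at h3
        exact hne h3.symm
      apply no_central_mul hS hA hB hAB (fun x _ => (Subgroup.mem_center_iff.1 hw x).symm) hw1 ha ha1
      have e : w * a = z * a * z⁻¹ := by rw [hw']; group
      rw [e]
      refine ⟨?_, conjBy A z, hS.conj_mem A hA z, conjBy_normal_iff.2 ha⟩
      intro h3; apply ha1
      have : a = z⁻¹ * (z * a * z⁻¹) * z := by group
      rw [this, h3]; group
    rw [Subgroup.mem_center_iff]
    intro g
    have h3 : (⊤ : Subgroup G) ≤ Subgroup.centralizer {z} := by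
      rw [← hS.generates]
      refine iSup₂_le fun A hA => ?_
      intro a ha
      rw [Subgroup.mem_centralizer_singleton_iff]
      exact key A hA a ha
    have := h3 (Subgroup.mem_top g)
    rw [Subgroup.mem_centralizer_singleton_iff] at this
    exact this
  · rw [← Subgroup.upperCentralSeries_one]
    exact Subgroup.upperCentralSeries_mono G one_le_two

end Cfsg.Agent.S5027
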