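import Cfsg.Statements.S5029
import Cfsg.Agent.H3.RootB

set_option autoImplicit false
open Cfsg Cfsg.Agent Cfsg.Agent.H3 Cfsg.Agent.H28

namespace Cfsg.Agent.S5029

/-- Let S be a set of abstract root subgroups of G, A ∈ S having a rank one partner in S, and B ∈ S with C = ⁅A, B⁆ ∈ S. Then the members of S contained in AC are the conjugates of A by elements of B together with C, they partition AC, the members of S inside AC partition AC so that A is a line partner of C, and for every non-identity a ∈ A the map b ↦ a⁻¹ b⁻¹ a b is an isomorphism from B onto C. -/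
theorem result {G : Type*} [Group G] {S : Set (Subgroup G)} (hS : Cfsg.IsRootSubgroupSet S)
    {A B : Subgroup G} (hA : ¬ Cfsg.IsIsolatedIn (Cfsg.FAdj S) S A) (hAS : A ∈ S) (hB : B ∈ S) (hC : ⁅A, B⁆ ∈ S) :
    Cfsg.membersIn S (A ⊔ ⁅A, B⁆) = (fun b : G => Cfsg.conjBy A b) '' (B : Set G) ∪ {⁅A, B⁆} ∧
    Cfsg.IsSubgroupPartition (A ⊔ ⁅A, B⁆) (Cfsg.membersIn S (A ⊔ ⁅A, B⁆)) ∧
    A ∈ Cfsg.linePartners S ⁅A, B⁆ ∧
    ∀ a ∈ A, a ≠ 1 → ∃ φ : ↥B ≃* ↥⁅A, B⁆, ∀ b : ↥B, (φ b : G) = a⁻¹ * (b : G)⁻¹ * a * b := by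
  obtain ⟨D, hD, hAD⟩ := (not_isolated_iff hAS).1 hA
  have h := rc_of_mem hS hAS hB hC
  refine ⟨line_membersIn hS hAS h hD hAD, line_partition hS hAS h hD hAD,
    line_partner hS hAS h hD hAD, fun a ha ha1 => ?_⟩
  have hmem : ∀ b ∈ B, a⁻¹ * b⁻¹ * a * b ∈ ⁅A, B⁆ := by
    intro b hb
    have := mem_comm a⁻¹ b⁻¹ (inv_mem ha) (inv_mem hb)
    rwa [inv_inv, inv_inv] at this
  let φ : ↥B →* ↥⁅A, B⁆ := {
    toFun := fun b => ⟨a⁻¹ * (b : G)⁻¹ * a * b, hmem b b.2⟩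
    map_one' := Subtype.ext (by simp)
    map_mul' := by
      intro b b'
      apply Subtype.ext
      show a⁻¹ * ((b : G) * b')⁻¹ * a * (b * b') = (a⁻¹ * (b : G)⁻¹ * a * b) * (a⁻¹ * (b' : G)⁻¹ * a * b')
      have h1 := rc_comm_right h (hmem b b.2) b'.2
      have h2 := S_comm hS hC _ (hmem b b.2) _ (hmem b' b'.2)
      rw [h2]
      have e : a⁻¹ * ((b : G) * b')⁻¹ * a * (b * b') =
        a⁻¹ * (b' : G)⁻¹ * a * ((a⁻¹ * (b : G)⁻¹ * a * b) * b') := by group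
      rw [e, h1]; group }
  refine ⟨MulEquiv.ofBijective φ ⟨?_, ?_⟩, fun b => rfl⟩
  · rw [injective_iff_map_eq_one]
    intro b hb
    have h1 : a⁻¹ * (b : G)⁻¹ * a * b = 1 := congrArg Subtype.val hb
    have h2 : a * b = b * a := by
      have : a⁻¹ * (b : G)⁻¹ * a * b = (b * a)⁻¹ * (a * b) := by group
      rw [this, inv_mul_eq_one] at h1
      exact h1.symm
    exact Subtype.ext (line_inj hS hAS h hD hAD ha ha1 b.2 h2)
  · rintro ⟨c, hc⟩
    obtain ⟨b, hb, hb'⟩ := rc_surj h (inv_mem ha) (inv_ne_one.2 ha1) hc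
    refine ⟨⟨b⁻¹, inv_mem hb⟩, Subtype.ext ?_⟩
    show a⁻¹ * (b⁻¹)⁻¹ * a * b⁻¹ = c
    rw [← hb']; group

end Cfsg.Agent.S5029
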