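import Cfsg.Statements.S5030
import Cfsg.Agent.H3.RootC

set_option autoImplicit false
open Cfsg Cfsg.Agent Cfsg.Agent.H3 Cfsg.Agent.H28

namespace Cfsg.Agent.S5030

theorem not_comm_of {G : Type*} [Group G] {A B : Subgroup G} (h : ¬ Cm A B) :
    ¬ IsMulCommutative ↥(A ⊔ B) := by
  intro hc
  apply h
  intro a ha b hb
  have := hc.is_comm.comm ⟨a, Subgroup.mem_sup_left ha⟩ ⟨b, Subgroup.mem_sup_right hb⟩
  exact congrArg Subtype.val this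

theorem comm_sup_self {G : Type*} [Group G] {A B : Subgroup G} (hA : Cm A A) (hB : Cm B B)
    (hc : ∀ c ∈ ⁅A, B⁆, ∀ x ∈ A ⊔ B, c * x = x * c) : ⁅⁅A ⊔ B, A ⊔ B⁆, A ⊔ B⁆ = ⊥ := by
  have n : ∀ x ∈ A ⊔ B, conjBy ⁅A, B⁆ x = ⁅A, B⁆ := fun x hx => Cm.conj_eq hc hx
  have h1 : ⁅A ⊔ B, A ⊔ B⁆ ≤ ⁅A, B⁆ := by
    refine comm_sup_le n (comm_sup_le' n ?_ le_rfl) (comm_sup_le' n ?_ ?_)
    · rw [cm_iff.1 hA]; exact bot_le
    · rw [Subgroup.commutator_comm]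
    · rw [cm_iff.1 hB]; exact bot_le
  rw [eq_bot_iff]
  refine (Subgroup.commutator_mono h1 le_rfl).trans ?_
  rw [cm_iff.1 hc]

/-- Let S be a set of abstract root subgroups of G and A, B, C ∈ S with ⁅A, B⁆ ∈ S and ⁅B, C⁆ ∈ S, where A and C are different and commute. For a non-identity b ∈ B put X = ⟨A, b⁻¹ C b⟩ and Y = ⟨b⁻¹ A b, C⟩ and R = ⟨A, B, C⟩. Then X and Y are either both abelian or both nilpotent of class exactly two; X and Y commute elementwise; XY is normal in R with R = (XY) B; and R is nilpotent. -/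
theorem result {G : Type*} [Group G] {S : Set (Subgroup G)} (hS : Cfsg.IsRootSubgroupSet S)
    {A B C : Subgroup G} (hA : A ∈ S) (hB : B ∈ S) (hC : C ∈ S) (hAB : ⁅A, B⁆ ∈ S) (hBC : ⁅B, C⁆ ∈ S)
    (hAC : C ∈ Cfsg.commutingPartners S A)
    {b : G} (hb : b ∈ B) (hb1 : b ≠ 1) :
    ((IsMulCommutative ↥(A ⊔ Cfsg.conjBy C b⁻¹) ∧ IsMulCommutative ↥(Cfsg.conjBy A b⁻¹ ⊔ C)) ∨
      ((¬ IsMulCommutative ↥(A ⊔ Cfsg.conjBy C b⁻¹) ∧
          ⁅⁅A ⊔ Cfsg.conjBy C b⁻¹, A ⊔ Cfsg.conjBy C b⁻¹⁆, A ⊔ Cfsg.conjBy C b⁻¹⁆ = ⊥) ∧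
        (¬ IsMulCommutative ↥(Cfsg.conjBy A b⁻¹ ⊔ C) ∧
          ⁅⁅Cfsg.conjBy A b⁻¹ ⊔ C, Cfsg.conjBy A b⁻¹ ⊔ C⁆, Cfsg.conjBy A b⁻¹ ⊔ C⁆ = ⊥))) ∧
    ⁅A ⊔ Cfsg.conjBy C b⁻¹, Cfsg.conjBy A b⁻¹ ⊔ C⁆ = ⊥ ∧
    (∀ r ∈ A ⊔ B ⊔ C, Cfsg.conjBy ((A ⊔ Cfsg.conjBy C b⁻¹) ⊔ (Cfsg.conjBy A b⁻¹ ⊔ C)) r =
      (A ⊔ Cfsg.conjBy C b⁻¹) ⊔ (Cfsg.conjBy A b⁻¹ ⊔ C)) ∧
    ((A ⊔ Cfsg.conjBy C b⁻¹) ⊔ (Cfsg.conjBy A b⁻¹ ⊔ C)) ⊔ B = A ⊔ B ⊔ C ∧
    Group.IsNilpotent ↥(A ⊔ B ⊔ C) := by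

  have hABr := rc_of_mem hS hA hB hAB
  have hCBr := rc_symm (rc_of_mem hS hB hC hBC)
  have hACc : Cm A C := cm_iff.2 hAC.2.2
  obtain ⟨cXY, hiff, tri1, tri2, g1, g2, f1, f2⟩ := triple_facts hS hA hC hABr hCBr hACc hb hb1
  have cAA : Cm A A := S_comm hS hA
  have cCC : Cm C C := S_comm hS hC
  have cBB : Cm B B := S_comm hS hB
  have hsup := triple_sup hABr hCBr hb hb1
  refine ⟨?_, cm_iff.1 cXY, ?_, ?_, triple_nilpotent hS hA hB hC hABr hCBr hACc⟩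
  · by_cases h : Cm A (conjBy C b⁻¹)
    · left
      have h' := hiff.1 h
      exact ⟨cm_self_comm ((cAA.sup_right h).sup_left (h.symm.sup_right (cCC.conj _))),
        cm_self_comm (((cAA.conj _).sup_right h').sup_left (h'.symm.sup_right cCC))⟩
    · right
      have h' : ¬ Cm (conjBy A b⁻¹) C := fun h' => h (hiff.2 h')
      have r1 := tri1.resolve_left h
      have r2 := tri2.resolve_left h'
      exact ⟨⟨not_comm_of h, comm_sup_self cAA (cCC.conj _) r1.2.1⟩,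
        ⟨not_comm_of h', comm_sup_self (cAA.conj _) cCC r2.2.1⟩⟩
  · have nX : ∀ x ∈ A ⊔ conjBy C b⁻¹ ⊔ (conjBy A b⁻¹ ⊔ C),
        conjBy (A ⊔ conjBy C b⁻¹ ⊔ (conjBy A b⁻¹ ⊔ C)) x =
        A ⊔ conjBy C b⁻¹ ⊔ (conjBy A b⁻¹ ⊔ C) := fun x hx => conjBy_mem_self hx
    refine norm_sup (norm_sup (fun x hx => nX x ?_) (norm_of_le ?_)) (fun x hx => nX x ?_)
    · exact Subgroup.mem_sup_left (Subgroup.mem_sup_left hx)
    · intro β hβ
      rw [hsup, conjBy_sup, conjBy_sup, conjBy_sup, conjBy_comm_right hβ, conjBy_comm_right hβ]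
      refine sup_le (sup_le ?_ (le_sup_right.trans le_sup_left))
        (sup_le ?_ (le_sup_right.trans le_sup_right))
      · have : conjBy A β ≤ A ⊔ ⁅A, B⁆ := conjBy_le_of_comm (by rw [Subgroup.commutator_comm]) hβ
        exact this.trans le_sup_left
      · have : conjBy C β ≤ C ⊔ ⁅C, B⁆ := conjBy_le_of_comm (by rw [Subgroup.commutator_comm]) hβ
        exact this.trans le_sup_right
    · exact Subgroup.mem_sup_right (Subgroup.mem_sup_right hx)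
  · rw [hsup]
    have hle : ∀ {A B : Subgroup G}, ⁅A, B⁆ ≤ A ⊔ B := by
      intro A B
      rw [Subgroup.commutator_le]
      intro a ha c hc
      exact mul_mem (mul_mem (mul_mem (Subgroup.mem_sup_left ha) (Subgroup.mem_sup_right hc))
        (inv_mem (Subgroup.mem_sup_left ha))) (inv_mem (Subgroup.mem_sup_right hc))
    apply le_antisymm
    · refine sup_le (sup_le (sup_le ?_ ?_) (sup_le ?_ ?_)) ?_
      · exact le_sup_left.trans le_sup_left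
      · exact hle.trans le_sup_left
      · exact le_sup_right
      · exact hle.trans (sup_le le_sup_right (le_sup_right.trans le_sup_left))
      · exact le_sup_right.trans le_sup_left
    · refine sup_le (sup_le ?_ ?_) ?_
      · exact (le_sup_left.trans le_sup_left).trans le_sup_left
      · exact le_sup_right
      · exact (le_sup_left.trans le_sup_right).trans le_sup_left

end Cfsg.Agent.S5030
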