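import Cfsg.Statements.S5031
import Cfsg.Agent.H3.RootD

set_option autoImplicit false
open Cfsg Cfsg.Agent Cfsg.Agent.H3 Cfsg.Agent.H28

namespace Cfsg.Agent.S5031

/-- Let S be a set of abstract root subgroups of G and let A, B ∈ S lie in different connected components of the graph of rank one pairs on S, each component having more than one member. Then B is not a line partner of A. -/
theorem result {G : Type*} [Group G] {S : Set (Subgroup G)} (hS : Cfsg.IsRootSubgroupSet S)
    {A B : Subgroup G} (hA : A ∈ S) (hB : B ∈ S)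
    (hne : Cfsg.componentOf (Cfsg.FAdj S) S A ≠ Cfsg.componentOf (Cfsg.FAdj S) S B)
    (hA2 : ∃ A' ∈ Cfsg.componentOf (Cfsg.FAdj S) S A, A' ≠ A) (hB2 : ∃ B' ∈ Cfsg.componentOf (Cfsg.FAdj S) S B, B' ≠ B) :
    B ∉ Cfsg.linePartners S A := by
  intro hL
  obtain ⟨A', hA', hA'ne⟩ := hA2
  obtain ⟨B', hB', hB'ne⟩ := hB2
  obtain ⟨D, hD, hAD⟩ := first_step hA'.2 hA'ne.symm
  obtain ⟨F, hF, hBF⟩ := first_step hB'.2 hB'ne.symm
  have hL' := lp_symm hA hL
  -- `B, D` is in the commutator case
  have hBD : RootCommutatorCase S B D := by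
    rcases hS.pair B hB D hD with h | h | h
    · exact absurd (cm_iff.2 h) (line_not_cm hS hA hD hAD hL (lp_right_mem hB))
    · exfalso
      apply hne
      apply component_eq
      exact (Relation.ReflTransGen.single ⟨hA, hD, hAD⟩).tail ⟨hD, hB, rankOne_symm h⟩
    · exact h
  have hAF : RootCommutatorCase S A F := by
    rcases hS.pair A hA F hF with h | h | h
    · exact absurd (cm_iff.2 h) (line_not_cm hS hB hF hBF hL' (lp_right_mem hA))
    · exfalso
      apply hne
      apply component_eq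
      exact (Relation.ReflTransGen.single ⟨hA, hF, h⟩).tail ⟨hF, hB, rankOne_symm hBF⟩
    · exact h
  obtain ⟨E, hE, hEA, hEB⟩ := line_three hA (hS.ne_bot A hA) (hS.ne_bot B hB) hL
  have h1 := line_third hS hA hD hAD hL hBD hE hEB
  have h2 := line_third hS hB hF hBF hL' hAF (by rw [sup_comm]; exact hE) hEA
  apply hne
  apply component_eq
  exact (((Relation.ReflTransGen.single ⟨hA, hD, hAD⟩).tail ⟨hD, hE.1, rankOne_symm h1⟩).tail
    ⟨hE.1, hF, h2⟩).tail ⟨hF, hB, rankOne_symm hBF⟩

end Cfsg.Agent.S5031
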