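import Cfsg.Statements.S5032
import Cfsg.Agent.H3.RootD

set_option autoImplicit false
open Cfsg Cfsg.Agent Cfsg.Agent.H3 Cfsg.Agent.H28

namespace Cfsg.Agent.S5032

/-- Let S be a set of abstract root subgroups of G with more than one member. Then the graph of rank one pairs on S is connected if and only if S is a single conjugacy class of G and some member of S has a rank one partner in S. -/
theorem result {G : Type*} [Group G] {S : Set (Subgroup G)} (hS : Cfsg.IsRootSubgroupSet S) (h2 : ∃ A ∈ S, ∃ B ∈ S, A ≠ B) :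
    Cfsg.IsConnectedFamily (Cfsg.FAdj S) S ↔
      (Cfsg.IsConjClassOfSubgroups S ∧ ∃ A ∈ S, ¬ Cfsg.IsIsolatedIn (Cfsg.FAdj S) S A) := by
  obtain ⟨A₀, hA₀, B₀, hB₀, hne₀⟩ := h2
  constructor
  · intro hc
    refine ⟨⟨⟨A₀, hA₀⟩, fun A hA B hB => ?_⟩, A₀, hA₀, ?_⟩
    · have h := hc A hA B hB
      induction h with
      | refl => exact ⟨1, (conjBy_one A).symm⟩
      | tail _ h1 ih =>
        obtain ⟨g, hg⟩ := ih h1.1
        obtain ⟨x, -, hx⟩ := ro_mem_right h1.2.2
        exact ⟨x * g, by rw [hx, hg, conjBy_conjBy]⟩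
    · rw [not_isolated_iff hA₀]
      exact first_step (hc A₀ hA₀ B₀ hB₀) hne₀
  · rintro ⟨⟨-, hcl⟩, A₁, hA₁, hiso⟩
    obtain ⟨D, hD, hAD⟩ := (not_isolated_iff hA₁).1 hiso
    have hF : ∀ A ∈ S, ∃ D ∈ S, IsRankOnePair A D := by
      intro A hA
      obtain ⟨g, hg⟩ := hcl A₁ hA₁ A hA
      exact ⟨conjBy D g, hS.conj_mem D hD g, by rw [hg]; exact ro_conj hAD g⟩
    intro A hA B hB
    obtain ⟨g, hg⟩ := hcl A hA B hB
    rw [hg]
    exact reach_all_conj hS hF g A hA

end Cfsg.Agent.S5032
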