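import Cfsg.Statements.S5033
import Cfsg.Agent.H3.RootE
import Cfsg.Agent.H3.RankQ
import Cfsg.Agent.H13.Quasi

set_option autoImplicit false
open Cfsg Cfsg.Agent Cfsg.Agent.H3 Cfsg.Agent.H28

namespace Cfsg.Agent.S5033

theorem conj_class {G : Type*} [Group G] {S : Set (Subgroup G)}
    (h1 : Cfsg.IsConnectedFamily (Cfsg.FAdj S) S) {A B : Subgroup G} (hA : A ∈ S) (hB : B ∈ S) :
    ∃ g : G, B = conjBy A g := conj_of_reach (h1 A hA B hB)

theorem all_le_of_le {G : Type*} [Group G] {S : Set (Subgroup G)}
    (hS : Cfsg.IsRootSubgroupSet S) (h1 : Cfsg.IsConnectedFamily (Cfsg.FAdj S) S)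
    {N : Subgroup G} [hN : N.Normal] {A : Subgroup G} (hA : A ∈ S) (hAN : A ≤ N) : N = ⊤ := by
  rw [eq_top_iff, ← hS.generates]
  refine iSup₂_le fun B hB => ?_
  obtain ⟨g, rfl⟩ := conj_class h1 hA hB
  intro x hx
  rw [mem_conjBy] at hx
  have h2 := hN.conj_mem _ (hAN hx) g
  have e : g * (g⁻¹ * x * g) * g⁻¹ = x := by group
  rwa [e] at h2

theorem perfect_of {G : Type*} [Group G] {S : Set (Subgroup G)} (hS : Cfsg.IsRootSubgroupSet S)
    (h2 : ∃ A ∈ S, ∃ B ∈ S, A ≠ B)
    (h1 : Cfsg.IsConnectedFamily (Cfsg.FAdj S) S)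
    (h3 : Cfsg.IsDegenerateRootSet S → ∀ A ∈ S, 3 < ENat.card A)
    (h4 : ∀ A ∈ S, ∀ B ∈ Cfsg.rankOnePartners S A, Cfsg.IsSpecialRankOnePair A B) :
    commutator G = ⊤ := by
  by_cases hdeg : IsDegenerateRootSet S
  · obtain ⟨A, hA, B, hB, hne⟩ := h2
    obtain ⟨D, hD, hAD⟩ := first_step (h1 A hA B hB) hne
    have hp := sp_perfect (h4 A hA D ⟨hD, hAD⟩)
      ⟨cm_self_comm (S_comm hS hA), cm_self_comm (S_comm hS hD)⟩
      (fourElts_of_card (not_le.2 (h3 hdeg A hA)))
    have h5 : A ≤ commutator G := by
      have h6 : A ≤ ⁅A ⊔ D, A ⊔ D⁆ := by rw [hp]; exact le_sup_left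
      exact h6.trans (Subgroup.commutator_mono le_top le_top)
    exact all_le_of_le hS h1 hA h5
  · unfold IsDegenerateRootSet at hdeg
    push Not at hdeg
    obtain ⟨A, hA, B, hB, hr⟩ := hdeg
    exact all_le_of_le hS h1 hr.1 (Subgroup.commutator_mono le_top le_top)

theorem normal_cases {G : Type*} [Group G] {S : Set (Subgroup G)} (hS : Cfsg.IsRootSubgroupSet S)
    (h2 : ∃ A ∈ S, ∃ B ∈ S, A ≠ B)
    (h1 : Cfsg.IsConnectedFamily (Cfsg.FAdj S) S)
    (h2' : ∀ A ∈ S, ∀ C ∈ S, A ≠ C → Cfsg.centralizingMembers S A ≠ Cfsg.centralizingMembers S C)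
    (h3 : Cfsg.IsDegenerateRootSet S → ∀ A ∈ S, 3 < ENat.card A)
    (h4 : ∀ A ∈ S, ∀ B ∈ Cfsg.rankOnePartners S A, Cfsg.IsSpecialRankOnePair A B)
    (N : Subgroup G) (hN : N.Normal) : N = ⊤ ∨ N ≤ Subgroup.center G := by
  -- every member has a rank one partner
  have hF : ∀ A ∈ S, ∃ D ∈ S, IsRankOnePair A D := by
    obtain ⟨A, hA, B, hB, hne⟩ := h2
    obtain ⟨D, hD, hAD⟩ := first_step (h1 A hA B hB) hne
    intro E hE
    obtain ⟨g, rfl⟩ := conj_class h1 hA hE
    exact ⟨conjBy D g, hS.conj_mem D hD g, ro_conj hAD g⟩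
  by_cases hker : ∃ A ∈ S, A ≤ N
  · left
    obtain ⟨A, hA, hAN⟩ := hker
    exact all_le_of_le hS h1 hA hAN
  · right
    push Not at hker
    set f := QuotientGroup.mk' N with hf
    have hfker : ∀ x, f x = 1 ↔ x ∈ N := fun x => by rw [hf]; exact QuotientGroup.eq_one_iff x
    have hfne : ∀ A ∈ S, A.map f ≠ ⊥ := by
      intro A hA h5
      apply hker A hA
      intro a ha
      rw [← hfker]
      have : f a ∈ A.map f := ⟨a, ha, rfl⟩
      rw [h5] at this
      exact this
    -- centralizers in elementwise form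
    have hcen : ∀ {A E : Subgroup G}, E ∈ centralizingMembers S A ↔ E ∈ S ∧ Cm E A := by
      intro A E
      constructor
      · rintro ⟨h5, h6⟩
        exact ⟨h5, fun e he a ha => (Subgroup.mem_centralizer_iff.1 (h6 he) a ha).symm⟩
      · rintro ⟨h5, h6⟩
        exact ⟨h5, fun e he => Subgroup.mem_centralizer_iff.2 fun a ha => (h6 e he a ha).symm⟩
    -- key: no member centralizes `A` but not `A^n`
    have key : ∀ A ∈ S, ∀ n ∈ N, ∀ E ∈ S, Cm E A → Cm E (conjBy A n) := by
      intro A hA n hn E hE hEA
      have hA' := hS.conj_mem A hA n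
      have hmap : (conjBy A n).map f = A.map f := by
        rw [← conjBy_map, (hfker n).2 hn, conjBy_one]
      rcases hS.pair E hE _ hA' with h5 | h5 | h5
      · exact cm_iff.2 h5
      · exfalso
        have hEAm : Cm (E.map f) ((conjBy A n).map f) := by rw [hmap]; exact hEA.map f
        have heq : E.map f = (conjBy A n).map f := by
          rcases ro_image f (S_comm hS hE) (S_comm hS hA') h5 with h6 | h6
          · exact h6
          · exact absurd (cm_iff.1 hEAm) (ro_not_comm h6)
        by_cases hdeg : IsDegenerateRootSet S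
        · have hp := sp_perfect (h4 E hE _ ⟨hA', h5⟩)
            ⟨cm_self_comm (S_comm hS hE), cm_self_comm (S_comm hS hA')⟩
            (fourElts_of_card (not_le.2 (h3 hdeg E hE)))
          have h7 : (E ⊔ conjBy A n).map f = E.map f := by
            rw [Subgroup.map_sup, ← heq, sup_idem]
          have h8 : ⁅E.map f, E.map f⁆ = E.map f := by
            rw [← h7, ← Subgroup.map_commutator, hp]
          apply hfne E hE
          rw [← h8, cm_iff.1 ((show Cm E E from S_comm hS hE).map f)]
        · unfold IsDegenerateRootSet at hdeg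
          push Not at hdeg
          obtain ⟨U₀, hU₀, V₀, hV₀, hr₀⟩ := hdeg
          obtain ⟨g, hg⟩ := conj_class h1 hr₀.1 hA'
          have hU := hS.conj_mem U₀ hU₀ g
          have hV := hS.conj_mem V₀ hV₀ g
          have hr := rc_conj hS hr₀ g
          have hcomm : ⁅conjBy U₀ g, conjBy V₀ g⁆ = conjBy A n := by
            rw [← conjBy_commutator, hg]
          set U := conjBy U₀ g with hUdef
          set V := conjBy V₀ g with hVdef
          -- `E` commutes with `U` and `V`
          have hcU : ∀ W ∈ S, Cm (conjBy A n) W → W.map f ≠ (conjBy A n).map f → Cm E W := by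
            intro W hW hcW hneW
            have hEW : Cm (E.map f) (W.map f) := by rw [heq]; exact hcW.map f
            rcases hS.pair E hE W hW with h6 | h6 | h6
            · exact cm_iff.2 h6
            · exfalso
              rcases ro_image f (S_comm hS hE) (S_comm hS hW) h6 with h7 | h7
              · exact hneW (by rw [← h7, heq])
              · exact ro_not_comm h7 (cm_iff.1 hEW)
            · exfalso
              apply hfne _ h6.1
              rw [Subgroup.map_commutator, cm_iff.1 hEW]
          have cAU : Cm (conjBy A n) U := fun x hx u hu => by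
            rw [← hcomm] at hx; exact rc_comm_left hr hx hu
          have cAV : Cm (conjBy A n) V := fun x hx u hu => by
            rw [← hcomm] at hx; exact rc_comm_right hr hx hu
          have neU : U.map f ≠ (conjBy A n).map f := by
            intro h6
            apply hfne _ hA'
            have h7 : Cm (U.map f) (V.map f) := by rw [h6]; exact cAV.map f
            rw [← hcomm, Subgroup.map_commutator, cm_iff.1 h7]
          have neV : V.map f ≠ (conjBy A n).map f := by
            intro h6
            apply hfne _ hA'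
            have h7 : Cm (U.map f) (V.map f) := by rw [h6]; exact (cAU.map f).symm
            rw [← hcomm, Subgroup.map_commutator, cm_iff.1 h7]
          have hEU := hcU U hU cAU neU
          have hEV := hcU V hV cAV neV
          have h8 : Cm E (conjBy A n) := by rw [← hcomm]; exact hEU.comm_right hEV
          exact ro_not_comm h5 (cm_iff.1 h8)
      · exfalso
        apply hfne _ h5.1
        rw [Subgroup.map_commutator, hmap, cm_iff.1 (hEA.map f)]
    -- `N` normalizes every member
    have hnorm : ∀ A ∈ S, ∀ n ∈ N, conjBy A n = A := by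
      intro A hA n hn
      by_contra hne
      apply h2' A hA _ (hS.conj_mem A hA n) (Ne.symm hne)
      ext E
      rw [hcen, hcen]
      constructor
      · rintro ⟨hE, h5⟩; exact ⟨hE, key A hA n hn E hE h5⟩
      · rintro ⟨hE, h5⟩
        have := key _ (hS.conj_mem A hA n) n⁻¹ (inv_mem hn) E hE h5
        rw [conjBy_conjBy, inv_mul_cancel, conjBy_one] at this
        exact ⟨hE, this⟩
    -- `[N, A] = 1`
    have hcen2 : ∀ A ∈ S, ∀ n ∈ N, ∀ a ∈ A, a * n = n * a := by
      intro A hA n hn a ha
      obtain ⟨D, hD, hAD⟩ := hF A hA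
      have h5 : n * a * n⁻¹ ∈ A := by
        have := (conjBy_normal_iff (A := A) (g := n)).2 ha
        rwa [hnorm A hA n hn] at this
      have h6 : n * a * n⁻¹ * a⁻¹ ∈ A := mul_mem h5 (inv_mem ha)
      have h7 : n * a * n⁻¹ * a⁻¹ ∈ N := by
        have := hN.conj_mem _ (inv_mem hn) a
        have h8 := mul_mem hn this
        have e : n * (a * n⁻¹ * a⁻¹) = n * a * n⁻¹ * a⁻¹ := by group
        rwa [e] at h8
      have h8 : n * a * n⁻¹ * a⁻¹ = 1 := by
        apply rankOne_left_normalizer hAD h6
        rw [mem_normalizer_iff_conjBy]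
        exact hnorm D hD _ h7
      rw [mul_inv_eq_one, mul_inv_eq_iff_eq_mul] at h8
      exact h8.symm
    intro n hn
    rw [Subgroup.mem_center_iff]
    intro g
    have h5 : (⊤ : Subgroup G) ≤ Subgroup.centralizer {n} := by
      rw [← hS.generates]
      refine iSup₂_le fun A hA a ha => ?_
      rw [Subgroup.mem_centralizer_singleton_iff]
      exact hcen2 A hA n hn a ha
    have := h5 (Subgroup.mem_top g)
    rw [Subgroup.mem_centralizer_singleton_iff] at this
    exact this

/-- Quasisimplicity criterion for groups generated by abstract root subgroups. Let S be a set of abstract root subgroups of G with more than one member such that: the graph of rank one pairs on S is connected; no two different members of S have the same set of commuting members of S; if S is degenerate then every member of S has more than three elements; and every rank one pair in S is special. Then for every A ∈ S one has G = G' A with A ∩ G' ≠ 1, and the commutator subgroup G' is quasisimple. Moreover G is perfect if S is non-degenerate,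 or if some rank one pair A, B in S generates a perfect group. -/
theorem result {G : Type*} [Group G] {S : Set (Subgroup G)} (hS : Cfsg.IsRootSubgroupSet S) (h2 : ∃ A ∈ S, ∃ B ∈ S, A ≠ B)
    (h1 : Cfsg.IsConnectedFamily (Cfsg.FAdj S) S)
    (h2' : ∀ A ∈ S, ∀ C ∈ S, A ≠ C → Cfsg.centralizingMembers S A ≠ Cfsg.centralizingMembers S C)
    (h3 : Cfsg.IsDegenerateRootSet S → ∀ A ∈ S, 3 < ENat.card A)
    (h4 : ∀ A ∈ S, ∀ B ∈ Cfsg.rankOnePartners S A, Cfsg.IsSpecialRankOnePair A B) :
    (∀ A ∈ S, commutator G ⊔ A = ⊤ ∧ A ⊓ commutator G ≠ ⊥) ∧ Cfsg.IsQuasisimple ↥(commutator G) ∧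
    (Cfsg.IsNondegenerateRootSet S → commutator G = ⊤) ∧
    ((∃ A ∈ S, ∃ B ∈ Cfsg.rankOnePartners S A, Group.IsPerfect ↥(A ⊔ B)) → commutator G = ⊤) := by

  have hct := perfect_of hS h2 h1 h3 h4
  have hnc := normal_cases hS h2 h1 h2' h3 h4
  refine ⟨fun A hA => ⟨by rw [hct, top_sup_eq], by rw [hct, inf_top_eq]; exact hS.ne_bot A hA⟩,
    ?_, fun _ => hct, fun _ => hct⟩
  haveI hperf : Group.IsPerfect G := ⟨hct⟩
  rw [hct]
  refine H13.isQuasisimple_congr Subgroup.topEquiv.symm ⟨hperf, ?_⟩
  have hne : Nontrivial (G ⧸ Subgroup.center G) := by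
    by_contra h0
    rw [not_nontrivial_iff_subsingleton, QuotientGroup.subsingleton_iff] at h0
    obtain ⟨A, hA, B, hB, hne⟩ := h2
    obtain ⟨D, hD, hAD⟩ := first_step (h1 A hA B hB) hne
    apply ro_not_comm hAD
    rw [comm_bot_iff]
    intro a _ d _
    have h5 : a ∈ Subgroup.center G := h0 ▸ Subgroup.mem_top a
    exact (Subgroup.mem_center_iff.1 h5 d).symm
  refine { eq_bot_or_eq_top_of_normal := fun N hN => ?_ }
  rcases hnc (N.comap (QuotientGroup.mk' (Subgroup.center G)))
    (hN.comap (QuotientGroup.mk' (Subgroup.center G))) with h5 | h5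
  · right
    rw [← Subgroup.comap_top (QuotientGroup.mk' (Subgroup.center G))] at h5
    exact Subgroup.comap_injective (QuotientGroup.mk'_surjective _) h5
  · left
    rw [eq_bot_iff]
    intro x hx
    obtain ⟨y, rfl⟩ := QuotientGroup.mk_surjective x
    have h6 : y ∈ N.comap (QuotientGroup.mk' (Subgroup.center G)) := hx
    rw [Subgroup.mem_bot, QuotientGroup.eq_one_iff]
    exact h5 h6

end Cfsg.Agent.S5033
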