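import Cfsg.Statements.S5034
import Cfsg.Agent.H3.RootH

set_option autoImplicit false
open Cfsg Cfsg.Agent Cfsg.Agent.H3 Cfsg.Agent.H28

namespace Cfsg.Agent.S5034

/-- Let S be a non-degenerate class of abstract root subgroups of G, A ∈ S and B a rank one partner of A. Then some line partner C of A has ⁅B, C⁆ ∈ S, and the rank one pair A, B is special. -/
theorem result {G : Type*} [Group G] {S : Set (Subgroup G)} (hS : Cfsg.IsRootSubgroupClass S) (hnd : Cfsg.IsNondegenerateRootSet S)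
    {A B : Subgroup G} (hA : A ∈ S) (hB : B ∈ Cfsg.rankOnePartners S A) :
    (∃ C ∈ Cfsg.linePartners S A, C ∈ Cfsg.commutatorPartners S B) ∧ Cfsg.IsSpecialRankOnePair A B := by
  obtain ⟨hS0, hcl⟩ := hS
  obtain ⟨hBS, hAB⟩ := hB
  obtain ⟨-, -, U₀, hU₀, V₀, hV₀, hr₀⟩ := hnd
  have hF : ∀ E ∈ S, ∃ D ∈ S, IsRankOnePair E D := by
    intro E hE
    obtain ⟨g, rfl⟩ := hcl.2 A hA E hE
    exact ⟨conjBy B g, hS0.conj_mem B hBS g, ro_conj hAB g⟩
  -- A = [U,V]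
  obtain ⟨g, hg⟩ := hcl.2 _ hr₀.1 A hA
  have hr := rc_conj hS0 hr₀ g
  have hcomm : ⁅conjBy U₀ g, conjBy V₀ g⁆ = A := by rw [← conjBy_commutator, hg]
  obtain ⟨D', hD', hUD'⟩ := hF _ (hS0.conj_mem U₀ hU₀ g)
  have hlp : conjBy U₀ g ∈ linePartners S A := by
    have := line_partner hS0 (hS0.conj_mem U₀ hU₀ g) hr hD' hUD'
    rwa [hcomm] at this
  obtain ⟨W, hW, -, h1, h2, h3⟩ := line_full hS0 hF hA hBS hAB hlp
  refine ⟨⟨W, hW, hW.1.1, ?_⟩, ?_⟩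
  · rw [Subgroup.commutator_comm]; exact h1.1
  · exact sp_of_rc hS0 hA hW.1.1 (hF W hW.1.1) hAB h1 h2 h3

end Cfsg.Agent.S5034
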