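import Cfsg.Statements.S5035
import Cfsg.Agent.H3.RootE

set_option autoImplicit false
open Cfsg Cfsg.Agent Cfsg.Agent.H3 Cfsg.Agent.H28

namespace Cfsg.Agent.S5035

/-- Let S be a set of abstract root subgroups of G whose graph of rank one pairs is connected, and f a homomorphism from G onto a group H. Then either the images of the members of S form a set of abstract root subgroups of H whose graph of rank one pairs is again connected, or H equals the image of a member of S. -/
theorem result {G H : Type*} [Group G] [Group H] {S : Set (Subgroup G)} (hS : Cfsg.IsRootSubgroupSet S)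
    (hc : Cfsg.IsConnectedFamily (Cfsg.FAdj S) S) (f : G →* H) (hf : Function.Surjective f) :
    (Cfsg.IsRootSubgroupSet ((fun A : Subgroup G => A.map f) '' S) ∧
      Cfsg.IsConnectedFamily (Cfsg.FAdj ((fun A : Subgroup G => A.map f) '' S)) ((fun A : Subgroup G => A.map f) '' S)) ∨
    ∃ A ∈ S, A.map f = ⊤ := by
  by_cases hb : ∃ A ∈ S, A.map f = ⊥
  · right
    obtain ⟨A, hA, hAb⟩ := hb
    refine ⟨A, hA, ?_⟩
    rw [hAb, eq_comm, eq_bot_iff]
    have h1 : (⨆ A ∈ S, A).map f = ⊤ := by
      rw [hS.generates, ← MonoidHom.range_eq_map, MonoidHom.range_eq_top]; exact hf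
    rw [← h1, Subgroup.map_le_iff_le_comap]
    refine iSup₂_le fun B hB => ?_
    rw [← Subgroup.map_le_iff_le_comap]
    obtain ⟨g, hg⟩ := conj_of_reach (hc A hA B hB)
    rw [hg, ← conjBy_map, hAb]
    exact (Subgroup.map_bot _).le
  · left
    push Not at hb
    refine ⟨root_image hS f hf hb, ?_⟩
    rintro _ ⟨A, hA, rfl⟩ _ ⟨B, hB, rfl⟩
    exact reach_image hS f (hc A hA B hB)

end Cfsg.Agent.S5035
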