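import Cfsg.Statements.S5036
import Cfsg.Agent.H3.RootF

set_option autoImplicit false
open Cfsg Cfsg.Agent Cfsg.Agent.H3 Cfsg.Agent.H28

namespace Cfsg.Agent.S5036

/-- Let S be a set of abstract root subgroups of G, A, B ∈ S with C = ⁅A, B⁆ ∈ S, and D ∈ S with ⁅D, C⁆ = A. Put X = ⟨B, D⟩ and N = AC. Then B, D form a rank one pair; the conjugates of A under X are the conjugates of C under X, namely the conjugates of A by elements of B together with C, equally the conjugates of C by elements of D together with A, and they partition N; and the centralizer of N in X is central in X. -/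
theorem result {G : Type*} [Group G] {S : Set (Subgroup G)} (hS : Cfsg.IsRootSubgroupSet S)
    {A B D : Subgroup G} (hA : A ∈ S) (hB : B ∈ S) (hC : ⁅A, B⁆ ∈ S) (hD : D ∈ S) (hDC : ⁅D, ⁅A, B⁆⁆ = A) :
    Cfsg.IsRankOnePair B D ∧
    {E | ∃ x ∈ B ⊔ D, E = Cfsg.conjBy A x} = {E | ∃ x ∈ B ⊔ D, E = Cfsg.conjBy ⁅A, B⁆ x} ∧
    {E | ∃ x ∈ B ⊔ D, E = Cfsg.conjBy A x} = (fun b : G => Cfsg.conjBy A b) '' (B : Set G) ∪ {⁅A, B⁆} ∧
    {E | ∃ x ∈ B ⊔ D, E = Cfsg.conjBy A x} = (fun d : G => Cfsg.conjBy ⁅A, B⁆ d) '' (D : Set G) ∪ {A} ∧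
    Cfsg.IsSubgroupPartition (A ⊔ ⁅A, B⁆) {E | ∃ x ∈ B ⊔ D, E = Cfsg.conjBy A x} ∧
    ∀ x ∈ (B ⊔ D) ⊓ Subgroup.centralizer ((A ⊔ ⁅A, B⁆ : Subgroup G) : Set G), ∀ y ∈ B ⊔ D, x * y = y * x := by
  have r1 := rc_of_mem hS hA hB hC
  have hro := nm_ro hS hA hB hD r1 hDC
  have hN := nm_norm hS hA hB hD r1 hDC
  have hNB := nm_NB hS hA hB hD r1 hDC
  have hND := nm_ND hS hA hB hD r1 hDC
  have hmem := nm_mem_iff hS hA hB hD r1 hDC
  have cAD := nm_cAD hS r1 hDC hA hD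
  have hAB : {E | ∃ x ∈ B ⊔ D, E = conjBy A x} =
      (fun b : G => conjBy A b) '' (B : Set G) ∪ {⁅A, B⁆} := by
    ext E
    constructor
    · intro hE
      obtain ⟨F, hF, rfl⟩ := (hmem E).1 hE
      rcases (ro_mem_iff hro F).1 hF with rfl | ⟨b, hb, rfl⟩
      · right; exact hNB
      · left
        exact ⟨b, hb, nm_conjA hS hA hB hD r1 hDC (Subgroup.mem_sup_left hb)⟩
    · rintro (⟨b, hb, rfl⟩ | hE)
      · exact ⟨b, Subgroup.mem_sup_left hb, rfl⟩
      · rw [Set.mem_singleton_iff] at hE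
        exact (hmem E).2 ⟨B, mem_unip_self, by rw [hNB, hE]⟩
  have hCD : {E | ∃ x ∈ B ⊔ D, E = conjBy A x} =
      (fun d : G => conjBy ⁅A, B⁆ d) '' (D : Set G) ∪ {A} := by
    ext E
    constructor
    · intro hE
      obtain ⟨F, hF, rfl⟩ := (hmem E).1 hE
      rw [unip_symm hro] at hF
      rcases (ro_mem_iff (rankOne_symm hro) F).1 hF with rfl | ⟨b, hb, rfl⟩
      · right; exact hND
      · left
        exact ⟨b, hb, nm_conjC hS hA hB hD r1 hDC (Subgroup.mem_sup_right hb)⟩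
    · rintro (⟨d, hd, rfl⟩ | hE)
      · exact (hmem _).2 ⟨conjBy B d, unip_conj (Subgroup.mem_sup_right hd) mem_unip_self,
          nm_conjC hS hA hB hD r1 hDC (Subgroup.mem_sup_right hd)⟩
      · rw [Set.mem_singleton_iff] at hE
        exact ⟨1, one_mem _, by rw [hE, conjBy_one]⟩
  refine ⟨hro, ?_, hAB, hCD, ⟨?_, ?_, ?_⟩, ?_⟩
  · obtain ⟨y, hy, hy'⟩ := nm_exists hS hA hB hD r1 hDC
    have hCy : conjBy A y⁻¹ = ⁅A, B⁆ := by rw [conjBy_eq_iff, inv_inv]; exact hy'.symm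
    ext E
    constructor
    · rintro ⟨x, hx, rfl⟩
      exact ⟨x * y, mul_mem hx hy, by rw [← conjBy_conjBy, hy']⟩
    · rintro ⟨x, hx, rfl⟩
      exact ⟨x * y⁻¹, mul_mem hx (inv_mem hy), by
        rw [← conjBy_conjBy, hCy]⟩
  · rintro E ⟨x, hx, rfl⟩
    have := conjBy_mono (le_sup_left : A ≤ A ⊔ ⁅A, B⁆) x
    rwa [hN x hx] at this
  · intro x hx _
    rw [hAB]
    rcases line_cover hS hA r1 hx with h1 | ⟨b, hb, h1⟩
    · exact ⟨_, Or.inr rfl, h1⟩
    · exact ⟨_, Or.inl ⟨b, hb, rfl⟩, h1⟩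
  · intro E hE F hF hne
    obtain ⟨E', hE', rfl⟩ := (hmem E).1 hE
    obtain ⟨F', hF', rfl⟩ := (hmem F).1 hF
    have hne' : E' ≠ F' := by rintro rfl; exact hne rfl
    obtain ⟨x, hx, h1, h2⟩ := ro_two_transitive hro hE' hF' hne'
    rw [eq_bot_iff]
    intro y hy
    obtain ⟨hyE, hyF⟩ := Subgroup.mem_inf.1 hy
    have k1 : x * y * x⁻¹ ∈ ⁅A, B⁆ := by
      have := (conjBy_normal_iff (A := ⁅A ⊔ ⁅A, B⁆, E'⁆) (g := x)).2 hyE
      rwa [conjBy_commutator, hN x hx, h1, hNB] at this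
    have k2 : x * y * x⁻¹ ∈ A := by
      have := (conjBy_normal_iff (A := ⁅A ⊔ ⁅A, B⁆, F'⁆) (g := x)).2 hyF
      rwa [conjBy_commutator, hN x hx, h2, hND] at this
    have k3 := nm_inf hS r1 k2 k1
    rw [Subgroup.mem_bot]
    have : y = x⁻¹ * (x * y * x⁻¹) * x := by group
    rw [this, k3]; group
  · have hcn : ∀ x ∈ B ⊔ D, conjBy ((B ⊔ D) ⊓ Subgroup.centralizer ((A ⊔ ⁅A, B⁆ : Subgroup G) : Set G)) x =
        (B ⊔ D) ⊓ Subgroup.centralizer ((A ⊔ ⁅A, B⁆ : Subgroup G) : Set G) := by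
      refine norm_of_le fun x hx y hy => ?_
      rw [mem_conjBy] at hy
      obtain ⟨h1, h2⟩ := Subgroup.mem_inf.1 hy
      refine Subgroup.mem_inf.2 ⟨?_, ?_⟩
      · have e : y = x * (x⁻¹ * y * x) * x⁻¹ := by group
        rw [e]; exact mul_mem (mul_mem hx h1) (inv_mem hx)
      · rw [Subgroup.mem_centralizer_iff] at h2 ⊢
        intro n hn
        have h3 : x⁻¹ * n * x ∈ A ⊔ ⁅A, B⁆ := by
          rw [← mem_conjBy, hN x hx]; exact hn
        have h4 := h2 _ h3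
        have h5 : x * (x⁻¹ * n * x * (x⁻¹ * y * x)) * x⁻¹ = x * (x⁻¹ * y * x * (x⁻¹ * n * x)) * x⁻¹ := by
          rw [h4]
        convert h5 using 1 <;> group
    rcases ro_normal_sup hro inf_le_left hcn with h1 | h1
    · exfalso
      have h2 : D ≤ ((B ⊔ D) ⊓ Subgroup.centralizer ((A ⊔ ⁅A, B⁆ : Subgroup G) : Set G)) ⊔ B := by
        rw [h1]; exact le_sup_right
      have cCC : Cm ⁅A, B⁆ ⁅A, B⁆ := S_comm hS r1.1
      have h3 : ⁅A ⊔ ⁅A, B⁆, D⁆ ≤ ⁅A, B⁆ := by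
        refine (Subgroup.commutator_mono le_rfl h2).trans ?_
        apply comm_sup_le'
        · refine norm_sup (fun x hx => ?_) (fun x hx => conjBy_comm_right hx)
          have h4 := (Subgroup.mem_inf.1 hx).2
          apply Cm.conj_eq (B := Subgroup.zpowers x) _ (Subgroup.mem_zpowers x)
          rintro c hc _ ⟨n, rfl⟩
          exact (show Commute c x from Subgroup.mem_centralizer_iff.1 h4 c
            (Subgroup.mem_sup_right hc)).zpow_right n
        · rw [cm_iff.1]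
          · exact bot_le
          · intro n hn x hx
            exact Subgroup.mem_centralizer_iff.1 (Subgroup.mem_inf.1 hx).2 n hn
        · rw [hNB]
      rw [hND] at h3
      obtain ⟨a, ha, ha1⟩ := exists_ne_one_of_ne_bot (hS.ne_bot A hA)
      exact ha1 (nm_inf hS r1 ha (h3 ha))
    · exact h1

end Cfsg.Agent.S5036
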