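import Cfsg.Statements.S5037
import Cfsg.Agent.H3.RootN

set_option autoImplicit false
open Cfsg Cfsg.Agent Cfsg.Agent.H3 Cfsg.Agent.H28

namespace Cfsg.Agent.S5037

theorem facts {G : Type*} [Group G] {S : Set (Subgroup G)} (hS : Cfsg.IsRootSubgroupClass S)
    {A B C : Subgroup G} (hA : A ∈ S) (hC : C ∈ S) (hB : B ∈ S) (hAC : A ≠ C) (hc : Cm A C)
    (h1 : IsRankOnePair A B) (h2 : IsRankOnePair C B) :
    ∃ g : G, cj A g = C ∧ cj C g = A :=
  (⟨hS.1, hA, hC, hB, hAC, hc, h1, h2⟩ : Trip S A C B).swap

/-- Let S be a class of abstract root subgroups of G that is either degenerate or non-degenerate (so either the commutator case never occurs, or all three cases occur), and A ≠ C members of S. If every member of S commuting with A commutes with C, then A and C have the same commuting members of S; and if every rank one partner of A is a rank one partner of C, then A and C commute and have the same rank one partners. -/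
theorem result {G : Type*} [Group G] {S : Set (Subgroup G)} (hS : Cfsg.IsRootSubgroupClass S)
    (hdn : Cfsg.IsDegenerateRootSet S ∨ Cfsg.IsNondegenerateRootSet S)
    {A C : Subgroup G} (hA : A ∈ S) (hC : C ∈ S) (hAC : A ≠ C) :
    (Cfsg.centralizingMembers S A ⊆ Cfsg.centralizingMembers S C →
      Cfsg.centralizingMembers S A = Cfsg.centralizingMembers S C) ∧
    (Cfsg.rankOnePartners S A ⊆ Cfsg.rankOnePartners S C →
      ⁅A, C⁆ = ⊥ ∧ Cfsg.rankOnePartners S A = Cfsg.rankOnePartners S C) := by

  have hS0 := hS.1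
  constructor
  · intro hsub
    have hc : Cm A C := by
      have h1 := cmem_iff.1 (hsub (cmem_iff.2 ⟨hA, S_cm hS0 hA⟩))
      exact h1.2.symm
    rcases hdn with hdeg | hnd
    · have hpair : ∀ P ∈ S, ∀ Q ∈ S, Cm P Q ∨ IsRankOnePair P Q := by
        intro P hP Q hQ
        rcases hS0.pair P hP Q hQ with h | h | h
        · exact Or.inl (cm_iff.2 h)
        · exact Or.inr h
        · exact absurd h (hdeg P hP Q hQ)
      by_cases hex : ∃ B ∈ S, ¬ Cm C B
      · obtain ⟨B, hB, hCB⟩ := hex
        have h1 : IsRankOnePair C B := (hpair C hC B hB).resolve_left hCB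
        have h2 : IsRankOnePair A B := (hpair A hA B hB).resolve_left fun h =>
          hCB (cmem_iff.1 (hsub (cmem_iff.2 ⟨hB, h⟩))).2
        obtain ⟨g, g1, g2⟩ := facts hS hA hC hB hAC hc h2 h1
        exact cent_eq_of_swap hS0 g1 g2 hsub
      · push Not at hex
        apply Set.Subset.antisymm hsub
        intro F hF
        rw [cmem_iff] at hF ⊢
        refine ⟨hF.1, ?_⟩
        obtain ⟨g, rfl⟩ := hS.2.2 C hC A hA
        have h1 := hex _ (hS0.conj_mem F hF.1 g⁻¹)
        have h2 := h1.conj g
        rwa [conjBy_conjBy, mul_inv_cancel, conjBy_one] at h2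
    · obtain ⟨hF, hL⟩ := class_facts hS hnd
      obtain ⟨B, hB, hAB⟩ := hF A hA
      have hCB : IsRankOnePair C B := by
        rcases hS0.pair C hC B hB with h | h | h
        · exfalso
          have htop := gen_top hS hnd hA ⟨hB, hAB⟩
          have h1 : Cm ((⨆ E ∈ linePartners S A, E) ⊔ B) C := by
            apply Cm.sup_left
            · have h2 : (⨆ E ∈ linePartners S A, E) ≤ Subgroup.centralizer (C : Set G) := by
                refine iSup₂_le fun E hE => ?_
                have h3 := cmem_iff.1 (hsub (cmem_iff.2 ⟨hE.1.1, cm_iff.2 hE.1.2.2⟩))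
                intro x hx
                exact Subgroup.mem_centralizer_iff.2 fun c hc => h3.2 c hc x hx
              intro x hx c hc
              exact (Subgroup.mem_centralizer_iff.1 (h2 hx) c hc).symm
            · exact (cm_iff.2 h).symm
          rw [htop] at h1
          obtain ⟨D, hD, hCD⟩ := hF C hC
          exact ro_not_cm hCD (h1.mono le_top le_rfl).symm
        · exact h
        · exact absurd h (not_rc_of_cent_le hS0 hF hA hC hB hc hsub hAB)
      obtain ⟨g, g1, g2⟩ := facts hS hA hC hB hAC hc hAB hCB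
      exact cent_eq_of_swap hS0 g1 g2 hsub
  · intro hsub
    have hnro : ¬ IsRankOnePair A C := fun h => (hsub ⟨hC, h⟩).2.ne rfl
    have hc : Cm A C := by
      rcases hS0.pair A hA C hC with h | h | h
      · exact cm_iff.2 h
      · exact absurd h hnro
      · rcases hdn with hdeg | hnd
        · exact absurd h (hdeg A hA C hC)
        · exfalso
          obtain ⟨hF, hL⟩ := class_facts hS hnd
          obtain ⟨E, hE, h1, h2⟩ := opp_exists hS0 hF hC hA (rc_symm h)
          exact ro_not_cm (hsub ⟨hE, h1⟩).2 h2
    refine ⟨cm_iff.1 hc, ?_⟩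
    by_cases hex : ∃ B, B ∈ rankOnePartners S A
    · obtain ⟨B, hB⟩ := hex
      obtain ⟨g, g1, g2⟩ := facts hS hA hC hB.1 hAC hc hB.2 (hsub hB).2
      exact ro_eq_of_swap hS0 g1 g2 hsub
    · push Not at hex
      apply Set.Subset.antisymm hsub
      rintro F ⟨hF, hro⟩
      exfalso
      obtain ⟨g, rfl⟩ := hS.2.2 C hC A hA
      exact hex (conjBy F g) ⟨hS0.conj_mem F hF g, ro_conj hro g⟩

end Cfsg.Agent.S5037
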