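import Cfsg.Statements.S5038
import Cfsg.Agent.H3.RootH

set_option autoImplicit false
open Cfsg Cfsg.Agent Cfsg.Agent.H3 Cfsg.Agent.H28

namespace Cfsg.Agent.S5038

/-- Let S be a set of abstract root subgroups of G in which every member has a rank one partner, A ∈ S and B a line partner of A. Then the subgroup generated by the members of S normalizing AB permutes the members of S inside AB doubly transitively by conjugation. -/
theorem result {G : Type*} [Group G] {S : Set (Subgroup G)} (hS : Cfsg.IsRootSubgroupSet S)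
    (hF : ∀ A ∈ S, ¬ Cfsg.IsIsolatedIn (Cfsg.FAdj S) S A) {A B : Subgroup G} (hA : A ∈ S) (hB : B ∈ Cfsg.linePartners S A) :
    ∀ C₁ ∈ Cfsg.membersIn S (A ⊔ B), ∀ C₂ ∈ Cfsg.membersIn S (A ⊔ B), ∀ D₁ ∈ Cfsg.membersIn S (A ⊔ B),
      ∀ D₂ ∈ Cfsg.membersIn S (A ⊔ B), C₁ ≠ C₂ → D₁ ≠ D₂ →
        ∃ x ∈ ⨆ E ∈ Cfsg.normalizingMembers S (A ⊔ B), E, Cfsg.conjBy C₁ x = D₁ ∧ Cfsg.conjBy C₂ x = D₂ := by
  have hF' : ∀ A ∈ S, ∃ D ∈ S, IsRankOnePair A D := fun A hA => (not_isolated_iff hA).1 (hF A hA)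
  have hT := lineTrans_all hS hF' hA hB
  intro C₁ hC₁ C₂ hC₂ D₁ hD₁ D₂ hD₂ hC hD
  set K := ⨆ E ∈ Cfsg.normalizingMembers S (A ⊔ B), E with hK
  have hKm : ∀ W ∈ membersIn S (A ⊔ B), ∃ M : Subgroup G, M ≤ K ∧ Cm M W ∧
      (∀ E ∈ membersIn S (A ⊔ B), E ≠ W → ∀ E' ∈ membersIn S (A ⊔ B), E' ≠ W → ∃ m ∈ M, conjBy E m = E') := by
    intro W hW
    obtain ⟨M, hM, h1, h2, h3⟩ := hT W hW
    refine ⟨M, ?_, h2, h3⟩
    have hMn : M ∈ Cfsg.normalizingMembers S (A ⊔ B) := ⟨hM.1.1, fun m hm => mem_normalizer_iff_conjBy.2 (h1 m hm)⟩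
    rw [hK]
    exact le_iSup₂_of_le (f := fun (E : Subgroup G) (_ : E ∈ Cfsg.normalizingMembers S (A ⊔ B)) => E) M hMn le_rfl
  have hmem : ∀ x ∈ K, ∀ E ∈ membersIn S (A ⊔ B), conjBy E x ∈ membersIn S (A ⊔ B) := by
    intro x hx E hE
    refine ⟨hS.conj_mem E hE.1 x, ?_⟩
    have hn : K ≤ Subgroup.normalizer ((A ⊔ B : Subgroup G) : Set G) := by
      rw [hK]; exact iSup₂_le fun E hE => hE.2
    have h1 := mem_normalizer_iff_conjBy.1 (hn hx)
    have h2 := conjBy_mono hE.2 x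
    rwa [h1] at h2
  -- K is transitive
  have htrans : ∀ E ∈ membersIn S (A ⊔ B), ∀ E' ∈ membersIn S (A ⊔ B), ∃ x ∈ K, conjBy E x = E' := by
    intro E hE E' hE'
    by_cases hEE : E = E'
    · exact ⟨1, one_mem _, by rw [conjBy_one, hEE]⟩
    -- a third member
    have hthird : ∃ W ∈ membersIn S (A ⊔ B), W ≠ E ∧ W ≠ E' := by
      obtain ⟨F, hF1, hF2, hF3⟩ := line_three hA (hS.ne_bot A hA) (hS.ne_bot B hB.1.1) hB
      have hAm := lp_left_mem (B := B) hA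
      have hBm := lp_right_mem (A := A) hB.1.1
      have hAB : A ≠ B := hB.1.2.1.symm
      by_contra hcon
      push Not at hcon
      have c1 := hcon A hAm
      have c2 := hcon B hBm
      have c3 := hcon F hF1
      by_cases a1 : A = E
      · have b1 : B ≠ E := fun h => hAB (a1.trans h.symm)
        have b2 := c2 b1
        have f1 : F ≠ E := fun h => hF2 (h.trans a1.symm)
        have f2 := c3 f1
        exact hF3 (f2.trans b2.symm)
      · have a2 := c1 a1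
        by_cases b1 : B = E
        · have f1 : F ≠ E := fun h => hF3 (h.trans b1.symm)
          exact hF2 ((c3 f1).trans a2.symm)
        · exact hAB (a2.trans (c2 b1).symm)
    obtain ⟨W, hW, hWE, hWE'⟩ := hthird
    obtain ⟨M, hM, -, h3⟩ := hKm W hW
    obtain ⟨m, hm, hm'⟩ := h3 E hE (Ne.symm hWE) E' hE' (Ne.symm hWE')
    exact ⟨m, hM hm, hm'⟩
  obtain ⟨x, hx, hx'⟩ := htrans C₁ hC₁ D₁ hD₁
  obtain ⟨M, hM, hMc, h3⟩ := hKm D₁ hD₁
  have hne : conjBy C₂ x ≠ D₁ := by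
    intro h
    rw [← hx'] at h
    exact hC (conjBy_inj h).symm
  obtain ⟨m, hm, hm'⟩ := h3 (conjBy C₂ x) (hmem x hx C₂ hC₂) hne D₂ hD₂ (Ne.symm hD)
  refine ⟨m * x, mul_mem (hM hm) hx, ?_, ?_⟩
  · rw [← conjBy_conjBy, hx', hMc.symm.conj_eq hm]
  · rw [← conjBy_conjBy, hm']

end Cfsg.Agent.S5038
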