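import Cfsg.Statements.S5039
import Cfsg.Agent.H3.RootM
import Cfsg.Agent.S5034

set_option autoImplicit false
universe u
open Cfsg Cfsg.Agent Cfsg.Agent.H3 Cfsg.Agent.H28

namespace Cfsg.Agent.S5039

/-- Let S be a class of abstract root subgroups of G containing two different commuting members. Suppose that, in case S is degenerate and every element of every member of S has order at most 3, the following holds: for every A ∈ S and every rank one partner B of A there are subgroups A₀ ≤ A and B₀ ≤ B generating an image of SL₂(k) with central kernel, k a field with at least four elements, A₀ and B₀ being the images of the unitriangular subgroups. Then every rank one pair A, B in S is special. -/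
theorem result {G : Type u} [Group G] {S : Set (Subgroup G)} (hS : Cfsg.IsRootSubgroupClass S)
    (hcomm : ∃ A ∈ S, ∃ C ∈ S, A ≠ C ∧ ⁅A, C⁆ = ⊥)
    (hH : Cfsg.IsDegenerateRootSet S → (∀ A ∈ S, ∀ a ∈ A, 0 < orderOf a ∧ orderOf a ≤ 3) →
      ∀ A ∈ S, ∀ B ∈ Cfsg.rankOnePartners S A, ∃ A₀ B₀ : Subgroup G, A₀ ≤ A ∧ B₀ ≤ B ∧
        ∃ (k : Type u) (_ : Field k), 3 < ENat.card k ∧ Cfsg.IsPSL2PairOver k A₀ B₀)
    {A B : Subgroup G} (hA : A ∈ S) (hB : B ∈ Cfsg.rankOnePartners S A) : Cfsg.IsSpecialRankOnePair A B := by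
  have hS0 := hS.1
  obtain ⟨hBS, hAB⟩ := hB
  by_cases hdeg : Cfsg.IsDegenerateRootSet S
  swap
  · have hnd : Cfsg.IsNondegenerateRootSet S := by
      refine ⟨hcomm, ⟨A, hA, B, hBS, hAB⟩, ?_⟩
      by_contra hcon
      apply hdeg
      intro P hP Q hQ h
      exact hcon ⟨P, hP, Q, hQ, h⟩
    exact (Cfsg.Agent.S5034.result hS hnd hA ⟨hBS, hAB⟩).2
  have hpair : ∀ P ∈ S, ∀ Q ∈ S, Cm P Q ∨ IsRankOnePair P Q := by
    intro P hP Q hQ
    rcases hS0.pair P hP Q hQ with h | h | h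
    · exact Or.inl (cm_iff.2 h)
    · exact Or.inr h
    · exact absurd h (hdeg P hP Q hQ)
  by_cases hgood : ∃ F ∈ S, F ≠ A ∧ Cm A F ∧ IsRankOnePair F B
  · obtain ⟨F, hF, hFA, hc, hro⟩ := hgood
    exact (⟨hS0, hA, hF, hBS, hFA.symm, hc, hAB, hro⟩ : Trip S A F B).special
  exfalso
  have hC₀ : ∃ F ∈ S, F ≠ A ∧ Cm A F := by
    obtain ⟨P, hP, Q, hQ, hne, hc⟩ := hcomm
    obtain ⟨g, rfl⟩ := hS.2.2 P hP A hA
    refine ⟨conjBy Q g, hS0.conj_mem Q hQ g, fun h => hne (conjBy_inj h).symm, (cm_iff.2 hc).conj g⟩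
  refine bad_absurd hS hpair hA hBS hAB (fun F hF hFA hc hro => hgood ⟨F, hF, hFA, hc, hro⟩) hC₀ ?_
  by_cases hord : ∀ A ∈ S, ∀ a ∈ A, 0 < orderOf a ∧ orderOf a ≤ 3
  · obtain ⟨A₀, B₀, hA₀, -, k, hk, hcard, φ, -, hker, hup, -⟩ := hH hdeg hord A hA B ⟨hBS, hAB⟩
    exact thr_of_sl2 k hcard φ hker (fun x hx => hA₀ (hup ▸ Subgroup.mem_map_of_mem φ hx))
  · push Not at hord
    obtain ⟨P, hP, a, ha, ho⟩ := hord
    obtain ⟨g, rfl⟩ := hS.2.2 P hP A hA
    exact (thr_of_order ha ho).conj g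

end Cfsg.Agent.S5039
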