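import Cfsg.Statements.S5040
import Cfsg.Agent.H3.RootI
import Cfsg.Agent.H3.RootF

set_option autoImplicit false
open Cfsg Cfsg.Agent Cfsg.Agent.H3 Cfsg.Agent.H28

namespace Cfsg.Agent.S5040

/-- Let S be a non-degenerate class of abstract root subgroups of G and Δ a weak TI-subset of S. Then the members of Δ commute with one another elementwise. -/
theorem result {G : Type*} [Group G] {S : Set (Subgroup G)} (hS : Cfsg.IsRootSubgroupClass S) (hnd : Cfsg.IsNondegenerateRootSet S)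
    {Δ : Set (Subgroup G)} (hΔ : Cfsg.IsWeakTISubset S Δ) : Cfsg.IsAbelianFamily Δ := by
  obtain ⟨hΔS, ⟨A₀, hA₀, B₀, hB₀, hAB₀⟩, hΔne, hTI⟩ := hΔ
  obtain ⟨hF, hL⟩ := class_facts hS hnd
  have hS0 := hS.1
  let N : Subgroup G := {
    carrier := {x | (fun A => conjBy A x) '' Δ = Δ}
    one_mem' := by
      show (fun A => conjBy A 1) '' Δ = Δ
      simp only [conjBy_one, Set.image_id']
    mul_mem' := by
      intro x y hx hy
      show (fun A => conjBy A (x * y)) '' Δ = Δ
      have hx' : (fun A => conjBy A x) '' Δ = Δ := hx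
      have hy' : (fun A => conjBy A y) '' Δ = Δ := hy
      have : (fun A : Subgroup G => conjBy A (x * y)) = (fun A => conjBy A x) ∘ (fun A => conjBy A y) := by
        funext A; simp only [Function.comp, conjBy_conjBy]
      rw [this, Set.image_comp, hy', hx']
    inv_mem' := by
      intro x hx
      show (fun A => conjBy A x⁻¹) '' Δ = Δ
      have hx' : (fun A => conjBy A x) '' Δ = Δ := hx
      nth_rw 1 [← hx']
      rw [← Set.image_comp]
      have : ((fun A : Subgroup G => conjBy A x⁻¹) ∘ fun A => conjBy A x) = fun A => A := by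
        funext A; simp only [Function.comp, conjBy_conj_inv]
      rw [this, Set.image_id'] }
  have hNmem : ∀ x ∈ N, ∀ A ∈ Δ, conjBy A x ∈ Δ := by
    intro x hx A hA
    have hx' : (fun A => conjBy A x) '' Δ = Δ := hx
    rw [← hx']; exact ⟨A, hA, rfl⟩
  have hNA : ∀ A ∈ Δ, ∀ C ∈ S, Cm A C → C ≤ N := by
    intro A hA C hC hAC c hc
    by_cases hc1 : c = 1
    · rw [hc1]; exact one_mem _
    rcases hTI c (rootElem_mem hC hc hc1) with h | h
    · exact h
    · exact absurd hA (Set.disjoint_left.1 h ⟨A, hA, hAC.conj_eq hc⟩)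
  have hRO : ∀ A ∈ Δ, ∀ B ∈ Δ, ¬ IsRankOnePair A B := by
    intro A hA B hB hAB
    apply hΔne
    have hN : N = ⊤ := by
      rw [eq_top_iff, ← gen_top hS hnd (hΔS hA) ⟨hΔS hB, hAB⟩]
      refine sup_le (iSup₂_le fun C hC => ?_) (hNA B hB B (hΔS hB) (S_comm hS0 (hΔS hB)))
      exact hNA A hA C hC.1.1 (lp_cm hC)
    refine Set.Subset.antisymm hΔS ?_
    intro E hE
    obtain ⟨g, rfl⟩ := hS.2.2 A (hΔS hA) E hE
    exact hNmem g (hN ▸ Subgroup.mem_top g) A hA
  intro A hA B hB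
  rcases hS0.pair A (hΔS hA) B (hΔS hB) with h | h | h
  · exact cm_iff.2 h
  · exact absurd h (hRO A hA B hB)
  · exfalso
    have hAS := hΔS hA
    have hBS := hΔS hB
    obtain ⟨D', hD', hAD'⟩ := hF A hAS
    have hlp : A ∈ linePartners S ⁅A, B⁆ := line_partner hS0 hAS h hD' hAD'
    obtain ⟨T, hT, hCT⟩ := hF _ h.1
    obtain ⟨W, hW, hsup, k1, k2, k3⟩ := line_full hS0 hF h.1 hT hCT hlp
    obtain ⟨M, hM, hMn, hMc, hMt⟩ := lineTrans_all hS0 hF h.1 hlp ⁅A, B⁆ (lp_left_mem h.1)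
    obtain ⟨m, hm, hm'⟩ := hMt W ⟨hW.1.1, by rw [← hsup]; exact le_sup_right⟩ hW.1.2.1 A
      (lp_right_mem hAS) hlp.1.2.1
    have q1 := rc_conj hS0 k1 m
    have q2 := rc_conj hS0 k2 m
    rw [hm'] at q1
    rw [conjBy_commutator, hm', hMc.symm.conj_eq hm] at q2
    have q3 := congrArg (fun X => conjBy X m) k3
    rw [conjBy_commutator, conjBy_commutator, hm', hMc.symm.conj_eq hm] at q3
    have hT' : conjBy T m ∈ S := hS0.conj_mem T hT m
    set F := ⁅A, conjBy T m⁆ with hFdef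
    have hFS : F ∈ S := q1.1
    have hro : IsRankOnePair B F := nm_ro hS0 hAS hBS hFS h q3
    have cFA : Cm F A := fun f hf a ha => rc_comm_left q1 hf ha
    have hFN : F ≤ N := hNA A hA F hFS cFA.symm
    obtain ⟨f, hf, hf1⟩ := exists_ne_one_of_ne_bot (hS0.ne_bot F hFS)
    exact hRO B hB _ (hNmem f (hFN hf) B hB) (ro_conj_ro (rankOne_symm hro) hf hf1)

end Cfsg.Agent.S5040
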