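import Cfsg.Statements.S5041
import Cfsg.Agent.H3.RootI

set_option autoImplicit false
open Cfsg Cfsg.Agent Cfsg.Agent.H3 Cfsg.Agent.H28

namespace Cfsg.Agent.S5041

/-- Let S be a non-degenerate class of abstract root subgroups of G. Then the graph on S joining A to its line partners, and the commuting graph on S, are both connected. -/
theorem result {G : Type*} [Group G] {S : Set (Subgroup G)} (hS : Cfsg.IsRootSubgroupClass S) (hnd : Cfsg.IsNondegenerateRootSet S) :
    Cfsg.IsConnectedFamily (Cfsg.EAdj S S) S ∧ Cfsg.IsConnectedFamily (Cfsg.DAdj S) S := by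
  refine ⟨fun A hA B hB => ereach_all hS hnd hA hB, fun A hA B hB => ?_⟩
  have h := ereach_all hS hnd hA hB
  clear hB
  induction h with
  | refl => exact Relation.ReflTransGen.refl
  | tail _ h1 ih =>
    exact ih.tail ⟨h1.1, h1.2.1, h1.2.2.1.2.1.symm, h1.2.2.1.2.2⟩

end Cfsg.Agent.S5041
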