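import Cfsg.Statements.S5043
import Cfsg.Agent.H3.TvB

set_option autoImplicit false
open Matrix
open Cfsg Cfsg.Agent Cfsg.Agent.H3 Cfsg.Agent.H28

namespace Cfsg.Agent.S5043

theorem set_eq (k : Type*) [Field k] (n : ℕ) :
    {A : Subgroup (Matrix.SpecialLinearGroup (Fin (n + 3)) k) |
        ∃ g : Matrix.SpecialLinearGroup (Fin (n + 3)) k,
          A = Cfsg.conjBy (Subgroup.closure {t : Matrix.SpecialLinearGroup (Fin (n + 3)) k |
            ∃ c : k, (t : Matrix (Fin (n + 3)) (Fin (n + 3)) k) = Matrix.transvection 0 1 c}) g} =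
      Tset (Fin (n + 3)) k := by
  have h0 : (Subgroup.closure {t : Matrix.SpecialLinearGroup (Fin (n + 3)) k |
      ∃ c : k, (t : Matrix (Fin (n + 3)) (Fin (n + 3)) k) = Matrix.transvection 0 1 c}) =
      Tg (Pi.single 0 1) (Pi.single 1 1) := by
    unfold Tg
    congr 1
    ext t
    refine exists_congr fun c => ?_
    rw [← Matrix.single_eq_single_vecMulVec_single]
    unfold Matrix.transvection
    rw [Matrix.smul_single, smul_eq_mul, mul_one]
  have h01 : (Pi.single 1 1 : Fin (n + 3) → k) ⬝ᵥ (Pi.single 0 1 : Fin (n + 3) → k) = 0 := by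
    rw [single_dotProduct, Pi.single_eq_of_ne (by simp), mul_zero]
  have h1 : Tg (Pi.single 0 1 : Fin (n + 3) → k) (Pi.single 1 1) ∈ Tset (Fin (n + 3)) k :=
    Tg_mem (by simp) (by simp) h01
  rw [h0]
  ext A
  constructor
  · rintro ⟨g, rfl⟩
    exact Tset_conj h1 g
  · intro hA
    exact Tset_conj_all h1 hA

theorem e_mem {k : Type*} [Field k] {n : ℕ} (i j : Fin (n + 3)) (hij : i ≠ j) :
    (Pi.single j 1 : Fin (n + 3) → k) ⬝ᵥ (Pi.single i 1 : Fin (n + 3) → k) = 0 := by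
  rw [single_dotProduct, Pi.single_eq_of_ne hij.symm, mul_zero]

theorem e_ne {k : Type*} [Field k] {n : ℕ} (i : Fin (n + 3)) : (Pi.single i 1 : Fin (n + 3) → k) ≠ 0 := by
  simp

theorem e_one {k : Type*} [Field k] {n : ℕ} (i : Fin (n + 3)) :
    (Pi.single i 1 : Fin (n + 3) → k) ⬝ᵥ (Pi.single i 1 : Fin (n + 3) → k) ≠ 0 := by
  rw [single_dotProduct, Pi.single_eq_same, mul_one]; exact one_ne_zero

/-- Let k be a field and n a natural number. In SL_{n+3}(k) (so in every dimension at least 3) the conjugates of the root subgroup of elementary transvections 1 + c E₁₂ (c ∈ k) — that is, the groups of transvections attached to an incident point–hyperplane pair — form a non-degenerate class of abstract k-root subgroups of SL_{n+3}(k) whose graph of rank one pairs is connected. -/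
theorem result (k : Type*) [Field k] (n : ℕ) :
    Cfsg.IsRootSubgroupClass {A : Subgroup (Matrix.SpecialLinearGroup (Fin (n + 3)) k) |
        ∃ g : Matrix.SpecialLinearGroup (Fin (n + 3)) k,
          A = Cfsg.conjBy (Subgroup.closure {t : Matrix.SpecialLinearGroup (Fin (n + 3)) k |
            ∃ c : k, (t : Matrix (Fin (n + 3)) (Fin (n + 3)) k) = Matrix.transvection 0 1 c}) g} ∧
    Cfsg.IsNondegenerateRootSet {A : Subgroup (Matrix.SpecialLinearGroup (Fin (n + 3)) k) |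
        ∃ g : Matrix.SpecialLinearGroup (Fin (n + 3)) k,
          A = Cfsg.conjBy (Subgroup.closure {t : Matrix.SpecialLinearGroup (Fin (n + 3)) k |
            ∃ c : k, (t : Matrix (Fin (n + 3)) (Fin (n + 3)) k) = Matrix.transvection 0 1 c}) g} ∧
    Cfsg.IsKRootSubgroupSet k {A : Subgroup (Matrix.SpecialLinearGroup (Fin (n + 3)) k) |
        ∃ g : Matrix.SpecialLinearGroup (Fin (n + 3)) k,
          A = Cfsg.conjBy (Subgroup.closure {t : Matrix.SpecialLinearGroup (Fin (n + 3)) k |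
            ∃ c : k, (t : Matrix (Fin (n + 3)) (Fin (n + 3)) k) = Matrix.transvection 0 1 c}) g} ∧
    Cfsg.IsConnectedFamily (Cfsg.FAdj {A : Subgroup (Matrix.SpecialLinearGroup (Fin (n + 3)) k) |
        ∃ g : Matrix.SpecialLinearGroup (Fin (n + 3)) k,
          A = Cfsg.conjBy (Subgroup.closure {t : Matrix.SpecialLinearGroup (Fin (n + 3)) k |
            ∃ c : k, (t : Matrix (Fin (n + 3)) (Fin (n + 3)) k) = Matrix.transvection 0 1 c}) g})
      {A : Subgroup (Matrix.SpecialLinearGroup (Fin (n + 3)) k) |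
        ∃ g : Matrix.SpecialLinearGroup (Fin (n + 3)) k,
          A = Cfsg.conjBy (Subgroup.closure {t : Matrix.SpecialLinearGroup (Fin (n + 3)) k |
            ∃ c : k, (t : Matrix (Fin (n + 3)) (Fin (n + 3)) k) = Matrix.transvection 0 1 c}) g} := by

  rw [set_eq]
  have n01 : (0 : Fin (n + 3)) ≠ 1 := by simp
  have n02 : (0 : Fin (n + 3)) ≠ 2 := by
    intro h
    have h1 := congrArg Fin.val h
    have h2 : (2 : ℕ) % (n + 3) = 2 := Nat.mod_eq_of_lt (by omega)
    simp [Fin.val_ofNat, h2] at h1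
  have n12 : (1 : Fin (n + 3)) ≠ 2 := by
    intro h
    have h1 := congrArg Fin.val h
    have h2 : (2 : ℕ) % (n + 3) = 2 := Nat.mod_eq_of_lt (by omega)
    simp [Fin.val_ofNat, h2] at h1
  have m := fun (i j : Fin (n + 3)) (hij : i ≠ j) => Tg_mem (k := k) (e_ne i) (e_ne j) (e_mem i j hij)
  refine ⟨⟨Tset_root, ⟨⟨_, m 0 1 n01⟩, fun A hA B hB => Tset_conj_all hA hB⟩⟩, ⟨?_, ?_, ?_⟩,
    Tset_kroot, Tset_conn⟩
  · refine ⟨_, m 0 1 n01, _, m 0 2 n02, ?_, cm_iff.1 (tg_cm (e_mem 0 1 n01) (e_mem 0 2 n02)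
      (e_mem 0 1 n01) (e_mem 0 2 n02))⟩
    intro h
    have h1 : tv (k := k) (e_mem 0 1 n01) 1 ∈ Tg (Pi.single 0 1 : Fin (n + 3) → k) (Pi.single 2 1) := by
      rw [← h]; exact (mem_Tg _).2 ⟨1, rfl⟩
    obtain ⟨c, hc⟩ := (mem_Tg (e_mem 0 2 n02)).1 h1
    have h2 := congrArg (fun g : Matrix.SpecialLinearGroup (Fin (n + 3)) k =>
      (g : Matrix (Fin (n + 3)) (Fin (n + 3)) k) 0 1) hc
    simp only [coe_tv, Matrix.add_apply, Matrix.smul_apply, Matrix.vecMulVec_apply,
      Matrix.one_apply_ne n01, Pi.single_eq_same, Pi.single_eq_of_ne n12, mul_zero, smul_zero,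
      mul_one, smul_eq_mul, zero_add] at h2
    exact one_ne_zero h2
  · exact ⟨_, m 0 1 n01, _, m 1 0 n01.symm, (tg_ro (e_mem 0 1 n01) (e_mem 1 0 n01.symm)
      (e_one 1) (e_one 0)).1⟩
  · exact ⟨_, m 0 1 n01, _, m 1 2 n12, tg_rc (e_ne 0) (e_ne 1) (e_ne 1) (e_ne 2) (e_mem 0 1 n01)
      (e_mem 1 2 n12) (e_one 1) (e_mem 0 2 n02)⟩

end Cfsg.Agent.S5043
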