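import Cfsg.Statements.S5045
import Cfsg.Agent.H3.InvC
import Cfsg.Agent.H28.RankOne

set_option autoImplicit false
open Cfsg Cfsg.Agent Cfsg.Agent.H3 Cfsg.Agent.H28

namespace Cfsg.Agent.S5045

/-- Let G be a finite group generated by a set D of root involutions, and W the set of members of D whose product with every other member of D has even order or is trivial (the isolated vertices of the odd-order-product graph on D). Then W is conjugation-invariant and generates a normal 2-subgroup of G meeting D in exactly W; the commutator of two members of D lying in different connected components of that graph, each with more than one member, lies in the subgroup generated by W; and for a in such a component, every member of D commuting with a, different from a and with product with a in D, lies in that component or in W. -/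
theorem result {G : Type*} [Group G] [Finite G] {D : Set G} (hD : Cfsg.IsRootInvolutionSet D) :
    (∀ w ∈ {w | Cfsg.IsIsolatedElem (Cfsg.OddAdj D) D w}, ∀ g : G, g * w * g⁻¹ ∈ {w | Cfsg.IsIsolatedElem (Cfsg.OddAdj D) D w}) ∧
    (Subgroup.closure {w | Cfsg.IsIsolatedElem (Cfsg.OddAdj D) D w}).Normal ∧
    IsPGroup 2 ↥(Subgroup.closure {w | Cfsg.IsIsolatedElem (Cfsg.OddAdj D) D w}) ∧
    (Subgroup.closure {w | Cfsg.IsIsolatedElem (Cfsg.OddAdj D) D w} : Set G) ∩ D = {w | Cfsg.IsIsolatedElem (Cfsg.OddAdj D) D w} ∧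
    (∀ a ∈ D, ∀ b ∈ D, (∃ a' ∈ Cfsg.elemComponentOf (Cfsg.OddAdj D) D a, a' ≠ a) →
      (∃ b' ∈ Cfsg.elemComponentOf (Cfsg.OddAdj D) D b, b' ≠ b) →
      Cfsg.elemComponentOf (Cfsg.OddAdj D) D a ≠ Cfsg.elemComponentOf (Cfsg.OddAdj D) D b →
        a * b * a⁻¹ * b⁻¹ ∈ Subgroup.closure {w | Cfsg.IsIsolatedElem (Cfsg.OddAdj D) D w}) ∧
    (∀ a ∈ D, (∃ a' ∈ Cfsg.elemComponentOf (Cfsg.OddAdj D) D a, a' ≠ a) →
      Cfsg.productPartners D a ⊆ Cfsg.elemComponentOf (Cfsg.OddAdj D) D a ∪ {w | Cfsg.IsIsolatedElem (Cfsg.OddAdj D) D w}) := by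

  set W := {w | Cfsg.IsIsolatedElem (Cfsg.OddAdj D) D w} with hW
  have hWc : ∀ w ∈ W, ∀ g : G, g * w * g⁻¹ ∈ W := by
    intro w hw g
    rw [hW, Set.mem_setOf_eq, H3.RI.oiso_iff] at hw ⊢
    refine ⟨hD.conj_mem w hw.1 g, fun b hb h => ?_⟩
    have h1 := H3.RI.od_symm h
    rw [H3.RI.od_conj_iff'] at h1
    refine hw.2 _ ?_ (H3.RI.od_symm h1)
    have := hD.conj_mem b hb g⁻¹
    simpa using this
  have hWcore : Subgroup.closure W ≤ pCore 2 G := by
    rw [Subgroup.closure_le]
    intro w hw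
    rw [hW, Set.mem_setOf_eq, H3.RI.oiso_iff] at hw
    exact H3.RI.mem_core hD hw.1 (fun g => hw.2 _ (hD.conj_mem w hw.1 g))
  refine ⟨hWc, H3.RI.closure_normal hWc, ?_, ?_, ?_, ?_⟩
  · exact (H1.pCore_isPGroup 2 G).to_le hWcore
  · ext d
    constructor
    · rintro ⟨h1, h2⟩
      rw [hW, Set.mem_setOf_eq, H3.RI.oiso_iff]
      exact ⟨h2, fun b hb => H3.RI.core_not_od hD h2 (hWcore h1) hb⟩
    · intro h
      exact ⟨Subgroup.subset_closure h, h.1⟩
  · rintro a ha b hb ⟨a', ha', hne⟩ ⟨b', hb', hne'⟩ hcomp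
    obtain ⟨x, hx, hax⟩ := H3.RI.exists_od_of_comp ha' hne
    obtain ⟨y, hy, hby⟩ := H3.RI.exists_od_of_comp hb' hne'
    rw [H3.RI.inv hD ha, H3.RI.inv hD hb]
    have e1 : a * b * a * b = (a * b) ^ 2 := by rw [pow_two]; group
    rw [e1]
    rcases H3.RI.tri hD ha hb with h | h | h
    · rw [pow_two, H3.RI.comm_sq hD ha hb h]; exact one_mem _
    · exact absurd (H3.RI.ocomp_eq (.single ⟨ha, hb, h⟩)) hcomp
    · rcases H3.RI.partner_comp hD ha (H3.RI.four_partner hD ha hb h) hx hax with h1 | h1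
      · rcases H3.RI.partner_comp hD hb (H3.RI.four_partner' hD ha hb h) hy hby with h2 | h2
        · exact absurd (H3.RI.ocomp_eq (h1.trans (H3.RI.oreach_symm h2))) hcomp
        · exact Subgroup.subset_closure h2
      · exact Subgroup.subset_closure h1
  · rintro a ha ⟨a', ha', hne⟩ e he
    obtain ⟨x, hx, hax⟩ := H3.RI.exists_od_of_comp ha' hne
    rcases H3.RI.partner_comp hD ha he hx hax with h1 | h1
    · exact Or.inl ⟨H3.RI.pp_mem he, h1⟩
    · exact Or.inr h1

end Cfsg.Agent.S5045
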