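import Cfsg.Statements.S5046
import Cfsg.Agent.H3.InvF
import Cfsg.Agent.H28.RankOne

set_option autoImplicit false
open Cfsg Cfsg.Agent Cfsg.Agent.H3 Cfsg.Agent.H28

namespace Cfsg.Agent.S5046

/-- Let G be a finite group generated by a set D of root involutions whose odd-order-product graph is connected, and d ∈ D. Then the members e of D with the same commuting members as d are exactly those for which the union of the commuting members of d and the members whose product with d has order 4 equals the corresponding union for e. -/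
theorem result {G : Type*} [Group G] [Finite G] {D : Set G} (hD : Cfsg.IsRootInvolutionSet D)
    (hc : Cfsg.IsConnectedSet (Cfsg.OddAdj D) D) {d : G} (hd : d ∈ D) :
    Cfsg.sameCommutingClass D d =
      {e | e ∈ D ∧ Cfsg.commutingMembers D d ∪ Cfsg.fourPartners D d = Cfsg.commutingMembers D e ∪ Cfsg.fourPartners D e} := by
  have hkey : ∀ e ∈ D, (commutingMembers D d ∪ fourPartners D d = commutingMembers D e ∪ fourPartners D e) →
      ∀ x ∈ D, H3.RI.od e x ↔ H3.RI.od d x := by
    intro e he h x hx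
    have h1 : ∀ z ∈ D, x ∈ commutingMembers D z ∪ fourPartners D z ↔ ¬ H3.RI.od z x := by
      intro z hz
      constructor
      · rintro (⟨_, h2⟩ | ⟨_, h2⟩) h3
        · exact H3.RI.not_comm_od hD hz hx h2.symm h3
        · exact H3.RI.not_od_fr h3 h2
      · intro h2
        rcases H3.RI.tri hD hz hx with h3 | h3 | h3
        · exact Or.inl ⟨hx, h3.symm⟩
        · exact absurd h3 h2
        · exact Or.inr ⟨hx, h3⟩
    have h2 := h1 d hd
    have h3 := h1 e he
    rw [← h] at h3
    tauto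
  ext e
  constructor
  · rintro ⟨he, h⟩
    refine ⟨he, ?_⟩
    have h1 : ∀ y ∈ D, y * d = d * y ↔ y * e = e * y := by
      intro y hy
      have h2 : y ∈ commutingMembers D d ↔ y ∈ commutingMembers D e := by rw [h]
      constructor
      · intro h3; exact (h2.mp ⟨hy, h3⟩).2
      · intro h3; exact (h2.mpr ⟨hy, h3⟩).2
    have h2 : ∀ x ∈ D, H3.RI.od d x ↔ H3.RI.od e x := fun x hx =>
      ⟨H3.RI.od_of_comm_eq hD hd he h1 hx, H3.RI.od_of_comm_eq hD he hd (fun y hy => (h1 y hy).symm) hx⟩
    ext x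
    constructor
    · rintro (⟨hx, h3⟩ | ⟨hx, h3⟩)
      · exact Or.inl ⟨hx, (h1 x hx).mp h3⟩
      · rcases H3.RI.tri hD he hx with h4 | h4 | h4
        · exact Or.inl ⟨hx, h4.symm⟩
        · exact (H3.RI.not_od_fr ((h2 x hx).mpr h4) h3).elim
        · exact Or.inr ⟨hx, h4⟩
    · rintro (⟨hx, h3⟩ | ⟨hx, h3⟩)
      · exact Or.inl ⟨hx, (h1 x hx).mpr h3⟩
      · rcases H3.RI.tri hD hd hx with h4 | h4 | h4
        · exact Or.inl ⟨hx, h4.symm⟩
        · exact (H3.RI.not_od_fr ((h2 x hx).mp h4) h3).elim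
        · exact Or.inr ⟨hx, h4⟩
  · rintro ⟨he, h⟩
    refine ⟨he, ?_⟩
    have h1 := hkey e he h
    have hdT : d ∈ H3.RI.blk D d := H3.RI.blk_self hd
    have heT : e ∈ H3.RI.blk D d := ⟨he, h1⟩
    ext y
    constructor
    · rintro ⟨hy, h2⟩; exact ⟨hy, H3.RI.blk_comm_iff hD hc hdT heT hy h2⟩
    · rintro ⟨hy, h2⟩; exact ⟨hy, H3.RI.blk_comm_iff hD hc heT hdT hy h2⟩

end Cfsg.Agent.S5046
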