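import Cfsg.Statements.S5047
import Cfsg.Agent.H3.InvG
import Cfsg.Agent.H28.RankOne

set_option autoImplicit false
open Cfsg Cfsg.Agent Cfsg.Agent.H3 Cfsg.Agent.H28

namespace Cfsg.Agent.S5047

/-- Let G be a finite group generated by a set D of root involutions whose odd-order-product graph is connected, a ∈ D, and b a member of D different from a, commuting with a, with ab ∈ D, but not having the same commuting members as a. Then some member x of D with bx of order 4 has ax of order 3. -/
theorem result {G : Type*} [Group G] [Finite G] {D : Set G} (hD : Cfsg.IsRootInvolutionSet D)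
    (hc : Cfsg.IsConnectedSet (Cfsg.OddAdj D) D) {a b : G} (ha : a ∈ D) (hb : b ∈ Cfsg.productPartners D a)
    (hbE : b ∉ Cfsg.sameCommutingClass D a) : ∃ x ∈ Cfsg.fourPartners D b, orderOf (a * x) = 3 := by
  have hbD := H3.RI.pp_mem hb
  have hE : b ∉ H3.RI.blk D a := by
    intro h
    apply hbE
    refine ⟨hbD, ?_⟩
    ext y
    constructor
    · rintro ⟨hy, h2⟩; exact ⟨hy, H3.RI.blk_comm_iff hD hc (H3.RI.blk_self ha) h hy h2⟩
    · rintro ⟨hy, h2⟩; exact ⟨hy, H3.RI.blk_comm_iff hD hc h (H3.RI.blk_self ha) hy h2⟩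
  obtain ⟨u, hu, x, hx, -, -, h3, -, -, h4⟩ := H3.RI.exists_three hD hc ha hb hE
  exact ⟨x, ⟨hx, h3⟩, h4⟩

end Cfsg.Agent.S5047
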