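import Cfsg.Statements.S5048
import Cfsg.Agent.H3.InvH
import Cfsg.Agent.H28.RankOne

set_option autoImplicit false
open Cfsg Cfsg.Agent Cfsg.Agent.H3 Cfsg.Agent.H28

namespace Cfsg.Agent.S5048

/-- Let G be a finite group generated by a set D of root involutions whose odd-order-product graph is connected, with some product of two different commuting members of D again in D. Then the largest solvable normal subgroup of G is the preimage of the centre of G/O₂(G), and the quotient of G by it is a simple group. -/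
theorem result {G : Type*} [Group G] [Finite G] {D : Set G} (hD : Cfsg.IsRootInvolutionSet D)
    (hc : Cfsg.IsConnectedSet (Cfsg.OddAdj D) D) (hDD : (D ∩ Cfsg.commutingProducts D).Nonempty) :
    Cfsg.solvableRadical G = Cfsg.twoZCore G ∧ IsSimpleGroup (G ⧸ Cfsg.twoZCore G) := by
  classical
  -- product partners exist everywhere
  obtain ⟨d₀, hd₀, a, ha, b, hb, hab, hab1, hd₀e⟩ := hDD
  have hbne : b ≠ a := by
    rintro rfl
    exact hab1 (H3.RI.sq hD ha)
  have hba : b ∈ productPartners D a := ⟨⟨hb, hab.symm, hbne⟩, by rw [← hab, ← hd₀e]; exact hd₀⟩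
  have hpp : ∀ d ∈ D, (productPartners D d).Nonempty := by
    intro d hd
    obtain ⟨g, hg⟩ := H3.RI.conj_of_conn hD hc ha hd
    exact ⟨_, by rw [← hg]; exact H3.RI.pp_conj hD g hba⟩
  obtain ⟨x₀, hx₀, hax₀⟩ := H3.RI.exists_od hD hc ha hb hbne.symm
  have hclosed : ∀ N : Subgroup G, N.Normal → ∀ d ∈ D, d ∈ N → N = ⊤ := by
    intro N hN d hd hdN
    rw [eq_top_iff, ← hD.generates, Subgroup.closure_le]
    intro x hx
    obtain ⟨g, hg⟩ := H3.RI.conj_of_conn hD hc hd hx
    rw [← hg]; exact hN.conj_mem d hdN g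
  have hnot : ∀ d ∈ D, d ∉ twoZCore G := by
    intro d hd
    have hne : ∃ y ∈ D, y ≠ d := by
      by_cases h : a = d
      · exact ⟨b, hb, by rw [← h]; exact hbne⟩
      · exact ⟨a, ha, h⟩
    obtain ⟨y, hy, hyd⟩ := hne
    obtain ⟨x, hx, hdx⟩ := H3.RI.exists_od hD hc hd hy hyd.symm
    exact H3.RI.not_mem_twoZ hD hd hx hdx
  have hsmall : ∀ N : Subgroup G, N.Normal → (∀ d ∈ D, d ∉ N) → N ≤ twoZCore G :=
    fun N hN h => H3.RI.normal_le_twoZ hD hN h hpp
  -- G is perfect
  have hperf : commutator G = ⊤ := by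
    by_contra hcon
    have h1 : ∀ d ∈ D, d ∉ commutator G := fun d hd h => hcon (hclosed _ inferInstance d hd h)
    have h2 := hsmall _ inferInstance h1
    obtain ⟨g, hg⟩ := H3.RI.conj_of_conn hD hc ha hx₀
    have h3 : a * x₀ ∈ commutator G := by
      have : a * x₀ = a * g * a⁻¹ * g⁻¹ := by
        rw [← hg]
        have haa := H3.RI.sq hD ha
        calc a * (g * a * g⁻¹) = a * g * a⁻¹ * (a * a) * g⁻¹ := by group
          _ = a * g * a⁻¹ * g⁻¹ := by rw [haa]; group
      rw [this]
      exact Subgroup.commutator_mem_commutator (Subgroup.mem_top a) (Subgroup.mem_top g)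
    have h4 := H3.RI.twoZ_comm (h2 h3) a
    have haa := H3.RI.sq hD ha
    have hxx := H3.RI.sq hD hx₀
    have h5 : (a * x₀) * a * (a * x₀)⁻¹ * a⁻¹ = (a * x₀) ^ 2 := by
      rw [mul_inv_rev, H3.RI.inv hD ha, H3.RI.inv hD hx₀, pow_two]
      calc a * x₀ * a * (x₀ * a) * a = a * x₀ * a * x₀ * (a * a) := by group
        _ = a * x₀ * (a * x₀) := by rw [haa]; group
    rw [h5] at h4
    have h6 := H3.RI.odd_pgroup_one (H1.pCore_isPGroup 2 G) h4 (H3.RI.odd_pow hax₀.2 2)
    rw [pow_two] at h6
    have h7 := eq_one_of_sq_of_odd hax₀.2 h6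
    apply hax₀.1
    have : a = x₀⁻¹ := eq_inv_of_mul_eq_one_left h7
    rw [this, H3.RI.inv hD hx₀]
  have hnt : Nontrivial G := ⟨a, 1, H3.RI.ne_one hD ha⟩
  have hnsol : ¬ Group.IsSolvable G := by
    intro h
    exact (IsSolvable.commutator_lt_top_of_nontrivial G).ne hperf
  have hrad : Cfsg.solvableRadical G = Cfsg.twoZCore G := by
    apply le_antisymm
    · unfold solvableRadical
      apply sSup_le
      rintro N ⟨hN, hNs⟩
      apply hsmall N hN
      intro d hd hdN
      have := hclosed N hN d hd hdN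
      subst this
      apply hnsol
      haveI := hNs
      exact Group.isSolvable_of_surjective (f := (Subgroup.topEquiv (G := G)).toMonoidHom) Subgroup.topEquiv.surjective
    · unfold solvableRadical
      apply le_sSup
      exact ⟨inferInstance, H3.RI.twoZ_solvable⟩
  refine ⟨hrad, ?_⟩
  haveI : Nontrivial (G ⧸ twoZCore G) := by
    refine ⟨(a : G ⧸ twoZCore G), 1, fun h => hnot a ha ((QuotientGroup.eq_one_iff a).mp h)⟩
  refine ⟨fun K hK => ?_⟩
  let f := QuotientGroup.mk' (twoZCore G)
  have hfs : Function.Surjective f := QuotientGroup.mk'_surjective _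
  haveI : (K.comap f).Normal := hK.comap f
  by_cases h : ∃ d ∈ D, d ∈ K.comap f
  · right
    obtain ⟨d, hd, hdK⟩ := h
    have h1 := hclosed _ inferInstance d hd hdK
    rw [eq_top_iff]
    intro q _
    obtain ⟨g, rfl⟩ := hfs q
    have : g ∈ K.comap f := by rw [h1]; trivial
    exact this
  · left
    push Not at h
    have h1 := hsmall _ inferInstance h
    rw [eq_bot_iff]
    intro q hq
    obtain ⟨g, rfl⟩ := hfs q
    have h2 : g ∈ twoZCore G := h1 hq
    rw [Subgroup.mem_bot]
    exact (QuotientGroup.eq_one_iff g).mpr h2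

end Cfsg.Agent.S5048
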