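import Cfsg.Statements.S5049
import Cfsg.Agent.H3.InvA
import Cfsg.Agent.H28.RankOne
import Cfsg.Agent.H1.Cores

set_option autoImplicit false
open Cfsg Cfsg.Agent Cfsg.Agent.H3 Cfsg.Agent.H28

namespace Cfsg.Agent.S5049

theorem odd_pgroup_one {G : Type*} [Group G] {Q : Subgroup G} (hQ : IsPGroup 2 Q) {x : G} (hx : x ∈ Q)
    (ho : Odd (orderOf x)) : x = 1 := by
  obtain ⟨k, hk⟩ := (IsPGroup.iff_orderOf.mp hQ) ⟨x, hx⟩
  rw [Subgroup.orderOf_mk] at hk
  rw [hk] at ho
  have : k = 0 := by
    by_contra h
    exact absurd ho (by rw [Nat.not_odd_iff_even]; exact (Nat.even_pow.mpr ⟨even_two, h⟩))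
  rw [this, pow_zero] at hk
  exact orderOf_eq_one_iff.mp hk

theorem commE {G : Type*} [Group G] [Finite G] {D : Set G} (hD : Cfsg.IsOddTranspositionSet D) {a e q : G}
    (ha : a ∈ D) (he : e ∈ commutingMembers D a) (hq : q ∈ pCore 2 G) :
    e * (q * a * q⁻¹) = (q * a * q⁻¹) * e := by
  have hDR := hD.1
  have heD := he.1
  have hea : e * a = a * e := he.2
  have hQ : IsPGroup 2 (pCore 2 G) := H1.pCore_isPGroup 2 G
  have hQn : (pCore 2 G).Normal := H1.pCore_normal 2 G
  set a' := q * a * q⁻¹ with ha'
  have ha'D : a' ∈ D := hDR.conj_mem a ha q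
  rcases hDR.pair e heD a' ha'D with h | h | h
  · exact h
  · -- (e a')² ∈ Q
    have h1 : (e * a') * (e * a') ∈ pCore 2 G := by
      rw [← QuotientGroup.eq_one_iff]
      have hq1 : ((q : G) : G ⧸ pCore 2 G) = 1 := (QuotientGroup.eq_one_iff q).mpr hq
      have h2 : ((a' : G) : G ⧸ pCore 2 G) = (a : G) := by
        rw [ha', QuotientGroup.mk_mul, QuotientGroup.mk_mul, QuotientGroup.mk_inv, hq1]; simp
      rw [QuotientGroup.mk_mul, QuotientGroup.mk_mul, h2, ← QuotientGroup.mk_mul, ← QuotientGroup.mk_mul,
        RI.comm_sq hDR heD ha hea, QuotientGroup.mk_one]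
    have h3 : Odd (orderOf ((e * a') * (e * a'))) := by
      rw [← pow_two, orderOf_pow]
      exact h.of_dvd_nat (Nat.div_dvd_of_dvd (Nat.gcd_dvd_left _ _))
    have h4 := odd_pgroup_one hQ h1 h3
    exact RI.sq_comm hDR heD ha'D h4
  · exact absurd h.1 (hD.2 e heD a' ha'D)

/-- Let G be a finite group generated by a set D of odd transpositions (root involutions with no product of order 4), Q = O₂(G), and for a ∈ D let Q_a be the commutator subgroup of Q with a. Then every member of D commuting with a centralizes Q_a; and for b ∈ D with ab of odd order greater than 1, the centralizer of ab in Q is the intersection of the centralizers of a and b in Q. -/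
theorem result {G : Type*} [Group G] [Finite G] {D : Set G} (hD : Cfsg.IsOddTranspositionSet D) {a : G} (ha : a ∈ D) :
    (∀ e ∈ Cfsg.commutingMembers D a, ∀ q ∈ ⁅Cfsg.pCore 2 G, Subgroup.zpowers a⁆, e * q = q * e) ∧
    (∀ b ∈ Cfsg.oddPartners D a,
      Cfsg.pCore 2 G ⊓ Subgroup.centralizer {a * b} = Cfsg.pCore 2 G ⊓ Subgroup.centralizer {a} ⊓ Subgroup.centralizer {b}) := by

  have hDR := hD.1
  have hQ : IsPGroup 2 (pCore 2 G) := H1.pCore_isPGroup 2 G
  have hQn : (pCore 2 G).Normal := H1.pCore_normal 2 G
  have hcomm : ∀ e ∈ Cfsg.commutingMembers D a, ∀ q ∈ pCore 2 G, e * (q * a * q⁻¹ * a⁻¹) = (q * a * q⁻¹ * a⁻¹) * e := by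
    intro e he q hq
    have h1 : Commute e (q * a * q⁻¹) := commE hD ha he hq
    have h2 : Commute e a := he.2
    exact h1.mul_right h2.inv_right
  constructor
  · intro e he q hq
    have hle : ⁅Cfsg.pCore 2 G, Subgroup.zpowers a⁆ ≤ Subgroup.centralizer {e} := by
      rw [Subgroup.commutator_le]
      intro q hq z hz
      rw [Subgroup.mem_zpowers_iff] at hz
      obtain ⟨k, rfl⟩ := hz
      rw [Subgroup.mem_centralizer_singleton_iff]
      have ha2 : a ^ (2 : ℤ) = 1 := by
        have := RI.sq hDR ha
        rw [zpow_two, this]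
      rcases Int.even_or_odd' k with ⟨m, rfl | rfl⟩
      · rw [zpow_mul, ha2, one_zpow]; simp
      · rw [zpow_add, zpow_mul, ha2, one_zpow, one_mul, zpow_one]
        rw [commutatorElement_def]
        exact (hcomm e he q hq).symm
    have := hle hq
    rw [Subgroup.mem_centralizer_singleton_iff] at this
    exact this.symm
  · rintro b ⟨hb, hba, hodd⟩
    apply le_antisymm
    · intro q hq0
      obtain ⟨hq', hqc⟩ := Subgroup.mem_inf.mp hq0
      rw [Subgroup.mem_centralizer_singleton_iff] at hqc
      have haa := RI.sq hDR ha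
      have hbb := RI.sq hDR hb
      have hai := RI.inv hDR ha
      have hbi := RI.inv hDR hb
      set w := q * a * q⁻¹ * a with hw
      have hwa : Commute w a := by
        have := hcomm a ⟨ha, rfl⟩ q hq'
        rw [hai] at this
        exact this.symm
      -- w commutes with ab
      have hqab : Commute q (a * b) := hqc
      have hw1 : Commute w (a * b) := by
        have h1 : Commute (a * q⁻¹ * a⁻¹) (a * b) := by
          have h2 : Commute q⁻¹ (a⁻¹ * (a * b) * a) := by
            have : a⁻¹ * (a * b) * a = (a * b)⁻¹ := by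
              rw [mul_inv_rev, hai, hbi, ← mul_assoc, haa, one_mul]
            rw [this]
            exact hqab.inv_inv
          have h3 : a * b = a * (a⁻¹ * (a * b) * a) * a⁻¹ := by group
          rw [h3]
          have := h2.conj a
          exact this
        have h4 : w = q * (a * q⁻¹ * a⁻¹) := by rw [hw, hai]; group
        rw [h4]
        exact hqab.mul_left h1
      have hww : w * w = 1 := by
        have h1 : Commute (q * a * q⁻¹) a := (commE hD ha (e := a) ⟨ha, rfl⟩ hq').symm
        calc w * w = q * a * q⁻¹ * (a * (q * a * q⁻¹)) * a := by rw [hw]; group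
          _ = q * a * q⁻¹ * ((q * a * q⁻¹) * a) * a := by rw [h1.eq]
          _ = q * (a * a) * q⁻¹ * (a * a) := by group
          _ = 1 := by rw [haa]; group
      have hb' : q * b * q⁻¹ = w * b := by
        have h1 : (q * a * q⁻¹) * (q * b * q⁻¹) = a * b := by
          calc (q * a * q⁻¹) * (q * b * q⁻¹) = q * (a * b) * q⁻¹ := by group
            _ = a * b := by rw [hqab.eq]; group
        have h2 : (q * a * q⁻¹) * (q * a * q⁻¹) = 1 := by
          calc (q * a * q⁻¹) * (q * a * q⁻¹) = q * (a * a) * q⁻¹ := by group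
            _ = 1 := by rw [haa]; group
        calc q * b * q⁻¹ = ((q * a * q⁻¹) * (q * a * q⁻¹)) * (q * b * q⁻¹) := by rw [h2, one_mul]
          _ = (q * a * q⁻¹) * ((q * a * q⁻¹) * (q * b * q⁻¹)) := by group
          _ = (q * a * q⁻¹) * (a * b) := by rw [h1]
          _ = w * b := by rw [hw]; group
      have hwb : w * b ∈ D := by rw [← hb']; exact hDR.conj_mem b hb q
      have hawb : a * (w * b) = w * (a * b) := by rw [← mul_assoc, ← hwa.eq, mul_assoc]
      have hab1 : a * b ≠ 1 := by
        intro h
        apply hba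
        have : a = b⁻¹ := eq_inv_of_mul_eq_one_left h
        rw [this, hbi]
      have hw1' : w = 1 := by
        rcases hDR.pair a ha (w * b) hwb with h | h | h
        · exfalso
          have h5 := RI.comm_sq hDR ha hwb h
          rw [hawb] at h5
          apply hab1
          apply eq_one_of_sq_of_odd hodd
          calc a * b * (a * b) = (w * w) * ((a * b) * (a * b)) := by rw [hww, one_mul]
            _ = (w * (a * b)) * (w * (a * b)) := by
                rw [hw1.mul_mul_mul_comm]
            _ = 1 := h5
        · rw [hawb] at h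
          set n := orderOf (w * (a * b)) with hn
          set m := orderOf (a * b) with hm
          have h6 : (w * (a * b)) ^ n = 1 := pow_orderOf_eq_one _
          rw [hw1.mul_pow] at h6
          have h7 : w ^ n = w := by
            obtain ⟨j, hj⟩ := h
            rw [hj, pow_succ, pow_mul, pow_two, hww, one_pow, one_mul]
          rw [h7] at h6
          have h8 : w = ((a * b) ^ n)⁻¹ := eq_inv_of_mul_eq_one_left h6
          apply eq_one_of_sq_of_odd _ hww
          rw [h8, orderOf_inv, orderOf_pow]
          exact hodd.of_dvd_nat (Nat.div_dvd_of_dvd (Nat.gcd_dvd_left _ _))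
        · exact absurd h.1 (hD.2 a ha _ hwb)
      have hqa : q * a = a * q := by
        have h9 : q * a * q⁻¹ = a := by
          have : q * a * q⁻¹ * a = 1 := by rw [← hw]; exact hw1'
          have h10 := eq_inv_of_mul_eq_one_left this
          rw [hai] at h10
          exact h10
        calc q * a = (q * a * q⁻¹) * q := by group
          _ = a * q := by rw [h9]
      have hqb : q * b = b * q := by
        rw [hw1', one_mul] at hb'
        calc q * b = (q * b * q⁻¹) * q := by group
          _ = b * q := by rw [hb']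
      refine Subgroup.mem_inf.mpr ⟨Subgroup.mem_inf.mpr ⟨hq', ?_⟩, ?_⟩
      · rw [Subgroup.mem_centralizer_singleton_iff]; exact hqa
      · rw [Subgroup.mem_centralizer_singleton_iff]; exact hqb
    · intro q hq0
      obtain ⟨hq1, h2⟩ := Subgroup.mem_inf.mp hq0
      obtain ⟨hq, h1⟩ := Subgroup.mem_inf.mp hq1
      refine Subgroup.mem_inf.mpr ⟨hq, ?_⟩
      rw [Subgroup.mem_centralizer_singleton_iff] at h1 h2 ⊢
      exact (show Commute q a from h1).mul_right h2

end Cfsg.Agent.S5049
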