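import Cfsg.Statements.S5057
import Cfsg.Agent.H3.InvA
import Cfsg.Agent.H28.RankOne

set_option autoImplicit false
open Cfsg Cfsg.Agent Cfsg.Agent.H3 Cfsg.Agent.H28

namespace Cfsg.Agent.S5057

theorem ms_cases (s : Multiset ℕ) (h2 : ∀ x ∈ s, 2 ≤ x) (hs : s.sum ≤ 6)
    (he : Even (s.sum + Multiset.card s)) :
    s.lcm = 1 ∨ s.lcm = 2 ∨ s.lcm = 3 ∨ s.lcm = 4 ∨ s.lcm = 5 := by
  have hc : Multiset.card s ≤ 3 := by
    have := Multiset.card_nsmul_le_sum h2
    simp only [smul_eq_mul] at this
    omega
  rcases Nat.lt_or_ge (Multiset.card s) 1 with h0 | h0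
  · have : s = 0 := Multiset.card_eq_zero.mp (by omega)
    subst this; left; simp
  rcases Nat.lt_or_ge (Multiset.card s) 2 with h1 | h1
  · obtain ⟨a, rfl⟩ := Multiset.card_eq_one.mp (by omega : Multiset.card s = 1)
    simp only [Multiset.mem_singleton, forall_eq, Multiset.sum_singleton, Multiset.card_singleton] at h2 hs he
    interval_cases a <;> first | (exfalso; revert he; decide) | decide
  rcases Nat.lt_or_ge (Multiset.card s) 3 with h3 | h3
  · obtain ⟨a, b, rfl⟩ := Multiset.card_eq_two.mp (by omega : Multiset.card s = 2)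
    have ha : 2 ≤ a := h2 a (by simp)
    have hb : 2 ≤ b := h2 b (by simp)
    have hs' : a + b ≤ 6 := by simpa using hs
    have he' : Even (a + b + 2) := by simpa using he
    have ha4 : a ≤ 4 := by omega
    have hb4 : b ≤ 4 := by omega
    clear h2 hs he hc h0 h1 h3
    interval_cases a <;> interval_cases b <;> first | (exfalso; omega) | (exfalso; revert he'; decide) | decide
  · obtain ⟨a, b, c, rfl⟩ := Multiset.card_eq_three.mp (by omega : Multiset.card s = 3)
    have ha : 2 ≤ a := h2 a (by simp)
    have hb : 2 ≤ b := h2 b (by simp)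
    have hcc : 2 ≤ c := h2 c (by simp)
    have hs' : a + b + c ≤ 6 := by
      have : ({a, b, c} : Multiset ℕ).sum = a + b + c := by simp [add_assoc]
      omega
    obtain rfl : a = 2 := by omega
    obtain rfl : b = 2 := by omega
    obtain rfl : c = 2 := by omega
    exfalso; revert he; decide

theorem closure_normal {G : Type*} [Group G] {S : Set G} (h : ∀ s ∈ S, ∀ g : G, g * s * g⁻¹ ∈ S) :
    (Subgroup.closure S).Normal := by
  have : Subgroup.closure S = Subgroup.normalClosure S := by
    apply le_antisymm Subgroup.closure_le_normalClosure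
    apply Subgroup.closure_mono
    intro x hx
    rw [Group.mem_conjugatesOfSet_iff] at hx
    obtain ⟨s, hs, hc⟩ := hx
    obtain ⟨g, rfl⟩ := isConj_iff.mp hc
    exact h s hs g
  rw [this]; infer_instance

theorem order_cases (g : Equiv.Perm (Fin 6)) (hg : Equiv.Perm.sign g = 1) :
    orderOf g = 1 ∨ orderOf g = 2 ∨ orderOf g = 3 ∨ orderOf g = 4 ∨ orderOf g = 5 := by
  rw [← Equiv.Perm.lcm_cycleType]
  apply ms_cases
  · intro x hx; exact Equiv.Perm.two_le_of_mem_cycleType hx
  · rw [Equiv.Perm.sum_cycleType]
    simpa using Finset.card_le_univ g.support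
  · by_contra h
    have hs := Equiv.Perm.sign_of_cycleType g
    rw [hg] at hs
    rw [Nat.not_even_iff_odd] at h
    rw [h.neg_one_pow] at hs
    exact absurd hs (by decide)

theorem ctype (g : Equiv.Perm (Fin 6)) (hg : Equiv.Perm.sign g = 1) (h2 : orderOf g = 2) :
    g.cycleType = {2, 2} := by
  haveI : Fact (Nat.Prime 2) := ⟨Nat.prime_two⟩
  obtain ⟨n, hn⟩ := Equiv.Perm.cycleType_prime_order (σ := g) (by rw [h2]; exact Nat.prime_two)
  rw [h2] at hn
  have hs := Equiv.Perm.sign_of_cycleType g
  rw [hg, hn] at hs
  have hsum : g.cycleType.sum ≤ 6 := by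
    rw [Equiv.Perm.sum_cycleType]
    simpa using Finset.card_le_univ g.support
  rw [hn] at hsum
  simp only [Multiset.sum_replicate, Multiset.card_replicate, smul_eq_mul] at hs hsum
  have hn2 : n ≤ 2 := by omega
  interval_cases n
  · exact absurd hs (by decide)
  · rw [hn]; rfl
  · exact absurd hs (by decide)

theorem order_le (g : ↥(alternatingGroup (Fin 6))) :
    orderOf g = 1 ∨ orderOf g = 2 ∨ orderOf g = 3 ∨ orderOf g = 4 ∨ orderOf g = 5 := by
  have h := order_cases (g : Equiv.Perm (Fin 6)) (Equiv.Perm.mem_alternatingGroup.mp g.2)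
  rwa [Subgroup.orderOf_coe] at h

theorem conj_all (a b : ↥(alternatingGroup (Fin 6))) (ha : orderOf a = 2) (hb : orderOf b = 2) :
    IsConj a b := by
  have ha' := ctype (a : Equiv.Perm (Fin 6)) (Equiv.Perm.mem_alternatingGroup.mp a.2) (by rw [Subgroup.orderOf_coe, ha])
  have hb' := ctype (b : Equiv.Perm (Fin 6)) (Equiv.Perm.mem_alternatingGroup.mp b.2) (by rw [Subgroup.orderOf_coe, hb])
  refine alternatingGroup.isConj_of (Equiv.Perm.isConj_iff_cycleType_eq.mpr (by rw [ha', hb'])) ?_
  rw [← Equiv.Perm.sum_cycleType, ha']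
  simp

theorem ex_inv : ∃ a : ↥(alternatingGroup (Fin 6)), orderOf a = 2 := by
  refine ⟨⟨Equiv.swap 0 1 * Equiv.swap 2 3, ?_⟩, ?_⟩
  · rw [Equiv.Perm.mem_alternatingGroup]; decide
  · rw [Subgroup.orderOf_mk]
    exact orderOf_eq_prime (by decide) (by decide)

/-- The involutions of the alternating group of degree 6 form a class of root involutions (a single conjugacy class of involutions generating the group, any two of which commute, have product of odd order, or have product of order 4 whose square is again an involution of the class), and the product of any two of them has order at most 5. -/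
theorem result :
    Cfsg.IsRootInvolutionClass {g : ↥(alternatingGroup (Fin 6)) | orderOf g = 2} ∧
    ∀ d ∈ {g : ↥(alternatingGroup (Fin 6)) | orderOf g = 2}, ∀ e ∈ {g : ↥(alternatingGroup (Fin 6)) | orderOf g = 2},
      orderOf (d * e) ≤ 5 := by

  have hset : IsRootInvolutionSet {g : ↥(alternatingGroup (Fin 6)) | orderOf g = 2} := by
    refine ⟨fun d hd => hd, ?_, ?_, ?_⟩
    · haveI : IsSimpleGroup ↥(alternatingGroup (Fin 6)) := alternatingGroup.isSimpleGroup (by simp)
      have hn : (Subgroup.closure {g : ↥(alternatingGroup (Fin 6)) | orderOf g = 2}).Normal := by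
        apply closure_normal
        intro s hs g
        show orderOf (g * s * g⁻¹) = 2
        rw [order_conj']; exact hs
      rcases hn.eq_bot_or_eq_top with h | h
      · exfalso
        obtain ⟨a, ha⟩ := ex_inv
        have : a ∈ Subgroup.closure {g : ↥(alternatingGroup (Fin 6)) | orderOf g = 2} := Subgroup.subset_closure ha
        rw [h, Subgroup.mem_bot] at this
        rw [this] at ha; simp at ha
      · exact h
    · intro d hd g
      show orderOf (g * d * g⁻¹) = 2
      rw [order_conj']; exact hd
    · intro a ha b hb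
      rcases order_le (a * b) with h | h | h | h | h
      · right; left; rw [h]; decide
      · left
        have h1 : (a * b) * (a * b) = 1 := sq_of_order_two h
        have h2 : a * b = (a * b)⁻¹ := eq_inv_of_mul_eq_one_left h1
        rwa [mul_inv_rev, inv_of_order_two ha, inv_of_order_two hb] at h2
      · right; left; rw [h]; decide
      · right; right
        refine ⟨h, ?_⟩
        show orderOf ((a * b) ^ 2) = 2
        rw [orderOf_pow, h]; decide
      · right; left; rw [h]; decide
  refine ⟨⟨hset, ex_inv, ?_⟩, ?_⟩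
  · intro a ha b hb
    obtain ⟨g, hg⟩ := isConj_iff.mp (conj_all a b ha hb)
    exact ⟨g, hg.symm⟩
  · intro d _ e _
    rcases order_le (d * e) with h | h | h | h | h <;> rw [h] <;> decide

end Cfsg.Agent.S5057
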