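import Cfsg.Statements.S5058
import Cfsg.Agent.H3.TvD

set_option autoImplicit false
open Matrix
open Cfsg Cfsg.Agent Cfsg.Agent.H3 Cfsg.Agent.H28

namespace Cfsg.Agent.S5058

theorem D_eq (F : Type*) [Field F] (n : ℕ) :
    {t : Matrix.SpecialLinearGroup (Fin (n + 3)) F | ∃ c : F, c ≠ 0 ∧
        ∃ g : Matrix.SpecialLinearGroup (Fin (n + 3)) F, ((g⁻¹ * t * g : Matrix.SpecialLinearGroup (Fin (n + 3)) F) :
          Matrix (Fin (n + 3)) (Fin (n + 3)) F) = Matrix.transvection 0 1 c} =
      rootElements (Tset (Fin (n + 3)) F) := by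
  have h01 : (Pi.single 1 1 : Fin (n + 3) → F) ⬝ᵥ (Pi.single 0 1 : Fin (n + 3) → F) = 0 := by
    rw [single_dotProduct, Pi.single_eq_of_ne (by simp), mul_zero]
  have h1 : Tg (Pi.single 0 1 : Fin (n + 3) → F) (Pi.single 1 1) ∈ Tset (Fin (n + 3)) F :=
    Tg_mem (by simp) (by simp) h01
  have htr : ∀ c : F, Matrix.transvection 0 1 c = ((tv h01 c : Matrix.SpecialLinearGroup (Fin (n + 3)) F) :
      Matrix (Fin (n + 3)) (Fin (n + 3)) F) := by
    intro c
    rw [coe_tv, ← Matrix.single_eq_single_vecMulVec_single]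
    unfold Matrix.transvection
    rw [Matrix.smul_single, smul_eq_mul, mul_one]
  ext t
  constructor
  · rintro ⟨c, hc, g, hg⟩
    rw [htr] at hg
    have hg' : g⁻¹ * t * g = tv h01 c := Subtype.ext hg
    have ht : t = g * tv h01 c * g⁻¹ := by rw [← hg']; group
    refine ⟨?_, conjBy (Tg (Pi.single 0 1) (Pi.single 1 1)) g, Tset_conj h1 g, ?_⟩
    · intro h
      have h2 : tv h01 c = tv h01 0 := by rw [← hg', h, tv_zero]; group
      exact hc (tv_inj h01 (by simp) (by simp) h2)
    · rw [ht]; exact conjBy_normal_iff.2 ((mem_Tg h01).2 ⟨c, rfl⟩)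
  · rintro ⟨ht1, A, hA, ht⟩
    obtain ⟨g, rfl⟩ := Tset_conj_all h1 hA
    rw [mem_conjBy, mem_Tg h01] at ht
    obtain ⟨c, hc⟩ := ht
    refine ⟨c, ?_, g, ?_⟩
    · rintro rfl
      apply ht1
      rw [tv_zero] at hc
      have : t = g * (g⁻¹ * t * g) * g⁻¹ := by group
      rw [this, hc]; group
    · rw [htr]; exact congrArg Subtype.val hc

/-- Let F be a finite field of characteristic 2 and n a natural number. Then the transvections of SL_{n+3}(F) (so in every dimension at least 3) (the conjugates of the elementary matrices 1 + c E₁₂, c ≠ 0) form a class of root involutions of SL_{n+3}(F); when F has two elements they form a class of {3,4}⁺-transpositions (every product of odd order has order 1 or 3). -/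
theorem result (F : Type*) [Field F] [Fintype F] [CharP F 2] (n : ℕ) :
    Cfsg.IsRootInvolutionClass {t : Matrix.SpecialLinearGroup (Fin (n + 3)) F | ∃ c : F, c ≠ 0 ∧
        ∃ g : Matrix.SpecialLinearGroup (Fin (n + 3)) F, ((g⁻¹ * t * g : Matrix.SpecialLinearGroup (Fin (n + 3)) F) :
          Matrix (Fin (n + 3)) (Fin (n + 3)) F) = Matrix.transvection 0 1 c} ∧
    (Fintype.card F = 2 → Cfsg.IsThreeFourPlusTranspositionSet {t : Matrix.SpecialLinearGroup (Fin (n + 3)) F | ∃ c : F, c ≠ 0 ∧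
        ∃ g : Matrix.SpecialLinearGroup (Fin (n + 3)) F, ((g⁻¹ * t * g : Matrix.SpecialLinearGroup (Fin (n + 3)) F) :
          Matrix (Fin (n + 3)) (Fin (n + 3)) F) = Matrix.transvection 0 1 c}) := by

  rw [D_eq]
  have hset : Cfsg.IsRootInvolutionSet (rootElements (Tset (Fin (n + 3)) F)) := root_inv_set
  refine ⟨⟨hset, ?_, fun a ha b hb => root_inv_class ha hb⟩, fun hF => ⟨hset, ?_⟩⟩
  · have h01 : (Pi.single 1 1 : Fin (n + 3) → F) ⬝ᵥ (Pi.single 0 1 : Fin (n + 3) → F) = 0 := by
      rw [single_dotProduct, Pi.single_eq_of_ne (by simp), mul_zero]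
    exact ⟨tv h01 1, mem_root_iff.2 ⟨_, _, h01, 1, by simp, by simp, one_ne_zero, rfl⟩⟩
  · intro a ha b hb hodd
    refine root_three ?_ ha hb hodd
    intro x
    by_contra hcon
    push Not at hcon
    classical
    have h3 : ({0, 1, x} : Finset F).card = 3 := by
      rw [Finset.card_eq_three]
      exact ⟨0, 1, x, zero_ne_one, hcon.1.symm, hcon.2.symm, rfl⟩
    have h4 := Finset.card_le_univ ({0, 1, x} : Finset F)
    omega

end Cfsg.Agent.S5058
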