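import Cfsg.Statements.S5059
import Cfsg.Agent.H3.InvA
import Cfsg.Agent.H28.RankOne

set_option autoImplicit false
universe u
open Cfsg Cfsg.Agent Cfsg.Agent.H3 Cfsg.Agent.H28

namespace Cfsg.Agent.S5059

section
variable {k : Type u} [Field k] {M : Type u} [AddCommGroup M] [Module k M] [FiniteDimensional k M]
    {G : Subgroup (LinearMap.GeneralLinearGroup k M)} {σ : LinearMap.GeneralLinearGroup k M}

theorem prod_zero (hσ : σ ∈ Cfsg.minimalQuadraticElements G) {τ₁ τ₂ : LinearMap.GeneralLinearGroup k M}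
    (h1 : τ₁ ∈ Cfsg.sameActionClass G σ) (h2 : τ₂ ∈ Cfsg.sameActionClass G σ) :
    ((τ₁ : M →ₗ[k] M) - 1) * ((τ₂ : M →ₗ[k] M) - 1) = 0 := by
  ext x
  have hx : ((τ₂ : M →ₗ[k] M) - 1) x ∈ LinearMap.range ((τ₂ : M →ₗ[k] M) - 1) := ⟨x, rfl⟩
  rw [h2.2.2] at hx
  obtain ⟨y, hy⟩ := hx
  have hk : ((σ : M →ₗ[k] M) - 1) y ∈ LinearMap.ker ((σ : M →ₗ[k] M) - 1) := by
    rw [LinearMap.mem_ker]
    have := hσ.1.2.1.1
    exact congrArg (fun f : M →ₗ[k] M => f y) this
  rw [hy, ← h1.2.1, LinearMap.mem_ker] at hk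
  exact hk

theorem mul_sub_one {n m : M →ₗ[k] M} (h : n * m = 0) : (1 + n) * (1 + m) - 1 = n + m := by
  rw [mul_add, add_mul, add_mul, h]; simp; abel

theorem self_mem (hσ : σ ∈ Cfsg.minimalQuadraticElements G) : σ ∈ Cfsg.sameActionClass G σ :=
  ⟨hσ, rfl, rfl⟩

theorem coe_mul_sub_one (hσ : σ ∈ Cfsg.minimalQuadraticElements G) {τ₁ τ₂ : LinearMap.GeneralLinearGroup k M}
    (h1 : τ₁ ∈ Cfsg.sameActionClass G σ) (h2 : τ₂ ∈ Cfsg.sameActionClass G σ) :
    ((τ₁ * τ₂ : LinearMap.GeneralLinearGroup k M) : M →ₗ[k] M) - 1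
      = ((τ₁ : M →ₗ[k] M) - 1) + ((τ₂ : M →ₗ[k] M) - 1) := by
  have h := mul_sub_one (prod_zero hσ h1 h2)
  rw [← h, Units.val_mul]
  simp

theorem mul_mem' (hσ : σ ∈ Cfsg.minimalQuadraticElements G) {τ₁ τ₂ : LinearMap.GeneralLinearGroup k M}
    (h1 : τ₁ ∈ Cfsg.sameActionClass G σ) (h2 : τ₂ ∈ Cfsg.sameActionClass G σ) :
    τ₁ * τ₂ ∈ Cfsg.sameActionClass G σ ∨ τ₁ * τ₂ = 1 := by
  by_cases hne : ((τ₁ * τ₂ : LinearMap.GeneralLinearGroup k M) : M →ₗ[k] M) - 1 = 0
  · right
    apply Units.ext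
    rw [sub_eq_zero] at hne
    exact hne
  left
  have hl := coe_mul_sub_one hσ h1 h2
  have h11 := prod_zero hσ h1 h1
  have h12 := prod_zero hσ h1 h2
  have h21 := prod_zero hσ h2 h1
  have h22 := prod_zero hσ h2 h2
  set n := ((τ₁ : M →ₗ[k] M) - 1) with hn
  set m := ((τ₂ : M →ₗ[k] M) - 1) with hm
  -- quadratic element
  have hq : τ₁ * τ₂ ∈ quadraticElements G := by
    refine ⟨mul_mem h1.1.1.1 h2.1.1.1, ⟨?_, hne⟩, ?_⟩
    · rw [hl, add_mul, mul_add, mul_add, h11, h12, h21, h22]; simp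
    · rintro τ ⟨c, hc⟩
      -- the elements 1 + c n, 1 + c m are units
      have hu1 : (1 + c • n) * (1 - c • n) = 1 := by
        rw [add_mul, mul_sub, mul_sub, smul_mul_smul_comm, h11]; simp
      have hu1' : (1 - c • n) * (1 + c • n) = 1 := by
        rw [sub_mul, mul_add, mul_add, smul_mul_smul_comm, h11]; simp
      have hu2 : (1 + c • m) * (1 - c • m) = 1 := by
        rw [add_mul, mul_sub, mul_sub, smul_mul_smul_comm, h22]; simp
      have hu2' : (1 - c • m) * (1 + c • m) = 1 := by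
        rw [sub_mul, mul_add, mul_add, smul_mul_smul_comm, h22]; simp
      have m1 : (⟨1 + c • n, 1 - c • n, hu1, hu1'⟩ : LinearMap.GeneralLinearGroup k M) ∈ G :=
        h1.1.1.2.2 ⟨c, rfl⟩
      have m2 : (⟨1 + c • m, 1 - c • m, hu2, hu2'⟩ : LinearMap.GeneralLinearGroup k M) ∈ G :=
        h2.1.1.2.2 ⟨c, rfl⟩
      have : τ = (⟨1 + c • n, 1 - c • n, hu1, hu1'⟩ : LinearMap.GeneralLinearGroup k M) *
          (⟨1 + c • m, 1 - c • m, hu2, hu2'⟩ : LinearMap.GeneralLinearGroup k M) := by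
        apply Units.ext
        rw [hc, hl]
        show _ = (1 + c • n) * (1 + c • m)
        have := mul_sub_one (n := c • n) (m := c • m) (by rw [smul_mul_smul_comm, h12]; simp)
        rw [sub_eq_iff_eq_add] at this
        rw [this, smul_add]; abel
      rw [this]
      exact mul_mem m1 m2
  -- ranges
  have hr1 : LinearMap.range (n + m) ≤ LinearMap.range ((σ : M →ₗ[k] M) - 1) := by
    rintro _ ⟨x, rfl⟩
    refine add_mem ?_ ?_
    · rw [← h1.2.2]; exact ⟨x, rfl⟩
    · rw [← h2.2.2]; exact ⟨x, rfl⟩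
  have hk1 : LinearMap.ker ((σ : M →ₗ[k] M) - 1) ≤ LinearMap.ker (n + m) := by
    intro x hx
    have hx1 := hx
    have hx2 := hx
    rw [← h1.2.1, LinearMap.mem_ker] at hx1
    rw [← h2.2.1, LinearMap.mem_ker] at hx2
    rw [LinearMap.mem_ker, LinearMap.add_apply]
    rw [hn, hx1, hm, hx2, add_zero]
  have hmin : commutatorRank σ ≤ commutatorRank (τ₁ * τ₂) := hσ.2 _ hq
  unfold commutatorRank at hmin
  rw [hl] at hmin
  have hr : LinearMap.range (n + m) = LinearMap.range ((σ : M →ₗ[k] M) - 1) :=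
    Submodule.eq_of_le_of_finrank_le hr1 hmin
  have hkd : LinearMap.ker ((σ : M →ₗ[k] M) - 1) = LinearMap.ker (n + m) := by
    apply Submodule.eq_of_le_of_finrank_eq hk1
    have e1 := LinearMap.finrank_range_add_finrank_ker (n + m)
    have e2 := LinearMap.finrank_range_add_finrank_ker ((σ : M →ₗ[k] M) - 1)
    rw [hr] at e1
    omega
  refine ⟨⟨hq, ?_⟩, ?_, ?_⟩
  · intro τ hτ
    have := hσ.2 τ hτ
    unfold commutatorRank at this ⊢
    rw [hl, hr]; exact this
  · rw [hl, hkd]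
  · rw [hl, hr]

theorem inv_val (hσ : σ ∈ Cfsg.minimalQuadraticElements G) {τ : LinearMap.GeneralLinearGroup k M}
    (h1 : τ ∈ Cfsg.sameActionClass G σ) :
    ((τ⁻¹ : LinearMap.GeneralLinearGroup k M) : M →ₗ[k] M) - 1 = -((τ : M →ₗ[k] M) - 1) := by
  have h11 := prod_zero hσ h1 h1
  obtain ⟨n, hn⟩ : ∃ n, n = ((τ : M →ₗ[k] M) - 1) := ⟨_, rfl⟩
  have hτ : (τ : M →ₗ[k] M) = 1 + n := by rw [hn]; abel
  rw [← hn] at h11 ⊢
  have h3' : (1 + n) * (1 - n) = 1 := by
    rw [add_mul, mul_sub, mul_sub, h11]; simp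
  have h3 : (τ : M →ₗ[k] M) * (1 - n) = 1 := by
    rw [hτ]; exact h3'
  have h2 : ((τ⁻¹ : LinearMap.GeneralLinearGroup k M) : M →ₗ[k] M) = 1 - n := by
    calc ((τ⁻¹ : LinearMap.GeneralLinearGroup k M) : M →ₗ[k] M)
        = ((τ⁻¹ : LinearMap.GeneralLinearGroup k M) : M →ₗ[k] M) * ((τ : M →ₗ[k] M) * (1 - n)) := by
          rw [h3, mul_one]
      _ = 1 - n := by rw [← mul_assoc, Units.inv_mul, one_mul]
  rw [h2]; abel

theorem inv_mem' (hσ : σ ∈ Cfsg.minimalQuadraticElements G) {τ : LinearMap.GeneralLinearGroup k M}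
    (h1 : τ ∈ Cfsg.sameActionClass G σ) : τ⁻¹ ∈ Cfsg.sameActionClass G σ := by
  have hv := inv_val hσ h1
  refine ⟨⟨⟨inv_mem h1.1.1.1, ⟨?_, ?_⟩, ?_⟩, ?_⟩, ?_, ?_⟩
  · rw [hv, neg_mul_neg]; exact prod_zero hσ h1 h1
  · rw [hv, Ne, neg_eq_zero]; exact h1.1.1.2.1.2
  · rintro ρ ⟨c, hc⟩
    refine h1.1.1.2.2 ⟨-c, ?_⟩
    rw [hc, hv, neg_smul, smul_neg]
  · intro ρ hρ
    have := h1.1.2 ρ hρ
    unfold commutatorRank at this ⊢
    rw [hv]
    rwa [LinearMap.range_neg]
  · rw [hv, ← h1.2.1]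
    ext x; simp only [LinearMap.mem_ker, LinearMap.neg_apply, neg_eq_zero]
  · rw [hv, LinearMap.range_neg, h1.2.2]

theorem closure_eq (hσ : σ ∈ Cfsg.minimalQuadraticElements G) :
    (Cfsg.sameActionSubgroup G σ : Set (LinearMap.GeneralLinearGroup k M)) = Cfsg.sameActionClass G σ ∪ {1} := by
  apply Set.Subset.antisymm
  · intro x hx
    rw [SetLike.mem_coe] at hx
    unfold sameActionSubgroup at hx
    induction hx using Subgroup.closure_induction with
    | mem x hx => exact Or.inl hx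
    | one => exact Or.inr rfl
    | mul x y _ _ hx hy =>
      rcases hx with hx | hx
      · rcases hy with hy | hy
        · exact mul_mem' hσ hx hy
        · rw [Set.mem_singleton_iff] at hy
          rw [hy, mul_one]; exact Or.inl hx
      · rw [Set.mem_singleton_iff] at hx
        rw [hx, one_mul]; exact hy
    | inv x _ hx =>
      rcases hx with hx | hx
      · exact Or.inl (inv_mem' hσ hx)
      · rw [Set.mem_singleton_iff] at hx
        rw [hx, inv_one]; exact Or.inr rfl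
  · rintro x (hx | hx)
    · exact Subgroup.subset_closure hx
    · rw [Set.mem_singleton_iff] at hx
      rw [hx]; exact one_mem _

theorem comm' (hσ : σ ∈ Cfsg.minimalQuadraticElements G) {x y : LinearMap.GeneralLinearGroup k M}
    (hx : x ∈ Cfsg.sameActionSubgroup G σ) (hy : y ∈ Cfsg.sameActionSubgroup G σ) : x * y = y * x := by
  have hx' : x ∈ (Cfsg.sameActionSubgroup G σ : Set (LinearMap.GeneralLinearGroup k M)) := hx
  have hy' : y ∈ (Cfsg.sameActionSubgroup G σ : Set (LinearMap.GeneralLinearGroup k M)) := hy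
  rw [closure_eq hσ] at hx' hy'
  rcases hx' with h1 | h1
  · rcases hy' with h2 | h2
    · apply Units.ext
      have e1 := coe_mul_sub_one hσ h1 h2
      have e2 := coe_mul_sub_one hσ h2 h1
      rw [add_comm] at e2
      rw [← e1] at e2
      exact (sub_left_injective e2).symm
    · rw [Set.mem_singleton_iff] at h2; rw [h2]; simp
  · rw [Set.mem_singleton_iff] at h1; rw [h1]; simp

theorem pow' (hσ : σ ∈ Cfsg.minimalQuadraticElements G) {x : LinearMap.GeneralLinearGroup k M}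
    (h1 : x ∈ Cfsg.sameActionClass G σ) (j : ℕ) :
    ((x ^ j : LinearMap.GeneralLinearGroup k M) : M →ₗ[k] M) = 1 + (j : k) • ((x : M →ₗ[k] M) - 1) := by
  induction j with
  | zero => simp
  | succ j ih =>
    have h11 := prod_zero hσ h1 h1
    rw [pow_succ, Units.val_mul, ih]
    obtain ⟨n, hn⟩ : ∃ n, n = ((x : M →ₗ[k] M) - 1) := ⟨_, rfl⟩
    have hτ : (x : M →ₗ[k] M) = 1 + n := by rw [hn]; abel
    rw [← hn] at h11 ⊢
    rw [hτ, add_mul, mul_add, mul_add, smul_mul_assoc, smul_mul_assoc, h11]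
    push_cast
    rw [add_smul]
    simp
    abel
end

/-- Let k be a field of characteristic not 2 with k not of order 3, M a finite-dimensional k-vector space and G ≤ GL(M) such that (G, M) is a quadratic pair (M irreducible for G, and G generated by its quadratically acting elements σ whose scalar family 1 + c(σ − 1), c ∈ k, lies in G). Write 𝒬_d for the quadratic elements of G of minimal commutator rank, E(σ) for the subgroup generated by the members of 𝒬_d with the same fixed space and commutator space as σ, and Σ for the set of these subgroups. Then for σ ∈ 𝒬_d the subgroup E(σ) consists exactly of those members together with the identity, it is abelian, and if k has prime characteristic p every element of E(σ) has order dividing p. -/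
theorem result {k : Type u} [Field k] (hk2 : ringChar k ≠ 2) (hk3 : Nat.card k ≠ 3)
    {M : Type u} [AddCommGroup M] [Module k M] [FiniteDimensional k M]
    {G : Subgroup (LinearMap.GeneralLinearGroup k M)} (hG : Cfsg.IsQuadraticPair G)
    {σ : LinearMap.GeneralLinearGroup k M} (hσ : σ ∈ Cfsg.minimalQuadraticElements G) :
    (Cfsg.sameActionSubgroup G σ : Set (LinearMap.GeneralLinearGroup k M)) = Cfsg.sameActionClass G σ ∪ {1} ∧
    IsMulCommutative ↥(Cfsg.sameActionSubgroup G σ) ∧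
    (∀ p : ℕ, p.Prime → ringChar k = p → ∀ x ∈ Cfsg.sameActionSubgroup G σ, x ^ p = 1) := by

  refine ⟨closure_eq hσ, ⟨⟨fun x y => Subtype.ext (comm' hσ x.2 y.2)⟩⟩, ?_⟩
  intro p hp hchar x hx
  have hx' : x ∈ (Cfsg.sameActionSubgroup G σ : Set (LinearMap.GeneralLinearGroup k M)) := hx
  rw [closure_eq hσ] at hx'
  rcases hx' with h1 | h1
  · apply Units.ext
    rw [pow' hσ h1 p]
    haveI := ringChar.charP k
    rw [hchar] at this
    rw [CharP.cast_eq_zero]; simp
  · rw [Set.mem_singleton_iff] at h1; rw [h1]; simp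

end Cfsg.Agent.S5059
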