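import Cfsg.Statements.S5060
import Cfsg.Agent.H3.QPDick
import Cfsg.Agent.H28.RankOne

set_option autoImplicit false
open Cfsg Cfsg.Agent Cfsg.Agent.H3 Cfsg.Agent.H28

namespace Cfsg.Agent.S5060

/-- Let k ⊆ K be fields with the characteristic of k not 2 and k not of order 3, and let α ∈ K be a non-zero element algebraic over k. Then the subgroup of SL₂(K) generated by the upper unitriangular matrices with entry c and the lower unitriangular matrices with entry cα, c ranging over k, is exactly the group of matrices of SL₂(K) with all entries in k(α). -/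
theorem result {k K : Type*} [Field k] [Field K] [Algebra k K] (hk2 : ringChar k ≠ 2) (hk3 : Nat.card k ≠ 3)
    (α : K) (hα : IsAlgebraic k α) (hα0 : α ≠ 0) :
    (Subgroup.closure ({g : Matrix.SpecialLinearGroup (Fin 2) K | ∃ c : k, (g : Matrix (Fin 2) (Fin 2) K) = !![1, algebraMap k K c; 0, 1]} ∪
        {g : Matrix.SpecialLinearGroup (Fin 2) K | ∃ c : k, (g : Matrix (Fin 2) (Fin 2) K) = !![1, 0; algebraMap k K c * α, 1]}) :
      Set (Matrix.SpecialLinearGroup (Fin 2) K)) =
    {g : Matrix.SpecialLinearGroup (Fin 2) K | ∀ i j : Fin 2, (g : Matrix (Fin 2) (Fin 2) K) i j ∈ IntermediateField.adjoin k ({α} : Set K)} := by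
  classical
  set K0 := IntermediateField.adjoin k ({α} : Set K) with hK0
  let α0 : K0 := ⟨α, IntermediateField.mem_adjoin_simple_self k α⟩
  have h2k : (2 : k) ≠ 0 := by
    intro h
    apply hk2
    haveI : Fact (Nat.Prime 2) := ⟨Nat.prime_two⟩
    haveI : CharP k 2 := CharTwo.of_one_ne_zero_of_two_eq_zero one_ne_zero h
    exact ringChar.eq k 2
  have h2 : (2 : K0) ≠ 0 := by
    intro h
    apply h2k
    apply (algebraMap k K0).injective
    rwa [map_ofNat, map_zero]
  haveI : FiniteDimensional k K0 := IntermediateField.adjoin.finiteDimensional hα.isIntegral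
  have hα00 : α0 ≠ 0 := fun h => hα0 (congrArg Subtype.val h)
  have hgen : Algebra.adjoin k ({α0} : Set K0) = ⊤ := by
    have h1 : (IntermediateField.adjoin k ({α} : Set K)).toSubalgebra = Algebra.adjoin k ({α} : Set K) :=
      IntermediateField.adjoin_simple_toSubalgebra_of_isAlgebraic hα
    rw [eq_top_iff]
    rintro ⟨x, hx⟩ -
    have hx' : x ∈ Algebra.adjoin k ({α} : Set K) := by rw [← h1]; exact hx
    rw [Algebra.adjoin_singleton_eq_range_aeval] at hx' ⊢
    obtain ⟨f, hf⟩ := hx'
    refine ⟨f, Subtype.ext ?_⟩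
    have h2 : K0.val (Polynomial.aeval α0 f) = Polynomial.aeval (K0.val α0) f := (Polynomial.aeval_algHom_apply K0.val α0 f).symm
    exact h2.trans hf
  have hD := QP.dick h2 hk3 hα00 hgen
  let ι : Matrix.SpecialLinearGroup (Fin 2) K0 →* Matrix.SpecialLinearGroup (Fin 2) K :=
    Matrix.SpecialLinearGroup.map (algebraMap K0 K)
  have hmap : (QP.HS (Set.range (algebraMap k K0)) α0).map ι =
      Subgroup.closure ({g : Matrix.SpecialLinearGroup (Fin 2) K | ∃ c : k, (g : Matrix (Fin 2) (Fin 2) K) = !![1, algebraMap k K c; 0, 1]} ∪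
        {g : Matrix.SpecialLinearGroup (Fin 2) K | ∃ c : k, (g : Matrix (Fin 2) (Fin 2) K) = !![1, 0; algebraMap k K c * α, 1]}) := by
    unfold QP.HS
    rw [MonoidHom.map_closure, Set.image_union]
    congr 2
    · ext g
      constructor
      · rintro ⟨_, ⟨_, ⟨c, rfl⟩, rfl⟩, rfl⟩
        refine ⟨c, ?_⟩
        ext i j
        fin_cases i <;> fin_cases j
        · exact map_one (algebraMap K0 K)
        · rfl
        · exact map_zero (algebraMap K0 K)
        · exact map_one (algebraMap K0 K)
      · rintro ⟨c, hc⟩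
        refine ⟨QP.uu (algebraMap k K0 c), ⟨_, ⟨c, rfl⟩, rfl⟩, ?_⟩
        apply Subtype.ext
        rw [hc]
        ext i j
        fin_cases i <;> fin_cases j
        · exact map_one (algebraMap K0 K)
        · rfl
        · exact map_zero (algebraMap K0 K)
        · exact map_one (algebraMap K0 K)
    · ext g
      constructor
      · rintro ⟨_, ⟨_, ⟨c, rfl⟩, rfl⟩, rfl⟩
        refine ⟨c, ?_⟩
        ext i j
        fin_cases i <;> fin_cases j
        · exact map_one (algebraMap K0 K)
        · exact map_zero (algebraMap K0 K)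
        · rfl
        · exact map_one (algebraMap K0 K)
      · rintro ⟨c, hc⟩
        refine ⟨QP.vv (algebraMap k K0 c * α0), ⟨_, ⟨c, rfl⟩, rfl⟩, ?_⟩
        apply Subtype.ext
        rw [hc]
        ext i j
        fin_cases i <;> fin_cases j
        · exact map_one (algebraMap K0 K)
        · exact map_zero (algebraMap K0 K)
        · rfl
        · exact map_one (algebraMap K0 K)
  rw [← hmap, hD]
  ext g
  constructor
  · rintro ⟨g', -, rfl⟩ i j
    exact (g'.1 i j).2
  · intro hg
    refine ⟨QP.mk2 ⟨g.1 0 0, hg 0 0⟩ ⟨g.1 0 1, hg 0 1⟩ ⟨g.1 1 0, hg 1 0⟩ ⟨g.1 1 1, hg 1 1⟩ (Subtype.ext (QP.det_eq g)), trivial, ?_⟩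
    apply QP.ext2 <;> rfl

end Cfsg.Agent.S5060
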