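import Cfsg.Statements.S5062
import Cfsg.Agent.H3.QPTrans
import Cfsg.Agent.H28.RankOne

set_option autoImplicit false
universe u
open Cfsg Cfsg.Agent Cfsg.Agent.H3 Cfsg.Agent.H28

namespace Cfsg.Agent.S5062

/-- Let k be a field of characteristic not 2 with k not of order 3, M a finite-dimensional k-vector space and G ≤ GL(M) such that (G, M) is a quadratic pair (M irreducible for G, and G generated by its quadratically acting elements σ whose scalar family 1 + c(σ − 1), c ∈ k, lies in G). Write 𝒬_d for the quadratic elements of G of minimal commutator rank, E(σ) for the subgroup generated by the members of 𝒬_d with the same fixed space and commutator space as σ, and Σ for the set of these subgroups. Then, inside the subgroup G₀ generated by Σ, the members of Σ form a set of abstract root subgroups of G₀ in which every member has a rank one partner; and whenever a member A and a rank one partner B of A lie in a connected component of the rank-one-pair graph that is degenerate (no commutator case among its members), there are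 subgroups A₀ ≤ A, B₀ ≤ B generating an image of SL₂(k₁) with central kernel on unitriangular subgroups, for some field k₁ with at least four elements. -/
theorem result {k : Type u} [Field k] (hk2 : ringChar k ≠ 2) (hk3 : Nat.card k ≠ 3)
    {M : Type u} [AddCommGroup M] [Module k M] [FiniteDimensional k M]
    {G : Subgroup (LinearMap.GeneralLinearGroup k M)} (hG : Cfsg.IsQuadraticPair G) :
    Cfsg.IsRootSubgroupSet ((fun A : Subgroup (LinearMap.GeneralLinearGroup k M) => A.subgroupOf (⨆ B ∈ Cfsg.quadraticRootSubgroups G, B)) ''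
      Cfsg.quadraticRootSubgroups G) ∧
    (∀ A ∈ Cfsg.quadraticRootSubgroups G, ¬ Cfsg.IsIsolatedIn (Cfsg.FAdj (Cfsg.quadraticRootSubgroups G)) (Cfsg.quadraticRootSubgroups G) A) ∧
    (∀ A ∈ Cfsg.quadraticRootSubgroups G, ∀ B ∈ Cfsg.rankOnePartners (Cfsg.quadraticRootSubgroups G) A,
      (∀ C ∈ Cfsg.componentOf (Cfsg.FAdj (Cfsg.quadraticRootSubgroups G)) (Cfsg.quadraticRootSubgroups G) A,
        ∀ D ∈ Cfsg.componentOf (Cfsg.FAdj (Cfsg.quadraticRootSubgroups G)) (Cfsg.quadraticRootSubgroups G) A,
          ¬ Cfsg.RootCommutatorCase (Cfsg.quadraticRootSubgroups G) C D) →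
      ∃ A₀ B₀ : Subgroup (LinearMap.GeneralLinearGroup k M), A₀ ≤ A ∧ B₀ ≤ B ∧
        ∃ (k₁ : Type u) (_ : Field k₁), 3 < ENat.card k₁ ∧ Cfsg.IsPSL2PairOver k₁ A₀ B₀) := by
  have h2k := QP.two_ne hk2
  by_cases hempty : ∃ σ, σ ∈ minimalQuadraticElements G
  · obtain ⟨σ₀, hσ₀⟩ := hempty
    have hd := QP.QD.of hσ₀
    have hXG : (⨆ B ∈ quadraticRootSubgroups G, B) ≤ G := by
      refine iSup₂_le (fun B hB => ?_)
      obtain ⟨n, hn, hB'⟩ := QP.sigma_data hd hB
      exact hB'.le
    refine ⟨?_, ?_, ?_⟩
    · apply QP.rootSet_transfer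
      · intro A hA
        obtain ⟨n, hn, hA'⟩ := QP.sigma_data hd hA
        exact hA'.mulComm hn
      · intro A hA
        obtain ⟨n, hn, hA'⟩ := QP.sigma_data hd hA
        exact hA'.ne_bot hn
      · intro A hA g hg
        exact QP.sigma_conj hd hA (hXG hg)
      · intro A hA B hB
        exact QP.sigma_pair hG.1 h2k hk3 hd hA hB
    · rintro A hA ⟨-, h⟩
      obtain ⟨g, -, hg⟩ := QP.sigma_notIsolated hG.1 h2k hk3 hd hA
      exact (h _).1 hg
    · rintro A hA B ⟨hB, hAB⟩ -
      obtain ⟨n, hn, hA'⟩ := QP.sigma_data hd hA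
      obtain ⟨m, hm, hB'⟩ := QP.sigma_data hd hB
      exact QP.sl2_sub h2k hk3 hd.min hn hm hA' hB' (QP.op_of_ro h2k hk3 hd.min hn hm hA' hB' hAB)
  · have hS : ∀ A, A ∉ quadraticRootSubgroups G := by
      rintro A ⟨σ, hσ, -⟩
      exact hempty ⟨σ, hσ⟩
    refine ⟨?_, fun A hA => absurd hA (hS A), fun A hA => absurd hA (hS A)⟩
    apply QP.rootSet_transfer
    · exact fun A hA => absurd hA (hS A)
    · exact fun A hA => absurd hA (hS A)
    · exact fun A hA => absurd hA (hS A)
    · exact fun A hA => absurd hA (hS A)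

end Cfsg.Agent.S5062
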