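import Cfsg.Statements.S5063
import Cfsg.Agent.H3.QPCentral
import Cfsg.Agent.H28.RankOne

set_option autoImplicit false
universe u
open Cfsg Cfsg.Agent Cfsg.Agent.H3 Cfsg.Agent.H28

namespace Cfsg.Agent.S5063

/-- Let k be a field of characteristic not 2 with k not of order 3, M a finite-dimensional k-vector space and G ≤ GL(M) such that (G, M) is a quadratic pair (M irreducible for G, and G generated by its quadratically acting elements σ whose scalar family 1 + c(σ − 1), c ∈ k, lies in G). Write 𝒬_d for the quadratic elements of G of minimal commutator rank, E(σ) for the subgroup generated by the members of 𝒬_d with the same fixed space and commutator space as σ, and Σ for the set of these subgroups. Then G is a central product of finitely many quasisimple normal subgroups G₁, …, G_s (pairwise commuting and together generating G), each generated by the quadratic elements of G it contains, and every quadratic element of G lies in one of them. -/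
theorem result {k : Type u} [Field k] (hk2 : ringChar k ≠ 2) (hk3 : Nat.card k ≠ 3)
    {M : Type u} [AddCommGroup M] [Module k M] [FiniteDimensional k M]
    {G : Subgroup (LinearMap.GeneralLinearGroup k M)} (hG : Cfsg.IsQuadraticPair G) :
    ∃ (s : ℕ) (Gi : Fin s → Subgroup (LinearMap.GeneralLinearGroup k M)),
      (∀ i, Gi i ≤ G ∧ ∀ g ∈ G, Cfsg.conjBy (Gi i) g = Gi i) ∧ (∀ i j, i ≠ j → ⁅Gi i, Gi j⁆ = ⊥) ∧ (⨆ i, Gi i) = G ∧
      (∀ i, Cfsg.IsQuasisimple ↥(Gi i) ∧ Subgroup.closure (Cfsg.quadraticElements G ∩ (Gi i : Set (LinearMap.GeneralLinearGroup k M))) = Gi i) ∧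
      Cfsg.quadraticElements G ⊆ ⋃ i, (Gi i : Set (LinearMap.GeneralLinearGroup k M)) := by
  classical
  have h2k := QP.two_ne hk2
  obtain ⟨S, hfin, hn, hc, hq, hs⟩ := QP.main63 h2k hk3 _ M G hG rfl
  let F := hfin.toFinset
  let eqv := F.equivFin
  have hmem : ∀ i, (eqv.symm i).1 ∈ S := fun i => hfin.mem_toFinset.1 (eqv.symm i).2
  have hq' : quadraticElements G ⊆ ⋃ i, (((eqv.symm i).1 : Subgroup (LinearMap.GeneralLinearGroup k M)) : Set (LinearMap.GeneralLinearGroup k M)) := by
    intro σ hσ
    obtain ⟨H, hH, h1⟩ := hq σ hσ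
    have h2 : H ∈ F := hfin.mem_toFinset.2 hH
    rw [Set.mem_iUnion]
    refine ⟨eqv ⟨H, h2⟩, ?_⟩
    rw [Equiv.symm_apply_apply]
    exact h1
  refine ⟨F.card, fun i => (eqv.symm i).1, fun i => hn _ (hmem i), ?_, ?_, fun i => hs _ (hmem i), hq'⟩
  · intro i j hij
    apply QP.comm_bot
    refine hc _ (hmem i) _ (hmem j) ?_
    intro h
    apply hij
    apply eqv.symm.injective
    exact Subtype.ext h
  · apply le_antisymm
    · exact iSup_le (fun i => (hn _ (hmem i)).1)
    · have h1 : Subgroup.closure (quadraticElements G) ≤ ⨆ i, (eqv.symm i).1 := by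
        rw [Subgroup.closure_le]
        intro σ hσ
        obtain ⟨i, hi⟩ := Set.mem_iUnion.1 (hq' hσ)
        exact (le_iSup (fun i => ((eqv.symm i).1 : Subgroup (LinearMap.GeneralLinearGroup k M))) i) hi
      rw [hG.2] at h1
      exact h1

end Cfsg.Agent.S5063
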