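import Cfsg.Statements.S5064
import Cfsg.Agent.H3.QPDict
import Cfsg.Agent.H28.RankOne

set_option autoImplicit false
universe u
open Cfsg Cfsg.Agent Cfsg.Agent.H3 Cfsg.Agent.H28

namespace Cfsg.Agent.S5064

open Cfsg.Agent.H3.QP in
theorem s5064_aux {k : Type u} [Field k] (hk2 : ringChar k ≠ 2) (hk3 : Nat.card k ≠ 3)
    {M : Type u} [AddCommGroup M] [Module k M] [FiniteDimensional k M]
    {G : Subgroup (LinearMap.GeneralLinearGroup k M)} 
    {σ τ : LinearMap.GeneralLinearGroup k M} (hσ : σ ∈ Cfsg.minimalQuadraticElements G) (hτ : τ ∈ Cfsg.minimalQuadraticElements G)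
    (hH : ¬ Cfsg.IsUnipotentOn (Subgroup.closure (Cfsg.scalarFamily σ ∪ Cfsg.scalarFamily τ))) :
    ∃ (K : Type u) (_ : Field K) (_ : Algebra k K) (lam : K), IsAlgebraic k lam ∧
      IntermediateField.adjoin k ({lam} : Set K) = ⊤ ∧
      Nonempty (↥(Subgroup.closure (Cfsg.scalarFamily σ ∪ Cfsg.scalarFamily τ)) ≃* Matrix.SpecialLinearGroup (Fin 2) K) := by
  have h2k := two_ne hk2
  have hd := QD.of hσ
  have hn := hd.n1 hσ
  have hm := hd.n1 hτ
  set n := (σ : M →ₗ[k] M) - 1 with hnd
  set m := (τ : M →ₗ[k] M) - 1 with hmd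
  have hop : ¬ (n * (m * n) = 0 ∧ m * (n * m) = 0) := by
    intro h
    apply hH
    apply JJ.unip (V₁ := F1 n m) (V₂ := F2 n m)
    apply JJ.closure (F1_le_F2 n m)
    have hJn : n ∈ JJ (F1 n m) (F2 n m) :=
      mem_JJ hn.1.1 hm.1.1 ⟨le_refl _, le_refl _⟩ (fun v => by
        have := apply_eq_zero_of_mul h.2 v
        exact this)
    have hJm : m ∈ JJ (F1 n m) (F2 n m) := by
      rw [F1_comm, F2_comm]
      exact mem_JJ hm.1.1 hn.1.1 ⟨le_refl _, le_refl _⟩ (fun v => by
        have := apply_eq_zero_of_mul h.1 v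
        exact this)
    rintro g (⟨c, hc⟩ | ⟨c, hc⟩)
    · have : (g : M →ₗ[k] M) - 1 = c • n := by rw [hc]; abel
      rw [this]; exact Submodule.smul_mem _ _ hJn
    · have : (g : M →ₗ[k] M) - 1 = c • m := by rw [hc]; abel
      rw [this]; exact Submodule.smul_mem _ _ hJm
  obtain ⟨e, w, hF, K, _, _, φ, α, hA, hne, hme, hHS, hG'⟩ := opp_main h2k hk3 hd.min hn hm hop
  set mu := muOf hn.1.1 hm.1.1 hF hA with hmu
  set ρ := (rho mu).toHomUnits with hρ
  have hρinj : Function.Injective ρ := by
    intro g g' hg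
    exact rho_inj mu (congrArg Units.val hg)
  have hu : ∀ c : k, (ρ (uu (algebraMap k K c)) : M →ₗ[k] M) = 1 + c • n := by
    intro c
    rw [hρ, rhoU_val, rho_uu]
    change 1 + φ (algebraMap k K c) * (n * e) = _
    rw [Algebra.algebraMap_eq_smul_one, map_smul, hA.one, smul_mul_assoc, hne, ← hF.comm_e (n_comm_z hn.1.1), hne]
  have hv : ∀ c : k, (ρ (vv (algebraMap k K c * α)) : M →ₗ[k] M) = 1 + c • m := by
    intro c
    rw [hρ, rhoU_val, rho_vv]
    change 1 + φ (algebraMap k K c * α) * (w * m) = _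
    rw [Algebra.algebraMap_eq_smul_one, smul_mul_assoc, one_mul, map_smul, hA.al, smul_mul_assoc]
    congr 2
    calc (n * m + m * n) * e * (w * m) = (n * m + m * n) * (e * w) * m := by simp only [mul_assoc]
      _ = m := by rw [hF.ew, hF.zw, ← hF.comm_e (m_comm_z hm.1.1), hme]
  have hrange : ρ.range = Subgroup.closure (Cfsg.scalarFamily σ ∪ Cfsg.scalarFamily τ) := by
    apply le_antisymm
    · rw [MonoidHom.range_eq_map, ← hHS, Subgroup.map_le_iff_le_comap]
      apply HS_le
      · rintro _ ⟨c, rfl⟩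
        exact Subgroup.subset_closure (Or.inl ⟨c, hu c⟩)
      · rintro _ ⟨c, rfl⟩
        exact Subgroup.subset_closure (Or.inr ⟨c, hv c⟩)
    · rw [Subgroup.closure_le]
      rintro g (⟨c, hc⟩ | ⟨c, hc⟩)
      · exact ⟨uu (algebraMap k K c), Units.ext ((hu c).trans hc.symm)⟩
      · exact ⟨vv (algebraMap k K c * α), Units.ext ((hv c).trans hc.symm)⟩
  haveI := hA.fd
  refine ⟨K, inferInstance, inferInstance, α, Algebra.IsAlgebraic.isAlgebraic α, ?_, ?_⟩
  · have h1 := IntermediateField.algebra_adjoin_le_adjoin k ({α} : Set K)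
    rw [hA.gen] at h1
    rw [eq_top_iff]
    intro x _
    exact h1 trivial
  · exact ⟨(MulEquiv.subgroupCongr hrange).symm.trans (MonoidHom.ofInjective hρinj).symm⟩

/-- Let k be a field of characteristic not 2 with k not of order 3, M a finite-dimensional k-vector space and G ≤ GL(M) such that (G, M) is a quadratic pair (M irreducible for G, and G generated by its quadratically acting elements σ whose scalar family 1 + c(σ − 1), c ∈ k, lies in G). Write 𝒬_d for the quadratic elements of G of minimal commutator rank, E(σ) for the subgroup generated by the members of 𝒬_d with the same fixed space and commutator space as σ, and Σ for the set of these subgroups. If σ, τ ∈ 𝒬_d and the subgroup H generated by their two scalar families does not act unipotently on M, then H is isomorphic to SL₂ over a simple algebraic extension k(λ) of k. -/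
theorem result {k : Type u} [Field k] (hk2 : ringChar k ≠ 2) (hk3 : Nat.card k ≠ 3)
    {M : Type u} [AddCommGroup M] [Module k M] [FiniteDimensional k M]
    {G : Subgroup (LinearMap.GeneralLinearGroup k M)} (hG : Cfsg.IsQuadraticPair G)
    {σ τ : LinearMap.GeneralLinearGroup k M} (hσ : σ ∈ Cfsg.minimalQuadraticElements G) (hτ : τ ∈ Cfsg.minimalQuadraticElements G)
    (hH : ¬ Cfsg.IsUnipotentOn (Subgroup.closure (Cfsg.scalarFamily σ ∪ Cfsg.scalarFamily τ))) :
    ∃ (K : Type u) (_ : Field K) (_ : Algebra k K) (lam : K), IsAlgebraic k lam ∧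
      IntermediateField.adjoin k ({lam} : Set K) = ⊤ ∧
      Nonempty (↥(Subgroup.closure (Cfsg.scalarFamily σ ∪ Cfsg.scalarFamily τ)) ≃* Matrix.SpecialLinearGroup (Fin 2) K) := by

  exact s5064_aux hk2 hk3 hσ hτ hH

end Cfsg.Agent.S5064
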