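import Cfsg.Statements.S5065
import Cfsg.Agent.H3.QPSet
import Cfsg.Agent.H28.RankOne

set_option autoImplicit false
universe u
open Cfsg Cfsg.Agent Cfsg.Agent.H3 Cfsg.Agent.H28

namespace Cfsg.Agent.S5065

open Cfsg.Agent.H3.QP in
theorem s5065_aux {k : Type u} [Field k] (hk2 : ringChar k ≠ 2) (hk3 : Nat.card k ≠ 3)
    {M : Type u} [AddCommGroup M] [Module k M] [FiniteDimensional k M]
    {G : Subgroup (LinearMap.GeneralLinearGroup k M)}
    {σ τ : LinearMap.GeneralLinearGroup k M} (hσ : σ ∈ Cfsg.minimalQuadraticElements G) (hτ : τ ∈ Cfsg.minimalQuadraticElements G) :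
    Cfsg.IsUnipotentOn (Cfsg.sameActionSubgroup G σ ⊔ Cfsg.sameActionSubgroup G τ) ∨
    (Cfsg.IsSpecialRankOnePair (Cfsg.sameActionSubgroup G σ) (Cfsg.sameActionSubgroup G τ) ∧
      (∃! i : LinearMap.GeneralLinearGroup k M, i ∈ Cfsg.sameActionSubgroup G σ ⊔ Cfsg.sameActionSubgroup G τ ∧ i ≠ 1 ∧ i * i = 1 ∧
        (∀ x ∈ Cfsg.sameActionSubgroup G σ ⊔ Cfsg.sameActionSubgroup G τ, i * x = x * i) ∧
        (∀ m ∈ Cfsg.commutatorSubmodule (Cfsg.sameActionSubgroup G σ ⊔ Cfsg.sameActionSubgroup G τ), (i : M →ₗ[k] M) m = -m) ∧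
        (∀ m ∈ Cfsg.fixedSubmodule (Cfsg.sameActionSubgroup G σ ⊔ Cfsg.sameActionSubgroup G τ), (i : M →ₗ[k] M) m = m)) ∧
      IsCompl (Cfsg.fixedSubmodule (Cfsg.sameActionSubgroup G σ ⊔ Cfsg.sameActionSubgroup G τ))
        (Cfsg.commutatorSubmodule (Cfsg.sameActionSubgroup G σ ⊔ Cfsg.sameActionSubgroup G τ))) := by
  have h2k := two_ne hk2
  have hd := QD.of hσ
  have hn := hd.n1 hσ
  have hm := hd.n1 hτ
  have hA : IsE G _ (sameActionSubgroup G σ) := fun g => mem_E hd hσ g
  have hB : IsE G _ (sameActionSubgroup G τ) := fun g => mem_E hd hτ g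
  set n := (σ : M →ₗ[k] M) - 1 with hnd
  set m := (τ : M →ₗ[k] M) - 1 with hmd
  set A := sameActionSubgroup G σ
  set B := sameActionSubgroup G τ
  by_cases h : Op n m
  · right
    refine ⟨special h2k hk3 hd.min hn hm hA hB h, ?_⟩
    obtain ⟨b, hb, hbar, hfix, hcom, hAB, i, hi, hi'⟩ := invol h2k hk3 hd.min hn hm hA hB h
    set e := n * b + b * n with he
    have hee : e * e = e := hbar.ee
    have hcompl : IsCompl (LinearMap.ker e) (LinearMap.range e) := by
      rw [isCompl_iff, disjoint_iff, codisjoint_iff]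
      constructor
      · rw [eq_bot_iff]
        rintro v ⟨hv, ⟨u, hu⟩⟩
        change e v = 0 at hv
        have : e v = v := by rw [← hu]; exact ap hee u
        rw [Submodule.mem_bot, ← this, hv]
      · rw [eq_top_iff]
        intro v _
        rw [Submodule.mem_sup]
        refine ⟨v - e v, ?_, e v, ⟨v, rfl⟩, by abel⟩
        rw [LinearMap.mem_ker, map_sub, sub_eq_zero]
        exact (ap hee v).symm
    have hi1 : ∀ v ∈ LinearMap.range e, (i : M →ₗ[k] M) v = -v := by
      rintro _ ⟨v, rfl⟩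
      rw [hi']
      change e v - (2 : k) • e (e v) = - e v
      have : e (e v) = e v := ap hee v
      rw [this, two_smul]; abel
    have hi2 : ∀ v ∈ LinearMap.ker e, (i : M →ₗ[k] M) v = v := by
      intro v hv
      rw [hi']
      change v - (2 : k) • e v = v
      rw [LinearMap.mem_ker.1 hv, smul_zero, sub_zero]
    rw [hfix, hcom]
    refine ⟨⟨i, ⟨hi, ?_, ?_, ?_, hi1, hi2⟩, ?_⟩, hcompl⟩
    · rintro rfl
      apply hn.2.1
      have h1 : (2 : k) • e = 0 := by
        rw [Units.val_one] at hi'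
        have := sub_eq_self.1 hi'.symm
        exact this
      have h3 : e = 0 := (smul_eq_zero.1 h1).resolve_left h2k
      rw [← hbar.ne, ← he, h3, mul_zero]
    · apply Units.ext
      rw [Units.val_mul, Units.val_one, hi', mul_sub, mul_one, sub_mul, one_mul, smul_mul_smul_comm, hee]
      have : ((2 : k) * 2) • e = (2 : k) • e + (2 : k) • e := by rw [← add_smul]; norm_num
      rw [this]; abel
    · intro x hx
      apply Units.ext
      rw [Units.val_mul, Units.val_mul, hi', sub_mul, mul_sub, one_mul, mul_one, smul_mul_assoc, mul_smul_comm]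
      congr 2
      obtain ⟨h3, h4⟩ := hAB x hx
      rw [mul_sub, mul_one] at h3
      rw [sub_mul, one_mul] at h4
      exact sub_right_injective (h4.trans h3.symm)
    · rintro j ⟨-, -, -, -, hj1, hj2⟩
      apply Units.ext
      ext v
      have hv : v = (v - e v) + e v := by abel
      have h3 : v - e v ∈ LinearMap.ker e := by
        rw [LinearMap.mem_ker, map_sub, sub_eq_zero]
        exact (ap hee v).symm
      rw [hv, map_add, map_add, hj1 _ ⟨v, rfl⟩, hi1 _ ⟨v, rfl⟩, hj2 _ h3, hi2 _ h3]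
  · left
    exact nonop_unip h2k hk3 hd.min hn hm hA hB h

/-- Let k be a field of characteristic not 2 with k not of order 3, M a finite-dimensional k-vector space and G ≤ GL(M) such that (G, M) is a quadratic pair (M irreducible for G, and G generated by its quadratically acting elements σ whose scalar family 1 + c(σ − 1), c ∈ k, lies in G). Write 𝒬_d for the quadratic elements of G of minimal commutator rank, E(σ) for the subgroup generated by the members of 𝒬_d with the same fixed space and commutator space as σ, and Σ for the set of these subgroups. For σ, τ ∈ 𝒬_d put A = E(σ), B = E(τ) and X = ⟨A, B⟩. Then either X acts unipotently on M, or A and B are the unipotent subgroups of a special rank one group X; in the latter case X contains exactly one central involution acting as −1 on the commutator space [M, X] and trivially on the fixed space C_M(X), and M is the direct sum of C_M(X) and [M, X]. -/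
theorem result {k : Type u} [Field k] (hk2 : ringChar k ≠ 2) (hk3 : Nat.card k ≠ 3)
    {M : Type u} [AddCommGroup M] [Module k M] [FiniteDimensional k M]
    {G : Subgroup (LinearMap.GeneralLinearGroup k M)} (hG : Cfsg.IsQuadraticPair G)
    {σ τ : LinearMap.GeneralLinearGroup k M} (hσ : σ ∈ Cfsg.minimalQuadraticElements G) (hτ : τ ∈ Cfsg.minimalQuadraticElements G) :
    Cfsg.IsUnipotentOn (Cfsg.sameActionSubgroup G σ ⊔ Cfsg.sameActionSubgroup G τ) ∨
    (Cfsg.IsSpecialRankOnePair (Cfsg.sameActionSubgroup G σ) (Cfsg.sameActionSubgroup G τ) ∧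
      (∃! i : LinearMap.GeneralLinearGroup k M, i ∈ Cfsg.sameActionSubgroup G σ ⊔ Cfsg.sameActionSubgroup G τ ∧ i ≠ 1 ∧ i * i = 1 ∧
        (∀ x ∈ Cfsg.sameActionSubgroup G σ ⊔ Cfsg.sameActionSubgroup G τ, i * x = x * i) ∧
        (∀ m ∈ Cfsg.commutatorSubmodule (Cfsg.sameActionSubgroup G σ ⊔ Cfsg.sameActionSubgroup G τ), (i : M →ₗ[k] M) m = -m) ∧
        (∀ m ∈ Cfsg.fixedSubmodule (Cfsg.sameActionSubgroup G σ ⊔ Cfsg.sameActionSubgroup G τ), (i : M →ₗ[k] M) m = m)) ∧
      IsCompl (Cfsg.fixedSubmodule (Cfsg.sameActionSubgroup G σ ⊔ Cfsg.sameActionSubgroup G τ))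
        (Cfsg.commutatorSubmodule (Cfsg.sameActionSubgroup G σ ⊔ Cfsg.sameActionSubgroup G τ))) := by

  exact s5065_aux hk2 hk3 hσ hτ

end Cfsg.Agent.S5065
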