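import Cfsg.Statements.S5066
import Cfsg.Agent.H3.QPFin
import Cfsg.Agent.H28.RankOne

set_option autoImplicit false
universe u
open Cfsg Cfsg.Agent Cfsg.Agent.H3 Cfsg.Agent.H28

namespace Cfsg.Agent.S5066

/-- Let k be a field of characteristic not 2 with k not of order 3, M a finite-dimensional k-vector space and G ≤ GL(M) such that (G, M) is a quadratic pair (M irreducible for G, and G generated by its quadratically acting elements σ whose scalar family 1 + c(σ − 1), c ∈ k, lies in G). Write 𝒬_d for the quadratic elements of G of minimal commutator rank, E(σ) for the subgroup generated by the members of 𝒬_d with the same fixed space and commutator space as σ, and Σ for the set of these subgroups. Let E, F ∈ Σ generate a subgroup that is nilpotent of class exactly two. Then D = ⁅E, F⁆ belongs to Σ, equals the subgroup generated by the commutators of e with F, and also of E with f, for every non-identity e ∈ E, f ∈ F, and ⟨E, F⟩ lies in U(D), the set of elements g of G normalizing D with (g − 1)M inside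 the fixed space of D, (g − 1) mapping that fixed space into the commutator space of D, and g acting trivially on the commutator space of D. -/
theorem result {k : Type u} [Field k] (hk2 : ringChar k ≠ 2) (hk3 : Nat.card k ≠ 3)
    {M : Type u} [AddCommGroup M] [Module k M] [FiniteDimensional k M]
    {G : Subgroup (LinearMap.GeneralLinearGroup k M)} (hG : Cfsg.IsQuadraticPair G)
    {E F : Subgroup (LinearMap.GeneralLinearGroup k M)} (hE : E ∈ Cfsg.quadraticRootSubgroups G) (hF : F ∈ Cfsg.quadraticRootSubgroups G)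
    (h2 : ⁅E ⊔ F, E ⊔ F⁆ ≠ ⊥ ∧ ⁅⁅E ⊔ F, E ⊔ F⁆, E ⊔ F⁆ = ⊥) :
    ⁅E, F⁆ ∈ Cfsg.quadraticRootSubgroups G ∧
    (∀ e ∈ E, e ≠ 1 → Subgroup.closure ((fun f : LinearMap.GeneralLinearGroup k M => e * f * e⁻¹ * f⁻¹) '' (F : Set (LinearMap.GeneralLinearGroup k M))) = ⁅E, F⁆) ∧
    (∀ f ∈ F, f ≠ 1 → Subgroup.closure ((fun e : LinearMap.GeneralLinearGroup k M => e * f * e⁻¹ * f⁻¹) '' (E : Set (LinearMap.GeneralLinearGroup k M))) = ⁅E, F⁆) ∧
    ((E ⊔ F : Subgroup (LinearMap.GeneralLinearGroup k M)) : Set (LinearMap.GeneralLinearGroup k M)) ⊆ Cfsg.quadraticUnipotentCore G ⁅E, F⁆ := by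
  have h2k := QP.two_ne hk2
  obtain ⟨σ, hσ, rfl⟩ := hE
  obtain ⟨τ, hτ, rfl⟩ := hF
  have hd := QP.QD.of hσ
  have hn := hd.n1 hσ
  have hm := hd.n1 hτ
  have hA : QP.IsE G _ (sameActionSubgroup G σ) := fun g => QP.mem_E hd hσ g
  have hB : QP.IsE G _ (sameActionSubgroup G τ) := fun g => QP.mem_E hd hτ g
  have hop : ¬ QP.Op ((σ : M →ₗ[k] M) - 1) ((τ : M →ₗ[k] M) - 1) := by
    intro hop
    apply ro_not_nilpotent_sup (QP.rankOne h2k hk3 hd.min hn hm hA hB hop)
    rw [Subgroup.isNilpotent_iff_lowerCentralSeries]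
    refine ⟨2, ?_⟩
    rw [Subgroup.lowerCentralSeries_succ, Subgroup.lowerCentralSeries_succ]
    exact h2.2
  have hc : ⁅sameActionSubgroup G σ, sameActionSubgroup G τ⁆ ≠ ⊥ := by
    intro hc
    apply h2.1
    rw [Subgroup.commutator_eq_bot_iff_le_centralizer] at hc ⊢
    have h3 := hc
    have h4 : sameActionSubgroup G τ ≤ Subgroup.centralizer (sameActionSubgroup G σ : Set (LinearMap.GeneralLinearGroup k M)) := by
      intro y hy
      rw [Subgroup.mem_centralizer_iff]
      intro x hx
      exact ((Subgroup.mem_centralizer_iff.1 (h3 hx)) y hy).symm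
    have h5 : ∀ x ∈ sameActionSubgroup G σ, ∀ y ∈ sameActionSubgroup G σ, x * y = y * x := fun x hx y hy => hA.comm hn x hx y hy
    have h6 : ∀ x ∈ sameActionSubgroup G τ, ∀ y ∈ sameActionSubgroup G τ, x * y = y * x := fun x hx y hy => hB.comm hm x hx y hy
    have key : ∀ H : Subgroup (LinearMap.GeneralLinearGroup k M), (∀ x ∈ sameActionSubgroup G σ, ∀ y ∈ H, y * x = x * y) →
        (∀ x ∈ sameActionSubgroup G τ, ∀ y ∈ H, y * x = x * y) →
        sameActionSubgroup G σ ⊔ sameActionSubgroup G τ ≤ Subgroup.centralizer (H : Set (LinearMap.GeneralLinearGroup k M)) := by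
      intro H k1 k2
      apply sup_le
      · intro x hx; rw [Subgroup.mem_centralizer_iff]; exact fun y hy => k1 x hx y hy
      · intro x hx; rw [Subgroup.mem_centralizer_iff]; exact fun y hy => k2 x hx y hy
    apply key
    · intro x hx y hy
      have h7 := key (sameActionSubgroup G σ) (fun x hx y hy => (h5 y hy x hx)) (fun x hx y hy => by
        exact (Subgroup.mem_centralizer_iff.1 (h4 hx)) y hy)
      exact ((Subgroup.mem_centralizer_iff.1 (h7 hy)) x hx).symm
    · intro x hx y hy
      have h7 := key (sameActionSubgroup G τ) (fun x hx y hy => by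
        exact (Subgroup.mem_centralizer_iff.1 (h3 hx)) y hy) (fun x hx y hy => (h6 y hy x hx))
      exact ((Subgroup.mem_centralizer_iff.1 (h7 hy)) x hx).symm
  obtain ⟨a1, a2, a3, -, -, a6⟩ := QP.main68 hG.1 h2k hk3 hd hn hm hop hA hB hc
  exact ⟨a1, a2, a3, a6⟩

end Cfsg.Agent.S5066
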