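import Cfsg.Statements.S5067
import Cfsg.Agent.H3.InvA
import Cfsg.Agent.H28.RankOne

set_option autoImplicit false
open Cfsg Cfsg.Agent Cfsg.Agent.H3 Cfsg.Agent.H28

namespace Cfsg.Agent.S5067

universe u₀
theorem key : ∀ (n : ℕ) {P : Type u₀} [Group P] [Group.IsNilpotent P]
    {E F : Subgroup P} (_ : IsMulCommutative ↥E) (_ : IsMulCommutative ↥F) (_ : E ⊔ F = ⊤),
    Group.nilpotencyClass P ≤ n + 2 →
    Group.nilpotencyClass ↥(Subgroup.normalClosure (E : Set P)) ≤ n + 1 := by
  intro n
  induction n with
  | zero =>
    intro P _ _ E F hE hF hgen hc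
    rw [zero_add, Group.IsNilpotent.nilpotencyClass_le_one_iff]
    -- P / Z(P) is commutative
    have hq : Group.nilpotencyClass (P ⧸ Subgroup.center P) ≤ 1 := by
      rw [Group.nilpotencyClass_quotient_center]; omega
    rw [Group.IsNilpotent.nilpotencyClass_le_one_iff] at hq
    have hcomm : ∀ x y : P, x * y * x⁻¹ * y⁻¹ ∈ Subgroup.center P := by
      intro x y
      rw [← QuotientGroup.eq_one_iff]
      have := hq.is_comm.comm (x : P ⧸ Subgroup.center P) (y : P ⧸ Subgroup.center P)
      rw [QuotientGroup.mk_mul, QuotientGroup.mk_mul, QuotientGroup.mk_mul, this]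
      simp
    have hnorm : (E ⊔ Subgroup.center P).Normal := by
      refine ⟨fun x hx g => ?_⟩
      have h1 := hcomm g x
      have : g * x * g⁻¹ = (g * x * g⁻¹ * x⁻¹) * x := by group
      rw [this]
      exact mul_mem (Subgroup.mem_sup_right h1) hx
    have hle : Subgroup.normalClosure (E : Set P) ≤ E ⊔ Subgroup.center P :=
      Subgroup.normalClosure_le_normal (fun x hx => Subgroup.mem_sup_left hx)
    have hcc : ∀ x ∈ E ⊔ Subgroup.center P, ∀ y ∈ E ⊔ Subgroup.center P, x * y = y * x := by
      intro x hx y hy
      rw [Subgroup.mem_sup_of_normal_right] at hx hy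
      obtain ⟨a, ha, z, hz, rfl⟩ := hx
      obtain ⟨b, hb, w, hw, rfl⟩ := hy
      have h1 : a * b = b * a := congrArg Subtype.val (hE.is_comm.comm (⟨a, ha⟩ : E) ⟨b, hb⟩)
      have hz' := fun g => Subgroup.mem_center_iff.mp hz g
      have hw' := fun g => Subgroup.mem_center_iff.mp hw g
      calc a * z * (b * w) = a * (z * b) * w := by group
        _ = a * (b * z) * w := by rw [hz' b]
        _ = (a * b) * (z * w) := by group
        _ = (b * a) * (w * z) := by rw [h1, hw' z]
        _ = b * (a * w) * z := by group
        _ = b * (w * a) * z := by rw [hw' a]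
        _ = b * w * (a * z) := by group
    exact ⟨⟨fun x y => Subtype.ext (hcc x (hle x.2) y (hle y.2))⟩⟩
  | succ n ih =>
    intro P _ _ E F hE hF hgen hc
    have hq : Group.nilpotencyClass (P ⧸ Subgroup.center P) ≤ n + 2 := by
      rw [Group.nilpotencyClass_quotient_center]; omega
    let f := QuotientGroup.mk' (Subgroup.center P)
    have hfs : Function.Surjective f := QuotientGroup.mk'_surjective _
    have hE' : IsMulCommutative ↥(E.map f) := by
      refine ⟨⟨?_⟩⟩
      rintro ⟨_, x, hx, rfl⟩ ⟨_, y, hy, rfl⟩
      apply Subtype.ext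
      have h1 : x * y = y * x := congrArg Subtype.val (hE.is_comm.comm (⟨x, hx⟩ : E) ⟨y, hy⟩)
      show f x * f y = f y * f x
      rw [← map_mul, h1, map_mul]
    have hF' : IsMulCommutative ↥(F.map f) := by
      refine ⟨⟨?_⟩⟩
      rintro ⟨_, x, hx, rfl⟩ ⟨_, y, hy, rfl⟩
      apply Subtype.ext
      have h1 : x * y = y * x := congrArg Subtype.val (hF.is_comm.comm (⟨x, hx⟩ : F) ⟨y, hy⟩)
      show f x * f y = f y * f x
      rw [← map_mul, h1, map_mul]
    have hgen' : E.map f ⊔ F.map f = ⊤ := by
      rw [← Subgroup.map_sup, hgen, ← MonoidHom.range_eq_map]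
      exact MonoidHom.range_eq_top.mpr hfs
    have h := ih hE' hF' hgen' hq
    have hmap : (Subgroup.normalClosure (E : Set P)).map f ≤ Subgroup.normalClosure ((E.map f : Subgroup _) : Set (P ⧸ Subgroup.center P)) := by
      rw [Subgroup.map_le_iff_le_comap]
      haveI : (Subgroup.comap f (Subgroup.normalClosure ((E.map f : Subgroup _) : Set (P ⧸ Subgroup.center P)))).Normal := inferInstance
      apply Subgroup.normalClosure_le_normal
      intro x hx
      exact Subgroup.subset_normalClosure ⟨x, hx, rfl⟩
    let g : ↥(Subgroup.normalClosure (E : Set P)) →*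
        ↥(Subgroup.normalClosure ((E.map f : Subgroup _) : Set (P ⧸ Subgroup.center P))) :=
      { toFun := fun x => ⟨f x, hmap ⟨x, x.2, rfl⟩⟩
        map_one' := Subtype.ext (by simp)
        map_mul' := fun x y => Subtype.ext (by
          show f ((x : P) * (y : P)) = f x * f y
          exact map_mul f _ _) }
    have hg : g.ker ≤ Subgroup.center _ := by
      intro x hx
      rw [MonoidHom.mem_ker] at hx
      have h1 : f x = 1 := congrArg Subtype.val hx
      have h2 : (x : P) ∈ Subgroup.center P := (QuotientGroup.eq_one_iff (x : P)).mp h1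
      rw [Subgroup.mem_center_iff] at h2 ⊢
      intro y
      exact Subtype.ext (h2 y)
    have := Group.nilpotencyClass_le_of_ker_le_center g hg
    omega

/-- Let P be a non-abelian nilpotent p-group (every element of p-power order; P possibly infinite) generated by two abelian subgroups E and F. Then the normal closure of E in P, and likewise that of F, has nilpotency class strictly smaller than that of P. -/
theorem result {P : Type*} [Group P] {p : ℕ} [Fact p.Prime] (hP : IsPGroup p P) [Group.IsNilpotent P]
    (hna : ¬ IsMulCommutative P) {E F : Subgroup P} (hE : IsMulCommutative ↥E) (hF : IsMulCommutative ↥F) (hgen : E ⊔ F = ⊤) :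
    Group.nilpotencyClass ↥(Subgroup.normalClosure (E : Set P)) < Group.nilpotencyClass P ∧
    Group.nilpotencyClass ↥(Subgroup.normalClosure (F : Set P)) < Group.nilpotencyClass P := by

  have hc : 1 < Group.nilpotencyClass P := by
    by_contra h
    apply hna
    rw [← Group.IsNilpotent.nilpotencyClass_le_one_iff]
    omega
  obtain ⟨n, hn⟩ : ∃ n, Group.nilpotencyClass P = n + 2 := ⟨Group.nilpotencyClass P - 2, by omega⟩
  have h1 := key n hE hF hgen (by omega)
  have h2 := key n hF hE (by rw [sup_comm]; exact hgen) (by omega)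
  omega

end Cfsg.Agent.S5067
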