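import Cfsg.Statements.S5069
import Cfsg.Agent.H3.QPComp
import Cfsg.Agent.H28.RankOne

set_option autoImplicit false
universe u
open Cfsg Cfsg.Agent Cfsg.Agent.H3 Cfsg.Agent.H28

namespace Cfsg.Agent.S5069

/-- Let k be a field of characteristic not 2 with k not of order 3, M a finite-dimensional k-vector space and G ≤ GL(M) such that (G, M) is a quadratic pair (M irreducible for G, and G generated by its quadratically acting elements σ whose scalar family 1 + c(σ − 1), c ∈ k, lies in G). Write 𝒬_d for the quadratic elements of G of minimal commutator rank, E(σ) for the subgroup generated by the members of 𝒬_d with the same fixed space and commutator space as σ, and Σ for the set of these subgroups. Then Σ is a disjoint union of finitely many parts Σ₁, …, Σ_r such that the subgroups G_i generated by the Σ_i commute pairwise, each G_i is quasisimple, and inside G_i the members of Σ_i form a class of abstract root subgroups in which every rank one pair A, B contains subgroups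 A₀ ≤ A, B₀ ≤ B generating an image of SL₂(k₁) with central kernel on unitriangular subgroups for some field k₁ with at least four elements. -/
theorem result {k : Type u} [Field k] (hk2 : ringChar k ≠ 2) (hk3 : Nat.card k ≠ 3)
    {M : Type u} [AddCommGroup M] [Module k M] [FiniteDimensional k M]
    {G : Subgroup (LinearMap.GeneralLinearGroup k M)} (hG : Cfsg.IsQuadraticPair G) :
    ∃ (r : ℕ) (part : Fin r → Set (Subgroup (LinearMap.GeneralLinearGroup k M))),
      (⋃ i, part i) = Cfsg.quadraticRootSubgroups G ∧ (∀ i j, i ≠ j → Disjoint (part i) (part j)) ∧ (∀ i, (part i).Nonempty) ∧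
      (∀ i j, i ≠ j → ⁅(⨆ A ∈ part i, A), (⨆ A ∈ part j, A)⁆ = ⊥) ∧
      (∀ i, Cfsg.IsQuasisimple ↥(⨆ A ∈ part i, A) ∧
        Cfsg.IsRootSubgroupClass ((fun A : Subgroup (LinearMap.GeneralLinearGroup k M) => A.subgroupOf (⨆ B ∈ part i, B)) '' (part i)) ∧
        ∀ A ∈ part i, ∀ B ∈ Cfsg.rankOnePartners (part i) A, ∃ A₀ B₀ : Subgroup (LinearMap.GeneralLinearGroup k M), A₀ ≤ A ∧ B₀ ≤ B ∧
          ∃ (k₁ : Type u) (_ : Field k₁), 3 < ENat.card k₁ ∧ Cfsg.IsPSL2PairOver k₁ A₀ B₀) := by
  classical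
  have h2k := QP.two_ne hk2
  by_cases hS : (quadraticRootSubgroups G).Nonempty
  swap
  · rw [Set.not_nonempty_iff_eq_empty] at hS
    refine ⟨0, fun i => Fin.elim0 i, ?_, fun i => Fin.elim0 i, fun i => Fin.elim0 i, fun i => Fin.elim0 i, fun i => Fin.elim0 i⟩
    rw [hS, Set.iUnion_eq_empty]
    exact fun i => Fin.elim0 i
  obtain ⟨E, hE⟩ := hS
  have hE' := hE
  obtain ⟨σ, hσ, -⟩ := hE'
  have hd := QP.QD.of hσ
  have hfin := QP.Cp_finite hG.1 h2k hk3 hd
  let F := hfin.toFinset
  let eqv := F.equivFin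
  have hrep : ∀ i, ∃ A ∈ quadraticRootSubgroups G, QP.Cp G A = (eqv.symm i).1 := fun i =>
    hfin.mem_toFinset.1 (eqv.symm i).2
  choose a ha ha' using hrep
  have hinj : ∀ i j, i ≠ j → QP.Cp G (a i) ≠ QP.Cp G (a j) := by
    intro i j hij h
    apply hij
    apply eqv.symm.injective
    apply Subtype.ext
    rw [← ha', ← ha', h]
  refine ⟨F.card, fun i => QP.Cp G (a i), ?_, ?_, ?_, ?_, ?_⟩
  · ext A
    rw [Set.mem_iUnion]
    constructor
    · rintro ⟨i, hi⟩; exact hi.1
    · intro hA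
      have h1 : QP.Cp G A ∈ F := hfin.mem_toFinset.2 ⟨A, hA, rfl⟩
      refine ⟨eqv ⟨_, h1⟩, ?_⟩
      have h2 := ha' (eqv ⟨_, h1⟩)
      rw [Equiv.symm_apply_apply] at h2
      change A ∈ QP.Cp G (a (eqv ⟨_, h1⟩))
      rw [h2]
      exact QP.Cp_self hA
  · intro i j hij
    rw [Set.disjoint_left]
    intro A hA hB
    exact hinj i j hij ((QP.Cp_eq hA).symm.trans (QP.Cp_eq hB))
  · intro i
    exact ⟨_, QP.Cp_self (ha i)⟩
  · intro i j hij
    apply QP.comm_bot
    intro x hx y hy
    exact QP.Cp_commute hG.1 h2k hk3 hd (hinj i j hij) hx hy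
  · intro i
    have hgc := QP.Cp_GC hG.1 h2k hk3 hd (ha i)
    refine ⟨hgc.quasisimple h2k hk3 hd, ⟨?_, ?_, ?_⟩, ?_⟩
    · apply QP.rootSet_transfer
      · intro A hA
        obtain ⟨n, hn, hA'⟩ := QP.sigma_data hd hA.1
        exact hA'.mulComm hn
      · intro A hA
        obtain ⟨n, hn, hA'⟩ := QP.sigma_data hd hA.1
        exact hA'.ne_bot hn
      · exact hgc.conj
      · intro A hA B hB
        rcases QP.sigma_pair hG.1 h2k hk3 hd hA.1 hB.1 with h | h | h
        · exact Or.inl h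
        · exact Or.inr (Or.inl h)
        · by_cases h1 : ⁅A, B⁆ = ⊥
          · exact Or.inl h1
          by_cases h2 : IsRankOnePair A B
          · exact Or.inr (Or.inl h2)
          · exact Or.inr (Or.inr ⟨hgc.comm A hA B hB h1 h2, h.2⟩)
    · exact ⟨_, _, QP.Cp_self (ha i), rfl⟩
    · rintro _ ⟨A, hA, rfl⟩ _ ⟨B, hB, rfl⟩
      obtain ⟨g, hg, rfl⟩ := QP.Cp_trans hA hB
      exact ⟨⟨g, hg⟩, (QP.conjBy_sub ⟨g, hg⟩).symm⟩
    · intro A hA B hB
      obtain ⟨n, hn, hA'⟩ := QP.sigma_data hd hA.1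
      obtain ⟨m, hm, hB'⟩ := QP.sigma_data hd hB.1.1
      exact QP.sl2_sub h2k hk3 hd.min hn hm hA' hB' (QP.op_of_ro h2k hk3 hd.min hn hm hA' hB' hB.2)

end Cfsg.Agent.S5069
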