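import Cfsg.Statements.S5079
import Cfsg.Agent.H28.FusSat2

set_option autoImplicit false
open Cfsg

namespace Cfsg.Agent.S5079

/-- In any fusion system over a finite p-group S: if P is fully automized and receptive and Q is conjugate to P in the system, then there is a map of the system with source N_S(Q) and values in N_S(P) carrying Q onto P. -/
theorem result {Ω : Type*} [Group Ω] {S : Subgroup Ω} [Finite S] (p : ℕ) [Fact p.Prime] (hS : IsPGroup p S) (F : Cfsg.FusionSystem S) (P Q : Subgroup Ω) (h₁ : F.IsFullyAutomized p P) (h₂ : F.IsReceptive P) (hQ : F.IsConj Q P) : ∃ φ ∈ F.Hom (Cfsg.FusionSystem.normalizerIn S Q), (∀ x, φ x ∈ Cfsg.FusionSystem.normalizerIn S P) ∧ (Q.subgroupOf (Cfsg.FusionSystem.normalizerIn S Q)).map φ = P := by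
  obtain ⟨g, ⟨φ, hφ, hφg⟩, rfl⟩ := H28.exists_normalizer_map hS h₁ h₂ hQ
  have hQS : Q ≤ S := H28.isConj_le (H28.isConj_symm hQ)
  have hle := H28.img_normalizerIn_le (F := F) ⟨φ, hφ, hφg⟩ hQS
  refine ⟨φ, hφ, fun x => ?_, ?_⟩
  · rw [hφg]; exact hle (H28.mem_img_of_mem x.2)
  · have hm : H28.Mor F (Cfsg.FusionSystem.normalizerIn S Q) g := ⟨φ, hφ, hφg⟩
    ext y
    rw [(hm.mono (H28.le_normalizerIn hQS)).mem_img]
    constructor
    · rintro ⟨x, hx, rfl⟩
      exact ⟨x, hx, (hφg x).symm⟩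
    · rintro ⟨x, hx, rfl⟩
      exact ⟨⟨x, H28.le_normalizerIn hQS hx⟩, hx, hφg _⟩
end Cfsg.Agent.S5079
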