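import Cfsg.Statements.S5083
import Cfsg.Agent.H28.FusAlperin

set_option autoImplicit false
open Cfsg

namespace Cfsg.Agent.S5083

/-- If F is a saturated fusion system over a finite p-group S in which Aut_F(P) is a p-group for every P ≤ S, then F is the inner fusion system of S (all its maps are conjugations by elements of S). -/
theorem result {Ω : Type*} [Group Ω] {S : Subgroup Ω} [Finite S] (p : ℕ) [Fact p.Prime] (hS : IsPGroup p S) (F : Cfsg.FusionSystem S) (hF : F.IsSaturated p) (h : ∀ P : Subgroup Ω, P ≤ S → IsPGroup p (F.autGroup P)) : F = Cfsg.innerFusionSystem S := by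
  open Cfsg.Agent.H28 Cfsg.FusionSystem in
  apply fs_le_antisymm
  · apply alperin hS hF
    rintro P (rfl | hP)
    · intro α hα
      have hfa : F.IsFullyAutomized p P := FN.fa hS hF fullyNormalized_top
      have h1 := (fullyAutomized_iff hS).1 hfa
      have h2 := h1.2 (F.autGroup P) le_rfl (h P le_rfl) (autInducedBy_le le_rfl le_rfl) hα
      obtain ⟨g, hg, h3⟩ := mem_autInducedBy.1 h2
      apply Subgroup.subset_closure
      exact ⟨le_rfl, g, hg, h3⟩
    · exfalso
      obtain ⟨hPc, hPn, hn, E, hE⟩ := hP
      have hPfin : Finite P := finite_of_le hPc.1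
      have hcore := pCore_eq_bot_of_stronglyPEmbedded hE
      have hAp := h P hPc.1
      have htop : pCore p (F.autGroup P ⧸ (Cfsg.Inn P).subgroupOf (F.autGroup P)) = ⊤ := by
        rw [eq_top_iff]
        apply le_pCore
        · infer_instance
        · have h1 : IsPGroup p (F.autGroup P ⧸ (Cfsg.Inn P).subgroupOf (F.autGroup P)) :=
            hAp.to_quotient _
          rintro ⟨x, hx⟩
          obtain ⟨k, hk⟩ := h1 x
          exact ⟨k, Subtype.ext hk⟩
      rw [hcore] at htop
      have hdvd := hE.1
      have hsub : Subsingleton (F.autGroup P ⧸ (Cfsg.Inn P).subgroupOf (F.autGroup P)) :=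
        ⟨fun a b => by
          have ha : a ∈ (⊥ : Subgroup (F.autGroup P ⧸ (Cfsg.Inn P).subgroupOf (F.autGroup P))) := by
            rw [htop]; trivial
          have hb : b ∈ (⊥ : Subgroup (F.autGroup P ⧸ (Cfsg.Inn P).subgroupOf (F.autGroup P))) := by
            rw [htop]; trivial
          rw [Subgroup.mem_bot.1 ha, Subgroup.mem_bot.1 hb]⟩
      rw [Nat.card_unique] at hdvd
      exact (Fact.out : p.Prime).one_lt.ne' (Nat.dvd_one.1 hdvd)
  · rintro P φ ⟨hP, g, hg, h1⟩
    exact (mor_conj hP hg).mem_Hom h1
end Cfsg.Agent.S5083
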