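import Cfsg.Statements.S5088
import Cfsg.Agent.H28.FusNormal2

set_option autoImplicit false
open Cfsg

namespace Cfsg.Agent.S5088

/-- In a saturated fusion system over a finite p-group, a subgroup Q is normal in the system if and only if there is a chain of subgroups 1 = Q₀ ≤ Q₁ ≤ ⋯ ≤ Qₙ = Q such that each Qᵢ with i ≥ 1 is strongly closed in the system and [Q, Qᵢ] ≤ Qᵢ₋₁. -/
theorem result {Ω : Type*} [Group Ω] {S : Subgroup Ω} [Finite S] (p : ℕ) [Fact p.Prime] (hS : IsPGroup p S) (F : Cfsg.FusionSystem S) (hF : F.IsSaturated p) (Q : Subgroup Ω) : F.IsNormal Q ↔ ∃ (n : ℕ) (Qs : Fin (n + 1) → Subgroup Ω), Qs 0 = ⊥ ∧ Qs (Fin.last n) = Q ∧ Monotone Qs ∧ ∀ i : Fin n, F.StronglyClosed (Qs i.succ) ∧ ⁅Q, Qs i.succ⁆ ≤ Qs (Fin.castSucc i) := by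
  open Cfsg.Agent.H28 in
  constructor
  · intro hQ
    have hQS := hQ.1
    have : Finite Q := finite_of_le hQS
    obtain ⟨n, hn⟩ := exists_lcs_eq_bot (hS.to_le hQS)
    refine ⟨n, fun i => Q.lowerCentralSeries (n - i), by simpa using hn, by simp, ?_, ?_⟩
    · intro i j hij
      apply Q.lowerCentralSeries_antitone
      have : (i : ℕ) ≤ j := hij
      omega
    · intro i
      refine ⟨normal_stronglyClosed (normal_of_characteristic hQ
        (Q.lowerCentralSeries_le_self _) (lcs_characteristic Q _)), ?_⟩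
      rw [Subgroup.commutator_comm]
      have h1 : n - (Fin.castSucc i : ℕ) = n - (Fin.succ i : ℕ) + 1 := by
        have := i.2
        simp only [Fin.val_castSucc, Fin.val_succ]
        omega
      show ⁅Q.lowerCentralSeries (n - (Fin.succ i : ℕ)), Q⁆ ≤
        Q.lowerCentralSeries (n - (Fin.castSucc i : ℕ))
      rw [h1, Subgroup.lowerCentralSeries_succ]
  · rintro ⟨n, Qs, h0, hn, -, h⟩
    refine normal_of_series hS hF n (fun j => if hj : j < n + 1 then Qs ⟨j, hj⟩ else ⊥)
      ?_ ?_ ?_ ?_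
    · simpa using h0
    · have h1 : n < n + 1 := by omega
      rw [dif_pos h1]
      exact hn
    · intro i hi
      have := (h ⟨i, hi⟩).1
      simpa [hi] using this
    · intro i hi
      have := (h ⟨i, hi⟩).2
      have h2 : i < n + 1 := by omega
      simpa [hi, h2] using this
end Cfsg.Agent.S5088
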