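import Cfsg.Statements.S5089
import Cfsg.Agent.H28.FusNormal2

set_option autoImplicit false
open Cfsg

namespace Cfsg.Agent.S5089

/-- A saturated fusion system over a finite p-group has a nontrivial subgroup that is normal in the system (O_p(F) ≠ 1) if and only if some nontrivial abelian subgroup is strongly closed in the system. -/
theorem result {Ω : Type*} [Group Ω] {S : Subgroup Ω} [Finite S] (p : ℕ) [Fact p.Prime] (hS : IsPGroup p S) (F : Cfsg.FusionSystem S) (hF : F.IsSaturated p) : F.core ≠ ⊥ ↔ ∃ Q : Subgroup Ω, Q ≠ ⊥ ∧ IsMulCommutative Q ∧ F.StronglyClosed Q := by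
  open Cfsg.Agent.H28 in
  constructor
  · intro h
    have hc : F.IsNormal F.core := core_normal
    have hfin : Finite F.core := finite_of_le hc.1
    have hp : IsPGroup p F.core := hS.to_le hc.1
    set Z : Subgroup Ω := (Subgroup.center F.core).map F.core.subtype with hZ
    have hZle : Z ≤ F.core := Subgroup.map_subtype_le _
    have hZs : Z.subgroupOf F.core = Subgroup.center F.core := by
      rw [hZ]
      exact Subgroup.comap_map_eq_self_of_injective F.core.subtype_injective _
    have hchar : (Z.subgroupOf F.core).Characteristic := by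
      rw [hZs]; infer_instance
    refine ⟨Z, ?_, ?_, normal_stronglyClosed (normal_of_characteristic hc hZle hchar)⟩
    · intro hb
      have hnt : Nontrivial F.core := (Subgroup.nontrivial_iff_ne_bot _).2 h
      have h2 := hp.center_nontrivial
      rw [hZ, Subgroup.map_eq_bot_iff_of_injective _ F.core.subtype_injective] at hb
      rw [hb] at h2
      exact (not_nontrivial _ h2)
    · refine ⟨⟨?_⟩⟩
      rintro ⟨a, ha⟩ ⟨b, hb⟩
      obtain ⟨a', ha', rfl⟩ := ha
      obtain ⟨b', hb', rfl⟩ := hb
      apply Subtype.ext
      have h5 := congrArg Subtype.val (Subgroup.mem_center_iff.1 ha' b').symm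
      exact h5
  · rintro ⟨Q, hQ, hab, hsc⟩ hcore
    apply hQ
    rw [eq_bot_iff, ← hcore]
    exact le_core (normal_of_sc_abelian hS hF hsc hab)
end Cfsg.Agent.S5089
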