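import Cfsg.Statements.S5094
import Cfsg.Agent.H4.ZStar2

set_option autoImplicit false
open Cfsg

namespace Cfsg.Agent.S5094

/-- Glauberman's Z*-Theorem in fusion language: for a finite group G with Sylow 2-subgroup S, the centre of the fusion system of G on S is the set of elements of S whose image in G/O(G) is central, O(G) being the largest normal subgroup of odd order. -/
theorem result {G : Type*} [Group G] [Finite G] (S : Sylow 2 G) : (Cfsg.groupFusionSystem (S : Subgroup G)).center = (S : Subgroup G) ⊓ (Subgroup.center (G ⧸ Cfsg.oddCore G)).comap (QuotientGroup.mk' (Cfsg.oddCore G)) := by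
  haveI : Fact (Nat.Prime 2) := ⟨Nat.prime_two⟩
  haveI hnorm : (oddCore G).Normal := Cfsg.Agent.H1.pPrimeCore_normal 2 G
  have hSO : ∀ x ∈ (S : Subgroup G), x ∈ oddCore G → x = 1 := by
    intro x hxS hxO
    obtain ⟨k, hk⟩ := H4.mem_of_isPGroup_pow S.2 hxS
    apply H4.isPGroup_odd_eq_one hk
    have h1 : orderOf (⟨x, hxO⟩ : oddCore G) ∣ Nat.card (oddCore G) := orderOf_dvd_natCard _
    rw [Subgroup.orderOf_mk] at h1
    exact Odd.of_dvd_nat (H4.oddCore_odd G) h1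
  have hcen : ∀ x : G, (QuotientGroup.mk' (oddCore G) x) ∈ Subgroup.center (G ⧸ oddCore G) ↔
      ∀ g : G, g * x * g⁻¹ * x⁻¹ ∈ oddCore G := by
    intro x
    rw [Subgroup.mem_center_iff]
    constructor
    · intro h g
      have h1 := h (QuotientGroup.mk' (oddCore G) g)
      rw [← map_mul, ← map_mul] at h1
      have h2 : (QuotientGroup.mk' (oddCore G)) (g * x * g⁻¹ * x⁻¹) = 1 := by
        have e : g * x * g⁻¹ * x⁻¹ = (g * x) * (x * g)⁻¹ := by group
        rw [e, map_mul, map_inv, h1, mul_inv_cancel]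
      exact (QuotientGroup.eq_one_iff _).1 h2
    · intro h q
      obtain ⟨g, rfl⟩ := QuotientGroup.mk'_surjective _ q
      have h2 : (QuotientGroup.mk' (oddCore G)) (g * x * g⁻¹ * x⁻¹) = 1 := (QuotientGroup.eq_one_iff _).2 (h g)
      have h3 : g * x = (g * x * g⁻¹ * x⁻¹) * (x * g) := by group
      rw [← map_mul, h3, map_mul, h2, one_mul, map_mul]
  apply le_antisymm
  · apply sSup_le
    rintro Q ⟨hQS, hQ⟩ x hx
    have hxS := hQS hx
    refine Subgroup.mem_inf.2 ⟨hxS, ?_⟩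
    rw [Subgroup.mem_comap, hcen]
    have hiso : ∀ g : G, g * x * g⁻¹ ∈ (S : Subgroup G) → g * x * g⁻¹ = x := by
      intro g hg
      have hφ : conjHom (Subgroup.zpowers x) g ∈ (groupFusionSystem (S : Subgroup G)).Hom (Subgroup.zpowers x) := by
        refine ⟨by rw [Subgroup.zpowers_le]; exact hxS, ?_, g, fun _ => rfl⟩
        rintro ⟨y, hy⟩
        obtain ⟨k, rfl⟩ := Subgroup.mem_zpowers_iff.1 hy
        show g * x ^ k * g⁻¹ ∈ (S : Subgroup G)
        rw [← conj_zpow]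
        exact zpow_mem hg k
      obtain ⟨ψ, -, h1, h2⟩ := hQ _ _ hφ
      have h3 := h1 ⟨x, Subgroup.mem_zpowers x⟩
      have h4 := h2 ⟨x, hx⟩
      have h5 : (Subgroup.inclusion (le_sup_left : Subgroup.zpowers x ≤ Subgroup.zpowers x ⊔ Q) ⟨x, Subgroup.mem_zpowers x⟩) =
        (Subgroup.inclusion (le_sup_right : Q ≤ Subgroup.zpowers x ⊔ Q) ⟨x, hx⟩) := rfl
      rw [h5] at h3
      exact h3.symm.trans h4
    intro g
    have h1 := H4.zstar_elt S hxS hiso g
    have h2 : g * x * g⁻¹ * x⁻¹ = (x * g * x⁻¹ * g⁻¹)⁻¹ := by group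
    rw [h2]; exact inv_mem h1
  · apply le_sSup
    refine ⟨inf_le_left, ?_⟩
    rintro P φ ⟨hPS, hφS, g, hg⟩
    set Z := (S : Subgroup G) ⊓ (Subgroup.center (G ⧸ oddCore G)).comap (QuotientGroup.mk' (oddCore G)) with hZ
    have hZc : ∀ z ∈ Z, ∀ g : G, g * z * g⁻¹ * z⁻¹ ∈ oddCore G := by
      intro z hz
      exact (hcen z).1 hz.2
    have hsyl : Cfsg.Agent.H23.IsSylowOf 2 (S : Subgroup G) ((S : Subgroup G) ⊔ oddCore G) :=
      Cfsg.Agent.H19.IsSylowOf.mono (H4.isSylowOf_sylow S) le_sup_left le_top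
    have hR : (P ⊔ Z).map (MulAut.conj g).toMonoidHom ≤ (S : Subgroup G) ⊔ oddCore G := by
      rw [Subgroup.map_sup]
      apply sup_le
      · rintro _ ⟨x, hx, rfl⟩
        apply Subgroup.mem_sup_left
        have := hφS ⟨x, hx⟩
        rw [hg] at this
        exact this
      · rintro _ ⟨x, hx, rfl⟩
        show g * x * g⁻¹ ∈ _
        have h1 : g * x * g⁻¹ = (g * x * g⁻¹ * x⁻¹) * x := by group
        rw [h1]
        exact mul_mem (Subgroup.mem_sup_right (hZc x hx g)) (Subgroup.mem_sup_left hx.1)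
    have hPZ : P ⊔ Z ≤ (S : Subgroup G) := sup_le hPS inf_le_left
    obtain ⟨l, hl, hlR⟩ := Cfsg.Agent.H19.IsSylowOf.exists_conj_le hsyl hR ((S.2.to_le hPZ).map _)
    rw [Subgroup.mem_sup_of_normal_right] at hl
    obtain ⟨s, hs, o, ho, rfl⟩ := hl
    have hoR : ∀ y ∈ P ⊔ Z, o * (g * y * g⁻¹) * o⁻¹ ∈ (S : Subgroup G) := by
      intro y hy
      have h1 : (s * o) * (g * y * g⁻¹) * (s * o)⁻¹ ∈ (S : Subgroup G) := by
        apply hlR
        rw [Cfsg.Agent.H1.mem_conj_smul]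
        have : (s * o)⁻¹ * (s * o * (g * y * g⁻¹) * (s * o)⁻¹) * (s * o) = g * y * g⁻¹ := by group
        rw [this]
        exact ⟨y, hy, rfl⟩
      have h2 : o * (g * y * g⁻¹) * o⁻¹ = s⁻¹ * ((s * o) * (g * y * g⁻¹) * (s * o)⁻¹) * s := by group
      rw [h2]
      exact mul_mem (mul_mem (inv_mem hs) h1) hs
    have hfix1 : ∀ y ∈ P, o * (g * y * g⁻¹) * o⁻¹ = g * y * g⁻¹ := by
      intro y hy
      have h1 := hoR y (Subgroup.mem_sup_left hy)
      have h2 : g * y * g⁻¹ ∈ (S : Subgroup G) := by have := hφS ⟨y, hy⟩; rw [hg] at this; exact this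
      have h3 : o * (g * y * g⁻¹) * o⁻¹ * (g * y * g⁻¹)⁻¹ = 1 := by
        apply hSO _ (mul_mem h1 (inv_mem h2))
        have : o * (g * y * g⁻¹) * o⁻¹ * (g * y * g⁻¹)⁻¹ = o * ((g * y * g⁻¹) * o⁻¹ * (g * y * g⁻¹)⁻¹) := by group
        rw [this]
        exact mul_mem ho (hnorm.conj_mem _ (inv_mem ho) _)
      exact mul_inv_eq_one.1 h3
    have hfix2 : ∀ z ∈ Z, o * (g * z * g⁻¹) * o⁻¹ = z := by
      intro z hz
      have h1 := hoR z (Subgroup.mem_sup_right hz)
      have h3 : o * (g * z * g⁻¹) * o⁻¹ * z⁻¹ = 1 := by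
        apply hSO _ (mul_mem h1 (inv_mem hz.1))
        have : o * (g * z * g⁻¹) * o⁻¹ * z⁻¹ = (o * g) * z * (o * g)⁻¹ * z⁻¹ := by group
        rw [this]
        exact hZc z hz (o * g)
      exact mul_inv_eq_one.1 h3
    refine ⟨conjHom (P ⊔ Z) (o * g), ⟨hPZ, ?_, o * g, fun _ => rfl⟩, ?_, ?_⟩
    · rintro ⟨y, hy⟩
      have h1 := hoR y hy
      show (o * g) * y * (o * g)⁻¹ ∈ (S : Subgroup G)
      have : (o * g) * y * (o * g)⁻¹ = o * (g * y * g⁻¹) * o⁻¹ := by group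
      rw [this]; exact h1
    · rintro ⟨y, hy⟩
      rw [hg]
      show (o * g) * y * (o * g)⁻¹ = g * y * g⁻¹
      rw [← hfix1 y hy]; group
    · rintro ⟨z, hz⟩
      show (o * g) * z * (o * g)⁻¹ = z
      have e : (o * g) * z * (o * g)⁻¹ = o * (g * z * g⁻¹) * o⁻¹ := by group
      rw [e]; exact hfix2 z hz

end Cfsg.Agent.S5094
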