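import Cfsg.Statements.S5102
import Cfsg.Agent.H28.FusGroup

set_option autoImplicit false
open Cfsg

namespace Cfsg.Agent.S5102

/-- A normal p-subgroup of a finite group G is normal in the fusion system of G on a Sylow p-subgroup. -/
theorem result {G : Type*} [Group G] [Finite G] (p : ℕ) [Fact p.Prime] (S : Sylow p G) (R : Subgroup G) [R.Normal] (hR : IsPGroup p R) : (Cfsg.groupFusionSystem (S : Subgroup G)).IsNormal R := by
  open Cfsg.Agent.H28 in
  have hRS : R ≤ S := normal_pGroup_le_sylow ‹_› hR S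
  rw [isNormal_iff]
  refine ⟨hRS, fun P f hf => ?_⟩
  obtain ⟨hP, hfS, g, hg⟩ := mor_group.1 hf
  refine ⟨fun x => g * x * g⁻¹, mor_group_conj (sup_le hP hRS) ?_, fun x hx => (hg x hx).symm, ?_⟩
  · intro x hx
    have h1 : (P ⊔ R).map (MulAut.conj g).toMonoidHom ≤ S := by
      rw [Subgroup.map_sup]
      apply sup_le
      · rintro _ ⟨y, hy, rfl⟩
        have := hfS y hy
        rw [hg y hy] at this
        exact this
      · rintro _ ⟨y, hy, rfl⟩
        exact hRS (‹R.Normal›.conj_mem y hy g)
    exact h1 ⟨x, hx, rfl⟩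
  · rw [img_conj]
    ext y
    constructor
    · rintro ⟨z, hz, rfl⟩
      exact ‹R.Normal›.conj_mem z hz g
    · intro hy
      refine ⟨g⁻¹ * y * g, ?_, by simp [mul_assoc]⟩
      have := ‹R.Normal›.conj_mem y hy g⁻¹
      simpa using this
end Cfsg.Agent.S5102
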