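import Cfsg.Statements.S5105
import Cfsg.Agent.H28.Model4

set_option autoImplicit false
open Cfsg

namespace Cfsg.Agent.S5105

open Cfsg.FusionSystem Cfsg.Agent.H28
open scoped IsMulCommutative

/-- Model Theorem, rigidity: if G is a model of a constrained fusion system over a finite p-group S (through ι : S → G), then every automorphism of G fixing ι(S) elementwise is conjugation by ι(z) for some z in the centre of S. -/
theorem result {Ω : Type*} [Group Ω] {S : Subgroup Ω} [Finite S] (p : ℕ) [Fact p.Prime] (hS : IsPGroup p S) (F : Cfsg.FusionSystem S) (hF : F.IsConstrained p) {G : Type*} [Group G] (ι : S →* G) (hG : F.IsModel p G ι) (ψ : G ≃* G) (hψ : ∀ x : S, ψ (ι x) = ι x) : ∃ z : S, z ∈ Subgroup.center S ∧ ∀ g : G, ψ g = ι z * g * (ι z)⁻¹ := by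
  classical
  obtain ⟨hsat, Q, hQ, hc⟩ := hF
  have hN := normal_normalizer hQ
  have hQS : Q ≤ S := centric_le hc
  haveI : Finite Q := finite_of_le hQS
  obtain ⟨τ, hτ, hτ'⟩ : ∃ τ : G →* F.autGroup Q, MExt (piF F hQS hN)
      (Subgroup.inclusion hQS) (F.autGroup Q).subtype ι τ ∧
      ∀ g, ∀ q ∈ Q, tf ι (autFun (τ g : MulAut Q) q) = g * tf ι q * g⁻¹ := model_mext hG hQ hc
  haveI : Finite G := hG.1
  have hr : F.IsRealizedBy ι := hG.2.1
  have hj : Function.Injective ι := hr.1
  -- the cocycle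
  have hu : ∀ g : G, ∃ z : Subgroup.center Q, ψ g * g⁻¹ = ι (Subgroup.inclusion hQS z) := by
    intro g
    have h1 : ∀ q ∈ Q, ψ g * g⁻¹ * tf ι q = tf ι q * (ψ g * g⁻¹) := by
      intro q hq
      obtain ⟨y, hy, h2⟩ := model_normal hG hQ g⁻¹ hq
      rw [inv_inv] at h2
      have h3 : ψ g * tf ι y * (ψ g)⁻¹ = tf ι q := by
        have h4 : g * tf ι y * g⁻¹ = tf ι q := by rw [← h2]; group
        have h5 := congrArg ψ h4
        rw [map_mul, map_mul, map_inv, tf_apply ι (hQS hy), tf_apply ι (hQS hq), hψ, hψ] at h5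
        rw [tf_apply ι (hQS hy), tf_apply ι (hQS hq)]
        exact h5
      calc ψ g * g⁻¹ * tf ι q = ψ g * (g⁻¹ * tf ι q * g) * g⁻¹ := by group
        _ = ψ g * tf ι y * g⁻¹ := by rw [h2]
        _ = (ψ g * tf ι y * (ψ g)⁻¹) * (ψ g * g⁻¹) := by group
        _ = _ := by rw [h3]
    obtain ⟨z, hz, h2⟩ := model_centralizer hG hQ hc _ h1
    refine ⟨⟨⟨z, hz⟩, ?_⟩, ?_⟩
    · rw [Subgroup.mem_center_iff]
      intro q
      apply Subtype.ext
      apply tf_inj hj (mul_mem (hQS q.2) (hQS hz)) (mul_mem (hQS hz) (hQS q.2))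
      show tf ι ((q : Ω) * z) = tf ι (z * (q : Ω))
      rw [tf_mul (hQS q.2) (hQS hz), tf_mul (hQS hz) (hQS q.2)]
      have h3 := h1 q q.2
      rw [← h2] at h3
      exact h3.symm
    · exact h2.symm.trans (tf_apply ι (hQS hz))
  choose u hu using hu
  have hij : Function.Injective (fun z : Subgroup.center Q => ι (Subgroup.inclusion hQS z)) := by
    intro a b hab
    exact Subtype.ext (Subgroup.inclusion_injective hQS (hj hab))
  have hconj : ∀ (g : G) (z : Subgroup.center Q), g * ι (Subgroup.inclusion hQS z) * g⁻¹ =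
      ι (Subgroup.inclusion hQS (Subgroup.centerCongr (τ g : MulAut Q) z : Subgroup.center Q)) :=
    fun g z => hτ.conj g z
  have hucoc : ∀ g h : G, u (g * h) = u g * Subgroup.centerCongr (τ g : MulAut Q) (u h) := by
    intro g h
    apply hij
    show ι (Subgroup.inclusion hQS (u (g * h))) = _
    rw [← hu]
    have e : ι (Subgroup.inclusion hQS (u g * Subgroup.centerCongr (τ g : MulAut Q) (u h) : Subgroup.center Q)) =
        ι (Subgroup.inclusion hQS (u g)) * ι (Subgroup.inclusion hQS (Subgroup.centerCongr (τ g : MulAut Q) (u h) : Subgroup.center Q)) := by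
      rw [← map_mul, ← map_mul]; rfl
    rw [show (fun z : Subgroup.center Q => ι (Subgroup.inclusion hQS z)) (u g * Subgroup.centerCongr (τ g : MulAut Q) (u h)) = _ from e, ← hconj, ← hu, ← hu, map_mul]
    group
  have hus : ∀ s : S, u (ι s) = 1 := by
    intro s
    apply hij
    show ι (Subgroup.inclusion hQS (u (ι s))) = ι (Subgroup.inclusion hQS (1 : Subgroup.center Q))
    rw [← hu, hψ, mul_inv_cancel, Subgroup.coe_one, map_one, map_one]
  haveI : Fintype (G ⧸ ι.range) := Fintype.ofFinite _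
  have huq : ∀ g h : G, (QuotientGroup.mk g : G ⧸ ι.range) = QuotientGroup.mk h → u g = u h := by
    intro g h hgh
    obtain ⟨s, hs⟩ := QuotientGroup.eq.1 hgh
    have : h = g * ι s := by rw [hs]; group
    rw [this, hucoc, hus, map_one, mul_one]
  set n := Nat.card (G ⧸ ι.range) with hn
  set w : Subgroup.center Q := ∏ c : G ⧸ ι.range, u c.out with hw
  have hkey : ∀ h : G, w = u h ^ n * Subgroup.centerCongr (τ h : MulAut Q) w := by
    intro h
    rw [hw, map_prod]
    have h1 : u h ^ n = ∏ _c : G ⧸ ι.range, u h := by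
      rw [Finset.prod_const, Finset.card_univ, hn, Nat.card_eq_fintype_card]
    rw [h1, ← Finset.prod_mul_distrib]
    refine Fintype.prod_equiv (MulAction.toPerm h⁻¹) _ _ fun c => ?_
    rw [← hucoc]
    apply huq
    rw [QuotientGroup.out_eq']
    have e : (QuotientGroup.mk (h * (MulAction.toPerm h⁻¹ c).out) : G ⧸ ι.range) =
        h • (QuotientGroup.mk ((MulAction.toPerm h⁻¹ c).out) : G ⧸ ι.range) := rfl
    rw [e, QuotientGroup.out_eq', MulAction.toPerm_apply, smul_inv_smul]
  -- index prime to p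
  have hcop : (Nat.card (Subgroup.center Q)).Coprime n := by
    obtain ⟨T, hT⟩ := hG.2.2.1
    obtain ⟨m, hm⟩ := IsPGroup.iff_card.1 ((isPGroup_of_le hS hQS).to_subgroup (Subgroup.center Q))
    rw [hm]
    have h1 : n = (T : Subgroup G).index := by rw [hn, hT]; rfl
    rw [h1]
    exact ((Fact.out : p.Prime).coprime_iff_not_dvd.2 T.not_dvd_index).pow_left m
  obtain ⟨z, hz⟩ : ∃ z : Subgroup.center Q, z ^ n = w :=
    ⟨(powCoprime hcop).symm w, (powCoprime hcop).apply_symm_apply w⟩
  have hfin : ∀ h : G, u h * Subgroup.centerCongr (τ h : MulAut Q) z = z := by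
    intro h
    apply (powCoprime hcop).injective
    show (u h * Subgroup.centerCongr (τ h : MulAut Q) z) ^ n = z ^ n
    rw [mul_pow, ← map_pow, hz, ← hkey]
  have hpsi : ∀ g : G, ψ g = ι (Subgroup.inclusion hQS z) * g * (ι (Subgroup.inclusion hQS z))⁻¹ := by
    intro g
    have h0 := congrArg (fun z : Subgroup.center Q => ι (Subgroup.inclusion hQS z)) (hfin g)
    have e : ι (Subgroup.inclusion hQS (u g * Subgroup.centerCongr (τ g : MulAut Q) z : Subgroup.center Q)) =
        ι (Subgroup.inclusion hQS (u g)) * ι (Subgroup.inclusion hQS (Subgroup.centerCongr (τ g : MulAut Q) z : Subgroup.center Q)) := by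
      rw [← map_mul, ← map_mul]; rfl
    have h1 : ι (Subgroup.inclusion hQS (u g)) * ι (Subgroup.inclusion hQS (Subgroup.centerCongr (τ g : MulAut Q) z : Subgroup.center Q)) = ι (Subgroup.inclusion hQS z) := e.symm.trans h0
    rw [← hconj, ← hu] at h1
    calc ψ g = (ψ g * g⁻¹ * (g * ι (Subgroup.inclusion hQS z) * g⁻¹)) * g *
          (ι (Subgroup.inclusion hQS z))⁻¹ := by group
      _ = _ := by rw [h1]
  refine ⟨Subgroup.inclusion hQS z, ?_, hpsi⟩
  rw [Subgroup.mem_center_iff]
  intro s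
  apply hj
  have h1 := hpsi (ι s)
  rw [hψ] at h1
  rw [map_mul, map_mul]
  nth_rw 1 [h1]
  group
end Cfsg.Agent.S5105
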