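import Cfsg.Statements.S5106
import Cfsg.Agent.H28.FusNormal2

set_option autoImplicit false
open Cfsg

namespace Cfsg.Agent.S5106

/-- In a saturated fusion system over a finite p-group S, a subgroup R ≤ S is normal in the system if and only if every map of the system whose source is a subgroup of R is the restriction of an element of Aut_F(R). -/
theorem result {Ω : Type*} [Group Ω] {S : Subgroup Ω} [Finite S] (p : ℕ) [Fact p.Prime] (hS : IsPGroup p S) (F : Cfsg.FusionSystem S) (hF : F.IsSaturated p) (R : Subgroup Ω) (hRS : R ≤ S) : F.IsNormal R ↔ ∀ (P : Subgroup Ω) (hPR : P ≤ R) (φ : P →* Ω), φ ∈ F.Hom P → ∃ α ∈ F.autGroup R, ∀ x : P, ((α (Subgroup.inclusion hPR x) : R) : Ω) = φ x := by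
  open Cfsg.Agent.H28 in
  constructor
  · intro hR P hPR φ hφ
    obtain ⟨g, hg, h1, h2⟩ := (isNormal_iff.1 hR).2 P _ (mor_toFun hφ)
    obtain ⟨α, hα, h3⟩ := (hg.mono le_sup_right).exists_aut h2
    refine ⟨α, hα, fun x => ?_⟩
    have h4 := h3 x (hPR x.2)
    rw [h1 x x.2, toFun_coe, autFun_apply _ (hPR x.2)] at h4
    exact h4
  · intro h
    have key : ∀ n, F.StronglyClosed (R.lowerCentralSeries n) := by
      intro n
      have hle := Subgroup.lowerCentralSeries_le_self R n
      rw [stronglyClosed_iff]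
      refine ⟨hle.trans hRS, fun P f hP hf x hx => ?_⟩
      obtain ⟨φ, hφ, h1⟩ := hf
      obtain ⟨α, hα, h2⟩ := h P (hP.trans hle) φ hφ
      have h3 := img_characteristic (lcs_characteristic R n) hle α
      have h4 := mem_img_of_mem (f := autFun α) (hP hx)
      rw [autFun_apply _ (hle (hP hx)), h3] at h4
      rw [← h1 ⟨x, hx⟩, ← h2]
      exact h4
    exact normal_of_lcs hS hF hRS key
end Cfsg.Agent.S5106
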