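import Cfsg.Statements.S5107
import Cfsg.Agent.H28.FusGroup

set_option autoImplicit false
open Cfsg

namespace Cfsg.Agent.S5107

/-- If a Sylow p-subgroup S of a finite group G has nilpotency class at most two and its centre is strongly closed in S with respect to G, then every map of the fusion system of G on S is conjugation by an element of N_G(S), and S is the largest subgroup normal in that fusion system. -/
theorem result {G : Type*} [Group G] [Finite G] (p : ℕ) [Fact p.Prime] (S : Sylow p G) (hcl : ⁅(S : Subgroup G), (S : Subgroup G)⁆ ≤ (S : Subgroup G) ⊓ Subgroup.centralizer ((S : Subgroup G) : Set G)) (hZ : Cfsg.IsStronglyClosed ((S : Subgroup G) ⊓ Subgroup.centralizer ((S : Subgroup G) : Set G)) (S : Subgroup G)) : (∀ (P : Subgroup G) (φ : P →* G), φ ∈ (Cfsg.groupFusionSystem (S : Subgroup G)).Hom P → ∃ g ∈ Subgroup.normalizer ((S : Subgroup G) : Set G), ∀ x : P, φ x = g * (x : G) * g⁻¹) ∧ (Cfsg.groupFusionSystem (S : Subgroup G)).core = S := by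
  open Cfsg.Agent.H28 in
  have hsat := group_saturated S
  set F := Cfsg.groupFusionSystem (S : Subgroup G) with hF
  set Z : Subgroup G := (S : Subgroup G) ⊓ Subgroup.centralizer ((S : Subgroup G) : Set G) with hZdef
  have hZS : Z ≤ S := inf_le_left
  have hZsc : F.StronglyClosed Z := by
    rw [stronglyClosed_iff]
    refine ⟨hZS, fun R f hR hf x hx => ?_⟩
    obtain ⟨-, hfS, g, hg⟩ := mor_group.1 hf
    have h1 := hfS x hx
    rw [hg x hx] at h1 ⊢
    exact hZ.2 x (hR hx) g h1
  have hnorm : F.IsNormal (S : Subgroup G) := by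
    refine normal_of_series S.2 hsat 2 (fun j => if j = 0 then ⊥ else if j = 1 then Z else S)
      (by simp) (by simp) ?_ ?_
    · intro i hi
      interval_cases i
      · simpa using hZsc
      · simp only [Nat.reduceAdd, OfNat.ofNat_ne_zero, OfNat.ofNat_ne_one, if_false]
        rw [stronglyClosed_iff]
        exact ⟨le_rfl, fun R f _ hf x hx => hf.mem hx⟩
    · intro i hi
      interval_cases i
      · simp only [zero_add, one_ne_zero, if_false, if_true]
        rw [le_bot_iff, Subgroup.commutator_eq_bot_iff_le_centralizer]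
        intro s hs
        rw [Subgroup.mem_centralizer_iff]
        intro z hz
        exact (Subgroup.mem_centralizer_iff.1 hz.2 s hs).symm
      · simpa using hcl
  refine ⟨fun P φ hφ => ?_, le_antisymm (core_normal.1) (le_core hnorm)⟩
  obtain ⟨g, hg, h1, h2⟩ := (isNormal_iff.1 hnorm).2 P _ (mor_toFun hφ)
  have hPS := (F.le_of_mem hφ).1
  obtain ⟨-, hgS, n, hn⟩ := mor_group.1 hg
  refine ⟨n, ?_, fun x => ?_⟩
  · apply mem_normalizer_of_finite
    intro x hx
    have hx' : x ∈ P ⊔ (S : Subgroup G) := le_sup_right (a := P) hx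
    rw [← hn x hx']
    exact hgS x hx'
  · rw [← hn x (le_sup_left (b := (S : Subgroup G)) x.2), h1 x x.2, toFun_coe]
end Cfsg.Agent.S5107
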