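import Cfsg.Statements.S5119
import Cfsg.Agent.H13.FusInvar

set_option autoImplicit false
set_option linter.all false
open Cfsg
open Cfsg.Agent.H28 Cfsg.FusionSystem

namespace Cfsg.Agent.S5119

open Cfsg.Agent

/-- Let F be a saturated fusion system over a finite p-group S and E a subsystem of F over a subgroup T that is strongly closed in F. Then E is invariant in F (invariance under Aut_F(T) plus the Frattini condition) if and only if the strong invariance condition holds: for P ≤ Q ≤ T, every map φ of E from P into Q and every map ψ of F with source Q, the transported map ψ φ ψ⁻¹ on ψ(P) is a map of E. -/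
theorem result {Ω : Type*} [Group Ω] {S : Subgroup Ω} [Finite S] (p : ℕ) [Fact p.Prime] (hS : IsPGroup p S) (F : Cfsg.FusionSystem S) (hF : F.IsSaturated p) {T : Subgroup Ω} (E : Cfsg.FusionSystem T) (hE : E.IsSubsystemOf F) (hT : F.StronglyClosed T) : E.IsInvariantIn F ↔ ∀ (P Q : Subgroup Ω) (hPQ : P ≤ Q) (_ : Q ≤ T) (φ : P →* Ω) (_ : φ ∈ E.Hom P) (hφQ : ∀ x : P, φ x ∈ Q) (ψ : Q →* Ω) (_ : ψ ∈ F.Hom Q), ∃ χ ∈ E.Hom ((P.subgroupOf Q).map ψ), ∀ (x : P) (hx : ψ (Subgroup.inclusion hPQ x) ∈ (P.subgroupOf Q).map ψ), χ ⟨ψ (Subgroup.inclusion hPQ x), hx⟩ = ψ ⟨φ x, hφQ x⟩ := by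
  constructor
  · intro h P Q hPQ hQT φ hφ hφQ ψ hψ
    have hI := H13.strong_of_invariant h
    obtain ⟨g, hg, h1⟩ := hI P Q (toFun φ) (toFun ψ) hPQ hQT (mor_toFun hφ)
      (fun x hx => by rw [toFun_apply φ hx]; exact hφQ _) (mor_toFun hψ)
    have himg : (P.subgroupOf Q).map ψ = img P (toFun ψ) :=
      map_subgroupOf_eq_img (fun x => (toFun_coe ψ x).symm) hPQ
    rw [himg]
    obtain ⟨χ, hχ, h2⟩ := hg
    refine ⟨χ, hχ, fun x hx => ?_⟩
    rw [h2]
    show g (ψ (Subgroup.inclusion hPQ x)) = _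
    have e1 : ψ (Subgroup.inclusion hPQ x) = toFun ψ x := by
      rw [toFun_apply ψ (hPQ x.2)]; rfl
    rw [e1, h1 x x.2, toFun_apply φ x.2, toFun_apply ψ (hφQ _)]
  · intro h
    refine H13.invariant_of_strong hS hF hT hE fun P Q f k hPQ hQT hf hfQ hk => ?_
    obtain ⟨φ, hφ, hφf⟩ := id hf
    obtain ⟨ψ, hψ, hψk⟩ := id hk
    have hφQ : ∀ x : P, φ x ∈ Q := fun x => by rw [hφf]; exact hfQ x x.2
    obtain ⟨χ, hχ, h1⟩ := h P Q hPQ hQT φ hφ hφQ ψ hψ
    have himg : (P.subgroupOf Q).map ψ = img P k := map_subgroupOf_eq_img hψk hPQ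
    rw [← himg]
    refine ⟨toFun χ, mor_toFun hχ, fun x hx => ?_⟩
    have e1 : k x = ψ (Subgroup.inclusion hPQ ⟨x, hx⟩) := (hψk (Subgroup.inclusion hPQ ⟨x, hx⟩)).symm
    have hmem : ψ (Subgroup.inclusion hPQ ⟨x, hx⟩) ∈ (P.subgroupOf Q).map ψ :=
      ⟨Subgroup.inclusion hPQ ⟨x, hx⟩, hx, rfl⟩
    rw [e1, toFun_apply χ hmem, h1 ⟨x, hx⟩ hmem, hψk]
    show k (φ ⟨x, hx⟩) = k (f x)
    rw [hφf]

end Cfsg.Agent.S5119
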