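import Cfsg.Statements.S5122
import Cfsg.Agent.H28.FusGroup

set_option autoImplicit false
open Cfsg

namespace Cfsg.Agent.S5122

/-- Let G be a finite group with Sylow p-subgroup S. Every subgroup P of S has a G-conjugate Q ≤ S such that N_S(Q) is a Sylow p-subgroup of N_G(Q); and for any Q ≤ S with that property, C_S(Q) is a Sylow p-subgroup of C_G(Q) and the automorphisms of Q induced by N_S(Q) form a Sylow p-subgroup of those induced by N_G(Q). -/
theorem result {G : Type*} [Group G] [Finite G] (p : ℕ) [Fact p.Prime] (S : Sylow p G) : (∀ P : Subgroup G, P ≤ S → ∃ g : G, P.map (MulAut.conj g).toMonoidHom ≤ S ∧ (∃ R : Sylow p ↥(Subgroup.normalizer ((P.map (MulAut.conj g).toMonoidHom : Subgroup G) : Set G)), (R : Subgroup ↥(Subgroup.normalizer ((P.map (MulAut.conj g).toMonoidHom : Subgroup G) : Set G))) = (Cfsg.FusionSystem.normalizerIn (S : Subgroup G) (P.map (MulAut.conj g).toMonoidHom)).subgroupOf (Subgroup.normalizer ((P.map (MulAut.conj g).toMonoidHom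 : Subgroup G) : Set G)))) ∧ ∀ Q : Subgroup G, Q ≤ S → (∃ R : Sylow p ↥(Subgroup.normalizer (Q : Set G)), (R : Subgroup ↥(Subgroup.normalizer (Q : Set G))) = (Cfsg.FusionSystem.normalizerIn (S : Subgroup G) Q).subgroupOf (Subgroup.normalizer (Q : Set G))) → (∃ R : Sylow p ↥(Subgroup.centralizer (Q : Set G)), (R : Subgroup ↥(Subgroup.centralizer (Q : Set G))) = (Cfsg.FusionSystem.centralizerIn (S : Subgroup G) Q).subgroupOf (Subgroup.centralizer (Q : Set G))) ∧ (∃ R : Sylow p ↥(Cfsg.autInducedBy ⊤ Q), (R : Subgroup ↥(Cfsg.autInducedBy ⊤ Q)) = (Cfsg.autInducedBy (S : Subgroup G) Q).subgroupOf (Cfsg.autInducedBy ⊤ Q)) := by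
  open Cfsg.Agent.H28 in
  constructor
  · intro P hP
    obtain ⟨Q, hQ, hQn⟩ := Cfsg.Agent.H28.exists_fullyNormalized
      (F := Cfsg.groupFusionSystem (S : Subgroup G)) hP
    have h1 := (Cfsg.Agent.H28.group_fn_iff S hQn.1).1 hQn
    rw [Cfsg.Agent.H28.group_eq_fs, Cfsg.Agent.H28.conj_fs_iff] at hQ
    obtain ⟨-, -, g, -, rfl⟩ := hQ
    exact ⟨g, hQn.1, (Cfsg.Agent.H28.sylIn_iff inf_le_right).1 h1⟩
  · intro Q hQ hR
    have h1 := (Cfsg.Agent.H28.sylIn_iff (U := Cfsg.FusionSystem.normalizerIn (S : Subgroup G) Q)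
      (K := Subgroup.normalizer (Q : Set G)) inf_le_right).2 hR
    have h1' : Cfsg.Agent.L.SylIn p (Cfsg.FusionSystem.normalizerIn (S : Subgroup G) Q)
        (⊤ ⊓ Subgroup.normalizer (Q : Set G)) := by rw [top_inf_eq]; exact h1
    constructor
    · have h2 := Cfsg.Agent.H28.sylIn_centralizer h1'
      rw [top_inf_eq] at h2
      exact (Cfsg.Agent.H28.sylIn_iff inf_le_right).1 h2
    · have h3 := Cfsg.Agent.H28.fs_fullyAutomized (Cfsg.Agent.L.sylIn_top S) hQ h1'
      obtain ⟨-, h4⟩ := h3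
      rw [Cfsg.Agent.H28.autGroup_fs hQ] at h4
      exact h4
end Cfsg.Agent.S5122
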