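import Cfsg.Statements.S5123
import Cfsg.Agent.H28.FusGroup

set_option autoImplicit false
open Cfsg

namespace Cfsg.Agent.S5123

/-- Let G be a finite group with Sylow p-subgroup S, P, Q ≤ S and g ∈ G with gPg⁻¹ = Q, and suppose N_S(Q) is a Sylow p-subgroup of N_G(Q). Let N be the set of x ∈ N_S(P) with gxg⁻¹ ∈ N_S(Q)C_G(Q). Then some h ∈ C_G(Q) satisfies (hg)N(hg)⁻¹ ≤ S. -/
theorem result {G : Type*} [Group G] [Finite G] (p : ℕ) [Fact p.Prime] (S : Sylow p G) (P Q : Subgroup G) (hP : P ≤ S) (hQ : Q ≤ S) (g : G) (hg : P.map (MulAut.conj g).toMonoidHom = Q) (hN : (∃ R : Sylow p ↥(Subgroup.normalizer (Q : Set G)), (R : Subgroup ↥(Subgroup.normalizer (Q : Set G))) = (Cfsg.FusionSystem.normalizerIn (S : Subgroup G) Q).subgroupOf (Subgroup.normalizer (Q : Set G)))) : ∃ h ∈ Subgroup.centralizer (Q : Set G), ((Cfsg.FusionSystem.normalizerIn (S : Subgroup G) P) ⊓ (Cfsg.FusionSystem.normalizerIn (S : Subgroup G) Q ⊔ Subgroup.centralizer (Q : Set G)).comap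 (MulAut.conj g).toMonoidHom).map (MulAut.conj (h * g)).toMonoidHom ≤ S := by
  open Cfsg.Agent.H28 in
  subst hg
  set Q := P.map (MulAut.conj g).toMonoidHom with hQdef
  have h1 := (Cfsg.Agent.H28.sylIn_iff (U := Cfsg.FusionSystem.normalizerIn (S : Subgroup G) Q)
      (K := Subgroup.normalizer (Q : Set G)) inf_le_right).2 hN
  have h1' : Cfsg.Agent.L.SylIn p (Cfsg.FusionSystem.normalizerIn (S : Subgroup G) Q)
      (⊤ ⊓ Subgroup.normalizer (Q : Set G)) := by rw [top_inf_eq]; exact h1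
  have hle : Cfsg.FusionSystem.normalizerIn (S : Subgroup G) Q ≤
      Subgroup.normalizer (Subgroup.centralizer (Q : Set G) : Set G) := by
    intro a ha
    rw [Subgroup.mem_normalizer_iff]
    have key : ∀ a ∈ Subgroup.normalizer (Q : Set G), ∀ c ∈ Subgroup.centralizer (Q : Set G),
        a * c * a⁻¹ ∈ Subgroup.centralizer (Q : Set G) := by
      intro a ha c hc
      rw [Subgroup.mem_centralizer_iff] at hc ⊢
      intro q hq
      have h2 := (Subgroup.mem_normalizer_iff.1 (inv_mem ha) q).1 hq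
      have h3 := hc _ h2
      calc q * (a * c * a⁻¹) = a * ((a⁻¹ * q * a⁻¹⁻¹) * c) * a⁻¹ := by simp [mul_assoc]
        _ = a * (c * (a⁻¹ * q * a⁻¹⁻¹)) * a⁻¹ := by rw [h3]
        _ = _ := by simp [mul_assoc]
    intro c
    constructor
    · intro hc; exact key a ha.2 c hc
    · intro hc
      have := key a⁻¹ (inv_mem ha.2) _ hc
      simpa [mul_assoc] using this
  obtain ⟨c, hc, h2⟩ := Cfsg.Agent.H28.exists_extension_element (T := (S : Subgroup G)) (Q := Q)
    (H := ⊤) h1' (g := g) trivial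
    (N := (Cfsg.FusionSystem.normalizerIn (S : Subgroup G) P) ⊓
      (Cfsg.FusionSystem.normalizerIn (S : Subgroup G) Q ⊔
        Subgroup.centralizer (Q : Set G)).comap (MulAut.conj g).toMonoidHom) le_top
    (S.2.to_le (inf_le_left.trans inf_le_left)) (by
      rintro t ⟨-, ht⟩
      have ht2 : g * t * g⁻¹ ∈ (Cfsg.FusionSystem.normalizerIn (S : Subgroup G) Q ⊔
        Subgroup.centralizer (Q : Set G)) := ht
      rw [← SetLike.mem_coe, Subgroup.coe_mul_of_left_le_normalizer_right _ _ hle,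
        Set.mem_mul] at ht2
      obtain ⟨a, ha, c, hc, h3⟩ := ht2
      exact ⟨a, ha, c, by rw [top_inf_eq]; exact hc, h3.symm⟩)
  rw [top_inf_eq] at hc
  refine ⟨c, hc, ?_⟩
  rintro _ ⟨t, ht, rfl⟩
  exact h2 t ht
end Cfsg.Agent.S5123
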