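import Cfsg.Statements.S5130
import Cfsg.Agent.H13.ProdSC

set_option autoImplicit false
set_option linter.all false
open Cfsg
open Cfsg.Agent.H28 Cfsg.Agent.H13 Cfsg.FusionSystem Cfsg.Agent

namespace Cfsg.Agent.S5130

open Cfsg.Agent

/-- Let F be a saturated fusion system over a finite p-group S that is the direct product of two subgroups S₁ and S₂, each strongly closed in F. Let R be the full subsystem of F over S₁ (all maps of F between subgroups of S₁) and R′ the subsystem over S₁ of those maps that extend to the subgroup generated with S₂ fixing S₂ elementwise. Then R and R′ are saturated, R′ is normal in F and in R, and R is weakly normal in F. -/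
theorem result {Ω : Type*} [Group Ω] {S : Subgroup Ω} [Finite S] (p : ℕ) [Fact p.Prime] (hS : IsPGroup p S) (F : Cfsg.FusionSystem S) (hF : F.IsSaturated p) (S₁ S₂ : Subgroup Ω) (hprod : Cfsg.IsInternalDirectProduct S₁ S₂ S) (h₁ : F.StronglyClosed S₁) (h₂ : F.StronglyClosed S₂) (R R' : Cfsg.FusionSystem S₁) (hR : ∀ P : Subgroup Ω, P ≤ S₁ → R.Hom P = F.Hom P) (hR' : ∀ P : Subgroup Ω, P ≤ S₁ → R'.Hom P = F.centralizerHom S₂ P) : R.IsSaturated p ∧ R'.IsSaturated p ∧ R'.IsNormalIn F p ∧ R'.IsNormalIn R p ∧ R.IsWeaklyNormalIn F p := by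
  obtain ⟨θ, hθ⟩ := exists_proj hprod
  have h : DP F S₁ S₂ θ := ⟨hprod.1, hprod.2.1, hprod.2.2.1, hprod.2.2.2.1, hprod.2.2.2.2,
    fun x hx => (hθ x hx).1, fun x hx => (hθ x hx).2, h₁, h₂⟩
  have hRs := h.full_saturated hS hF hR
  have hR's := h.cent_saturated hS hF hR'
  haveI : Finite S₁ := finite_of_le h.l1
  have hmor : ∀ {P f}, Mor R P f ↔ P ≤ S₁ ∧ Mor F P f := fun {P f} => mor_full h.l1 hR
  have hmor' : ∀ {P f}, Mor R' P f ↔ P ≤ S₁ ∧ ∃ g, Mor F (P ⊔ S₂) g ∧ (∀ x ∈ P, g x = f x) ∧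
    ∀ x ∈ S₂, g x = x := fun {P f} => mor_cent h.le_cent h.h1 hR'
  have hsub' : ∀ P f, Mor R' P f → Mor F P f := fun P f hf => by
    obtain ⟨hP, g, hg, h3, -⟩ := hmor'.1 hf
    exact (hg.mono le_sup_left).congr h3
  have hautR : ∀ {P : Subgroup Ω}, P ≤ S₁ → R.autGroup P = F.autGroup P := fun {P} hP => by
    ext α
    rw [← mor_autFun_iff hP, ← mor_autFun_iff (hP.trans h.l1), hmor]
    exact and_iff_right hP
  have hinvF : R'.IsInvariantIn F := by
    rw [invariant_iff, subsystem_iff]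
    exact ⟨hsub', h₁, fun P f hf α hα => h.cent_inv hS hF hR' hf hα,
      fun P f hP hf => h.cent_frattini hS hF hR' hP hf⟩
  have hinvR : R'.IsInvariantIn R := by
    rw [invariant_iff, subsystem_iff]
    refine ⟨fun P f hf => hmor.2 ⟨hf.le, hsub' P f hf⟩, ?_, fun P f hf α hα =>
      h.cent_inv hS hF hR' hf (by rwa [hautR le_rfl] at hα), fun P f hP hf => ?_⟩
    · rw [stronglyClosed_iff]
      exact ⟨le_rfl, fun X f _ hf x hx => hf.mem hx⟩
    · rw [hautR le_rfl]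
      exact h.cent_frattini hS hF hR' hP (hmor.1 hf).2
  have hRinv : R.IsInvariantIn F := by
    rw [invariant_iff, subsystem_iff]
    refine ⟨fun P f hf => (hmor.1 hf).2, h₁, fun P f hf α hα => ?_, fun P f hP hf =>
      ⟨1, Subgroup.one_mem _, f, hmor.2 ⟨hP, hf⟩, fun x hx => ?_⟩⟩
    · obtain ⟨hP, hf'⟩ := hmor.1 hf
      have ha := mor_autFun h.l1 hα
      have ha' := ha.mono hP
      obtain ⟨i, hi, hi1, hi2, hi3⟩ := ha'.inverse
      have hfS : ∀ x ∈ P, f x ∈ S₁ := fun x hx => hf.mem hx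
      have hcomp : Mor F (img P (autFun α)) (fun x => autFun α (f (i x))) := by
        refine (hi.comp hf' fun x hx => ?_).comp ha fun x hx => ?_
        · have : i x ∈ img (img P (autFun α)) i := mem_img_of_mem hx
          rwa [hi3] at this
        · have : i x ∈ img (img P (autFun α)) i := mem_img_of_mem hx
          rw [hi3] at this
          exact hfS _ this
      refine ⟨_, hmor.2 ⟨?_, hcomp⟩, fun x hx => ?_⟩
      · rw [img_le_iff]; exact fun x hx => autFun_mem _ (hP hx)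
      · show autFun α (f (i (autFun α x))) = _
        rw [hi1 x hx]
    · rw [autFun_one (hf.mem hx |> fun _ => sc_apply h₁ hf hx (hP hx))]
  refine ⟨hRs, hR's, ?_, ?_, ⟨hRs, hF, hRinv⟩⟩
  · rw [normalIn_iff]
    refine ⟨⟨hR's, hF, hinvF⟩, fun α hα => ?_⟩
    obtain ⟨-, g, hg, h3, h4⟩ := hmor'.1 (mor_autFun le_rfl hα)
    have hW : S₁ ⊔ centralizerIn S S₁ = S₁ ⊔ S₂ := by
      rw [h.s]
      apply le_antisymm (sup_le h.l1 inf_le_left)
      conv_lhs => rw [← h.s]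
      refine sup_le_sup_left (fun x hx => mem_centralizerIn.2 ⟨h.l2 hx, fun y hy => (h.c y hy x hx).symm⟩) _
    have him : img (S₁ ⊔ S₂) g = S₁ ⊔ S₂ := by
      rw [hg.img_sup, sc_img_eq h.h1 hg le_sup_left, sc_img_eq h.h2 hg le_sup_right]
    rw [← hW] at hg him
    obtain ⟨β, hβ, hβ1⟩ := hg.exists_aut him
    refine ⟨β, hβ, fun x hx => ?_, fun c hc => ?_⟩
    · rw [hβ1 x (le_sup_left (b := centralizerIn S S₁) hx), h3 x hx]
    · have hcW : c ∈ S₁ ⊔ centralizerIn S S₁ := le_sup_right (a := S₁) hc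
      have hcS : c ∈ S := (mem_centralizerIn.1 hc).1
      rw [hβ1 c hcW]
      have hgS1 : img S₁ g = S₁ := sc_img_eq h.h1 hg le_sup_left
      have hgc : g c ∈ centralizerIn S S₁ := by
        refine mem_centralizerIn.2 ⟨hg.mem hcW, fun y hy => ?_⟩
        rw [← hgS1] at hy
        obtain ⟨u, hu, rfl⟩ := (hg.mono (le_sup_left (a := S₁))).mem_img.1 hy
        have huW : u ∈ S₁ ⊔ centralizerIn S S₁ := le_sup_left (b := centralizerIn S S₁) hu
        rw [← hg.mul hcW huW, ← hg.mul huW hcW, (mem_centralizerIn.1 hc).2 u hu]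
      refine ⟨?_, Subgroup.mul_mem _ (Subgroup.inv_mem _ hc) hgc⟩
      obtain ⟨b, hb, e⟩ := h.θ2 c hcS
      have ha := h.θ1 c hcS
      have haW : tf θ c ∈ S₁ ⊔ centralizerIn S S₁ := le_sup_left (b := centralizerIn S S₁) ha
      have hbW : b ∈ S₁ ⊔ centralizerIn S S₁ := by rw [hW]; exact le_sup_right (a := S₁) hb
      have hga : g (tf θ c) ∈ S₁ := sc_apply h.h1 hg haW ha
      have e2 : g c = g (tf θ c) * b := by
        conv_lhs => rw [e]
        rw [hg.mul haW hbW, h4 b hb]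
      have e3 : c⁻¹ * g c = (tf θ c)⁻¹ * g (tf θ c) := by
        rw [e2]
        have e4 : c⁻¹ = b⁻¹ * (tf θ c)⁻¹ := by rw [← mul_inv_rev, ← e]
        rw [e4]
        have e5 := h.c _ (S₁.mul_mem (S₁.inv_mem ha) hga) b hb
        calc b⁻¹ * (tf θ c)⁻¹ * (g (tf θ c) * b) = b⁻¹ * (((tf θ c)⁻¹ * g (tf θ c)) * b) := by group
          _ = b⁻¹ * (b * ((tf θ c)⁻¹ * g (tf θ c))) := by rw [e5]
          _ = _ := by group
      rw [e3]
      exact S₁.mul_mem (S₁.inv_mem ha) hga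
  · rw [normalIn_iff]
    refine ⟨⟨hR's, hRs, hinvR⟩, fun α hα => ?_⟩
    have hW : S₁ ⊔ centralizerIn S₁ S₁ = S₁ := sup_eq_left.2 inf_le_left
    have hmα : Mor R (S₁ ⊔ centralizerIn S₁ S₁) (autFun α) := by
      rw [hW]
      exact hmor.2 ⟨le_rfl, hsub' _ _ (mor_autFun le_rfl hα)⟩
    have him : img (S₁ ⊔ centralizerIn S₁ S₁) (autFun α) = S₁ ⊔ centralizerIn S₁ S₁ := by
      rw [hW, img_autFun]
    obtain ⟨β, hβ, hβ1⟩ := hmα.exists_aut him
    refine ⟨β, hβ, fun x hx => hβ1 x (le_sup_left (b := centralizerIn S₁ S₁) hx), fun c hc => ?_⟩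
    have hc1 : c ∈ S₁ := (mem_centralizerIn.1 hc).1
    rw [hβ1 c (le_sup_right (a := S₁) hc)]
    refine ⟨S₁.mul_mem (S₁.inv_mem hc1) (autFun_mem _ hc1), Subgroup.mul_mem _ (Subgroup.inv_mem _ hc) ?_⟩
    refine mem_centralizerIn.2 ⟨autFun_mem _ hc1, fun y hy => ?_⟩
    obtain ⟨u, hu, rfl⟩ : ∃ u ∈ S₁, autFun α u = y := by
      have : y ∈ img S₁ (autFun α) := by rw [img_autFun]; exact hy
      exact (mor_autFun h.l1 (by rw [← hautR le_rfl]; exact (mor_autFun_iff le_rfl).1 (hmor.2 ⟨le_rfl, hsub' _ _ (mor_autFun le_rfl hα)⟩))).mem_img.1 this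
    have hm1 : Mor F S₁ (autFun α) := hsub' _ _ (mor_autFun le_rfl hα)
    rw [← hm1.mul hc1 hu, ← hm1.mul hu hc1, (mem_centralizerIn.1 hc).2 u hu]

end Cfsg.Agent.S5130
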