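import Cfsg.Statements.S5139
import Cfsg.Agent.H13.FusPPN
import Cfsg.Agent.H28.FusGroup

set_option autoImplicit false
set_option linter.all false
open Cfsg
open Cfsg.Agent.H28 Cfsg.FusionSystem

namespace Cfsg.Agent.S5139

open Cfsg.Agent

theorem aux {G : Type*} [Group G] [Finite G] (p : ℕ) [Fact p.Prime] (S : Sylow p G) (T : Subgroup G)
    (hT : T = (S : Subgroup G) ⊓ Cfsg.pResidual p G) (hle : T ≤ Cfsg.pResidual p G)
    (E : Cfsg.FusionSystem T) (hEs : E.IsSaturated p)
    (hEi : E.HasPPowerIndexIn (Cfsg.groupFusionSystem (S : Subgroup G)) p) :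
    ∀ P : Subgroup G, E.Hom P = (Cfsg.fusionSystemOfSubgroup (Cfsg.pResidual p G) T hle).Hom P := by
  have hn := Cfsg.Agent.H2.pResidual_normal (G := G) (p := p)
  have hTS : T ≤ (S : Subgroup G) := by rw [hT]; exact inf_le_left
  have hSyl : Cfsg.Agent.L.SylIn p (S : Subgroup G) ⊤ := by
    refine ⟨le_top, S.2, ?_⟩
    rw [Subgroup.relIndex_top_right]
    exact S.not_dvd_index
  have hTsyl : Cfsg.Agent.L.SylIn p T (Cfsg.pResidual p G) := by
    rw [hT]
    refine coprime_index_sylIn hSyl le_top ?_
    rw [Subgroup.normalizer_eq_top]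
  have hDs := fs_saturated hTsyl
  have hD : (Cfsg.fusionSystemOfSubgroup (Cfsg.pResidual p G) T hle).HasPPowerIndexIn
      (Cfsg.groupFusionSystem (S : Subgroup G)) p := by
    rw [ppi_iff]
    refine ⟨?_, ?_, ?_⟩
    · intro P f hf
      rw [mor_fs] at hf
      rw [mor_group]
      obtain ⟨h1, h2, g, hg, h3⟩ := hf
      exact ⟨h1.trans hTS, fun x hx => hTS (h2 x hx), g, h3⟩
    · rw [hyperfocal_group S, hT]
    · intro P hP α hα hc
      have hαm := mor_autFun (hP.trans hTS) hα
      obtain ⟨-, -, g, hg⟩ := mor_group.1 hαm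
      have hpos : orderOf g ≠ 0 := (orderOf_pos g).ne'
      obtain ⟨j, hj1, hj2⟩ := H13.exists_pprime_pow (Fact.out : p.Prime) g hpos
      have hpow : ∀ n : ℕ, ∀ x ∈ P, autFun (α ^ n) x = g ^ n * x * (g ^ n)⁻¹ := by
        intro n
        induction n with
        | zero => intro x hx; rw [pow_zero, pow_zero, autFun_one hx]; simp
        | succ n ih =>
          intro x hx
          rw [pow_succ', pow_succ', autFun_mul _ _ hx, hg _ (autFun_mem _ hx), ih x hx]
          simp [mul_assoc]
      have hdvd : orderOf α ∣ orderOf g := by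
        rw [orderOf_dvd_iff_pow_eq_one]
        apply mulAut_ext
        intro x hx
        rw [hpow _ x hx, pow_orderOf_eq_one, autFun_one hx]; simp
      have hj3 := hj2 _ hc hdvd
      have hαj : α ^ j = α := by
        have := pow_inj_mod (x := α) (n := j) (m := 1)
        rw [pow_one] at this
        rw [this]
        exact hj3
      rw [← mor_autFun_iff hP, mor_fs]
      refine ⟨hP, fun x hx => hP (autFun_mem _ hx), g ^ j, ?_, fun x hx => ?_⟩
      · exact Subgroup.subset_closure hj1
      · rw [← hpow j x hx, hαj]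
  have := ppi_unique S.2 hTS hEs hEi hDs hD
  intro P
  rw [this]

/-- Let G be a finite group with Sylow p-subgroup S and O^p(G) the subgroup generated by the elements of order prime to p. Then the p-residual subsystem of the fusion system of G on S — the saturated subsystem of p-power index over the hyperfocal subgroup — is the fusion system of O^p(G) on S ∩ O^p(G): its maps are exactly the conjugation maps by elements of O^p(G) between subgroups of S ∩ O^p(G). -/
theorem result {G : Type*} [Group G] [Finite G] (p : ℕ) [Fact p.Prime] (S : Sylow p G) (E : Cfsg.FusionSystem ((Cfsg.groupFusionSystem (S : Subgroup G)).hyperfocalSubgroup p)) (hE : (Cfsg.groupFusionSystem (S : Subgroup G)).IsPResidual p E) : ∃ h : (S : Subgroup G) ⊓ Cfsg.pResidual p G ≤ Cfsg.pResidual p G, ∀ P : Subgroup G, E.Hom P = (Cfsg.fusionSystemOfSubgroup (Cfsg.pResidual p G) ((S : Subgroup G) ⊓ Cfsg.pResidual p G) h).Hom P := by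
  refine ⟨inf_le_right, ?_⟩
  have hT := hyperfocal_group S
  have key : ∀ (T : Subgroup G) (hT : T = (S : Subgroup G) ⊓ Cfsg.pResidual p G)
      (E : Cfsg.FusionSystem T) (hEs : E.IsSaturated p)
      (hEi : E.HasPPowerIndexIn (Cfsg.groupFusionSystem (S : Subgroup G)) p),
      ∀ P : Subgroup G, E.Hom P = (Cfsg.fusionSystemOfSubgroup (Cfsg.pResidual p G)
        ((S : Subgroup G) ⊓ Cfsg.pResidual p G) inf_le_right).Hom P := by
    rintro T rfl E hEs hEi
    exact aux p S _ rfl inf_le_right E hEs hEi
  exact key _ hT E hE.1 hE.2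

end Cfsg.Agent.S5139
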