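import Cfsg.Statements.S5159
import Cfsg.Agent.H13.FusSolvN

set_option autoImplicit false
set_option linter.all false
open Cfsg
open Cfsg.Agent.H28 Cfsg.Agent.H13 Cfsg.FusionSystem Cfsg.Agent
open scoped commutatorElement

namespace Cfsg.Agent.S5159

open Cfsg.Agent

/-- Let F be a saturated fusion system over a finite p-group S, E a normal subsystem over T, and D the factor system of F modulo T (read through any homomorphism on S with kernel T). Then F is solvable if and only if E and D are solvable (solvable, for a system over a subgroup S: for every subgroup R other than S that is strongly closed in F, the factor system of F modulo R has a nontrivial subgroup normal in it). -/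
theorem result {Ω : Type*} [Group Ω] {S : Subgroup Ω} [Finite S] (p : ℕ) [Fact p.Prime] (hS : IsPGroup p S) (F : Cfsg.FusionSystem S) (hF : F.IsSaturated p) {T : Subgroup Ω} (E : Cfsg.FusionSystem T) (hE : E.IsNormalIn F p) {Ω' : Type*} [Group Ω'] {S' : Subgroup Ω'} (θ : S →* Ω') (D : Cfsg.FusionSystem S') (hD : F.IsFactorSystem T θ D) : F.IsSolvableSystem ↔ (E.IsSolvableSystem ∧ D.IsSolvableSystem) := by
  obtain ⟨⟨hEs, -, hinv⟩, -⟩ := hE
  obtain ⟨hsub, hTsc, hin, hfr⟩ := invariant_iff.1 hinv
  have hTS := hTsc.1
  haveI : Finite T := finite_of_le hTS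
  have hTp := isPGroup_of_le hS hTS
  have hr := hD.2.2.1
  have hDs : D.IsSaturated p := factor_saturated hS hF hTsc hD
  have hsurj := factor_surj hS hF hTsc hD
  haveI : Finite S' := by rw [← hr]; exact Finite.of_surjective _ θ.rangeRestrict_surjective
  have hS'p : IsPGroup p S' := by
    rw [← hr]; exact hS.of_surjective _ θ.rangeRestrict_surjective
  have hcomS : ∀ x ∈ S, ∀ y ∈ S, ⁅x, y⁆ ∈ S := fun x hx y hy => by
    rw [commutatorElement_def]
    exact S.mul_mem (S.mul_mem (S.mul_mem hx hy) (S.inv_mem hx)) (S.inv_mem hy)
  have hcom : ∀ x ∈ S, ∀ y ∈ S, tf θ ⁅x, y⁆ = ⁅tf θ x, tf θ y⁆ := by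
    intro x hx y hy
    rw [commutatorElement_def, tf_mul (S.mul_mem (S.mul_mem hx hy) (S.inv_mem hx)) (S.inv_mem hy),
      tf_mul (S.mul_mem hx hy) (S.inv_mem hx), tf_mul hx hy, tf_inv hx, tf_inv hy, commutatorElement_def]
  constructor
  · intro h
    obtain ⟨n, C, hC0, hCn, hCm, hCs, hCc⟩ := chain_of_solvable hS hF h _ ⊥ sc_bot le_rfl
    constructor
    · refine solvable_of_chain hTp hEs n (fun i => C i ⊓ T) ?_ ?_ (fun i _ => ?_) (fun i hi => ?_)
      · simp [hC0]
      · simp only [hCn n le_rfl]; exact inf_eq_right.2 hTS
      · rw [stronglyClosed_iff]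
        refine ⟨inf_le_right, fun P f hP hf x hx => ⟨?_, hf.mem hx⟩⟩
        exact (stronglyClosed_iff.1 (hCs i)).2 P f (hP.trans inf_le_left) (subsystem_iff.1 hsub P f hf) x hx
      · refine le_inf ((Subgroup.commutator_mono inf_le_left inf_le_left).trans (hCc i hi)) ?_
        rw [Subgroup.commutator_le]
        intro a ha b hb
        rw [commutatorElement_def]
        exact T.mul_mem (T.mul_mem (T.mul_mem ha.2 hb.2) (T.inv_mem ha.2)) (T.inv_mem hb.2)
    · have himg : ∀ X ≤ S, imageAlong θ (T ⊔ X) = imageAlong θ X := by
        intro X hX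
        apply le_antisymm
        · have h1 : T ⊔ X ≤ preimageAlong θ (imageAlong θ X) := by
            refine sup_le (factor_le_preimage hD) fun x hx => ?_
            exact mem_preimageAlong.2 ⟨hX hx, tf_mem_imageAlong hX hx⟩
          intro y hy
          obtain ⟨x, hxS, hx, rfl⟩ := mem_imageAlong.1 hy
          exact (mem_preimageAlong.1 (h1 hx)).2
        · intro y hy
          obtain ⟨x, hxS, hx, rfl⟩ := mem_imageAlong.1 hy
          exact tf_mem_imageAlong (sup_le hTS hX) (le_sup_right (a := T) hx)
      refine solvable_of_chain hS'p hDs n (fun i => imageAlong θ (C i)) ?_ ?_ (fun i _ => ?_) (fun i hi => ?_)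
      · rw [eq_bot_iff]
        intro y hy
        obtain ⟨x, hxS, hx, rfl⟩ := mem_imageAlong.1 hy
        rw [hC0, Subgroup.mem_bot] at hx
        rw [hx, tf_one]; exact Subgroup.one_mem _
      · apply le_antisymm
        · rw [← hr]; exact imageAlong_le_range
        · intro y hy
          obtain ⟨x, hx, rfl⟩ := exists_tf_eq hr hy
          exact tf_mem_imageAlong (hCs n).1 (by rw [hCn n le_rfl]; exact hx)
      · rw [← himg (C i) (hCs i).1]
        exact image_sc hD (sc_sup hS hF hTsc (hCs i)) le_sup_left
      · rw [Subgroup.commutator_le]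
        intro a ha b hb
        obtain ⟨x, hxS, hx, rfl⟩ := mem_imageAlong.1 ha
        obtain ⟨y, hyS, hy, rfl⟩ := mem_imageAlong.1 hb
        rw [← hcom x hxS y hyS]
        exact tf_mem_imageAlong (hCs i).1 (hCc i hi (Subgroup.commutator_mem_commutator hx hy))
  · rintro ⟨h1, h2⟩
    -- above `T`
    have hup : ∀ (k : ℕ) (R : Subgroup Ω), F.StronglyClosed R → T ≤ R → Nat.card S - Nat.card R ≤ k →
        SolvChain F R := by
      intro k
      induction k with
      | zero =>
        intro R hR _ hk
        have hRS : R = S := by
          by_contra hne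
          have := card_lt_of_lt' (lt_of_le_of_ne hR.1 hne)
          omega
        rw [hRS]; exact SolvChain.self
      | succ k ih =>
        intro R hR hTR hk
        by_cases hRS : R = S
        · rw [hRS]; exact SolvChain.self
        · have hR1 := image_sc hD hR hTR
          have hpre := factor_preimage_image hD hR.1 hTR
          have hR2 : imageAlong θ R ≠ S' := by
            intro e
            apply hRS
            apply le_antisymm hR.1
            intro x hx
            rw [← hpre]
            refine mem_preimageAlong.2 ⟨hx, ?_⟩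
            rw [e, ← hr]; exact tf_mem_range hx
          obtain ⟨R', hR', hlt, hc⟩ := exists_sc_step hS'p hDs h2 hR1 hR2
          have hsc' := preimage_sc hsurj.1 hR'
          have hle : R ≤ preimageAlong θ R' := by
            conv_lhs => rw [← hpre]
            exact preimage_mono hlt.le
          have hne : R ≠ preimageAlong θ R' := by
            intro e
            apply hlt.ne
            rw [e, imageAlong_preimageAlong hr hR'.1]
          haveI : Finite (preimageAlong θ R') := finite_of_le preimageAlong_le
          have h3 := card_lt_of_lt' (lt_of_le_of_ne hle hne)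
          refine SolvChain.cons hR hle ?_ (ih _ hsc' (hTR.trans hle) (by omega))
          rw [Subgroup.commutator_le]
          intro x hx y hy
          obtain ⟨hxS, hx'⟩ := mem_preimageAlong.1 hx
          obtain ⟨hyS, hy'⟩ := mem_preimageAlong.1 hy
          rw [← hpre]
          refine mem_preimageAlong.2 ⟨hcomS x hxS y hyS, ?_⟩
          rw [hcom x hxS y hyS]
          exact hc (Subgroup.commutator_mem_commutator hx' hy')
    have hdown : ∀ (k : ℕ) (U : Subgroup Ω), F.StronglyClosed U → U ≤ T → Nat.card T - Nat.card U ≤ k →
        SolvChain F U := by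
      intro k
      induction k with
      | zero =>
        intro U hU hUT hk
        have hUe : U = T := by
          by_contra hne
          have := card_lt_of_lt' (lt_of_le_of_ne hUT hne)
          omega
        rw [hUe]; exact hup _ T hTsc le_rfl le_rfl
      | succ k ih =>
        intro U hU hUT hk
        by_cases hUe : U = T
        · rw [hUe]; exact hup _ T hTsc le_rfl le_rfl
        · obtain ⟨A, hA, hAT, hlt, hc⟩ := exists_inv_step hS hF hinv hEs h1 hU hUT hUe
          haveI : Finite A := finite_of_le hA.1
          have h3 := card_lt_of_lt' hlt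
          exact SolvChain.cons hU hlt.le hc (ih A hA hAT (by omega))
    obtain ⟨n, C, hC0, hCn, hCm, hCs, hCc⟩ := hdown _ ⊥ sc_bot bot_le le_rfl
    exact solvable_of_chain hS hF n C hC0 (hCn n le_rfl) (fun i _ => hCs i) hCc

end Cfsg.Agent.S5159
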