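import Cfsg.Statements.S5160
import Cfsg.Agent.H28.FusSimple

set_option autoImplicit false
open Cfsg

namespace Cfsg.Agent.S5160

open Cfsg Cfsg.FusionSystem Cfsg.Agent.H28

/-- Let G be a finite group with nontrivial Sylow p-subgroup S and F its fusion system on S. Suppose (a) no nontrivial proper subgroup of S is strongly closed in F, and (b) the automorphisms of S induced by G are generated by those induced, for R running over the fully normalized radical centric subgroups of F, by the subgroup of N_G(R) generated by its elements of p-power order. Then F is simple. -/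
theorem result {G : Type*} [Group G] [Finite G] (p : ℕ) [Fact p.Prime] (S : Sylow p G) (hS1 : (S : Subgroup G) ≠ ⊥) (ha : ∀ T : Subgroup G, (Cfsg.groupFusionSystem (S : Subgroup G)).StronglyClosed T → T = ⊥ ∨ T = (S : Subgroup G)) (hb : Cfsg.autInducedBy ⊤ (S : Subgroup G) = ⨆ (R : Subgroup G) (_ : (Cfsg.groupFusionSystem (S : Subgroup G)).IsFullyNormalized R ∧ (Cfsg.groupFusionSystem (S : Subgroup G)).IsRadical p R ∧ (Cfsg.groupFusionSystem (S : Subgroup G)).IsCentric R), Cfsg.autInducedBy (Subgroup.closure {g : G | g ∈ Subgroup.normalizer (R : Set G) ∧ ∃ k : ℕ, orderOf g = p ^ k}) (S : Subgroup G)) : (Cfsg.groupFusionSystem (S : Subgroup G)).IsSimple p := by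
  classical
  have hS := S.isPGroup'
  set F := Cfsg.groupFusionSystem (S : Subgroup G) with hFdef
  have hF : F.IsSaturated p := group_saturated S
  refine ⟨hF, hS1, ?_⟩
  intro T E hE
  have hsc : F.StronglyClosed T := hE.1.2.2.2.1
  rcases ha T hsc with h | rfl
  · exact Or.inl h
  right
  have hEs : E.IsSaturated p := hE.1.1
  have hinv : E.IsInvariantIn F := hE.1.2.2
  have hsub : ∀ P f, Mor E P f → Mor F P f := subsystem_iff.1 hinv.1
  suffices h : F.autGroup (S : Subgroup G) ≤ E.autGroup (S : Subgroup G) by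
    have := inv_eq_of_top hinv h
    exact ⟨rfl, fun P => by rw [this]⟩
  rw [autGroup_group le_rfl, hb]
  refine iSup₂_le fun R hR => ?_
  obtain ⟨hRn, hRr, hRc⟩ := hR
  intro α hα
  obtain ⟨g, hg, hgα⟩ := mem_autInducedBy'.1 hα
  have hgN : g ∈ Subgroup.normalizer ((S : Subgroup G) : Set G) := normalizer_of_autFun hgα
  -- g acts on R as an element of `Aut_E(R)`
  have key : ∀ g ∈ Subgroup.closure {g : G | g ∈ Subgroup.normalizer (R : Set G) ∧
      ∃ k : ℕ, orderOf g = p ^ k}, ∃ h : g ∈ Subgroup.normalizer (R : Set G),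
      conjAut R g h ∈ E.autGroup R := by
    intro g hg
    refine Subgroup.closure_induction (p := fun g _ => ∃ h : g ∈ Subgroup.normalizer (R : Set G),
      conjAut R g h ∈ E.autGroup R) ?_ ?_ ?_ ?_ hg
    · rintro g ⟨hgR, k, hk⟩
      refine ⟨hgR, inv_pElement hS hF hinv hRn ?_ ?_⟩
      · rw [autGroup_group hRn.1]
        exact conjAut_mem hgR trivial
      · apply isPGroup_zpowers_of_pow (n := k)
        apply mulAut_ext
        intro x hx
        rw [autFun_one hx]
        have : ∀ n : ℕ, ∀ x ∈ R, autFun ((conjAut R g hgR) ^ n) x = g ^ n * x * (g ^ n)⁻¹ := by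
          intro n
          induction n with
          | zero => intro x hx; rw [pow_zero, autFun_one hx]; simp
          | succ n ih =>
            intro x hx
            rw [pow_succ, autFun_mul _ _ hx, autFun_conjAut hgR hx, ih _
              ((Subgroup.mem_normalizer_iff.1 hgR x).1 hx), pow_succ]
            group
        rw [this _ x hx, ← hk, pow_orderOf_eq_one]
        simp
    · refine ⟨Subgroup.one_mem _, ?_⟩
      have : conjAut R (1 : G) (Subgroup.one_mem _) = 1 := mulAut_ext fun x hx => by
        rw [autFun_conjAut _ hx, autFun_one hx]; simp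
      rw [this]; exact Subgroup.one_mem _
    · rintro a b _ _ ⟨ha, ha'⟩ ⟨hb, hb'⟩
      refine ⟨Subgroup.mul_mem _ ha hb, ?_⟩
      have : conjAut R (a * b) (Subgroup.mul_mem _ ha hb) = conjAut R a ha * conjAut R b hb :=
        mulAut_ext fun x hx => by
          rw [autFun_conjAut _ hx, autFun_mul _ _ hx, autFun_conjAut _ hx, autFun_conjAut ha
            ((Subgroup.mem_normalizer_iff.1 hb x).1 hx)]
          group
      rw [this]; exact Subgroup.mul_mem _ ha' hb'
    · rintro a _ ⟨ha, ha'⟩
      refine ⟨Subgroup.inv_mem _ ha, ?_⟩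
      have : conjAut R a⁻¹ (Subgroup.inv_mem _ ha) = (conjAut R a ha)⁻¹ := by
        rw [eq_inv_iff_mul_eq_one]
        refine mulAut_ext fun x hx => ?_
        rw [autFun_mul _ _ hx, autFun_conjAut _ hx, autFun_one hx,
          autFun_conjAut (Subgroup.inv_mem _ ha) ((Subgroup.mem_normalizer_iff.1 ha x).1 hx)]
        group
      rw [this]; exact Subgroup.inv_mem _ ha'
  obtain ⟨hgR, hgE⟩ := key g hg
  have hmE : Mor E R (fun x => g * x * g⁻¹) :=
    (mor_autFun hRn.1 hgE).congr fun x hx => autFun_conjAut hgR hx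
  have hmF : Mor F (S : Subgroup G) (fun x => g * x * g⁻¹) :=
    mor_group_conj le_rfl fun x hx => (Subgroup.mem_normalizer_iff.1 hgN x).1 hx
  have := ext_up hS hF hEs hsub hmF _ R hRc le_rfl hmE
  exact mem_autGroup_of_mor this fun x => by rw [← autFun_coe, hgα x x.2]
end Cfsg.Agent.S5160
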