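import Cfsg.Statements.S5166
import Cfsg.Agent.H28.SylM11
import Cfsg.Agent.H28.MathieuBase

set_option autoImplicit false
open Cfsg

namespace Cfsg.Agent.S5166

open Cfsg.FusionSystem Cfsg.Agent.H28 Cfsg.Agent.H7

def ok (c : ℕ) : Bool := okPerm c && (Nat.beq (pimg c sqMask) sqMask && Nat.beq (papp c 0) 0)

theorem ok_spec (c : ℕ) (h : ok c = true) : isPermCode c = true ∧ mkPerm c ∈ Spor.M11 := by
  unfold ok at h
  rw [Bool.and_eq_true, Bool.and_eq_true] at h
  refine ⟨okPerm_isPerm h.1, ⟨mkPerm_mem_M24 h.1, stab_sq (okPerm_isPerm h.1) h.2.1⟩, ?_⟩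
  have := stab_gpt (i := 0) (okPerm_isPerm h.1) (by norm_num) h.2.2
  rwa [gpt0] at this

theorem tck : tCheck ok sdL4 sdgens sdT [sdg0] = true := by decide +kernel

theorem gck : (sdgens.all fun g => ok g) = true := by decide +kernel

theorem fin {g : Equiv.Perm GolayPt} (hg : g ∈ Spor.M11)
    (h : ∀ a ∈ finF sdchain sdF, g (gpt a) = gpt a) : g = 1 := by
  apply M12_fix hg.1 ![0, 1, 6, 9, 18] (by decide) (by decide) (by decide)
  intro i
  apply h
  have : ∀ i, (![0, 1, 6, 9, 18] : Fin 5 → ℕ) i ∈ finF sdchain sdF := by decide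
  exact this i

/-- The 2-fusion system of the Mathieu group M₁₁ (as the explicit permutation group carved out of the automorphism group of the binary Golay code) on a Sylow 2-subgroup is simple: saturated, over a nontrivial 2-group, with no normal subsystem other than the trivial one and itself. -/
theorem result (S : Sylow 2 Cfsg.Spor.M11) : (Cfsg.groupFusionSystem (S : Subgroup Cfsg.Spor.M11)).IsSimple 2 := by
  obtain ⟨K, hK⟩ := sdenum
  exact hK.simple Spor.M11 (ok := ok) (m := sqMask) (z := sdg0) (k := 4) (d := 495) (T := sdT)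
    (r := sdchain) (F := sdF) ok_spec gck
    (by decide +kernel) (by rw [card_M11]; norm_num) (by norm_num) sdlen (by norm_num) sdctr tck
    (fun g hg => by rw [← squareDodecad_eq]; exact hg.1.2)
    (by simp [sdF]) (fun g hg a ha => by
      simp only [sdF, List.mem_cons, List.not_mem_nil, or_false] at ha
      rw [ha, gpt0]; exact hg.2) sdnc (fun g hg h => fin hg h) S
end Cfsg.Agent.S5166
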