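import Cfsg.Statements.S5167
import Cfsg.Agent.H28.SylM12
import Cfsg.Agent.H28.MathieuBase

set_option autoImplicit false
open Cfsg

namespace Cfsg.Agent.S5167

open Cfsg.FusionSystem Cfsg.Agent.H28 Cfsg.Agent.H7

def ok (c : ℕ) : Bool := okPerm c && Nat.beq (pimg c sqMask) sqMask

theorem ok_spec (c : ℕ) (h : ok c = true) : isPermCode c = true ∧ mkPerm c ∈ Spor.M12 := by
  unfold ok at h
  rw [Bool.and_eq_true] at h
  exact ⟨okPerm_isPerm h.1, mkPerm_mem_M24 h.1, stab_sq (okPerm_isPerm h.1) h.2⟩

theorem tck : tCheck ok scL6 scgens scT [scg0] = true := by decide +kernel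

theorem gck : (scgens.all fun g => ok g) = true := by decide +kernel

theorem fin {g : Equiv.Perm GolayPt} (hg : g ∈ Spor.M12)
    (h : ∀ a ∈ finF scchain scF, g (gpt a) = gpt a) : g = 1 := by
  apply M12_fix hg ![0, 4, 8, 13, 1] (by decide) (by decide) (by decide)
  intro i
  apply h
  have : ∀ i, (![0, 4, 8, 13, 1] : Fin 5 → ℕ) i ∈ finF scchain scF := by decide
  exact this i

/-- The 2-fusion system of the Mathieu group M₁₂ (as the explicit permutation group carved out of the automorphism group of the binary Golay code) on a Sylow 2-subgroup is simple: saturated, over a nontrivial 2-group, with no normal subsystem other than the trivial one and itself. -/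
theorem result (S : Sylow 2 Cfsg.Spor.M12) : (Cfsg.groupFusionSystem (S : Subgroup Cfsg.Spor.M12)).IsSimple 2 := by
  obtain ⟨K, hK⟩ := scenum
  exact hK.simple Spor.M12 (ok := ok) (m := sqMask) (z := scg0) (k := 6) (d := 1485) (T := scT)
    (r := scchain) (F := scF) ok_spec gck
    (by decide +kernel) (by rw [card_M12]; norm_num) (by norm_num) sclen (by norm_num) scctr tck
    (fun g hg => by rw [← squareDodecad_eq]; exact hg.2)
    (by simp [scF]) (by simp [scF]) scnc (fun g hg h => fin hg h) S
end Cfsg.Agent.S5167
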