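import Cfsg.Statements.S5168
import Cfsg.Agent.H28.SylM22

set_option autoImplicit false
open Cfsg

namespace Cfsg.Agent.S5168

open Cfsg.FusionSystem Cfsg.Agent.H28 Cfsg.Agent.H7

theorem gpt23 : gpt 23 = none := by decide

theorem gpt0 : gpt 0 = some 0 := by decide

theorem eq_SB : Spor.M22 = SB 2 := by
  rw [SB_succ, SB_succ, SB_zero]
  unfold Spor.M22 Spor.M23
  have h0 : bp 0 = none := by decide
  have h1 : bp 1 = some 0 := by decide
  rw [h0, h1]

theorem card_eq : Nat.card Spor.M22 = 2 ^ 7 * 3465 := by rw [eq_SB, card_SB2]; norm_num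

def ok (c : ℕ) : Bool := okPerm c && (Nat.beq (papp c 23) 23 && Nat.beq (papp c 0) 0)

theorem ok_spec (c : ℕ) (h : ok c = true) : isPermCode c = true ∧ mkPerm c ∈ Spor.M22 := by
  unfold ok at h
  rw [Bool.and_eq_true, Bool.and_eq_true] at h
  refine ⟨okPerm_isPerm h.1, ⟨mkPerm_mem_M24 h.1, ?_⟩, ?_⟩
  · have := mkPerm_gpt (okPerm_isPerm h.1) (show 23 < 24 by norm_num)
    rw [Nat.eq_of_beq_eq_true h.2.1, gpt23] at this
    exact this
  · have := mkPerm_gpt (okPerm_isPerm h.1) (show 0 < 24 by norm_num)
    rw [Nat.eq_of_beq_eq_true h.2.2, gpt0] at this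
    exact this

theorem tck : tCheck ok sbL7 sbgens sbT [sbg0] = true := by decide +kernel

theorem gck : (sbgens.all fun g => ok g) = true := by decide +kernel

theorem fin {g : Equiv.Perm GolayPt} (hg : g ∈ Spor.M22)
    (h : ∀ a ∈ finF sbchain sbF, g (gpt a) = gpt a) : g = 1 := by
  apply SB_seven
  refine ⟨hg.1.1, fun i hi => ?_⟩
  apply h
  have : ∀ i < 7, gBase.getD i 0 ∈ finF sbchain sbF := by decide
  exact this i hi

/-- The 2-fusion system of the Mathieu group M₂₂ (as the explicit permutation group carved out of the automorphism group of the binary Golay code) on a Sylow 2-subgroup is simple: saturated, over a nontrivial 2-group, with no normal subsystem other than the trivial one and itself. -/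
theorem result (S : Sylow 2 Cfsg.Spor.M22) : (Cfsg.groupFusionSystem (S : Subgroup Cfsg.Spor.M22)).IsSimple 2 := by
  obtain ⟨K, hK⟩ := sbenum
  exact hK.simple Spor.M22 (ok := ok) (m := 0) (z := sbg0) (k := 7) (d := 3465) (T := sbT)
    (r := sbchain) (F := sbF) ok_spec gck
    (by decide +kernel) card_eq (by norm_num) sblen (by norm_num) sbctr tck
    (fun g _ => by rw [toSet_zero, Finset.smul_finset_empty])
    (by simp [sbF]) (fun g hg a ha => by
      simp only [sbF, List.mem_cons, List.not_mem_nil, or_false] at ha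
      rcases ha with rfl | rfl
      · rw [gpt23]; exact hg.1.2
      · rw [gpt0]; exact hg.2) sbnc (fun g hg h => fin hg h) S
end Cfsg.Agent.S5168
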