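import Cfsg.Statements.S5169
import Cfsg.Agent.H28.SylM22

set_option autoImplicit false
open Cfsg

namespace Cfsg.Agent.S5169

open Cfsg.FusionSystem Cfsg.Agent.H28 Cfsg.Agent.H7

theorem gpt23 : gpt 23 = none := by decide

theorem eq_SB : Spor.M23 = SB 1 := by
  rw [SB_succ, SB_zero]
  unfold Spor.M23
  have : bp 0 = none := by decide
  rw [this]

theorem card_eq : Nat.card Spor.M23 = 2 ^ 7 * 79695 := by rw [eq_SB, card_SB1]; norm_num

def ok (c : ℕ) : Bool := okPerm c && Nat.beq (papp c 23) 23

theorem ok_spec (c : ℕ) (h : ok c = true) : isPermCode c = true ∧ mkPerm c ∈ Spor.M23 := by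
  unfold ok at h
  rw [Bool.and_eq_true] at h
  refine ⟨okPerm_isPerm h.1, mkPerm_mem_M24 h.1, ?_⟩
  have := mkPerm_gpt (okPerm_isPerm h.1) (show 23 < 24 by norm_num)
  rw [Nat.eq_of_beq_eq_true h.2, gpt23] at this
  exact this

theorem tck : tCheck ok sbL7 sbgens sbT [sbg0] = true := by decide +kernel

theorem gck : (sbgens.all fun g => ok g) = true := by decide +kernel

theorem ncs : nChain sbL7 sbm ((0, [23]) :: sbchain) [23] = true := by decide +kernel

theorem fin {g : Equiv.Perm GolayPt} (hg : g ∈ Spor.M23)
    (h : ∀ a ∈ finF ((0, [23]) :: sbchain) [23], g (gpt a) = gpt a) : g = 1 := by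
  apply SB_seven
  refine ⟨hg.1, fun i hi => ?_⟩
  apply h
  have : ∀ i < 7, gBase.getD i 0 ∈ finF ((0, [23]) :: sbchain) [23] := by decide
  exact this i hi

/-- The 2-fusion system of the Mathieu group M₂₃ (as the explicit permutation group carved out of the automorphism group of the binary Golay code) on a Sylow 2-subgroup is simple: saturated, over a nontrivial 2-group, with no normal subsystem other than the trivial one and itself. -/
theorem result (S : Sylow 2 Cfsg.Spor.M23) : (Cfsg.groupFusionSystem (S : Subgroup Cfsg.Spor.M23)).IsSimple 2 := by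
  obtain ⟨K, hK⟩ := sbenum
  exact hK.simple Spor.M23 (ok := ok) (m := 0) (z := sbg0) (k := 7) (d := 79695) (T := sbT)
    (r := (0, [23]) :: sbchain) (F := [23]) ok_spec gck
    (by decide +kernel) card_eq (by norm_num) sblen (by norm_num) sbctr tck
    (fun g _ => by rw [toSet_zero, Finset.smul_finset_empty])
    (by simp) (fun g hg a ha => by
      rw [List.mem_singleton] at ha
      rw [ha, gpt23]; exact hg.2) ncs (fun g hg h => fin hg h) S
end Cfsg.Agent.S5169
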