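import Cfsg.Statements.S5170
import Cfsg.Agent.H28.SylM24

set_option autoImplicit false
open Cfsg

namespace Cfsg.Agent.S5170

open Cfsg.FusionSystem Cfsg.Agent.H28 Cfsg.Agent.H7

theorem card_eq : Nat.card M24 = 2 ^ 10 * 239085 := by rw [card_M24]; norm_num

theorem tck : tCheck okPerm saL10 sagens saT [sag0] = true := by decide +kernel

theorem gck : (sagens.all fun g => okPerm g) = true := by decide +kernel

theorem fin {g : Equiv.Perm GolayPt} (hg : g ∈ M24)
    (h : ∀ a ∈ finF sachain saF, g (gpt a) = gpt a) : g = 1 := by
  apply SB_seven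
  refine ⟨hg, fun i hi => ?_⟩
  apply h
  have : ∀ i < 7, gBase.getD i 0 ∈ finF sachain saF := by decide
  exact this i hi

/-- The 2-fusion system of the Mathieu group M₂₄ (as the explicit permutation group of the 24 points preserving the binary Golay code) on a Sylow 2-subgroup is simple: saturated, over a nontrivial 2-group, with no normal subsystem other than the trivial one and itself. -/
theorem result (S : Sylow 2 Cfsg.M24) : (Cfsg.groupFusionSystem (S : Subgroup Cfsg.M24)).IsSimple 2 := by
  obtain ⟨K, hK⟩ := saenum
  exact hK.simple M24 (ok := okPerm) (m := 0) (z := sag0) (k := 10) (d := 239085) (T := saT)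
    (r := sachain) (F := saF) (fun c hc => ⟨okPerm_isPerm hc, mkPerm_mem_M24 hc⟩) gck
    (by decide +kernel) card_eq (by norm_num) salen (by norm_num) sactr tck
    (fun g _ => by rw [toSet_zero, Finset.smul_finset_empty])
    (by simp [saF]) (by simp [saF]) sanc (fun g hg h => fin hg h) S
end Cfsg.Agent.S5170
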