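import Cfsg.Statements.S5345
import Cfsg.Agent.H29.TT

set_option autoImplicit false
open Cfsg

namespace Cfsg.Agent.S5345

open Cfsg.Agent.H29

theorem comm_in_sylow {G : Type*} [Group G] [Finite G] {D : Set G} (hD : Cfsg.IsThreeTranspositionSet D)
    (T : Sylow 2 G) {a b : G} (ha : a ∈ D) (haT : a ∈ T) (hb : b ∈ D) (hbT : b ∈ T) : Commute a b := by
  rcases hD.2 a ha b hb with h | h
  · exact tt_comm_of_sq hD ha hb h
  · have habT : a * b ∈ (T : Subgroup G) := (T : Subgroup G).mul_mem haT hbT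
    obtain ⟨k, hk⟩ := T.isPGroup' ⟨a * b, habT⟩
    have hk' : (a * b) ^ 2 ^ k = 1 := by simpa [Subtype.ext_iff] using hk
    have h1 : orderOf (a * b) ∣ Nat.gcd 3 (2 ^ k) :=
      Nat.dvd_gcd (orderOf_dvd_of_pow_eq_one h) (orderOf_dvd_of_pow_eq_one hk')
    have h2 : Nat.gcd 3 (2 ^ k) = 1 := Nat.Coprime.pow_right k (by norm_num)
    rw [h2, Nat.dvd_one, orderOf_eq_one_iff] at h1
    exact tt_comm_of_sq hD ha hb (by rw [h1, one_pow])

/-- Let D be a conjugation-invariant generating set of 3-transpositions of a finite group G and T a Sylow 2-subgroup of G. Then the members of D lying in T generate an abelian subgroup, and their number is the width of D (the largest number of pairwise commuting members of D). -/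
theorem result {G : Type*} [Group G] [Finite G] {D : Set G} (hD : Cfsg.IsThreeTranspositionGroup D) (T : Sylow 2 G) : IsMulCommutative (Subgroup.closure {d : G | d ∈ D ∧ d ∈ T}) ∧ {d : G | d ∈ D ∧ d ∈ T}.ncard = Cfsg.commutingWidth D := by
  have hcomm : ∀ a ∈ {d : G | d ∈ D ∧ d ∈ T}, ∀ b ∈ {d : G | d ∈ D ∧ d ∈ T}, a * b = b * a :=
    fun a ha b hb => (comm_in_sylow hD.1 T ha.1 ha.2 hb.1 hb.2).eq
  refine ⟨Subgroup.isMulCommutative_closure hcomm, ?_⟩
  have hmem : {d : G | d ∈ D ∧ d ∈ T}.ncard ∈ {n : ℕ | ∃ E : Set G, E ⊆ D ∧ E.Finite ∧ (∀ a ∈ E, ∀ b ∈ E, Commute a b) ∧ E.ncard = n} :=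
    ⟨_, fun x hx => hx.1, Set.toFinite _, hcomm, rfl⟩
  have hub : ∀ n ∈ {n : ℕ | ∃ E : Set G, E ⊆ D ∧ E.Finite ∧ (∀ a ∈ E, ∀ b ∈ E, Commute a b) ∧ E.ncard = n}, n ≤ {d : G | d ∈ D ∧ d ∈ T}.ncard := by
    rintro n ⟨E, hED, -, hE, rfl⟩
    have hEc : IsMulCommutative (Subgroup.closure E) := Subgroup.isMulCommutative_closure (fun a ha b hb => (hE a ha b hb).eq)
    have hP : IsPGroup 2 (Subgroup.closure E) := by
      intro x
      refine ⟨1, ?_⟩
      rw [pow_one, Subtype.ext_iff]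
      obtain ⟨x, hx⟩ := x
      simp only [Subgroup.coe_pow, Subgroup.coe_one]
      induction hx using Subgroup.closure_induction with
      | mem y hy => rw [pow_two]; exact tt_mul_self hD.1 (hED hy)
      | one => exact one_pow 2
      | mul y z hy hz h1 h2 =>
        have hc : Commute y z := by
          have := hEc.is_comm.comm ⟨y, hy⟩ ⟨z, hz⟩
          exact Subtype.ext_iff.1 this
        rw [hc.mul_pow, h1, h2, one_mul]
      | inv y hy h1 => rw [inv_pow, h1, inv_one]
    obtain ⟨Q, hQ⟩ := hP.exists_le_sylow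
    obtain ⟨g, hg⟩ := MulAction.exists_smul_eq G Q T
    have himg : (fun x => g * x * g⁻¹) '' E ⊆ {d : G | d ∈ D ∧ d ∈ T} := by
      rintro _ ⟨x, hx, rfl⟩
      refine ⟨hD.2.1 g x (hED hx), ?_⟩
      have hxQ : x ∈ Q := hQ (Subgroup.subset_closure hx)
      rw [← hg]
      exact Subgroup.smul_mem_pointwise_smul x (MulAut.conj g) (Q : Subgroup G) hxQ
    calc E.ncard = ((fun x => g * x * g⁻¹) '' E).ncard := by
          rw [Set.ncard_image_of_injective]
          intro x y hxy
          simpa using hxy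
      _ ≤ _ := Set.ncard_le_ncard himg (Set.toFinite _)
  apply le_antisymm
  · exact le_csSup ⟨_, hub⟩ hmem
  · exact csSup_le ⟨_, hmem⟩ hub

end Cfsg.Agent.S5345
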