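import Cfsg.Statements.S5346
import Cfsg.Agent.H29.TT
import Cfsg.Agent.H29.WidthOne
import Cfsg.Agent.H1.Cores

set_option autoImplicit false
open Cfsg

namespace Cfsg.Agent.S5346

open Subgroup Cfsg.Agent.H29

theorem bdd {G : Type*} [Group G] [Finite G] (D : Set G) :
    BddAbove {n : ℕ | ∃ E : Set G, E ⊆ D ∧ E.Finite ∧ (∀ a ∈ E, ∀ b ∈ E, Commute a b) ∧
      E.ncard = n} := by
  refine ⟨Nat.card G, ?_⟩
  rintro n ⟨E, _, _, _, rfl⟩
  rw [← Set.ncard_univ]
  exact Set.ncard_le_ncard (Set.subset_univ _) (Set.toFinite _)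

theorem eq_of_comm {G : Type*} [Group G] [Finite G] {D : Set G}
    (h : Cfsg.commutingWidth D = 1) {a b : G} (ha : a ∈ D) (hb : b ∈ D) (hc : Commute a b) :
    a = b := by
  by_contra hne
  have h2 : (2 : ℕ) ≤ Cfsg.commutingWidth D := by
    apply le_csSup (bdd D)
    refine ⟨{a, b}, ?_, Set.toFinite _, ?_, Set.ncard_pair hne⟩
    · rintro x (rfl | rfl)
      · exact ha
      · exact hb
    · rintro x (rfl | rfl) y (rfl | rfl)
      · exact Commute.refl _
      · exact hc
      · exact hc.symm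
      · exact Commute.refl _
  omega

theorem width_of_eq {G : Type*} [Group G] [Finite G] {D : Set G} {d : G} (hd : d ∈ D)
    (h : ∀ a ∈ D, ∀ b ∈ D, Commute a b → a = b) : Cfsg.commutingWidth D = 1 := by
  apply le_antisymm
  · apply csSup_le
    · exact ⟨1, {d}, by simpa using hd, Set.toFinite _, by simp, Set.ncard_singleton d⟩
    rintro n ⟨E, hE, _, hc, rfl⟩
    rw [Set.ncard_le_one_iff_subsingleton]
    intro a ha b hb
    exact h a (hE ha) b (hE hb) (hc a ha b hb)
  · exact le_csSup (bdd D) ⟨{d}, by simpa using hd, Set.toFinite _, by simp, Set.ncard_singleton d⟩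

/-- Let D be a conjugation-invariant generating set of 3-transpositions of a finite group G and d a member of D. Then D has width 1 (no two different members of D commute) if and only if G is the product of the subgroup generated by d with the largest normal 3-subgroup of G. -/
theorem result {G : Type*} [Group G] [Finite G] {D : Set G} (hD : Cfsg.IsThreeTranspositionGroup D) {d : G} (hd : d ∈ D) : Cfsg.commutingWidth D = 1 ↔ Subgroup.zpowers d ⊔ Cfsg.pCore 3 G = ⊤ := by
  have : Fact (Nat.Prime 3) := ⟨Nat.prime_three⟩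
  obtain ⟨h3, hconj, hgen⟩ := hD
  constructor
  · intro hw
    have hinv : ∀ a ∈ D, a * a = 1 := fun a ha => tt_mul_self h3 ha
    have hbr : ∀ a ∈ D, ∀ b ∈ D, a * b * a = b * a * b := by
      intro a ha b hb
      by_cases hc : Commute a b
      · rw [eq_of_comm hw ha hb hc]
      · exact tt_braid h3 ha hb hc
    have hle : ∀ {a b : G}, a ∈ D → b ∈ D → a * b ∈ Cfsg.pCore 3 G :=
      fun ha hb => width_one hinv hbr hconj ha hb
    rw [eq_top_iff, ← hgen, Subgroup.closure_le]
    intro a ha
    have h1 : a = d * (d * a) := by rw [← mul_assoc, hinv d hd, one_mul]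
    rw [h1]
    exact mul_mem (Subgroup.mem_sup_left (Subgroup.mem_zpowers d))
      (Subgroup.mem_sup_right (hle hd ha))
  · intro htop
    have hN : (Cfsg.pCore 3 G).Normal := H1.pCore_normal 3 G
    have hP : IsPGroup 3 (Cfsg.pCore 3 G) := H1.pCore_isPGroup 3 G
    have hnot : ∀ x ∈ Cfsg.pCore 3 G, x ^ 2 = 1 → x = 1 := by
      intro x hx hx2
      obtain ⟨k, hk⟩ := hP ⟨x, hx⟩
      have hk' : x ^ 3 ^ k = 1 := congrArg Subtype.val hk
      have h1 : orderOf x ∣ 2 := orderOf_dvd_of_pow_eq_one hx2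
      have h2 : orderOf x ∣ 3 ^ k := orderOf_dvd_of_pow_eq_one hk'
      have h4 : Nat.Coprime 2 (3 ^ k) := Nat.Coprime.pow_right _ (by norm_num)
      have h5 := Nat.dvd_gcd h1 h2
      rw [h4.gcd_eq_one] at h5
      exact orderOf_eq_one_iff.1 (Nat.dvd_one.1 h5)
    have hcos : ∀ a : G, a ∈ Cfsg.pCore 3 G ∨ d * a ∈ Cfsg.pCore 3 G := by
      intro a
      have ha : a ∈ Subgroup.zpowers d ⊔ Cfsg.pCore 3 G := by rw [htop]; trivial
      obtain ⟨y, hy, z, hz, rfl⟩ := Subgroup.mem_sup_of_normal_right.1 ha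
      obtain ⟨n, rfl⟩ := Subgroup.mem_zpowers_iff.1 hy
      have hdd := tt_mul_self h3 hd
      rcases Int.even_or_odd' n with ⟨m, rfl | rfl⟩
      · left
        have : d ^ (2 * m) = 1 := by rw [zpow_mul, zpow_two, hdd, one_zpow]
        rw [this, one_mul]; exact hz
      · right
        have : d ^ (2 * m + 1) = d := by rw [zpow_add, zpow_mul, zpow_two, hdd, one_zpow, one_mul, zpow_one]
        rw [this, ← mul_assoc, hdd, one_mul]; exact hz
    apply width_of_eq hd
    intro a ha b hb hc
    have hD' : ∀ x ∈ D, d * x ∈ Cfsg.pCore 3 G := by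
      intro x hx
      rcases hcos x with h | h
      · exact absurd (hnot x h (by rw [pow_two, tt_mul_self h3 hx])) (tt_ne_one h3 hx)
      · exact h
    have h1 : a * b ∈ Cfsg.pCore 3 G := by
      have := mul_mem (inv_mem (hD' a ha)) (hD' b hb)
      rw [mul_inv_rev, tt_inv h3 ha, tt_inv h3 hd] at this
      have e : a * d * (d * b) = a * b := by rw [mul_assoc, ← mul_assoc d, tt_mul_self h3 hd, one_mul]
      rwa [e] at this
    have h2 := hnot _ h1 (tt_comm_sq h3 ha hb hc)
    rw [← tt_inv h3 hb]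
    exact eq_inv_of_mul_eq_one_left h2

end Cfsg.Agent.S5346
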