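import Cfsg.Statements.S5349
import Cfsg.Agent.H29.TT3

set_option autoImplicit false
open Cfsg

namespace Cfsg.Agent.S5349

open Subgroup Cfsg.Agent.H29

/-- Let D be a conjugacy class of 3-transpositions generating the finite group G, with at least two members, and d a member of D. Then the set of members of D commuting with exactly the same members of D as d coincides with the set of members of D lying in the coset of d modulo the largest normal 2-subgroup of G, and also with the orbit of d under conjugation by that normal 2-subgroup. -/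
theorem result {G : Type*} [Group G] [Finite G] {D : Set G} (hD : Cfsg.IsThreeTranspositionClass D) (hD2 : ∃ a ∈ D, ∃ b ∈ D, a ≠ b) {d : G} (hd : d ∈ D) : {v : G | v ∈ D ∧ ∀ e ∈ D, Commute v e ↔ Commute d e} = {v : G | v ∈ D ∧ d⁻¹ * v ∈ Cfsg.pCore 2 G} ∧ {v : G | v ∈ D ∧ ∀ e ∈ D, Commute v e ↔ Commute d e} = {v : G | ∃ g ∈ Cfsg.pCore 2 G, v = g * d * g⁻¹} := by
  have : Fact (Nat.Prime 2) := ⟨Nat.prime_two⟩
  have hN : (Cfsg.pCore 2 G).Normal := H1.pCore_normal 2 G
  have h := tt_of_class hD
  have hV : {v : G | v ∈ D ∧ ∀ e ∈ D, Commute v e ↔ Commute d e} = {v : G | VRel D v d} := by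
    ext v
    exact ⟨fun h => ⟨h.1, hd, h.2⟩, fun h => ⟨h.1, h.2.2⟩⟩
  rw [hV]
  constructor
  · ext v
    constructor
    · intro hv
      refine ⟨hv.1, ?_⟩
      rw [h.inv hd]
      exact h.core_of_vrel hv
    · rintro ⟨hv, hq⟩
      rw [h.inv hd] at hq
      exact h.vrel_of_core hd hv hq
  · ext v
    constructor
    · intro hv
      by_cases hvd : v = d
      · exact ⟨1, one_mem _, by rw [hvd]; group⟩
      obtain ⟨b, hb, hb1⟩ : ∃ b ∈ D, ¬ Commute d b := by
        obtain ⟨b, hb, h1, _⟩ := h.exists_common hD.2.2 hd (tt_class_isConj hD hd hv.1)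
          (fun h' => hvd h'.symm) hv.comm.symm
        exact ⟨b, hb, h1⟩
      have hbv : ¬ Commute b v := fun h' => hb1 ((hv.2.2 b hb).1 h'.symm)
      have h1 := h.str_conj2 hd hb hv.1 hb1 hbv hv.comm.symm
      refine ⟨_, ?_, h1.symm⟩
      have h2 := h.vrel_mul_conj hv hb
      have e1 : (d * v) * b * (d * v)⁻¹ = d * v * b * v * d := by
        rw [mul_inv_rev, h.inv hd, h.inv hv.1]; group
      rw [e1] at h2
      exact h.core_of_vrel h2
    · rintro ⟨g, hg, rfl⟩
      apply h.vrel_of_core hd (h.conj g d hd)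
      have e1 : d * (g * d * g⁻¹) = (d * g * d⁻¹) * g⁻¹ := by
        rw [h.inv hd]; group
      rw [e1]
      exact mul_mem (hN.conj_mem g hg d) (inv_mem hg)

end Cfsg.Agent.S5349
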