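import Cfsg.Statements.S5350
import Cfsg.Agent.H29.TT3

set_option autoImplicit false
open Cfsg

namespace Cfsg.Agent.S5350

open Subgroup Cfsg.Agent.H29

/-- Let D be a conjugacy class of 3-transpositions generating the finite group G, with at least two members, and d a member of D. Then the set of members w of D whose commuting partners in D (other than w) are exactly those of d (other than d) coincides with the set of members of D lying in the coset of d modulo the largest normal 3-subgroup of G, and also with the orbit of d under conjugation by that normal 3-subgroup. -/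
theorem result {G : Type*} [Group G] [Finite G] {D : Set G} (hD : Cfsg.IsThreeTranspositionClass D) (hD2 : ∃ a ∈ D, ∃ b ∈ D, a ≠ b) {d : G} (hd : d ∈ D) : {w : G | w ∈ D ∧ {y : G | y ∈ D ∧ y ≠ d ∧ Commute d y} = {y : G | y ∈ D ∧ y ≠ w ∧ Commute w y}} = {w : G | w ∈ D ∧ d⁻¹ * w ∈ Cfsg.pCore 3 G} ∧ {w : G | w ∈ D ∧ {y : G | y ∈ D ∧ y ≠ d ∧ Commute d y} = {y : G | y ∈ D ∧ y ≠ w ∧ Commute w y}} = {w : G | ∃ g ∈ Cfsg.pCore 3 G, w = g * d * g⁻¹} := by
  have : Fact (Nat.Prime 3) := ⟨Nat.prime_three⟩
  have hN : (Cfsg.pCore 3 G).Normal := H1.pCore_normal 3 G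
  have h := tt_of_class hD
  have hV : {w : G | w ∈ D ∧ {y : G | y ∈ D ∧ y ≠ d ∧ Commute d y} =
      {y : G | y ∈ D ∧ y ≠ w ∧ Commute w y}} = {v : G | WRel D v d} := by
    ext v
    constructor
    · rintro ⟨hv, he⟩
      refine ⟨hv, hd, fun e heD => ?_⟩
      have := Set.ext_iff.1 he e
      constructor
      · intro h1
        exact (this.2 ⟨heD, h1⟩).2
      · intro h1
        exact (this.1 ⟨heD, h1⟩).2
    · intro h
      refine ⟨h.1, ?_⟩
      ext e
      constructor
      · rintro ⟨he, h1⟩
        exact ⟨he, (h.2.2 e he).2 h1⟩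
      · rintro ⟨he, h1⟩
        exact ⟨he, (h.2.2 e he).1 h1⟩
  rw [hV]
  constructor
  · ext v
    constructor
    · intro hv
      refine ⟨hv.1, ?_⟩
      rw [h.inv hd]
      exact (h.wrel_iff_core hd hv.1).1 hv
    · rintro ⟨hv, hq⟩
      rw [h.inv hd] at hq
      exact h.wrel_of_core hd hv hq
  · ext v
    constructor
    · intro hv
      by_cases hvd : v = d
      · exact ⟨1, one_mem _, by rw [hvd]; group⟩
      have hnc : ¬ Commute d v := fun h' => hvd (hv.eq_of_comm h'.symm)
      refine ⟨d * v, (h.wrel_iff_core hd hv.1).1 hv, ?_⟩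
      rw [mul_inv_rev, h.inv hd, h.inv hv.1]
      symm
      calc d * v * d * (v * d) = d * (v * d * v) * d := by group
        _ = d * (d * v * d) * d := by rw [h.braid d hd v hv.1 hnc]
        _ = v := h.conj_conj hd v
    · rintro ⟨g, hg, rfl⟩
      apply h.wrel_of_core hd (h.conj g d hd)
      have e1 : d * (g * d * g⁻¹) = (d * g * d⁻¹) * g⁻¹ := by
        rw [h.inv hd]; group
      rw [e1]
      exact mul_mem (hN.conj_mem g hg d) (inv_mem hg)

end Cfsg.Agent.S5350
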