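import Cfsg.Statements.S5354
import Cfsg.Agent.H29.TT8

set_option autoImplicit false
open Cfsg

namespace Cfsg.Agent.S5354

open Subgroup Cfsg.Agent.H29 Cfsg.Agent

/-- Let D be a conjugation-invariant generating set of 3-transpositions of the finite group G on which G acts primitively by conjugation, and suppose two different members of D commute (width at least 2). Then G has a quasisimple normal subgroup L of index at most 2 with the generalized Fitting subgroup of G equal to L times the centre, the commuting graph of D is connected, and for d in D the subgroup generated by the members of D commuting with d is a maximal D-subgroup: it is proper, and every subgroup generated by members of D that contains it is either it or G. -/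
theorem result {G : Type*} [Group G] [Finite G] {D : Set G} (hD : Cfsg.IsThreeTranspositionGroup D) (hprim : Cfsg.IsPrimitiveUnderConj D) (hw : ∃ a ∈ D, ∃ b ∈ D, a ≠ b ∧ Commute a b) : (∃ L : Subgroup G, L.Normal ∧ Cfsg.IsQuasisimple L ∧ L.index ≤ 2 ∧ Cfsg.generalizedFittingSubgroup G = L ⊔ Subgroup.center G) ∧ (Cfsg.commutingGraph D).Connected ∧ ∀ d ∈ D, Subgroup.closure {y : G | y ∈ D ∧ Commute d y} ≠ ⊤ ∧ ∀ H : Subgroup G, Cfsg.IsDSubgroup D H → Subgroup.closure {y : G | y ∈ D ∧ Commute d y} ≤ H → H = Subgroup.closure {y : G | y ∈ D ∧ Commute d y} ∨ H = ⊤ := by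
  have hC := class_of_primitive hD hprim
  have h2 := prim_core_two hC hprim
  have h3 := prim_core_three hC hprim hw
  have hrch := prim_rch hC hprim hw
  obtain ⟨L, hL⟩ := exists_comp hC hprim.2.1 h2 h3
  refine ⟨⟨L, comp_normal hC hL, hL.2, index_le_two hC hL hrch, genFitting_eq hC h2 h3 hL⟩, ?_, ?_⟩
  · obtain ⟨a, ha, -⟩ := hprim.2.1
    exact (connected_iff_rch ⟨a, ha⟩).2 hrch
  · intro d hd
    refine ⟨perp_ne_top hC hprim.2.1 hd, fun H hH hle => perp_maximal hC hprim hw hd H hH hle⟩

end Cfsg.Agent.S5354
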