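import Cfsg.Statements.S5355
import Cfsg.Agent.H29.TT3
import Cfsg.Agent.S5344

set_option autoImplicit false
open Cfsg

namespace Cfsg.Agent.S5355

open Subgroup Cfsg.Agent.H29

theorem exists_star {G : Type*} [Group G] [Finite G] {D : Set G}
    (hD : Cfsg.IsThreeTranspositionClass D) {d : G} (hd : d ∈ D)
    (hV : {y : G | y ∈ D ∧ Commute d y} = {v : G | v ∈ D ∧ ∀ e ∈ D, Commute v e ↔ Commute d e})
    (hm : {y : G | y ∈ D ∧ Commute d y}.ncard = 2) :
    ∀ x ∈ D, ∃ x' ∈ D, x' ≠ x ∧ Commute x x' ∧ (∀ y ∈ D, Commute x y → y = x ∨ y = x') ∧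
      (∀ e ∈ D, Commute x' e ↔ Commute x e) := by
  have h := tt_of_class hD
  obtain ⟨p, q, hpq, hset⟩ := Set.ncard_eq_two.1 hm
  have hdm : d ∈ ({p, q} : Set G) := by rw [← hset]; exact ⟨hd, Commute.refl d⟩
  have h1 : ∃ d' ∈ D, d' ≠ d ∧ Commute d d' ∧ (∀ y ∈ D, Commute d y → y = d ∨ y = d') := by
    have hp : p ∈ {y : G | y ∈ D ∧ Commute d y} := by rw [hset]; exact Or.inl rfl
    have hq : q ∈ {y : G | y ∈ D ∧ Commute d y} := by rw [hset]; exact Or.inr rfl
    rcases hdm with rfl | hdq
    · refine ⟨q, hq.1, hpq.symm, hq.2, fun y hy hc => ?_⟩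
      have : y ∈ ({d, q} : Set G) := by rw [← hset]; exact ⟨hy, hc⟩
      exact this
    · rw [Set.mem_singleton_iff] at hdq
      subst hdq
      refine ⟨p, hp.1, hpq, hp.2, fun y hy hc => ?_⟩
      have : y ∈ ({p, d} : Set G) := by rw [← hset]; exact ⟨hy, hc⟩
      exact this.symm
  obtain ⟨d', hd', hne, hc, hall⟩ := h1
  intro x hx
  obtain ⟨g, rfl⟩ := isConj_iff.1 (tt_class_isConj hD hd hx)
  refine ⟨g * d' * g⁻¹, h.conj g d' hd', ?_, (comm_conj_iff g d d').2 hc, ?_, ?_⟩
  · intro h'
    exact hne (mul_left_cancel (mul_right_cancel h'))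
  · intro y hy hcy
    have e1 : y = g * (g⁻¹ * y * g⁻¹⁻¹) * g⁻¹ := by group
    rw [e1, comm_conj_iff] at hcy
    rcases hall _ (h.conj g⁻¹ y hy) hcy with h2 | h2
    · left; rw [e1, h2]
    · right; rw [e1, h2]
  · intro e he
    have e1 : e = g * (g⁻¹ * e * g⁻¹⁻¹) * g⁻¹ := by group
    have h3 : d' ∈ {v : G | v ∈ D ∧ ∀ e ∈ D, Commute v e ↔ Commute d e} := by
      rw [← hV]; exact ⟨hd', hc⟩
    rw [e1, comm_conj_iff, comm_conj_iff]
    exact h3.2 _ (h.conj g⁻¹ e he)

theorem z_rel {G : Type*} [Group G] {D : Set G} (hD : Cfsg.IsThreeTranspositionSet D)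
    {x y x' : G} (hx : x ∈ D) (hy : y ∈ D) (hx' : x' ∈ D) (hne : x ≠ x') (hc : Commute x x')
    (hxy : ¬ Commute x y) (hyx' : ¬ Commute y x') :
    y * (x * x') * y = (x * x') * (y * (x * x' * y * x' * x)) ∧
    (x * x') * (y * (x * x' * y * x' * x)) = (y * (x * x' * y * x' * x)) * (x * x') := by
  obtain ⟨φ, -, h0, h1, h2⟩ := Cfsg.Agent.S5344.result hD hx hy hx' hne hc hxy hyx'
  constructor
  · have e : (Equiv.swap 1 2 * (Equiv.swap 0 1 * Equiv.swap 2 3) * Equiv.swap 1 2 : Equiv.Perm (Fin 4))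
      = (Equiv.swap 0 1 * Equiv.swap 2 3) * (Equiv.swap 1 2 * (Equiv.swap 0 1 * Equiv.swap 2 3 *
        Equiv.swap 1 2 * Equiv.swap 2 3 * Equiv.swap 0 1)) := by decide
    have := congrArg φ e
    simpa only [map_mul, h0, h1, h2] using this
  · have e : (Equiv.swap 0 1 * Equiv.swap 2 3) * (Equiv.swap 1 2 * (Equiv.swap 0 1 * Equiv.swap 2 3 *
        Equiv.swap 1 2 * Equiv.swap 2 3 * Equiv.swap 0 1)) = (Equiv.swap 1 2 * (Equiv.swap 0 1 * Equiv.swap 2 3 *
        Equiv.swap 1 2 * Equiv.swap 2 3 * Equiv.swap 0 1)) * (Equiv.swap 0 1 * Equiv.swap 2 3 : Equiv.Perm (Fin 4)) := by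
      decide
    have := congrArg φ e
    simpa only [map_mul, h0, h1, h2] using this

/-- Let D be a conjugacy class of 3-transpositions generating the finite group G, with at least two members, and d a member of D. Suppose that every member of D commuting with d commutes with exactly the same members of D as d does, and that exactly one member of D other than d commutes with d. Then G is isomorphic to the symmetric group of degree 4. -/
theorem result {G : Type*} [Group G] [Finite G] {D : Set G} (hD : Cfsg.IsThreeTranspositionClass D) (hD2 : ∃ a ∈ D, ∃ b ∈ D, a ≠ b) {d : G} (hd : d ∈ D) (hV : {y : G | y ∈ D ∧ Commute d y} = {v : G | v ∈ D ∧ ∀ e ∈ D, Commute v e ↔ Commute d e}) (hm : {y : G | y ∈ D ∧ Commute d y}.ncard = 2) : Nonempty (G ≃* Equiv.Perm (Fin 4)) := by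
  have h := tt_of_class hD
  have hst := exists_star hD hd hV hm
  choose! star hsD hsne hsc hsall hsV using hst
  -- the relation for `z x = x * star x`
  have hstar_eq : ∀ x ∈ D, ∀ y ∈ D, ¬ Commute x y →
      star y = x * star x * y * star x * x := by
    intro x hx y hy hxy
    have hyx' : ¬ Commute y (star x) := fun h' => hxy ((hsV x hx y hy).1 h'.symm)
    have h1 := h.str_comm hx hy (hsD x hx) hxy hyx' (hsc x hx)
    have h2 := h.str_ne hx hy (hsD x hx) hxy hyx' (hsne x hx).symm
    rcases hsall y hy _ (h.str_mem hx hy (hsD x hx)) h1 with h3 | h3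
    · exact absurd h3 h2
    · exact h3.symm
  have hstar_conj : ∀ x ∈ D, ∀ y ∈ D, star (y * x * y) = y * star x * y := by
    intro x hx y hy
    have h1 : Commute (y * x * y) (y * star x * y) := (h.comm_conj hy).2 (hsc x hx)
    rcases hsall _ (h.conj' hx hy) _ (h.conj' (hsD x hx) hy) h1 with h3 | h3
    · exact absurd (mul_left_cancel (mul_right_cancel h3)) (hsne x hx)
    · exact h3.symm
  have hz : ∀ x ∈ D, ∀ y ∈ D, ¬ Commute x y →
      (y * x * y) * star (y * x * y) = (x * star x) * (y * star y) ∧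
      (x * star x) * (y * star y) = (y * star y) * (x * star x) := by
    intro x hx y hy hxy
    have hyx' : ¬ Commute y (star x) := fun h' => hxy ((hsV x hx y hy).1 h'.symm)
    have h1 := z_rel hD.1 hx hy (hsD x hx) (hsne x hx).symm (hsc x hx) hxy hyx'
    rw [hstar_conj x hx y hy, hstar_eq x hx y hy hxy]
    refine ⟨?_, h1.2⟩
    rw [← h1.1]
    calc y * x * y * (y * star x * y) = y * x * (y * y) * star x * y := by group
      _ = _ := by rw [h.sq y hy]; group
  obtain ⟨e, he, hde⟩ : ∃ e ∈ D, ¬ Commute d e := by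
    obtain ⟨b, hb, h1, _⟩ := h.exists_common hD.2.2 hd
      (tt_class_isConj hD hd (hsD d hd)) (hsne d hd).symm (hsc d hd)
    exact ⟨b, hb, h1⟩
  have hed' : ¬ Commute e (star d) := fun h' => hde ((hsV d hd e he).1 h'.symm)
  obtain ⟨φ, hinj, h0, h1, h2⟩ := Cfsg.Agent.S5344.result hD.1 hd he (hsD d hd)
    (hsne d hd).symm (hsc d hd) hde hed'
  have hdr : d ∈ φ.range := ⟨_, h0⟩
  have her : e ∈ φ.range := ⟨_, h1⟩
  have hsr : star d ∈ φ.range := ⟨_, h2⟩
  have hser : star e ∈ φ.range := by
    rw [hstar_eq d hd e he hde]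
    exact mul_mem (mul_mem (mul_mem (mul_mem hdr hsr) her) hsr) hdr
  have hall : ∀ f ∈ D, f ∈ φ.range := by
    intro f hf
    by_cases c1 : Commute d f
    · rcases hsall d hd f hf c1 with rfl | rfl
      · exact hdr
      · exact hsr
    by_cases c2 : Commute e f
    · rcases hsall e he f hf c2 with rfl | rfl
      · exact her
      · exact hser
    by_cases c3 : Commute (e * d * e) f
    · rcases hsall _ (h.conj' hd he) f hf c3 with rfl | rfl
      · exact mul_mem (mul_mem her hdr) her
      · rw [hstar_conj d hd e he]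
        exact mul_mem (mul_mem her hsr) her
    exfalso
    have hedD := h.conj' hd he
    have hfd := h.conj' hd hf
    have hfe := h.conj' he hf
    have a1 := hz _ hedD f hf c3
    have a2 := hz d hd e he hde
    have a3 := hz d hd f hf c1
    have a4 := hz e he f hf c2
    have c4 : ¬ Commute (f * d * f) (f * e * f) := by rw [h.comm_conj hf]; exact hde
    have a5 := hz _ hfd _ hfe c4
    have e1 : f * (e * d * e) * f = (f * e * f) * (f * d * f) * (f * e * f) := by
      calc f * (e * d * e) * f = f * e * 1 * d * 1 * e * f := by group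
        _ = f * e * (f * f) * d * (f * f) * e * f := by rw [h.sq f hf]
        _ = _ := by group
    rw [← e1, a1.1, a2.1, a3.1, a4.1] at a5
    have a6 := a5.1
    -- z_d z_e z_f = z_d z_f (z_e z_f)
    have a7 : star f = f := by
      have b1 : (e * star e) * (f * star f) = (f * star f) * ((e * star e) * (f * star f)) := by
        apply mul_left_cancel (a := d * star d)
        rw [← mul_assoc, a6]; group
      have b2 : f * star f = 1 := by
        have : (1 : G) * ((e * star e) * (f * star f)) = (f * star f) * ((e * star e) * (f * star f)) := by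
          rw [one_mul]; exact b1
        exact (mul_right_cancel this).symm
      have b3 := eq_inv_of_mul_eq_one_right b2
      rwa [h.inv hf] at b3
    exact hsne f hf a7
  have hsurj : Function.Surjective φ := by
    rw [← MonoidHom.range_eq_top, eq_top_iff, ← hD.2.2, Subgroup.closure_le]
    exact hall
  exact ⟨(MulEquiv.ofBijective φ ⟨hinj, hsurj⟩).symm⟩

end Cfsg.Agent.S5355
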