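import Cfsg.Statements.S5356
import Cfsg.Agent.H18.TTN3
import Cfsg.Agent.H29.TT3

set_option autoImplicit false
open Cfsg
open Subgroup Cfsg.Agent.H29 Cfsg.Agent.H18 Cfsg.Agent.H18.TTN

namespace Cfsg.Agent.S5356

/-- Let D be a conjugacy class of 3-transpositions generating the finite group G, with at least two members, and d a member of D such that every member of D commuting with d commutes with exactly the same members of D as d. Then there is a Sylow 3-subgroup P of G normalized by d such that G is generated by d, P and the largest normal 2-subgroup of G. -/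
theorem result {G : Type*} [Group G] [Finite G] {D : Set G} (hD : Cfsg.IsThreeTranspositionClass D) (hD2 : ∃ a ∈ D, ∃ b ∈ D, a ≠ b) {d : G} (hd : d ∈ D) (hV : {y : G | y ∈ D ∧ Commute d y} = {v : G | v ∈ D ∧ ∀ e ∈ D, Commute v e ↔ Commute d e}) : ∃ P : Sylow 3 G, d ∈ Subgroup.normalizer (P : Set G) ∧ Subgroup.zpowers d ⊔ (P : Subgroup G) ⊔ Cfsg.pCore 2 G = ⊤ := by
  classical
  haveI : Fact (Nat.Prime 3) := ⟨Nat.prime_three⟩
  haveI : Fact (Nat.Prime 2) := ⟨Nat.prime_two⟩
  have hT : TT D := tt_of_class hD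
  have hconj : ∀ g : G, ∀ a ∈ D, g * a * g⁻¹ ∈ D := fun g a ha => tt_class_conj hD g ha
  have hdd : d * d = 1 := hT.sq d hd
  have hVd : ∀ b ∈ D, Commute d b → VRel D b d := by
    intro b hb hc
    have h1 : b ∈ {y : G | y ∈ D ∧ Commute d y} := ⟨hb, hc⟩
    rw [hV] at h1
    exact ⟨h1.1, hd, h1.2⟩
  have hVall : ∀ a ∈ D, ∀ b ∈ D, Commute a b → VRel D b a := by
    intro a ha b hb hc
    obtain ⟨g, hg⟩ := isConj_iff.1 (tt_class_isConj hD hd ha)
    have h1 : Commute d (g⁻¹ * b * g⁻¹⁻¹) := by
      rw [← comm_conj_iff g]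
      have h2 : g * (g⁻¹ * b * g⁻¹⁻¹) * g⁻¹ = b := by group
      rw [h2, hg]; exact hc
    have h3 := (hVd _ (hconj g⁻¹ b hb) h1).conj hconj g
    have h2 : g * (g⁻¹ * b * g⁻¹⁻¹) * g⁻¹ = b := by group
    rwa [h2, hg] at h3
  obtain ⟨O, hO⟩ : ∃ O, O = Cfsg.pCore 2 G := ⟨_, rfl⟩
  rw [← hO]
  haveI hOn : O.Normal := by rw [hO]; exact H1.pCore_normal 2 G
  have hOp : IsPGroup 2 O := by rw [hO]; exact H1.pCore_isPGroup 2 G
  let π := QuotientGroup.mk' O
  have hπ : Function.Surjective π := QuotientGroup.mk'_surjective O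
  have hπ1 : ∀ x ∈ O, π x = 1 := fun x hx => (QuotientGroup.eq_one_iff (N := O) x).2 hx
  have hcomm : ∀ a ∈ D, ∀ b ∈ D, Commute a b → π a = π b := by
    intro a ha b hb hc
    have h1 := hT.core_of_vrel (hVall a ha b hb hc)
    rw [← hO] at h1
    have h2 : π (a * b) = 1 := (QuotientGroup.eq_one_iff _).2 h1
    rw [map_mul] at h2
    have h3 : π b * π b = 1 := by rw [← map_mul, hT.sq b hb, map_one]
    calc π a = π a * (π b * π b) := by rw [h3, mul_one]
      _ = (π a * π b) * π b := by group
      _ = π b := by rw [h2, one_mul]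
  let E : Set (G ⧸ O) := π '' D
  have hEinv : ∀ a ∈ E, a * a = 1 := by
    rintro _ ⟨a, ha, rfl⟩
    rw [← map_mul, hT.sq a ha, map_one]
  have hEconj : ∀ g, ∀ a ∈ E, g * a * g⁻¹ ∈ E := by
    rintro g _ ⟨a, ha, rfl⟩
    obtain ⟨g, rfl⟩ := hπ g
    exact ⟨g * a * g⁻¹, hconj g a ha, by rw [map_mul, map_mul, map_inv]⟩
  have hK3 : IsPGroup 3 (Subgroup.closure {x : G ⧸ O | ∃ a ∈ E, ∃ b ∈ E, x = a * b}) := by
    apply TT.closure_mul_isPGroup hEinv
    · rintro _ ⟨a, ha, rfl⟩ _ ⟨b, hb, rfl⟩
      by_cases hc : Commute a b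
      · rw [hcomm a ha b hb hc]
      · rw [← map_mul, ← map_mul, ← map_mul, ← map_mul, hT.braid a ha b hb hc]
    · intro a ha b hb
      have h1 := hEconj b a ha
      rwa [inv_eq_of_mul_eq_one_left (hEinv b hb)] at h1
  obtain ⟨K, hKdef⟩ : ∃ K, K = Subgroup.closure {x : G ⧸ O | ∃ a ∈ E, ∃ b ∈ E, x = a * b} := ⟨_, rfl⟩
  rw [← hKdef] at hK3
  have hdE : π d ∈ E := ⟨d, hd, rfl⟩
  have hpair : ∀ a ∈ E, ∀ b ∈ E, a * b ∈ K := fun a ha b hb => by
    rw [hKdef]; exact subset_closure ⟨a, ha, b, hb, rfl⟩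
  haveI hKn : K.Normal := by
    refine ⟨fun x hx g => ?_⟩
    rw [hKdef] at hx
    induction hx using Subgroup.closure_induction with
    | mem x hx =>
      obtain ⟨a, ha, b, hb, rfl⟩ := hx
      have h1 : g * (a * b) * g⁻¹ = (g * a * g⁻¹) * (g * b * g⁻¹) := by group
      rw [h1]
      exact hpair _ (hEconj g a ha) _ (hEconj g b hb)
    | one => simp
    | mul x y _ _ hx hy =>
      have h1 : g * (x * y) * g⁻¹ = (g * x * g⁻¹) * (g * y * g⁻¹) := by group
      rw [h1]; exact mul_mem hx hy
    | inv x _ hx =>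
      have h1 : g * x⁻¹ * g⁻¹ = (g * x * g⁻¹)⁻¹ := by group
      rw [h1]; exact inv_mem hx
  -- every element is in `K` or `K d`
  have hcov : ∀ g : G ⧸ O, g ∈ K ∨ g * π d ∈ K := by
    have hddb : π d * π d = 1 := hEinv _ hdE
    have hgen : Subgroup.closure E = ⊤ := by
      have h1 := congrArg (Subgroup.map π) hD.2.2
      rw [MonoidHom.map_closure, Subgroup.map_top_of_surjective π hπ] at h1
      exact h1
    intro g
    have hg : g ∈ Subgroup.closure E := by rw [hgen]; exact mem_top g
    refine Subgroup.closure_induction_left (p := fun g _ => g ∈ K ∨ g * π d ∈ K) (Or.inl (one_mem _)) ?_ ?_ hg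
    all_goals
      intro x hx y _ hy
      try rw [inv_eq_of_mul_eq_one_left (hEinv x hx)]
      have hxd : π d * x ∈ K := hpair _ hdE _ hx
      have hxd' : x * π d ∈ K := hpair _ hx _ hdE
      rcases hy with hy | hy
      · right
        have h1 : x * y * π d = (x * π d) * (π d * y * (π d)⁻¹) * (π d * π d)⁻¹ * (π d * π d):= by
          rw [hddb]
          have : (π d)⁻¹ = π d := inv_eq_of_mul_eq_one_left hddb
          rw [this]
          calc x * y * π d = x * 1 * y * π d := by rw [mul_one]
            _ = x * (π d * π d) * y * π d := by rw [hddb]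
            _ = _ := by group
        rw [h1, hddb, inv_one, mul_one, mul_one]
        exact mul_mem hxd' (hKn.conj_mem _ hy _)
      · left
        have h1 : x * y = (x * (y * π d) * x⁻¹) * (x * (π d)⁻¹) := by group
        rw [h1, inv_eq_of_mul_eq_one_left hddb]
        exact mul_mem (hKn.conj_mem _ hy _) hxd'
  have hsqK : ∀ g : G ⧸ O, g * g ∈ K := by
    intro g
    rcases hcov g with h1 | h1
    · exact mul_mem h1 h1
    · have hddb : π d * π d = 1 := hEinv _ hdE
      have h2 : g * g = (g * π d) * ((π d)⁻¹ * (g * π d) * ((π d)⁻¹)⁻¹) * (π d * π d)⁻¹ := by group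
      rw [h2, hddb, inv_one, mul_one]
      exact mul_mem h1 (hKn.conj_mem _ h1 _)
  obtain ⟨P⟩ : Nonempty (Sylow 3 G) := inferInstance
  let L : Subgroup G := K.comap π
  haveI hLn : L.Normal := hKn.comap π
  have hOL : O ≤ L := by
    intro x hx
    show π x ∈ K
    rw [hπ1 x hx]
    exact one_mem _
  have hPL : (P : Subgroup G) ≤ L := by
    intro x hx
    show π x ∈ K
    obtain ⟨k, hk⟩ := (IsPGroup.iff_orderOf.1 P.2) ⟨x, hx⟩
    rw [Subgroup.orderOf_mk] at hk
    have hodd : Odd (3 ^ k) := Odd.pow (by decide)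
    obtain ⟨j, hj⟩ := hodd
    have h1 : x = (x * x) ^ (j + 1) := by
      rw [← pow_two, ← pow_mul]
      have h2 : 2 * (j + 1) = 3 ^ k + 1 := by omega
      rw [h2, pow_succ, ← hk, pow_orderOf_eq_one, one_mul]
    rw [h1, map_pow, map_mul]
    exact pow_mem (hsqK _) _
  have hLOP : L ≤ O ⊔ (P : Subgroup G) := by
    rw [← Subgroup.relIndex_eq_one]
    have h1 : (O ⊔ (P : Subgroup G)).relIndex L ∣ O.relIndex L := by
      have := Subgroup.relIndex_mul_relIndex O (O ⊔ (P : Subgroup G)) L le_sup_left (sup_le hOL hPL)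
      exact Dvd.intro_left _ this
    have h2 : (O ⊔ (P : Subgroup G)).relIndex L ∣ (P : Subgroup G).relIndex L := by
      have := Subgroup.relIndex_mul_relIndex (P : Subgroup G) (O ⊔ (P : Subgroup G)) L le_sup_right (sup_le hOL hPL)
      exact Dvd.intro_left _ this
    have h3 : O.relIndex L = Nat.card (L.map π) := by
      have h0 := Subgroup.relIndex_ker (K := L) π
      rwa [show π.ker = O from QuotientGroup.ker_mk' O] at h0
    have h4 : L.map π = K := Subgroup.map_comap_eq_self_of_surjective hπ K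
    rw [h4] at h3
    obtain ⟨k, hk⟩ := IsPGroup.iff_card.1 hK3
    rw [h3, hk] at h1
    obtain ⟨j, -, hj⟩ := (Nat.dvd_prime_pow Nat.prime_three).1 h1
    rcases Nat.eq_zero_or_pos j with rfl | hj0
    · rw [hj, pow_zero]
    · exfalso
      have h5 : 3 ∣ (P : Subgroup G).relIndex L := (dvd_pow_self 3 hj0.ne').trans (hj ▸ h2)
      have h6 : (P : Subgroup G).relIndex L ∣ (P : Subgroup G).index := Subgroup.relIndex_dvd_index_of_le hPL
      exact P.not_dvd_index (h5.trans h6)
  have htop : ∀ M : Subgroup G, L ≤ M → d ∈ M → M = ⊤ := by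
    intro M hLM hdM
    rw [eq_top_iff]
    intro g _
    rcases hcov (π g) with h1 | h1
    · exact hLM h1
    · rw [← map_mul] at h1
      have h2 : g * d ∈ M := hLM h1
      have h3 : g = (g * d) * d⁻¹ := by group
      rw [h3]; exact mul_mem h2 (inv_mem hdM)
  obtain ⟨o, ho, hn⟩ := exists_normalizer (Nat.card O) G O (P : Subgroup G) d le_rfl hOp P.2 hdd
    (fun x hx => hLOP (hLn.conj_mem x (hPL hx) d))
    (by
      by_contra hall
      push Not at hall
      have h1 : ∀ x ∈ L, π x * π d = π d * π x := by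
        have hle : O ⊔ (P : Subgroup G) ≤ (centralizer ({π d} : Set (G ⧸ O))).comap π := by
          rw [sup_le_iff]
          constructor
          · intro x hx
            rw [mem_comap, mem_centralizer_singleton_iff, hπ1 x hx, one_mul, mul_one]
          · intro x hx
            rw [mem_comap, mem_centralizer_singleton_iff]
            have h2 := (QuotientGroup.eq_one_iff (N := O) _).2 (hall x hx)
            have h3 : π (d * x * d⁻¹ * x⁻¹) = 1 := h2
            rw [map_mul, map_mul, map_mul, map_inv, map_inv, mul_inv_eq_one, mul_inv_eq_iff_eq_mul] at h3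
            exact h3.symm
        intro x hx
        have := hle (hLOP hx)
        rw [mem_comap, mem_centralizer_singleton_iff] at this
        exact this
      have h2 : (centralizer ({π d} : Set (G ⧸ O))).comap π = ⊤ := by
        apply htop
        · intro x hx
          rw [mem_comap, mem_centralizer_singleton_iff]
          exact h1 x hx
        · rw [mem_comap, mem_centralizer_singleton_iff]
      have h3 : ∀ a ∈ D, a = d := by
        have h4 : ∀ a ∈ D, Commute a d := by
          intro a ha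
          obtain ⟨g, hg⟩ := isConj_iff.1 (tt_class_isConj hD hd ha)
          have h5 : g ∈ (centralizer ({π d} : Set (G ⧸ O))).comap π := by rw [h2]; exact mem_top g
          rw [mem_comap, mem_centralizer_singleton_iff] at h5
          have h6 : π (d * a) = 1 := by
            rw [← hg, map_mul, map_mul, map_mul, map_inv, h5]
            have : π d * π d = 1 := hEinv _ hdE
            rw [mul_assoc (π d), mul_inv_cancel, mul_one, this]
          have h7 : d * a ∈ O := (QuotientGroup.eq_one_iff (N := O) _).1 h6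
          rw [hO] at h7
          exact (hT.vrel_of_core hd ha h7).comm
        intro a ha
        obtain ⟨g, hg⟩ := isConj_iff.1 (tt_class_isConj hD hd ha)
        have h5 : Subgroup.closure D ≤ centralizer ({d} : Set G) := by
          rw [closure_le]
          intro b hb
          exact mem_centralizer_singleton_iff.2 (h4 b hb)
        rw [hD.2.2] at h5
        have h6 := mem_centralizer_singleton_iff.1 (h5 (mem_top g))
        rw [← hg, h6]; group
      obtain ⟨a, ha, b, hb, hab⟩ := hD2
      exact hab ((h3 a ha).trans (h3 b hb).symm))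
    (by
      intro g
      rcases hD.1.2 d hd _ (hconj g d hd) with h1 | h1
      · left; exact tt_comm_of_sq hD.1 hd (hconj g d hd) h1
      · right; exact h1)
  refine ⟨o • P, hn, ?_⟩
  apply htop
  · refine hLOP.trans (sup_le le_sup_right ?_)
    intro x hx
    have ho' : o ∈ zpowers d ⊔ ((o • P : Sylow 3 G) : Subgroup G) ⊔ O := (le_sup_right : O ≤ _) ho
    have h1 : o * x * o⁻¹ ∈ ((o • P : Sylow 3 G) : Subgroup G) := ⟨x, hx, rfl⟩
    have h2 : o * x * o⁻¹ ∈ zpowers d ⊔ ((o • P : Sylow 3 G) : Subgroup G) ⊔ O :=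
      (le_sup_left : zpowers d ⊔ ((o • P : Sylow 3 G) : Subgroup G) ≤ _) ((le_sup_right : ((o • P : Sylow 3 G) : Subgroup G) ≤ _) h1)
    have h3 : x = o⁻¹ * (o * x * o⁻¹) * o := by group
    rw [h3]
    exact mul_mem (mul_mem (inv_mem ho') h2) ho'
  · exact (le_sup_left : zpowers d ⊔ ((o • P : Sylow 3 G) : Subgroup G) ≤ _) ((le_sup_left : zpowers d ≤ _) (mem_zpowers d))

end Cfsg.Agent.S5356
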