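import Cfsg.Statements.S5357
import Cfsg.Agent.H12.OmDec1
import Cfsg.Agent.H5.Orth2

set_option autoImplicit false
open scoped MatrixGroups
open Cfsg

namespace Cfsg.Agent.S5357

open Cfsg.Agent.H12 Cfsg.Agent.H5

variable {V : Type*} [AddCommGroup V] [Module (ZMod 3) V] {Q : QuadraticForm (ZMod 3) V}

lemma sq1 : ∀ a : ZMod 3, a ≠ 0 → a * a = 1 := by decide

lemma inv3 (a : ZMod 3) (ha : a ≠ 0) : a⁻¹ = a :=
  inv_eq_of_mul_eq_one_right (sq1 a ha)

lemma r_ne_one {v : V} (hv : Q v ≠ 0) : H5.refl hv ≠ 1 := by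
  intro h
  have h1 := refl_self hv
  rw [h, og_one] at h1
  have h2 : (2 : ZMod 3) • v = 0 := by
    have : (2 : ZMod 3) • v = v + v := by module
    rw [this]
    nth_rewrite 1 [h1]
    abel
  have h3 : v = 0 := (smul_eq_zero.1 h2).resolve_left (by decide)
  exact hv (by rw [h3, map_zero])

lemma commute {u v : V} (hu : Q u ≠ 0) (hv : Q v ≠ 0) (h : pB Q u v = 0) :
    H5.refl hu * H5.refl hv = H5.refl hv * H5.refl hu := by
  apply og_ext
  intro x
  rw [og_mul, og_mul, refl_apply, refl_apply, refl_apply, refl_apply, pr_sub, pr_sub, pr_smul, pr_smul, h, pB_symm Q v u, h]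
  module

lemma braid {u v : V} (hu : Q u ≠ 0) (hv : Q v ≠ 0) (huv : Q u = Q v) (h : pB Q u v ≠ 0) :
    H5.refl hu * H5.refl hv * H5.refl hu = H5.refl hv * H5.refl hu * H5.refl hv := by
  apply og_ext
  intro x
  have h1 : pB Q v u = pB Q u v := pB_symm Q v u
  rw [og_mul, og_mul, og_mul, og_mul]
  simp only [refl_apply, pr_sub, pr_smul, pB_self, ← huv, h1, inv3 _ hu]
  generalize Q u = c at *
  generalize pB Q u v = b at *
  generalize pB Q u x = X
  generalize pB Q v x = Y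
  have e1 := sq1 c hu
  have e2 := sq1 b h
  have key : ∀ c b X Y : ZMod 3, c ≠ 0 → b ≠ 0 →
      (c * X + c * (X - c * X * (2 * c) - c * (Y - c * X * b) * b) = c * (X - c * Y * b)) ∧
      (c * (Y - c * X * b) = c * Y + c * (Y - c * Y * (2 * c) - c * (X - c * Y * b) * b)) := by decide
  obtain ⟨k1, k2⟩ := key c b X Y hu h
  have e3 : x - (c * X) • u - (c * (Y - c * X * b)) • v -
      (c * (X - c * X * (2 * c) - c * (Y - c * X * b) * b)) • u =
      x - (c * X + c * (X - c * X * (2 * c) - c * (Y - c * X * b) * b)) • u - (c * (Y - c * X * b)) • v := by module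
  have e4 : x - (c * Y) • v - (c * (X - c * Y * b)) • u -
      (c * (Y - c * Y * (2 * c) - c * (X - c * Y * b) * b)) • v =
      x - (c * (X - c * Y * b)) • u - (c * Y + c * (Y - c * Y * (2 * c) - c * (X - c * Y * b) * b)) • v := by module
  rw [e3, e4, k1, k2]

lemma prod_pow {u v : V} (hu : Q u ≠ 0) (hv : Q v ≠ 0) (huv : Q u = Q v) :
    (H5.refl hu * H5.refl hv) ^ 2 = 1 ∨ (H5.refl hu * H5.refl hv) ^ 3 = 1 := by
  by_cases h : pB Q u v = 0
  · left
    rw [pow_two]
    nth_rewrite 2 [commute hu hv h]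
    rw [mul_assoc, ← mul_assoc (H5.refl hv), refl_mul_self, one_mul, refl_mul_self]
  · right
    have h1 := braid hu hv huv h
    have h2 : (H5.refl hu * H5.refl hv) ^ 3 = (H5.refl hu * H5.refl hv * H5.refl hu) * (H5.refl hv * H5.refl hu * H5.refl hv) := by
      rw [pow_succ, pow_two]; simp only [mul_assoc]
    rw [h2, ← h1]
    have h3 : H5.refl hu * H5.refl hv * H5.refl hu * (H5.refl hu * H5.refl hv * H5.refl hu) =
      H5.refl hu * (H5.refl hv * (H5.refl hu * H5.refl hu) * H5.refl hv) * H5.refl hu := by simp only [mul_assoc]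
    rw [h3, refl_mul_self, mul_one, refl_mul_self, mul_one, refl_mul_self]

/-- a common non-orthogonal vector -/
lemma exists_mid [FiniteDimensional (ZMod 3) V] (hnd : ND Q) (hn : 5 ≤ Module.finrank (ZMod 3) V) {u v : V} {c : ZMod 3}
    (hc : c ≠ 0) (hu : Q u = c) (hv : Q v = c) (huv : pB Q u v = 0) :
    ∃ w, Q w = c ∧ pB Q u w ≠ 0 ∧ pB Q w v ≠ 0 := by
  have hN : NDS Q (Submodule.span (ZMod 3) {u, v}) := by
    intro x hx hx'
    obtain ⟨a, b, rfl⟩ := Submodule.mem_span_pair.1 hx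
    have h1 := hx' u (Submodule.subset_span (by simp))
    have h2 := hx' v (Submodule.subset_span (by simp))
    rw [pl_add, pl_smul, pl_smul, pB_self, pB_symm Q v u, huv, hu] at h1
    rw [pl_add, pl_smul, pl_smul, pB_self, huv, hv] at h2
    have h2c : (2 : ZMod 3) * c ≠ 0 := mul_ne_zero (by decide) hc
    have ha : a = 0 := by
      have : a * (2 * c) = 0 := by linear_combination h1
      exact (mul_eq_zero.1 this).resolve_right h2c
    have hb : b = 0 := by
      have : b * (2 * c) = 0 := by linear_combination h2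
      exact (mul_eq_zero.1 this).resolve_right h2c
    rw [ha, hb]; module
  have hoc := NDS.oc hnd hN
  have hd := finrank_oc hnd (Submodule.span (ZMod 3) {u, v})
  have hd2 := finrank_span_pair_le (F := ZMod 3) u v
  obtain ⟨p, hp, hp0, hqp⟩ := exists_singW (Q := Q) (W := oc Q (Submodule.span (ZMod 3) {u, v})) (by omega)
  obtain ⟨f', hf, hpf⟩ := exists_partner (Q := resQ Q (oc Q (Submodule.span (ZMod 3) {u, v}))) hoc.nd (u := ⟨p, hp⟩)
    (fun h => hp0 (congrArg Subtype.val h)) hqp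
  obtain ⟨f, hfW⟩ := f'
  have hqf : Q f = 0 := hf
  have hpf' : pB Q p f = 1 := hpf
  obtain ⟨hup, hvp⟩ := mem_oc_pair.1 hp
  obtain ⟨huf, hvf⟩ := mem_oc_pair.1 hfW
  refine ⟨u + v + (p - c • f), ?_, ?_, ?_⟩
  · rw [q_add, q_add, q_sub, q_smul, hu, hv, huv, hqp, hqf, pl_add, pr_sub, pr_sub, pr_smul, pr_smul, pr_smul, hup, hvp, huf, hvf,
      hpf']
    ring
  · rw [pr_add, pr_add, pr_sub, pr_smul, pB_self, hu, huv, hup, huf]
    have : (2 * c + 0 + (0 - c * 0) : ZMod 3) = 2 * c := by ring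
    rw [this]
    exact mul_ne_zero (by decide) hc
  · rw [pl_add, pl_add, pl_sub, pl_smul, pB_self, hv, huv, pB_symm Q p v, hvp, pB_symm Q f v, hvf]
    have : (0 + 2 * c + (0 - c * 0) : ZMod 3) = 2 * c := by ring
    rw [this]
    exact mul_ne_zero (by decide) hc

section iso

variable {n : ℕ} {Q : QuadraticForm (ZMod 3) (Fin n → ZMod 3)}

/-- the reflection as an element of the subgroup -/
noncomputable def rs {c : ZMod 3} {v : Fin n → ZMod 3} (hv : Q v ≠ 0) (h : Q v = c) : reflectionSubgroup (⇑Q) c :=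
  ⟨(ogEquiv Q).symm (H5.refl hv), Subgroup.subset_closure ⟨v, h, (ogEquiv_eq_refl hv _).1 ((ogEquiv Q).apply_symm_apply _)⟩⟩

/-- the embedding -/
noncomputable def emb (Q : QuadraticForm (ZMod 3) (Fin n → ZMod 3)) (c : ZMod 3) : reflectionSubgroup (⇑Q) c →* OG Q :=
  (ogEquiv Q).toMonoidHom.comp (reflectionSubgroup (⇑Q) c).subtype

lemma emb_inj (c : ZMod 3) : Function.Injective (emb Q c) :=
  (ogEquiv Q).injective.comp Subtype.val_injective

lemma emb_rs {c : ZMod 3} {v : Fin n → ZMod 3} (hv : Q v ≠ 0) (h : Q v = c) : emb Q c (rs hv h) = H5.refl hv :=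
  (ogEquiv Q).apply_symm_apply _

lemma conj_rs {c : ZMod 3} {u v : Fin n → ZMod 3} (hu : Q u ≠ 0) (hu' : Q u = c) (hv : Q v ≠ 0) (hv' : Q v = c)
    (h : pB Q u v ≠ 0) : ∃ g : reflectionSubgroup (⇑Q) c, g * rs hu hu' * g⁻¹ = rs hv hv' := by
  refine ⟨rs hu hu' * rs hv hv', emb_inj c ?_⟩
  simp only [map_mul, map_inv, emb_rs]
  have h1 := braid hu hv (by rw [hu', hv']) h
  have h2 : H5.refl hu * H5.refl hv * H5.refl hu * (H5.refl hu * H5.refl hv)⁻¹ =
      H5.refl hu * (H5.refl hv * H5.refl hu * H5.refl hv) * H5.refl hu := by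
    rw [_root_.mul_inv_rev, refl_inv, refl_inv]; simp only [mul_assoc]
  rw [h2, ← h1]
  have h3 : H5.refl hu * (H5.refl hu * H5.refl hv * H5.refl hu) * H5.refl hu =
    (H5.refl hu * H5.refl hu) * H5.refl hv * (H5.refl hu * H5.refl hu) := by simp only [mul_assoc]
  rw [h3, refl_mul_self, one_mul, mul_one]

end iso

/-- Let Q be a non-degenerate quadratic form on the n-dimensional coordinate space over the field with three elements, n ≥ 5, and c a non-zero scalar. In the subgroup of the isometry group of Q generated by the reflections in vectors v with Q(v) = c, these reflections form a single conjugacy class of 3-transpositions generating that subgroup. -/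
theorem result (n : ℕ) (hn : 5 ≤ n) (Q : QuadraticForm (ZMod 3) (Fin n → ZMod 3)) (hQ : (QuadraticMap.polarBilin Q).Nondegenerate) (c : ZMod 3) (hc : c ≠ 0) : Cfsg.IsThreeTranspositionClass {g : ↥(Cfsg.reflectionSubgroup (⇑Q) c) | (g : ↥(Cfsg.isometryGroup (ZMod 3) (⇑Q))) ∈ Cfsg.reflectionsOfNorm (⇑Q) c} := by
  have hnd : ND Q := fun x hx => hQ.1 x (fun y => hx y)
  have hfr : Module.finrank (ZMod 3) (Fin n → ZMod 3) = n := by
    rw [Module.finrank_fintype_fun_eq_card, Fintype.card_fin]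
  have hnz : ∀ {v : Fin n → ZMod 3}, Q v = c → Q v ≠ 0 := fun h => by rw [h]; exact hc
  have hD : ∀ g : reflectionSubgroup (⇑Q) c, (g : isometryGroup (ZMod 3) (⇑Q)) ∈ reflectionsOfNorm (⇑Q) c ↔
      ∃ (v : Fin n → ZMod 3) (h : Q v = c), g = rs (hnz h) h := by
    intro g
    constructor
    · rintro ⟨v, hv, hg⟩
      refine ⟨v, hv, ?_⟩
      apply emb_inj c
      rw [emb_rs]
      exact (ogEquiv_eq_refl (hnz hv) _).2 hg
    · rintro ⟨v, hv, rfl⟩
      exact ⟨v, hv, (ogEquiv_eq_refl (hnz hv) _).1 ((ogEquiv Q).apply_symm_apply _)⟩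
  -- a vector of norm `c`
  obtain ⟨v0, hv0⟩ : ∃ v0, Q v0 = c := by
    obtain ⟨p, hp0, hqp⟩ := exists_sing hnd (by rw [hfr]; omega)
    obtain ⟨f, hf, hpf⟩ := exists_partner hnd hp0 hqp
    exact ⟨p + c • f, by rw [q_add, q_smul, hqp, hf, pr_smul, hpf]; ring⟩
  refine ⟨⟨?_, ?_⟩, ?_, ?_⟩
  · intro d hd
    obtain ⟨v, hv, rfl⟩ := (hD d).1 hd
    apply orderOf_eq_prime
    · apply emb_inj c
      rw [map_pow, emb_rs, map_one, pow_two, refl_mul_self]
    · intro h
      apply r_ne_one (hnz hv)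
      rw [← emb_rs (hnz hv) hv, h, map_one]
  · intro d hd e he
    obtain ⟨u, hu, rfl⟩ := (hD d).1 hd
    obtain ⟨v, hv, rfl⟩ := (hD e).1 he
    rcases prod_pow (hnz hu) (hnz hv) (by rw [hu, hv]) with h | h
    · left
      apply emb_inj c
      rw [map_pow, map_mul, emb_rs, emb_rs, map_one, h]
    · right
      apply emb_inj c
      rw [map_pow, map_mul, emb_rs, emb_rs, map_one, h]
  · refine ⟨rs (hnz hv0) hv0, (hD _).2 ⟨v0, hv0, rfl⟩, ?_⟩
    ext g
    show (g : isometryGroup (ZMod 3) (⇑Q)) ∈ reflectionsOfNorm (⇑Q) c ↔ IsConj (rs (hnz hv0) hv0) g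
    rw [isConj_iff]
    constructor
    · intro hg
      obtain ⟨v, hv, rfl⟩ := (hD g).1 hg
      by_cases h : pB Q v0 v = 0
      · obtain ⟨w, hw, h1, h2⟩ := exists_mid hnd (by rw [hfr]; exact hn) hc hv0 hv h
        obtain ⟨g1, hg1⟩ := conj_rs (hnz hv0) hv0 (hnz hw) hw h1
        obtain ⟨g2, hg2⟩ := conj_rs (hnz hw) hw (hnz hv) hv h2
        exact ⟨g2 * g1, by rw [← hg2, ← hg1]; group⟩
      · exact conj_rs _ _ _ _ h
    · rintro ⟨x, rfl⟩
      have hq : Q (emb Q c x v0) = c := by rw [og_q, hv0]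
      refine (hD _).2 ⟨emb Q c x v0, hq, ?_⟩
      apply emb_inj c
      rw [map_mul, map_mul, map_inv, emb_rs, emb_rs]
      exact refl_conj _ (hnz hv0) (hnz hq)
  · exact Subgroup.closure_closure_coe_preimage

end Cfsg.Agent.S5357
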