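import Cfsg.Statements.S5358
import Cfsg.Agent.H29.Refl

set_option autoImplicit false
open scoped MatrixGroups
open Cfsg

namespace Cfsg.Agent.S5358

theorem aux (n : ℕ) (Q : QuadraticForm (ZMod 3) (Fin n → ZMod 3)) (u v x : Fin n → ZMod 3) :
    (Cfsg.reflectionMatrix (⇑Q) u * Cfsg.reflectionMatrix (⇑Q) v).mulVec x =
      x - ((Q v)⁻¹ * QuadraticMap.polar (⇑Q) v x) • v - ((Q u)⁻¹ * (QuadraticMap.polar (⇑Q) u x -
        ((Q v)⁻¹ * QuadraticMap.polar (⇑Q) v x) * QuadraticMap.polar (⇑Q) u v)) • u := by
  rw [← Matrix.mulVec_mulVec, H29.reflectionMatrix_mulVec, H29.reflectionMatrix_mulVec]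
  congr 3
  rw [← QuadraticMap.polarBilin_apply_apply, map_sub, map_smul, smul_eq_mul,
    QuadraticMap.polarBilin_apply_apply, QuadraticMap.polarBilin_apply_apply]

theorem inv3 (a : ZMod 3) (ha : a ≠ 0) : a⁻¹ = a := by
  apply inv_eq_of_mul_eq_one_right
  revert a
  decide

/-- Let Q be a non-degenerate quadratic form on the n-dimensional coordinate space over the field with three elements and u, v vectors of the same non-zero norm Q(u) = Q(v) spanning different lines (v ≠ u and v ≠ −u). Then the reflection matrices of u and v commute if and only if u and v are orthogonal for the polar form of Q. -/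
theorem result (n : ℕ) (Q : QuadraticForm (ZMod 3) (Fin n → ZMod 3)) (hQ : (QuadraticMap.polarBilin Q).Nondegenerate) (u v : Fin n → ZMod 3) (hu : Q u ≠ 0) (huv : Q u = Q v) (h1 : v ≠ u) (h2 : v ≠ -u) : Commute (Cfsg.reflectionMatrix (⇑Q) u) (Cfsg.reflectionMatrix (⇑Q) v) ↔ QuadraticMap.polar (⇑Q) u v = 0 := by
  have hv : Q v ≠ 0 := huv ▸ hu
  have hcomm : QuadraticMap.polar (⇑Q) v u = QuadraticMap.polar (⇑Q) u v := QuadraticMap.polar_comm _ _ _
  constructor
  · intro h
    by_contra hne
    have h3 : (Cfsg.reflectionMatrix (⇑Q) u * Cfsg.reflectionMatrix (⇑Q) v).mulVec u =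
      (Cfsg.reflectionMatrix (⇑Q) v * Cfsg.reflectionMatrix (⇑Q) u).mulVec u := by rw [h.eq]
    rw [aux, aux, ← huv, hcomm, QuadraticMap.polar_self] at h3
    generalize Q u = a at *
    generalize QuadraticMap.polar (⇑Q) u v = b at *
    have h4 : ∀ i, v i = -(u i * (b * a)) := by
      intro i
      have h5 := congrFun h3 i
      simp only [Pi.sub_apply, Pi.smul_apply, smul_eq_mul] at h5
      rw [inv3 a hu] at h5
      have key : ∀ a b x y : ZMod 3, a ≠ 0 → b ≠ 0 →
          x - a * b * y - a * (2 • a - a * b * b) * x =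
                      x - a * 2 • a * x - a * (b - a * 2 • a * b) * y →
                    y = -(x * (b * a)) := by decide
      exact key _ _ _ _ hu hne h5
    have h6 : b * a = 1 ∨ b * a = -1 := by
      have h7 : b * a ≠ 0 := mul_ne_zero hne hu
      revert h7
      generalize b * a = c
      revert c
      decide
    rcases h6 with h6 | h6
    · apply h2
      ext i
      rw [h4, h6, mul_one, Pi.neg_apply]
    · apply h1
      ext i
      rw [h4, h6]; ring
  · intro h
    show Cfsg.reflectionMatrix (⇑Q) u * Cfsg.reflectionMatrix (⇑Q) v =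
      Cfsg.reflectionMatrix (⇑Q) v * Cfsg.reflectionMatrix (⇑Q) u
    apply Matrix.toLin'.injective
    apply LinearMap.ext
    intro x
    rw [Matrix.toLin'_apply, Matrix.toLin'_apply, aux, aux, hcomm, h]
    ext i
    simp only [Pi.sub_apply, Pi.smul_apply, smul_eq_mul, mul_zero, sub_zero]
    ring

end Cfsg.Agent.S5358
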