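import Cfsg.Statements.S5361
import Cfsg.Agent.H29.TT8

set_option autoImplicit false
open Cfsg

namespace Cfsg.Agent.S5361

open Subgroup Cfsg.Agent.H29 Cfsg.Agent
open scoped commutatorElement

theorem prim_of_three {G : Type*} [Group G] [Finite G] {D : Set G}
    (hD : Cfsg.IsThreeTranspositionClass D) (hD2 : ∃ a ∈ D, ∃ b ∈ D, a ≠ b)
    (h2 : Cfsg.pCore 2 G = ⊥) (h3 : Cfsg.pCore 3 G = ⊥) (hc : (Cfsg.commutingGraph D).Connected) :
    Cfsg.IsPrimitiveUnderConj D := by
  have h2' : Cfsg.pCore 2 G ≤ Subgroup.center G := by rw [h2]; exact bot_le
  have h3' : Cfsg.pCore 3 G ≤ Subgroup.center G := by rw [h3]; exact bot_le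
  obtain ⟨L, hL⟩ := exists_comp hD hD2 h2' h3'
  obtain ⟨d, hd, -⟩ := hD.2.1
  exact primitive_of_index hD hD2 h2' h3' hL
    (index_le_two hD hL ((connected_iff_rch ⟨d, hd⟩).1 hc))

/-- the commutator subgroup has index at most 2 -/
theorem derived_index {G : Type*} [Group G] [Finite G] {D : Set G}
    (hD : Cfsg.IsThreeTranspositionClass D) {d : G} (hd : d ∈ D) :
    ∀ g : G, g ∈ commutator G ∨ d * g ∈ commutator G := by
  have h := tt_of_class hD
  have hN : (commutator G).Normal := inferInstance
  have hall : ∀ x ∈ D, d * x ∈ commutator G := by
    intro x hx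
    obtain ⟨g, rfl⟩ := isConj_iff.1 (tt_class_isConj hD hd hx)
    have h1 : ⁅d, g⁆ ∈ commutator G := by
      rw [_root_.commutator_def]
      exact Subgroup.commutator_mem_commutator (Subgroup.mem_top d) (Subgroup.mem_top g)
    rw [_root_.commutatorElement_def, h.inv hd] at h1
    rwa [show d * (g * d * g⁻¹) = d * g * d * g⁻¹ by group]
  intro g
  have hg : g ∈ Subgroup.closure D := by rw [hD.2.2]; trivial
  induction hg using Subgroup.closure_induction with
  | mem x hx => exact Or.inr (hall x hx)
  | one => exact Or.inl (one_mem _)
  | mul x y _ _ hx hy =>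
    rcases hx with hx | hx <;> rcases hy with hy | hy
    · exact Or.inl (mul_mem hx hy)
    · right
      have := mul_mem (hN.conj_mem x hx d) hy
      rwa [h.inv hd, show d * x * d * (d * y) = d * x * (d * d) * y by group, h.sq d hd,
        mul_one, mul_assoc] at this
    · right
      have := mul_mem hx hy
      rwa [mul_assoc] at this
    · left
      have h3 := mul_mem (hN.conj_mem _ hx d) hy
      rwa [h.inv hd, show d * (d * x) * d * (d * y) = (d * d) * x * (d * d) * y by group,
        h.sq d hd, one_mul, mul_one] at h3
  | inv x _ hx =>
    rcases hx with hx | hx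
    · exact Or.inl (inv_mem hx)
    · right
      have h3 := hN.conj_mem _ (inv_mem hx) d
      rwa [mul_inv_rev, h.inv hd, show d * (x⁻¹ * d) * d = d * x⁻¹ * (d * d) by group,
        h.sq d hd, mul_one] at h3

/-- Let D be a conjugacy class of 3-transpositions generating the finite group G, and suppose the centre of G is trivial and some two different members of D commute. Then the following are equivalent: (1) the commutator subgroup of G is simple (possibly of prime order); (2) G acts primitively on D by conjugation; (3) the largest normal 2-subgroup and the largest normal 3-subgroup of G are trivial and the commuting graph of D is connected. -/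
theorem result {G : Type*} [Group G] [Finite G] {D : Set G} (hD : Cfsg.IsThreeTranspositionClass D) (hZ : Subgroup.center G = ⊥) (hw : ∃ a ∈ D, ∃ b ∈ D, a ≠ b ∧ Commute a b) : (IsSimpleGroup (commutator G) ↔ Cfsg.IsPrimitiveUnderConj D) ∧ (Cfsg.IsPrimitiveUnderConj D ↔ (Cfsg.pCore 2 G = ⊥ ∧ Cfsg.pCore 3 G = ⊥ ∧ (Cfsg.commutingGraph D).Connected)) := by
  have h := tt_of_class hD
  have f2 : Fact (Nat.Prime 2) := ⟨Nat.prime_two⟩
  have f3 : Fact (Nat.Prime 3) := ⟨Nat.prime_three⟩
  have hD2 : ∃ a ∈ D, ∃ b ∈ D, a ≠ b := by
    obtain ⟨a, ha, b, hb, hne, -⟩ := hw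
    exact ⟨a, ha, b, hb, hne⟩
  have h23 : Cfsg.IsPrimitiveUnderConj D → (Cfsg.pCore 2 G = ⊥ ∧ Cfsg.pCore 3 G = ⊥ ∧
      (Cfsg.commutingGraph D).Connected) := by
    intro hp
    have h2 := prim_core_two hD hp
    have h3 := prim_core_three hD hp hw
    rw [hZ] at h2 h3
    obtain ⟨a, ha, -⟩ := hD2
    exact ⟨le_bot_iff.1 h2, le_bot_iff.1 h3, (connected_iff_rch ⟨a, ha⟩).2 (prim_rch hD hp hw)⟩
  refine ⟨⟨?_, ?_⟩, h23, fun h' => prim_of_three hD hD2 h'.1 h'.2.1 h'.2.2⟩
  · -- simple commutator subgroup implies primitive
    intro hs
    obtain ⟨d, hd, -⟩ := hD.2.1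
    have hcos := derived_index hD hd
    have hN : (commutator G).Normal := inferInstance
    -- the commutator subgroup is not abelian
    have hnab : ¬ ∀ x ∈ commutator G, ∀ y ∈ commutator G, x * y = y * x := by
      intro hab
      -- two commuting members `a ≠ b`, `a * b` lies in the commutator subgroup
      obtain ⟨a, ha, b, hb, hne, hab'⟩ := hw
      have haG := derived_index hD ha
      have hmem : a * b ∈ commutator G := by
        obtain ⟨g, rfl⟩ := isConj_iff.1 (tt_class_isConj hD ha hb)
        have h1 : ⁅a, g⁆ ∈ commutator G := by
          rw [_root_.commutator_def]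
          exact Subgroup.commutator_mem_commutator (Subgroup.mem_top a) (Subgroup.mem_top g)
        rw [_root_.commutatorElement_def, h.inv ha] at h1
        rwa [show a * (g * a * g⁻¹) = a * g * a * g⁻¹ by group]
      -- the elements of the commutator subgroup commuting with `a` form everything
      have hne1 : a * b ≠ 1 := by
        intro h1
        apply hne
        rw [eq_inv_of_mul_eq_one_left h1, h.inv hb]
      -- centralizer of `a` inside the commutator subgroup is normal in `G`
      let C : Subgroup (commutator G) := (Subgroup.centralizer {a}).subgroupOf (commutator G)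
      have hCn : C.Normal := by
        refine ⟨fun n hn g => ?_⟩
        have : g * n * g⁻¹ = n := by
          apply Subtype.ext
          show (g : G) * n * (g : G)⁻¹ = n
          rw [hab g g.2 n n.2, mul_inv_cancel_right]
        rw [this]; exact hn
      have hmC : (⟨a * b, hmem⟩ : commutator G) ∈ C := by
        rw [Subgroup.mem_subgroupOf, Subgroup.mem_centralizer_singleton_iff]
        show a * b * a = a * (a * b)
        rw [mul_assoc, hab'.eq]
      rcases hCn.eq_bot_or_eq_top with hb' | ht
      · rw [hb', Subgroup.mem_bot] at hmC
        exact hne1 (congrArg Subtype.val hmC)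
      · -- `a` centralizes everything
        have hac : ∀ g : G, g * a = a * g := by
          have h1 : ∀ x ∈ commutator G, x * a = a * x := by
            intro x hx
            have : (⟨x, hx⟩ : commutator G) ∈ C := by rw [ht]; trivial
            rw [Subgroup.mem_subgroupOf, Subgroup.mem_centralizer_singleton_iff] at this
            exact this
          intro g
          rcases haG g with h2 | h2
          · exact h1 g h2
          · have h3 := h1 _ h2
            rw [mul_assoc] at h3
            exact mul_left_cancel h3
        have : a ∈ Subgroup.center G := Subgroup.mem_center_iff.2 hac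
        rw [hZ, Subgroup.mem_bot] at this
        exact tt_ne_one hD.1 ha this
    -- hence it is a component
    have hcenter : Subgroup.center (commutator G) = ⊥ := by
      rcases (inferInstance : (Subgroup.center (commutator G)).Normal).eq_bot_or_eq_top with hb | ht
      · exact hb
      · exfalso
        apply hnab
        intro x hx y hy
        have : (⟨y, hy⟩ : commutator G) ∈ Subgroup.center (commutator G) := by rw [ht]; trivial
        exact congrArg Subtype.val (Subgroup.mem_center_iff.1 this ⟨x, hx⟩)
    have hperf : Group.IsPerfect (commutator G) := by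
      refine ⟨?_⟩
      rcases (inferInstance : (commutator (commutator G)).Normal).eq_bot_or_eq_top with hb | ht
      · exfalso
        apply hnab
        intro x hx y hy
        have h1 : ⁅(⟨x, hx⟩ : commutator G), ⟨y, hy⟩⁆ ∈ commutator (commutator G) :=
          Subgroup.commutator_mem_commutator (Subgroup.mem_top _) (Subgroup.mem_top _)
        rw [hb, Subgroup.mem_bot, commutatorElement_eq_one_iff_mul_comm] at h1
        exact congrArg Subtype.val h1
      · exact ht
    have hqs : Cfsg.IsQuasisimple (commutator G) := by
      refine ⟨hperf, ?_⟩
      have e : (commutator G) ⧸ Subgroup.center (commutator G) ≃* (commutator G) :=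
        (QuotientGroup.quotientMulEquivOfEq hcenter).trans QuotientGroup.quotientBot
      have := hs
      have hnt : Nontrivial ((commutator G) ⧸ Subgroup.center (commutator G)) :=
        e.toEquiv.nontrivial
      exact IsSimpleGroup.isSimpleGroup_of_surjective e.symm.toMonoidHom e.symm.surjective
    have hL : Cfsg.IsComponent (commutator G) := ⟨hN.isSubnormal, hqs⟩
    -- cores are trivial
    have hcen : ∀ g : G, (∀ x ∈ commutator G, g * x = x * g) → g = 1 := by
      intro g hg
      have hCn : (Subgroup.centralizer (commutator G : Set G)).Normal :=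
        H10.normal_centralizer_of_normal hN
      -- elements of the centralizer commute with all members
      have hgC : g ∈ Subgroup.centralizer (commutator G : Set G) := by
        rw [Subgroup.mem_centralizer_iff]
        intro x hx
        exact (hg x hx).symm
      have hdc : ∀ y ∈ Subgroup.centralizer (commutator G : Set G), d * y * d⁻¹ = y := by
        intro y hy
        -- [d, y] lies in the commutator subgroup and in the centralizer
        have h1 : d * y * d⁻¹ * y⁻¹ ∈ commutator G := by
          have : ⁅d, y⁆ ∈ commutator G := by
            rw [_root_.commutator_def]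
            exact Subgroup.commutator_mem_commutator (Subgroup.mem_top d) (Subgroup.mem_top y)
          rwa [_root_.commutatorElement_def] at this
        have h2 : d * y * d⁻¹ * y⁻¹ ∈ Subgroup.centralizer (commutator G : Set G) :=
          mul_mem (hCn.conj_mem y hy d) (inv_mem hy)
        have h3 : (⟨_, h1⟩ : commutator G) ∈ Subgroup.center (commutator G) := by
          rw [Subgroup.mem_center_iff]
          intro z
          exact Subtype.ext (Subgroup.mem_centralizer_iff.1 h2 z z.2)
        rw [hcenter, Subgroup.mem_bot] at h3
        have h4 : d * y * d⁻¹ * y⁻¹ = 1 := congrArg Subtype.val h3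
        exact mul_inv_eq_one.1 h4
      have hgz : g ∈ Subgroup.center G := by
        rw [Subgroup.mem_center_iff]
        have hdg : d * g = g * d := by
          have := hdc g hgC
          rw [mul_inv_eq_iff_eq_mul] at this
          exact this
        intro x
        rcases hcos x with hx | hx
        · exact (hg x hx).symm
        · have h5 := hg _ hx
          rw [← mul_assoc, ← hdg, mul_assoc, mul_assoc] at h5
          exact (mul_left_cancel h5).symm
      rw [hZ, Subgroup.mem_bot] at hgz
      exact hgz
    have hcore : ∀ p : ℕ, [Fact p.Prime] → Cfsg.pCore p G = ⊥ := by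
      intro p _
      have hPn : (Cfsg.pCore p G).Normal := H1.pCore_normal p G
      have hnil := (H1.pCore_isPGroup p G).isNilpotent
      have h1 := (ps_comp hL).solv (Cfsg.pCore p G) inferInstance
        Subgroup.le_normalizer_of_normal
      rw [eq_bot_iff]
      intro x hx
      rw [Subgroup.mem_bot]
      exact hcen x (fun y hy => (h1 x hx y hy).eq)
    have h2' : Cfsg.pCore 2 G ≤ Subgroup.center G := by rw [hcore 2]; exact bot_le
    have h3' : Cfsg.pCore 3 G ≤ Subgroup.center G := by rw [hcore 3]; exact bot_le
    apply primitive_of_index hD hD2 h2' h3' hL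
    by_cases hdL : d ∈ commutator G
    · have : commutator G = ⊤ := by
        rw [eq_top_iff]
        intro g _
        rcases hcos g with h1 | h1
        · exact h1
        · have := mul_mem hdL h1
          rwa [← mul_assoc, h.sq d hd, one_mul] at this
      rw [this, Subgroup.index_top]; norm_num
    · have : (commutator G).index = 2 := by
        rw [Subgroup.index_eq_two_iff_exists_notMem_and]
        refine ⟨d, hdL, fun g => ?_⟩
        rcases hcos g with h1 | h1
        · exact Or.inr h1
        · left
          have h3 := hN.conj_mem _ h1 d
          rwa [h.inv hd, ← mul_assoc, h.sq d hd, one_mul] at h3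
      omega
  · -- primitive implies simple commutator subgroup
    intro hp
    obtain ⟨h2, h3, hcon⟩ := h23 hp
    have h2' : Cfsg.pCore 2 G ≤ Subgroup.center G := by rw [h2]; exact bot_le
    have h3' : Cfsg.pCore 3 G ≤ Subgroup.center G := by rw [h3]; exact bot_le
    obtain ⟨L, hL⟩ := exists_comp hD hD2 h2' h3'
    have hLn := comp_normal hD hL
    have hidx := index_le_two hD hL (prim_rch hD hp hw)
    obtain ⟨d, hd, -⟩ := hD.2.1
    -- the commutator subgroup is `L`
    have hLle : L ≤ commutator G := by
      rw [← H10.comp_commutator_self hL, _root_.commutator_def]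
      exact Subgroup.commutator_mono le_top le_top
    have hle : commutator G ≤ L := by
      have hidx0 : L.index ≠ 0 := Subgroup.index_ne_zero_of_finite
      rw [_root_.commutator_def, Subgroup.commutator_le]
      intro x _ y _
      rw [_root_.commutatorElement_def]
      by_cases h1 : L.index = 1
      · rw [Subgroup.index_eq_one] at h1
        rw [h1]; trivial
      · have h2 : L.index = 2 := by omega
        rw [Subgroup.mul_mem_iff_of_index_two h2, Subgroup.mul_mem_iff_of_index_two h2,
          Subgroup.mul_mem_iff_of_index_two h2, inv_mem_iff, inv_mem_iff]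
        tauto
    have hcomm : commutator G = L := le_antisymm hle hLle
    rw [hcomm]
    -- the centre of `L` is trivial
    have hcL : Subgroup.center L = ⊥ := by
      rw [eq_bot_iff]
      intro z hz
      rw [Subgroup.mem_bot]
      have hzF : ((Subgroup.center L).map L.subtype) ≤ Cfsg.fittingSubgroup G := by
        have hn : ((Subgroup.center L).map L.subtype).Normal := inferInstance
        apply H1.le_fitting hn
        have hab : ∀ a b : ((Subgroup.center L).map L.subtype), a * b = b * a := by
          rintro ⟨_, a, ha, rfl⟩ ⟨_, b, hb, rfl⟩
          apply Subtype.ext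
          exact congrArg (fun z : L => (z : G)) ((Subgroup.mem_center_iff.1 hb a))
        have : IsMulCommutative ((Subgroup.center L).map L.subtype) := ⟨⟨hab⟩⟩
        open scoped IsMulCommutative in
        exact @CommGroup.isNilpotent ((Subgroup.center L).map L.subtype) inferInstance
      have h1 : (z : G) ∈ Cfsg.fittingSubgroup G := hzF ⟨z, hz, rfl⟩
      rw [fitting_eq_center hD h2' h3', hZ, Subgroup.mem_bot] at h1
      exact Subtype.ext h1
    have hs := hL.2.2
    have e : L ⧸ Subgroup.center L ≃* L :=
      (QuotientGroup.quotientMulEquivOfEq hcL).trans QuotientGroup.quotientBot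
    have hnt : Nontrivial L := e.symm.toEquiv.nontrivial
    exact IsSimpleGroup.isSimpleGroup_of_surjective e.toMonoidHom e.surjective

end Cfsg.Agent.S5361
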