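import Cfsg.Statements.S5363
import Cfsg.Agent.H29.TT

set_option autoImplicit false
open Cfsg

namespace Cfsg.Agent.S5363

theorem sq {G : Type*} [Group G] {a : G} (h : orderOf a = 2) : a * a = 1 := by
  have := pow_orderOf_eq_one a; rw [h, pow_two] at this; exact this

/-- in the dihedral group generated by two involutions, `a * (a*b)^m` is conjugate to `a` or `b`. -/
theorem conj_word {G : Type*} [Group G] {D : Set G} (hconj : ∀ g : G, ∀ d ∈ D, g * d * g⁻¹ ∈ D)
    {a b : G} (ha : a ∈ D) (hb : b ∈ D) (haa : a * a = 1) (hbb : b * b = 1) (m : ℕ) :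
    a * (a * b) ^ m ∈ D := by
  have ha' : a⁻¹ = a := inv_eq_of_mul_eq_one_right haa
  have hb' : b⁻¹ = b := inv_eq_of_mul_eq_one_right hbb
  induction m using Nat.strong_induction_on with
  | _ m ih =>
    match m with
    | 0 => simpa using ha
    | 1 => simpa [← mul_assoc, haa] using hb
    | k + 2 =>
      have h1 := hconj (b * a) _ (ih k (by omega))
      have h2 : b * a * (a * (a * b) ^ k) * (b * a)⁻¹ = a * (a * b) ^ (k + 2) := by
        rw [mul_inv_rev, ha', hb', pow_add, pow_two]
        have hc : (a * b) ^ k * (a * b) = (a * b) * (a * b) ^ k := (pow_succ _ _).symm.trans (pow_succ' _ _)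
        calc b * a * (a * (a * b) ^ k) * (a * b) = b * (a * a) * ((a * b) ^ k * (a * b)) := by
              simp only [mul_assoc]
          _ = b * ((a * b) ^ k * (a * b)) := by rw [haa, mul_one]
          _ = a * (a * b) * ((a * b) ^ k * (a * b)) := by rw [← mul_assoc a a b, haa, one_mul]
          _ = a * ((a * b) * (a * b) ^ k * (a * b)) := by simp only [mul_assoc]
          _ = a * ((a * b) ^ k * (a * b) * (a * b)) := by rw [hc]
          _ = a * ((a * b) ^ k * (a * b * (a * b))) := by simp only [mul_assoc]
      rw [← h2]; exact h1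

/-- Let D be a conjugation-invariant set of involutions of a finite group G. Then every product of two members of D has odd order or order 2 if and only if, for every a in D and every b in D different from a and commuting with a, the members of D commuting with a b are exactly those commuting with both a and b. -/
theorem result {G : Type*} [Group G] [Finite G] {D : Set G} (hinv : ∀ d ∈ D, orderOf d = 2) (hconj : ∀ g : G, ∀ d ∈ D, g * d * g⁻¹ ∈ D) : (∀ a ∈ D, ∀ b ∈ D, Odd (orderOf (a * b)) ∨ orderOf (a * b) = 2) ↔ ∀ a ∈ D, ∀ b ∈ D, b ≠ a → Commute a b → {y : G | y ∈ D ∧ Commute (a * b) y} = {y : G | y ∈ D ∧ Commute a y} ∩ {y : G | y ∈ D ∧ Commute b y} := by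
  constructor
  · intro h a ha b hb hne hab
    ext y
    simp only [Set.mem_ofPred_eq, Set.mem_inter_iff]
    constructor
    · rintro ⟨hy, hcy⟩
      suffices hay : Commute a y by
        refine ⟨⟨hy, hay⟩, hy, ?_⟩
        have : b = a * (a * b) := by rw [← mul_assoc, sq (hinv a ha), one_mul]
        rw [this]; exact hay.mul_left hcy
      by_contra hay
      have hzz : (a * b) * (a * b) = 1 := by
        rw [mul_assoc, ← mul_assoc b a b, ← hab.eq, mul_assoc a b b, sq (hinv b hb), mul_one, sq (hinv a ha)]
      have hza : Commute (a * b) a := ((Commute.refl a).mul_right hab).symm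
      have hz1 : a * b ≠ 1 := by
        intro h1
        apply hne
        calc b = (a * a) * b := by rw [sq (hinv a ha), one_mul]
          _ = a * (a * b) := by rw [mul_assoc]
          _ = a := by rw [h1, mul_one]
      have hodd : Odd (orderOf (a * y)) := by
        rcases h a ha y hy with h1 | h1
        · exact h1
        · exfalso
          apply hay
          have h2 : (a * y) * (a * y) = 1 := sq h1
          have h3 : a * y = (a * y)⁻¹ := (inv_eq_of_mul_eq_one_right h2).symm
          show a * y = y * a
          rw [h3, mul_inv_rev, inv_eq_of_mul_eq_one_right (sq (hinv a ha)),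
            inv_eq_of_mul_eq_one_right (sq (hinv y hy))]
      have hby : b * y = (a * b) * (a * y) := by
        rw [← mul_assoc, hza.eq, ← mul_assoc, sq (hinv a ha), one_mul]
      have hzc : Commute (a * b) (a * y) := hza.mul_right hcy
      have hz2 : orderOf (a * b) = 2 := orderOf_eq_prime (by rw [pow_two]; exact hzz) hz1
      have hcop : Nat.Coprime (orderOf (a * b)) (orderOf (a * y)) := by
        rw [hz2]; exact (Nat.coprime_two_left).2 hodd
      have hord : orderOf (b * y) = 2 * orderOf (a * y) := by
        rw [hby, hzc.orderOf_mul_eq_mul_orderOf_of_coprime hcop, hz2]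
      rcases h b hb y hy with h1 | h1
      · rw [hord] at h1
        exact (Nat.not_odd_iff_even.2 (even_two_mul _)) h1
      · rw [hord] at h1
        have h3 : orderOf (a * y) = 1 := by omega
        rw [orderOf_eq_one_iff] at h3
        apply hay
        have : y = a := by
          calc y = (a * a) * y := by rw [sq (hinv a ha), one_mul]
            _ = a := by rw [mul_assoc, h3, mul_one]
        rw [this]
    · rintro ⟨⟨hy, h1⟩, -, h2⟩
      exact ⟨hy, h1.mul_left h2⟩
  · intro h a ha b hb
    by_cases hodd : Odd (orderOf (a * b))
    · exact Or.inl hodd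
    right
    rw [Nat.not_odd_iff_even] at hodd
    obtain ⟨m, hm⟩ := hodd
    have haa := sq (hinv a ha)
    have hbb := sq (hinv b hb)
    have ha' : a⁻¹ = a := inv_eq_of_mul_eq_one_right haa
    have hb' : b⁻¹ = b := inv_eq_of_mul_eq_one_right hbb
    have hpos : 0 < orderOf (a * b) := orderOf_pos _
    have hm0 : 0 < m := by omega
    set z := (a * b) ^ m with hz
    have hz1 : z ≠ 1 := by
      intro h1
      have := orderOf_dvd_of_pow_eq_one h1
      have := Nat.le_of_dvd hm0 this
      omega
    have hzz : z * z = 1 := by
      rw [hz, ← pow_add, ← hm]; exact pow_orderOf_eq_one _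
    have hz' : z⁻¹ = z := inv_eq_of_mul_eq_one_right hzz
    have hinvab : a * (a * b) * a⁻¹ = (a * b)⁻¹ := by
      rw [mul_inv_rev, ha', hb', ← mul_assoc a a b, haa, one_mul]
    have hza : Commute a z := by
      have : a * z * a⁻¹ = z := by
        rw [hz, ← conj_pow, hinvab, inv_pow, ← hz, hz']
      exact (mul_inv_eq_iff_eq_mul.1 this)
    have hzb : Commute z b := by
      have h1 : Commute z (a * b) := (Commute.refl (a*b)).pow_left m
      have : b = a * (a * b) := by rw [← mul_assoc, haa, one_mul]
      rw [this]; exact hza.symm.mul_right h1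
    have hazD : a * z ∈ D := conj_word hconj ha hb haa hbb m
    have hne : a * z ≠ a := by
      intro h1; exact hz1 (mul_eq_left.1 h1)
    have hcomm : Commute a (a * z) := (Commute.refl a).mul_right hza
    have := h a ha (a * z) hazD hne hcomm
    have hprod : a * (a * z) = z := by rw [← mul_assoc, haa, one_mul]
    rw [hprod] at this
    have hb2 : b ∈ {y : G | y ∈ D ∧ Commute z y} := ⟨hb, hzb⟩
    rw [this] at hb2
    have hab : Commute a b := hb2.1.2
    refine orderOf_eq_prime ?_ ?_
    · rw [hab.mul_pow, pow_two, pow_two, haa, hbb, one_mul]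
    · intro h1
      rw [h1, orderOf_one] at hm
      omega

end Cfsg.Agent.S5363
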