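import Cfsg.Statements.S5364
import Cfsg.Agent.H29.TT

set_option autoImplicit false
open Cfsg

namespace Cfsg.Agent.S5364

/-- Let D be a conjugation-invariant set of involutions of a finite group G and t an involution in the centre of G such that d t does not lie in D for any d in D. If the images of the members of D in G modulo the subgroup generated by t satisfy the 3-transposition order conditions (each has order 2 and any two have product of order at most 3), then so do the members of D. -/
theorem result {G : Type*} [Group G] [Finite G] {D : Set G} (hinv : ∀ d ∈ D, orderOf d = 2) (hconj : ∀ g : G, ∀ d ∈ D, g * d * g⁻¹ ∈ D) (t : G) (ht : orderOf t = 2) (htZ : t ∈ Subgroup.center G) (hDt : ∀ d ∈ D, d * t ∉ D) [(Subgroup.zpowers t).Normal] (himg : Cfsg.IsThreeTranspositionSet ((QuotientGroup.mk : G → G ⧸ Subgroup.zpowers t) '' D)) : Cfsg.IsThreeTranspositionSet D := by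
  refine ⟨hinv, ?_⟩
  intro d hd e he
  have hdd : d * d = 1 := by
    have := pow_orderOf_eq_one d; rw [hinv d hd, pow_two] at this; exact this
  have hee : e * e = 1 := by
    have := pow_orderOf_eq_one e; rw [hinv e he, pow_two] at this; exact this
  have hd' : d⁻¹ = d := inv_eq_of_mul_eq_one_right hdd
  have he' : e⁻¹ = e := inv_eq_of_mul_eq_one_right hee
  have hz : ∀ y : G, y ∈ Subgroup.zpowers t → y = 1 ∨ y = t := by
    intro y hy
    have htt : t ^ 2 = 1 := by rw [← ht]; exact pow_orderOf_eq_one t
    rw [Subgroup.mem_zpowers_iff] at hy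
    obtain ⟨k, rfl⟩ := hy
    rcases Int.even_or_odd' k with ⟨m, rfl | rfl⟩
    · left; rw [zpow_mul]; norm_cast; rw [htt, one_zpow]
    · right; rw [zpow_add, zpow_mul]; norm_cast; rw [htt, one_zpow, one_mul, pow_one]
  have himg' := himg.2 (QuotientGroup.mk d) ⟨d, hd, rfl⟩ (QuotientGroup.mk e) ⟨e, he, rfl⟩
  rcases himg' with h | h
  · rw [← QuotientGroup.mk_mul, ← QuotientGroup.mk_pow, QuotientGroup.eq_one_iff] at h
    rcases hz _ h with h | h
    · exact Or.inl h
    · exfalso
      apply hDt d hd
      have h1 : e * d * e⁻¹ = d * t := by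
        rw [he']
        calc e * d * e = (d * d) * e * d * e := by rw [hdd, one_mul]
          _ = d * (d * e) ^ 2 := by rw [pow_two]; group
          _ = d * t := by rw [h]
      rw [← h1]; exact hconj e d hd
  · rw [← QuotientGroup.mk_mul, ← QuotientGroup.mk_pow, QuotientGroup.eq_one_iff] at h
    rcases hz _ h with h | h
    · exact Or.inr h
    · exfalso
      have h0 : d * e * d⁻¹ ∈ D := hconj d e he
      apply hDt _ h0
      have h1 : e * d * e⁻¹ = d * e * d⁻¹ * t := by
        rw [he', hd']
        calc e * d * e = (d * e * (d * d) * e * d) * (e * d * e) := by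
                rw [hdd]
                simp only [mul_one]
                rw [mul_assoc d e e, hee, mul_one, hdd, one_mul]
          _ = d * e * d * (d * e) ^ 3 := by simp only [pow_succ, pow_zero]; group
          _ = d * e * d * t := by rw [h]
      rw [← h1]; exact hconj e d hd

end Cfsg.Agent.S5364
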