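import Cfsg.Statements.S5365
import Cfsg.Agent.H29.TT9
import Cfsg.Agent.H29.SymFive
import Cfsg.Agent.S5355

set_option autoImplicit false
open Cfsg

namespace Cfsg.Agent.S5365

open Subgroup Cfsg.Agent.H29 Cfsg.Agent

theorem s3_third : ∀ a b c : Equiv.Perm (Fin 3), a * a = 1 → b * b = 1 → c * c = 1 → c ≠ 1 →
    a * b ≠ b * a → c = a ∨ c = b ∨ c = a * b * a := by decide +kernel

theorem s3_nab : ¬ ∀ a b : Equiv.Perm (Fin 3), a * b = b * a := by decide +kernel

theorem s3_center : ∀ a : Equiv.Perm (Fin 3), (∀ b, a * b = b * a) → a = 1 := by decide +kernel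

section
variable {G : Type*} [Group G] {D : Set G}

theorem local_pair (h : TT D) (h1 : ∀ a ∈ D, a ≠ 1) {d : G}
    (e : Nonempty (Subgroup.closure (Dc D d) ≃* Equiv.Perm (Fin 3))) :
    (∃ x ∈ Dc D d, ∃ y ∈ Dc D d, ¬ Commute x y) ∧
    ∀ x ∈ Dc D d, ∀ y ∈ Dc D d, ¬ Commute x y → ∀ w ∈ Dc D d, w = x ∨ w = y ∨ w = x * y * x := by
  obtain ⟨ψ⟩ := e
  constructor
  · by_contra hcon
    push Not at hcon
    have hab := Subgroup.isMulCommutative_closure (fun a ha b hb => (hcon a ha b hb).eq)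
    apply s3_nab
    intro a b
    have h1 := hab.is_comm.comm (ψ.symm a) (ψ.symm b)
    have h2 := congrArg ψ h1
    rwa [map_mul, map_mul, ψ.apply_symm_apply, ψ.apply_symm_apply] at h2
  · intro x hx y hy hxy w hw
    have hm : ∀ z ∈ Dc D d, z ∈ Subgroup.closure (Dc D d) := fun z hz => Subgroup.subset_closure hz
    have hsq : ∀ z (hz : z ∈ Dc D d), ψ ⟨z, hm z hz⟩ * ψ ⟨z, hm z hz⟩ = 1 := by
      intro z hz
      rw [← map_mul]
      have : (⟨z, hm z hz⟩ : Subgroup.closure (Dc D d)) * ⟨z, hm z hz⟩ = 1 :=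
        Subtype.ext (h.sq z hz.1)
      rw [this, map_one]
    rcases s3_third (ψ ⟨x, hm x hx⟩) (ψ ⟨y, hm y hy⟩) (ψ ⟨w, hm w hw⟩) (hsq x hx) (hsq y hy)
      (hsq w hw) (by
        intro h2
        rw [map_eq_one_iff ψ ψ.injective] at h2
        exact h1 w hw.1 (congrArg Subtype.val h2)) (by
        intro h2
        rw [← map_mul, ← map_mul] at h2
        exact hxy (congrArg Subtype.val (ψ.injective h2))) with h2 | h2 | h2
    · exact Or.inl (congrArg Subtype.val (ψ.injective h2))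
    · exact Or.inr (Or.inl (congrArg Subtype.val (ψ.injective h2)))
    · right; right
      rw [← map_mul, ← map_mul] at h2
      exact congrArg Subtype.val (ψ.injective h2)

/-- different members of `D_d` do not commute -/
theorem local_nc (h : TT D) {d : G}
    (hp : (∃ x ∈ Dc D d, ∃ y ∈ Dc D d, ¬ Commute x y) ∧
    ∀ x ∈ Dc D d, ∀ y ∈ Dc D d, ¬ Commute x y → ∀ w ∈ Dc D d, w = x ∨ w = y ∨ w = x * y * x)
    {u v : G} (hu : u ∈ Dc D d) (hv : v ∈ Dc D d) (hne : u ≠ v) : ¬ Commute u v := by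
  obtain ⟨⟨x, hx, y, hy, hxy⟩, hall⟩ := hp
  have hyx : ¬ Commute y x := fun h' => hxy h'.symm
  have hz1 : ¬ Commute x (x * y * x) := by
    rw [h.braid x hx.1 y hy.1 hxy]
    exact h.not_comm_conj hx.1 hy.1 hxy
  have hz2 : ¬ Commute y (x * y * x) := h.not_comm_conj hy.1 hx.1 hyx
  have hu' := hall x hx y hy hxy u hu
  have hv' := hall x hx y hy hxy v hv
  generalize x * y * x = z at hz1 hz2 hu' hv'
  rcases hu' with h2 | h2 | h2 <;> rcases hv' with h3 | h3 | h3 <;> rw [h2, h3] <;>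
    rw [h2, h3] at hne
  · exact absurd rfl hne
  · exact hxy
  · exact hz1
  · exact hyx
  · exact absurd rfl hne
  · exact hz2
  · exact fun h' => hz1 h'.symm
  · exact fun h' => hz2 h'.symm
  · exact absurd rfl hne

theorem exists_swaps : ∀ i j : Fin 5, i ≠ j → ∃ k l m : Fin 5, k ≠ l ∧ l ≠ m ∧ k ≠ m ∧
    k ≠ i ∧ k ≠ j ∧ l ≠ i ∧ l ≠ j ∧ m ≠ i ∧ m ≠ j := by decide +kernel

theorem swap_facts : ∀ i j k l m : Fin 5, i ≠ j → k ≠ l → l ≠ m → k ≠ m →
    k ≠ i → k ≠ j → l ≠ i → l ≠ j → m ≠ i → m ≠ j →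
    (Equiv.swap i j * Equiv.swap k l = Equiv.swap k l * (Equiv.swap i j : Equiv.Perm (Fin 5))) ∧
    (Equiv.swap i j * Equiv.swap l m = Equiv.swap l m * (Equiv.swap i j : Equiv.Perm (Fin 5))) ∧
    (Equiv.swap k l * Equiv.swap l m ≠ Equiv.swap l m * (Equiv.swap k l : Equiv.Perm (Fin 5))) ∧
    (Equiv.swap k l : Equiv.Perm (Fin 5)) ≠ Equiv.swap i j ∧
    (Equiv.swap l m : Equiv.Perm (Fin 5)) ≠ Equiv.swap i j := by
  decide +kernel

theorem swap_conj5 : ∀ i j : Fin 5, i ≠ j → ∃ g : Equiv.Perm (Fin 5),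
    g * Equiv.swap 0 1 * g⁻¹ = Equiv.swap i j := by
  intro i j hij
  have hc : IsConj (Equiv.swap (0 : Fin 5) 1) (Equiv.swap i j) :=
    Equiv.Perm.isConj_swap (by decide) hij
  exact isConj_iff.1 hc

/-- The Petersen case. -/
theorem petersen (h : TT D) (h1 : ∀ a ∈ D, a ≠ 1)
    (hp : ∀ d ∈ D, (∃ x ∈ Dc D d, ∃ y ∈ Dc D d, ¬ Commute x y) ∧
    ∀ x ∈ Dc D d, ∀ y ∈ Dc D d, ¬ Commute x y → ∀ w ∈ Dc D d, w = x ∨ w = y ∨ w = x * y * x)
    {d x y w : G} (hd : d ∈ D) (hx : x ∈ Dc D d) (hy : y ∈ Dc D d) (hxy : x ≠ y)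
    (hw : w ∈ Dc D y) (hwx : ¬ Commute w x) :
    Nonempty (Subgroup.closure D ≃* Equiv.Perm (Fin 5)) := by
  have hnxy := local_nc h (hp d hd) hx hy hxy
  have hdw : d ≠ w := by
    rintro rfl
    exact hwx hx.2.2
  have hdDy : d ∈ Dc D y := ⟨hd, fun h' => hy.2.1 h'.symm, hy.2.2.symm⟩
  have hndw := local_nc h (hp y hy.1) hdDy hw hdw
  obtain ⟨φ, e0, e1, e2, e3⟩ := exists_hom_perm5 (h.sq d hd) (h.sq w hw.1) (h.sq x hx.1)
    (h.sq y hy.1) hx.2.2.eq hy.2.2.eq hw.2.2.symm.eq (h.braid d hd w hw.1 hndw)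
    (h.braid w hw.1 x hx.1 hwx) (h.braid x hx.1 y hy.1 hnxy)
  have hinj := perm5_injective φ (by rw [e0, e2]; exact fun h' => hx.2.1 h'.symm)
  have hmem : ∀ i j : Fin 5, i ≠ j → φ (Equiv.swap i j) ∈ D := by
    intro i j hij
    obtain ⟨g, hg⟩ := swap_conj5 i j hij
    rw [← hg, map_mul, map_mul, map_inv, e0]
    exact h.conj _ d hd
  have hcomm : ∀ x y : Equiv.Perm (Fin 5), Commute (φ x) (φ y) ↔ x * y = y * x := by
    intro x y
    constructor
    · intro h'
      apply hinj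
      rw [map_mul, map_mul]; exact h'
    · intro h'
      show φ x * φ y = φ y * φ x
      rw [← map_mul, h', map_mul]
  have hrange : ∀ f ∈ D, f ∈ φ.range := by
    intro f hf
    by_contra hnf
    have hnc : ∀ i j : Fin 5, i ≠ j → ¬ Commute (φ (Equiv.swap i j)) f := by
      intro i j hij hc
      obtain ⟨k, l, m, hkl, hlm, hkm, hki, hkj, hli, hlj, hmi, hmj⟩ := exists_swaps i j hij
      obtain ⟨s1, s2, s3, s4, s5⟩ := swap_facts i j k l m hij hkl hlm hkm hki hkj hli hlj hmi hmj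
      have hfD : f ∈ Dc D (φ (Equiv.swap i j)) := ⟨hf, fun h' => hnf ⟨_, h'.symm⟩, hc⟩
      have hk : φ (Equiv.swap k l) ∈ Dc D (φ (Equiv.swap i j)) :=
        ⟨hmem k l hkl, fun h' => s4 (hinj h'), (hcomm _ _).2 s1⟩
      have hl : φ (Equiv.swap l m) ∈ Dc D (φ (Equiv.swap i j)) :=
        ⟨hmem l m hlm, fun h' => s5 (hinj h'), (hcomm _ _).2 s2⟩
      rcases (hp _ (hmem i j hij)).2 _ hk _ hl (fun h' => s3 ((hcomm _ _).1 h')) f hfD with
        h' | h' | h'
      · exact hnf ⟨_, h'.symm⟩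
      · exact hnf ⟨_, h'.symm⟩
      · apply hnf
        rw [h', ← map_mul, ← map_mul]
        exact ⟨_, rfl⟩
    -- the four-group
    have key : ∀ i j k l : Fin 5, i ≠ j → k ≠ l →
        (Equiv.swap i j * Equiv.swap k l = Equiv.swap k l * (Equiv.swap i j : Equiv.Perm (Fin 5))) →
        (Equiv.swap i j : Equiv.Perm (Fin 5)) ≠ Equiv.swap k l →
        φ (Equiv.swap i j * Equiv.swap k l) * f * (φ (Equiv.swap i j * Equiv.swap k l))⁻¹ ∈ Dc D f := by
      intro i j k l hij hkl hc hne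
      have c0 : Commute (φ (Equiv.swap i j)) (φ (Equiv.swap k l)) := (hcomm _ _).2 hc
      have c1 := hnc i j hij
      have c2 : ¬ Commute f (φ (Equiv.swap k l)) := fun h' => hnc k l hkl h'.symm
      have c3 := h.str_comm (hmem i j hij) hf (hmem k l hkl) c1 c2 c0
      have c4 := h.str_ne (hmem i j hij) hf (hmem k l hkl) c1 c2 (fun h' => hne (hinj h'))
      have e : φ (Equiv.swap i j * Equiv.swap k l) * f * (φ (Equiv.swap i j * Equiv.swap k l))⁻¹ =
        φ (Equiv.swap i j) * φ (Equiv.swap k l) * f * φ (Equiv.swap k l) * φ (Equiv.swap i j) := by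
        rw [map_mul, mul_inv_rev, h.inv (hmem i j hij), h.inv (hmem k l hkl)]; group
      rw [e]
      exact ⟨h.str_mem (hmem i j hij) hf (hmem k l hkl), c4, c3⟩
    have k1 := key 0 1 2 3 (by decide) (by decide) (by decide) (by decide)
    have k2 := key 0 2 1 3 (by decide) (by decide) (by decide) (by decide)
    have k3 := key 0 3 1 2 (by decide) (by decide) (by decide) (by decide)
    set t1 : Equiv.Perm (Fin 5) := Equiv.swap 0 1 * Equiv.swap 2 3 with ht1
    set t2 : Equiv.Perm (Fin 5) := Equiv.swap 0 2 * Equiv.swap 1 3 with ht2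
    set t3 : Equiv.Perm (Fin 5) := Equiv.swap 0 3 * Equiv.swap 1 2 with ht3
    have ht : t1 * t3 = t2 := by rw [ht1, ht2, ht3]; decide
    have e2 : φ t2 * f * (φ t2)⁻¹ = φ t1 * (φ t3 * f * (φ t3)⁻¹) * (φ t1)⁻¹ := by
      rw [← ht, map_mul]; group
    have hc12 : Commute (φ t1 * f * (φ t1)⁻¹) (φ t2 * f * (φ t2)⁻¹) := by
      rw [e2, comm_conj_iff]
      exact k3.2.2
    have hne12 : φ t1 * f * (φ t1)⁻¹ ≠ φ t2 * f * (φ t2)⁻¹ := by
      rw [e2]
      intro h'
      exact k3.2.1 (mul_left_cancel (mul_right_cancel h')).symm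
    exact local_nc h (hp f hf) k1 k2 hne12 hc12
  have heq : Subgroup.closure D = φ.range := by
    apply le_antisymm
    · rw [Subgroup.closure_le]
      exact hrange
    · rintro _ ⟨σ, rfl⟩
      have hσ : σ ∈ Subgroup.closure {σ : Equiv.Perm (Fin 5) | σ.IsSwap} := by
        rw [Equiv.Perm.closure_isSwap]; trivial
      induction hσ using Subgroup.closure_induction with
      | mem τ hτ =>
        obtain ⟨i, j, hij, rfl⟩ := hτ
        exact Subgroup.subset_closure (hmem i j hij)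
      | one => rw [map_one]; exact one_mem _
      | mul a b _ _ ha hb => rw [map_mul]; exact mul_mem ha hb
      | inv a _ ha => rw [map_inv]; exact inv_mem ha
  rw [heq]
  exact ⟨(MonoidHom.ofInjective hinj).symm⟩

end

theorem mem_of_card_three {C : Type*} [Group C] {P : Subgroup C} (hP : Nat.card P = 3) {u v : C}
    (hu : u ∈ P) (hv : v ∈ P) (hne : v ≠ 1) : u ∈ Subgroup.zpowers v := by
  have hle : Subgroup.zpowers v ≤ P := by rw [Subgroup.zpowers_le]; exact hv
  have f3 : Fact (Nat.Prime 3) := ⟨Nat.prime_three⟩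
  have hfin : Finite P := Nat.finite_of_card_ne_zero (by rw [hP]; norm_num)
  have h1 : Nat.card (Subgroup.zpowers v) ∣ 3 := by
    rw [← hP]; exact Subgroup.card_dvd_of_le hle
  rcases (Nat.dvd_prime Nat.prime_three).1 h1 with h2 | h2
  · exfalso
    rw [Subgroup.card_eq_one, Subgroup.zpowers_eq_bot] at h2
    exact hne h2
  · have : Subgroup.zpowers v = P := by
      apply Subgroup.eq_of_le_of_card_ge hle
      rw [h2, hP]
    rw [this]; exact hu

/-- Let D be a non-empty conjugation-invariant set of involutions of a finite group G satisfying the 3-transposition order conditions, and suppose that for every d in D the members of D other than d commuting with d generate a subgroup isomorphic to the symmetric group of degree 3, and the largest normal 3-subgroup of the centralizer of d has order 3. Then the subgroup generated by D is isomorphic to the symmetric group of degree 5 or to the direct product of two symmetric groups of degree 3. -/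
theorem result {G : Type*} [Group G] [Finite G] {D : Set G} (hD : Cfsg.IsThreeTranspositionSet D) (hconj : ∀ g : G, ∀ d ∈ D, g * d * g⁻¹ ∈ D) (hne : D.Nonempty) (hloc : ∀ d ∈ D, Nonempty (↥(Subgroup.closure {y : G | y ∈ D ∧ y ≠ d ∧ Commute d y}) ≃* Equiv.Perm (Fin 3)) ∧ Nat.card (Cfsg.pCore 3 ↥(Subgroup.centralizer ({d} : Set G))) = 3) : Nonempty (↥(Subgroup.closure D) ≃* Equiv.Perm (Fin 5)) ∨ Nonempty (↥(Subgroup.closure D) ≃* Equiv.Perm (Fin 3) × Equiv.Perm (Fin 3)) := by
  have h : TT D := ⟨fun a ha => tt_mul_self hD ha, fun a ha b hb hc => tt_braid hD ha hb hc, hconj⟩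
  have f3 : Fact (Nat.Prime 3) := ⟨Nat.prime_three⟩
  have h1 : ∀ a ∈ D, a ≠ 1 := fun a ha => tt_ne_one hD ha
  have hp := fun (d : G) (hd : d ∈ D) => local_pair h h1 (d := d) (hloc d hd).1
  by_cases hK : ∀ d ∈ D, ∀ x ∈ Dc D d, ∀ y ∈ Dc D d, x ≠ y → ∀ w ∈ Dc D y, Commute w x
  swap
  · left
    push Not at hK
    obtain ⟨d, hd, x, hx, y, hy, hxy, w, hw, hwx⟩ := hK
    exact petersen h h1 hp hd hx hy hxy hw hwx
  right
  have hmemDc : ∀ {p q : G}, p ∈ D → q ∈ Dc D p → p ∈ Dc D q :=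
    fun hp' hq => ⟨hp', fun h' => hq.2.1 h'.symm, hq.2.2.symm⟩
  -- W-relation
  have hW : ∀ c ∈ D, ∀ p ∈ Dc D c, ∀ q ∈ Dc D c, WRel D p q := by
    intro c hc p hp' q hq
    by_cases hpq : p = q
    · subst hpq; exact WRel.refl hp'.1
    have hnc := local_nc h (hp c hc) hp' hq hpq
    refine ⟨hp'.1, hq.1, fun e he => ⟨?_, ?_⟩⟩
    · rintro ⟨hep, hc1⟩
      refine ⟨fun h' => hnc (h' ▸ hc1), ?_⟩
      exact (hK c hc q hq p hp' (fun h' => hpq h'.symm) e ⟨he, hep, hc1⟩).symm
    · rintro ⟨heq, hc1⟩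
      refine ⟨fun h' => hnc (h' ▸ hc1).symm, ?_⟩
      exact (hK c hc p hp' q hq hpq e ⟨he, heq, hc1⟩).symm
  have hRn : (Cfsg.pCore 3 G).Normal := H1.pCore_normal 3 G
  have hR : ∀ c ∈ D, ∀ p ∈ Dc D c, ∀ q ∈ Dc D c, p * q ∈ Cfsg.pCore 3 G :=
    fun c hc p hp' q hq => h.core_of_wrel (hW c hc p hp' q hq)
  -- centralizers in `R`
  have hCR : ∀ p ∈ D, ∀ q ∈ Dc D p, ∀ q' ∈ Dc D p, ¬ Commute q q' → ∀ u ∈ Cfsg.pCore 3 G,
      Commute p u → u ∈ Subgroup.zpowers (q * q') := by
    intro p hpD q hq q' hq' hnc u hu hpu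
    have hcard := (hloc p hpD).2
    set C := Subgroup.centralizer ({p} : Set G) with hC
    have hle : (Cfsg.pCore 3 G).subgroupOf C ≤ Cfsg.pCore 3 C := by
      apply H1.le_pCore
      · infer_instance
      · exact (H1.pCore_isPGroup 3 G).comap_subtype
    have hmemC : ∀ v : G, Commute p v → v ∈ C := by
      intro v hv
      rw [hC, Subgroup.mem_centralizer_singleton_iff]
      exact hv.eq.symm
    have huC := hmemC u hpu
    have hvC := hmemC (q * q') (hq.2.2.mul_right hq'.2.2)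
    have h5 := mem_of_card_three (u := (⟨u, huC⟩ : C)) (v := ⟨q * q', hvC⟩) hcard (hle hu)
      (hle (hR p hpD q hq q' hq')) (by
        intro h6
        have h7 : q * q' = 1 := congrArg Subtype.val h6
        apply hnc
        rw [eq_inv_of_mul_eq_one_left h7]
        exact (Commute.refl q').inv_left)
    obtain ⟨n, hn⟩ := Subgroup.mem_zpowers_iff.1 h5
    exact Subgroup.mem_zpowers_iff.2 ⟨n, congrArg Subtype.val hn⟩
  -- inversion
  have hinv : ∀ p ∈ D, ∀ q ∈ Dc D p, ∀ u ∈ Cfsg.pCore 3 G, (p * q) * u * (p * q)⁻¹ = u⁻¹ := by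
    intro p hpD q hq u hu
    have hpq : p ∈ Dc D q := hmemDc hpD hq
    -- partners
    have hpart : ∀ c ∈ D, ∀ p ∈ Dc D c, ∃ p' ∈ Dc D c, ¬ Commute p p' := by
      intro c hc p hp'
      obtain ⟨⟨x, hx, y, hy, hxy⟩, hall⟩ := hp c hc
      by_cases hpx : p = x
      · exact ⟨y, hy, hpx ▸ hxy⟩
      · exact ⟨x, hx, local_nc h (hp c hc) hp' hx hpx⟩
    obtain ⟨q', hq', hnq⟩ := hpart p hpD q hq
    obtain ⟨p', hp', hnp⟩ := hpart q hq.1 p hpq
    have hppR := hR q hq.1 p hpq p' hp'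
    -- `u p u⁻¹` is in the class of `p`
    have hconj' : u * p * u⁻¹ ∈ Dc D q := by
      have hw : WRel D (u * p * u⁻¹) p := by
        apply h.wrel_of_core hpD (h.conj u p hpD)
        have e1 : p * (u * p * u⁻¹) = (p * u * p⁻¹) * u⁻¹ := by rw [h.inv hpD]; group
        rw [e1]
        exact mul_mem (hRn.conj_mem u hu p) (inv_mem hu)
      have h6 := (hw.2.2 q hq.1).2 ⟨hq.2.1, hq.2.2⟩
      exact ⟨h.conj u p hpD, fun h' => h6.1 h'.symm, h6.2.symm⟩
    have hk : ∃ k ∈ Subgroup.zpowers (p * p'), k * p * k⁻¹ = u * p * u⁻¹ := by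
      rcases (hp q hq.1).2 p hpq p' hp' hnp _ hconj' with h6 | h6 | h6
      · exact ⟨1, one_mem _, by rw [h6]; group⟩
      · refine ⟨p * p', Subgroup.mem_zpowers _, ?_⟩
        rw [h6, mul_inv_rev, h.inv hpD, h.inv hp'.1]
        calc p * p' * p * (p' * p) = p * (p' * p * p') * p := by group
          _ = p * (p * p' * p) * p := by rw [h.braid p hpD p' hp'.1 hnp]
          _ = p' := h.conj_conj hpD p'
      · refine ⟨(p * p')⁻¹, inv_mem (Subgroup.mem_zpowers _), ?_⟩
        rw [h6, inv_inv, mul_inv_rev, h.inv hpD, h.inv hp'.1]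
        calc p' * p * p * (p * p') = p' * (p * p) * (p * p') := by group
          _ = p' * p * p' := by rw [h.sq p hpD]; group
          _ = p * p' * p := (h.braid p hpD p' hp'.1 hnp).symm
    obtain ⟨k, hk, hku⟩ := hk
    have hkR : k ∈ Cfsg.pCore 3 G := by
      have : Subgroup.zpowers (p * p') ≤ Cfsg.pCore 3 G := by
        rw [Subgroup.zpowers_le]; exact hppR
      exact this hk
    have hcp : Commute p (k⁻¹ * u) := by
      have h7 : u⁻¹ * (k * p * k⁻¹) * u = p := by rw [hku]; group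
      show p * (k⁻¹ * u) = k⁻¹ * u * p
      calc p * (k⁻¹ * u) = k⁻¹ * u * (u⁻¹ * (k * p * k⁻¹) * u) := by group
        _ = _ := by rw [h7]
    have hcz := hCR p hpD q hq q' hq' hnq _ (mul_mem (inv_mem hkR) hu) hcp
    -- `p q` inverts both factors
    have i1 : (p * q) * (p * p') * (p * q)⁻¹ = (p * p')⁻¹ := by
      rw [mul_inv_rev, mul_inv_rev, h.inv hpD, h.inv hq.1, h.inv hp'.1]
      have hqp' : Commute q p' := hp'.2.2
      have hqp : Commute q p := hpq.2.2
      calc p * q * (p * p') * (q * p) = p * (q * (p * p')) * q * p := by group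
        _ = p * ((p * p') * q) * q * p := by rw [(hqp.mul_right hqp').eq]
        _ = (p * p) * p' * (q * q) * p := by group
        _ = p' * p := by rw [h.sq p hpD, h.sq q hq.1]; group
    have i2 : (p * q) * (q * q') * (p * q)⁻¹ = (q * q')⁻¹ := by
      rw [mul_inv_rev, mul_inv_rev, h.inv hpD, h.inv hq.1, h.inv hq'.1]
      have hpq' : Commute p q' := hq'.2.2
      calc p * q * (q * q') * (q * p) = p * (q * q) * q' * q * p := by group
        _ = p * (q' * q) * p := by rw [h.sq q hq.1]; group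
        _ = (q' * q) * p * p := by rw [(hpq'.mul_right hq.2.2).eq]
        _ = q' * q := by rw [mul_assoc, h.sq p hpD, mul_one]
    have i3 : (p * q) * k * (p * q)⁻¹ = k⁻¹ := by
      obtain ⟨n, rfl⟩ := Subgroup.mem_zpowers_iff.1 hk
      rw [← conj_zpow, i1, inv_zpow]
    have i4 : (p * q) * (k⁻¹ * u) * (p * q)⁻¹ = (k⁻¹ * u)⁻¹ := by
      obtain ⟨n, hn⟩ := Subgroup.mem_zpowers_iff.1 hcz
      rw [← hn, ← conj_zpow, i2, inv_zpow]
    -- the factors commute
    have hpp' := hW q hq.1 p hpq p' hp'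
    have hp'q' : Commute p' q' := ((hpp'.2.2 q' hq'.1).1 ⟨hq'.2.1, hq'.2.2⟩).2
    have c1 : Commute (p * p') (q * q') :=
      ((hq.2.2.mul_right hq'.2.2)).mul_left (hp'.2.2.symm.mul_right hp'q')
    have c2 : Commute k (k⁻¹ * u) := by
      obtain ⟨n, rfl⟩ := Subgroup.mem_zpowers_iff.1 hk
      obtain ⟨m, hm⟩ := Subgroup.mem_zpowers_iff.1 hcz
      rw [← hm]
      exact (c1.zpow_left n).zpow_right m
    calc (p * q) * u * (p * q)⁻¹
        = ((p * q) * k * (p * q)⁻¹) * ((p * q) * (k⁻¹ * u) * (p * q)⁻¹) := by group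
      _ = k⁻¹ * (k⁻¹ * u)⁻¹ := by rw [i3, i4]
      _ = ((k⁻¹ * u) * k)⁻¹ := (mul_inv_rev _ _).symm
      _ = (k * (k⁻¹ * u))⁻¹ := by rw [c2.eq]
      _ = u⁻¹ := by group
  -- the elements
  obtain ⟨d, hd⟩ := hne
  obtain ⟨⟨x, hx, y, hy, hxy⟩, hall⟩ := hp d hd
  have hdx : d ∈ Dc D x := hmemDc hd hx
  -- everything lies in `D_d ∪ D_x`
  have hDall : ∀ f ∈ D, f ∈ Dc D d ∨ f ∈ Dc D x := by
    intro f hf
    by_contra hnf
    push Not at hnf
    have hnfd : ¬ Commute d f := by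
      intro hc
      by_cases hfd : f = d
      · exact hnf.2 (hfd ▸ hdx)
      · exact hnf.1 ⟨hf, hfd, hc⟩
    have hnfx : ¬ Commute x f := by
      intro hc
      by_cases hfx : f = x
      · exact hnf.1 (hfx ▸ hx)
      · exact hnf.2 ⟨hf, hfx, hc⟩
    have hxd : Commute x d := hx.2.2.symm
    have hfd' : ¬ Commute f d := fun h' => hnfd h'.symm
    -- r
    have r1 := h.str_comm hx.1 hf hd hnfx hfd' hxd
    have r2 := h.str_ne hx.1 hf hd hnfx hfd' hx.2.1
    have r3 := h.str_mem hx.1 hf hd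
    set r := x * d * f * d * x with hr
    have z1 := (Cfsg.Agent.S5355.z_rel hD hx.1 hf hd hx.2.1 hxd hnfx hfd').1
    rw [← hr] at z1
    have e1 : f * (x * d) * f = (f * x * f) * (f * d * f) := by
      calc f * (x * d) * f = f * x * 1 * d * f := by group
        _ = f * x * (f * f) * d * f := by rw [h.sq f hf]
        _ = _ := by group
    have hu := hR d hd x hx y hy
    have hp1 : f * x * f ∈ D := h.conj' hx.1 hf
    have hp2 : f * d * f ∈ Dc D (f * x * f) := by
      refine ⟨h.conj' hd hf, ?_, (h.comm_conj hf).2 hxd⟩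
      intro h'
      exact hx.2.1 (mul_left_cancel (mul_right_cancel h')).symm
    have j1 := hinv _ hp1 _ hp2 _ hu
    have j2 := hinv x hx.1 d hdx
    have j3 := hinv f hf r ⟨r3, r2, r1⟩
    rw [← e1, z1] at j1
    have j4 : (x * d) * (f * r) * (x * y) * ((x * d) * (f * r))⁻¹ = x * y := by
      calc (x * d) * (f * r) * (x * y) * ((x * d) * (f * r))⁻¹
          = (x * d) * ((f * r) * (x * y) * (f * r)⁻¹) * (x * d)⁻¹ := by group
        _ = (x * d) * (x * y)⁻¹ * (x * d)⁻¹ := by rw [j3 _ hu]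
        _ = x * y := by rw [j2 _ (inv_mem hu), inv_inv]
    have j5 : x * y = (x * y)⁻¹ := j4.symm.trans j1
    apply hxy
    have j6 : x * y = y * x := by
      calc x * y = (x * y)⁻¹ := j5
        _ = y * x := by rw [mul_inv_rev, h.inv hx.1, h.inv hy.1]
    exact j6
  -- the product decomposition
  set H1 := Subgroup.closure (Dc D d) with hH1
  set H2 := Subgroup.closure (Dc D x) with hH2
  obtain ⟨ψ1⟩ : Nonempty (H1 ≃* Equiv.Perm (Fin 3)) := (hloc d hd).1
  obtain ⟨ψ2⟩ : Nonempty (H2 ≃* Equiv.Perm (Fin 3)) := (hloc x hx.1).1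
  have hc12 : ∀ a ∈ H1, ∀ b ∈ H2, Commute a b := by
    have h0 : ∀ a ∈ Dc D d, ∀ b ∈ Dc D x, Commute a b := by
      intro a ha b hb
      by_cases hax : a = x
      · subst hax; exact hb.2.2
      · have := hW d hd a ha x hx
        exact ((this.2.2 b hb.1).2 ⟨hb.2.1, hb.2.2⟩).2
    have h01 : ∀ a ∈ H1, ∀ b ∈ Dc D x, Commute a b := by
      intro a ha b hb
      induction ha using Subgroup.closure_induction with
      | mem a ha => exact h0 a ha b hb
      | one => exact Commute.one_left b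
      | mul p q _ _ h1 h2 => exact h1.mul_left h2
      | inv p _ h1 => exact h1.inv_left
    intro a ha b hb
    induction hb using Subgroup.closure_induction with
    | mem b hb => exact h01 a ha b hb
    | one => exact Commute.one_right a
    | mul p q _ _ h1 h2 => exact h1.mul_right h2
    | inv p _ h1 => exact h1.inv_right
  let F : H1 × H2 →* G := MonoidHom.noncommCoprod H1.subtype H2.subtype
    (fun a b => hc12 a a.2 b b.2)
  have hF : ∀ a b, F (a, b) = (a : G) * b := fun a b => rfl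
  have hFinj : Function.Injective F := by
    rw [injective_iff_map_eq_one]
    rintro ⟨a, b⟩ hab
    rw [hF] at hab
    have ha : a = 1 := by
      have h5 : ψ1 a = 1 := by
        apply s3_center
        intro c
        have h6 : a * ψ1.symm c = ψ1.symm c * a := by
          apply Subtype.ext
          show (a : G) * (ψ1.symm c : G) = (ψ1.symm c : G) * a
          have h7 : (a : G) = (b : G)⁻¹ := eq_inv_of_mul_eq_one_left hab
          rw [h7]
          exact ((hc12 _ (ψ1.symm c).2 _ b.2).inv_right).eq.symm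
        have h8 := congrArg ψ1 h6
        rwa [map_mul, map_mul, ψ1.apply_symm_apply] at h8
      exact (map_eq_one_iff ψ1 ψ1.injective).1 h5
    have hb : b = 1 := by
      rw [ha] at hab
      apply Subtype.ext
      simpa using hab
    rw [ha, hb]; rfl
  have hFr : F.range = Subgroup.closure D := by
    apply le_antisymm
    · rintro _ ⟨⟨a, b⟩, rfl⟩
      rw [hF]
      exact mul_mem (Subgroup.closure_mono (show Dc D d ⊆ D from fun z hz => hz.1) a.2)
        (Subgroup.closure_mono (show Dc D x ⊆ D from fun z hz => hz.1) b.2)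
    · rw [Subgroup.closure_le]
      intro f hf
      rcases hDall f hf with h5 | h5
      · exact ⟨(⟨f, Subgroup.subset_closure h5⟩, 1), by rw [hF]; simp⟩
      · exact ⟨(1, ⟨f, Subgroup.subset_closure h5⟩), by rw [hF]; simp⟩
  rw [← hFr]
  exact ⟨(MonoidHom.ofInjective hFinj).symm.trans (MulEquiv.prodCongr ψ1 ψ2)⟩

end Cfsg.Agent.S5365
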