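import Cfsg.Statements.S5366
import Cfsg.Agent.H29.FSModel

set_option autoImplicit false
open Cfsg

namespace Cfsg.Agent.S5366

open Cfsg.Agent.H29 Cfsg.Agent Cfsg.LineSystem

theorem model_line {P : Type*} {M : Set (Set P)} {nc : P → P → Prop} {op : P → P → P}
    (hM : FModel M nc op) {l : Set P} (hl : l ∈ M) {p q : P} (hp : p ∈ l) (hq : q ∈ l)
    (hne : p ≠ q) : nc p q ∧ l = {p, q, op p q} := by
  obtain ⟨a, b, hab, rfl⟩ := (hM.lines l).1 hl
  obtain ⟨hba, hsw⟩ := hM.symm a b hab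
  obtain ⟨h1, h2⟩ := hM.third a b hab
  obtain ⟨h3, h4⟩ := hM.third b a hba
  rw [hsw] at h3 h4
  obtain ⟨h5, h6⟩ := hM.symm _ _ h1
  obtain ⟨h7, h8⟩ := hM.symm _ _ h3
  rcases hp with rfl | rfl | rfl <;> rcases hq with rfl | rfl | rfl
  · exact absurd rfl hne
  · exact ⟨hab, rfl⟩
  · refine ⟨h1, ?_⟩
    rw [h2]; ext z; simp only [Set.mem_insert_iff, Set.mem_singleton_iff]; tauto
  · refine ⟨hba, ?_⟩
    rw [hsw]; ext z; simp only [Set.mem_insert_iff, Set.mem_singleton_iff]; tauto
  · exact absurd rfl hne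
  · refine ⟨h3, ?_⟩
    rw [h4]; ext z; simp only [Set.mem_insert_iff, Set.mem_singleton_iff]; tauto
  · refine ⟨h5, ?_⟩
    rw [h6, h2]; ext z; simp only [Set.mem_insert_iff, Set.mem_singleton_iff]; tauto
  · refine ⟨h7, ?_⟩
    rw [h8, h4]; ext z; simp only [Set.mem_insert_iff, Set.mem_singleton_iff]; tauto
  · exact absurd rfl hne

section
variable {X : Type*} {L : Set (Set X)}

theorem line_third (h3 : ∀ l ∈ L, l.ncard = 3) {l : Set X} (hl : l ∈ L) {x y : X} (hx : x ∈ l)
    (hy : y ∈ l) (hne : x ≠ y) : ∃ z, z ≠ x ∧ z ≠ y ∧ l = {x, y, z} := by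
  obtain ⟨a, b, c, hab, hac, hbc, rfl⟩ := Set.ncard_eq_three.1 (h3 l hl)
  rcases hx with rfl | rfl | rfl <;> rcases hy with rfl | rfl | rfl
  · exact absurd rfl hne
  · exact ⟨c, hac.symm, hbc.symm, rfl⟩
  · exact ⟨b, hab.symm, hbc, by ext z; simp only [Set.mem_insert_iff, Set.mem_singleton_iff]; tauto⟩
  · exact ⟨c, hbc.symm, hac.symm, by ext z; simp only [Set.mem_insert_iff, Set.mem_singleton_iff]; tauto⟩
  · exact absurd rfl hne
  · exact ⟨a, hab, hac, by ext z; simp only [Set.mem_insert_iff, Set.mem_singleton_iff]; tauto⟩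
  · exact ⟨b, hbc, hab.symm, by ext z; simp only [Set.mem_insert_iff, Set.mem_singleton_iff]; tauto⟩
  · exact ⟨a, hac, hab, by ext z; simp only [Set.mem_insert_iff, Set.mem_singleton_iff]; tauto⟩
  · exact absurd rfl hne

theorem lm_eq (hPL : IsPartialLinear L) {x y z : X} (hxy : x ≠ y) (hzx : z ≠ x) (hzy : z ≠ y)
    (hl : ({x, y, z} : Set X) ∈ L) : lineMap L x y = z := by
  have hex : ∃ z : X, z ≠ x ∧ z ≠ y ∧ x ≠ y ∧ ({x, y, z} : Set X) ∈ L := ⟨z, hzx, hzy, hxy, hl⟩
  unfold lineMap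
  rw [dif_pos hex]
  obtain ⟨h1, h2, _, h4⟩ := hex.choose_spec
  have h5 := hPL _ h4 _ hl x y hxy (by simp) (by simp) (by simp) (by simp)
  have h6 : hex.choose ∈ ({x, y, z} : Set X) := by
    rw [← h5]; simp
  rcases h6 with h6 | h6 | h6
  · exact absurd h6 h1
  · exact absurd h6 h2
  · exact h6

theorem lm_ne {x y : X} (h : ¬ (x ≠ y ∧ ∃ l ∈ L, x ∈ l ∧ y ∈ l)) : lineMap L x y = y := by
  unfold lineMap
  rw [dif_neg]
  rintro ⟨z, _, _, hxy, hl⟩
  exact h ⟨hxy, _, hl, by simp, by simp⟩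

theorem lm_coll (hPL : IsPartialLinear L) (h3 : ∀ l ∈ L, l.ncard = 3) {x y : X} (hne : x ≠ y)
    {l : Set X} (hl : l ∈ L) (hx : x ∈ l) (hy : y ∈ l) :
    l = {x, y, lineMap L x y} ∧ lineMap L x y ≠ x ∧ lineMap L x y ≠ y := by
  obtain ⟨z, hzx, hzy, rfl⟩ := line_third h3 hl hx hy hne
  rw [lm_eq hPL hne hzx hzy hl]
  exact ⟨rfl, hzx, hzy⟩

theorem lm_invol (hPL : IsPartialLinear L) (h3 : ∀ l ∈ L, l.ncard = 3) (x : X) :
    Function.Involutive (lineMap L x) := by
  intro y
  by_cases h : x ≠ y ∧ ∃ l ∈ L, x ∈ l ∧ y ∈ l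
  · obtain ⟨hne, l, hl, hx, hy⟩ := h
    obtain ⟨h1, h2, h4⟩ := lm_coll hPL h3 hne hl hx hy
    set z := lineMap L x y with hz
    apply lm_eq hPL h2.symm hne.symm (fun h' => h4 h'.symm)
    rw [h1] at hl
    have : ({x, z, y} : Set X) = {x, y, z} := by
      ext w; simp only [Set.mem_insert_iff, Set.mem_singleton_iff]; tauto
    rw [this]; exact hl
  · rw [lm_ne h, lm_ne h]

theorem span_subspace (S : Set X) : IsSubspace L (span L S) := by
  intro l hl x hx y hy hne hxl hyl z hz
  apply Set.mem_sInter.2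
  rintro T ⟨hT1, hT2⟩
  exact hT2 l hl x (Set.mem_sInter.1 hx T ⟨hT1, hT2⟩) y (Set.mem_sInter.1 hy T ⟨hT1, hT2⟩) hne
    hxl hyl hz

theorem sub_span (S : Set X) : S ⊆ span L S := by
  intro x hx
  apply Set.mem_sInter.2
  rintro T ⟨hT1, _⟩
  exact hT1 hx

/-- the line map inside a subspace isomorphic to a model -/
theorem lm_plane (hPL : IsPartialLinear L) {S : Set X} (hS : IsSubspace L S)
    {P : Type*} {M : Set (Set P)} {nc : P → P → Prop} {op : P → P → P} (hM : FModel M nc op)
    (e : S ≃ P) (he : IsIso (restrict L S) M e) (x y : S) :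
    ∃ h : lineMap L x y ∈ S, e ⟨lineMap L x y, h⟩ = mt nc op (e x) (e y) := by
  by_cases h : nc (e x) (e y)
  · rw [mt_pos h]
    -- the third point
    set z : S := e.symm (op (e x) (e y)) with hz
    have hez : e z = op (e x) (e y) := by rw [hz, Equiv.apply_symm_apply]
    obtain ⟨n1, n2, n3⟩ := hM.ne _ _ h
    have hk : ({x, y, z} : Set S) ∈ restrict L S := by
      rw [he]
      have : e '' {x, y, z} = {e x, e y, op (e x) (e y)} := by
        rw [← hez]
        ext w
        constructor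
        · rintro ⟨u, (rfl | rfl | rfl), rfl⟩ <;> simp
        · rintro (rfl | rfl | rfl)
          · exact ⟨x, by simp, rfl⟩
          · exact ⟨y, by simp, rfl⟩
          · exact ⟨z, by simp, rfl⟩
      rw [this]
      exact (hM.lines _).2 ⟨_, _, h, rfl⟩
    obtain ⟨l, hl, hlS, hlk⟩ := hk
    have hl' : l = {(x : X), (y : X), (z : X)} := by
      ext w
      constructor
      · intro hw
        have : (⟨w, hlS hw⟩ : S) ∈ ({x, y, z} : Set S) := by rw [hlk]; exact hw
        rcases this with h' | h' | h'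
        · left; rw [← h']
        · right; left; rw [← h']
        · right; right; exact congrArg Subtype.val h'
      · have hx : x ∈ ({x, y, z} : Set S) := by simp
        have hy : y ∈ ({x, y, z} : Set S) := by simp
        have hz' : z ∈ ({x, y, z} : Set S) := by simp
        rw [hlk] at hx hy hz'
        rintro (rfl | rfl | rfl)
        · exact hx
        · exact hy
        · exact hz'
    have hxy : (x : X) ≠ y := fun h' => n1 (by rw [Subtype.ext h'])
    have hzx : (z : X) ≠ x := fun h' => n2 (by rw [← hez, Subtype.ext h'])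
    have hzy : (z : X) ≠ y := fun h' => n3 (by rw [← hez, Subtype.ext h'])
    have hlm : lineMap L x y = z := lm_eq hPL hxy hzx hzy (hl' ▸ hl)
    refine ⟨by rw [hlm]; exact z.2, ?_⟩
    rw [← hez]
    congr 1
    exact Subtype.ext hlm
  · rw [mt_neg h]
    have hnc : ¬ ((x : X) ≠ y ∧ ∃ l ∈ L, (x : X) ∈ l ∧ (y : X) ∈ l) := by
      rintro ⟨hne, l, hl, hx, hy⟩
      have hlS := hS l hl x x.2 y y.2 hne hx hy
      have hk : {s : S | (s : X) ∈ l} ∈ restrict L S := ⟨l, hl, hlS, rfl⟩
      rw [he] at hk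
      exact h (model_line hM hk ⟨x, hx, rfl⟩ ⟨y, hy, rfl⟩
        (fun h' => hne (congrArg Subtype.val (e.injective h')))).1
    have hlm := lm_ne hnc
    refine ⟨by rw [hlm]; exact y.2, ?_⟩
    congr 1
    exact Subtype.ext hlm

/-- the line map takes lines to lines: the planar case -/
theorem lm_line_plane (hPL : IsPartialLinear L) {S : Set X} (hS : IsSubspace L S)
    {P : Type*} {M : Set (Set P)} {nc : P → P → Prop} {op : P → P → P} (hM : FModel M nc op)
    (e : S ≃ P) (he : IsIso (restrict L S) M e) {x : X} (hx : x ∈ S) {l : Set X} (hl : l ∈ L)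
    (hlS : l ⊆ S) : lineMap L x '' l ∈ L := by
  have hk : {s : S | (s : X) ∈ l} ∈ restrict L S := ⟨l, hl, hlS, rfl⟩
  have hk' := hk
  rw [he] at hk'
  obtain ⟨a, b, hab, hkab⟩ := (hM.lines _).1 hk'
  obtain ⟨h1, h2⟩ := hM.aut (e ⟨x, hx⟩) a b hab
  -- the image line in the model
  set p := e ⟨x, hx⟩ with hp
  have hk2 : e.symm '' {mt nc op p a, mt nc op p b, op (mt nc op p a) (mt nc op p b)} ∈
      restrict L S := by
    rw [he, ← Set.image_comp]
    have : (e ∘ e.symm) '' {mt nc op p a, mt nc op p b, op (mt nc op p a) (mt nc op p b)} =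
      {mt nc op p a, mt nc op p b, op (mt nc op p a) (mt nc op p b)} := by
      ext z; simp
    rw [this]
    exact (hM.lines _).2 ⟨_, _, h1, rfl⟩
  rw [← h2] at hk2
  have himg : ({mt nc op p a, mt nc op p b, mt nc op p (op a b)} : Set P) =
      mt nc op p '' (e '' {s : S | (s : X) ∈ l}) := by
    rw [hkab]
    ext z
    constructor
    · rintro (rfl | rfl | rfl)
      · exact ⟨a, by simp, rfl⟩
      · exact ⟨b, by simp, rfl⟩
      · exact ⟨op a b, by simp, rfl⟩
    · rintro ⟨w, (rfl | rfl | rfl), rfl⟩ <;> simp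
  rw [himg] at hk2
  obtain ⟨l', hl', hl'S, hl'k⟩ := hk2
  have : lineMap L x '' l = l' := by
    ext z
    constructor
    · rintro ⟨w, hw, rfl⟩
      obtain ⟨h3, h4⟩ := lm_plane hPL hS hM e he ⟨x, hx⟩ ⟨w, hlS hw⟩
      have h5 : (⟨lineMap L x w, h3⟩ : S) ∈ e.symm '' (mt nc op p '' (e '' {s : S | (s : X) ∈ l})) := by
        refine ⟨_, ⟨_, ⟨⟨w, hlS hw⟩, hw, rfl⟩, rfl⟩, ?_⟩
        rw [← h4, Equiv.symm_apply_apply]
      rw [hl'k] at h5
      exact h5
    · intro hz
      have h5 : (⟨z, hl'S hz⟩ : S) ∈ e.symm '' (mt nc op p '' (e '' {s : S | (s : X) ∈ l})) := by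
        rw [hl'k]; exact hz
      obtain ⟨_, ⟨_, ⟨w, hw, rfl⟩, rfl⟩, h6⟩ := h5
      obtain ⟨h3, h4⟩ := lm_plane hPL hS hM e he ⟨x, hx⟩ w
      rw [← h4, Equiv.symm_apply_apply] at h6
      exact ⟨w, hw, congrArg Subtype.val h6⟩
  rw [this]
  exact hl'

theorem lm_line (hL : Cfsg.IsFischerSpace L) (x : X) {l : Set X} (hl : l ∈ L) :
    lineMap L x '' l ∈ L := by
  obtain ⟨hPL, h3, hpl⟩ := hL
  have hxx : lineMap L x x = x := lm_ne (fun h => h.1 rfl)
  by_cases hxl : x ∈ l
  · -- the line through `x` is fixed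
    have h1 : ∃ y, y ∈ l ∧ x ≠ y := by
      obtain ⟨a, b, c, hab, hac, hbc, rfl⟩ := Set.ncard_eq_three.1 (h3 l hl)
      by_cases hxa : x = a
      · exact ⟨b, by simp, hxa ▸ hab⟩
      · exact ⟨a, by simp, hxa⟩
    obtain ⟨y, hy, hne⟩ := h1
    obtain ⟨hl', hz1, hz2⟩ := lm_coll hPL h3 hne hl hxl hy
    have hinv := lm_invol hPL h3 x y
    have : lineMap L x '' l = l := by
      conv_lhs => rw [hl']
      ext w
      constructor
      · rintro ⟨u, (rfl | rfl | rfl), rfl⟩
        · rw [hxx]; exact hxl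
        · rw [hl']; simp
        · rw [hinv]; exact hy
      · intro hw
        rw [hl'] at hw
        rcases hw with rfl | rfl | rfl
        · exact ⟨w, by simp, hxx⟩
        · exact ⟨_, by simp, hinv⟩
        · exact ⟨y, by simp, rfl⟩
    rw [this]; exact hl
  · by_cases hcol : ∃ u ∈ l, ∃ m ∈ L, x ∈ m ∧ u ∈ m
    · obtain ⟨u, hu, m, hm, hxm, hum⟩ := hcol
      have hlm : l ≠ m := by
        rintro rfl
        exact hxl hxm
      have hS := span_subspace (L := L) (l ∪ m)
      have hsub := sub_span (L := L) (l ∪ m)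
      rcases hpl l hl m hm hlm ⟨u, hu, hum⟩ with ⟨e, he⟩ | ⟨e, he⟩
      · exact lm_line_plane hPL hS dual_model e he (hsub (Or.inr hxm)) hl
          (fun w hw => hsub (Or.inl hw))
      · exact lm_line_plane hPL hS affine_model e he (hsub (Or.inr hxm)) hl
          (fun w hw => hsub (Or.inl hw))
    · have : lineMap L x '' l = l := by
        have h1 : ∀ u ∈ l, lineMap L x u = u := by
          intro u hu
          apply lm_ne
          rintro ⟨_, m, hm, h1, h2⟩
          exact hcol ⟨u, hu, m, hm, h1, h2⟩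
        ext w
        constructor
        · rintro ⟨u, hu, rfl⟩
          rw [h1 u hu]; exact hu
        · intro hw
          exact ⟨w, hw, h1 w hw⟩
      rw [this]; exact hl

theorem lm_conj (hL : Cfsg.IsFischerSpace L) (x y z : X) :
    lineMap L (lineMap L x y) (lineMap L x z) = lineMap L x (lineMap L y z) := by
  obtain ⟨hPL, h3, hpl⟩ := id hL
  have hinj := (lm_invol hPL h3 x).injective
  by_cases h : y ≠ z ∧ ∃ l ∈ L, y ∈ l ∧ z ∈ l
  · obtain ⟨hne, l, hl, hy, hz⟩ := h
    obtain ⟨h1, h2, h4⟩ := lm_coll hPL h3 hne hl hy hz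
    apply lm_eq hPL (fun h' => hne (hinj h')) (fun h' => h2 (hinj h')) (fun h' => h4 (hinj h'))
    have h5 := lm_line hL x hl
    rw [h1] at h5
    have : lineMap L x '' {y, z, lineMap L y z} =
        {lineMap L x y, lineMap L x z, lineMap L x (lineMap L y z)} := by
      rw [Set.image_insert_eq, Set.image_insert_eq, Set.image_singleton]
    rwa [this] at h5
  · rw [lm_ne h]
    apply lm_ne
    rintro ⟨hne, l, hl, h1, h2⟩
    apply h
    refine ⟨fun h' => hne (by rw [h']), _, lm_line hL x hl, ?_, ?_⟩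
    · exact ⟨_, h1, lm_invol hPL h3 x y⟩
    · exact ⟨_, h2, lm_invol hPL h3 x z⟩

end

/-- Let L be a nondegenerate Fischer space on the point type X (every point on a line). Then for every point x the map t(x) — sending a point collinear with x to the third point of their common line and fixing every other point — is a permutation of X of order 2 and an automorphism of the line system; and the set of all t(x) satisfies the 3-transposition order conditions in the permutation group of X (any two have product of order at most 3). -/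
theorem result {X : Type*} (L : Set (Set X)) (hL : Cfsg.IsFischerSpace L) (hnd : Cfsg.LineSystem.IsNondegenerate L) : (∀ x : X, ∃ σ : Equiv.Perm X, ⇑σ = Cfsg.LineSystem.lineMap L x ∧ orderOf σ = 2 ∧ Cfsg.LineSystem.IsIso L L σ) ∧ Cfsg.IsThreeTranspositionSet {σ : Equiv.Perm X | ∃ x : X, ⇑σ = Cfsg.LineSystem.lineMap L x} := by
  obtain ⟨hPL, h3, hpl⟩ := id hL
  have hord : ∀ x : X, ∀ σ : Equiv.Perm X, ⇑σ = lineMap L x → orderOf σ = 2 := by
    intro x σ hσ
    apply orderOf_eq_prime
    · ext y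
      rw [pow_two, Equiv.Perm.mul_apply, hσ, lm_invol hPL h3 x y]; rfl
    · intro h1
      obtain ⟨l, hl, hx⟩ := hnd x
      obtain ⟨y, hy, hne⟩ : ∃ y, y ∈ l ∧ x ≠ y := by
        obtain ⟨a, b, c, hab, hac, hbc, rfl⟩ := Set.ncard_eq_three.1 (h3 l hl)
        by_cases hxa : x = a
        · exact ⟨b, by simp, hxa ▸ hab⟩
        · exact ⟨a, by simp, hxa⟩
      have h4 := (lm_coll hPL h3 hne hl hx hy).2.2
      apply h4
      rw [← hσ, h1]; rfl
  refine ⟨?_, ?_, ?_⟩
  · intro x
    refine ⟨(lm_invol hPL h3 x).toPerm, rfl, hord x _ rfl, ?_⟩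
    intro l
    constructor
    · intro hl
      exact lm_line hL x hl
    · intro hl
      have h1 := lm_line hL x hl
      have : lineMap L x '' (lineMap L x '' l) = l := by
        rw [← Set.image_comp, (lm_invol hPL h3 x).comp_self, Set.image_id]
      have h2 : lineMap L x '' ((lm_invol hPL h3 x).toPerm '' l) = l := this
      rwa [h2] at h1
  · rintro σ ⟨x, hσ⟩
    exact hord x σ hσ
  · rintro σ ⟨x, hσ⟩ τ ⟨y, hτ⟩
    have hs : ∀ z, lineMap L x (lineMap L x z) = z := lm_invol hPL h3 x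
    have ht : ∀ z, lineMap L y (lineMap L y z) = z := lm_invol hPL h3 y
    by_cases h : x ≠ y ∧ ∃ l ∈ L, x ∈ l ∧ y ∈ l
    · right
      obtain ⟨hne, l, hl, hx, hy⟩ := h
      obtain ⟨h1, h2, h4⟩ := lm_coll hPL h3 hne hl hx hy
      obtain ⟨g1, g2, g4⟩ := lm_coll hPL h3 hne.symm hl hy hx
      have hz : lineMap L x y = lineMap L y x := by
        have : lineMap L y x ∈ l := by rw [g1]; simp
        rw [h1] at this
        rcases this with h5 | h5 | h5
        · exact absurd h5 g4
        · exact absurd h5 g2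
        · exact h5.symm
      -- t_x t_y t_x = t_z = t_y t_x t_y
      have key : ∀ w, lineMap L x (lineMap L y (lineMap L x w)) =
          lineMap L y (lineMap L x (lineMap L y w)) := by
        intro w
        rw [← lm_conj hL x y, hs, hz, ← lm_conj hL y x, ht]
      ext w
      have e : (σ * τ) ^ 3 = σ * τ * σ * (τ * σ * τ) := by
        rw [pow_succ, pow_succ, pow_one]; group
      rw [e]
      simp only [Equiv.Perm.mul_apply, hσ, hτ, Equiv.Perm.coe_one, id]
      rw [key, ht, hs, ht]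
    · left
      ext w
      rw [pow_two]
      simp only [Equiv.Perm.mul_apply, hσ, hτ, Equiv.Perm.coe_one, id]
      have h5 : ∀ w, lineMap L x (lineMap L y (lineMap L x w)) = lineMap L y w := by
        intro w
        rw [← lm_conj hL x y, hs, lm_ne h]
      rw [h5, ht]

end Cfsg.Agent.S5366
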