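import Cfsg.Statements.S5367
import Cfsg.Agent.H29.TT2
import Cfsg.Agent.H29.FSModel
import Cfsg.Agent.S5344

set_option autoImplicit false
open Cfsg

namespace Cfsg.Agent.S5367

open Subgroup Cfsg.Agent.H29 Cfsg.Agent Cfsg.LineSystem

section
variable {G : Type*} [Group G] {D : Set G}

/-- the third point -/
def tri (x y : D) : Set D := {z : D | (z : G) = x ∨ (z : G) = y ∨ (z : G) = (x : G) * y * x}

theorem mem_lines (h : TT D) (l : Set D) :
    l ∈ Cfsg.threeTranspositionLines D ↔ ∃ x y : D, ¬ Commute (x : G) y ∧ l = tri x y := by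
  constructor
  · rintro ⟨x, y, hxy, rfl⟩
    refine ⟨x, y, hxy, ?_⟩
    ext z
    show ((z : G) = x ∨ (z : G) = y ∨ (z : G) = (y : G) * x * (y : G)⁻¹) ↔ _
    rw [h.inv y.2, ← h.braid x x.2 y y.2 hxy]
    exact Iff.rfl
  · rintro ⟨x, y, hxy, rfl⟩
    refine ⟨x, y, hxy, ?_⟩
    ext z
    show _ ↔ ((z : G) = x ∨ (z : G) = y ∨ (z : G) = (y : G) * x * (y : G)⁻¹)
    rw [h.inv y.2, ← h.braid x x.2 y y.2 hxy]
    exact Iff.rfl

theorem tri_swap (h : TT D) {x y : D} (hxy : ¬ Commute (x : G) y) : tri x y = tri y x := by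
  ext z
  show ((z : G) = x ∨ (z : G) = y ∨ (z : G) = (x : G) * y * x) ↔
    ((z : G) = y ∨ (z : G) = x ∨ (z : G) = (y : G) * x * y)
  rw [h.braid x x.2 y y.2 hxy]
  tauto

theorem tri_third (h : TT D) {x y w : D} (hw : (w : G) = x * y * x) (hxy : ¬ Commute (x : G) y) :
    ¬ Commute (x : G) w ∧ tri x w = tri x y := by
  have h1 : (x : G) * w * x = y := by rw [hw]; exact h.conj_conj x.2 y
  have h2 : ¬ Commute (x : G) w := by
    rw [hw, h.braid x x.2 y y.2 hxy]
    exact h.not_comm_conj x.2 y.2 hxy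
  refine ⟨h2, ?_⟩
  ext z
  show ((z : G) = x ∨ (z : G) = w ∨ (z : G) = (x : G) * w * x) ↔
    ((z : G) = x ∨ (z : G) = y ∨ (z : G) = (x : G) * y * x)
  rw [h1, ← hw]
  tauto

/-- a line is determined by two of its points -/
theorem line_eq (h : TT D) {l : Set D} (hl : l ∈ Cfsg.threeTranspositionLines D) {x y : D}
    (hx : x ∈ l) (hy : y ∈ l) (hne : x ≠ y) : ¬ Commute (x : G) y ∧ l = tri x y := by
  obtain ⟨a, b, hab, rfl⟩ := (mem_lines h l).1 hl
  -- the third point
  let c : D := ⟨(a : G) * b * a, h.conj' b.2 a.2⟩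
  have hc : (c : G) = a * b * a := rfl
  have hc' : (c : G) = b * a * b := by rw [hc, h.braid a a.2 b b.2 hab]
  have hba : ¬ Commute (b : G) a := fun h' => hab h'.symm
  have h1 := tri_third h hc hab
  have h2 := tri_third h hc' hba
  have h3 := tri_swap h hab
  have h4 := tri_swap h h1.1
  have h5 := tri_swap h h2.1
  have hx' : x = a ∨ x = b ∨ x = c := by
    rcases hx with hx | hx | hx
    · exact Or.inl (Subtype.ext hx)
    · exact Or.inr (Or.inl (Subtype.ext hx))
    · exact Or.inr (Or.inr (Subtype.ext hx))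
  have hy' : y = a ∨ y = b ∨ y = c := by
    rcases hy with hy | hy | hy
    · exact Or.inl (Subtype.ext hy)
    · exact Or.inr (Or.inl (Subtype.ext hy))
    · exact Or.inr (Or.inr (Subtype.ext hy))
  rcases hx' with rfl | rfl | rfl <;> rcases hy' with rfl | rfl | rfl
  · exact absurd rfl hne
  · exact ⟨hab, rfl⟩
  · exact ⟨h1.1, h1.2.symm⟩
  · exact ⟨hba, h3⟩
  · exact absurd rfl hne
  · exact ⟨h2.1, by rw [h2.2, h3]⟩
  · exact ⟨fun h' => h1.1 h'.symm, by rw [← h4, h1.2]⟩
  · exact ⟨fun h' => h2.1 h'.symm, by rw [← h5, h2.2, h3]⟩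
  · exact absurd rfl hne

theorem tri_sub {S : Set D} {x y : D} (hx : x ∈ S) (hy : y ∈ S)
    (hz : ∀ z : D, (z : G) = x * y * x → z ∈ S) : tri x y ⊆ S := by
  rintro z (hz' | hz' | hz')
  · rw [Subtype.ext hz']; exact hx
  · rw [Subtype.ext hz']; exact hy
  · exact hz z hz'

theorem iso_of_map (h : TT D) {P : Type*} {M : Set (Set P)} {nc : P → P → Prop} {op : P → P → P}
    (hM : FModel M nc op) (p : P → D) (hinj : Function.Injective p)
    (hc : ∀ x y, nc x y ↔ ¬ Commute (p x : G) (p y))
    (hop : ∀ x y, nc x y → (p x : G) * p y * p x = p (op x y)) {l m : Set D} {x0 y0 z0 : P}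
    (hl0 : l = tri (p x0) (p y0)) (hm0 : m = tri (p x0) (p z0)) (hxy0 : nc x0 y0)
    (hxz0 : nc x0 z0)
    (hgen : ∀ T : Set P, (∀ x ∈ T, ∀ y ∈ T, nc x y → op x y ∈ T) →
      x0 ∈ T → y0 ∈ T → z0 ∈ T → ∀ x, x ∈ T) :
    Isomorphic (restrict (Cfsg.threeTranspositionLines D)
      (span (Cfsg.threeTranspositionLines D) (l ∪ m))) M := by
  have htri : ∀ x y, nc x y → tri (p x) (p y) = p '' {x, y, op x y} := by
    intro x y hxy
    ext z
    constructor
    · rintro (hz | hz | hz)
      · exact ⟨x, by simp, (Subtype.ext hz).symm⟩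
      · exact ⟨y, by simp, (Subtype.ext hz).symm⟩
      · refine ⟨op x y, by simp, ?_⟩
        apply Subtype.ext
        rw [← hop x y hxy]; exact hz.symm
    · rintro ⟨w, (rfl | rfl | rfl), rfl⟩
      · exact Or.inl rfl
      · exact Or.inr (Or.inl rfl)
      · exact Or.inr (Or.inr (hop x y hxy).symm)
  have hlm : l ∪ m ⊆ Set.range p := by
    rintro x (hx | hx)
    · rw [hl0, htri _ _ hxy0] at hx
      obtain ⟨w, _, rfl⟩ := hx
      exact ⟨w, rfl⟩
    · rw [hm0, htri _ _ hxz0] at hx
      obtain ⟨w, _, rfl⟩ := hx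
      exact ⟨w, rfl⟩
  have hspan : span (Cfsg.threeTranspositionLines D) (l ∪ m) = Set.range p := by
    apply Set.Subset.antisymm
    · apply Set.sInter_subset_of_mem
      refine ⟨hlm, ?_⟩
      rintro l' hl' x ⟨a, rfl⟩ y ⟨b, rfl⟩ hne hx hy
      obtain ⟨hnc, rfl⟩ := line_eq h hl' hx hy hne
      rw [htri a b ((hc a b).2 hnc)]
      rintro _ ⟨w, _, rfl⟩
      exact ⟨w, rfl⟩
    · rintro _ ⟨x, rfl⟩
      apply Set.mem_sInter.2
      rintro T ⟨hT1, hT2⟩
      apply hgen {x | p x ∈ T} _ (hT1 (Or.inl (by rw [hl0]; exact Or.inl rfl)))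
        (hT1 (Or.inl (by rw [hl0]; exact Or.inr (Or.inl rfl))))
        (hT1 (Or.inr (by rw [hm0]; exact Or.inr (Or.inl rfl))))
      · intro a ha b hb hab
        have hne : p a ≠ p b := by
          intro h'
          apply (hc a b).1 hab
          rw [h']
        have hl' : tri (p a) (p b) ∈ Cfsg.threeTranspositionLines D :=
          (mem_lines h _).2 ⟨p a, p b, (hc a b).1 hab, rfl⟩
        have hsub := hT2 _ hl' (p a) ha (p b) hb hne (Or.inl rfl) (Or.inr (Or.inl rfl))
        exact hsub (Or.inr (Or.inr (hop a b hab).symm))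
  rw [hspan]
  refine ⟨(Equiv.ofInjective p hinj).symm, ?_⟩
  intro k
  have hkey : ∀ k : Set (Set.range p), k ∈ restrict (Cfsg.threeTranspositionLines D) (Set.range p) ↔
      ∃ x y, nc x y ∧ k = (Equiv.ofInjective p hinj) '' {x, y, op x y} := by
    intro k
    constructor
    · rintro ⟨l', hl', hsub, rfl⟩
      obtain ⟨x, y, hxy, rfl⟩ := (mem_lines h l').1 hl'
      obtain ⟨a, rfl⟩ := hsub (Or.inl rfl : x ∈ tri x y)
      obtain ⟨b, rfl⟩ := hsub (Or.inr (Or.inl rfl) : y ∈ tri (p a) y)
      have hab := (hc a b).2 hxy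
      refine ⟨a, b, hab, ?_⟩
      rw [htri a b hab]
      ext z
      constructor
      · rintro ⟨w, hw, hwz⟩
        exact ⟨w, hw, Subtype.ext hwz⟩
      · rintro ⟨w, hw, rfl⟩
        exact ⟨w, hw, rfl⟩
    · rintro ⟨x, y, hxy, rfl⟩
      refine ⟨tri (p x) (p y), (mem_lines h _).2 ⟨p x, p y, (hc x y).1 hxy, rfl⟩, ?_, ?_⟩
      · rw [htri x y hxy]
        rintro _ ⟨w, _, rfl⟩
        exact ⟨w, rfl⟩
      · rw [htri x y hxy]
        ext z
        constructor
        · rintro ⟨w, hw, rfl⟩
          exact ⟨w, hw, rfl⟩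
        · rintro ⟨w, hw, hwz⟩
          exact ⟨w, hw, Subtype.ext hwz⟩
  rw [hkey, hM.lines]
  constructor
  · rintro ⟨x, y, hxy, rfl⟩
    refine ⟨x, y, hxy, ?_⟩
    rw [← Set.image_comp]
    ext z; simp
  · rintro ⟨x, y, hxy, he⟩
    refine ⟨x, y, hxy, ?_⟩
    rw [← he, ← Set.image_comp]
    ext z; simp

/-- The affine case: coordinates. -/
theorem exists_affine (h : TT D) {a b c : G} (ha : a ∈ D) (hb : b ∈ D) (hc : c ∈ D)
    (hab : ¬ Commute a b) (hac : ¬ Commute a c) (hbc : ¬ Commute b c)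
    (hbc' : ¬ Commute b (a * c * a)) :
    ∃ p : (Fin 2 → ZMod 3) → D, (p ![0, 0] : G) = a ∧ (p ![1, 0] : G) = b ∧ (p ![0, 1] : G) = c ∧
      (p ![2, 0] : G) = a * b * a ∧ (p ![0, 2] : G) = a * c * a ∧
      Function.Injective p ∧ ∀ x y, (p x : G) * p y * p x = p (-x - y) := by
  have haa := h.sq a ha
  have hbb := h.sq b hb
  have hcc := h.sq c hc
  set b' := a * b * a with hb'
  set c' := a * c * a with hc'
  have hb'D : b' ∈ D := h.conj' hb ha
  have hc'D : c' ∈ D := h.conj' hc ha
  set q := b * c * b with hq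
  have hqD : q ∈ D := h.conj' hc hb
  set s := b * c' * b with hs
  have hsD : s ∈ D := h.conj' hc'D hb
  have hq'D : a * q * a ∈ D := h.conj' hqD ha
  have hs'D : a * s * a ∈ D := h.conj' hsD ha
  have hb'c : ¬ Commute b' c := by rw [hb', h.comm_conj_left ha]; exact hbc'
  have b1 : b' = b * a * b := h.braid a ha b hb hab
  have c1 : c' = c * a * c := h.braid a ha c hc hac
  have q1 : q = c * b * c := h.braid b hb c hc hbc
  have s1 : s = c' * b * c' := h.braid b hb c' hc'D hbc'
  have hcb' : ¬ Commute c b' := fun h' => hb'c h'.symm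
  have r1 : c * b' * c = b' * c * b' := h.braid c hc b' hb'D hcb'
  -- identities
  have e1 : a * s * a = b' * c * b' := by
    rw [hs, hb', hc']; group
  have e2 : a * q * a = b' * c' * b' := by
    rw [hq, hb', hc']
    calc a * (b * c * b) * a = a * b * 1 * c * 1 * b * a := by group
      _ = a * b * (a * a) * c * (a * a) * b * a := by rw [haa]
      _ = _ := by group
  have e2' : a * q * a = c' * b' * c' := by
    rw [q1, hb', hc']
    calc a * (c * b * c) * a = a * c * 1 * b * 1 * c * a := by group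
      _ = a * c * (a * a) * b * (a * a) * c * a := by rw [haa]
      _ = _ := by group
  -- conjugations
  have Aa : ∀ x : G, a * (a * x * a) * a = x := h.conj_conj ha
  have Bb : ∀ x : G, b * (b * x * b) * b = x := h.conj_conj hb
  have Cc : ∀ x : G, c * (c * x * c) * c = x := h.conj_conj hc
  have k1 : b * (a * q * a) * b = a * s * a := by
    rw [e1, hq, b1]; group
  have k2 : b * (a * s * a) * b = a * q * a := by rw [← k1, Bb]
  have k3 : c * b' * c = a * s * a := by rw [e1, r1]
  have k4 : c * (a * s * a) * c = b' := by rw [← k3, Cc]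
  have k5 : c * (a * q * a) * c = s := by
    rw [s1, c1, q1]; group
  have k6 : c * s * c = a * q * a := by rw [← k5, Cc]
  let P : ZMod 3 → ZMod 3 → D := ![![⟨a, ha⟩, ⟨c, hc⟩, ⟨c', hc'D⟩],
    ![⟨b, hb⟩, ⟨a * q * a, hq'D⟩, ⟨a * s * a, hs'D⟩], ![⟨b', hb'D⟩, ⟨s, hsD⟩, ⟨q, hqD⟩]]
  have P00 : (P 0 0 : G) = a := rfl
  have P01 : (P 0 1 : G) = c := rfl
  have P02 : (P 0 2 : G) = c' := rfl
  have P10 : (P 1 0 : G) = b := rfl
  have P11 : (P 1 1 : G) = a * q * a := rfl
  have P12 : (P 1 2 : G) = a * s * a := rfl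
  have P20 : (P 2 0 : G) = b' := rfl
  have P21 : (P 2 1 : G) = s := rfl
  have P22 : (P 2 2 : G) = q := rfl
  have hz : ∀ i : ZMod 3, i = 0 ∨ i = 1 ∨ i = 2 := by decide
  have n0 : -(0 : ZMod 3) = 0 := rfl
  have n1 : -(1 : ZMod 3) = 2 := rfl
  have n2 : -(2 : ZMod 3) = 1 := rfl
  have m0 : (0 : ZMod 3) - 1 = 2 := rfl
  have m1 : (2 : ZMod 3) - 1 = 1 := rfl
  have m2 : (1 : ZMod 3) - 1 = 0 := rfl
  have conjA : ∀ i j, a * (P i j : G) * a = P (-i) (-j) := by
    intro i j
    rcases hz i with rfl | rfl | rfl <;> rcases hz j with rfl | rfl | rfl <;>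
      simp only [n0, n1, n2, P00, P01, P02, P10, P11, P12, P20, P21, P22]
    · rw [haa, one_mul]
    · exact hc'.symm
    · exact Aa c
    · exact hb'.symm
    · exact Aa q
    · exact Aa s
    · exact Aa b
  have conjB : ∀ i j, b * (P i j : G) * b = P (-i - 1) (-j) := by
    intro i j
    rcases hz i with rfl | rfl | rfl <;> rcases hz j with rfl | rfl | rfl <;>
      simp only [m0, m1, m2, n0, n1, n2, P00, P01, P02, P10, P11, P12, P20, P21, P22]
    · exact b1.symm
    · exact hq.symm
    · exact hs.symm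
    · rw [hbb, one_mul]
    · exact k1
    · exact k2
    · rw [b1]; exact Bb a
    · exact Bb c'
    · exact Bb c
  have conjC : ∀ i j, c * (P i j : G) * c = P (-i) (-j - 1) := by
    intro i j
    rcases hz i with rfl | rfl | rfl <;> rcases hz j with rfl | rfl | rfl <;>
      simp only [m0, m1, m2, n0, n1, n2, P00, P01, P02, P10, P11, P12, P20, P21, P22]
    · exact c1.symm
    · rw [hcc, one_mul]
    · rw [c1]; exact Cc a
    · exact q1.symm
    · exact k5
    · exact k4
    · exact k3
    · exact k6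
    · rw [q1]; exact Cc b
  -- translations
  have T1 : ∀ i j, (b * a) * (P i j : G) * (b * a)⁻¹ = P (i - 1) j := by
    intro i j
    rw [mul_inv_rev, h.inv ha, h.inv hb]
    calc b * a * (P i j : G) * (a * b) = b * (a * P i j * a) * b := by group
      _ = P (-(-i) - 1) (-(-j)) := by rw [conjA, conjB]
      _ = _ := by rw [neg_neg, neg_neg]
  have T2 : ∀ i j, (c * a) * (P i j : G) * (c * a)⁻¹ = P i (j - 1) := by
    intro i j
    rw [mul_inv_rev, h.inv ha, h.inv hc]
    calc c * a * (P i j : G) * (a * c) = c * (a * P i j * a) * c := by group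
      _ = P (-(-i)) (-(-j) - 1) := by rw [conjA, conjC]
      _ = _ := by rw [neg_neg, neg_neg]
  have T : ∀ u v : ZMod 3, ∃ g : G, ∀ i j, g * (P i j : G) * g⁻¹ = P (i + u) (j + v) := by
    have T1' : ∀ u : ZMod 3, ∃ g : G, ∀ i j, g * (P i j : G) * g⁻¹ = P (i + u) j := by
      intro u
      rcases hz u with rfl | rfl | rfl
      · exact ⟨1, fun i j => by rw [add_zero]; simp⟩
      · refine ⟨(b * a) * (b * a), fun i j => ?_⟩
        calc (b * a) * (b * a) * (P i j : G) * ((b * a) * (b * a))⁻¹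
            = (b * a) * ((b * a) * (P i j : G) * (b * a)⁻¹) * (b * a)⁻¹ := by group
          _ = P (i - 1 - 1) j := by rw [T1, T1]
          _ = _ := by
            have : i - 1 - 1 = i + 1 := by revert i; decide
            rw [this]
      · refine ⟨b * a, fun i j => ?_⟩
        rw [T1]
        have : i - 1 = i + 2 := by revert i; decide
        rw [this]
    have T2' : ∀ u : ZMod 3, ∃ g : G, ∀ i j, g * (P i j : G) * g⁻¹ = P i (j + u) := by
      intro u
      rcases hz u with rfl | rfl | rfl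
      · exact ⟨1, fun i j => by rw [add_zero]; simp⟩
      · refine ⟨(c * a) * (c * a), fun i j => ?_⟩
        calc (c * a) * (c * a) * (P i j : G) * ((c * a) * (c * a))⁻¹
            = (c * a) * ((c * a) * (P i j : G) * (c * a)⁻¹) * (c * a)⁻¹ := by group
          _ = P i (j - 1 - 1) := by rw [T2, T2]
          _ = _ := by
            have : j - 1 - 1 = j + 1 := by revert j; decide
            rw [this]
      · refine ⟨c * a, fun i j => ?_⟩
        rw [T2]
        have : j - 1 = j + 2 := by revert j; decide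
        rw [this]
    intro u v
    obtain ⟨g, hg⟩ := T1' u
    obtain ⟨k, hk⟩ := T2' v
    refine ⟨g * k, fun i j => ?_⟩
    calc (g * k) * (P i j : G) * (g * k)⁻¹ = g * (k * P i j * k⁻¹) * g⁻¹ := by group
      _ = _ := by rw [hk, hg]
  refine ⟨fun x => P (x 0) (x 1), rfl, rfl, rfl, rfl, rfl, ?_, ?_⟩
  · intro x y hxy
    have hxy : P (x 0) (x 1) = P (y 0) (y 1) := hxy
    obtain ⟨g, hg⟩ := T (-(y 0)) (-(y 1))
    have h1 : (P (x 0 + -(y 0)) (x 1 + -(y 1)) : G) = a := by
      rw [← hg, hxy, hg, add_neg_cancel, add_neg_cancel]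
      exact P00
    have key : ∀ i j, (P i j : G) = a → i = 0 ∧ j = 0 := by
      intro i j hij
      have hba : b ≠ a := fun h' => hab (h' ▸ Commute.refl _)
      have hca : c ≠ a := fun h' => hac (h' ▸ Commute.refl _)
      have hqa : q ≠ a := by
        intro h'
        have : c = b' := by rw [b1, ← h', hq, Bb]
        exact hb'c (this ▸ Commute.refl _)
      have hsa : s ≠ a := by
        intro h'
        have h2 : c' = b' := by rw [b1, ← h', hs, Bb]
        have h3 : c = b := by rw [← Aa c, ← hc', h2, hb', Aa]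
        exact hbc (h3 ▸ Commute.refl _)
      rcases hz i with rfl | rfl | rfl <;> rcases hz j with rfl | rfl | rfl <;>
        simp only [P00, P01, P02, P10, P11, P12, P20, P21, P22] at hij
      · exact ⟨rfl, rfl⟩
      · exact absurd hij hca
      · exfalso; apply hca; rw [← Aa c, ← hc', hij, haa, one_mul]
      · exact absurd hij hba
      · exfalso; apply hqa; rw [← Aa q, hij, haa, one_mul]
      · exfalso; apply hsa; rw [← Aa s, hij, haa, one_mul]
      · exfalso; apply hba; rw [← Aa b, ← hb', hij, haa, one_mul]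
      · exact absurd hij hsa
      · exact absurd hij hqa
    obtain ⟨h2, h3⟩ := key _ _ h1
    have g2 : x 0 = y 0 := eq_of_sub_eq_zero (by rw [sub_eq_add_neg]; exact h2 : x 0 - y 0 = 0)
    have g3 : x 1 = y 1 := eq_of_sub_eq_zero (by rw [sub_eq_add_neg]; exact h3 : x 1 - y 1 = 0)
    funext i
    fin_cases i
    · exact g2
    · exact g3
  · intro x y
    show (P (x 0) (x 1) : G) * P (y 0) (y 1) * P (x 0) (x 1) = P ((-x - y) 0) ((-x - y) 1)
    obtain ⟨g, hg⟩ := T (x 0) (x 1)
    have h1 : (P (x 0) (x 1) : G) = g * a * g⁻¹ := by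
      have := hg 0 0
      rw [P00, zero_add, zero_add] at this
      exact this.symm
    have h2 : (P (y 0) (y 1) : G) = g * P (y 0 - x 0) (y 1 - x 1) * g⁻¹ := by
      rw [hg, sub_add_cancel, sub_add_cancel]
    rw [h1, h2]
    calc g * a * g⁻¹ * (g * (P (y 0 - x 0) (y 1 - x 1) : G) * g⁻¹) * (g * a * g⁻¹)
        = g * (a * P (y 0 - x 0) (y 1 - x 1) * a) * g⁻¹ := by group
      _ = P (-(y 0 - x 0) + x 0) (-(y 1 - x 1) + x 1) := by rw [conjA, hg]
      _ = _ := by
        have e : ∀ u v : ZMod 3, -(v - u) + u = -u - v := by decide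
        rw [e, e]; rfl

/-- the transposition of a two-element subset -/
def sw (s : Cfsg.DualAffinePoint) : Equiv.Perm (Fin 4) :=
  if 0 ∈ s.val then
    (if 1 ∈ s.val then Equiv.swap 0 1 else if 2 ∈ s.val then Equiv.swap 0 2 else Equiv.swap 0 3)
  else if 1 ∈ s.val then (if 2 ∈ s.val then Equiv.swap 1 2 else Equiv.swap 1 3)
  else Equiv.swap 2 3

theorem sw_inj : ∀ x y, sw x = sw y → x = y := by decide +kernel
theorem sw_nc : ∀ x y, dnc x y ↔ ¬ (sw x * sw y = sw y * sw x) := by decide +kernel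
theorem sw_op : ∀ x y, ¬ dnc x y ∨ sw x * sw y * sw x = sw (dop x y) := by decide +kernel
theorem sw_conj : ∀ s, ∃ g : Equiv.Perm (Fin 4), g * Equiv.swap 0 1 * g⁻¹ = sw s := by
  decide +kernel

def d01 : Cfsg.DualAffinePoint := ⟨{0, 1}, by decide⟩
def d12 : Cfsg.DualAffinePoint := ⟨{1, 2}, by decide⟩
def d23 : Cfsg.DualAffinePoint := ⟨{2, 3}, by decide⟩
def d02 : Cfsg.DualAffinePoint := ⟨{0, 2}, by decide⟩
def d13 : Cfsg.DualAffinePoint := ⟨{1, 3}, by decide⟩
def d03 : Cfsg.DualAffinePoint := ⟨{0, 3}, by decide⟩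

theorem dgen (T : Set Cfsg.DualAffinePoint) (hT : ∀ x ∈ T, ∀ y ∈ T, dnc x y → dop x y ∈ T)
    (h12 : d12 ∈ T) (h01 : d01 ∈ T) (h23 : d23 ∈ T) : ∀ x, x ∈ T := by
  have h02 : d02 ∈ T := by
    have := hT _ h12 _ h01 (by decide +kernel)
    rwa [show dop d12 d01 = d02 by decide +kernel] at this
  have h13 : d13 ∈ T := by
    have := hT _ h12 _ h23 (by decide +kernel)
    rwa [show dop d12 d23 = d13 by decide +kernel] at this
  have h03 : d03 ∈ T := by
    have := hT _ h02 _ h23 (by decide +kernel)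
    rwa [show dop d02 d23 = d03 by decide +kernel] at this
  have hall : ∀ x, x = d01 ∨ x = d12 ∨ x = d23 ∨ x = d02 ∨ x = d13 ∨ x = d03 := by
    decide +kernel
  intro x
  rcases hall x with rfl | rfl | rfl | rfl | rfl | rfl <;> assumption

theorem agen (T : Set (Fin 2 → ZMod 3)) (hT : ∀ x ∈ T, ∀ y ∈ T, x ≠ y → -x - y ∈ T)
    (h00 : ![0, 0] ∈ T) (h10 : ![1, 0] ∈ T) (h01 : ![0, 1] ∈ T) : ∀ x, x ∈ T := by
  have h20 : ![2, 0] ∈ T := by
    have := hT _ h00 _ h10 (by decide)
    rwa [show -![0, 0] - ![1, 0] = (![2, 0] : Fin 2 → ZMod 3) by decide] at this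
  have h02 : ![0, 2] ∈ T := by
    have := hT _ h00 _ h01 (by decide)
    rwa [show -![0, 0] - ![0, 1] = (![0, 2] : Fin 2 → ZMod 3) by decide] at this
  have h22 : ![2, 2] ∈ T := by
    have := hT _ h10 _ h01 (by decide)
    rwa [show -![1, 0] - ![0, 1] = (![2, 2] : Fin 2 → ZMod 3) by decide] at this
  have h11 : ![1, 1] ∈ T := by
    have := hT _ h00 _ h22 (by decide)
    rwa [show -![0, 0] - ![2, 2] = (![1, 1] : Fin 2 → ZMod 3) by decide] at this
  have h21 : ![2, 1] ∈ T := by
    have := hT _ h10 _ h02 (by decide)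
    rwa [show -![1, 0] - ![0, 2] = (![2, 1] : Fin 2 → ZMod 3) by decide] at this
  have h12 : ![1, 2] ∈ T := by
    have := hT _ h00 _ h21 (by decide)
    rwa [show -![0, 0] - ![2, 1] = (![1, 2] : Fin 2 → ZMod 3) by decide] at this
  have hall : ∀ x : Fin 2 → ZMod 3, x = ![0, 0] ∨ x = ![1, 0] ∨ x = ![2, 0] ∨ x = ![0, 1] ∨
      x = ![1, 1] ∨ x = ![2, 1] ∨ x = ![0, 2] ∨ x = ![1, 2] ∨ x = ![2, 2] := by
    decide +kernel
  intro x
  rcases hall x with rfl | rfl | rfl | rfl | rfl | rfl | rfl | rfl | rfl <;> assumption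

theorem dual_case (h : TT D) (h3 : Cfsg.IsThreeTranspositionSet D) {a b c : D}
    (hab : ¬ Commute (a : G) b) (hac : ¬ Commute (a : G) c) (hbc : Commute (b : G) c)
    (hne : b ≠ c) {l m : Set D} (hl : l = tri a b) (hm : m = tri a c) :
    Isomorphic (restrict (Cfsg.threeTranspositionLines D)
      (span (Cfsg.threeTranspositionLines D) (l ∪ m))) Cfsg.dualAffinePlaneTwo := by
  obtain ⟨φ, hφ, e0, e1, e2⟩ := Cfsg.Agent.S5344.result h3 b.2 a.2 c.2
    (fun h' => hne (Subtype.ext h')) hbc (fun h' => hab h'.symm) hac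
  have hmem : ∀ s, φ (sw s) ∈ D := by
    intro s
    obtain ⟨g, hg⟩ := sw_conj s
    rw [← hg, map_mul, map_mul, map_inv, e0]
    exact h.conj _ b b.2
  have hcomm : ∀ x y : Equiv.Perm (Fin 4), Commute (φ x) (φ y) ↔ x * y = y * x := by
    intro x y
    constructor
    · intro h'
      apply hφ
      rw [map_mul, map_mul]; exact h'
    · intro h'
      show φ x * φ y = φ y * φ x
      rw [← map_mul, h', map_mul]
  have pa : (⟨φ (sw d12), hmem d12⟩ : D) = a := by
    apply Subtype.ext
    show φ (sw d12) = _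
    have : sw d12 = Equiv.swap 1 2 := by decide +kernel
    rw [this, e1]
  have pb : (⟨φ (sw d01), hmem d01⟩ : D) = b := by
    apply Subtype.ext
    show φ (sw d01) = _
    have : sw d01 = Equiv.swap 0 1 := by decide +kernel
    rw [this, e0]
  have pc : (⟨φ (sw d23), hmem d23⟩ : D) = c := by
    apply Subtype.ext
    show φ (sw d23) = _
    have : sw d23 = Equiv.swap 2 3 := by decide +kernel
    rw [this, e2]
  refine iso_of_map h dual_model (fun s => ⟨φ (sw s), hmem s⟩) ?_ ?_ ?_ (x0 := d12) (y0 := d01)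
    (z0 := d23) ?_ ?_ (by decide +kernel) (by decide +kernel) dgen
  · intro x y hxy
    exact sw_inj x y (hφ (congrArg Subtype.val hxy))
  · intro x y
    rw [hcomm]
    exact sw_nc x y
  · intro x y hxy
    show φ (sw x) * φ (sw y) * φ (sw x) = φ (sw (dop x y))
    rw [← map_mul, ← map_mul, (sw_op x y).resolve_left (not_not_intro hxy)]
  · rw [hl, pa, pb]
  · rw [hm, pa, pc]

end

/-- Let D be a conjugation-invariant generating set of 3-transpositions of a finite group G. Then the line system on D whose lines are the triples {x, y, y x y⁻¹} for non-commuting members x, y of D is a Fischer space: two points lie on at most one line, lines have three points, and two different meeting lines generate a subspace isomorphic to the dual affine plane of order two or to the affine plane of order three. -/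
theorem result {G : Type*} [Group G] [Finite G] {D : Set G} (hD : Cfsg.IsThreeTranspositionGroup D) : Cfsg.IsFischerSpace (Cfsg.threeTranspositionLines D) := by
  have h := tt_of_group hD
  refine ⟨?_, ?_, ?_⟩
  · intro l hl m hm x y hne hxl hyl hxm hym
    rw [(line_eq h hl hxl hyl hne).2, (line_eq h hm hxm hym hne).2]
  · intro l hl
    obtain ⟨x, y, hxy, rfl⟩ := (mem_lines h l).1 hl
    have hne : x ≠ y := fun h' => hxy (h' ▸ Commute.refl _)
    let z : D := ⟨(x : G) * y * x, h.conj' y.2 x.2⟩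
    have hz : (z : G) = x * y * x := rfl
    have hxz : x ≠ z := fun h' => (tri_third h hz hxy).1 (h' ▸ Commute.refl _)
    have hyz : y ≠ z := by
      intro h'
      apply hxy
      apply h.comm_of_conj x.2
      rw [← hz, ← h']
    have : tri x y = {x, y, z} := by
      ext w
      constructor
      · rintro (hw | hw | hw)
        · left; exact Subtype.ext hw
        · right; left; exact Subtype.ext hw
        · right; right; exact Subtype.ext hw
      · rintro (hw | hw | hw)
        · left; rw [hw]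
        · right; left; rw [hw]
        · right; right; rw [hw]
    rw [this, Set.ncard_eq_three]
    exact ⟨x, y, z, hne, hxz, hyz, rfl⟩
  · intro l hl m hm hlm ⟨a, hal, ham⟩
    -- second points
    have hsec : ∀ l ∈ Cfsg.threeTranspositionLines D, a ∈ l → ∃ b : D, b ∈ l ∧ a ≠ b := by
      intro l hl hal
      obtain ⟨x, y, hxy, rfl⟩ := (mem_lines h l).1 hl
      have hne : x ≠ y := fun h' => hxy (h' ▸ Commute.refl _)
      by_cases hax : a = x
      · exact ⟨y, Or.inr (Or.inl rfl), hax ▸ hne⟩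
      · exact ⟨x, Or.inl rfl, hax⟩
    obtain ⟨b, hbl, hab⟩ := hsec l hl hal
    obtain ⟨c, hcm, hac⟩ := hsec m hm ham
    obtain ⟨hnab, hl'⟩ := line_eq h hl hal hbl hab
    obtain ⟨hnac, hm'⟩ := line_eq h hm ham hcm hac
    have hbm : b ∉ m := by
      intro hbm
      apply hlm
      rw [hl', (line_eq h hm ham hbm hab).2]
    by_cases hbc : Commute (b : G) c
    · left
      exact dual_case h hD.1 hnab hnac hbc (fun h' => hbm (h' ▸ hcm)) hl' hm'
    · let c' : D := ⟨(a : G) * c * a, h.conj' c.2 a.2⟩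
      have hc' : (c' : G) = a * c * a := rfl
      have ht := tri_third h hc' hnac
      by_cases hbc' : Commute (b : G) c'
      · left
        refine dual_case h hD.1 hnab ht.1 hbc' (fun h' => hbm ?_) hl' (by rw [hm', ht.2])
        rw [hm', h']
        exact Or.inr (Or.inr rfl)
      · right
        obtain ⟨p, p0, p1, p2, _, _, hinj, hop⟩ := exists_affine h a.2 b.2 c.2 hnab hnac hbc hbc'
        have q0 : p ![0, 0] = a := Subtype.ext p0
        have q1 : p ![1, 0] = b := Subtype.ext p1
        have q2 : p ![0, 1] = c := Subtype.ext p2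
        refine iso_of_map h affine_model p hinj ?_ (fun x y _ => hop x y) (x0 := ![0, 0])
          (y0 := ![1, 0]) (z0 := ![0, 1]) (by rw [hl', q0, q1]) (by rw [hm', q0, q2])
          (by decide) (by decide) agen
        intro x y
        constructor
        · intro hxy hc
          have h1 := h.conj_of_comm (p x).2 hc
          rw [hop] at h1
          have h2 := hinj (Subtype.ext h1)
          apply hxy
          have : ∀ x y : Fin 2 → ZMod 3, -x - y = y → x = y := by decide +kernel
          exact this x y h2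
        · intro hc h'
          exact hc (h' ▸ Commute.refl _)

end Cfsg.Agent.S5367
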