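import Cfsg.Statements.S5392
import Cfsg.Agent.H29.LeechMod
import Cfsg.Agent.H29.CoTrans
import Cfsg.Agent.H7.Conway5
import Cfsg.Agent.S1567

set_option autoImplicit false
open Cfsg

namespace Cfsg.Agent.S5392

open Cfsg.Agent.H7 Cfsg.Agent.H29

theorem pp_add_pm {i j : GolayPt} : pp i j + pm i j = e8 i := by
  apply Subtype.ext
  funext k
  show (pp i j : GolayPt → ℤ) k + (pm i j : GolayPt → ℤ) k = (e8 i : GolayPt → ℤ) k
  rw [pp_coe, pm_coe, e8_coe]
  simp only [Pi.smul_apply, Pi.add_apply, Pi.sub_apply, smul_eq_mul]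
  ring

theorem pp_sub_pm {i j : GolayPt} : pp i j - pm i j = e8 j := by
  apply Subtype.ext
  funext k
  show (pp i j : GolayPt → ℤ) k - (pm i j : GolayPt → ℤ) k = (e8 j : GolayPt → ℤ) k
  rw [pp_coe, pm_coe, e8_coe]
  simp only [Pi.smul_apply, Pi.add_apply, Pi.sub_apply, smul_eq_mul]
  ring

theorem four_fix {g : Co0} (hg : ∀ v : leechLattice, LCong (g • v) v) {v : leechLattice}
    (hv : bL v v = 4) : g • v = v ∨ g • v = -v := by
  have h1 : bL (g • v) (g • v) = 4 := by rw [co0_bL, hv]
  rcases short_cong' (by rw [h1]; norm_num) (by rw [hv]; norm_num) (hg v) with h | h | h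
  · exact Or.inl h
  · exact Or.inr h
  · rw [hv] at h
    exact absurd h.2.1 (by norm_num)

theorem e8_neg_ne (i j : GolayPt) : -e8 i ≠ e8 j := fun h => e8_ne_neg j i h.symm

theorem none_fix {g : Co0} (hg : ∀ v : leechLattice, LCong (g • v) v) :
    g • e8 none = e8 none ∨ g • e8 none = -e8 none := by
  have key : ∀ j : GolayPt, j ≠ none → (g • e8 none = e8 none ∨ g • e8 none = -e8 none) ∨
      (g • e8 none = e8 j ∨ g • e8 none = -e8 j) := by
    intro j hj
    have h1 := four_fix hg (pp_norm (Ne.symm hj))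
    have h2 := four_fix hg (pm_norm (Ne.symm hj))
    have h3 : g • e8 none = g • pp none j + g • pm none j := by
      rw [← co0_add, pp_add_pm]
    rcases h1 with h1 | h1 <;> rcases h2 with h2 | h2 <;> rw [h1, h2] at h3
    · left; left
      rw [h3, pp_add_pm]
    · right; left
      rw [h3, ← sub_eq_add_neg, pp_sub_pm]
    · right; right
      rw [h3, ← pp_sub_pm (i := none) (j := j)]
      abel
    · left; right
      rw [h3, ← pp_add_pm (i := none) (j := j)]
      abel
  rcases key (some 0) (by decide) with h | h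
  · exact h
  rcases key (some 1) (by decide) with h' | h'
  · exact h'
  exfalso
  rcases h with h | h <;> rcases h' with h' | h' <;> rw [h] at h'
  · exact absurd (e8_inj h') (by decide)
  · exact e8_ne_neg _ _ h'
  · exact e8_neg_ne _ _ h'
  · exact absurd (e8_inj (neg_injective h')) (by decide)

theorem one_of_fix {g : Co0} (hg : ∀ v : leechLattice, LCong (g • v) v)
    (h0 : g • e8 none = e8 none) : g = 1 := by
  apply co0_ext_e8
  intro j
  rw [one_smul]
  by_cases hj : j = none
  · rw [hj, h0]
  have h1 : g • pp none j = pp none j := by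
    rcases four_fix hg (pp_norm (Ne.symm hj)) with h | h
    · exact h
    · exfalso
      have h2 := co0_bL g (pp none j) (e8 none)
      rw [h, h0, bL_neg, bL_e8, pp_coe] at h2
      have h3 : ((4 : ℤ) • (ind {none} + ind {j})) none = 4 := by
        simp [ind, Ne.symm hj]
      rw [h3] at h2
      norm_num at h2
  have h2 : e8 j = pp none j + pp none j - e8 none := by
    rw [← pp_add_pm (i := none) (j := j), ← pp_sub_pm (i := none) (j := j)]
    abel
  rw [h2, co0_sub, co0_add, h1, h0]

theorem kernel {g : Co0} (hg : ∀ v : leechLattice, LCong (g • v) v) :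
    g ∈ Subgroup.center Co0 := by
  rcases none_fix hg with h | h
  · rw [one_of_fix hg h]
    exact one_mem _
  · have h1 : negOne * g = 1 := by
      apply one_of_fix
      · intro v
        rw [mul_smul, negOne_smul]
        exact (LCong.neg _).trans (hg v)
      · rw [mul_smul, h, negOne_smul, neg_neg]
    have h2 : g = negOne⁻¹ := eq_inv_of_mul_eq_one_right h1
    rw [h2]
    exact inv_mem negOne_center

/-- The Leech lattice modulo twice itself is a faithful irreducible module for the first Conway group: an automorphism of the rank-24 lattice built from the length-24 code that moves every lattice vector only by twice a lattice vector lies in the centre of the automorphism group (the centre consists of ±1, which act trivially there, so the kernel is exactly the centre), and an additive subgroup lying between twice the lattice and the lattice that is invariant under all lattice automorphisms is one of the two. -/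
theorem result : (∀ g : ↥Cfsg.Co0, (∀ v : ↥Cfsg.leechLattice, ∃ w : ↥Cfsg.leechLattice, ((g • v : ↥Cfsg.leechLattice) : Cfsg.GolayPt → ℤ) - (v : Cfsg.GolayPt → ℤ) = 2 • (w : Cfsg.GolayPt → ℤ)) → g ∈ Subgroup.center ↥Cfsg.Co0) ∧ ∀ M : AddSubgroup (Cfsg.GolayPt → ℤ), (∀ v ∈ Cfsg.leechLattice, (2 : ℤ) • v ∈ M) → M ≤ Cfsg.leechLattice → (∀ g : ↥Cfsg.Co0, ∀ v : ↥Cfsg.leechLattice, (v : Cfsg.GolayPt → ℤ) ∈ M → ((g • v : ↥Cfsg.leechLattice) : Cfsg.GolayPt → ℤ) ∈ M) → (∀ x ∈ M, ∃ w ∈ Cfsg.leechLattice, x = (2 : ℤ) • w) ∨ M = Cfsg.leechLattice := by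
  refine ⟨?_, ?_⟩
  · intro g hg
    apply kernel
    intro v
    obtain ⟨w, hw⟩ := hg v
    rw [lcong_iff]
    exact ⟨w, Subtype.ext hw⟩
  · intro M h2 hM hinv
    by_cases hcon : ∀ x ∈ M, ∃ w ∈ leechLattice, x = (2 : ℤ) • w
    · exact Or.inl hcon
    right
    push Not at hcon
    obtain ⟨x, hx, hx2⟩ := hcon
    -- short vectors
    have hmem : ∀ v w : leechLattice, LCong v w → (v : GolayPt → ℤ) ∈ M → (w : GolayPt → ℤ) ∈ M := by
      intro v w hvw hv
      obtain ⟨u, hu⟩ := lcong_iff.1 hvw
      have h3 := M.sub_mem hv (h2 u u.2)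
      have h4 : (v : GolayPt → ℤ) - (2 : ℤ) • (u : GolayPt → ℤ) = w := by
        have h5 : (v : GolayPt → ℤ) - (w : GolayPt → ℤ) = (2 : ℤ) • (u : GolayPt → ℤ) :=
          congrArg Subtype.val hu
        rw [← h5]
        abel
      rwa [h4] at h3
    have htr : ∀ v w : leechLattice, bL v v = bL w w → (bL v v = 4 ∨ bL v v = 6 ∨ bL v v = 8) →
        (v : GolayPt → ℤ) ∈ M → (w : GolayPt → ℤ) ∈ M := by
      intro v w hvw hv hvM
      obtain ⟨g, rfl⟩ := co0_trans hvw hv
      exact hinv g v hvM
    have h4 : ∃ v : leechLattice, bL v v = 4 ∧ (v : GolayPt → ℤ) ∈ M := by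
      obtain ⟨w, hw, hw'⟩ := exists_short ⟨x, hM hx⟩
      have hwM := hmem _ _ hw hx
      rcases hw' with h | h | h | h
      · exfalso
        subst h
        obtain ⟨u, hu⟩ := lcong_iff.1 hw
        rw [sub_zero] at hu
        exact hx2 u u.2 (congrArg Subtype.val hu)
      · exact ⟨w, h, hwM⟩
      · -- norm 6
        have n1 : bL (pm (gpt 23) (gpt 0)) (pm (gpt 23) (gpt 0)) = 4 := pm_norm g23_ne_g0
        have n2 : bL t3 (pm (gpt 23) (gpt 0)) = 2 := by
          have h5 := two_bL_pm t3 (gpt 23) (gpt 0)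
          rw [t3_apply, t3_apply, if_pos rfl, if_neg (Ne.symm g23_ne_g0)] at h5
          omega
        have n3 : bL t3 t3 = 6 := t3_norm
        have n4 : bL (t3 - pm (gpt 23) (gpt 0)) (t3 - pm (gpt 23) (gpt 0)) = 6 := by
          rw [bL_sub, bL_sub_right, bL_sub_right, bL_comm (pm (gpt 23) (gpt 0)) t3, n1, n2, n3]
          norm_num
        refine ⟨pm (gpt 23) (gpt 0), n1, ?_⟩
        have m1 := htr w t3 (by rw [h, n3]) (Or.inr (Or.inl h)) hwM
        have m2 := htr w (t3 - pm (gpt 23) (gpt 0)) (by rw [h, n4]) (Or.inr (Or.inl h)) hwM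
        have m3 := M.sub_mem m1 m2
        have m4 : (t3 : GolayPt → ℤ) - ((t3 - pm (gpt 23) (gpt 0) : leechLattice) : GolayPt → ℤ) =
            (pm (gpt 23) (gpt 0) : GolayPt → ℤ) := by
          rw [AddSubgroup.coe_sub]
          abel
        rwa [m4] at m3
      · -- norm 8
        have ho : (Cfsg.Agent.H7.toSet 8536111) ∈ GC := mem_GC_mask.2 ⟨_, by decide +kernel, rfl⟩
        have hn : (none : GolayPt) ∈ toSet 8536111 := by
          rw [mem_toSet]
          decide +kernel
        set v : leechLattice := ⟨(2 : ℤ) • ind (toSet 8536111), leech_two ho⟩ with hv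
        have hvc : ∀ k, (v : GolayPt → ℤ) k = 2 * ind (toSet 8536111) k := fun _ => rfl
        have n1 : bL v v = 4 := by
          rw [← sq32]
          unfold sqNorm
          simp only [hvc]
          have h5 : ∀ k, (2 * ind (toSet 8536111) k) ^ 2 = 4 * ind (toSet 8536111) k := by
            intro k
            have := ind_sq (toSet 8536111) k
            linear_combination 4 * this
          simp only [h5]
          rw [← Finset.mul_sum, ind_sum, card_toSet]
          decide +kernel
        have n2 : bL v (e8 none) = 2 := by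
          rw [bL_e8, hvc]
          simp [ind, hn]
        have n3 : bL (e8 none) (e8 none) = 8 := by
          rw [bL_e8, e8_apply, if_pos rfl]
        have n4 : bL (e8 none - v) (e8 none - v) = 8 := by
          rw [bL_sub, bL_sub_right, bL_sub_right, bL_comm (e8 none) v, n1, n2, n3]
          norm_num
        refine ⟨v, n1, ?_⟩
        have m1 := htr w (e8 none) (by rw [h, n3]) (Or.inr (Or.inr h)) hwM
        have m2 := htr w (e8 none - v) (by rw [h, n4]) (Or.inr (Or.inr h)) hwM
        have m3 := M.sub_mem m1 m2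
        have m4 : (e8 none : GolayPt → ℤ) - ((e8 none - v : leechLattice) : GolayPt → ℤ) =
            (v : GolayPt → ℤ) := by
          rw [AddSubgroup.coe_sub]
          abel
        rwa [m4] at m3
    obtain ⟨v, hv, hvM⟩ := h4
    apply le_antisymm hM
    rw [← Cfsg.Agent.S1567.result, AddSubgroup.closure_le]
    rintro y ⟨hy, hy32⟩
    have h5 : bL ⟨y, hy⟩ ⟨y, hy⟩ = 4 := sq32.1 hy32
    exact htr v ⟨y, hy⟩ (by rw [hv, h5]) (Or.inl hv) hvM

end Cfsg.Agent.S5392
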