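import Cfsg.Statements.S5393
import Cfsg.Agent.H29.GCInv

set_option autoImplicit false
open Cfsg

namespace Cfsg.Agent.S5393

open Cfsg.Agent.H7 Cfsg.Agent.H29 in
theorem one_word : (fun _ : Cfsg.GolayPt => (1 : ZMod 2)) = 1 := rfl

/-- The length-24 code built from the squares modulo 23 contains the all-ones word, and the code modulo the all-ones word is an irreducible module over the field with two elements for the code's automorphism group: a subspace of the code that contains the all-ones word and is invariant under every coordinate permutation preserving the code is either the span of the all-ones word or the whole code. -/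
theorem result : (fun _ : Cfsg.GolayPt => (1 : ZMod 2)) ∈ Cfsg.golayCode ∧ ∀ W : Submodule (ZMod 2) (Cfsg.GolayPt → ZMod 2), (fun _ => (1 : ZMod 2)) ∈ W → W ≤ Cfsg.golayCode → (∀ σ ∈ Cfsg.M24, ∀ w ∈ W, (fun p => w (σ.symm p)) ∈ W) → W = Submodule.span (ZMod 2) {fun _ => (1 : ZMod 2)} ∨ W = Cfsg.golayCode := by
  have h1 : (1 : Cfsg.GolayPt → ZMod 2) ∈ Cfsg.golayCode := by
    rw [← Cfsg.Agent.H7.support_mem_GC, Cfsg.Agent.H29.supp_one]
    exact Cfsg.Agent.H7.GC_univ
  refine ⟨h1, ?_⟩
  intro W hW1 hWG hW
  have hI := Cfsg.Agent.H29.inv_WS hW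
  by_cases hex : ∃ w ∈ W, Cfsg.support₂ w ≠ ∅ ∧ Cfsg.support₂ w ≠ Finset.univ
  · right
    obtain ⟨w, hw, h2, h3⟩ := hex
    apply le_antisymm hWG
    intro v hv
    rw [← Cfsg.Agent.H29.mem_WS]
    exact Cfsg.Agent.H29.GC_sub hI (Cfsg.Agent.H7.support_mem_GC.2 (hWG hw))
      (Cfsg.Agent.H29.mem_WS.2 hw) h2 h3 _ (Cfsg.Agent.H7.support_mem_GC.2 hv)
  · left
    push Not at hex
    apply le_antisymm
    · intro w hw
      by_cases h0 : Cfsg.support₂ w = ∅
      · rw [← Cfsg.Agent.H29.supp_zero] at h0
        rw [Cfsg.Agent.H7.support₂_injective h0]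
        exact Submodule.zero_mem _
      · have h2 := hex w hw (Finset.nonempty_iff_ne_empty.2 h0)
        rw [← Cfsg.Agent.H29.supp_one] at h2
        rw [Cfsg.Agent.H7.support₂_injective h2]
        exact Submodule.subset_span rfl
    · rw [Submodule.span_le]
      rintro _ rfl
      exact hW1

end Cfsg.Agent.S5393
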