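import Cfsg.Statements.S5396
import Cfsg.Agent.H29.XS4
import Cfsg.Agent.H18.ExtraCount

set_option autoImplicit false
set_option linter.all false
open Cfsg

namespace Cfsg.Agent.S5396

open scoped BigOperators
open Cfsg.Agent.H29

abbrev U : Type := ZMod 2 × ZMod 2

def ei (ε : ZMod 2) (i : ℕ) : ZMod 2 := if i = 0 then ε else 0
def bi (e : ZMod 2) (u w : U) : ZMod 2 := u.1 * w.2 + e * (u.1 * w.1 + u.2 * w.2)

theorem bi_add_left (e : ZMod 2) (u u' w : U) : bi e (u + u') w = bi e u w + bi e u' w := by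
  simp only [bi, Prod.fst_add, Prod.snd_add]; ring

theorem bi_add_right (e : ZMod 2) (u w w' : U) : bi e u (w + w') = bi e u w + bi e u w' := by
  simp only [bi, Prod.fst_add, Prod.snd_add]; ring

theorem bi_zero_left (e : ZMod 2) (w : U) : bi e 0 w = 0 := by simp [bi]
theorem bi_zero_right (e : ZMod 2) (w : U) : bi e w 0 = 0 := by simp [bi]

def Bf {n : ℕ} (ε : ZMod 2) (v w : Fin n → U) : ZMod 2 := ∑ i, bi (ei ε i.val) (v i) (w i)

section
variable {n : ℕ} (ε : ZMod 2)

theorem Bf_add_left (u u' w : Fin n → U) : Bf ε (u + u') w = Bf ε u w + Bf ε u' w := by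
  simp only [Bf, Pi.add_apply, bi_add_left, Finset.sum_add_distrib]

theorem Bf_add_right (u w w' : Fin n → U) : Bf ε u (w + w') = Bf ε u w + Bf ε u w' := by
  simp only [Bf, Pi.add_apply, bi_add_right, Finset.sum_add_distrib]

theorem Bf_zero_left (w : Fin n → U) : Bf ε 0 w = 0 := by
  simp only [Bf, Pi.zero_apply, bi_zero_left, Finset.sum_const_zero]

theorem Bf_zero_right (w : Fin n → U) : Bf ε w 0 = 0 := by
  simp only [Bf, Pi.zero_apply, bi_zero_right, Finset.sum_const_zero]

theorem Bf_single_right (v : Fin n → U) (i : Fin n) (u : U) :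
    Bf ε v (Pi.single i u) = bi (ei ε i.val) (v i) u := by
  unfold Bf
  rw [Finset.sum_eq_single i]
  · rw [Pi.single_eq_same]
  · intro j _ hj
    rw [Pi.single_eq_of_ne hj, bi_zero_right]
  · intro h; exact absurd (Finset.mem_univ i) h

theorem Bf_single_left (v : Fin n → U) (i : Fin n) (u : U) :
    Bf ε (Pi.single i u) v = bi (ei ε i.val) u (v i) := by
  unfold Bf
  rw [Finset.sum_eq_single i]
  · rw [Pi.single_eq_same]
  · intro j _ hj
    rw [Pi.single_eq_of_ne hj, bi_zero_left]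
  · intro h; exact absurd (Finset.mem_univ i) h

end

@[ext] structure Ex (n : ℕ) (ε : ZMod 2) : Type where
  v : Fin n → U
  c : ZMod 2

variable {n : ℕ} {ε : ZMod 2}

instance : Mul (Ex n ε) := ⟨fun x y => ⟨x.v + y.v, x.c + y.c + Bf ε x.v y.v⟩⟩
instance : One (Ex n ε) := ⟨⟨0, 0⟩⟩
instance : Inv (Ex n ε) := ⟨fun x => ⟨-x.v, -x.c - Bf ε (-x.v) x.v⟩⟩

theorem mul_v (x y : Ex n ε) : (x * y).v = x.v + y.v := rfl
theorem mul_c (x y : Ex n ε) : (x * y).c = x.c + y.c + Bf ε x.v y.v := rfl
theorem one_v : (1 : Ex n ε).v = 0 := rfl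
theorem one_c : (1 : Ex n ε).c = 0 := rfl

instance : Group (Ex n ε) := Group.ofLeftAxioms
  (by
    intro x y z
    ext1
    · simp only [mul_v, add_assoc]
    · simp only [mul_v, mul_c, Bf_add_left, Bf_add_right]; ring)
  (by
    intro x
    ext1
    · simp only [mul_v, one_v, zero_add]
    · simp only [mul_c, one_v, one_c, Bf_zero_left]; ring)
  (by
    intro x
    ext1
    · show -x.v + x.v = 0
      exact neg_add_cancel _
    · show (-x.c - Bf ε (-x.v) x.v) + x.c + Bf ε (-x.v) x.v = 0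
      ring)

def exEquiv (n : ℕ) (ε : ZMod 2) : (Fin n → U) × ZMod 2 ≃ Ex n ε where
  toFun p := ⟨p.1, p.2⟩
  invFun x := (x.v, x.c)
  left_inv _ := rfl
  right_inv _ := rfl

instance : Finite (Ex n ε) := Finite.of_equiv _ (exEquiv n ε)

theorem card_ex : Nat.card (Ex n ε) = 2 ^ (2 * n + 1) := by
  rw [← Nat.card_congr (exEquiv n ε), Nat.card_eq_fintype_card, Fintype.card_prod, Fintype.card_fun]
  simp only [Fintype.card_prod, ZMod.card, Fintype.card_fin]
  rw [pow_succ, pow_mul]
  norm_num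

def zz : Ex n ε := ⟨0, 1⟩

theorem z2 : ∀ x : ZMod 2, x + x = 0 := by decide

theorem sq_v (x : Ex n ε) : (x * x).v = 0 := by
  rw [mul_v]
  funext i
  exact Prod.ext (z2 _) (z2 _)

theorem sq_c (x : Ex n ε) : (x * x).c = Bf ε x.v x.v := by
  rw [mul_c, z2, zero_add]

theorem z_or : ∀ a : ZMod 2, a = 0 ∨ a = 1 := by decide

theorem zz_mul (x : Ex n ε) : zz * x = ⟨x.v, x.c + 1⟩ := by
  ext1
  · rw [mul_v]; exact zero_add _
  · rw [mul_c]
    show 1 + x.c + Bf ε 0 x.v = x.c + 1
    rw [Bf_zero_left]; ring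

theorem nd : ∀ e : ZMod 2, ∀ u : U, (∀ w : U, bi e u w = bi e w u) → u = 0 := by
  unfold bi; decide

theorem xs (hn : 1 ≤ n) : XS (⊤ : Subgroup (Ex n ε)) zz := by
  apply XS.mk'
  · exact IsPGroup.of_card (n := 2 * n + 1) (by rw [Subgroup.card_top, card_ex])
  · intro h
    have := congrArg Ex.c h
    exact absurd this (by decide : (1 : ZMod 2) ≠ 0)
  · rw [zz_mul]
    ext1
    · rfl
    · show (1 : ZMod 2) + 1 = 0
      decide
  · trivial
  · intro x _
    rw [zz_mul]
    ext1
    · rw [mul_v]; exact add_zero _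
    · rw [mul_c]
      show x.c + 1 + Bf ε x.v 0 = x.c + 1
      rw [Bf_zero_right]; ring
  · intro x _ hx
    have hv : x.v = 0 := by
      funext i
      apply nd (ei ε i.val)
      intro w
      have h1 := congrArg Ex.c (hx ⟨Pi.single i w, 0⟩ trivial)
      rw [mul_c, mul_c] at h1
      change x.c + 0 + Bf ε x.v (Pi.single i w) = 0 + x.c + Bf ε (Pi.single i w) x.v at h1
      rw [Bf_single_right, Bf_single_left, add_zero, zero_add] at h1
      exact add_left_cancel h1
    rcases z_or x.c with h | h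
    · left; exact Ex.ext hv h
    · right; exact Ex.ext hv h
  · intro x _ y _
    have hv : (x * y).v = (y * x).v := by rw [mul_v, mul_v, add_comm]
    have h01 : ∀ a b : ZMod 2, a = b ∨ a = b + 1 := by decide
    rcases h01 (x * y).c (y * x).c with h | h
    · left; exact Ex.ext hv h
    · right
      rw [zz_mul]
      exact Ex.ext hv h
  · intro x _
    rcases z_or (x * x).c with h | h
    · left; exact Ex.ext (sq_v x) h
    · right; exact Ex.ext (sq_v x) h
  · refine ⟨⟨Pi.single ⟨0, hn⟩ (1, 0), 0⟩, trivial, ⟨Pi.single ⟨0, hn⟩ (0, 1), 0⟩, trivial, fun h => ?_⟩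
    have h1 := congrArg Ex.c h
    rw [mul_c, mul_c] at h1
    change 0 + 0 + Bf ε (Pi.single ⟨0, hn⟩ (1, 0)) (Pi.single ⟨0, hn⟩ (0, 1)) =
      0 + 0 + Bf ε (Pi.single ⟨0, hn⟩ (0, 1)) (Pi.single ⟨0, hn⟩ (1, 0)) at h1
    rw [Bf_single_right, Bf_single_right, Pi.single_eq_same, Pi.single_eq_same] at h1
    revert h1
    generalize ei ε _ = e
    revert e
    unfold bi
    decide

theorem extra_of_equiv {p : ℕ} {P Q : Type} [Group P] [Group Q] (f : P ≃* Q) (h : IsExtraspecial p P) :
    IsExtraspecial p Q := by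
  obtain ⟨⟨h1, h2, h3⟩, h4⟩ := h
  have hc : (Subgroup.center P).map f.toMonoidHom = Subgroup.center Q := by
    ext y
    constructor
    · rintro ⟨x, hx, rfl⟩
      rw [Subgroup.mem_center_iff]
      intro g
      obtain ⟨g, rfl⟩ := f.surjective g
      show f g * f x = f x * f g
      rw [← map_mul, ← map_mul, Subgroup.mem_center_iff.mp hx]
    · intro hy
      refine ⟨f.symm y, ?_, f.apply_symm_apply y⟩
      rw [SetLike.mem_coe, Subgroup.mem_center_iff]
      intro g
      apply f.injective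
      rw [map_mul, map_mul, f.apply_symm_apply]
      exact Subgroup.mem_center_iff.mp hy _
  refine ⟨⟨h1.of_equiv f, ?_, ?_⟩, ?_⟩
  · rw [← hc, ← h2]
    exact (OrderIso.map_radical f.mapSubgroup).symm
  · rw [← hc, ← h3, commutator_def, commutator_def, Subgroup.map_commutator]
    have : (⊤ : Subgroup P).map f.toMonoidHom = ⊤ := Subgroup.map_top_of_surjective _ f.surjective
    rw [this]
  · rw [← hc, Subgroup.card_map_of_injective f.injective, h4]

theorem extra (hn : 1 ≤ n) : IsExtraspecial 2 (Ex n ε) :=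
  extra_of_equiv Subgroup.topEquiv (xs (ε := ε) hn).isExtraspecial

/-- the general upper bound -/
theorem card_le (hn : 1 ≤ n) (A : Subgroup (Ex n ε)) (hA : IsElementaryAbelian 2 A) : Nat.card A ≤ 2 ^ (n + 1) := by
  have hcomm : ∀ a ∈ A, ∀ b ∈ A, a * b = b * a := fun a ha b hb =>
    congrArg Subtype.val (hA.1.is_comm.comm (⟨a, ha⟩ : A) ⟨b, hb⟩)
  have h := xs (ε := ε) hn
  obtain ⟨B, hB⟩ : ∃ B : Subgroup (Ex n ε), B = A ⊔ Subgroup.zpowers zz := ⟨_, rfl⟩
  have hAB : A ≤ B := by rw [hB]; exact le_sup_left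
  have hzB : zz ∈ B := by rw [hB]; exact Subgroup.mem_sup_right (Subgroup.mem_zpowers _)
  have hzc : ∀ x : Ex n ε, x * zz = zz * x := fun x => h.z_comm x trivial
  have hBB : B ≤ Subgroup.centralizer (B : Set (Ex n ε)) := by
    have h1 : A ≤ Subgroup.centralizer (B : Set (Ex n ε)) := by
      rw [Subgroup.le_centralizer_iff, hB]
      refine sup_le ?_ ?_
      · intro a ha
        rw [Subgroup.mem_centralizer_iff]
        intro b hb
        exact hcomm b hb a ha
      · rw [Subgroup.zpowers_le, Subgroup.mem_centralizer_iff]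
        intro b hb
        exact hzc b
    nth_rewrite 1 [hB]
    refine sup_le h1 ?_
    rw [Subgroup.zpowers_le, Subgroup.mem_centralizer_iff]
    intro b hb
    exact hzc b
  have h2 := XS.card_cent_mul h hzB le_top
  have h3 : B ≤ XS.centIn (⊤ : Subgroup (Ex n ε)) B := le_inf le_top hBB
  have h4 : Nat.card B ≤ Nat.card (XS.centIn (⊤ : Subgroup (Ex n ε)) B) :=
    Nat.card_le_card_of_injective _ (Subgroup.inclusion_injective h3)
  have h5 : Nat.card A ≤ Nat.card B :=
    Nat.card_le_card_of_injective _ (Subgroup.inclusion_injective hAB)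
  rw [Subgroup.card_top, card_ex] at h2
  have h6 : Nat.card B * Nat.card B ≤ 2 ^ (n + 1) * 2 ^ (n + 1) := by
    calc Nat.card B * Nat.card B ≤ Nat.card (XS.centIn (⊤ : Subgroup (Ex n ε)) B) * Nat.card B := Nat.mul_le_mul_right _ h4
      _ = 2 * 2 ^ (2 * n + 1) := h2
      _ = 2 ^ (n + 1) * 2 ^ (n + 1) := by ring
  exact h5.trans (Nat.mul_self_le_mul_self_iff.mp h6)

def chi (c : ZMod 2) : ℤ := if c = 0 then 1 else -1

theorem chi_add : ∀ a b, chi (a + b) = chi a * chi b := by unfold chi; decide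

theorem chi_sum {ι : Type} (s : Finset ι) (f : ι → ZMod 2) : chi (∑ i ∈ s, f i) = ∏ i ∈ s, chi (f i) := by
  classical
  induction s using Finset.induction_on with
  | empty => rw [Finset.sum_empty, Finset.prod_empty]; decide
  | insert a s ha ih => rw [Finset.sum_insert ha, Finset.prod_insert ha, chi_add, ih]

theorem sum_chi (m : ℕ) [Fintype (Ex (m + 1) 1)] : ∑ x : Ex (m + 1) 1, chi (Bf 1 x.v x.v) = - 2 ^ (m + 2) := by
  rw [← Equiv.sum_comp (exEquiv (m + 1) 1), Fintype.sum_prod_type]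
  have h1 : ∀ v : Fin (m + 1) → U, ∑ c : ZMod 2, chi (Bf 1 (exEquiv (m + 1) 1 (v, c)).v (exEquiv (m + 1) 1 (v, c)).v) =
      2 * ∏ i, chi (bi (ei 1 i.val) (v i) (v i)) := by
    intro v
    rw [← chi_sum]
    show ∑ c : ZMod 2, chi (Bf 1 v v) = 2 * chi (Bf 1 v v)
    rw [Finset.sum_const, Finset.card_univ, ZMod.card]
    simp
  rw [Finset.sum_congr rfl fun v _ => h1 v, ← Finset.mul_sum]
  have h2 := Finset.prod_univ_sum (fun _ : Fin (m + 1) => (Finset.univ : Finset U))
    (fun i u => chi (bi (ei 1 i.val) u u))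
  rw [Fintype.piFinset_univ] at h2
  rw [← h2, Fin.prod_univ_succ]
  have h3 : ∑ u : U, chi (bi (ei 1 ((0 : Fin (m + 1)).val)) u u) = -2 := by
    show ∑ u : U, chi (bi (ei 1 0) u u) = -2
    unfold chi bi ei
    decide
  have h4 : ∀ i : Fin m, ∑ u : U, chi (bi (ei 1 (i.succ.val)) u u) = 2 := by
    intro i
    have : ei 1 (i.succ.val) = 0 := by
      unfold ei
      rw [if_neg]
      simp
    rw [this]
    unfold chi bi
    decide
  rw [h3, Finset.prod_congr rfl fun i _ => h4 i, Finset.prod_const, Finset.card_univ, Fintype.card_fin]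
  ring

theorem minus_no (m : ℕ) (A : Subgroup (Ex (m + 1) 1)) (hA : IsElementaryAbelian 2 A)
    (hAc : Nat.card A = 2 ^ (m + 1 + 1)) : False := by
  classical
  haveI := Fintype.ofFinite (Ex (m + 1) 1)
  have h1 := Cfsg.Agent.H18.card_order_four (extra (ε := 1) (Nat.succ_le_succ (Nat.zero_le m))) (card_ex (n := m + 1) (ε := 1)) hA hAc
  have h2 := sum_chi m
  have hz : ∀ x : Ex (m + 1) 1, orderOf x = 4 ↔ x * x ≠ 1 := by
    intro x
    constructor
    · intro h hx
      have := orderOf_dvd_of_pow_eq_one (show x ^ 2 = 1 by rw [pow_two]; exact hx)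
      rw [h] at this
      omega
    · intro hx
      apply orderOf_eq_prime_pow (p := 2) (n := 1)
      · rw [pow_one, pow_two]; exact hx
      · have h5 : x ^ 2 ^ (1 + 1) = (x * x) * (x * x) := by
          rw [show (2 : ℕ) ^ (1 + 1) = 2 * 2 by norm_num, pow_mul, pow_two, pow_two]
        rw [h5]
        ext1
        · exact sq_v _
        · rw [sq_c, sq_v, Bf_zero_left]; rfl
  have h3 : ∀ x : Ex (m + 1) 1, chi (Bf 1 x.v x.v) = 1 - 2 * (if x * x ≠ 1 then 1 else 0) := by
    intro x
    by_cases hx : x * x = 1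
    · rw [if_neg (not_not.mpr hx)]
      have : Bf 1 x.v x.v = 0 := by rw [← sq_c, hx]; rfl
      rw [this]; decide
    · rw [if_pos hx]
      have : Bf 1 x.v x.v ≠ 0 := by
        intro h
        apply hx
        exact Ex.ext (sq_v x) ((sq_c x).trans h)
      unfold chi
      rw [if_neg this]
      norm_num
  rw [Finset.sum_congr rfl fun x _ => h3 x, Finset.sum_sub_distrib, ← Finset.mul_sum, Finset.sum_boole] at h2
  have h6 : Nat.card {x : Ex (m + 1) 1 // orderOf x = 4} = (Finset.univ.filter fun x : Ex (m + 1) 1 => x * x ≠ 1).card := by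
    rw [Nat.card_eq_fintype_card, Fintype.card_subtype]
    congr 1
    ext x
    rw [Finset.mem_filter, Finset.mem_filter, hz]
  rw [← h6, h1] at h2
  have h7 := card_ex (n := m + 1) (ε := 1)
  rw [Nat.card_eq_fintype_card] at h7
  rw [Finset.sum_const, Finset.card_univ, h7] at h2
  have h8 : (2 : ℕ) ^ (m + 1) ≤ 2 ^ (2 * (m + 1)) := Nat.pow_le_pow_right (by norm_num) (by omega)
  push_cast [Nat.cast_sub h8] at h2
  rw [nsmul_one] at h2
  push_cast at h2
  have h9 : (0 : ℤ) < 2 ^ m := by positivity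
  have h10 : (2 : ℤ) ^ (2 * (m + 1) + 1) = 2 * 2 ^ (2 * (m + 1)) := by ring
  have h11 : (2 : ℤ) ^ (m + 1) = 2 * 2 ^ m := by ring
  have h12 : (2 : ℤ) ^ (m + 2) = 4 * 2 ^ m := by ring
  rw [h10, h11, h12] at h2
  linarith

theorem exists_el {m : ℕ} (w : (Fin m → ZMod 2) → (Fin n → U)) (hw : ∀ a b, w (a + b) = w a + w b)
    (hi : Function.Injective w) (hB : ∀ a b, Bf ε (w a) (w b) = 0) :
    ∃ A : Subgroup (Ex n ε), IsElementaryAbelian 2 A ∧ Nat.card A = 2 ^ (m + 1) := by
  have hw0 : w 0 = 0 := by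
    have := hw 0 0
    rw [add_zero] at this
    exact left_eq_add.mp this
  let f : Multiplicative ((Fin m → ZMod 2) × ZMod 2) →* Ex n ε :=
    { toFun := fun p => ⟨w p.toAdd.1, p.toAdd.2⟩
      map_one' := Ex.ext hw0 rfl
      map_mul' := by
        intro p q
        ext1
        · exact hw _ _
        · rw [mul_c, hB, add_zero]; rfl }
  have hf : Function.Injective f := by
    intro p q h
    have h1 : w p.toAdd.1 = w q.toAdd.1 := congrArg Ex.v h
    have h2 : p.toAdd.2 = q.toAdd.2 := congrArg Ex.c h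
    exact Multiplicative.toAdd.injective (Prod.ext (hi h1) h2)
  refine ⟨f.range, ⟨⟨⟨?_⟩⟩, ?_⟩, ?_⟩
  · rintro ⟨_, p, rfl⟩ ⟨_, q, rfl⟩
    apply Subtype.ext
    show f p * f q = f q * f p
    rw [← map_mul, ← map_mul, mul_comm]
  · rintro _ ⟨p, rfl⟩
    rw [← map_pow]
    have : p ^ 2 = 1 := by
      apply Multiplicative.toAdd.injective
      show 2 • p.toAdd = 0
      rw [two_nsmul]
      exact Prod.ext (funext fun i => z2 _) (z2 _)
    rw [this, map_one]
  · rw [← Nat.card_congr (MonoidHom.ofInjective hf).toEquiv]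
    show Nat.card ((Fin m → ZMod 2) × ZMod 2) = _
    rw [Nat.card_eq_fintype_card, Fintype.card_prod, Fintype.card_fun]
    simp only [ZMod.card, Fintype.card_fin]
    rw [pow_succ]

theorem el_plus (n : ℕ) : ∃ A : Subgroup (Ex n 0), IsElementaryAbelian 2 A ∧ Nat.card A = 2 ^ (n + 1) := by
  refine exists_el (fun a i => (a i, 0)) ?_ ?_ ?_
  · intro a b
    funext i
    exact Prod.ext rfl (add_zero _).symm
  · intro a b h
    funext i
    exact congrArg Prod.fst (congrFun h i)
  · intro a b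
    unfold Bf
    apply Finset.sum_eq_zero
    intro i _
    have : ei 0 i.val = 0 := by unfold ei; split_ifs <;> rfl
    rw [this]
    unfold bi
    simp

theorem el_minus (m : ℕ) : ∃ A : Subgroup (Ex (m + 1) 1), IsElementaryAbelian 2 A ∧ Nat.card A = 2 ^ (m + 1) := by
  refine exists_el (fun a => Fin.cases 0 (fun i => (a i, 0))) ?_ ?_ ?_
  · intro a b
    funext i
    refine Fin.cases ?_ (fun j => ?_) i
    · show (0 : U) = 0 + 0
      rw [add_zero]
    · show ((a + b) j, (0 : ZMod 2)) = (a j, 0) + (b j, 0)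
      exact Prod.ext rfl (add_zero _).symm
  · intro a b h
    funext i
    exact congrArg Prod.fst (congrFun h i.succ)
  · intro a b
    unfold Bf
    rw [Fin.sum_univ_succ]
    have h0 : bi (ei 1 ((0 : Fin (m + 1)).val)) (Fin.cases (motive := fun _ => U) 0 (fun i => (a i, 0)) (0 : Fin (m + 1)))
        (Fin.cases (motive := fun _ => U) 0 (fun i => (b i, 0)) (0 : Fin (m + 1))) = 0 := bi_zero_left _ _
    rw [h0, zero_add]
    apply Finset.sum_eq_zero
    intro i _
    have : ei 1 (i.succ.val) = 0 := by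
      unfold ei
      rw [if_neg]
      simp
    rw [this]
    show bi 0 (a i, 0) (b i, 0) = 0
    unfold bi
    simp

/-- For every n ≥ 1 there exist finite extraspecial 2-groups of order 2^(2n+1) whose 2-rank (the largest rank of an elementary abelian subgroup) is n, and ones whose 2-rank is n + 1 (so for each such order there are two non-isomorphic extraspecial 2-groups, told apart by their 2-rank). -/
theorem result (n : ℕ) (hn : 1 ≤ n) : ∀ r ∈ ({n, n + 1} : Set ℕ), ∃ (E : Type) (_ : Group E) (_ : Finite E), Cfsg.IsExtraspecial 2 E ∧ Nat.card E = 2 ^ (2 * n + 1) ∧ sSup {k : ℕ | ∃ A : Subgroup E, Cfsg.IsElementaryAbelian 2 A ∧ Nat.card A = 2 ^ k} = r := by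
  intro r hr
  obtain ⟨m, rfl⟩ : ∃ m, n = m + 1 := ⟨n - 1, by omega⟩
  rcases hr with rfl | hr
  · refine ⟨Ex (m + 1) 1, inferInstance, inferInstance, extra hn, card_ex, ?_⟩
    refine IsGreatest.csSup_eq ⟨el_minus m, ?_⟩
    rintro k ⟨A, hA, hk⟩
    have h1 := card_le hn A hA
    rw [hk] at h1
    have h2 := (Nat.pow_le_pow_iff_right (by norm_num : 1 < 2)).mp h1
    rcases Nat.lt_or_ge k (m + 1 + 1) with h | h
    · omega
    · exact absurd (by rw [hk]; congr 1; omega) (minus_no m A hA)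
  · rw [Set.mem_singleton_iff] at hr
    subst hr
    refine ⟨Ex (m + 1) 0, inferInstance, inferInstance, extra hn, card_ex, ?_⟩
    refine IsGreatest.csSup_eq ⟨el_plus (m + 1), ?_⟩
    rintro k ⟨A, hA, hk⟩
    have h1 := card_le hn A hA
    rw [hk] at h1
    exact (Nat.pow_le_pow_iff_right (by norm_num : 1 < 2)).mp h1

end Cfsg.Agent.S5396
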