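import Cfsg.Statements.S5407
import Cfsg.Agent.H29.Mon4

set_option autoImplicit false
open Cfsg

namespace Cfsg.Agent.S5407

open Cfsg.Agent.H29 Cfsg.Agent.H7

/-- Let G be a finite group of Monster type at the involution z with Q the extraspecial normal subgroup of order 2^25 of C = C_G(z) (so C/Q is identified with the first Conway group with Q modulo its centre the Leech lattice modulo 2, and z is not weakly closed in Q). Then under any such identification ψ of the Leech lattice modulo 2 with Q modulo its centre, an element x of Q is a conjugate of z other than z exactly when x modulo the centre is the image under ψ of a lattice vector of squared length 64 in the coordinates used here, that is, of norm 8 in the customary normalisation in which the minimal vectors have norm 4 (twice the minimal norm). -/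
theorem result {G : Type*} [Group G] [Finite G] (z : G) (Q : Subgroup (Subgroup.centralizer ({z} : Set G))) [Q.Normal] (hM : Cfsg.IsOfMonsterType z Q) (e : (Subgroup.centralizer ({z} : Set G)) ⧸ Q ≃* Cfsg.Spor.Co1) (ψ : Cfsg.leechLattice → Q ⧸ Subgroup.center Q) (hψ : Cfsg.IsLeechModTwoIso Q e ψ) (x : Q) : (IsConj z ((x : Subgroup.centralizer ({z} : Set G)) : G) ∧ ((x : Subgroup.centralizer ({z} : Set G)) : G) ≠ z) ↔ ∃ v : Cfsg.leechLattice, Cfsg.sqNorm (v : Cfsg.GolayPt → ℤ) = 64 ∧ ψ v = QuotientGroup.mk x := by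
  obtain ⟨hS, -⟩ := hM
  have h := mi hS hψ
  constructor
  · rintro ⟨hc, hne⟩
    obtain ⟨g, hg⟩ := conj_of hc
    obtain ⟨v, g0, hv, h8, -⟩ := h.main hg (mem_PG.2 ⟨_, x.2⟩) hne
    obtain ⟨q, hq, hq2⟩ := hv
    refine ⟨v, sq64.2 h8, ?_⟩
    have : q = x := Subtype.ext (Subtype.ext hq)
    rw [hq2, this]
  · rintro ⟨v, hv, hx⟩
    have h8 := sq64.1 hv
    have hR : Rel ψ v ((x : Subgroup.centralizer ({z} : Set G)) : G) := ⟨x, rfl, hx⟩
    obtain ⟨g, s, hg, hs, hsz⟩ := exists_s hS
    obtain ⟨w, g0, hw, h8', -⟩ := h.main hg hs hsz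
    obtain ⟨k, hk⟩ := h.trans hw hR (by rw [h8', h8]) (Or.inr (Or.inr h8'))
    refine ⟨?_, (h.short_ne hR (Or.inr (Or.inr h8))).2⟩
    rw [isConj_iff]
    refine ⟨k * g, ?_⟩
    rw [← hk, ← hg]
    group

end Cfsg.Agent.S5407
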