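import Cfsg.Statements.S5408
import Cfsg.Agent.H29.Mon4

set_option autoImplicit false
open Cfsg

namespace Cfsg.Agent.S5408

open Cfsg.Agent.H29 Cfsg.Agent.H7

/-- Let G be a finite group of Monster type at the involution z with Q the extraspecial normal subgroup of order 2^25 of C = C_G(z) (so C/Q is identified with the first Conway group with Q modulo its centre the Leech lattice modulo 2, and z is not weakly closed in Q). Then Q is of plus type: it contains an elementary abelian subgroup of order 2^13. -/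
theorem result {G : Type*} [Group G] [Finite G] (z : G) (Q : Subgroup (Subgroup.centralizer ({z} : Set G))) [Q.Normal] (hM : Cfsg.IsOfMonsterType z Q) : ∃ E : Subgroup Q, Cfsg.IsElementaryAbelian 2 E ∧ Nat.card E = 2 ^ 13 := by
  obtain ⟨hS, e, ψ, hψ⟩ := hM
  have h := mi hS hψ
  obtain ⟨g, s, hg, hs, hsz⟩ := exists_s hS
  obtain ⟨v, -, hv, h8, -, h2, -⟩ := h.main hg hs hsz
  set f : Q →* G := (Subgroup.centralizer ({z} : Set G)).subtype.comp Q.subtype with hf
  have hinj : Function.Injective f :=
    (Subgroup.subtype_injective _).comp (Subgroup.subtype_injective _)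
  have hmap : ((PG Q ⊓ cj g (PG Q)).comap f).map f = PG Q ⊓ cj g (PG Q) := by
    rw [Subgroup.map_comap_eq, inf_eq_right]
    rintro x ⟨⟨y, hy, rfl⟩, -⟩
    exact ⟨⟨y, hy⟩, rfl⟩
  refine ⟨(PG Q ⊓ cj g (PG Q)).comap f, ?_, ?_⟩
  · refine ⟨⟨⟨?_⟩⟩, ?_⟩
    · rintro ⟨a, ha⟩ ⟨b, hb⟩
      apply Subtype.ext
      apply hinj
      show f (a * b) = f (b * a)
      rw [map_mul, map_mul]
      exact h.inf_comm' hg hsz ha hb
    · intro a ha
      apply hinj
      rw [map_pow, map_one, pow_two]
      exact h.inf_sq hg hsz ha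
  · rw [← h2]
    have h3 := Nat.card_congr (Subgroup.equivMapOfInjective
      ((PG Q ⊓ cj g (PG Q)).comap f) f hinj).toEquiv
    rw [hmap] at h3
    exact h3

end Cfsg.Agent.S5408
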