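import Cfsg.Statements.S5410
import Cfsg.Agent.H29.Mon4

set_option autoImplicit false
open Cfsg

namespace Cfsg.Agent.S5410

open Cfsg.Agent.H29 Cfsg.Agent.H7

/-- Let G be a finite group of Monster type at the involution z with Q the extraspecial normal subgroup of order 2^25 of C = C_G(z) (so C/Q is identified with the first Conway group with Q modulo its centre the Leech lattice modulo 2, and z is not weakly closed in Q). Let g in G with s = g z g⁻¹ a member of Q other than z, let X be the image in C/Q of the centralizer of s in C, and let E be the image in C/Q of the intersection of g Q g⁻¹ with C. Then E is a normal subgroup of X, elementary abelian of order 2^11, and it has a complement in X isomorphic to the Mathieu group of degree 24 (the automorphism group of the length-24 binary Golay code). -/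
theorem result {G : Type*} [Group G] [Finite G] (z : G) (Q : Subgroup (Subgroup.centralizer ({z} : Set G))) [Q.Normal] (hM : Cfsg.IsOfMonsterType z Q) (s : G) (hsQ : ∃ hsc : s ∈ Subgroup.centralizer ({z} : Set G), (⟨s, hsc⟩ : Subgroup.centralizer ({z} : Set G)) ∈ Q) (hs : IsConj z s) (hs1 : s ≠ z) (g : G) (hg : g * z * g⁻¹ = s) (X E : Subgroup ((Subgroup.centralizer ({z} : Set G)) ⧸ Q)) (hX : X = ((Subgroup.centralizer ({z} : Set G) ⊓ Subgroup.centralizer ({s} : Set G)).subgroupOf (Subgroup.centralizer ({z} : Set G))).map (QuotientGroup.mk' Q)) (hE : E = (((Q.map (Subgroup.centralizer ({z} : Set G)).subtype).map (MulAut.conj g).toMonoidHom ⊓ Subgroup.centralizer ({z} : Set G)).subgroupOf (Subgroup.centralizer ({z} : Set G))).map (QuotientGroup.mk' Q)) : E ≤ X ∧ (∀ x ∈ X, ∀ y ∈ E, x * y * x⁻¹ ∈ E) ∧ Cfsg.IsElementaryAbelian 2 E ∧ Nat.card E = 2 ^ 11 ∧ ∃ K : Subgroup ((Subgroup.centralizer ({z} : Set G)) ⧸ Q), K ≤ X ∧ E ⊓ K = ⊥ ∧ E ⊔ K = X ∧ Nonempty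 (K ≃* Cfsg.M24) := by
  obtain ⟨hS, e, ψ, hψ⟩ := hM
  have h := mi hS hψ
  obtain ⟨v, g0, hv, h8, hg0, h2, hb⟩ := h.main hg (mem_PG.2 hsQ) hs1
  have hinj : Function.Injective (e : (Subgroup.centralizer ({z} : Set G)) ⧸ Q →* Co1Q) := e.injective
  have hXe : X.map (e : (Subgroup.centralizer ({z} : Set G)) ⧸ Q →* Co1Q) = (CS v).map cq := by
    rw [← h.image_cent hv (Or.inr (Or.inr h8)), hX, Subgroup.map_map]
    rfl
  have hEe : E.map (e : (Subgroup.centralizer ({z} : Set G)) ⧸ Q →* Co1Q) = Sg.map (fc g0) := by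
    rw [← hb, hE, Subgroup.map_map]
    rfl
  have hle : ∀ A B : Subgroup ((Subgroup.centralizer ({z} : Set G)) ⧸ Q),
      A.map (e : (Subgroup.centralizer ({z} : Set G)) ⧸ Q →* Co1Q) ≤
        B.map (e : (Subgroup.centralizer ({z} : Set G)) ⧸ Q →* Co1Q) → A ≤ B := by
    intro A B hAB
    rwa [Subgroup.map_le_map_iff_of_injective hinj] at hAB
  have heq : ∀ A B : Subgroup ((Subgroup.centralizer ({z} : Set G)) ⧸ Q),
      A.map (e : (Subgroup.centralizer ({z} : Set G)) ⧸ Q →* Co1Q) =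
        B.map (e : (Subgroup.centralizer ({z} : Set G)) ⧸ Q →* Co1Q) → A = B := by
    intro A B hAB
    exact le_antisymm (hle _ _ hAB.le) (hle _ _ hAB.ge)
  have hK : ((KM g0).comap (e : (Subgroup.centralizer ({z} : Set G)) ⧸ Q →* Co1Q)).map
      (e : (Subgroup.centralizer ({z} : Set G)) ⧸ Q →* Co1Q) = KM g0 := by
    apply Subgroup.map_comap_eq_self_of_surjective
    exact e.surjective
  refine ⟨?_, ?_, ⟨⟨⟨?_⟩⟩, ?_⟩, ?_, (KM g0).comap (e : (Subgroup.centralizer ({z} : Set G)) ⧸ Q →* Co1Q),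
    ?_, ?_, ?_, ?_⟩
  · apply hle
    rw [hXe, hEe]
    exact Sg_le hg0
  · intro x hx y hy
    rw [hX] at hx
    rw [hE] at hy ⊢
    obtain ⟨a, ha, rfl⟩ := hx
    obtain ⟨b, hb, rfl⟩ := hy
    refine ⟨a * b * a⁻¹, ⟨?_, (a * b * a⁻¹).2⟩, by rw [map_mul, map_mul, map_inv]⟩
    exact h.cj_norm hg ha.2 hb.1
  · rintro ⟨a, ha⟩ ⟨b, hb⟩
    apply Subtype.ext
    apply hinj
    show (e : (Subgroup.centralizer ({z} : Set G)) ⧸ Q →* Co1Q) (a * b) =
      (e : (Subgroup.centralizer ({z} : Set G)) ⧸ Q →* Co1Q) (b * a)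
    rw [map_mul, map_mul]
    apply Sg_map_comm g0
    · rw [← hEe]; exact ⟨a, ha, rfl⟩
    · rw [← hEe]; exact ⟨b, hb, rfl⟩
  · intro a ha
    apply hinj
    rw [map_pow, map_one, pow_two]
    apply Sg_map_sq g0
    rw [← hEe]; exact ⟨a, ha, rfl⟩
  · have h3 := Nat.card_congr (Subgroup.equivMapOfInjective E _ hinj).toEquiv
    rw [h3, hEe, ← hb]
    exact h.card_bImg hg (mem_PG.2 hsQ) hs1
  · apply hle
    rw [hXe, hK]
    exact KM_le hg0
  · apply heq
    rw [Subgroup.map_inf _ _ _ hinj, hEe, hK, Sg_inf_KM, Subgroup.map_bot]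
  · apply heq
    rw [Subgroup.map_sup, hEe, hK, hXe]
    exact Sg_sup_KM hg0
  · obtain ⟨k⟩ := KM_equiv g0
    exact ⟨((Subgroup.equivMapOfInjective _ _ hinj).trans (MulEquiv.subgroupCongr hK)).trans k⟩

end Cfsg.Agent.S5410
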