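import Cfsg.Statements.S5411
import Cfsg.Agent.H29.Mon5

set_option autoImplicit false
open Cfsg

namespace Cfsg.Agent.S5411

open Cfsg.Agent.H29 Cfsg.Agent.H7

/-- Let G be a finite group of Monster type at the involution z with Q the extraspecial normal subgroup of order 2^25 of C = C_G(z) (so C/Q is identified with the first Conway group with Q modulo its centre the Leech lattice modulo 2, and z is not weakly closed in Q). Then C acts transitively by conjugation on the involutions of Q that are not conjugate to z in G. -/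
theorem result {G : Type*} [Group G] [Finite G] (z : G) (Q : Subgroup (Subgroup.centralizer ({z} : Set G))) [Q.Normal] (hM : Cfsg.IsOfMonsterType z Q) (s t : G) (hsQ : ∃ hsc : s ∈ Subgroup.centralizer ({z} : Set G), (⟨s, hsc⟩ : Subgroup.centralizer ({z} : Set G)) ∈ Q) (htQ : ∃ htc : t ∈ Subgroup.centralizer ({z} : Set G), (⟨t, htc⟩ : Subgroup.centralizer ({z} : Set G)) ∈ Q) (hs2 : orderOf s = 2) (ht2 : orderOf t = 2) (hs : ¬ IsConj z s) (ht : ¬ IsConj z t) : ∃ h ∈ Subgroup.centralizer ({z} : Set G), h * s * h⁻¹ = t := by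
  obtain ⟨hS, e, ψ, hψ⟩ := hM
  have h := mi hS hψ
  obtain ⟨g, r, hg, hr, hrz⟩ := exists_s hS
  have hc : ∀ x : G, ¬ IsConj z x → ¬ ∃ k : G, k * z * k⁻¹ = x := by
    intro x hx hk
    apply hx
    rw [isConj_iff]
    exact hk
  have h2 : ∀ x : G, orderOf x = 2 → x * x = 1 ∧ x ≠ 1 := by
    intro x hx
    refine ⟨?_, ?_⟩
    · rw [← pow_two, ← hx, pow_orderOf_eq_one]
    · rintro rfl
      rw [orderOf_one] at hx
      norm_num at hx
  obtain ⟨v, hv, hv4⟩ := h.norm4_of hg hr hrz (mem_PG.2 hsQ) (h2 s hs2).1 (h2 s hs2).2 (hc s hs)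
  obtain ⟨w, hw, hw4⟩ := h.norm4_of hg hr hrz (mem_PG.2 htQ) (h2 t ht2).1 (h2 t ht2).2 (hc t ht)
  obtain ⟨k, hk⟩ := h.trans hv hw (by rw [hv4, hw4]) (Or.inl hv4)
  exact ⟨k, k.2, hk⟩

end Cfsg.Agent.S5411
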