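import Cfsg.Statements.S5412
import Cfsg.Agent.H29.Mon8

set_option autoImplicit false
open Cfsg

namespace Cfsg.Agent.S5412

open Cfsg.Agent.H29 Cfsg.Agent.H7

/-- Let G be a finite group of Monster type at the involution z with Q the extraspecial normal subgroup of order 2^25 of C = C_G(z) (so C/Q is identified with the first Conway group with Q modulo its centre the Leech lattice modulo 2, and z is not weakly closed in Q). Let t be an involution of Q not conjugate to z in G. Then the centralizer of t modulo the subgroup generated by t is a group of Baby Monster type (an involution whose centralizer D has generalized Fitting subgroup R extraspecial of order 2^23 with D/R identified with the second Conway group acting on R modulo its centre as on the vectors of the Leech lattice modulo 2 orthogonal to a short vector, modulo that vector; the involution not weakly closed in R). -/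
theorem result {G : Type*} [Group G] [Finite G] (z : G) (Q : Subgroup (Subgroup.centralizer ({z} : Set G))) [Q.Normal] (hM : Cfsg.IsOfMonsterType z Q) (t : G) (htQ : ∃ htc : t ∈ Subgroup.centralizer ({z} : Set G), (⟨t, htc⟩ : Subgroup.centralizer ({z} : Set G)) ∈ Q) (ht2 : orderOf t = 2) (ht : ¬ IsConj z t) [hn : ((Subgroup.zpowers t).subgroupOf (Subgroup.centralizer ({t} : Set G))).Normal] : Cfsg.IsOfBabyMonsterType (↥(Subgroup.centralizer ({t} : Set G)) ⧸ (Subgroup.zpowers t).subgroupOf (Subgroup.centralizer ({t} : Set G))) := by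
  obtain ⟨hS, e, ψ, hψ⟩ := hM
  have h := mi hS hψ
  obtain ⟨g, r, hg, hr, hrz⟩ := exists_s hS
  have htt : t * t = 1 := by rw [← pow_two, ← ht2, pow_orderOf_eq_one]
  have ht1 : t ≠ 1 := by
    rintro rfl
    rw [orderOf_one] at ht2
    norm_num at ht2
  have htP : t ∈ PG Q := mem_PG.2 htQ
  have hzt : t * z = z * t := h.xs.z_comm t htP
  obtain ⟨v, hv, hv4⟩ := h.norm4_of hg hr hrz htP htt ht1 (by
    intro hk; apply ht; rw [isConj_iff]; exact hk)
  obtain ⟨g0, hg0⟩ := co0_trans (v := Cfsg.Spor.leechU) (w := v) (by rw [leechU_norm, hv4])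
    (Or.inl leechU_norm)
  have h' := h.twist g0
  have ht' : (fun v x => Rel ψ (g0 • v) x) Cfsg.Spor.leechU t := by
    show Rel ψ (g0 • Cfsg.Spor.leechU) t
    rw [hg0]; exact hv
  obtain ⟨k, hkt, hkP, hkz⟩ := h.exists_cent hg hr hrz hv hv4
  have hnc := h.not_conj_of_norm4 (h.R_mul_z hv) hv4
  set π := QuotientGroup.mk' ((Subgroup.zpowers t).subgroupOf (Subgroup.centralizer ({t} : Set G)))
    with hπ
  have hmk : ∀ a b : Subgroup.centralizer ({t} : Set G), π a = π b ↔ (b : G) = a ∨ (b : G) = a * t := by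
    intro a b
    have h1 : π a = π b ↔ (a : G)⁻¹ * b ∈ Subgroup.zpowers t := by
      rw [hπ]
      show (QuotientGroup.mk a : _ ⧸ _) = QuotientGroup.mk b ↔ _
      rw [QuotientGroup.eq, Subgroup.mem_subgroupOf]
      rfl
    rw [h1, mem_zpowers_of_sq htt, inv_mul_eq_iff_eq_mul, inv_mul_eq_iff_eq_mul, mul_one]
  have hzC : z ∈ Subgroup.centralizer ({t} : Set G) := by
    rw [Subgroup.mem_centralizer_singleton_iff]; exact hzt.symm
  have hkC : k ∈ Subgroup.centralizer ({t} : Set G) := by
    rw [Subgroup.mem_centralizer_singleton_iff]; exact hkt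
  set W : Subgroup G := Subgroup.centralizer ({z} : Set G) ⊓ Subgroup.centralizer ({t} : Set G) with hWd
  have hW : ∀ x, x ∈ W ↔ x * z = z * x ∧ x * t = t * x := by
    intro x
    rw [hWd, Subgroup.mem_inf, Subgroup.mem_centralizer_singleton_iff,
      Subgroup.mem_centralizer_singleton_iff]
  have hWt : W ≤ Subgroup.centralizer ({t} : Set G) := inf_le_right
  let φ : W →* Subgroup.centralizer ({π ⟨z, hzC⟩} : Set (↥(Subgroup.centralizer ({t} : Set G)) ⧸
      (Subgroup.zpowers t).subgroupOf (Subgroup.centralizer ({t} : Set G)))) :=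
    (π.comp (Subgroup.inclusion hWt)).codRestrict _ (by
      intro w
      rw [Subgroup.mem_centralizer_singleton_iff]
      show π (Subgroup.inclusion hWt w) * π ⟨z, hzC⟩ = π ⟨z, hzC⟩ * π (Subgroup.inclusion hWt w)
      rw [← map_mul, ← map_mul]
      congr 1
      apply Subtype.ext
      exact ((hW w).1 w.2).1)
  have hφv : ∀ w : W, (φ w : _ ⧸ _) = π (Subgroup.inclusion hWt w) := fun w => rfl
  have hφs : Function.Surjective φ := by
    rintro ⟨x, hx⟩
    obtain ⟨a, rfl⟩ := QuotientGroup.mk'_surjective _ x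
    rw [Subgroup.mem_centralizer_singleton_iff] at hx
    have hx' : π (a * ⟨z, hzC⟩) = π (⟨z, hzC⟩ * a) := by
      rw [map_mul, map_mul]; exact hx
    rw [hmk] at hx'
    have hat : (a : G) * t = t * a := Subgroup.mem_centralizer_singleton_iff.1 a.2
    have haz : (a : G) * z = z * a := by
      rcases hx' with h1 | h1
      · exact (show z * (a : G) = a * z from h1).symm
      · exfalso
        have h2 : z * (a : G) = a * z * t := h1
        apply hnc
        refine ⟨(a : G)⁻¹, ?_⟩
        rw [inv_inv, mul_assoc, h2, hzt]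
        group
    refine ⟨⟨a, (hW _).2 ⟨haz, hat⟩⟩, ?_⟩
    apply Subtype.ext
    rfl
  have hφ : ∀ a b : W, φ a = φ b ↔ (b : G) = a ∨ (b : G) = a * t := by
    intro a b
    exact Subtype.ext_iff.trans (hmk (Subgroup.inclusion hWt a) (Subgroup.inclusion hWt b))
  have hkzt : k * z * k⁻¹ * t = t * (k * z * k⁻¹) := by
    have h1 : k⁻¹ * t = t * k⁻¹ := by
      rw [inv_mul_eq_iff_eq_mul, ← mul_assoc, hkt]; group
    calc k * z * k⁻¹ * t = k * z * (k⁻¹ * t) := by group
      _ = k * (z * t) * k⁻¹ := by rw [h1]; group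
      _ = k * (t * z) * k⁻¹ := by rw [hzt]
      _ = (k * t) * z * k⁻¹ := by group
      _ = t * (k * z * k⁻¹) := by rw [hkt]; group
  have hkW : k * z * k⁻¹ ∈ W := (hW _).2 ⟨h.xs.z_comm _ hkP, hkzt⟩
  refine baby_abs h' hg hr hrz ht' (π ⟨z, hzC⟩) W hW φ hφs hφ ⟨z, (hW z).2 ⟨rfl, hzt.symm⟩⟩
    ⟨t, (hW t).2 ⟨hzt, rfl⟩⟩ rfl rfl rfl (π ⟨k, hkC⟩) ⟨k * z * k⁻¹, hkW⟩ hkP ?_ ?_
  · rw [← map_mul, ← map_inv, ← map_mul]
    rfl
  · rw [← map_mul, ← map_inv, ← map_mul, Ne, eq_comm, hmk]
    rintro (h1 | h1)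
    · exact hkz h1
    · have h2 : k * z * k⁻¹ = z * t := h1
      apply hnc
      exact ⟨k, by rw [h2, hzt]⟩

end Cfsg.Agent.S5412
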