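import Cfsg.Statements.S5421
import Cfsg.Agent.H29.XS2
import Cfsg.Agent.H1.Cores

set_option autoImplicit false
open Cfsg

namespace Cfsg.Agent.S5421

/-- Let Q be an extraspecial 2-subgroup of the finite group G whose centralizer in G is its centre Z and which is normal in the centralizer of Z. If some involution b of Q outside Z has Z inside the largest normal 2-subgroup of the centralizer of b, then Q is a large extraspecial 2-subgroup of G. -/
theorem result {G : Type*} [Group G] [Finite G] (Q : Subgroup G) (hL1 : Cfsg.IsExtraspecial 2 ↥Q) (hL2 : Subgroup.centralizer (Q : Set G) = ((Subgroup.center ↥Q).map Q.subtype)) (hL3 : Subgroup.centralizer (((Subgroup.center ↥Q).map Q.subtype) : Set G) ≤ Subgroup.normalizer (Q : Set G)) (b : G) (hbQ : b ∈ Q) (hbZ : b ∉ ((Subgroup.center ↥Q).map Q.subtype)) (hb : orderOf b = 2) (hZ : ((Subgroup.center ↥Q).map Q.subtype) ≤ (Cfsg.pCore 2 ↥(Subgroup.centralizer ({b} : Set G))).map (Subgroup.centralizer ({b} : Set G)).subtype) : Cfsg.IsLargeExtraspecial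 Q := by
  obtain ⟨z, h⟩ := H29.nxs_of_isExtraspecial Q hL1 hL2 hL3
  refine ⟨hL1, hL2, hL3, ?_⟩
  rw [h.center_eq] at hbZ hZ
  have hb2 : b * b = 1 := by rw [← pow_two, ← hb]; exact pow_orderOf_eq_one b
  apply h.odd_of_invol hbQ (fun h1 => hbZ (by rw [h1]; exact one_mem _))
    (fun h1 => hbZ (by rw [h1]; exact Subgroup.mem_zpowers z)) hb2
    (P := (Cfsg.pCore 2 ↥(Subgroup.centralizer ({b} : Set G))).map
      (Subgroup.centralizer ({b} : Set G)).subtype)
  · exact (H1.pCore_isPGroup 2 _).map _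
  · exact hZ (Subgroup.mem_zpowers z)
  · rintro x hx _ ⟨y, hy, rfl⟩
    have hn := H1.pCore_normal 2 ↥(Subgroup.centralizer ({b} : Set G))
    have hx' : x ∈ Subgroup.centralizer ({b} : Set G) :=
      Subgroup.mem_centralizer_singleton_iff.2 hx
    exact ⟨⟨x, hx'⟩ * y * ⟨x, hx'⟩⁻¹, hn.conj_mem y hy _, rfl⟩

end Cfsg.Agent.S5421
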