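import Cfsg.Statements.S5426
import Cfsg.Agent.H2.LX2
import Cfsg.Agent.H10.Comp2
import Cfsg.Agent.H18.FrattiniP

set_option autoImplicit false
set_option linter.style.haveILetI false
set_option linter.unusedVariables false
set_option linter.unusedSectionVars false
open Cfsg

namespace Cfsg.Agent.S5426

open Cfsg.Agent Cfsg.Agent.H29 Cfsg.Agent.H2.LX
open Subgroup
open scoped Pointwise

theorem z_mem {G : Type*} [Group G] [Finite G] {Q : Subgroup G} {z : G} (h : NXS Q z)
    (hodd : ∀ K : Subgroup G, Odd (Nat.card K) → Q ≤ normalizer (K : Set G) → K = ⊥) :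
    ∃ T : Sylow 2 G, (∀ y ∈ (T : Subgroup G), y * z = z * y) ∧ ∀ N : Subgroup G, N.Normal → N ≠ ⊥ → z ∈ N := by
  haveI : Fact (Nat.Prime 2) := ⟨Nat.prime_two⟩
  obtain ⟨T, hQT⟩ := h.hp.exists_le_sylow
  have hcT : ∀ x : G, (∀ y ∈ (T : Subgroup G), x * y = y * x) → x = 1 ∨ x = z := fun x hx =>
    h.cent_G x fun y hy => hx y (hQT hy)
  have main : ∀ N : Subgroup G, N.Normal → N ≠ ⊥ → z ∈ N ∧ (∀ y ∈ (T : Subgroup G), y * z = z * y) := by
    intro N hN hb
    have heven : 2 ∣ Nat.card N := by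
      by_contra hno
      apply hb
      apply hodd N
      · rwa [← Nat.not_even_iff_odd, even_iff_two_dvd]
      · rw [normalizer_eq_top]; exact le_top
    obtain ⟨y, hy⟩ := exists_prime_orderOf_dvd_card' (G := N) 2 heven
    have hyo : orderOf (y : G) = 2 := by rw [Subgroup.orderOf_coe]; exact hy
    have hyp : IsPGroup 2 (zpowers (y : G)) := IsPGroup.of_card (n := 1) (by rw [Nat.card_zpowers, hyo, pow_one])
    obtain ⟨S, hS⟩ := hyp.exists_le_sylow
    obtain ⟨g, hg⟩ := MulAction.exists_smul_eq G S T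
    have hgT : g * (y : G) * g⁻¹ ∈ (T : Subgroup G) := by
      rw [← hg]
      show g * (y : G) * g⁻¹ ∈ MulAut.conj g • (S : Subgroup G)
      rw [Subgroup.mem_pointwise_smul_iff_inv_smul_mem]
      have h1 : (MulAut.conj g)⁻¹ • (g * (y : G) * g⁻¹) = y := by
        rw [← map_inv]
        show g⁻¹ * (g * (y : G) * g⁻¹) * g⁻¹⁻¹ = y
        group
      rw [h1]
      exact hS (mem_zpowers _)
    have hNT : ((N.subgroupOf (T : Subgroup G))) ≠ ⊥ := by
      intro h1
      rw [subgroupOf_eq_bot, disjoint_iff] at h1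
      have h2 : g * (y : G) * g⁻¹ ∈ N ⊓ (T : Subgroup G) := ⟨hN.conj_mem _ y.2 g, hgT⟩
      rw [h1, mem_bot] at h2
      have h3 : (y : G) = 1 := by
        calc (y : G) = g⁻¹ * (g * y * g⁻¹) * g := by group
          _ = 1 := by rw [h2]; group
      rw [h3, orderOf_one] at hyo
      omega
    have hmeet := H2.inf_center_ne_bot_of_normal (p := 2) T.2 (N.subgroupOf (T : Subgroup G)) hNT
    obtain ⟨⟨t, ht⟩, ht0⟩ := Subgroup.ne_bot_iff_exists_ne_one.1 hmeet
    have ht1 : t ≠ 1 := fun h => ht0 (Subtype.ext h)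
    have htz : (t : G) = z := by
      rcases hcT (t : G) (fun y hy => by
        have := mem_center_iff.1 (mem_inf.1 ht).2 ⟨y, hy⟩
        exact (congrArg Subtype.val this).symm) with h1 | h1
      · exact absurd (Subtype.ext h1) ht1
      · exact h1
    refine ⟨by rw [← htz]; exact mem_subgroupOf.1 (mem_inf.1 ht).1, ?_⟩
    intro y hy
    have := mem_center_iff.1 (mem_inf.1 ht).2 ⟨y, hy⟩
    have h2 := congrArg Subtype.val this
    rw [← htz]
    exact h2
  have htop : (⊤ : Subgroup G) ≠ ⊥ := by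
    intro h1
    apply h.z_ne
    have : z ∈ (⊤ : Subgroup G) := trivial
    rwa [h1, mem_bot] at this
  exact ⟨T, (main ⊤ inferInstance htop).2, fun N hN hb => (main N hN hb).1⟩

theorem sim2 {L : Type*} [Group L] [Finite L] [IsSimpleGroup L] {a : L} (ha : a * a = 1) (ha1 : a ≠ 1)
    (hc : ∀ x, x * a = a * x → x = 1 ∨ x = a) : IsMulCommutative L := by
  haveI : Fact (Nat.Prime 2) := ⟨Nat.prime_two⟩
  have hao : orderOf a = 2 := orderOf_eq_prime (by rw [pow_two, ha]) ha1
  have hap : IsPGroup 2 (zpowers a) := IsPGroup.of_card (n := 1) (by rw [Nat.card_zpowers, hao, pow_one])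
  obtain ⟨S, hS⟩ := hap.exists_le_sylow
  have haS : a ∈ (S : Subgroup L) := hS (mem_zpowers a)
  haveI : Nontrivial S := ⟨⟨⟨a, haS⟩, 1, fun h => ha1 (congrArg Subtype.val h)⟩⟩
  have hSp : IsPGroup 2 (S : Subgroup L) := S.2
  haveI := hSp.center_nontrivial
  obtain ⟨c, hc1⟩ := exists_ne (1 : center (S : Subgroup L))
  have hcc := fun y : (S : Subgroup L) => mem_center_iff.1 c.2 y
  have hca : ((c : S) : L) = a := by
    rcases hc ((c : S) : L) (congrArg Subtype.val (hcc ⟨a, haS⟩)).symm with h1 | h1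
    · exact absurd (Subtype.ext (Subtype.ext h1)) hc1
    · exact h1
  have hSe : ∀ x ∈ (S : Subgroup L), x = 1 ∨ x = a := by
    intro x hx
    apply hc
    have := congrArg Subtype.val (hcc ⟨x, hx⟩)
    rw [← hca]
    exact this
  have hN : normalizer ((S : Subgroup L) : Set L) ≤ centralizer (S : Set L) := by
    intro n hn
    rw [mem_centralizer_iff]
    intro y hy
    have hna : n * a * n⁻¹ = a := by
      rcases hSe _ ((mem_normalizer_iff.1 hn a).1 haS) with h1 | h1
      · exfalso; apply ha1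
        calc a = n⁻¹ * (n * a * n⁻¹) * n := by group
          _ = 1 := by rw [h1]; group
      · exact h1
    rcases hSe y hy with rfl | rfl
    · simp
    · calc y * n = (n * y * n⁻¹) * n := by rw [hna]
        _ = n * y := by group
  have hcomp := MonoidHom.ker_transferSylow_isComplement' S hN
  rcases (inferInstance : (MonoidHom.transferSylow S hN).ker.Normal).eq_bot_or_eq_top with h1 | h1
  · rw [h1, isComplement'_bot_left] at hcomp
    have hall : ∀ x : L, x = 1 ∨ x = a := fun x => hSe x (by rw [hcomp]; trivial)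
    refine ⟨⟨fun x y => ?_⟩⟩
    rcases hall x with rfl | rfl <;> rcases hall y with rfl | rfl <;> simp
  · rw [h1, isComplement'_top_left] at hcomp
    rw [hcomp, mem_bot] at haS
    exact absurd haS ha1

/-- Let Q be a large extraspecial 2-subgroup of the finite group G (extraspecial; centralizer equal to its centre; normal in the centralizer of its centre; normalizing no non-trivial subgroup of odd order) with centre generated by z, and let M be the normal closure of z in G. Then one of the following holds: Q is normal in G; or M is abelian and the generalized Fitting subgroup of G is its largest normal 2-subgroup; or M is the generalized Fitting subgroup of G and is a non-abelian simple group; or M is the generalized Fitting subgroup of G and is the direct product of a non-abelian simple subgroup L and its conjugate u L u⁻¹ by some u in Q (the two meet trivially and commute elementwise), with z = z₁ (u z₁ u⁻¹) for some z₁ in L whose centralizer in L is a Sylow 2-subgroup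 of L with Frattini subgroup inside the subgroup generated by z₁, and Q is not the largest normal 2-subgroup of the centralizer of z. -/
theorem result {G : Type*} [Group G] [Finite G] (Q : Subgroup G) (hQ : Cfsg.IsLargeExtraspecial Q) (z : G) (hz : ((Subgroup.center ↥Q).map Q.subtype) = Subgroup.zpowers z) (M : Subgroup G) (hM : M = Subgroup.normalClosure ({z} : Set G)) : Q.Normal ∨ (IsMulCommutative ↥M ∧ Cfsg.generalizedFittingSubgroup G = Cfsg.pCore 2 G) ∨ (M = Cfsg.generalizedFittingSubgroup G ∧ IsSimpleGroup ↥M ∧ ¬ IsMulCommutative ↥M) ∨ (M = Cfsg.generalizedFittingSubgroup G ∧ ∃ (L : Subgroup G) (u : G), u ∈ Q ∧ IsSimpleGroup ↥L ∧ ¬ IsMulCommutative ↥L ∧ L ⊓ (L).map (MulAut.conj u).toMonoidHom = ⊥ ∧ (∀ x ∈ L, ∀ y ∈ (L).map (MulAut.conj u).toMonoidHom, x * y = y * x) ∧ L ⊔ (L).map (MulAut.conj u).toMonoidHom = M ∧ ∃ z₁ ∈ L, z = z₁ * (u * z₁ * u⁻¹) ∧ (∃ R : Sylow 2 ↥L, (R : Subgroup ↥L) = (Subgroup.centralizer ({z₁} : Set G)).subgroupOf L ∧ (frattini ↥(R : Subgroup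 ↥L)).map ((L.subtype).comp (R : Subgroup ↥L).subtype) ≤ Subgroup.zpowers z₁) ∧ Q ≠ (Cfsg.pCore 2 ↥(Subgroup.centralizer ({z} : Set G))).map (Subgroup.centralizer ({z} : Set G)).subtype) := by
  haveI : Fact (Nat.Prime 2) := ⟨Nat.prime_two⟩
  obtain ⟨z', h'⟩ := lxs_of_isLargeExtraspecial Q hQ
  have hzz' : z ∈ zpowers z' := by rw [← h'.center_eq, hz]; exact mem_zpowers z
  have hz'z : z' ∈ zpowers z := by rw [← hz, h'.center_eq]; exact mem_zpowers z'
  have hze : z = z' := by
    rcases (H29.mem_zpowers_of_sq h'.z_sq).1 hzz' with h1 | h1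
    · exfalso
      rw [h1, zpowers_one_eq_bot, mem_bot] at hz'z
      exact h'.z_ne hz'z
    · exact h1
  subst hze
  have h : NXS Q z := h'.toNXS
  have hodd := h'.odd
  obtain ⟨T, hTz, hzN⟩ := z_mem h hodd
  -- a component does not centralize `z`
  have hQs : Group.IsSolvable Q := by
    haveI := h.hp.isNilpotent
    infer_instance
  have hA : ∀ K : Subgroup G, IsComponent K → (∀ x ∈ K, x * z = z * x) → False := by
    intro K hK hc
    have h1 : ⁅Q, K⁆ = ⊥ := H10.comp_commutes_solvable hK hQs (fun x hx => (h.norm x).2 (hc x hx))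
    rw [commutator_eq_bot_iff_le_centralizer] at h1
    apply H10.comp_not_comm hK
    have h2 : ∀ x ∈ K, x = 1 ∨ x = z := by
      intro x hx
      apply h.cent_G
      intro y hy
      exact (mem_centralizer_iff.1 (h1 hy) x hx)
    refine ⟨⟨fun x y => Subtype.ext ?_⟩⟩
    rcases h2 x x.2 with h3 | h3 <;> rcases h2 y y.2 with h4 | h4 <;> simp [h3, h4]
  have hMn : M.Normal := by rw [hM]; infer_instance
  have hzM : z ∈ M := by rw [hM]; exact subset_normalClosure (Set.mem_singleton z)
  have hpodd : ∀ p : Nat.Primes, (p : ℕ) ≠ 2 → Cfsg.pCore (p : ℕ) G = ⊥ := by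
    intro p hp
    haveI : Fact (p : ℕ).Prime := ⟨p.2⟩
    haveI := H1.pCore_normal (p : ℕ) G
    apply hodd
    · obtain ⟨k, hk⟩ := IsPGroup.iff_card.1 (H1.pCore_isPGroup (p : ℕ) G)
      rw [hk]
      exact (p.2.odd_of_ne_two hp).pow
    · rw [normalizer_eq_top]; exact le_top
  right
  by_cases hU : Cfsg.pCore 2 G ≠ ⊥
  · left
    haveI hUn : (Cfsg.pCore 2 G).Normal := H1.pCore_normal 2 G
    have hUp := H1.pCore_isPGroup 2 G
    have hZn : ((center (Cfsg.pCore 2 G)).map (Cfsg.pCore 2 G).subtype).Normal := inferInstance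
    have hZne : ((center (Cfsg.pCore 2 G)).map (Cfsg.pCore 2 G).subtype) ≠ ⊥ := by
      intro h1
      haveI : Nontrivial (Cfsg.pCore 2 G) := (nontrivial_iff_ne_bot _).2 hU
      haveI := hUp.center_nontrivial
      obtain ⟨c, hc⟩ := exists_ne (1 : center (Cfsg.pCore 2 G))
      apply hc
      have h2 : ((c : Cfsg.pCore 2 G) : G) ∈ (center (Cfsg.pCore 2 G)).map (Cfsg.pCore 2 G).subtype :=
        mem_map_of_mem _ c.2
      rw [h1, mem_bot] at h2
      exact Subtype.ext (Subtype.ext h2)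
    have hzZ := hzN _ hZn hZne
    have hMZ : M ≤ (center (Cfsg.pCore 2 G)).map (Cfsg.pCore 2 G).subtype := by
      rw [hM]
      exact normalClosure_le_normal (by simpa using hzZ)
    constructor
    · refine ⟨⟨fun x y => Subtype.ext ?_⟩⟩
      obtain ⟨x', hx', hxe⟩ := hMZ x.2
      obtain ⟨y', hy', hye⟩ := hMZ y.2
      show (x : G) * y = y * x
      rw [← hxe, ← hye]
      exact (congrArg Subtype.val (mem_center_iff.1 hx' y')).symm
    · have hlay : layer G = ⊥ := by
        rw [H10.layer_eq_bot_iff]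
        intro K hK
        apply hA K hK
        have hUs : Group.IsSolvable (Cfsg.pCore 2 G) := by
          haveI := hUp.isNilpotent
          infer_instance
        have h1 : ⁅Cfsg.pCore 2 G, K⁆ = ⊥ := H10.comp_commutes_solvable hK hUs
          (by rw [normalizer_eq_top]; exact le_top)
        rw [commutator_eq_bot_iff_le_centralizer] at h1
        intro x hx
        have hzU : z ∈ Cfsg.pCore 2 G := map_subtype_le _ hzZ
        exact (mem_centralizer_iff.1 (h1 hzU) x hx)
      unfold generalizedFittingSubgroup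
      rw [hlay, bot_sup_eq, H1.fitting_eq_iSup_pCore]
      apply le_antisymm
      · apply iSup_le
        intro p
        by_cases hp : (p : ℕ) = 2
        · rw [hp]
        · rw [hpodd p hp]; exact bot_le
      · exact le_iSup (fun p : Nat.Primes => Cfsg.pCore (p : ℕ) G) ⟨2, Nat.prime_two⟩
  right
  push Not at hU
  have hfit : fittingSubgroup G = ⊥ := by
    rw [H1.fitting_eq_iSup_pCore, eq_bot_iff]
    apply iSup_le
    intro p
    by_cases hp : (p : ℕ) = 2
    · rw [hp, hU]
    · rw [hpodd p hp]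
  have hF : generalizedFittingSubgroup G = layer G := by
    unfold generalizedFittingSubgroup
    rw [hfit, sup_bot_eq]
  haveI hLn : (layer G).Normal := H10.layer_normal G
  have hlne : layer G ≠ ⊥ := by
    intro h1
    have h2 := H10.centralizer_genFitting_le (G := G)
    rw [hF, h1] at h2
    apply h.z_ne
    have h3 : z ∈ centralizer ((⊥ : Subgroup G) : Set G) := by
      rw [mem_centralizer_iff]
      intro y hy
      have : y = 1 := hy
      rw [this]; simp
    exact mem_bot.1 (h2 h3)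
  have hcenter : ∀ K : Subgroup G, IsComponent K → ∀ x ∈ K, (∀ y ∈ K, y * x = x * y) → x = 1 := by
    intro K hK x hx hc
    have h1 := H10.center_subnormal_le_fitting hK.1
    have h2 : x ∈ (center K).map K.subtype := H10.mem_center_map_iff.2 ⟨hx, hc⟩
    have h3 := h1 h2
    rw [hfit, mem_bot] at h3
    exact h3
  have hsimple : ∀ K : Subgroup G, IsComponent K → IsSimpleGroup K := by
    intro K hK
    haveI : Nontrivial K := (nontrivial_iff_ne_bot K).2 (H10.comp_ne_bot hK)
    refine ⟨fun N hN => ?_⟩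
    rcases H10.qs_normal_eq_top_or_le_center hK.2 hN with h1 | h1
    · exact Or.inr h1
    · left
      rw [eq_bot_iff_forall]
      intro x hx
      apply Subtype.ext
      apply hcenter K hK x x.2
      intro y hy
      exact congrArg Subtype.val (mem_center_iff.1 (h1 hx) ⟨y, hy⟩)
  have hcomm : ∀ K L : Subgroup G, IsComponent K → IsComponent L → K ≠ L → ∀ x ∈ K, ∀ y ∈ L, x * y = y * x := by
    intro K L hK hL hne x hx y hy
    have h1 := H10.comp_commutes hK hL hne
    rw [commutator_eq_bot_iff_le_centralizer] at h1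
    exact (mem_centralizer_iff.1 (h1 hx) y hy).symm
  have hconj : ∀ (u : G) (K : Subgroup G), IsComponent K → IsComponent (K.map (MulAut.conj u).toMonoidHom) :=
    fun u K hK => H10.component_map_equiv (MulAut.conj u) hK
  have hmemconj : ∀ (u : G) (K : Subgroup G) (x : G), x ∈ K → u * x * u⁻¹ ∈ K.map (MulAut.conj u).toMonoidHom :=
    fun u K x hx => ⟨x, hx, rfl⟩
  have hdisj : ∀ K L : Subgroup G, IsComponent K → IsComponent L → K ≠ L → ∀ x, x ∈ K → x ∈ L → x = 1 := by
    intro K L hK hL hne x hxK hxL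
    exact hcenter K hK x hxK (fun y hy => hcomm K L hK hL hne y hy x hxL)
  have hdec : ∀ L : Subgroup G, IsComponent L → ∀ x ∈ layer G, ∃ a ∈ L, ∃ b : G, (∀ y ∈ L, b * y = y * b) ∧ a * b = x := by
    intro L hL x hx
    rw [← H10.compJoin_sup_compl {L}] at hx
    have hc := H10.compJoin_commute (S := {L}) (T := {L}ᶜ) (disjoint_compl_right)
    obtain ⟨a, ha, b, hb, he⟩ := (H10.mem_sup_iff_of_commutes hc).1 hx
    refine ⟨a, ?_, b, ?_, he⟩
    · have : H10.compJoin {L} ≤ L := by
        unfold H10.compJoin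
        apply sSup_le
        rintro K ⟨-, hK⟩
        rw [Set.mem_singleton_iff] at hK
        rw [hK]
      exact this ha
    · intro y hy
      rw [commutator_eq_bot_iff_le_centralizer] at hc
      have hy' : y ∈ H10.compJoin {L} := H10.le_compJoin hL (Set.mem_singleton L) hy
      exact (mem_centralizer_iff.1 (hc hy') b hb)
  have hzL : z ∈ layer G := hzN _ hLn hlne
  have hMF : M = layer G := by
    apply le_antisymm
    · rw [hM]; exact normalClosure_le_normal (by simpa using hzL)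
    · unfold layer
      apply sSup_le
      intro K hK
      rcases H10.comp_le_or_commutes_normal hK hMn with h1 | h1
      · exact h1
      · exfalso
        apply hA K hK
        rw [commutator_eq_bot_iff_le_centralizer] at h1
        intro x hx
        exact mem_centralizer_iff.1 (h1 hzM) x hx
  obtain ⟨L, hL⟩ : ∃ L : Subgroup G, IsComponent L := by
    by_contra hne
    push Not at hne
    exact hlne (H10.layer_eq_bot_iff.2 hne)
  rw [hF, ← hMF]
  haveI hLs := hsimple L hL
  have hLnc := H10.comp_not_comm hL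
  by_cases hone : ∀ K : Subgroup G, IsComponent K → K = L
  · left
    have hML : M = L := by
      rw [hMF]
      unfold layer
      apply le_antisymm
      · apply sSup_le
        intro K hK
        rw [hone K hK]
      · exact le_sSup hL
    rw [hML]
    exact ⟨rfl, hLs, hLnc⟩
  right
  push Not at hone
  obtain ⟨K0, hK0, hK0L⟩ := hone
  obtain ⟨a, haL, b, hbL, hab⟩ := hdec L hL z hzL
  have ha1 : a ≠ 1 := by
    intro h1
    apply hA L hL
    intro x hx
    rw [← hab, h1, one_mul]
    exact (hbL x hx).symm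
  have hazc : a * z = z * a := by
    rw [← hab]
    calc a * (a * b) = a * (b * a) := by rw [hbL a haL]
      _ = a * b * a := by group
  -- some element of `Q` moves `L`
  obtain ⟨u, huQ, huL⟩ : ∃ u ∈ Q, L.map (MulAut.conj u).toMonoidHom ≠ L := by
    by_contra hne
    push Not at hne
    have h1 : ∀ q ∈ Q, a * q = q * a := by
      intro q hq
      have h2 : q * a * q⁻¹ ∈ L := by rw [← hne q hq]; exact hmemconj q L a haL
      have h3 : ∀ y ∈ L, (q * b * q⁻¹) * y = y * (q * b * q⁻¹) := by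
        intro y hy
        have h4 : q⁻¹ * y * q ∈ L := by
          have := hmemconj q⁻¹ L y hy
          rw [hne q⁻¹ (Q.inv_mem hq), inv_inv] at this
          exact this
        calc (q * b * q⁻¹) * y = q * (b * (q⁻¹ * y * q)) * q⁻¹ := by group
          _ = q * ((q⁻¹ * y * q) * b) * q⁻¹ := by rw [hbL _ h4]
          _ = y * (q * b * q⁻¹) := by group
      have h5 : (q * a * q⁻¹) * (q * b * q⁻¹) = a * b := by
        calc (q * a * q⁻¹) * (q * b * q⁻¹) = q * (a * b) * q⁻¹ := by group
          _ = q * z * q⁻¹ := by rw [hab]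
          _ = z * q * q⁻¹ := by rw [h.z_comm q hq]
          _ = a * b := by rw [hab]; group
      have h6 : a⁻¹ * (q * a * q⁻¹) = b * (q * b * q⁻¹)⁻¹ := by
        calc a⁻¹ * (q * a * q⁻¹) = a⁻¹ * ((q * a * q⁻¹) * (q * b * q⁻¹)) * (q * b * q⁻¹)⁻¹ := by group
          _ = b * (q * b * q⁻¹)⁻¹ := by rw [h5]; group
      have h7 : a⁻¹ * (q * a * q⁻¹) = 1 := by
        apply hcenter L hL _ (L.mul_mem (L.inv_mem haL) h2)
        intro y hy
        rw [h6]
        have h8 : (q * b * q⁻¹)⁻¹ * y = y * (q * b * q⁻¹)⁻¹ := by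
          calc (q * b * q⁻¹)⁻¹ * y = (q * b * q⁻¹)⁻¹ * (y * (q * b * q⁻¹)) * (q * b * q⁻¹)⁻¹ := by group
            _ = (q * b * q⁻¹)⁻¹ * ((q * b * q⁻¹) * y) * (q * b * q⁻¹)⁻¹ := by rw [h3 y hy]
            _ = y * (q * b * q⁻¹)⁻¹ := by group
        calc y * (b * (q * b * q⁻¹)⁻¹) = (y * b) * (q * b * q⁻¹)⁻¹ := by group
          _ = b * (y * (q * b * q⁻¹)⁻¹) := by rw [← hbL y hy]; group
          _ = b * ((q * b * q⁻¹)⁻¹ * y) := by rw [h8]
          _ = b * (q * b * q⁻¹)⁻¹ * y := by group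
      have h9 : q * a * q⁻¹ = a := by
        calc q * a * q⁻¹ = a * (a⁻¹ * (q * a * q⁻¹)) := by group
          _ = a := by rw [h7, mul_one]
      calc a * q = (q * a * q⁻¹) * q := by rw [h9]
        _ = q * a := by group
    rcases h.cent_G a h1 with h2 | h2
    · exact ha1 h2
    · apply hA K0 hK0
      intro x hx
      rw [← h2]
      exact hcomm K0 L hK0 hL hK0L x hx a haL
  set L' := L.map (MulAut.conj u).toMonoidHom with hL'def
  have hL' : IsComponent L' := hconj u L hL
  have hLL' : ∀ x ∈ L, ∀ y ∈ L', x * y = y * x := hcomm L L' hL hL' huL.symm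
  have hLL'1 : ∀ x, x ∈ L → x ∈ L' → x = 1 := hdisj L L' hL hL' huL.symm
  -- the elements `x⁻¹ x^u`
  have he : ∀ x ∈ L, x * z = z * x → x⁻¹ * (u * x * u⁻¹) ∈ Q := by
    intro x hx hxz
    have h1 : x⁻¹ * u * x⁻¹⁻¹ ∈ Q := by
      have h2 : x⁻¹ ∈ normalizer (Q : Set G) := inv_mem ((h.norm x).2 hxz)
      exact (mem_normalizer_iff.1 h2 u).1 huQ
    have e : x⁻¹ * (u * x * u⁻¹) = (x⁻¹ * u * x⁻¹⁻¹) * u⁻¹ := by group
    rw [e]
    exact Q.mul_mem h1 (Q.inv_mem huQ)
  have h2el : ∀ x ∈ L, x * z = z * x → ∃ k : ℕ, x ^ 2 ^ k = 1 := by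
    intro x hx hxz
    obtain ⟨k, hk⟩ := h.hp ⟨_, he x hx hxz⟩
    refine ⟨k, ?_⟩
    have h1 : (x⁻¹ * (u * x * u⁻¹)) ^ 2 ^ k = 1 := congrArg Subtype.val hk
    have hx' : u * x * u⁻¹ ∈ L' := hmemconj u L x hx
    have h3 : Commute x⁻¹ (u * x * u⁻¹) := hLL' _ (L.inv_mem hx) _ hx'
    rw [h3.mul_pow, inv_pow, inv_mul_eq_one] at h1
    exact hLL'1 _ (L.pow_mem hx _) (by rw [h1]; exact L'.pow_mem hx' _)
  have hzz := h.z_sq
  have haa : a * a = 1 := by
    apply hcenter L hL _ (L.mul_mem haL haL)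
    have h1 : (a * a) * (b * b) = 1 := by
      calc (a * a) * (b * b) = a * (a * b) * b := by group
        _ = a * (b * a) * b := by rw [hbL a haL]
        _ = (a * b) * (a * b) := by group
        _ = 1 := by rw [hab, hzz]
    have h2 : a * a = (b * b)⁻¹ := eq_inv_of_mul_eq_one_left h1
    intro y hy
    rw [h2]
    have h3 : (b * b) * y = y * (b * b) := by
      calc (b * b) * y = b * (b * y) := by group
        _ = b * (y * b) := by rw [hbL y hy]
        _ = (b * y) * b := by group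
        _ = (y * b) * b := by rw [hbL y hy]
        _ = y * (b * b) := by group
    calc y * (b * b)⁻¹ = (b * b)⁻¹ * ((b * b) * y) * (b * b)⁻¹ := by group
      _ = (b * b)⁻¹ * (y * (b * b)) * (b * b)⁻¹ := by rw [h3]
      _ = (b * b)⁻¹ * y := by group
  have hai : a⁻¹ = a := inv_eq_of_mul_eq_one_left haa
  obtain ⟨a', ha'⟩ : ∃ a', a' = u * a * u⁻¹ := ⟨_, rfl⟩
  have ha'L : a' ∈ L' := by rw [ha']; exact hmemconj u L a haL
  have haa' : a' * a' = 1 := by
    rw [ha']
    calc u * a * u⁻¹ * (u * a * u⁻¹) = u * (a * a) * u⁻¹ := by group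
      _ = 1 := by rw [haa]; group
  have hyQ : a * a' ∈ Q := by
    have := he a haL hazc
    rwa [hai, ← ha'] at this
  have huz : u * z * u⁻¹ = z := by rw [h.z_comm u huQ]; group
  -- `b' = u b u⁻¹`
  have hb' : ∀ y ∈ L', (u * b * u⁻¹) * y = y * (u * b * u⁻¹) := by
    rintro _ ⟨y, hy, rfl⟩
    show (u * b * u⁻¹) * (u * y * u⁻¹) = (u * y * u⁻¹) * (u * b * u⁻¹)
    calc (u * b * u⁻¹) * (u * y * u⁻¹) = u * (b * y) * u⁻¹ := by group
      _ = u * (y * b) * u⁻¹ := by rw [hbL y hy]
      _ = _ := by group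
  have hz' : z = a' * (u * b * u⁻¹) := by
    rw [ha', ← huz, ← hab]; group
  -- `a a' z` centralizes `L` and `L'`
  have hyzL : ∀ x ∈ L, (a * a' * z) * x = x * (a * a' * z) := by
    intro x hx
    have h1 : a * a' * z = a' * b := by
      rw [hLL' a haL a' ha'L, ← hab]
      calc a' * a * (a * b) = a' * (a * a) * b := by group
        _ = a' * b := by rw [haa]; group
    rw [h1]
    calc a' * b * x = a' * (b * x) := by group
      _ = (a' * x) * b := by rw [hbL x hx]; group
      _ = (x * a') * b := by rw [hLL' x hx a' ha'L]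
      _ = x * (a' * b) := by group
  have hyzL' : ∀ x ∈ L', (a * a' * z) * x = x * (a * a' * z) := by
    intro x hx
    have h1 : a * a' * z = a * (u * b * u⁻¹) := by
      rw [hz']
      calc a * a' * (a' * (u * b * u⁻¹)) = a * (a' * a') * (u * b * u⁻¹) := by group
        _ = a * (u * b * u⁻¹) := by rw [haa']; group
    rw [h1]
    calc a * (u * b * u⁻¹) * x = a * ((u * b * u⁻¹) * x) := by group
      _ = (a * x) * (u * b * u⁻¹) := by rw [hb' x hx]; group
      _ = (x * a) * (u * b * u⁻¹) := by rw [hLL' a haL x hx]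
      _ = x * (a * (u * b * u⁻¹)) := by group
  -- `C_L(z) = {1, a}` is impossible
  have hbad : ¬ ∀ x ∈ L, x * z = z * x → x = 1 ∨ x = a := by
    intro h1
    apply hLnc
    apply sim2 (L := L) (a := ⟨a, haL⟩) (Subtype.ext haa) (fun h2 => ha1 (congrArg Subtype.val h2))
    intro x hx
    have hxa : (x : G) * a = a * x := congrArg Subtype.val hx
    have hxz : (x : G) * z = z * x := by
      rw [← hab]
      calc (x : G) * (a * b) = (x * a) * b := by group
        _ = a * (x * b) := by rw [hxa]; group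
        _ = a * b * x := by rw [← hbL x x.2]; group
    rcases h1 x x.2 hxz with h2 | h2
    · left; exact Subtype.ext h2
    · right; exact Subtype.ext h2
  -- the only components are `L`, `L'`
  have htwo : ∀ K : Subgroup G, IsComponent K → K = L ∨ K = L' := by
    intro K hK
    by_contra hne
    push Not at hne
    have hyK : ∀ x ∈ K, x * (a * a') = (a * a') * x := by
      intro x hx
      calc x * (a * a') = (x * a) * a' := by group
        _ = (a * x) * a' := by rw [hcomm K L hK hL hne.1 x hx a haL]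
        _ = a * (x * a') := by group
        _ = a * (a' * x) := by rw [hcomm K L' hK hL' hne.2 x hx a' ha'L]
        _ = (a * a') * x := by group
    have hyz : a * a' ≠ z := by
      intro h1
      apply hA K hK
      intro x hx
      rw [← h1]
      exact hyK x hx
    have hy1 : a * a' ≠ 1 := by
      intro h1
      apply ha1
      apply hLL'1 a haL
      have : a = a'⁻¹ := eq_inv_of_mul_eq_one_left h1
      rw [this]
      exact L'.inv_mem ha'L
    obtain ⟨q, hq, hqy⟩ : ∃ q ∈ Q, q * (a * a') ≠ (a * a') * q := by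
      by_contra hne'
      push Not at hne'
      rcases h.cent _ hyQ (fun y hy => (hne' y hy).symm) with h1 | h1
      · exact hy1 h1
      · exact hyz h1
    have hqy' : q * (a * a') * q⁻¹ = a * a' * z := by
      have h1 := (h.comm q hq _ hyQ).resolve_left hqy
      rw [h1, h.z_comm _ hyQ]; group
    -- `q` moves `L` and `L'` away from `L`
    have hqL : L.map (MulAut.conj q).toMonoidHom ≠ L := by
      intro h1
      apply ha1
      -- `q y q⁻¹` centralizes `L = L^q`, so `y` centralizes `L`, so `a` does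
      apply hcenter L hL a haL
      intro x hx
      have h2 : q * x * q⁻¹ ∈ L := by rw [← h1]; exact hmemconj q L x hx
      have h3 := hyzL _ h2
      rw [← hqy'] at h3
      have h4 : (a * a') * x = x * (a * a') := by
        calc (a * a') * x = q⁻¹ * ((q * (a * a') * q⁻¹) * (q * x * q⁻¹)) * q := by group
          _ = q⁻¹ * ((q * x * q⁻¹) * (q * (a * a') * q⁻¹)) * q := by rw [h3]
          _ = x * (a * a') := by group
      calc x * a = x * (a * a') * a'⁻¹ := by group
        _ = (a * a') * x * a'⁻¹ := by rw [h4]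
        _ = a * (a' * x) * a'⁻¹ := by group
        _ = a * (x * a') * a'⁻¹ := by rw [hLL' x hx a' ha'L]
        _ = a * x := by group
    have hqL' : L'.map (MulAut.conj q).toMonoidHom ≠ L := by
      intro h1
      apply ha1
      have h5 : a' = 1 := by
        apply hcenter L' hL' a' ha'L
        intro x hx
        have h2 : q * x * q⁻¹ ∈ L := by rw [← h1]; exact hmemconj q L' x hx
        have h3 := hyzL _ h2
        rw [← hqy'] at h3
        have h4 : (a * a') * x = x * (a * a') := by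
          calc (a * a') * x = q⁻¹ * ((q * (a * a') * q⁻¹) * (q * x * q⁻¹)) * q := by group
            _ = q⁻¹ * ((q * x * q⁻¹) * (q * (a * a') * q⁻¹)) * q := by rw [h3]
            _ = x * (a * a') := by group
        calc x * a' = a⁻¹ * (a * x) * a' := by group
          _ = a⁻¹ * (x * a) * a' := by rw [hLL' a haL x hx]
          _ = a⁻¹ * (x * (a * a')) := by group
          _ = a⁻¹ * ((a * a') * x) := by rw [h4]
          _ = a' * x := by group
      rw [ha'] at h5
      calc a = u⁻¹ * (u * a * u⁻¹) * u := by group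
        _ = 1 := by rw [h5]; group
    apply hbad
    intro x hx hxz
    have hexQ := he x hx hxz
    have hx'L : u * x * u⁻¹ ∈ L' := hmemconj u L x hx
    -- `q e(x) q⁻¹` centralizes `L`
    have hcL : ∀ w ∈ L, (q * (x⁻¹ * (u * x * u⁻¹)) * q⁻¹) * w = w * (q * (x⁻¹ * (u * x * u⁻¹)) * q⁻¹) := by
      intro w hw
      have h1 : q * x⁻¹ * q⁻¹ ∈ L.map (MulAut.conj q).toMonoidHom := hmemconj q L _ (L.inv_mem hx)
      have h2 : q * (u * x * u⁻¹) * q⁻¹ ∈ L'.map (MulAut.conj q).toMonoidHom := hmemconj q L' _ hx'L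
      have h3 := hcomm _ L (hconj q L hL) hL hqL _ h1 w hw
      have h4 := hcomm _ L (hconj q L' hL') hL hqL' _ h2 w hw
      calc (q * (x⁻¹ * (u * x * u⁻¹)) * q⁻¹) * w = (q * x⁻¹ * q⁻¹) * ((q * (u * x * u⁻¹) * q⁻¹) * w) := by group
        _ = ((q * x⁻¹ * q⁻¹) * w) * (q * (u * x * u⁻¹) * q⁻¹) := by rw [h4]; group
        _ = (w * (q * x⁻¹ * q⁻¹)) * (q * (u * x * u⁻¹) * q⁻¹) := by rw [h3]
        _ = _ := by group
    rcases h.comm q hq _ hexQ with h1 | h1
    · left
      have h2 : q * (x⁻¹ * (u * x * u⁻¹)) * q⁻¹ = x⁻¹ * (u * x * u⁻¹) := by rw [h1]; group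
      rw [h2] at hcL
      apply hcenter L hL x hx
      intro w hw
      have h3 := hcL w hw
      have h4 := hLL' w hw _ hx'L
      have h5 : x⁻¹ * w = w * x⁻¹ := by
        calc x⁻¹ * w = x⁻¹ * (w * (u * x * u⁻¹)) * (u * x * u⁻¹)⁻¹ := by group
          _ = x⁻¹ * ((u * x * u⁻¹) * w) * (u * x * u⁻¹)⁻¹ := by rw [h4]
          _ = (x⁻¹ * (u * x * u⁻¹) * w) * (u * x * u⁻¹)⁻¹ := by group
          _ = (w * (x⁻¹ * (u * x * u⁻¹))) * (u * x * u⁻¹)⁻¹ := by rw [h3]
          _ = w * x⁻¹ := by group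
      calc w * x = x * (x⁻¹ * w) * x := by group
        _ = x * (w * x⁻¹) * x := by rw [h5]
        _ = x * w := by group
    · right
      have h2 : q * (x⁻¹ * (u * x * u⁻¹)) * q⁻¹ = z * (x⁻¹ * (u * x * u⁻¹)) := by rw [h1]; group
      rw [h2] at hcL
      have h6 : a * x⁻¹ = 1 := by
        apply hcenter L hL _ (L.mul_mem haL (L.inv_mem hx))
        intro w hw
        have h3 := hcL w hw
        have h4 := hLL' w hw _ hx'L
        have h7 := hbL w hw
        have h8 := hbL x⁻¹ (L.inv_mem hx)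
        have e1 : z * (x⁻¹ * (u * x * u⁻¹)) = b * (a * x⁻¹) * (u * x * u⁻¹) := by
          rw [← hab, ← hbL a haL]; group
        rw [e1] at h3
        have h9 : b * (a * x⁻¹) * (u * x * u⁻¹) * w = b * ((a * x⁻¹) * w) * (u * x * u⁻¹) := by
          calc b * (a * x⁻¹) * (u * x * u⁻¹) * w = b * (a * x⁻¹) * ((u * x * u⁻¹) * w) := by group
            _ = b * (a * x⁻¹) * (w * (u * x * u⁻¹)) := by rw [h4]
            _ = _ := by group
        have h10 : w * (b * (a * x⁻¹) * (u * x * u⁻¹)) = b * (w * (a * x⁻¹)) * (u * x * u⁻¹) := by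
          calc w * (b * (a * x⁻¹) * (u * x * u⁻¹)) = (w * b) * (a * x⁻¹) * (u * x * u⁻¹) := by group
            _ = (b * w) * (a * x⁻¹) * (u * x * u⁻¹) := by rw [h7]
            _ = _ := by group
        rw [h9, h10] at h3
        exact (mul_left_cancel (mul_right_cancel h3)).symm
      exact (mul_inv_eq_one.1 h6).symm
  have hlay : layer G = L ⊔ L' := by
    apply le_antisymm
    · unfold layer
      apply sSup_le
      intro K hK
      rcases htwo K hK with h1 | h1
      · rw [h1]; exact le_sup_left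
      · rw [h1]; exact le_sup_right
    · exact sup_le (H10.le_layer hL) (H10.le_layer hL')
  have hzy : z = a * a' := by
    have h1 : a * a' * z ∈ centralizer (generalizedFittingSubgroup G : Set G) := by
      rw [hF, hlay, mem_centralizer_iff]
      have hle : L ⊔ L' ≤ centralizer ({a * a' * z} : Set G) := by
        apply sup_le
        · intro x hx
          rw [mem_centralizer_singleton_iff]; exact (hyzL x hx).symm
        · intro x hx
          rw [mem_centralizer_singleton_iff]; exact (hyzL' x hx).symm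
      intro x hx
      exact mem_centralizer_singleton_iff.1 (hle hx)
    have h2 := H10.centralizer_genFitting_le_fitting h1
    rw [hfit, mem_bot] at h2
    have h3 : z = (a * a')⁻¹ := (inv_eq_of_mul_eq_one_right h2).symm
    rw [h3, mul_inv_rev, hai, inv_eq_of_mul_eq_one_left haa', hLL' a haL a' ha'L]
  -- centralizers
  have hcza : ∀ x ∈ L, (x * z = z * x ↔ x * a = a * x) := by
    intro x hx
    rw [← hab]
    have hbx := hbL x hx
    constructor
    · intro h1
      have h2 : (x * a) * b = (a * x) * b := by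
        calc (x * a) * b = x * (a * b) := by group
          _ = a * b * x := h1
          _ = a * (b * x) := by group
          _ = (a * x) * b := by rw [hbx]; group
      exact mul_right_cancel h2
    · intro h1
      calc x * (a * b) = (x * a) * b := by group
        _ = a * (x * b) := by rw [h1]; group
        _ = a * b * x := by rw [← hbx]; group
  have hsyl := H14.Sylow.isSylIn_top T
  have hs1 : H14.IsSylIn 2 ((T : Subgroup G) ⊓ layer G) (layer G) :=
    hsyl.inf_of_normalizes le_top (by rw [normalizer_eq_top])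
  have hs2 : H14.IsSylIn 2 (((T : Subgroup G) ⊓ layer G) ⊓ L) L :=
    hs1.inf_of_normalizes (H10.le_layer hL) (H10.layer_le_normalizer_comp hL)
  have hCL2 : IsPGroup 2 (L ⊓ centralizer ({a} : Set G) : Subgroup G) := by
    rintro ⟨x, hx⟩
    obtain ⟨k, hk⟩ := h2el x hx.1 ((hcza x hx.1).2 (mem_centralizer_singleton_iff.1 hx.2))
    exact ⟨k, Subtype.ext hk⟩
  have hReq : ((T : Subgroup G) ⊓ layer G) ⊓ L = L ⊓ centralizer ({a} : Set G) := by
    symm
    apply hs2.eq_of_le _ inf_le_left hCL2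
    intro x hx
    exact ⟨hx.2, mem_centralizer_singleton_iff.2 ((hcza x hx.2).1 (hTz x hx.1.1))⟩
  rw [hReq] at hs2
  obtain ⟨R, hR⟩ := hs2.exists_sylow
  have hRe : (R : Subgroup L) = (centralizer ({a} : Set G)).subgroupOf L := by
    ext x
    rw [mem_subgroupOf]
    constructor
    · intro hx
      have : (x : G) ∈ (R : Subgroup L).map L.subtype := ⟨x, hx, rfl⟩
      rw [hR] at this
      exact this.2
    · intro hx
      have : (x : G) ∈ (R : Subgroup L).map L.subtype := by rw [hR]; exact ⟨x.2, hx⟩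
      obtain ⟨y, hy, hxy⟩ := this
      have : y = x := Subtype.ext hxy
      rw [← this]; exact hy
  have hRx : ∀ x : L, x ∈ (R : Subgroup L) → (x : G) * z = z * x := by
    intro x hx
    rw [hRe, mem_subgroupOf, mem_centralizer_singleton_iff] at hx
    exact (hcza x x.2).2 hx
  have hsq : ∀ x ∈ L, x * z = z * x → x * x = 1 ∨ x * x = a := by
    intro x hx hxz
    have hx' : u * x * u⁻¹ ∈ L' := hmemconj u L x hx
    have h1 : Commute x⁻¹ (u * x * u⁻¹) := hLL' _ (L.inv_mem hx) _ hx'
    have h2 : (x⁻¹ * (u * x * u⁻¹)) * (x⁻¹ * (u * x * u⁻¹)) = (x * x)⁻¹ * ((u * x * u⁻¹) * (u * x * u⁻¹)) := by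
      calc (x⁻¹ * (u * x * u⁻¹)) * (x⁻¹ * (u * x * u⁻¹)) = x⁻¹ * ((u * x * u⁻¹) * x⁻¹) * (u * x * u⁻¹) := by group
        _ = x⁻¹ * (x⁻¹ * (u * x * u⁻¹)) * (u * x * u⁻¹) := by rw [h1.eq]
        _ = _ := by group
    have hmem2 : (u * x * u⁻¹) * (u * x * u⁻¹) ∈ L' := L'.mul_mem hx' hx'
    rcases h.sq _ (he x hx hxz) with h3 | h3
    · left
      rw [h2, inv_mul_eq_one] at h3
      exact hLL'1 _ (L.mul_mem hx hx) (by rw [h3]; exact hmem2)
    · right
      rw [h2, hzy] at h3
      have h4 : (x * x) * a = ((u * x * u⁻¹) * (u * x * u⁻¹)) * a'⁻¹ := by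
        have h5 : (u * x * u⁻¹) * (u * x * u⁻¹) = (x * x) * (a * a') := by rw [← h3]; group
        rw [h5]; group
      have h6 : (x * x) * a = 1 := hLL'1 _ (L.mul_mem (L.mul_mem hx hx) haL) (by
        rw [h4]; exact L'.mul_mem hmem2 (L'.inv_mem ha'L))
      rw [eq_inv_of_mul_eq_one_left h6, hai]
  have hcommR : ∀ x ∈ L, ∀ y ∈ L, x * z = z * x → y * z = z * y →
      x * y * x⁻¹ * y⁻¹ = 1 ∨ x * y * x⁻¹ * y⁻¹ = a := by
    intro x hx y hy hxz hyz
    have hx' : u * x * u⁻¹ ∈ L' := hmemconj u L x hx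
    have hy' : u * y * u⁻¹ ∈ L' := hmemconj u L y hy
    -- use `x⁻¹, y⁻¹`
    have hxi : x⁻¹ * z = z * x⁻¹ := by
      calc x⁻¹ * z = x⁻¹ * (z * x) * x⁻¹ := by group
        _ = x⁻¹ * (x * z) * x⁻¹ := by rw [hxz]
        _ = z * x⁻¹ := by group
    have hyi : y⁻¹ * z = z * y⁻¹ := by
      calc y⁻¹ * z = y⁻¹ * (z * y) * y⁻¹ := by group
        _ = y⁻¹ * (y * z) * y⁻¹ := by rw [hyz]
        _ = z * y⁻¹ := by group
    have hex := he x⁻¹ (L.inv_mem hx) hxi
    have hey := he y⁻¹ (L.inv_mem hy) hyi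
    rw [inv_inv] at hex hey
    obtain ⟨X, hX⟩ : ∃ X, X = u * x⁻¹ * u⁻¹ := ⟨_, rfl⟩
    obtain ⟨Y, hY⟩ : ∃ Y, Y = u * y⁻¹ * u⁻¹ := ⟨_, rfl⟩
    rw [← hX] at hex
    rw [← hY] at hey
    have hXL : X ∈ L' := by rw [hX]; exact hmemconj u L _ (L.inv_mem hx)
    have hYL : Y ∈ L' := by rw [hY]; exact hmemconj u L _ (L.inv_mem hy)
    have hc : (x * X) * (y * Y) * (x * X)⁻¹ * (y * Y)⁻¹ = (x * y * x⁻¹ * y⁻¹) * (X * Y * X⁻¹ * Y⁻¹) := by
      have c1 := hLL' y hy X hXL
      have c2 := hLL' x⁻¹ (L.inv_mem hx) Y hYL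
      have c3 := hLL' y⁻¹ (L.inv_mem hy) X⁻¹ (L'.inv_mem hXL)
      have c4 := hLL' x⁻¹ (L.inv_mem hx) X⁻¹ (L'.inv_mem hXL)
      have c5 := hLL' x⁻¹ (L.inv_mem hx) X hXL
      have c6 := hLL' y⁻¹ (L.inv_mem hy) X hXL
      have c7 := hLL' y⁻¹ (L.inv_mem hy) Y hYL
      have c8 := hLL' y⁻¹ (L.inv_mem hy) Y⁻¹ (L'.inv_mem hYL)
      calc (x * X) * (y * Y) * (x * X)⁻¹ * (y * Y)⁻¹ = x * (X * y) * Y * (X⁻¹ * x⁻¹) * (Y⁻¹ * y⁻¹) := by group
        _ = x * (y * X) * Y * (x⁻¹ * X⁻¹) * (y⁻¹ * Y⁻¹) := by rw [← c1, ← c4, ← c8]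
        _ = x * y * X * (Y * x⁻¹) * (X⁻¹ * y⁻¹) * Y⁻¹ := by group
        _ = x * y * X * (x⁻¹ * Y) * (y⁻¹ * X⁻¹) * Y⁻¹ := by rw [← c2, ← c3]
        _ = x * y * (X * x⁻¹) * (Y * y⁻¹) * X⁻¹ * Y⁻¹ := by group
        _ = x * y * (x⁻¹ * X) * (y⁻¹ * Y) * X⁻¹ * Y⁻¹ := by rw [← c5, ← c7]
        _ = x * y * x⁻¹ * (X * y⁻¹) * Y * X⁻¹ * Y⁻¹ := by group
        _ = x * y * x⁻¹ * (y⁻¹ * X) * Y * X⁻¹ * Y⁻¹ := by rw [← c6]
        _ = _ := by group
    have hcL : x * y * x⁻¹ * y⁻¹ ∈ L := L.mul_mem (L.mul_mem (L.mul_mem hx hy) (L.inv_mem hx)) (L.inv_mem hy)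
    have hcL' : X * Y * X⁻¹ * Y⁻¹ ∈ L' := L'.mul_mem (L'.mul_mem (L'.mul_mem hXL hYL) (L'.inv_mem hXL)) (L'.inv_mem hYL)
    rcases h.comm _ hex _ hey with h3 | h3
    · left
      have h4 : (x * X) * (y * Y) * (x * X)⁻¹ * (y * Y)⁻¹ = 1 := by rw [h3]; group
      rw [hc] at h4
      exact hLL'1 _ hcL (by rw [eq_inv_of_mul_eq_one_left h4]; exact L'.inv_mem hcL')
    · right
      have h4 : (x * X) * (y * Y) * (x * X)⁻¹ * (y * Y)⁻¹ = a * a' := by rw [h3, hzy]; group
      rw [hc] at h4
      have h5 : a⁻¹ * (x * y * x⁻¹ * y⁻¹) = a' * (X * Y * X⁻¹ * Y⁻¹)⁻¹ := by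
        calc a⁻¹ * (x * y * x⁻¹ * y⁻¹) = a⁻¹ * ((x * y * x⁻¹ * y⁻¹) * (X * Y * X⁻¹ * Y⁻¹)) * (X * Y * X⁻¹ * Y⁻¹)⁻¹ := by group
          _ = a' * (X * Y * X⁻¹ * Y⁻¹)⁻¹ := by rw [h4]; group
      have h6 := hLL'1 _ (L.mul_mem (L.inv_mem haL) hcL) (by rw [h5]; exact L'.mul_mem ha'L (L'.inv_mem hcL'))
      exact (inv_mul_eq_one.1 h6).symm
  refine ⟨rfl, L, u, huQ, hLs, hLnc, ?_, hLL', ?_, a, haL, ?_, ⟨R, hRe, ?_⟩, ?_⟩
  · rw [eq_bot_iff_forall]
    exact fun x hx => hLL'1 x hx.1 hx.2
  · rw [hMF, hlay]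
  · rw [hzy, ha']
  · have hpre : frattini (R : Subgroup L) ≤ (zpowers a).comap ((L.subtype).comp (R : Subgroup L).subtype) := by
      apply H18.frattini_le_of_elementary (p := 2)
      · rw [_root_.commutator_def, commutator_le]
        intro x _ y _
        rw [commutatorElement_def]
        show ((x : L) : G) * ((y : L) : G) * ((x : L) : G)⁻¹ * ((y : L) : G)⁻¹ ∈ zpowers a
        rw [H29.mem_zpowers_of_sq haa]
        exact hcommR _ (x : L).2 _ (y : L).2 (hRx _ x.2) (hRx _ y.2)
      · intro x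
        show ((x ^ 2 : (R : Subgroup L)) : L).1 ∈ zpowers a
        rw [H29.mem_zpowers_of_sq haa, pow_two]
        exact hsq _ (x : L).2 (hRx _ x.2)
    rw [map_le_iff_le_comap]
    exact hpre
  · intro hQe
    apply hbad
    intro x hx hxz
    haveI : (Cfsg.pCore 2 ↥(centralizer ({z} : Set G))).Normal := H1.pCore_normal 2 _
    -- `layer ⊓ C(z)` is a normal 2-subgroup of `C(z)`
    have hW2 : IsPGroup 2 ((layer G).subgroupOf (centralizer ({z} : Set G))) := by
      rintro ⟨⟨w, hwz⟩, hw⟩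
      have hwL : w ∈ layer G := mem_subgroupOf.1 hw
      have hwz' : w * z = z * w := mem_centralizer_singleton_iff.1 hwz
      obtain ⟨c, hcL, d, hdL, hcd⟩ := hdec L hL w hwL
      have hdL' : d ∈ L' := by
        have hc1 : ⁅L, L'⁆ = ⊥ := H10.comp_commutes hL hL' huL.symm
        rw [hlay] at hwL
        obtain ⟨c1, hc1L, d1, hd1L, he1⟩ := (H10.mem_sup_iff_of_commutes hc1).1 hwL
        have h3 : c⁻¹ * c1 = d * d1⁻¹ := by
          calc c⁻¹ * c1 = c⁻¹ * (c1 * d1) * d1⁻¹ := by group
            _ = c⁻¹ * (c * d) * d1⁻¹ := by rw [he1, hcd]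
            _ = d * d1⁻¹ := by group
        have h4 : c⁻¹ * c1 = 1 := by
          apply hcenter L hL _ (L.mul_mem (L.inv_mem hcL) hc1L)
          intro y hy
          rw [h3]
          have h5 := hdL y hy
          have h6 := hLL' y hy d1⁻¹ (L'.inv_mem hd1L)
          calc y * (d * d1⁻¹) = (y * d) * d1⁻¹ := by group
            _ = d * (y * d1⁻¹) := by rw [← h5]; group
            _ = d * d1⁻¹ * y := by rw [h6]; group
        have h7 : d = d1 := by
          rw [h4] at h3
          exact (mul_inv_eq_one.1 h3.symm)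
        rw [h7]; exact hd1L
      -- `c` commutes with `a`, `d` with `a'`
      have hdc : c * d = d * c := (hdL c hcL).symm
      have hkey : c * a * c⁻¹ = a ∧ d * a' * d⁻¹ = a' := by
        have h3 : (c * a * c⁻¹) * (d * a' * d⁻¹) = a * a' := by
          have c1 := hLL' a haL d hdL'
          have c2 := hLL' c⁻¹ (L.inv_mem hcL) d hdL'
          have c3 := hLL' c⁻¹ (L.inv_mem hcL) a' ha'L
          have c4 := hLL' c⁻¹ (L.inv_mem hcL) d⁻¹ (L'.inv_mem hdL')
          calc (c * a * c⁻¹) * (d * a' * d⁻¹) = c * a * (c⁻¹ * d) * a' * d⁻¹ := by group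
            _ = c * a * (d * c⁻¹) * a' * d⁻¹ := by rw [c2]
            _ = c * (a * d) * (c⁻¹ * a') * d⁻¹ := by group
            _ = c * (d * a) * (a' * c⁻¹) * d⁻¹ := by rw [c1, c3]
            _ = c * d * (a * a') * (c⁻¹ * d⁻¹) := by group
            _ = c * d * (a * a') * (d⁻¹ * c⁻¹) := by rw [c4]
            _ = w * z * w⁻¹ := by rw [← hcd, hzy]; group
            _ = z * w * w⁻¹ := by rw [hwz']
            _ = a * a' := by rw [hzy]; group
        have hm1 : c * a * c⁻¹ ∈ L := L.mul_mem (L.mul_mem hcL haL) (L.inv_mem hcL)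
        have hm2 : d * a' * d⁻¹ ∈ L' := L'.mul_mem (L'.mul_mem hdL' ha'L) (L'.inv_mem hdL')
        have h4 : a⁻¹ * (c * a * c⁻¹) = a' * (d * a' * d⁻¹)⁻¹ := by
          calc a⁻¹ * (c * a * c⁻¹) = a⁻¹ * ((c * a * c⁻¹) * (d * a' * d⁻¹)) * (d * a' * d⁻¹)⁻¹ := by group
            _ = a' * (d * a' * d⁻¹)⁻¹ := by rw [h3]; group
        have h5 := hLL'1 _ (L.mul_mem (L.inv_mem haL) hm1) (by rw [h4]; exact L'.mul_mem ha'L (L'.inv_mem hm2))
        refine ⟨(inv_mul_eq_one.1 h5).symm, ?_⟩
        rw [h5] at h4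
        exact (mul_inv_eq_one.1 h4.symm).symm
      have hca : c * a = a * c := Sit.comm_of_conj hkey.1
      have hda : d * a' = a' * d := Sit.comm_of_conj hkey.2
      obtain ⟨k, hk⟩ := h2el c hcL ((hcza c hcL).2 hca)
      -- pull `d` back
      have hdu : u⁻¹ * d * u ∈ L := by
        obtain ⟨y, hy, he1⟩ := hdL'
        have : u⁻¹ * d * u = y := by
          rw [← he1]
          show u⁻¹ * (u * y * u⁻¹) * u = y
          group
        rw [this]; exact hy
      have hdua : (u⁻¹ * d * u) * a = a * (u⁻¹ * d * u) := by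
        rw [ha'] at hda
        calc (u⁻¹ * d * u) * a = u⁻¹ * (d * (u * a * u⁻¹)) * u := by group
          _ = u⁻¹ * ((u * a * u⁻¹) * d) * u := by rw [hda]
          _ = a * (u⁻¹ * d * u) := by group
      obtain ⟨l, hl⟩ := h2el _ hdu ((hcza _ hdu).2 hdua)
      have hl' : d ^ 2 ^ l = 1 := by
        have e : (u⁻¹ * d * u) ^ 2 ^ l = u⁻¹ * d ^ 2 ^ l * u := by
          have := conj_pow (a := u⁻¹) (b := d) (i := 2 ^ l)
          rwa [inv_inv] at this
        rw [e] at hl
        calc d ^ 2 ^ l = u * (u⁻¹ * d ^ 2 ^ l * u) * u⁻¹ := by group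
          _ = 1 := by rw [hl]; group
      refine ⟨k + l, Subtype.ext (Subtype.ext ?_)⟩
      show w ^ 2 ^ (k + l) = 1
      rw [← hcd, (show Commute c d from hdc).mul_pow, pow_add, pow_mul, hk, one_pow, one_mul, mul_comm (2 ^ k), pow_mul, hl', one_pow]
    have hWle : (layer G).subgroupOf (centralizer ({z} : Set G)) ≤ Cfsg.pCore 2 ↥(centralizer ({z} : Set G)) :=
      H1.le_pCore inferInstance hW2
    have hxQ : x ∈ Q := by
      rw [hQe]
      exact ⟨⟨x, mem_centralizer_singleton_iff.2 hxz⟩, hWle (mem_subgroupOf.2 (H10.le_layer hL hx)), rfl⟩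
    have hx' : u * x * u⁻¹ ∈ L' := hmemconj u L x hx
    rcases h.comm u huQ x hxQ with h3 | h3
    · left
      apply hLL'1 x hx
      have : u * x * u⁻¹ = x := by rw [h3]; group
      rwa [this] at hx'
    · right
      have h4 : u * x * u⁻¹ = a * a' * x := by rw [h3, hzy]; group
      have h5 : a * x = a'⁻¹ * (u * x * u⁻¹) := by
        rw [h4, hLL' a haL a' ha'L]; group
      have h6 := hLL'1 _ (L.mul_mem haL hx) (by rw [h5]; exact L'.mul_mem (L'.inv_mem ha'L) hx')
      rw [← hai]
      exact (inv_eq_of_mul_eq_one_right h6).symm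

end Cfsg.Agent.S5426
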