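import Cfsg.Statements.S5427
import Cfsg.Agent.H2.LX
import Cfsg.Agent.S5422

set_option autoImplicit false
set_option linter.style.haveILetI false
set_option linter.unusedVariables false
set_option linter.unusedSectionVars false
open Cfsg

namespace Cfsg.Agent.S5427

open Cfsg.Agent Cfsg.Agent.H29
open Subgroup

theorem large_of {G : Type*} [Group G] [Finite G] {Q : Subgroup G} {z : G} (h : NXS Q z)
    (hodd : ∀ K : Subgroup G, Odd (Nat.card K) → Q ≤ normalizer (K : Set G) → K = ⊥)
    (hQ : Cfsg.IsExtraspecial 2 Q) : Cfsg.IsLargeExtraspecial Q := by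
  refine ⟨hQ, ?_, ?_, hodd⟩
  · rw [h.center_eq]
    apply le_antisymm
    · intro x hx
      rw [H29.mem_zpowers_of_sq h.z_sq]
      exact h.cent_G x fun y hy => (mem_centralizer_iff.1 hx y hy).symm
    · rw [zpowers_le, mem_centralizer_iff]
      exact fun y hy => h.z_comm y hy
  · rw [h.center_eq]
    intro x hx
    rw [h.norm]
    exact (mem_centralizer_iff.1 hx z (mem_zpowers z)).symm

/-- Let z be an involution of the finite group G whose centralizer C has generalized Fitting subgroup Q, an extraspecial 2-group of width at least 2 (order 2^(2w+1), w ≥ 2). Let K be a subgroup of G such that the subgroup U generated by the K-conjugates of z is abelian and C is generated by the C-conjugates of U. Suppose that either some K-conjugate of z other than z lies in Q, or some element u of U ∩ Q outside the subgroup generated by z has z in the largest normal 2-subgroup of its centralizer. Then G is simple and Q is a large extraspecial 2-subgroup of G. -/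
theorem result {G : Type*} [Group G] [Finite G] (z : G) (hz : orderOf z = 2) (Q : Subgroup G) (hQC : Q ≤ Subgroup.centralizer ({z} : Set G)) (hF : (Cfsg.generalizedFittingSubgroup ↥(Subgroup.centralizer ({z} : Set G))).map (Subgroup.centralizer ({z} : Set G)).subtype = Q) (hQ : Cfsg.IsExtraspecial 2 ↥Q) (w : ℕ) (hw : 2 ≤ w) (hcard : Nat.card ↥Q = 2 ^ (2 * w + 1)) (K U : Subgroup G) (hU : U = Subgroup.closure {x : G | ∃ k ∈ K, x = k * z * k⁻¹}) (hUab : IsMulCommutative ↥U) (hgen : Subgroup.closure {x : G | ∃ c ∈ Subgroup.centralizer ({z} : Set G), ∃ u ∈ U, x = c * u * c⁻¹} = Subgroup.centralizer ({z} : Set G)) (h3 : (∃ k ∈ K, k * z * k⁻¹ ∈ Q ∧ k * z * k⁻¹ ≠ z) ∨ ∃ u ∈ U ⊓ Q, u ∉ Subgroup.zpowers z ∧ (∃ hz' : z ∈ Subgroup.centralizer ({u} : Set G), (⟨z, hz'⟩ : ↥(Subgroup.centralizer ({u} : Set G))) ∈ Cfsg.pCore 2 ↥(Subgroup.centralizer ({u} : Set G)))) : IsSimpleGroup G ∧ Cfsg.IsLargeExtraspecial Q := by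
  haveI : Fact (Nat.Prime 2) := ⟨Nat.prime_two⟩
  obtain ⟨z0, h0⟩ := xs_of_isExtraspecial Q hQ
  have h : NXS Q z := H2.LX.nxs_of_fstar hz hF h0
  have hcQ : 8 < Nat.card Q := by
    rw [hcard]
    calc 8 < 2 ^ 5 := by norm_num
      _ ≤ 2 ^ (2 * w + 1) := Nat.pow_le_pow_right (by norm_num) (by omega)
  have hUN : ∀ N : Subgroup G, N.Normal → z ∈ N → centralizer ({z} : Set G) ≤ N := by
    intro N hN hzN
    have hUN : U ≤ N := by
      rw [hU, closure_le]
      rintro _ ⟨k, -, rfl⟩
      exact hN.conj_mem z hzN k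
    rw [← hgen, closure_le]
    rintro _ ⟨c, -, u, hu, rfl⟩
    exact hN.conj_mem u (hUN hu) c
  have hodd : ∀ K : Subgroup G, Odd (Nat.card K) → Q ≤ normalizer (K : Set G) → K = ⊥ := by
    rcases h3 with ⟨k, -, hkQ, hkz⟩ | ⟨u, ⟨huU, huQ⟩, huz, hz', hzu⟩
    · have hzv := S5422.z_mem_cj h (g := k) rfl hkQ hkz hcQ
      have hT := S5422.nxs_cj h k
      exact h.odd_of_invol hkQ hT.z_ne hkz hT.z_sq hT.hp hzv (fun x hx y hy =>
        (mem_normalizer_iff.1 ((hT.norm x).2 hx) y).1 hy)
    · have hUc : ∀ a ∈ U, ∀ b ∈ U, a * b = b * a := by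
        intro a ha b hb
        exact congrArg Subtype.val (hUab.is_comm.comm (⟨a, ha⟩ : U) ⟨b, hb⟩)
      have hinv : ∀ a ∈ U, a * a = 1 := by
        intro a ha
        have ha' := ha
        rw [hU] at ha'
        induction ha' using closure_induction with
        | mem x hx =>
          obtain ⟨k, -, rfl⟩ := hx
          calc k * z * k⁻¹ * (k * z * k⁻¹) = k * (z * z) * k⁻¹ := by group
            _ = 1 := by rw [h.z_sq]; group
        | one => simp
        | mul a b h1 h2 ha1 hb1 =>
          have ha2 : a ∈ U := by rw [hU]; exact h1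
          have hb2 : b ∈ U := by rw [hU]; exact h2
          calc a * b * (a * b) = a * (b * a) * b := by group
            _ = a * (a * b) * b := by rw [hUc b hb2 a ha2]
            _ = (a * a) * (b * b) := by group
            _ = 1 := by rw [ha1 ha2, hb1 hb2, one_mul]
        | inv a h1 ha1 =>
          have ha2 : a ∈ U := by rw [hU]; exact h1
          rw [← mul_inv_rev, ha1 ha2, inv_one]
      have hu1 : u ≠ 1 := fun h1 => huz (h1 ▸ one_mem _)
      have huz' : u ≠ z := fun h1 => huz (h1 ▸ mem_zpowers _)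
      haveI : (Cfsg.pCore 2 ↥(centralizer ({u} : Set G))).Normal := H1.pCore_normal 2 _
      refine h.odd_of_invol huQ hu1 huz' (hinv u huU)
        (P := (Cfsg.pCore 2 ↥(centralizer ({u} : Set G))).map (centralizer ({u} : Set G)).subtype)
        ((H1.pCore_isPGroup 2 _).map _) ⟨_, hzu, rfl⟩ ?_
      rintro x hx _ ⟨y, hy, rfl⟩
      have hxC : x ∈ centralizer ({u} : Set G) := by rw [mem_centralizer_singleton_iff]; exact hx
      exact ⟨⟨x, hxC⟩ * y * ⟨x, hxC⟩⁻¹, Subgroup.Normal.conj_mem inferInstance y hy _, rfl⟩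
  exact ⟨H2.LX.simple_of_gen h hodd hUN, large_of h hodd hQ⟩

end Cfsg.Agent.S5427
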