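import Cfsg.Statements.S5434
import Cfsg.Agent.H29.XS4
import Cfsg.Agent.H1.Coprime

set_option autoImplicit false
set_option linter.all false
open Cfsg

namespace Cfsg.Agent.S5434

open Cfsg.Agent.H29
open scoped commutatorElement


/-- Let Q be a large extraspecial 2-subgroup of the finite group G (extraspecial; centralizer equal to its centre; normal in the centralizer of its centre; normalizing no non-trivial subgroup of odd order), and A a non-trivial subgroup of odd order of the normalizer of Q. Then Q is the central product of the centralizer of A in Q and the commutator subgroup [Q, A] (they generate Q and commute elementwise), [Q, A] is extraspecial, and the centralizer of A in Q is either the centre of Q or extraspecial. -/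
theorem result {G : Type*} [Group G] [Finite G] (Q : Subgroup G) (hQ : Cfsg.IsLargeExtraspecial Q) (A : Subgroup G) (hA : A ≤ Subgroup.normalizer (Q : Set G)) (hAodd : Odd (Nat.card ↥A)) (hA1 : A ≠ ⊥) : (Q ⊓ Subgroup.centralizer (A : Set G)) ⊔ ⁅Q, A⁆ = Q ∧ (∀ x ∈ Q ⊓ Subgroup.centralizer (A : Set G), ∀ y ∈ ⁅Q, A⁆, x * y = y * x) ∧ Cfsg.IsExtraspecial 2 ↥⁅Q, A⁆ ∧ (Q ⊓ Subgroup.centralizer (A : Set G) = ((Subgroup.center ↥Q).map Q.subtype) ∨ Cfsg.IsExtraspecial 2 ↥(Q ⊓ Subgroup.centralizer (A : Set G))) := by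
  obtain ⟨z, hL⟩ := lxs_of_isLargeExtraspecial Q hQ
  have hX : XS Q z := hL.toNXS.toXS
  have hp2 : Fact (Nat.Prime 2) := ⟨Nat.prime_two⟩
  have hcop : (Nat.card A).Coprime (Nat.card Q) := by
    obtain ⟨n, hn⟩ := IsPGroup.iff_card.1 hX.hp
    rw [hn]
    exact Nat.Coprime.pow_right _ (Nat.coprime_two_right.2 hAodd)
  have hsolv : Group.IsSolvable Q := by
    have := hX.hp.isNilpotent
    infer_instance
  have hsup := Cfsg.Agent.H1.commutator_sup_centralizer A Q hA hcop (Or.inr hsolv)
  have hRQ : ⁅Q, A⁆ ≤ Q := by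
    rw [← hsup]
    nth_rewrite 1 [hsup]
    exact le_sup_left
  have hzA : ∀ a ∈ A, a * z = z * a := fun a ha => hX.norm_comm (hA ha)
  have hCm : ∀ x, x ∈ Q ⊓ Subgroup.centralizer (A : Set G) ↔ x ∈ Q ∧ ∀ a ∈ A, a * x = x * a := by
    intro x
    rw [Subgroup.mem_inf, Subgroup.mem_centralizer_iff]
    rfl
  have hcomm : ∀ x ∈ Q ⊓ Subgroup.centralizer (A : Set G), ∀ y ∈ ⁅Q, A⁆, x * y = y * x := by
    intro x hx
    obtain ⟨hxQ, hxA⟩ := (hCm x).1 hx
    have h1 : ⁅Q, A⁆ ≤ Subgroup.centralizer {x} := by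
      rw [Subgroup.commutator_le]
      intro q hq a ha
      rw [Subgroup.mem_centralizer_singleton_iff]
      have hq' : a * q⁻¹ * a⁻¹ ∈ Q := conj_mem_of_normalizer (hA ha) (inv_mem hq)
      have e : ⁅q, a⁆ = q * (a * q⁻¹ * a⁻¹) := by rw [commutatorElement_def]; group
      rw [e]
      have hax := hxA a ha
      have hxa' : a⁻¹ * x = x * a⁻¹ := hxA _ (inv_mem ha)
      by_cases hxq : x * q = q * x
      · have h2 : x * q⁻¹ = q⁻¹ * x := by
          rw [eq_inv_mul_iff_mul_eq, ← mul_assoc, ← hxq]; group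
        have h3 : x * (a * q⁻¹ * a⁻¹) = (a * q⁻¹ * a⁻¹) * x := by
          calc x * (a * q⁻¹ * a⁻¹) = (x * a) * q⁻¹ * a⁻¹ := by group
            _ = (a * x) * q⁻¹ * a⁻¹ := by rw [hax]
            _ = a * (x * q⁻¹) * a⁻¹ := by group
            _ = a * (q⁻¹ * x) * a⁻¹ := by rw [h2]
            _ = a * q⁻¹ * (x * a⁻¹) := by group
            _ = a * q⁻¹ * (a⁻¹ * x) := by rw [hxa']
            _ = _ := by group
        calc q * (a * q⁻¹ * a⁻¹) * x = q * ((a * q⁻¹ * a⁻¹) * x) := by group
          _ = q * (x * (a * q⁻¹ * a⁻¹)) := by rw [h3]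
          _ = (q * x) * (a * q⁻¹ * a⁻¹) := by group
          _ = (x * q) * (a * q⁻¹ * a⁻¹) := by rw [hxq]
          _ = _ := by group
      · have h3 : x * (a * q⁻¹ * a⁻¹) ≠ (a * q⁻¹ * a⁻¹) * x := by
          intro h4
          apply hxq
          have h5 : x * q⁻¹ = q⁻¹ * x := by
            calc x * q⁻¹ = (x * a⁻¹) * (a * q⁻¹ * a⁻¹) * a := by group
              _ = (a⁻¹ * x) * (a * q⁻¹ * a⁻¹) * a := by rw [hxa']
              _ = a⁻¹ * (x * (a * q⁻¹ * a⁻¹)) * a := by group
              _ = a⁻¹ * ((a * q⁻¹ * a⁻¹) * x) * a := by rw [h4]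
              _ = q⁻¹ * a⁻¹ * (x * a) := by group
              _ = q⁻¹ * a⁻¹ * (a * x) := by rw [hax]
              _ = _ := by group
          calc x * q = q * (q⁻¹ * x) * q := by group
            _ = q * (x * q⁻¹) * q := by rw [h5]
            _ = q * x := by group
        exact (hX.comm_mul hxQ hq hq' hxq h3).symm
    intro y hy
    exact (Subgroup.mem_centralizer_singleton_iff.1 (h1 hy)).symm
  have hQcent : ∀ x, (∀ y ∈ ⁅Q, A⁆, x * y = y * x) →
      (∀ y ∈ Q ⊓ Subgroup.centralizer (A : Set G), x * y = y * x) → ∀ y ∈ Q, x * y = y * x := by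
    intro x h1 h2
    have h3 : Q ≤ Subgroup.centralizer {x} := by
      rw [← hsup]
      apply sup_le
      · intro y hy
        exact Subgroup.mem_centralizer_singleton_iff.2 (h1 y hy).symm
      · intro y hy
        exact Subgroup.mem_centralizer_singleton_iff.2 (h2 y hy).symm
    intro y hy
    exact (Subgroup.mem_centralizer_singleton_iff.1 (h3 hy)).symm
  have hzC : z ∈ Q ⊓ Subgroup.centralizer (A : Set G) := (hCm z).2 ⟨hX.z_mem, hzA⟩
  -- R is not abelian
  have hRna : ∃ x ∈ ⁅Q, A⁆, ∃ y ∈ ⁅Q, A⁆, x * y ≠ y * x := by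
    by_contra hne
    push Not at hne
    have hR : ∀ x ∈ ⁅Q, A⁆, x = 1 ∨ x = z := by
      intro x hx
      apply hX.cent x (hRQ hx)
      exact hQcent x (fun y hy => hne x hx y hy) (fun y hy => (hcomm y hy x hx).symm)
    apply hA1
    rw [Subgroup.eq_bot_iff_forall]
    intro a ha
    have h1 : ∀ y ∈ Q, a * y = y * a := by
      intro q hq
      have h2 : a * q * a⁻¹ * q⁻¹ ∈ ⁅Q, A⁆ := by
        have : a * q * a⁻¹ * q⁻¹ = ⁅q, a⁆⁻¹ := by rw [commutatorElement_def]; group
        rw [this]
        exact inv_mem (Subgroup.commutator_mem_commutator hq ha)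
      rcases hR _ h2 with h3 | h3
      · calc a * q = (a * q * a⁻¹ * q⁻¹) * (q * a) := by group
          _ = q * a := by rw [h3, one_mul]
      · exfalso
        have h4 : a * q * a⁻¹ = z * q := by
          calc a * q * a⁻¹ = (a * q * a⁻¹ * q⁻¹) * q := by group
            _ = z * q := by rw [h3]
        have hza := hzA a ha
        have h5 : ∀ n : ℕ, a ^ n * q * (a ^ n)⁻¹ = z ^ n * q := by
          intro n
          induction n with
          | zero => simp
          | succ n ih =>
            have h6 : a * z ^ n = z ^ n * a := (show Commute a z from hza).pow_right n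
            calc a ^ (n + 1) * q * (a ^ (n + 1))⁻¹ = a * (a ^ n * q * (a ^ n)⁻¹) * a⁻¹ := by
                  rw [pow_succ' a n]; group
              _ = a * (z ^ n * q) * a⁻¹ := by rw [ih]
              _ = (a * z ^ n) * q * a⁻¹ := by group
              _ = (z ^ n * a) * q * a⁻¹ := by rw [h6]
              _ = z ^ n * (a * q * a⁻¹) := by group
              _ = z ^ n * (z * q) := by rw [h4]
              _ = z ^ (n + 1) * q := by rw [pow_succ]; group
        have h7 := h5 (Nat.card A)
        have h8 : a ^ Nat.card A = 1 := by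
          have := pow_card_eq_one' (x := (⟨a, ha⟩ : A))
          exact congrArg Subtype.val this
        rw [h8] at h7
        have h9 : z ^ Nat.card A = 1 := by
          have : z ^ Nat.card A = (z ^ Nat.card A * q) * q⁻¹ := by group
          rw [this, ← h7]; group
        obtain ⟨k, hk⟩ := hAodd
        rw [hk, pow_succ, pow_mul, pow_two, hX.z_sq, one_pow, one_mul] at h9
        exact hX.z_ne h9
    have h2 := hL.cent_G a h1
    have h3 : a ∈ Q := by
      rcases h2 with h | h
      · rw [h]; exact one_mem _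
      · rw [h]; exact hX.z_mem
    exact eq_one_of_odd_of_two hAodd hX.hp ha h3
  have hzR : z ∈ ⁅Q, A⁆ := by
    obtain ⟨x, hx, y, hy, hxy⟩ := hRna
    have h1 := (hX.comm x (hRQ hx) y (hRQ hy)).resolve_left hxy
    have : z = x * y * x⁻¹ * y⁻¹ := by rw [h1]; group
    rw [this]
    exact mul_mem (mul_mem (mul_mem hx hy) (inv_mem hx)) (inv_mem hy)
  have hRX : XS ⁅Q, A⁆ z := by
    apply XS.mk' (hX.hp.to_le hRQ) hX.z_ne hX.z_sq hzR (fun x hx => hX.z_comm x (hRQ hx)) _
      (fun x hx y hy => hX.comm x (hRQ hx) y (hRQ hy)) (fun x hx => hX.sq x (hRQ hx)) hRna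
    intro x hx h1
    exact hX.cent x (hRQ hx) (hQcent x h1 (fun y hy => (hcomm y hy x hx).symm))
  refine ⟨by rw [sup_comm]; exact hsup, hcomm, hRX.isExtraspecial, ?_⟩
  by_cases hCab : ∀ x ∈ Q ⊓ Subgroup.centralizer (A : Set G), ∀ y ∈ Q ⊓ Subgroup.centralizer (A : Set G), x * y = y * x
  · left
    rw [hX.center_eq]
    apply le_antisymm
    · intro x hx
      rw [mem_zpowers_of_sq hX.z_sq]
      exact hX.cent x ((hCm x).1 hx).1 (hQcent x (hcomm x hx) (hCab x hx))
    · rw [Subgroup.zpowers_le]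
      exact hzC
  · right
    push Not at hCab
    have hCX : XS (Q ⊓ Subgroup.centralizer (A : Set G)) z := by
      apply XS.mk' (hX.hp.to_le inf_le_left) hX.z_ne hX.z_sq hzC (fun x hx => hX.z_comm x ((hCm x).1 hx).1) _
        (fun x hx y hy => hX.comm x ((hCm x).1 hx).1 y ((hCm y).1 hy).1)
        (fun x hx => hX.sq x ((hCm x).1 hx).1) hCab
      intro x hx h1
      exact hX.cent x ((hCm x).1 hx).1 (hQcent x (hcomm x hx) h1)
    exact hCX.isExtraspecial

end Cfsg.Agent.S5434
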