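import Cfsg.Statements.S5428
import Cfsg.Agent.H2.LX2
import Cfsg.Agent.S5427
import Cfsg.Agent.S5434

set_option autoImplicit false
set_option linter.style.haveILetI false
set_option linter.unusedVariables false
set_option linter.unusedSectionVars false
open Cfsg

namespace Cfsg.Agent.S5428

open Cfsg.Agent Cfsg.Agent.H29 Cfsg.Agent.H2.LX
open Subgroup

/-- a group with a central involution and order not divisible by four -/
theorem central_inv {D : Type*} [Group D] [Finite D] (z : D) (hz : orderOf z = 2) (hc : ∀ x, x * z = z * x)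
    (h4 : ¬ 4 ∣ Nat.card D) (x : D) : x ∈ Cfsg.oddCore D ∨ x * z ∈ Cfsg.oddCore D := by
  haveI : Fact (Nat.Prime 2) := ⟨Nat.prime_two⟩
  have hzp : IsPGroup 2 (zpowers z) := IsPGroup.of_card (n := 1) (by rw [Nat.card_zpowers, hz, pow_one])
  obtain ⟨P, hP⟩ := hzp.exists_le_sylow
  have hcard : Nat.card P = 2 := by
    obtain ⟨k, hk⟩ := IsPGroup.iff_card.1 P.2
    have h1 : Nat.card (zpowers z) ∣ Nat.card P := card_dvd_of_le hP
    rw [Nat.card_zpowers, hz] at h1
    have h2 : Nat.card P ∣ Nat.card D := card_subgroup_dvd_card _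
    rcases k with _ | _ | k
    · rw [hk] at h1; omega
    · rw [hk]; norm_num
    · exfalso
      apply h4
      refine Dvd.dvd.trans ?_ h2
      rw [hk]
      exact ⟨2 ^ k, by ring⟩
  have hPe : zpowers z = (P : Subgroup D) := by
    apply eq_of_le_of_card_ge hP
    show Nat.card P ≤ _
    rw [hcard, Nat.card_zpowers, hz]
  have hzz : z * z = 1 := by
    have := pow_orderOf_eq_one z
    rwa [hz, pow_two] at this
  have hPc : ∀ y ∈ (P : Subgroup D), y = 1 ∨ y = z := by
    intro y hy
    rw [← hPe] at hy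
    exact (H29.mem_zpowers_of_sq hzz).1 hy
  have hN : normalizer ((P : Subgroup D) : Set D) ≤ centralizer (P : Set D) := by
    intro x _
    rw [mem_centralizer_iff]
    intro y hy
    rcases hPc y hy with rfl | rfl
    · simp
    · exact (hc x).symm
  have hcomp := MonoidHom.ker_transferSylow_isComplement' P hN
  have hnd := MonoidHom.not_dvd_card_ker_transferSylow P hN
  have hle : (MonoidHom.transferSylow P hN).ker ≤ Cfsg.oddCore D :=
    H1.le_pPrimeCore inferInstance (Nat.coprime_two_right.2 (by rwa [← Nat.not_even_iff_odd, even_iff_two_dvd]))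
  obtain ⟨⟨k, s⟩, hks⟩ := hcomp.2 x
  have hks' : (k : D) * s = x := hks
  rcases hPc s s.2 with h1 | h1
  · left
    rw [← hks', h1, mul_one]
    exact hle k.2
  · right
    rw [← hks', h1, mul_assoc, hzz, mul_one]
    exact hle k.2

theorem dec {G : Type*} [Group G] [Finite G] {Q A : Subgroup G} {z : G} (h : NXS Q z) (hL : Cfsg.IsLargeExtraspecial Q)
    (hA : A ≤ normalizer (Q : Set G)) (hodd : Odd (Nat.card A)) {x : G} (hx : x ∈ Q ⊓ centralizer (A : Set G))
    (hc : ∀ y ∈ Q ⊓ centralizer (A : Set G), x * y = y * x) : x = 1 ∨ x = z := by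
  by_cases hA1 : A = ⊥
  · apply h.cent x hx.1
    intro y hy
    apply hc y
    refine ⟨hy, ?_⟩
    rw [hA1]
    exact mem_centralizer_iff.2 (fun w hw => by
      have : w = 1 := mem_bot.1 hw
      rw [this]; simp)
  · obtain ⟨h1, h2, -, -⟩ := S5434.result Q hL A hA hodd hA1
    apply h.cent x hx.1
    intro y hy
    have hle : Q ≤ centralizer ({x} : Set G) := by
      conv_lhs => rw [← h1]
      apply sup_le
      · intro w hw
        rw [mem_centralizer_singleton_iff]
        exact (hc w hw).symm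
      · intro w hw
        rw [mem_centralizer_singleton_iff]
        exact (h2 x hx w hw).symm
    exact (mem_centralizer_singleton_iff.1 (hle hy)).symm

/-- Let z be an involution of the finite group G whose centralizer C has generalized Fitting subgroup Q extraspecial (as a 2-group), let A be a subgroup of C of odd order, and let R be the centralizer of A in Q; suppose R has order at least 32, the largest normal subgroup of odd order of the centralizer of the subgroup generated by A and R lies in A, the order of that centralizer is not divisible by 4, and g is an element of G with g z g⁻¹ in R but outside the centre Z of Q. Let M be the subgroup generated by A and the centralizer of A (A is normal in it). Then: the centralizer in M of the subgroup generated by R and A, joined with A, equals the subgroup generated by A and Z; the image of R in M/A is a large extraspecial 2-subgroup of M/A; and g z g⁻¹ is conjugate to z inside the subgroup generated by R and the centralizer of A in g Q g⁻¹.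 -/
theorem result {G : Type*} [Group G] [Finite G] (z : G) (hz : orderOf z = 2) (Q : Subgroup G) (hQC : Q ≤ Subgroup.centralizer ({z} : Set G)) (hF : (Cfsg.generalizedFittingSubgroup ↥(Subgroup.centralizer ({z} : Set G))).map (Subgroup.centralizer ({z} : Set G)).subtype = Q) (hQ : Cfsg.IsExtraspecial 2 ↥Q) (A : Subgroup G) (hA : A ≤ Subgroup.centralizer ({z} : Set G)) (hAodd : Odd (Nat.card ↥A)) (R : Subgroup G) (hR : R = Q ⊓ Subgroup.centralizer (A : Set G)) (hR32 : 32 ≤ Nat.card ↥R) (hO : (Cfsg.oddCore ↥(Subgroup.centralizer ((A ⊔ R : Subgroup G) : Set G))).map (Subgroup.centralizer ((A ⊔ R : Subgroup G) : Set G)).subtype ≤ A) (h4 : ¬ 4 ∣ Nat.card ↥(Subgroup.centralizer ((A ⊔ R : Subgroup G) : Set G))) (g : G) (hgR : g * z * g⁻¹ ∈ R) (hgZ : g * z * g⁻¹ ∉ ((Subgroup.center ↥Q).map Q.subtype)) (M : Subgroup G) (hM : M = Subgroup.centralizer (A : Set G) ⊔ A) [hn : (A.subgroupOf M).Normal] : (M ⊓ Subgroup.centralizer ((R ⊔ A : Subgroup G) : Set G)) ⊔ A = A ⊔ ((Subgroup.center ↥Q).map Q.subtype)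 ∧ Cfsg.IsLargeExtraspecial ((R.subgroupOf M).map (QuotientGroup.mk' (A.subgroupOf M))) ∧ ∃ x ∈ R ⊔ ((Q).map (MulAut.conj g).toMonoidHom ⊓ Subgroup.centralizer (A : Set G)), x * (g * z * g⁻¹) * x⁻¹ = z := by
  haveI : Fact (Nat.Prime 2) := ⟨Nat.prime_two⟩
  obtain ⟨z0, h0⟩ := xs_of_isExtraspecial Q hQ
  have h : NXS Q z := nxs_of_fstar hz hF h0
  have hRQ : R ≤ Q := by rw [hR]; exact inf_le_left
  have hcQ : 8 < Nat.card Q := lt_of_lt_of_le (by omega : 8 < Nat.card R) (Nat.le_of_dvd Nat.card_pos (card_dvd_of_le hRQ))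
  rw [h.center_eq, H29.mem_zpowers_of_sq h.z_sq] at hgZ
  push Not at hgZ
  have hgH : g ∉ centralizer ({z} : Set G) := by
    intro h1
    apply hgZ.2
    exact Sit.conj_of_comm (mem_centralizer_singleton_iff.1 h1)
  have hS := sit_of_nxs h hcQ g hgH (hRQ hgR)
  rw [h.center_eq]
  obtain ⟨v, hv⟩ : ∃ v, v = g * z * g⁻¹ := ⟨_, rfl⟩
  obtain ⟨B, hB⟩ : ∃ B, B = Q.map (MulAut.conj g).toMonoidHom := ⟨_, rfl⟩
  rw [← hv] at hgR
  rw [← hv, ← hB] at hS ⊢
  -- largeness of both
  have hLQ : Cfsg.IsLargeExtraspecial Q := S5427.large_of h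
    (h.odd_of_invol hS.vA hS.hB.z_ne hS.ne hS.vv hS.hB.hp hS.zB (fun x hx y hy =>
      (mem_normalizer_iff.1 ((hS.hB.norm x).2 hx) y).1 hy)) hQ
  have hLB : Cfsg.IsLargeExtraspecial B := S5427.large_of hS.hB
    (hS.hB.odd_of_invol hS.zB h.z_ne hS.ne.symm h.z_sq h.hp hS.vA (fun x hx y hy =>
      (mem_normalizer_iff.1 ((h.norm x).2 hx) y).1 hy)) hS.hB.toXS.isExtraspecial
  have hAz : ∀ a ∈ A, a * z = z * a := fun a ha => mem_centralizer_singleton_iff.1 (hA ha)
  have hzCA : z ∈ centralizer (A : Set G) := mem_centralizer_iff.2 hAz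
  have hRA : R ≤ centralizer (A : Set G) := by rw [hR]; exact inf_le_right
  have hvCA : v ∈ centralizer (A : Set G) := hRA hgR
  have hAv : ∀ a ∈ A, a * v = v * a := mem_centralizer_iff.1 hvCA
  have hAQ : A ≤ normalizer (Q : Set G) := fun a ha => (h.norm a).2 (hAz a ha)
  have hAB : A ≤ normalizer (B : Set G) := fun a ha => (hS.hB.norm a).2 (hAv a ha)
  have decR : ∀ x ∈ R, (∀ y ∈ R, x * y = y * x) → x = 1 ∨ x = z := by
    intro x hx hc
    rw [hR] at hx hc
    exact dec h hLQ hAQ hAodd hx hc
  have decB : ∀ x ∈ B ⊓ centralizer (A : Set G), (∀ y ∈ B ⊓ centralizer (A : Set G), x * y = y * x) → x = 1 ∨ x = v :=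
    fun x hx hc => dec hS.hB hLB hAB hAodd hx hc
  have hzR : z ∈ R := by rw [hR]; exact ⟨h.z_mem, hzCA⟩
  have hCM : centralizer (A : Set G) ≤ M := by rw [hM]; exact le_sup_left
  have hAM : A ≤ M := by rw [hM]; exact le_sup_right
  have hRM : R ≤ M := hRA.trans hCM
  -- structure of `C(AR)`
  have hD0 : ∀ x ∈ centralizer ((A ⊔ R : Subgroup G) : Set G), x ∈ A ∨ x * z ∈ A := by
    intro x hx
    have hzD : z ∈ centralizer ((A ⊔ R : Subgroup G) : Set G) := by
      have hle : A ⊔ R ≤ centralizer ({z} : Set G) :=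
        sup_le hA (fun y hy => mem_centralizer_singleton_iff.2 (h.z_comm y (hRQ hy)))
      exact mem_centralizer_iff.2 (fun y hy => mem_centralizer_singleton_iff.1 (hle hy))
    have hoz : orderOf (⟨z, hzD⟩ : centralizer ((A ⊔ R : Subgroup G) : Set G)) = 2 := by
      rw [Subgroup.orderOf_mk]; exact hz
    have hcz : ∀ y : centralizer ((A ⊔ R : Subgroup G) : Set G), y * ⟨z, hzD⟩ = ⟨z, hzD⟩ * y := by
      intro y
      apply Subtype.ext
      exact (mem_centralizer_iff.1 y.2 z (mem_sup_right hzR)).symm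
    rcases central_inv _ hoz hcz h4 ⟨x, hx⟩ with h1 | h1
    · left; exact hO ⟨_, h1, rfl⟩
    · right; exact hO ⟨_, h1, rfl⟩
  have hAodd1 : ∀ a ∈ A, a ^ 4 = 1 → a = 1 := by
    intro a ha h4'
    have h5 : orderOf a ∣ Nat.card A := Subgroup.orderOf_dvd_natCard A ha
    have h6 : orderOf a ∣ 2 ^ 2 := orderOf_dvd_of_pow_eq_one h4'
    have h7 : Nat.Coprime (Nat.card A) (2 ^ 2) := (Nat.coprime_two_right.2 hAodd).pow_right 2
    have h8 : orderOf a ∣ 1 := by rw [← h7.gcd_eq_one]; exact Nat.dvd_gcd h5 h6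
    exact orderOf_eq_one_iff.1 (Nat.dvd_one.1 h8)
  -- commuting modulo `A`
  have hmod : ∀ x y : G, y ∈ centralizer (A : Set G) → y ^ 4 = 1 → x * y * x⁻¹ * y⁻¹ ∈ A → x * y = y * x := by
    intro x y hy hy4 h1
    have h2 : (x * y * x⁻¹ * y⁻¹) * y = y * (x * y * x⁻¹ * y⁻¹) := mem_centralizer_iff.1 hy _ h1
    have h3 : (x * y * x⁻¹ * y⁻¹) ^ 4 = 1 := by
      have h5 : (x * y * x⁻¹ * y⁻¹) ^ 4 * y ^ 4 = (x * y * x⁻¹) ^ 4 := by
        rw [← (show Commute (x * y * x⁻¹ * y⁻¹) y from h2).mul_pow]
        congr 1; group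
      rw [hy4, mul_one] at h5
      rw [h5, conj_pow, hy4]; group
    have h4' := hAodd1 _ h1 h3
    calc x * y = (x * y * x⁻¹ * y⁻¹) * (y * x) := by group
      _ = y * x := by rw [h4', one_mul]
  have hQ4 : ∀ y ∈ Q, y ^ 4 = 1 := by
    intro y hy
    have h5 : y ^ 4 = (y * y) * (y * y) := by simp only [pow_succ, pow_zero, one_mul, mul_assoc]
    rw [h5]
    rcases h.sq y hy with h6 | h6
    · rw [h6, one_mul]
    · rw [h6]; exact h.z_sq
  have hzz := h.z_sq
  have hz4 : z ^ 4 = 1 := hQ4 z h.z_mem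
  have hv4 : v ^ 4 = 1 := hQ4 v hS.vA
  have hinvA : ∀ y : G, y * y = 1 → y ∈ A → y = 1 := by
    intro y hy hyA
    apply hAodd1 y hyA
    have h5 : y ^ 4 = (y * y) * (y * y) := by simp only [pow_succ, pow_zero, one_mul, mul_assoc]
    rw [h5, hy, one_mul]
  refine ⟨?_, ?_, ?_⟩
  · apply le_antisymm
    · apply sup_le _ le_sup_left
      intro x hx
      have hx2 : x ∈ centralizer ((A ⊔ R : Subgroup G) : Set G) := by rw [sup_comm]; exact hx.2
      rcases hD0 x hx2 with h1 | h1
      · exact mem_sup_left h1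
      · have e : x = (x * z) * z := by rw [mul_assoc, hzz, mul_one]
        rw [e]
        exact mul_mem (mem_sup_left h1) (mem_sup_right (mem_zpowers z))
    · apply sup_le le_sup_right
      rw [zpowers_le]
      apply mem_sup_left
      refine ⟨hRM hzR, ?_⟩
      have hle : R ⊔ A ≤ centralizer ({z} : Set G) :=
        sup_le (fun y hy => mem_centralizer_singleton_iff.2 (h.z_comm y (hRQ hy))) hA
      exact mem_centralizer_iff.2 (fun y hy => mem_centralizer_singleton_iff.1 (hle hy))
  · set π := QuotientGroup.mk' (A.subgroupOf M) with hπ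
    have hπ1 : ∀ y : M, π y = 1 ↔ (y : G) ∈ A := fun y => by
      rw [hπ, QuotientGroup.mk'_apply, QuotientGroup.eq_one_iff, mem_subgroupOf]
    have hπcomm : ∀ x y : M, π x * π y = π y * π x ↔ (x : G) * y * (x : G)⁻¹ * (y : G)⁻¹ ∈ A := by
      intro x y
      have h1 := hπ1 (x * y * x⁻¹ * y⁻¹)
      simp only [map_mul, map_inv] at h1
      rw [mul_inv_eq_one, mul_inv_eq_iff_eq_mul] at h1
      exact h1
    have hπsurj : Function.Surjective π := QuotientGroup.mk'_surjective _
    set Rb := (R.subgroupOf M).map π with hRb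
    have hmem : ∀ x ∈ Rb, ∃ y : M, (y : G) ∈ R ∧ x = π y := by
      rintro _ ⟨y, hy, rfl⟩
      exact ⟨y, mem_subgroupOf.1 hy, rfl⟩
    have hmem' : ∀ y : M, (y : G) ∈ R → π y ∈ Rb := fun y hy => mem_map_of_mem π (mem_subgroupOf.2 hy)
    have hzM : z ∈ M := hRM hzR
    have hvM : v ∈ M := hRM hgR
    have hcommR : ∀ (x : M) (y : G) (hy : y ∈ R), π x * π ⟨y, hRM hy⟩ = π ⟨y, hRM hy⟩ * π x → (x : G) * y = y * x := by
      intro x y hy h1
      exact hmod _ _ (hRA hy) (hQ4 y (hRQ hy)) ((hπcomm x ⟨y, hRM hy⟩).1 h1)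
    have hXS : XS Rb (π ⟨z, hzM⟩) := by
      apply XS.mk'
      · exact ((h.hp.to_le hRQ).comap_of_injective M.subtype (subtype_injective M)).map π
      · rw [Ne, hπ1]
        intro h1
        exact h.z_ne (hinvA z hzz h1)
      · rw [← map_mul, hπ1]
        show z * z ∈ _
        rw [hzz]; exact one_mem _
      · exact hmem' _ hzR
      · intro x hx
        obtain ⟨y, hy, rfl⟩ := hmem x hx
        rw [← map_mul, ← map_mul]
        congr 1
        exact Subtype.ext (h.z_comm _ (hRQ hy))
      · intro x hx hc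
        obtain ⟨y, hy, rfl⟩ := hmem x hx
        rcases decR y hy (fun d hd => hcommR y d hd (hc _ (hmem' ⟨d, hRM hd⟩ hd))) with h1 | h1
        · left; rw [hπ1, h1]; exact one_mem _
        · right; congr 1; exact Subtype.ext h1
      · intro x hx y hy
        obtain ⟨x', hx', rfl⟩ := hmem x hx
        obtain ⟨y', hy', rfl⟩ := hmem y hy
        rcases h.comm _ (hRQ hx') _ (hRQ hy') with h1 | h1
        · left
          rw [← map_mul, ← map_mul]
          congr 1
          exact Subtype.ext h1
        · right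
          rw [← map_mul, ← map_mul, ← map_mul]
          congr 1
          exact Subtype.ext h1
      · intro x hx
        obtain ⟨x', hx', rfl⟩ := hmem x hx
        rcases h.sq _ (hRQ hx') with h1 | h1
        · left
          rw [← map_mul, ← map_one π]
          congr 1
          exact Subtype.ext h1
        · right
          rw [← map_mul]
          congr 1
          exact Subtype.ext h1
      · obtain ⟨q1, hq1, h1⟩ : ∃ q ∈ R, v * q ≠ q * v := by
          by_contra hne
          push Not at hne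
          rcases decR v hgR hne with h1 | h1
          · exact hS.hB.z_ne h1
          · exact hS.ne h1
        refine ⟨_, hmem' ⟨v, hvM⟩ hgR, _, hmem' ⟨q1, hRM hq1⟩ hq1, fun h2 => h1 ?_⟩
        exact hcommR ⟨v, hvM⟩ q1 hq1 h2
    have hAn : ∀ x ∈ M, ∀ a ∈ A, x * a * x⁻¹ ∈ A := by
      intro x hx a ha
      exact mem_subgroupOf.1 (hn.conj_mem ⟨a, hAM ha⟩ (mem_subgroupOf.2 ha) ⟨x, hx⟩)
    have hCn : ∀ x ∈ M, ∀ c ∈ centralizer (A : Set G), x * c * x⁻¹ ∈ centralizer (A : Set G) := by
      intro x hx c hc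
      rw [mem_centralizer_iff] at hc ⊢
      intro a ha
      have h1 : x⁻¹ * a * x ∈ A := by
        have := hAn x⁻¹ (inv_mem hx) a ha
        rwa [inv_inv] at this
      have h2 := hc _ h1
      calc a * (x * c * x⁻¹) = x * ((x⁻¹ * a * x) * c) * x⁻¹ := by group
        _ = x * (c * (x⁻¹ * a * x)) * x⁻¹ := by rw [h2]
        _ = x * c * x⁻¹ * a := by group
    have hNXS : NXS Rb (π ⟨z, hzM⟩) := by
      refine ⟨hXS, ?_, ?_⟩
      · intro x hx
        obtain ⟨y, rfl⟩ := hπsurj x
        have h1 : ∀ d ∈ R, (y : G) * d = d * y := fun d hd => hcommR y d hd (hx _ (hmem' ⟨d, hRM hd⟩ hd))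
        have hyM : (y : G) ∈ centralizer (A : Set G) ⊔ A := by rw [← hM]; exact y.2
        have hAnorm : A ≤ normalizer ((centralizer (A : Set G) : Subgroup G) : Set G) := by
          intro a ha
          rw [mem_normalizer_iff]
          intro c
          refine ⟨hCn a (hAM ha) c, fun h2 => ?_⟩
          have := hCn a⁻¹ (inv_mem (hAM ha)) _ h2
          have e : a⁻¹ * (a * c * a⁻¹) * a⁻¹⁻¹ = c := by group
          rwa [e] at this
        obtain ⟨c, hc, a, ha, he⟩ := (H1.mem_sup_iff_of_le_normalizer hAnorm).1 hyM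
        have hcR : c ∈ centralizer ((A ⊔ R : Subgroup G) : Set G) := by
          have hle : A ⊔ R ≤ centralizer ({c} : Set G) := by
            apply sup_le
            · intro w hw
              exact mem_centralizer_singleton_iff.2 (mem_centralizer_iff.1 hc w hw)
            · intro w hw
              rw [mem_centralizer_singleton_iff]
              have e1 : c = (y : G) * a⁻¹ := by rw [← he]; group
              have e2 : a⁻¹ * w = w * a⁻¹ := (mem_centralizer_iff.1 (hRA hw) _ (inv_mem ha))
              rw [e1]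
              calc w * ((y : G) * a⁻¹) = (w * y) * a⁻¹ := by group
                _ = (y * w) * a⁻¹ := by rw [h1 w hw]
                _ = y * (w * a⁻¹) := by group
                _ = (y : G) * a⁻¹ * w := by rw [← e2]; group
          exact mem_centralizer_iff.2 (fun w hw => mem_centralizer_singleton_iff.1 (hle hw))
        have hyA : π y = π ⟨c, hCM hc⟩ := by
          have h2 : π (⟨c, hCM hc⟩⁻¹ * y) = 1 := by
            rw [hπ1]
            show c⁻¹ * (y : G) ∈ A
            rw [← he]
            have : c⁻¹ * (c * a) = a := by group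
            rw [this]; exact ha
          rw [map_mul, map_inv, inv_mul_eq_one] at h2
          exact h2.symm
        rcases hD0 c hcR with h2 | h2
        · left; rw [hyA, hπ1]; exact h2
        · right
          rw [hyA]
          have h3 : π (⟨c, hCM hc⟩ * ⟨z, hzM⟩) = 1 := by rw [hπ1]; exact h2
          rw [map_mul] at h3
          rw [eq_inv_of_mul_eq_one_left h3]
          exact inv_eq_of_mul_eq_one_left hXS.z_sq
      · intro x
        obtain ⟨y, rfl⟩ := hπsurj x
        constructor
        · exact hXS.norm_comm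
        · intro hx
          have hyz : (y : G) * z = z * y := hcommR y z hzR hx
          have key : ∀ y : M, (y : G) * z = z * y → ∀ w ∈ Rb, π y * w * (π y)⁻¹ ∈ Rb := by
            intro y hyz w hw
            obtain ⟨u, hu, rfl⟩ := hmem w hw
            rw [← map_mul, ← map_inv, ← map_mul]
            apply hmem'
            rw [hR]
            exact ⟨(mem_normalizer_iff.1 ((h.norm (y : G)).2 hyz) u).1 (hRQ hu), hCn y y.2 u (hRA hu)⟩
          rw [mem_normalizer_iff]
          intro w
          refine ⟨key y hyz w, fun h2 => ?_⟩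
          have hyz' : ((y⁻¹ : M) : G) * z = z * ((y⁻¹ : M) : G) := by
            show (y : G)⁻¹ * z = z * (y : G)⁻¹
            calc (y : G)⁻¹ * z = (y : G)⁻¹ * (z * y) * (y : G)⁻¹ := by group
              _ = (y : G)⁻¹ * (y * z) * (y : G)⁻¹ := by rw [hyz]
              _ = z * (y : G)⁻¹ := by group
          have h3 := key y⁻¹ hyz' _ h2
          rw [map_inv] at h3
          have e : (π y)⁻¹ * (π y * w * (π y)⁻¹) * (π y)⁻¹⁻¹ = w := by group
          rwa [e] at h3
    have hodd := hNXS.odd_of_invol (b := π ⟨v, hvM⟩) (hmem' _ hgR)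
      (by
        rw [Ne, hπ1]
        intro h1
        exact hS.hB.z_ne (hinvA v hS.vv h1))
      (by
        intro h1
        have h2 : π (⟨v, hvM⟩ * ⟨z, hzM⟩⁻¹) = 1 := by rw [map_mul, map_inv, h1, mul_inv_cancel]
        have h2' : v * z⁻¹ ∈ A := (hπ1 _).1 h2
        have hzi : z⁻¹ = z := inv_eq_of_mul_eq_one_left hzz
        have h3 : v * z⁻¹ = 1 := by
          apply hinvA _ _ h2'
          rw [hzi]
          calc v * z * (v * z) = v * (z * v) * z := by group
            _ = (v * v) * (z * z) := by rw [← hS.zv]; group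
            _ = 1 := by rw [hS.vv, hzz, one_mul]
        exact hS.ne (mul_inv_eq_one.1 h3))
      (by
        rw [← map_mul, hπ1]
        show v * v ∈ _
        rw [hS.vv]; exact one_mem _)
      (P := ((B ⊓ centralizer (A : Set G)).subgroupOf M).map π)
      (((hS.hB.hp.to_le inf_le_left).comap_of_injective M.subtype (subtype_injective M)).map π)
      (mem_map_of_mem π (mem_subgroupOf.2 ⟨hS.zB, hzCA⟩))
      (by
        intro x hx w hw
        obtain ⟨y, rfl⟩ := hπsurj x
        obtain ⟨u, hu, rfl⟩ := hw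
        have hyv : (y : G) * v = v * y := hcommR y v hgR hx
        rw [← map_mul, ← map_inv, ← map_mul]
        apply mem_map_of_mem
        rw [mem_subgroupOf]
        exact ⟨(mem_normalizer_iff.1 ((hS.hB.norm (y : G)).2 hyv) u).1 (mem_subgroupOf.1 hu).1, hCn y y.2 u (mem_subgroupOf.1 hu).2⟩)
    exact S5427.large_of hNXS hodd hXS.isExtraspecial
  · obtain ⟨q1, hq1R, hq1v⟩ : ∃ q ∈ R, q * v ≠ v * q := by
      by_contra hne
      push Not at hne
      rcases decR v hgR (fun y hy => (hne y hy).symm) with h1 | h1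
      · exact hS.hB.z_ne h1
      · exact hS.ne h1
    obtain ⟨q2, hq2D, hq2z⟩ : ∃ q ∈ B ⊓ centralizer (A : Set G), q * z ≠ z * q := by
      by_contra hne
      push Not at hne
      rcases decB z ⟨hS.zB, hzCA⟩ (fun y hy => (hne y hy).symm) with h1 | h1
      · exact h.z_ne h1
      · exact hS.ne h1.symm
    obtain ⟨a1, a2, a3⟩ := hS.q_acts (hRQ hq1R) hq1v
    obtain ⟨b1, b2, b3⟩ := hS.symm.q_acts hq2D.1 hq2z
    refine ⟨q2 * q1 , mul_mem (mem_sup_right hq2D) (mem_sup_left hq1R), ?_⟩
    have e : q2 * q1 * v * (q2 * q1)⁻¹ = q2 * (q1 * v * q1⁻¹) * q2⁻¹ := by group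
    rw [e, a1, ← hS.zv, b3]

end Cfsg.Agent.S5428
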