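import Cfsg.Statements.S5429
import Cfsg.Agent.H2.LX2
import Cfsg.Agent.S5427

set_option autoImplicit false
set_option linter.style.haveILetI false
set_option linter.unusedVariables false
set_option linter.unusedSectionVars false
open Cfsg

namespace Cfsg.Agent.S5429

open Cfsg.Agent Cfsg.Agent.H29 Cfsg.Agent.H2.LX
open Subgroup

section
variable {G : Type*} [Group G]

theorem pw {t : G} (htt : t * t = 1) {x : G} : x ∈ zpowers t ↔ x = 1 ∨ x = t := H29.mem_zpowers_of_sq htt

/-- elements of the centralizer of a non-central involution `t` of `Q` commuting with that centralizer -/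
theorem cent_in {Q : Subgroup G} {z t : G} (h : XS Q z) (htQ : t ∈ Q) (htt : t * t = 1) (ht1 : t ≠ 1) (htz : t ≠ z)
    {y : G} (hy : y ∈ Q) (hc : ∀ d ∈ Q, d * t = t * d → y * d = d * y) :
    y = 1 ∨ y = z ∨ y = t ∨ y = z * t := by
  obtain ⟨q, hq, h1⟩ : ∃ q ∈ Q, q * t ≠ t * q := by
    by_contra hne
    push Not at hne
    rcases h.cent t htQ (fun y hy => (hne y hy).symm) with h1 | h1
    · exact ht1 h1
    · exact htz h1
  have comm_all : ∀ c : G, (∀ d ∈ Q, d * t = t * d → c * d = d * c) → c * q = q * c → ∀ y ∈ Q, c * y = y * c := by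
    intro c hc hcq y hy
    by_cases h2 : y * t = t * y
    · exact hc y hy h2
    · have h4 : (q⁻¹ * y) * t = t * (q⁻¹ * y) := by
        refine (h.comm_mul htQ (Q.inv_mem hq) hy (fun h3 => h1 ?_) (fun h3 => h2 h3.symm)).symm
        calc q * t = q * (t * q⁻¹) * q := by group
          _ = q * (q⁻¹ * t) * q := by rw [h3]
          _ = t * q := by group
      have h3 := hc _ (Q.mul_mem (Q.inv_mem hq) hy) h4
      calc c * y = (c * q) * (q⁻¹ * y) := by group
        _ = q * (c * (q⁻¹ * y)) := by rw [hcq]; group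
        _ = q * ((q⁻¹ * y) * c) := by rw [h3]
        _ = y * c := by group
  by_cases h2 : q * y = y * q
  · rcases h.cent y hy (comm_all y hc h2.symm) with h3 | h3
    · exact Or.inl h3
    · exact Or.inr (Or.inl h3)
  · have h3 := h.comm_mul hq htQ hy h1 h2
    have h4 : ∀ d ∈ Q, d * t = t * d → (t * y) * d = d * (t * y) := by
      intro d hd hdt
      calc (t * y) * d = t * (y * d) := by group
        _ = t * (d * y) := by rw [hc d hd hdt]
        _ = (t * d) * y := by group
        _ = d * (t * y) := by rw [← hdt]; group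
    rcases h.cent _ (Q.mul_mem htQ hy) (comm_all _ h4 h3.symm) with h5 | h5
    · right; right; left
      calc y = t * (t * y) := by rw [← mul_assoc, htt, one_mul]
        _ = t := by rw [h5, mul_one]
    · right; right; right
      calc y = t * (t * y) := by rw [← mul_assoc, htt, one_mul]
        _ = z * t := by rw [h5, h.z_comm t htQ]

/-- a non-central involution of `Q` is conjugate to its product with `z` -/
theorem conj_t {Q : Subgroup G} {z t : G} (h : XS Q z) (htQ : t ∈ Q) (ht1 : t ≠ 1) (htz : t ≠ z) :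
    IsConj t (z * t) := by
  obtain ⟨q, hq, h1⟩ : ∃ q ∈ Q, q * t ≠ t * q := by
    by_contra hne
    push Not at hne
    rcases h.cent t htQ (fun y hy => (hne y hy).symm) with h1 | h1
    · exact ht1 h1
    · exact htz h1
  have h2 := (h.comm q hq t htQ).resolve_left h1
  exact isConj_iff.2 ⟨q, by rw [h2]; group⟩

end

/-- Let z be an involution of the finite group G with centralizer C whose generalized Fitting subgroup Q is extraspecial of width at least 3 (order 2^(2w+1), w ≥ 3); let g be an element of G with g z g⁻¹ in Q but outside the centre Z of Q, and t an involution lying in both Q and g Q g⁻¹ that is not conjugate to z; write P for the centralizer of t in Q and suppose that the elements of C acting trivially by conjugation on P modulo the subgroup generated by t and z are exactly the elements of Q. Then the image of P in the centralizer of t modulo the subgroup generated by t is a large extraspecial 2-subgroup there, and g z g⁻¹ is conjugate to z inside the subgroup generated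 by P and the centralizer of t in g Q g⁻¹. -/
theorem result {G : Type*} [Group G] [Finite G] (z : G) (hz : orderOf z = 2) (Q : Subgroup G) (hQC : Q ≤ Subgroup.centralizer ({z} : Set G)) (hF : (Cfsg.generalizedFittingSubgroup ↥(Subgroup.centralizer ({z} : Set G))).map (Subgroup.centralizer ({z} : Set G)).subtype = Q) (hQ : Cfsg.IsExtraspecial 2 ↥Q) (w : ℕ) (hw : 3 ≤ w) (hcard : Nat.card ↥Q = 2 ^ (2 * w + 1)) (g : G) (hgQ : g * z * g⁻¹ ∈ Q) (hgZ : g * z * g⁻¹ ∉ ((Subgroup.center ↥Q).map Q.subtype)) (t : G) (ht : orderOf t = 2) (htQ : t ∈ Q ⊓ (Q).map (MulAut.conj g).toMonoidHom) (htz : ¬ IsConj z t) (P : Subgroup G) (hP : P = Q ⊓ Subgroup.centralizer ({t} : Set G)) (hCP : ∀ c ∈ Subgroup.centralizer ({z} : Set G), (∀ x ∈ P, ∃ y ∈ Subgroup.closure ({t, z} : Set G), c * x * c⁻¹ = x * y) ↔ c ∈ Q) [hn : ((Subgroup.zpowers t).subgroupOf (Subgroup.centralizer ({t} : Set G))).Normal] : Cfsg.IsLargeExtraspecial ((P.subgroupOf (Subgroup.centralizer ({t} : Set G))).map (QuotientGroup.mk' ((Subgroup.zpowers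 t).subgroupOf (Subgroup.centralizer ({t} : Set G))))) ∧ ∃ x ∈ P ⊔ ((Q).map (MulAut.conj g).toMonoidHom ⊓ Subgroup.centralizer ({t} : Set G)), x * (g * z * g⁻¹) * x⁻¹ = z := by
  haveI : Fact (Nat.Prime 2) := ⟨Nat.prime_two⟩
  obtain ⟨z0, h0⟩ := xs_of_isExtraspecial Q hQ
  have h : NXS Q z := nxs_of_fstar hz hF h0
  have hcQ : 8 < Nat.card Q := by
    rw [hcard]
    calc 8 < 2 ^ 5 := by norm_num
      _ ≤ 2 ^ (2 * w + 1) := Nat.pow_le_pow_right (by norm_num) (by omega)
  rw [h.center_eq, pw h.z_sq] at hgZ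
  push Not at hgZ
  have hgH : g ∉ centralizer ({z} : Set G) := by
    intro h1
    apply hgZ.2
    exact Sit.conj_of_comm (mem_centralizer_singleton_iff.1 h1)
  have hS := sit_of_nxs h hcQ g hgH hgQ
  obtain ⟨v, hv⟩ : ∃ v, v = g * z * g⁻¹ := ⟨_, rfl⟩
  obtain ⟨B, hB⟩ : ∃ B, B = Q.map (MulAut.conj g).toMonoidHom := ⟨_, rfl⟩
  rw [← hB] at htQ
  rw [← hv, ← hB] at hS ⊢
  have hzvconj : IsConj z v := isConj_iff.2 ⟨g, hv.symm⟩
  have htt : t * t = 1 := by
    have := pow_orderOf_eq_one t
    rwa [ht, pow_two] at this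
  have ht1 : t ≠ 1 := by
    intro h1; rw [h1, orderOf_one] at ht; omega
  have htz1 : t ≠ z := fun h1 => htz (h1 ▸ IsConj.refl _)
  have htv1 : t ≠ v := fun h1 => htz (h1 ▸ hzvconj)
  have hzt : ¬ IsConj z (z * t) := fun h1 => htz (h1.trans (conj_t h.toXS htQ.1 ht1 htz1).symm)
  have hvt : ¬ IsConj z (v * t) := fun h1 => htz (h1.trans (conj_t hS.hB.toXS htQ.2 ht1 htv1).symm)
  have hti : t⁻¹ = t := inv_eq_of_mul_eq_one_left htt
  -- elements commuting with `z` modulo `t`
  have hmodz : ∀ x y : G, IsConj z y → (¬ IsConj z (y * t)) → x * y * x⁻¹ * y⁻¹ ∈ zpowers t → x * y = y * x := by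
    intro x y hy hyt h1
    rw [pw htt] at h1
    rcases h1 with h1 | h1
    · calc x * y = (x * y * x⁻¹ * y⁻¹) * (y * x) := by group
        _ = _ := by rw [h1, one_mul]
    · exfalso
      have h2 : x * y * x⁻¹ = t * y := by rw [← h1]; group
      apply hyt
      refine hy.trans ((isConj_iff.2 ⟨x, h2⟩ : IsConj y (t * y)).trans ?_)
      exact isConj_iff.2 ⟨t, by rw [← mul_assoc, htt, one_mul, hti]⟩
  have htC : t ∈ centralizer ({t} : Set G) := mem_centralizer_singleton_iff.2 rfl
  have htzc := h.z_comm t htQ.1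
  have htvc := hS.hB.z_comm t htQ.2
  have hzC : z ∈ centralizer ({t} : Set G) := mem_centralizer_singleton_iff.2 htzc.symm
  have hvC : v ∈ centralizer ({t} : Set G) := mem_centralizer_singleton_iff.2 htvc.symm
  have hPC : P ≤ centralizer ({t} : Set G) := by rw [hP]; exact inf_le_right
  have hPQ : P ≤ Q := by rw [hP]; exact inf_le_left
  have hPm : ∀ d ∈ Q, d * t = t * d → d ∈ P := by
    intro d hd hdt; rw [hP]; exact ⟨hd, mem_centralizer_singleton_iff.2 hdt⟩
  have hPt : ∀ d ∈ P, d * t = t * d := fun d hd => mem_centralizer_singleton_iff.1 (hPC hd)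
  set C := centralizer ({t} : Set G) with hC
  set W : Subgroup C := (zpowers t).subgroupOf C with hW
  haveI hWn : W.Normal := by
    rw [hW]
    refine ⟨fun n hn c => ?_⟩
    rw [mem_subgroupOf, pw htt] at hn ⊢
    have hc := mem_centralizer_singleton_iff.1 c.2
    rcases hn with hn | hn
    · left
      simp only [Subgroup.coe_mul, Subgroup.coe_inv, hn]; group
    · right
      simp only [Subgroup.coe_mul, Subgroup.coe_inv, hn]
      rw [hc]; group
  set π := QuotientGroup.mk' W with hπ
  have hπ1 : ∀ y : C, π y = 1 ↔ (y : G) ∈ zpowers t := fun y => by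
    rw [hπ, QuotientGroup.mk'_apply, QuotientGroup.eq_one_iff, hW, mem_subgroupOf]
  have hπcomm : ∀ x y : C, π x * π y = π y * π x ↔ (x : G) * y * (x : G)⁻¹ * (y : G)⁻¹ ∈ zpowers t := by
    intro x y
    have h1 := hπ1 (x * y * x⁻¹ * y⁻¹)
    simp only [map_mul, map_inv] at h1
    rw [mul_inv_eq_one, mul_inv_eq_iff_eq_mul] at h1
    exact h1
  have hπsurj : Function.Surjective π := QuotientGroup.mk'_surjective _
  set Pb := (P.subgroupOf C).map π with hPb
  have hmem : ∀ x ∈ Pb, ∃ y : C, (y : G) ∈ P ∧ x = π y := by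
    rintro _ ⟨y, hy, rfl⟩
    exact ⟨y, mem_subgroupOf.1 hy, rfl⟩
  have hmem' : ∀ y : C, (y : G) ∈ P → π y ∈ Pb := fun y hy => mem_map_of_mem π (mem_subgroupOf.2 hy)
  have hztm : z ∉ zpowers t := by
    rw [pw htt]; rintro (h1 | h1)
    · exact h.z_ne h1
    · exact htz1 h1.symm
  -- the centre of `P`
  have hZP : ∀ y ∈ Q, (∀ d ∈ P, y * d * y⁻¹ * d⁻¹ ∈ zpowers t) → y ∈ zpowers t ∨ y * z ∈ zpowers t := by
    intro y hy hc
    have h1 := cent_in h.toXS htQ.1 htt ht1 htz1 hy (fun d hd hdt => by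
      have h2 := hc d (hPm d hd hdt)
      rcases h.comm y hy d hd with h3 | h3
      · exact h3
      · exfalso
        have h4 : y * d * y⁻¹ * d⁻¹ = z := by rw [h3]; group
        rw [h4] at h2
        exact hztm h2)
    rcases h1 with h1 | h1 | h1 | h1
    · left; rw [h1]; exact one_mem _
    · right; rw [h1, h.z_sq]; exact one_mem _
    · left; rw [h1]; exact mem_zpowers _
    · right
      have : y * z = t := by
        rw [h1, mul_assoc, htzc, ← mul_assoc, h.z_sq, one_mul]
      rw [this]; exact mem_zpowers _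
  have hzP : z ∈ P := hPm z h.z_mem htzc.symm
  have hvP : v ∈ P := hPm v hS.vA htvc.symm
  obtain ⟨q1, hq1P, hq1v⟩ : ∃ q ∈ P, q * v ≠ v * q := by
    by_contra hne
    push Not at hne
    rcases cent_in h.toXS htQ.1 htt ht1 htz1 hS.vA (fun d hd hdt => (hne d (hPm d hd hdt)).symm) with h1 | h1 | h1 | h1
    · exact hS.hB.z_ne h1
    · exact hS.ne h1
    · exact htv1 h1.symm
    · exact hzt (h1 ▸ hzvconj)
  have hXS : XS Pb (π ⟨z, hzC⟩) := by
    apply XS.mk'
    · exact ((h.hp.to_le hPQ).comap_of_injective C.subtype (subtype_injective C)).map π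
    · rw [Ne, hπ1]; exact hztm
    · rw [← map_mul, hπ1]
      show z * z ∈ _
      rw [h.z_sq]; exact one_mem _
    · exact hmem' _ hzP
    · intro x hx
      obtain ⟨y, hy, rfl⟩ := hmem x hx
      rw [← map_mul, ← map_mul]
      congr 1
      exact Subtype.ext (h.z_comm _ (hPQ hy))
    · intro x hx hc
      obtain ⟨y, hy, rfl⟩ := hmem x hx
      rcases hZP y (hPQ hy) (fun d hd => (hπcomm y ⟨d, hPC hd⟩).1 (hc _ (hmem' ⟨d, hPC hd⟩ hd))) with h1 | h1
      · left; exact (hπ1 y).2 h1
      · right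
        have h2 := (hπ1 (y * ⟨z, hzC⟩)).2 h1
        rw [map_mul] at h2
        have h3 : π ⟨z, hzC⟩ * π ⟨z, hzC⟩ = 1 := by
          rw [← map_mul, hπ1]
          show z * z ∈ _
          rw [h.z_sq]; exact one_mem _
        rw [eq_inv_of_mul_eq_one_left h2]
        exact inv_eq_of_mul_eq_one_left h3
    · intro x hx y hy
      obtain ⟨x', hx', rfl⟩ := hmem x hx
      obtain ⟨y', hy', rfl⟩ := hmem y hy
      rcases h.comm _ (hPQ hx') _ (hPQ hy') with h1 | h1
      · left
        rw [← map_mul, ← map_mul]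
        congr 1
        exact Subtype.ext h1
      · right
        rw [← map_mul, ← map_mul, ← map_mul]
        congr 1
        exact Subtype.ext h1
    · intro x hx
      obtain ⟨x', hx', rfl⟩ := hmem x hx
      rcases h.sq _ (hPQ hx') with h1 | h1
      · left
        rw [← map_mul, ← map_one π]
        congr 1
        exact Subtype.ext h1
      · right
        rw [← map_mul]
        congr 1
        exact Subtype.ext h1
    · refine ⟨_, hmem' ⟨q1, hPC hq1P⟩ hq1P, _, hmem' ⟨v, hvC⟩ hvP, ?_⟩
      rw [Ne, hπcomm]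
      intro h1
      exact hq1v (hmodz q1 v hzvconj hvt h1)
  have hNXS : NXS Pb (π ⟨z, hzC⟩) := by
    refine ⟨hXS, ?_, ?_⟩
    · intro x hx
      obtain ⟨y, rfl⟩ := hπsurj x
      have h1 : ∀ d ∈ P, (y : G) * d * (y : G)⁻¹ * d⁻¹ ∈ zpowers t := fun d hd =>
        (hπcomm y ⟨d, hPC hd⟩).1 (hx _ (hmem' ⟨d, hPC hd⟩ hd))
      have hyz : (y : G) * z = z * y := hmodz y z (IsConj.refl _) hzt (h1 z hzP)
      have hyQ : (y : G) ∈ Q := by
        apply (hCP y (mem_centralizer_singleton_iff.2 hyz)).1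
        intro d hd
        refine ⟨d⁻¹ * ((y : G) * d * (y : G)⁻¹), ?_, by group⟩
        have h2 := h1 d hd
        rw [pw htt] at h2
        have h3 : (y : G) * d * (y : G)⁻¹ = ((y : G) * d * (y : G)⁻¹ * d⁻¹) * d := by group
        rw [h3]
        rcases h2 with h2 | h2
        · rw [h2]
          have : d⁻¹ * (1 * d) = 1 := by group
          rw [this]; exact one_mem _
        · rw [h2, ← hPt d hd]
          have : d⁻¹ * (d * t) = t := by group
          rw [this]
          exact Subgroup.subset_closure (Or.inl rfl)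
      have hyP : (y : G) ∈ P := hPm y hyQ (mem_centralizer_singleton_iff.1 y.2)
      exact hXS.cent _ (hmem' y hyP) (fun w hw => hx w hw)
    · intro x
      obtain ⟨y, rfl⟩ := hπsurj x
      constructor
      · exact hXS.norm_comm
      · intro hx
        have h1 := (hπcomm y ⟨z, hzC⟩).1 hx
        have hyz : (y : G) * z = z * y := hmodz y z (IsConj.refl _) hzt h1
        have hnorm := (h.norm (y : G)).2 hyz
        have key : ∀ y : C, (y : G) * z = z * y → ∀ w ∈ Pb, π y * w * (π y)⁻¹ ∈ Pb := by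
          intro y hyz w hw
          obtain ⟨u, hu, rfl⟩ := hmem w hw
          rw [← map_mul, ← map_inv, ← map_mul]
          apply hmem'
          apply hPm
          · exact (mem_normalizer_iff.1 ((h.norm (y : G)).2 hyz) u).1 (hPQ hu)
          · exact mem_centralizer_singleton_iff.1 (y * u * y⁻¹).2
        rw [mem_normalizer_iff]
        intro w
        refine ⟨key y hyz w, fun h2 => ?_⟩
        have hyz' : ((y⁻¹ : C) : G) * z = z * ((y⁻¹ : C) : G) := by
          show (y : G)⁻¹ * z = z * (y : G)⁻¹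
          calc (y : G)⁻¹ * z = (y : G)⁻¹ * (z * y) * (y : G)⁻¹ := by group
            _ = (y : G)⁻¹ * (y * z) * (y : G)⁻¹ := by rw [hyz]
            _ = z * (y : G)⁻¹ := by group
        have h3 := key y⁻¹ hyz' _ h2
        rw [map_inv] at h3
        have e : (π y)⁻¹ * (π y * w * (π y)⁻¹) * (π y)⁻¹⁻¹ = w := by group
        rwa [e] at h3
  -- the conjugate extraspecial group
  set D := B ⊓ C with hD
  have hDC : D ≤ C := inf_le_right
  have hodd := hNXS.odd_of_invol (b := π ⟨v, hvC⟩) (hmem' _ hvP)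
    (by
      rw [Ne, hπ1, pw htt]
      rintro (h1 | h1)
      · exact hS.hB.z_ne h1
      · exact htv1 h1.symm)
    (by
      intro h1
      have h2 : π (⟨v, hvC⟩ * ⟨z, hzC⟩⁻¹) = 1 := by rw [map_mul, map_inv, h1, mul_inv_cancel]
      rw [hπ1, pw htt] at h2
      have hzi : z⁻¹ = z := inv_eq_of_mul_eq_one_left h.z_sq
      rcases h2 with h2 | h2
      · exact hS.ne (mul_inv_eq_one.1 h2)
      · have h3 : v = t * z := by rw [← h2]; show v = v * z⁻¹ * z; group
        rw [htzc] at h3
        exact hzt (h3 ▸ hzvconj))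
    (by
      rw [← map_mul, hπ1]
      show v * v ∈ _
      rw [hS.vv]; exact one_mem _)
    (P := (D.subgroupOf C).map π)
    (((hS.hB.hp.to_le inf_le_left).comap_of_injective C.subtype (subtype_injective C)).map π)
    (mem_map_of_mem π (mem_subgroupOf.2 ⟨hS.zB, hzC⟩))
    (by
      intro x hx w hw
      obtain ⟨y, rfl⟩ := hπsurj x
      obtain ⟨u, hu, rfl⟩ := hw
      have h1 := (hπcomm y ⟨v, hvC⟩).1 hx
      have hyv : (y : G) * v = v * y := hmodz y v hzvconj hvt h1
      rw [← map_mul, ← map_inv, ← map_mul]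
      apply mem_map_of_mem
      rw [mem_subgroupOf]
      exact ⟨(mem_normalizer_iff.1 ((hS.hB.norm (y : G)).2 hyv) u).1 (mem_subgroupOf.1 hu).1, (y * u * y⁻¹).2⟩)
  refine ⟨S5427.large_of hNXS hodd hXS.isExtraspecial, ?_⟩
  obtain ⟨q2, hq2D, hq2z⟩ : ∃ q ∈ D, q * z ≠ z * q := by
    by_contra hne
    push Not at hne
    rcases cent_in hS.hB.toXS htQ.2 htt ht1 htv1 hS.zB (fun d hd hdt => (hne d ⟨hd, mem_centralizer_singleton_iff.2 hdt⟩).symm) with h1 | h1 | h1 | h1
    · exact h.z_ne h1
    · exact hS.ne h1.symm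
    · exact htz1 h1.symm
    · exact hvt (h1 ▸ IsConj.refl _)
  obtain ⟨a1, a2, a3⟩ := hS.q_acts (hPQ hq1P) hq1v
  obtain ⟨b1, b2, b3⟩ := hS.symm.q_acts hq2D.1 hq2z
  refine ⟨q2 * q1 , mul_mem (mem_sup_right hq2D) (mem_sup_left hq1P), ?_⟩
  have e : q2 * q1 * v * (q2 * q1)⁻¹ = q2 * (q1 * v * q1⁻¹) * q2⁻¹ := by group
  rw [e, a1, ← hS.zv, b3]

end Cfsg.Agent.S5429
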