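import Cfsg.Statements.S5430
import Cfsg.Agent.H2.LX2
import Cfsg.Agent.H28.S4Sec

set_option autoImplicit false
set_option linter.style.haveILetI false
set_option linter.unusedVariables false
set_option linter.unusedSectionVars false
open Cfsg

namespace Cfsg.Agent.S5430

open Cfsg.Agent Cfsg.Agent.H29 Cfsg.Agent.H2.LX
open Subgroup

theorem S3_core (N : Subgroup (Equiv.Perm (Fin 3))) [hN : N.Normal] (h2 : IsPGroup 2 N) : N = ⊥ := by
  have key : ∀ n : Equiv.Perm (Fin 3), n ≠ 1 → ∃ m : Equiv.Perm (Fin 3),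
      (n * (m * n * m⁻¹)) ≠ 1 ∧ (n * (m * n * m⁻¹)) ^ 3 = 1 := by decide +kernel
  rw [eq_bot_iff_forall]
  intro n hn
  by_contra hne
  obtain ⟨m, h3, h4⟩ := key n hne
  have hmem : n * (m * n * m⁻¹) ∈ N := N.mul_mem hn (hN.conj_mem n hn m)
  have ho : orderOf (n * (m * n * m⁻¹)) = 3 := orderOf_eq_prime h4 h3
  obtain ⟨k, hk⟩ := (IsPGroup.iff_orderOf.1 h2) ⟨_, hmem⟩
  rw [Subgroup.orderOf_mk, ho] at hk
  have : 3 ∣ 2 ^ k := by rw [← hk]
  have := Nat.prime_three.dvd_of_dvd_pow this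
  omega

/-- Let Q be a large extraspecial 2-subgroup of the finite group G (extraspecial; centralizer equal to its centre; normal in the centralizer of its centre; normalizing no non-trivial subgroup of odd order) with centre generated by z, an involution, of width w ≥ 2 (order 2^(2w+1)); let g be an element outside the centralizer H of z with g z g⁻¹ in Q; write V for the subgroup generated by z and g z g⁻¹, X for the subgroup generated by Q and g Q g⁻¹, R for the subgroup generated by the centralizer of z in g Q g⁻¹ and the centralizer of g z g⁻¹ in Q, and E for the intersection of Q and g Q g⁻¹. Then R is the centralizer of V in X and is the largest normal 2-subgroup of X, and X/R is isomorphic to the symmetric group of degree 3; moreover the normalizer of V is the product of X and the centralizer of V in H, X is normal in it, and modulo R it is the direct product of X/R and of the centralizer of V in H modulo R. -/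
theorem result {G : Type*} [Group G] [Finite G] (Q : Subgroup G) (hQ : Cfsg.IsLargeExtraspecial Q) (z : G) (hz : ((Subgroup.center ↥Q).map Q.subtype) = Subgroup.zpowers z) (hz2 : orderOf z = 2) (w : ℕ) (hw : 2 ≤ w) (hcard : Nat.card ↥Q = 2 ^ (2 * w + 1)) (g : G) (hgH : g ∉ Subgroup.centralizer ({z} : Set G)) (hgQ : g * z * g⁻¹ ∈ Q) (V X R E : Subgroup G) (hV : V = Subgroup.closure ({z, g * z * g⁻¹} : Set G)) (hX : X = Q ⊔ (Q).map (MulAut.conj g).toMonoidHom) (hR : R = ((Q).map (MulAut.conj g).toMonoidHom ⊓ Subgroup.centralizer ({z} : Set G)) ⊔ (Q ⊓ Subgroup.centralizer ({g * z * g⁻¹} : Set G))) (hE : E = Q ⊓ (Q).map (MulAut.conj g).toMonoidHom) : R = X ⊓ Subgroup.centralizer (V : Set G) ∧ R = (Cfsg.pCore 2 ↥X).map X.subtype ∧ (∃ h : (R.subgroupOf X).Normal, Nonempty (↥X ⧸ R.subgroupOf X ≃* Equiv.Perm (Fin 3))) ∧ Subgroup.normalizer (V : Set G) = X ⊔ (Subgroup.centralizer ({z} : Set G) ⊓ Subgroup.centralizer (V : Set G)) ∧ (∀ y ∈ Subgroup.normalizer (V : Set G),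 ∀ x ∈ X, y * x * y⁻¹ ∈ X) ∧ R ≤ Subgroup.centralizer ({z} : Set G) ⊓ Subgroup.centralizer (V : Set G) ∧ (∀ x ∈ X, ∀ c ∈ Subgroup.centralizer ({z} : Set G) ⊓ Subgroup.centralizer (V : Set G), x * c * x⁻¹ * c⁻¹ ∈ R) ∧ X ⊓ (Subgroup.centralizer ({z} : Set G) ⊓ Subgroup.centralizer (V : Set G)) = R := by
  haveI : Fact (Nat.Prime 2) := ⟨Nat.prime_two⟩
  have hN := nxs_of_large hQ hz hz2
  have hcQ : 8 < Nat.card Q := by
    rw [hcard]
    calc 8 < 2 ^ 5 := by norm_num
      _ ≤ 2 ^ (2 * w + 1) := Nat.pow_le_pow_right (by norm_num) (by omega)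
  have h := sit_of_nxs hN hcQ g hgH hgQ
  obtain ⟨v, hv⟩ : ∃ v, v = g * z * g⁻¹ := ⟨_, rfl⟩
  obtain ⟨B, hB⟩ : ∃ B, B = Q.map (MulAut.conj g).toMonoidHom := ⟨_, rfl⟩
  rw [← hv] at hV hgQ
  rw [← hv, ← hB] at hR
  rw [← hB] at hX hE
  rw [← hv, ← hB] at h
  have hRR : R = RR Q B z v := hR
  have hzV : z ∈ V := by rw [hV]; exact Subgroup.subset_closure (Or.inl rfl)
  have hvV : v ∈ V := by rw [hV]; exact Subgroup.subset_closure (Or.inr rfl)
  have hcz : centralizer ({z} : Set G) ⊓ centralizer (V : Set G) = centralizer (V : Set G) :=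
    inf_eq_right.2 (centralizer_le (by simpa using hzV))
  have hKle : V = H4.kleinSub h.zz h.vv h.zv.symm := by
    apply le_antisymm
    · rw [hV, closure_le]
      intro x hx
      have hx' : x = z ∨ x = v := hx
      rw [SetLike.mem_coe, H4.mem_kleinSub]
      rcases hx' with rfl | rfl
      · exact Or.inr (Or.inl rfl)
      · exact Or.inr (Or.inr (Or.inl rfl))
    · intro x hx
      rw [H4.mem_kleinSub] at hx
      rcases hx with rfl | rfl | rfl | rfl
      · exact one_mem _
      · exact hzV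
      · exact hvV
      · exact mul_mem hzV hvV
  have hK : IsKleinFour V := by
    rw [hKle]
    exact H4.kleinSub_isKleinFour _ _ _ h.hA.z_ne h.hB.z_ne h.ne.symm
  have hP := H4.klein_perm3 hK hzV hvV h.hA.z_ne h.hB.z_ne h.ne.symm
  obtain ⟨f, hf⟩ := hP.exists_hom
  have hker := hP.ker_eq hf
  obtain ⟨q1, hq1, h1⟩ := h.exists_q
  obtain ⟨q2, hq2, h2⟩ := h.symm.exists_q
  obtain ⟨a1, a2, a3⟩ := h.q_acts hq1 h1
  obtain ⟨b1, b2, b3⟩ := h.symm.q_acts hq2 h2
  have hzvc := h.zv
  have hQV : ∀ q ∈ Q, ∀ y ∈ V, q * y * q⁻¹ ∈ V := by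
    intro q hq y hy
    have e1 := h.conj_z hq
    have e2 := h.conj_v hq
    rw [hV] at hy
    rcases h.closure_V hy with rfl | rfl | rfl | rfl
    · simp
    · rw [e1]; exact hzV
    · rcases e2 with e2 | e2
      · rw [e2]; exact hvV
      · rw [e2]; exact mul_mem hzV hvV
    · have e : q * (z * v) * q⁻¹ = (q * z * q⁻¹) * (q * v * q⁻¹) := by group
      rw [e, e1]
      rcases e2 with e2 | e2
      · rw [e2]; exact mul_mem hzV hvV
      · rw [e2]; exact mul_mem hzV (mul_mem hzV hvV)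
  have hBV : ∀ q ∈ B, ∀ y ∈ V, q * y * q⁻¹ ∈ V := by
    intro q hq y hy
    have e1 := h.symm.conj_z hq
    have e2 := h.symm.conj_v hq
    rw [hV] at hy
    rcases h.closure_V hy with rfl | rfl | rfl | rfl
    · simp
    · rcases e2 with e2 | e2
      · rw [e2]; exact hzV
      · rw [e2]; exact mul_mem hvV hzV
    · rw [e1]; exact hvV
    · have e : q * (z * v) * q⁻¹ = (q * z * q⁻¹) * (q * v * q⁻¹) := by group
      rw [e, e1]
      rcases e2 with e2 | e2
      · rw [e2]; exact mul_mem hzV hvV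
      · rw [e2]; exact mul_mem (mul_mem hvV hzV) hvV
  have normal_of : ∀ S W : Subgroup G, (∀ q ∈ S, ∀ y ∈ W, q * y * q⁻¹ ∈ W) → S ≤ normalizer (W : Set G) := by
    intro S W hS q hq
    rw [mem_normalizer_iff]
    intro y
    refine ⟨hS q hq y, fun h1 => ?_⟩
    have := hS q⁻¹ (S.inv_mem hq) _ h1
    have e : q⁻¹ * (q * y * q⁻¹) * q⁻¹⁻¹ = y := by group
    rwa [e] at this
  have hXN : X ≤ normalizer (V : Set G) := by
    rw [hX]
    exact sup_le (normal_of _ _ hQV) (normal_of _ _ hBV)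
  have hReq : R = X ⊓ centralizer (V : Set G) := by
    rw [hRR, hX, hV]
    exact h.RR_eq
  have hXR : X ≤ normalizer (R : Set G) := by
    rw [hX, hRR]; exact h.X_le_normalizer
  haveI hRn : (R.subgroupOf X).Normal := normal_subgroupOf_of_le_normalizer hXR
  have hq1X : q1 ∈ X := by rw [hX]; exact mem_sup_left hq1
  have hq2X : q2 ∈ X := by rw [hX]; exact mem_sup_right hq2
  set φ : X →* Equiv.Perm (Fin 3) := f.comp (inclusion hXN) with hφ
  have hφA : ∀ (x : X) (i : Fin 3), (![zpowers z, zpowers v, zpowers (z * v)] : Fin 3 → Subgroup G) (φ x i) =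
      H14.cj (x : G) ((![zpowers z, zpowers v, zpowers (z * v)] : Fin 3 → Subgroup G) i) := by
    intro x i
    exact hf (inclusion hXN x) i
  have hφker : φ.ker = R.subgroupOf X := by
    ext x
    rw [hφ, MonoidHom.mem_ker, MonoidHom.comp_apply, ← MonoidHom.mem_ker, hker, mem_subgroupOf, mem_subgroupOf, hReq]
    exact ⟨fun h3 => ⟨x.2, h3⟩, fun h3 => h3.2⟩
  have hz1 := h.hA.z_ne
  have hv1 := h.hB.z_ne
  have hzz := h.zz
  have hvv := h.vv
  have hzvne : z * v ≠ v := fun h3 => hz1 (by simpa using h3)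
  have hzvne' : v * z ≠ z := fun h3 => hv1 (by simpa using h3)
  have hzvzv : z * v * (z * v) = 1 := by
    calc z * v * (z * v) = z * (v * z) * v := by group
      _ = (z * z) * (v * v) := by rw [hzvc]; group
      _ = 1 := by rw [hzz, hvv, one_mul]
  have hφsurj : Function.Surjective φ := by
    rw [← MonoidHom.range_eq_top]
    apply H28.surj_of_three φ (⟨q1, hq1X⟩ * ⟨q2, hq2X⟩) ⟨q1, hq1X⟩
    · intro i h3
      have h4 := hφA (⟨q1, hq1X⟩ * ⟨q2, hq2X⟩) i
      rw [h3] at h4
      fin_cases i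
      · change zpowers z = H14.cj (q1 * q2) (zpowers z) at h4
        rw [H4.cj_zpowers] at h4
        have e : q1 * q2 * z * (q1 * q2)⁻¹ = q1 * (q2 * z * q2⁻¹) * q1⁻¹ := by group
        rw [e, b1, hzvc, a3] at h4
        exact h.ne (H4.zpowers_invol_inj hzz hvv hz1 h4).symm
      · change zpowers v = H14.cj (q1 * q2) (zpowers v) at h4
        rw [H4.cj_zpowers] at h4
        have e : q1 * q2 * v * (q1 * q2)⁻¹ = q1 * (q2 * v * q2⁻¹) * q1⁻¹ := by group
        rw [e, b2, a1] at h4
        exact hzvne (H4.zpowers_invol_inj hvv hzvzv hv1 h4).symm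
      · change zpowers (z * v) = H14.cj (q1 * q2) (zpowers (z * v)) at h4
        rw [H4.cj_zpowers] at h4
        have e : q1 * q2 * (z * v) * (q1 * q2)⁻¹ = q1 * (q2 * (v * z) * q2⁻¹) * q1⁻¹ := by rw [hzvc]; group
        rw [e, b3, a2] at h4
        have h5 := H4.zpowers_invol_inj hzvzv hzz (fun h6 => h.ne (by
          calc v = z * (z * v) := by rw [← mul_assoc, hzz, one_mul]
            _ = z := by rw [h6, mul_one])) h4
        exact hv1 (by simpa using h5)
    · refine ⟨0, hP.inj ?_⟩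
      rw [hφA]
      change H14.cj q1 (zpowers z) = zpowers z
      rw [H4.cj_zpowers, a2]
    · refine ⟨1, fun h3 => ?_⟩
      have h4 := hφA ⟨q1, hq1X⟩ 1
      rw [h3] at h4
      change zpowers v = H14.cj q1 (zpowers v) at h4
      rw [H4.cj_zpowers, a1] at h4
      exact hzvne (H4.zpowers_invol_inj hvv hzvzv hv1 h4).symm
  have hcentV : ∀ c ∈ centralizer (V : Set G), c * z = z * c ∧ c * v = v * c := by
    intro c hc
    rw [hV] at hc
    exact Sit.mem_cent_V.1 hc
  have hVc : centralizer (V : Set G) ≤ normalizer (V : Set G) := centralizer_le_normalizer _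
  have hXc : ∀ c ∈ centralizer (V : Set G), ∀ x ∈ X, c * x * c⁻¹ ∈ X := by
    intro c hc x hx
    obtain ⟨c1, c2⟩ := hcentV c hc
    have hle : X ≤ X.comap (MulAut.conj c).toMonoidHom := by
      conv_lhs => rw [hX]
      apply sup_le
      · intro y hy
        show c * y * c⁻¹ ∈ X
        rw [hX]
        exact mem_sup_left ((mem_normalizer_iff.1 ((h.hA.norm c).2 c1) y).1 hy)
      · intro y hy
        show c * y * c⁻¹ ∈ X
        rw [hX]
        exact mem_sup_right ((mem_normalizer_iff.1 ((h.hB.norm c).2 c2) y).1 hy)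
    exact hle hx
  have hdecomp : ∀ y ∈ normalizer (V : Set G), ∃ x ∈ X, x⁻¹ * y ∈ centralizer (V : Set G) := by
    intro y hy
    obtain ⟨x, hx⟩ := hφsurj (f ⟨y, hy⟩)
    refine ⟨x, x.2, ?_⟩
    have h3 : (inclusion hXN x)⁻¹ * ⟨y, hy⟩ ∈ f.ker := by
      rw [MonoidHom.mem_ker, map_mul, map_inv, inv_mul_eq_one]
      exact hx
    rw [hker, mem_subgroupOf] at h3
    exact h3
  refine ⟨hReq, ?_, ⟨hRn, ?_⟩, ?_, ?_, ?_, ?_, ?_⟩
  · haveI : (Cfsg.pCore 2 X).Normal := H1.pCore_normal 2 X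
    apply le_antisymm
    · intro x hx
      have hxX : x ∈ X := (hReq ▸ hx : x ∈ X ⊓ centralizer (V : Set G)).1
      refine ⟨⟨x, hxX⟩, ?_, rfl⟩
      have hRp : IsPGroup 2 (R.subgroupOf X) := by
        have : IsPGroup 2 R := by rw [hRR]; exact h.RR_pgroup
        exact this.comap_of_injective X.subtype (subtype_injective X)
      exact H1.le_pCore hRn hRp (show (⟨x, hxX⟩ : X) ∈ R.subgroupOf X from mem_subgroupOf.2 hx)
    · rintro _ ⟨y, hy, rfl⟩
      haveI : ((Cfsg.pCore 2 X).map φ).Normal := Normal.map inferInstance φ hφsurj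
      have h3 := S3_core ((Cfsg.pCore 2 X).map φ) ((H1.pCore_isPGroup 2 X).map φ)
      have h4 : φ y = 1 := by
        have : φ y ∈ (Cfsg.pCore 2 X).map φ := mem_map_of_mem φ hy
        rwa [h3, mem_bot] at this
      have h5 : y ∈ φ.ker := h4
      rw [hφker, mem_subgroupOf] at h5
      exact h5
  · exact ⟨(QuotientGroup.quotientMulEquivOfEq hφker.symm).trans
      (QuotientGroup.quotientKerEquivOfSurjective φ hφsurj)⟩
  · rw [hcz]
    apply le_antisymm
    · intro y hy
      obtain ⟨x, hx, hc⟩ := hdecomp y hy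
      have e : y = x * (x⁻¹ * y) := by group
      rw [e]
      exact mul_mem (mem_sup_left hx) (mem_sup_right hc)
    · exact sup_le hXN hVc
  · intro y hy x hx
    obtain ⟨x', hx', hc⟩ := hdecomp y hy
    have e : y * x * y⁻¹ = x' * ((x'⁻¹ * y) * x * (x'⁻¹ * y)⁻¹) * x'⁻¹ := by group
    rw [e]
    exact mul_mem (mul_mem hx' (hXc _ hc x hx)) (inv_mem hx')
  · rw [hcz, hReq]; exact inf_le_right
  · rw [hcz]
    intro x hx c hc
    rw [hReq]
    constructor
    · have e : x * c * x⁻¹ * c⁻¹ = x * (c * x⁻¹ * c⁻¹) := by group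
      rw [e]
      exact X.mul_mem hx (hXc c hc _ (inv_mem hx))
    · apply (centralizer (V : Set G)).mul_mem _ ((centralizer (V : Set G)).inv_mem hc)
      rw [mem_centralizer_iff] at hc ⊢
      intro y hy
      have h3 : x⁻¹ * y * x ∈ V := by
        have := (mem_normalizer_iff.1 (hXN (inv_mem hx)) y).1 hy
        simpa using this
      have h4 := hc _ h3
      calc y * (x * c * x⁻¹) = x * ((x⁻¹ * y * x) * c) * x⁻¹ := by group
        _ = x * (c * (x⁻¹ * y * x)) * x⁻¹ := by rw [h4]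
        _ = x * c * x⁻¹ * y := by group
  · rw [hcz, ← hReq]

end Cfsg.Agent.S5430
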