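import Cfsg.Statements.S5431
import Cfsg.Agent.H2.LX2

set_option autoImplicit false
set_option linter.style.haveILetI false
set_option linter.unusedVariables false
set_option linter.unusedSectionVars false
open Cfsg

namespace Cfsg.Agent.S5431

open Cfsg.Agent Cfsg.Agent.H29 Cfsg.Agent.H2.LX
open Subgroup

/-- Let Q be a large extraspecial 2-subgroup of the finite group G (extraspecial; centralizer equal to its centre; normal in the centralizer of its centre; normalizing no non-trivial subgroup of odd order) with centre generated by z, an involution, of width w ≥ 2 (order 2^(2w+1)); let g be an element outside the centralizer H of z with g z g⁻¹ in Q; write V for the subgroup generated by z and g z g⁻¹, X for the subgroup generated by Q and g Q g⁻¹, R for the subgroup generated by the centralizer of z in g Q g⁻¹ and the centralizer of g z g⁻¹ in Q, and E for the intersection of Q and g Q g⁻¹. Then V is the centre of R, E lies in the second centre of R, R is nilpotent of class at most 3,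 E and R/E are elementary abelian, R/E is the direct product of the images of the centralizer of g z g⁻¹ in Q and of the centralizer of z in g Q g⁻¹ (R is their product and they meet in E), and the commutator subgroup of X and E lies in V. -/
theorem result {G : Type*} [Group G] [Finite G] (Q : Subgroup G) (hQ : Cfsg.IsLargeExtraspecial Q) (z : G) (hz : ((Subgroup.center ↥Q).map Q.subtype) = Subgroup.zpowers z) (hz2 : orderOf z = 2) (w : ℕ) (hw : 2 ≤ w) (hcard : Nat.card ↥Q = 2 ^ (2 * w + 1)) (g : G) (hgH : g ∉ Subgroup.centralizer ({z} : Set G)) (hgQ : g * z * g⁻¹ ∈ Q) (V X R E : Subgroup G) (hV : V = Subgroup.closure ({z, g * z * g⁻¹} : Set G)) (hX : X = Q ⊔ (Q).map (MulAut.conj g).toMonoidHom) (hR : R = ((Q).map (MulAut.conj g).toMonoidHom ⊓ Subgroup.centralizer ({z} : Set G)) ⊔ (Q ⊓ Subgroup.centralizer ({g * z * g⁻¹} : Set G))) (hE : E = Q ⊓ (Q).map (MulAut.conj g).toMonoidHom) : (Subgroup.center ↥R).map R.subtype = V ∧ E ≤ (Subgroup.upperCentralSeries ↥R 2).map R.subtype ∧ Subgroup.upperCentralSeries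 ↥R 3 = ⊤ ∧ Cfsg.IsElementaryAbelian 2 E ∧ (∀ x ∈ R, ∀ y ∈ R, x * y * x⁻¹ * y⁻¹ ∈ E ∧ x ^ 2 ∈ E) ∧ ((Q).map (MulAut.conj g).toMonoidHom ⊓ Subgroup.centralizer ({z} : Set G)) ⊓ (Q ⊓ Subgroup.centralizer ({g * z * g⁻¹} : Set G)) = E ∧ ⁅X, E⁆ ≤ V := by
  have hN := nxs_of_large hQ hz hz2
  have hcQ : 8 < Nat.card Q := by
    rw [hcard]
    calc 8 < 2 ^ 5 := by norm_num
      _ ≤ 2 ^ (2 * w + 1) := Nat.pow_le_pow_right (by norm_num) (by omega)
  have h := sit_of_nxs hN hcQ g hgH hgQ
  obtain ⟨v, hv⟩ : ∃ v, v = g * z * g⁻¹ := ⟨_, rfl⟩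
  obtain ⟨B, hB⟩ : ∃ B, B = Q.map (MulAut.conj g).toMonoidHom := ⟨_, rfl⟩
  rw [← hv] at hV hgQ
  rw [← hv, ← hB] at hR
  rw [← hB] at hX hE
  rw [← hv, ← hB] at h ⊢
  have hRR : R = RR Q B z v := hR
  have hEl : E ≤ centralizer ({z} : Set G) ⊓ centralizer ({v} : Set G) := by
    rw [hE]
    intro x hx
    exact ⟨Sit.mem_cent.2 (h.hA.z_comm x hx.1), Sit.mem_cent.2 (h.hB.z_comm x hx.2)⟩
  have hE1 : E ≤ Q ⊓ centralizer ({v} : Set G) := fun x hx => ⟨(hE ▸ hx : x ∈ Q ⊓ B).1, (hEl hx).2⟩
  have hE2 : E ≤ B ⊓ centralizer ({z} : Set G) := fun x hx => ⟨(hE ▸ hx : x ∈ Q ⊓ B).2, (hEl hx).1⟩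
  have hDD : (B ⊓ centralizer ({z} : Set G)) ⊓ (Q ⊓ centralizer ({v} : Set G)) = E := by
    apply le_antisymm
    · intro x hx
      rw [hE]; exact ⟨hx.2.1, hx.1.1⟩
    · exact le_inf hE2 hE1
  have hzE : z ∈ E := by rw [hE]; exact ⟨h.hA.z_mem, h.zB⟩
  have hvE : v ∈ E := by rw [hE]; exact ⟨h.vA, h.hB.z_mem⟩
  have hVR : V ≤ R := by
    rw [hV, hRR, closure_le]
    intro x hx
    have hx' : x = z ∨ x = v := hx
    rcases hx' with rfl | rfl
    · exact h.z_mem_RR
    · exact h.v_mem_RR
  have hzV : z ∈ V := by rw [hV]; exact Subgroup.subset_closure (Or.inl rfl)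
  have hvV : v ∈ V := by rw [hV]; exact Subgroup.subset_closure (Or.inr rfl)
  have hVE : V ≤ E := by
    rw [hV, closure_le]
    intro x hx
    have hx' : x = z ∨ x = v := hx
    rcases hx' with rfl | rfl
    · exact hzE
    · exact hvE
  have hRzv : ∀ x ∈ R, x * z = z * x ∧ x * v = v * x := by
    intro x hx
    rw [hRR] at hx
    have := h.le_zv hx
    exact ⟨Sit.mem_cent.1 this.1, Sit.mem_cent.1 this.2⟩
  have hRV : ∀ x ∈ R, ∀ y ∈ V, x * y = y * x := by
    intro x hx y hy
    rw [hV] at hy
    obtain ⟨h1, h2⟩ := hRzv x hx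
    rcases h.closure_V hy with rfl | rfl | rfl | rfl
    · simp
    · exact h1
    · exact h2
    · rw [← mul_assoc, h1, mul_assoc, h2, mul_assoc]
  -- commutators with `E`
  have hQE : ∀ x ∈ Q, ∀ e ∈ E, x * e * x⁻¹ * e⁻¹ = 1 ∨ x * e * x⁻¹ * e⁻¹ = z := by
    intro x hx e he
    rw [hE] at he
    rcases h.hA.comm x hx e he.1 with h1 | h1
    · left; rw [h1]; group
    · right; rw [h1]; group
  have hBE : ∀ x ∈ B, ∀ e ∈ E, x * e * x⁻¹ * e⁻¹ = 1 ∨ x * e * x⁻¹ * e⁻¹ = v := by
    intro x hx e he
    rw [hE] at he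
    rcases h.hB.comm x hx e he.2 with h1 | h1
    · left; rw [h1]; group
    · right; rw [h1]; group
  have hXV : ∀ x ∈ X, ∀ y ∈ V, x * y * x⁻¹ ∈ V := by
    have : X ≤ normalizer (V : Set G) := by
      rw [hX]
      apply sup_le
      · intro q hq
        rw [mem_normalizer_iff]
        have key : ∀ q ∈ Q, ∀ y ∈ V, q * y * q⁻¹ ∈ V := by
          intro q hq y hy
          have e1 := h.conj_z hq
          have e2 := h.conj_v hq
          rw [hV] at hy
          rcases h.closure_V hy with rfl | rfl | rfl | rfl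
          · simp
          · rw [e1]; exact hzV
          · rcases e2 with e2 | e2
            · rw [e2]; exact hvV
            · rw [e2]; exact mul_mem hzV hvV
          · have e : q * (z * v) * q⁻¹ = (q * z * q⁻¹) * (q * v * q⁻¹) := by group
            rw [e, e1]
            rcases e2 with e2 | e2
            · rw [e2]; exact mul_mem hzV hvV
            · rw [e2]; exact mul_mem hzV (mul_mem hzV hvV)
        intro y
        refine ⟨key q hq y, fun h1 => ?_⟩
        have := key q⁻¹ (Q.inv_mem hq) _ h1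
        have e : q⁻¹ * (q * y * q⁻¹) * q⁻¹⁻¹ = y := by group
        rwa [e] at this
      · intro q hq
        rw [mem_normalizer_iff]
        have key : ∀ q ∈ B, ∀ y ∈ V, q * y * q⁻¹ ∈ V := by
          intro q hq y hy
          have e1 := h.symm.conj_z hq
          have e2 := h.symm.conj_v hq
          rw [hV] at hy
          rcases h.closure_V hy with rfl | rfl | rfl | rfl
          · simp
          · rcases e2 with e2 | e2
            · rw [e2]; exact hzV
            · rw [e2]; exact mul_mem hvV hzV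
          · rw [e1]; exact hvV
          · have e : q * (z * v) * q⁻¹ = (q * z * q⁻¹) * (q * v * q⁻¹) := by group
            rw [e, e1]
            rcases e2 with e2 | e2
            · rw [e2]; exact mul_mem hzV hvV
            · rw [e2]; exact mul_mem (mul_mem hvV hzV) hvV
        intro y
        refine ⟨key q hq y, fun h1 => ?_⟩
        have := key q⁻¹ (B.inv_mem hq) _ h1
        have e : q⁻¹ * (q * y * q⁻¹) * q⁻¹⁻¹ = y := by group
        rwa [e] at this
    intro x hx y hy
    exact (mem_normalizer_iff.1 (this hx) y).1 hy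
  have hXE : ∀ x ∈ X, ∀ e ∈ E, x * e * x⁻¹ * e⁻¹ ∈ V := by
    have hle : X ≤ ({ carrier := {x | x ∈ X ∧ ∀ e ∈ E, x * e * x⁻¹ * e⁻¹ ∈ V}
                      one_mem' := ⟨one_mem _, fun e _ => by simp⟩
                      mul_mem' := by
                        rintro a b ⟨ha, ha'⟩ ⟨hb, hb'⟩
                        refine ⟨mul_mem ha hb, fun e he => ?_⟩
                        have e1 : a * b * e * (a * b)⁻¹ * e⁻¹ = (a * (b * e * b⁻¹ * e⁻¹) * a⁻¹) * (a * e * a⁻¹ * e⁻¹) := by group
                        rw [e1]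
                        exact mul_mem (hXV a ha _ (hb' e he)) (ha' e he)
                      inv_mem' := by
                        rintro a ⟨ha, ha'⟩
                        refine ⟨inv_mem ha, fun e he => ?_⟩
                        have e1 : a⁻¹ * e * a⁻¹⁻¹ * e⁻¹ = a⁻¹ * (a * e * a⁻¹ * e⁻¹)⁻¹ * a⁻¹⁻¹ := by group
                        rw [e1]
                        exact hXV _ (inv_mem ha) _ (inv_mem (ha' e he)) } : Subgroup G) := by
      conv_lhs => rw [hX]
      apply sup_le
      · intro x hx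
        refine ⟨by rw [hX]; exact mem_sup_left hx, fun e he => ?_⟩
        rcases hQE x hx e he with h1 | h1
        · rw [h1]; exact one_mem _
        · rw [h1]; exact hzV
      · intro x hx
        refine ⟨by rw [hX]; exact mem_sup_right hx, fun e he => ?_⟩
        rcases hBE x hx e he with h1 | h1
        · rw [h1]; exact one_mem _
        · rw [h1]; exact hvV
    intro x hx e he
    exact (hle hx).2 e he
  have hRX : R ≤ X := by rw [hRR, hX]; exact Sit.RR_le_X
  have hRE : ∀ x ∈ R, ∀ e ∈ E, x * e * x⁻¹ ∈ E := by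
    intro x hx e he
    have h1 := hVE (hXE x (hRX hx) e he)
    have e1 : x * e * x⁻¹ = (x * e * x⁻¹ * e⁻¹) * e := by group
    rw [e1]; exact mul_mem h1 he
  -- commutators in `R`
  have hDDc : ∀ x ∈ Q ⊓ centralizer ({v} : Set G), ∀ y ∈ B ⊓ centralizer ({z} : Set G), x * y * x⁻¹ * y⁻¹ ∈ E := by
    intro x hx y hy
    rw [hE]
    have hyz := Sit.mem_cent.1 hy.2
    have hyv := h.hB.z_comm y hy.1
    have hxz := h.hA.z_comm x hx.1
    have hxv := Sit.mem_cent.1 hx.2
    constructor
    · have e : x * y * x⁻¹ * y⁻¹ = x * (y * x⁻¹ * y⁻¹) := by group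
      rw [e]
      exact mul_mem hx.1 (h.norm_D hyz hyv (inv_mem hx)).1
    · exact B.mul_mem (h.symm.norm_D hxv hxz hy).1 (B.inv_mem hy.1)
  have hcommR : ∀ x ∈ R, ∀ y ∈ R, x * y * x⁻¹ * y⁻¹ ∈ E := by
    have step : ∀ y ∈ R, ((∀ x ∈ B ⊓ centralizer ({z} : Set G), x * y * x⁻¹ * y⁻¹ ∈ E) ∧
        ∀ x ∈ Q ⊓ centralizer ({v} : Set G), x * y * x⁻¹ * y⁻¹ ∈ E) → ∀ x ∈ R, x * y * x⁻¹ * y⁻¹ ∈ E := by
      rintro y hy ⟨h1, h2⟩
      have hle : R ≤ ({ carrier := {x | x ∈ R ∧ x * y * x⁻¹ * y⁻¹ ∈ E}
                        one_mem' := ⟨one_mem _, by simp⟩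
                        mul_mem' := by
                          rintro a b ⟨ha, ha'⟩ ⟨hb, hb'⟩
                          refine ⟨mul_mem ha hb, ?_⟩
                          have e1 : a * b * y * (a * b)⁻¹ * y⁻¹ = (a * (b * y * b⁻¹ * y⁻¹) * a⁻¹) * (a * y * a⁻¹ * y⁻¹) := by group
                          rw [e1]
                          exact mul_mem (hRE a ha _ hb') ha'
                        inv_mem' := by
                          rintro a ⟨ha, ha'⟩
                          refine ⟨inv_mem ha, ?_⟩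
                          have e1 : a⁻¹ * y * a⁻¹⁻¹ * y⁻¹ = a⁻¹ * (a * y * a⁻¹ * y⁻¹)⁻¹ * a⁻¹⁻¹ := by group
                          rw [e1]
                          exact hRE _ (inv_mem ha) _ (inv_mem ha') } : Subgroup G) := by
        conv_lhs => rw [hR]
        apply sup_le
        · intro x hx
          exact ⟨by rw [hR]; exact mem_sup_left hx, h1 x hx⟩
        · intro x hx
          exact ⟨by rw [hR]; exact mem_sup_right hx, h2 x hx⟩
      intro x hx
      exact (hle hx).2
    have flip : ∀ x y : G, x * y * x⁻¹ * y⁻¹ ∈ E → y * x * y⁻¹ * x⁻¹ ∈ E := by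
      intro x y h1
      have e : y * x * y⁻¹ * x⁻¹ = (x * y * x⁻¹ * y⁻¹)⁻¹ := by group
      rw [e]; exact inv_mem h1
    have hD1 : ∀ y ∈ Q ⊓ centralizer ({v} : Set G), ∀ x ∈ R, x * y * x⁻¹ * y⁻¹ ∈ E := by
      intro y hy
      apply step y (by rw [hR]; exact mem_sup_right hy)
      refine ⟨fun x hx => flip _ _ (hDDc y hy x hx), fun x hx => ?_⟩
      rcases h.hA.comm x hx.1 y hy.1 with h1 | h1
      · have e : x * y * x⁻¹ * y⁻¹ = 1 := by rw [h1]; group
        rw [e]; exact one_mem _
      · have e : x * y * x⁻¹ * y⁻¹ = z := by rw [h1]; group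
        rw [e]; exact hzE
    have hD2 : ∀ y ∈ B ⊓ centralizer ({z} : Set G), ∀ x ∈ R, x * y * x⁻¹ * y⁻¹ ∈ E := by
      intro y hy
      apply step y (by rw [hR]; exact mem_sup_left hy)
      refine ⟨fun x hx => ?_, fun x hx => hDDc x hx y hy⟩
      rcases h.hB.comm x hx.1 y hy.1 with h1 | h1
      · have e : x * y * x⁻¹ * y⁻¹ = 1 := by rw [h1]; group
        rw [e]; exact one_mem _
      · have e : x * y * x⁻¹ * y⁻¹ = v := by rw [h1]; group
        rw [e]; exact hvE
    intro x hx y hy
    exact step y hy ⟨fun x' hx' => flip _ _ (hD2 x' hx' y hy), fun x' hx' => flip _ _ (hD1 x' hx' y hy)⟩ x hx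
  have hsqR : ∀ x ∈ R, x * x ∈ E := by
    have hle : R ≤ ({ carrier := {x | x ∈ R ∧ x * x ∈ E}
                      one_mem' := ⟨one_mem _, by simp⟩
                      mul_mem' := by
                        rintro a b ⟨ha, ha'⟩ ⟨hb, hb'⟩
                        refine ⟨mul_mem ha hb, ?_⟩
                        have e1 : a * b * (a * b) = (a * a) * (a⁻¹ * b * a⁻¹⁻¹ * b⁻¹) * (b * b) := by group
                        rw [e1]
                        exact mul_mem (mul_mem ha' (hcommR _ (inv_mem ha) _ hb)) hb'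
                      inv_mem' := by
                        rintro a ⟨ha, ha'⟩
                        refine ⟨inv_mem ha, ?_⟩
                        rw [← mul_inv_rev]
                        exact inv_mem ha' } : Subgroup G) := by
      conv_lhs => rw [hR]
      apply sup_le
      · intro x hx
        refine ⟨by rw [hR]; exact mem_sup_left hx, ?_⟩
        rcases h.hB.sq x hx.1 with h1 | h1
        · rw [h1]; exact one_mem _
        · rw [h1]; exact hvE
      · intro x hx
        refine ⟨by rw [hR]; exact mem_sup_right hx, ?_⟩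
        rcases h.hA.sq x hx.1 with h1 | h1
        · rw [h1]; exact one_mem _
        · rw [h1]; exact hzE
    intro x hx
    exact (hle hx).2
  have hZR : ∀ x ∈ R, (∀ y ∈ R, x * y = y * x) → x ∈ V := by
    intro x hx hc
    have h1 := h.cent_D (c := x) (fun d hd hdv => hc d (by rw [hR]; exact mem_sup_right ⟨hd, Sit.mem_cent.2 hdv⟩))
    rcases h1 with rfl | rfl | rfl | rfl
    · exact one_mem _
    · exact hzV
    · exact hvV
    · exact mul_mem hzV hvV
  have hEab : ∀ x ∈ E, ∀ y ∈ E, x * y = y * x := by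
    intro x hx y hy
    rcases hQE x (hE1 hx).1 y hy with h1 | h1
    · calc x * y = (x * y * x⁻¹ * y⁻¹) * (y * x) := by group
        _ = _ := by rw [h1, one_mul]
    · rcases hBE x (hE2 hx).1 y hy with h2 | h2
      · calc x * y = (x * y * x⁻¹ * y⁻¹) * (y * x) := by group
          _ = _ := by rw [h2, one_mul]
      · exact absurd (h1.symm.trans h2) (fun h3 => h.ne h3.symm)
  have hEsq : ∀ x ∈ E, x * x = 1 := by
    intro x hx
    rcases h.hA.sq x (hE1 hx).1 with h1 | h1
    · exact h1
    · rcases h.hB.sq x (hE2 hx).1 with h2 | h2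
      · exact h2
      · exact absurd (h1.symm.trans h2) (fun h3 => h.ne h3.symm)
  have hZ1 : ∀ x : R, x ∈ Subgroup.center R ↔ (x : G) ∈ V := by
    intro x
    rw [mem_center_iff]
    constructor
    · intro h1
      exact hZR x x.2 (fun y hy => (congrArg Subtype.val (h1 ⟨y, hy⟩)).symm)
    · intro h1 y
      exact Subtype.ext (hRV y y.2 x h1)
  have hZ2 : ∀ x : R, (x : G) ∈ E → x ∈ Subgroup.upperCentralSeries R 2 := by
    intro x hx
    rw [Subgroup.mem_upperCentralSeries_succ_iff]
    intro y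
    rw [Subgroup.upperCentralSeries_one, hZ1, commutatorElement_def]
    have h1 := hXE y (hRX y.2) x hx
    have e : ((x * y * x⁻¹ * y⁻¹ : R) : G) = ((y : G) * x * (y : G)⁻¹ * (x : G)⁻¹)⁻¹ := by
      simp only [Subgroup.coe_mul, Subgroup.coe_inv]; group
    rw [e]; exact inv_mem h1
  refine ⟨?_, ?_, ?_, ?_, ?_, hDD, ?_⟩
  · ext x
    constructor
    · rintro ⟨y, hy, rfl⟩
      exact (hZ1 y).1 hy
    · intro hx
      exact ⟨⟨x, hVR hx⟩, (hZ1 _).2 hx, rfl⟩
  · intro x hx
    have hxR : x ∈ R := by rw [hR]; exact mem_sup_right (hE1 hx)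
    exact ⟨⟨x, hxR⟩, hZ2 _ hx, rfl⟩
  · rw [eq_top_iff]
    intro x _
    rw [Subgroup.mem_upperCentralSeries_succ_iff]
    intro y
    exact hZ2 _ (hcommR x x.2 y y.2)
  · exact ⟨⟨⟨fun a b => Subtype.ext (hEab a a.2 b b.2)⟩⟩, fun x hx => by rw [pow_two]; exact hEsq x hx⟩
  · intro x hx y hy
    exact ⟨hcommR x hx y hy, by rw [pow_two]; exact hsqR x hx⟩
  · rw [commutator_le]
    intro x hx e he
    rw [commutatorElement_def]
    exact hXE x hx e he

end Cfsg.Agent.S5431
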