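import Cfsg.Statements.S5433
import Cfsg.Agent.H29.XS

set_option autoImplicit false
open Cfsg

namespace Cfsg.Agent.S5433

/-- Let Q be a large extraspecial 2-subgroup of the finite group G (extraspecial; centralizer equal to its centre; normal in the centralizer of its centre; normalizing no non-trivial subgroup of odd order), and L a normal subgroup of G containing Q. Then G is the product of L and the normalizer of Q. -/
theorem result {G : Type*} [Group G] [Finite G] (Q : Subgroup G) (hQ : Cfsg.IsLargeExtraspecial Q) (L : Subgroup G) [L.Normal] (hQL : Q ≤ L) : L ⊔ Subgroup.normalizer (Q : Set G) = ⊤ := by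
  have : Fact (Nat.Prime 2) := ⟨Nat.prime_two⟩
  obtain ⟨z, h⟩ := H29.lxs_of_isLargeExtraspecial Q hQ
  have h1 : IsPGroup 2 (Q.subgroupOf L) := by
    rintro ⟨x, hx⟩
    obtain ⟨k, hk⟩ := h.hp ⟨x, hx⟩
    refine ⟨k, ?_⟩
    apply Subtype.ext; apply Subtype.ext
    have := congrArg Subtype.val hk
    simpa using this
  obtain ⟨P, hP⟩ := h1.exists_le_sylow
  have hF := P.normalizer_sup_eq_top
  rw [sup_comm, eq_top_iff, ← hF]
  apply sup_le_sup _ le_rfl
  intro x hx
  have hx : x ∈ Subgroup.normalizer (((P : Subgroup L).map L.subtype : Subgroup G) : Set G) := hx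
  rw [h.norm]
  have hQP : Q ≤ (P : Subgroup L).map L.subtype := by
    intro y hy
    exact ⟨⟨y, hQL hy⟩, hP hy, rfl⟩
  -- center of P
  have hPp : IsPGroup 2 (P : Subgroup L) := P.isPGroup'
  have hnt : Nontrivial (P : Subgroup L) := by
    rw [Subgroup.nontrivial_iff_exists_ne_one]
    exact ⟨⟨z, hQL h.z_mem⟩, hP h.z_mem, fun h2 => h.z_ne (congrArg Subtype.val h2)⟩
  have hct : Nontrivial (Subgroup.center (P : Subgroup L)) := hPp.center_nontrivial
  obtain ⟨⟨c, hc⟩, hc1⟩ := exists_ne (1 : Subgroup.center (P : Subgroup L))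
  have hcz : ∀ d : (P : Subgroup L), d ∈ Subgroup.center (P : Subgroup L) → ((d : L) : G) = 1 ∨ ((d : L) : G) = z := by
    intro d hd
    apply h.cent_G
    intro y hy
    have := Subgroup.mem_center_iff.1 hd ⟨⟨y, hQL hy⟩, hP hy⟩
    have := congrArg (fun t : (P : Subgroup L) => ((t : L) : G)) this
    exact this.symm
  have hcz' : ((c : L) : G) = z := by
    rcases hcz c hc with h2 | h2
    · exfalso
      apply hc1
      apply Subtype.ext; apply Subtype.ext; apply Subtype.ext
      exact h2
    · exact h2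
  -- z is central in P
  have hzc : ∀ y ∈ (P : Subgroup L).map L.subtype, y * z = z * y := by
    rintro _ ⟨y, hy, rfl⟩
    have := Subgroup.mem_center_iff.1 hc ⟨y, hy⟩
    have := congrArg (fun t : (P : Subgroup L) => ((t : L) : G)) this
    rw [← hcz']
    exact this
  -- x z x⁻¹ is central in P
  have h3 : x * z * x⁻¹ ∈ (P : Subgroup L).map L.subtype :=
    (Subgroup.mem_normalizer_iff.1 hx z).1 (hQP h.z_mem)
  have h4 : ∀ y ∈ (P : Subgroup L).map L.subtype, (x * z * x⁻¹) * y = y * (x * z * x⁻¹) := by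
    intro y hy
    have h5 : x⁻¹ * y * x ∈ (P : Subgroup L).map L.subtype := by
      have := (Subgroup.mem_normalizer_iff.1 (inv_mem hx) y).1 hy
      simpa using this
    have h6 := hzc _ h5
    calc (x * z * x⁻¹) * y = x * (z * (x⁻¹ * y * x)) * x⁻¹ := by group
      _ = x * ((x⁻¹ * y * x) * z) * x⁻¹ := by rw [h6]
      _ = y * (x * z * x⁻¹) := by group
  rcases h.cent_G _ (fun y hy => h4 y (hQP hy)) with h5 | h5
  · exfalso
    apply h.z_ne
    have : z = x⁻¹ * (x * z * x⁻¹) * x := by group
    rw [this, h5]; group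
  · exact mul_inv_eq_iff_eq_mul.1 h5

end Cfsg.Agent.S5433
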