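import Cfsg.Statements.S5436
import Cfsg.Agent.H2.LX
import Cfsg.Agent.S5422

set_option autoImplicit false
set_option linter.style.haveILetI false
set_option linter.unusedVariables false
set_option linter.unusedSectionVars false
open Cfsg

namespace Cfsg.Agent.S5436

open Cfsg.Agent Cfsg.Agent.H29
open Subgroup

/-- Let z be an involution of the finite group G with centralizer H whose generalized Fitting subgroup Q is extraspecial of width at least 2 (order 2^(2w+1), w ≥ 2); suppose some conjugate of z other than z lies in Q, H/Q is a non-abelian simple group, H acts irreducibly by conjugation on Q modulo the subgroup generated by z (the only H-invariant subgroups of Q containing z are that subgroup and Q), and Q is not the subgroup generated by the conjugates of z lying in H. Then G is simple. -/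
theorem result {G : Type*} [Group G] [Finite G] (z : G) (hz : orderOf z = 2) (Q : Subgroup (Subgroup.centralizer ({z} : Set G))) [Q.Normal] (hF : Cfsg.generalizedFittingSubgroup ↥(Subgroup.centralizer ({z} : Set G)) = Q) (hQ : Cfsg.IsExtraspecial 2 ↥Q) (w : ℕ) (hw : 2 ≤ w) (hcard : Nat.card ↥Q = 2 ^ (2 * w + 1)) (hnwc : ∃ g : G, (∃ hq : g * z * g⁻¹ ∈ Subgroup.centralizer ({z} : Set G), (⟨g * z * g⁻¹, hq⟩ : Subgroup.centralizer ({z} : Set G)) ∈ Q) ∧ g * z * g⁻¹ ≠ z) (hsimp : IsSimpleGroup (↥(Subgroup.centralizer ({z} : Set G)) ⧸ Q)) (hna : ¬ IsMulCommutative (↥(Subgroup.centralizer ({z} : Set G)) ⧸ Q)) (hirr : ∀ W : Subgroup (Subgroup.centralizer ({z} : Set G)), W.Normal → W ≤ Q → (W = Q ∨ ∀ x ∈ W, (x : G) ∈ Subgroup.zpowers z)) (hwcl : Subgroup.closure {x : Subgroup.centralizer ({z} : Set G) | IsConj z (x : G)} ≠ Q) : IsSimpleGroup G := by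
  haveI : Fact (Nat.Prime 2) := ⟨Nat.prime_two⟩
  have hQn : Q.Normal := inferInstance
  obtain ⟨z0, h0⟩ := xs_of_isExtraspecial Q hQ
  have h : NXS (Q.map (centralizer ({z} : Set G)).subtype) z :=
    H2.LX.nxs_of_fstar hz (by rw [hF]) (H2.LX.xs_map h0)
  obtain ⟨g, ⟨hq, hgQ⟩, hgz⟩ := hnwc
  have hvQ : g * z * g⁻¹ ∈ Q.map (centralizer ({z} : Set G)).subtype := ⟨_, hgQ, rfl⟩
  have hcQ : 8 < Nat.card (Q.map (centralizer ({z} : Set G)).subtype) := by
    have h1 : Nat.card (Q.map (centralizer ({z} : Set G)).subtype) = Nat.card Q :=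
      Nat.card_congr (Q.equivMapOfInjective _ (subtype_injective _)).symm.toEquiv
    rw [h1, hcard]
    calc 8 < 2 ^ 5 := by norm_num
      _ ≤ 2 ^ (2 * w + 1) := Nat.pow_le_pow_right (by norm_num) (by omega)
  have hzv := S5422.z_mem_cj h (g := g) rfl hvQ hgz hcQ
  have hT := S5422.nxs_cj h g
  have hodd := h.odd_of_invol hvQ hT.z_ne hgz hT.z_sq hT.hp hzv (fun x hx y hy =>
    (mem_normalizer_iff.1 ((hT.norm x).2 hx) y).1 hy)
  apply H2.LX.simple_of_gen h hodd
  intro N hN hzN
  set M : Subgroup (centralizer ({z} : Set G)) := closure {x : centralizer ({z} : Set G) | IsConj z (x : G)} with hM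
  haveI hMn : M.Normal := by
    refine ⟨fun n hn c => ?_⟩
    have : ∀ n ∈ M, c * n * c⁻¹ ∈ M := by
      intro n hn
      induction hn using closure_induction with
      | mem x hx =>
        apply Subgroup.subset_closure
        show IsConj z ((c * x * c⁻¹ : centralizer ({z} : Set G)) : G)
        have h1 : IsConj z (x : G) := hx
        refine h1.trans (isConj_iff.2 ⟨(c : G), by simp⟩)
      | one => simp
      | mul a b _ _ ha hb =>
        have : c * (a * b) * c⁻¹ = (c * a * c⁻¹) * (c * b * c⁻¹) := by group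
        rw [this]; exact M.mul_mem ha hb
      | inv a _ ha =>
        have : c * a⁻¹ * c⁻¹ = (c * a * c⁻¹)⁻¹ := by group
        rw [this]; exact M.inv_mem ha
    exact this n hn
  have hvM : (⟨g * z * g⁻¹, hq⟩ : centralizer ({z} : Set G)) ∈ M := Subgroup.subset_closure (isConj_iff.2 ⟨g, rfl⟩)
  have hQM : Q ≤ M := by
    rcases hirr (M ⊓ Q) inferInstance inf_le_right with h1 | h1
    · rw [← h1]; exact inf_le_left
    · exfalso
      have h2 := h1 ⟨g * z * g⁻¹, hq⟩ ⟨hvM, hgQ⟩
      have h3 : g * z * g⁻¹ ∈ zpowers z := h2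
      rw [H29.mem_zpowers_of_sq h.z_sq] at h3
      rcases h3 with h3 | h3
      · exact hT.z_ne h3
      · exact hgz h3
  have hMtop : M = ⊤ := by
    haveI := hsimp
    rcases (inferInstance : (M.map (QuotientGroup.mk' Q)).Normal).eq_bot_or_eq_top with h1 | h1
    · exfalso
      apply hwcl
      apply le_antisymm _ hQM
      intro x hx
      have h2 : QuotientGroup.mk' Q x ∈ M.map (QuotientGroup.mk' Q) := mem_map_of_mem _ hx
      rw [h1, mem_bot] at h2
      exact (QuotientGroup.eq_one_iff x).1 h2
    · have h2 := congrArg (comap (QuotientGroup.mk' Q)) h1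
      rw [comap_top, comap_map_eq, QuotientGroup.ker_mk', sup_eq_left.2 hQM] at h2
      exact h2
  have hle : M ≤ N.subgroupOf (centralizer ({z} : Set G)) := by
    rw [hM, closure_le]
    intro x hx
    have h1 : IsConj z (x : G) := hx
    obtain ⟨c, hc⟩ := isConj_iff.1 h1
    show (x : G) ∈ N
    rw [← hc]
    exact hN.conj_mem z hzN c
  rw [hMtop, top_le_iff, subgroupOf_eq_top] at hle
  exact hle

end Cfsg.Agent.S5436
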