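import Cfsg.Statements.S5437


set_option autoImplicit false
open Cfsg

namespace Cfsg.Agent.S5437

theorem smul_coset_iff {G : Type*} [Group G] (H : Subgroup G) (x g : G) :
    x • (g : G ⧸ H) = (g : G ⧸ H) ↔ g⁻¹ * x * g ∈ H := by
  show ((x * g : G) : G ⧸ H) = (g : G ⧸ H) ↔ _
  rw [eq_comm, QuotientGroup.eq, mul_assoc]

theorem mem_map_conj_iff {G : Type*} [Group G] (H : Subgroup G) (x g : G) :
    x ∈ (H : Subgroup G).map (MulAut.conj g).toMonoidHom ↔ g⁻¹ * x * g ∈ H := by
  constructor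
  · rintro ⟨y, hy, rfl⟩
    have : g⁻¹ * ((MulAut.conj g).toMonoidHom y) * g = y := by
      show g⁻¹ * (g * y * g⁻¹) * g = y
      group
    rw [this]; exact hy
  · intro h
    refine ⟨_, h, ?_⟩
    show g * (g⁻¹ * x * g) * g⁻¹ = x
    group

/-- Let I be a set of involutions of the finite group G closed under conjugation, and H a subgroup of G. The following are equivalent: (1) for every member x of I lying in H, the conjugates of x lying in H form a single H-class and the centralizer of x lies in H; (2) for every g outside H, no member of I lies in both H and g H g⁻¹; (3) every member of I lying in H fixes exactly one coset in the action of G on the cosets of H. -/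
theorem result {G : Type*} [Group G] [Finite G] (I : Set G) (hI : ∀ x ∈ I, orderOf x = 2) (hIc : ∀ g : G, ∀ x ∈ I, g * x * g⁻¹ ∈ I) (H : Subgroup G) : ((∀ x ∈ I, x ∈ H → (∀ g : G, g * x * g⁻¹ ∈ H → ∃ h ∈ H, h * x * h⁻¹ = g * x * g⁻¹) ∧ Subgroup.centralizer ({x} : Set G) ≤ H) ↔ (∀ g : G, g ∉ H → ∀ x ∈ I, ¬ (x ∈ H ∧ x ∈ (H : Subgroup G).map (MulAut.conj g).toMonoidHom))) ∧ ((∀ g : G, g ∉ H → ∀ x ∈ I, ¬ (x ∈ H ∧ x ∈ (H : Subgroup G).map (MulAut.conj g).toMonoidHom)) ↔ ∀ x ∈ I, x ∈ H → ∃! c : G ⧸ H, x • c = c) := by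
  simp only [mem_map_conj_iff]
  refine ⟨⟨?_, ?_⟩, ⟨?_, ?_⟩⟩
  · intro hA g hg x hx ⟨hxH, hxg⟩
    apply hg
    have hy : g⁻¹ * x * g ∈ I := by
      have := hIc g⁻¹ x hx
      rwa [inv_inv] at this
    obtain ⟨hc, hz⟩ := hA _ hy hxg
    obtain ⟨h, hh, hh2⟩ := hc g (by
      have : g * (g⁻¹ * x * g) * g⁻¹ = x := by group
      rw [this]; exact hxH)
    have h3 : h⁻¹ * g ∈ Subgroup.centralizer ({g⁻¹ * x * g} : Set G) := by
      rw [Subgroup.mem_centralizer_singleton_iff]
      calc h⁻¹ * g * (g⁻¹ * x * g) = h⁻¹ * (g * (g⁻¹ * x * g) * g⁻¹) * g := by group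
        _ = h⁻¹ * (h * (g⁻¹ * x * g) * h⁻¹) * g := by rw [hh2]
        _ = (g⁻¹ * x * g) * (h⁻¹ * g) := by group
    have h4 := mul_mem hh (hz h3)
    rwa [mul_inv_cancel_left] at h4
  · intro hB x hx hxH
    refine ⟨?_, ?_⟩
    · intro g hg
      by_cases hgH : g ∈ H
      · exact ⟨g, hgH, rfl⟩
      · exfalso
        apply hB g hgH (g * x * g⁻¹) (hIc g x hx)
        refine ⟨hg, ?_⟩
        have : g⁻¹ * (g * x * g⁻¹) * g = x := by group
        rw [this]; exact hxH
    · intro c hc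
      rw [Subgroup.mem_centralizer_singleton_iff] at hc
      by_contra hcH
      apply hB c hcH x hx
      refine ⟨hxH, ?_⟩
      have : c⁻¹ * x * c = x := by
        rw [mul_assoc, ← hc]; group
      rw [this]; exact hxH
  · intro hB x hx hxH
    refine ⟨((1 : G) : G ⧸ H), ?_, ?_⟩
    · show x • ((1 : G) : G ⧸ H) = ((1 : G) : G ⧸ H)
      rw [smul_coset_iff]
      simpa using hxH
    · intro c hc
      obtain ⟨g, rfl⟩ := QuotientGroup.mk_surjective c
      replace hc : x • (g : G ⧸ H) = (g : G ⧸ H) := hc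
      rw [smul_coset_iff] at hc
      by_contra hne
      have hg : g ∉ H := by
        intro hg
        apply hne
        rw [eq_comm, QuotientGroup.eq]
        simpa using hg
      exact hB g hg x hx ⟨hxH, hc⟩
  · intro hC g hg x hx ⟨hxH, hxg⟩
    obtain ⟨c, hc, hu⟩ := hC x hx hxH
    have h1 := hu ((1 : G) : G ⧸ H) (by
      show x • ((1 : G) : G ⧸ H) = ((1 : G) : G ⧸ H)
      rw [smul_coset_iff]
      simpa using hxH)
    have h2 := hu (g : G ⧸ H) (by
      show x • (g : G ⧸ H) = (g : G ⧸ H)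
      rw [smul_coset_iff]
      exact hxg)
    apply hg
    rw [← h2, QuotientGroup.eq] at h1
    simpa using h1

end Cfsg.Agent.S5437
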