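import Cfsg.Statements.S5438


set_option autoImplicit false
open Cfsg

namespace Cfsg.Agent.S5438

open scoped Pointwise

theorem smul_coset_iff {G : Type*} [Group G] (H : Subgroup G) (x g : G) :
    x • (g : G ⧸ H) = (g : G ⧸ H) ↔ g⁻¹ * x * g ∈ H := by
  show ((x * g : G) : G ⧸ H) = (g : G ⧸ H) ↔ _
  rw [eq_comm, QuotientGroup.eq, mul_assoc]

/-- conjugating a 2-element into a given Sylow subgroup -/
theorem exists_conj_mem {H : Type*} [Group H] [Finite H] (P : Sylow 2 H) (x : H)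
    (hx : ∃ k : ℕ, orderOf x = 2 ^ k) : ∃ h : H, h * x * h⁻¹ ∈ P := by
  have : Fact (Nat.Prime 2) := ⟨Nat.prime_two⟩
  obtain ⟨k, hk⟩ := hx
  have h1 : IsPGroup 2 (Subgroup.zpowers x) := by
    rw [IsPGroup.iff_card]
    exact ⟨k, by rw [Nat.card_zpowers, hk]⟩
  obtain ⟨S, hS⟩ := h1.exists_le_sylow
  obtain ⟨h, hh⟩ := MulAction.exists_smul_eq H S P
  refine ⟨h, ?_⟩
  rw [← hh]
  have : x ∈ S := hS (Subgroup.mem_zpowers x)
  rw [Sylow.smul_def]
  exact ⟨x, this, rfl⟩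

/-- Let z be a 2-central involution of the finite group G (an involution central in some Sylow 2-subgroup) and H a subgroup containing z such that the coset H is the only coset of H fixed by z (in the action of G on the cosets of H). Then H has odd index in G, and for every 2-element x of H the conjugates of x lying in H form a single H-class. -/
theorem result {G : Type*} [Group G] [Finite G] (z : G) (hz : Cfsg.IsTwoCentralInvolution z) (H : Subgroup G) (hzH : z ∈ H) (hfix : ∀ g : G, g⁻¹ * z * g ∈ H → g ∈ H) : Odd H.index ∧ ∀ x ∈ H, (∃ k : ℕ, orderOf x = 2 ^ k) → ∀ g : G, g * x * g⁻¹ ∈ H → ∃ h ∈ H, h * x * h⁻¹ = g * x * g⁻¹ := by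
  have : Fact (Nat.Prime 2) := ⟨Nat.prime_two⟩
  obtain ⟨hz2, P, hzP, hPz⟩ := hz
  have hzz : z * z = 1 := by rw [← pow_two, ← hz2]; exact pow_orderOf_eq_one z
  -- any 2-subgroup containing z fixes only the coset H
  have hC : Subgroup.centralizer ({z} : Set G) ≤ H := by
    intro c hc
    rw [Subgroup.mem_centralizer_singleton_iff] at hc
    apply hfix
    have : c⁻¹ * z * c = z := by rw [mul_assoc, ← hc]; group
    rw [this]; exact hzH
  have hPH : (P : Subgroup G) ≤ H := by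
    intro x hx
    apply hC
    rw [Subgroup.mem_centralizer_singleton_iff]
    exact hPz x hx
  have hodd : Odd H.index := by
    have h1 : ¬ 2 ∣ (P : Subgroup G).index := P.not_dvd_index
    have h2 : H.index ∣ (P : Subgroup G).index := Subgroup.index_dvd_of_le hPH
    rw [← Nat.not_even_iff_odd, even_iff_two_dvd]
    exact fun h3 => h1 (h3.trans h2)
  refine ⟨hodd, ?_⟩
  -- 2-groups containing z are in H
  have hT : ∀ T : Subgroup G, IsPGroup 2 T → z ∈ T → T ≤ H := by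
    intro T hT hzT
    have h1 : (MulAction.fixedPoints T (G ⧸ H)).Nonempty := by
      apply hT.nonempty_fixed_point_of_prime_not_dvd_card
      rw [← Subgroup.index]
      intro h3
      rw [← Nat.not_even_iff_odd, even_iff_two_dvd] at hodd
      exact hodd h3
    obtain ⟨c, hc⟩ := h1
    obtain ⟨g, rfl⟩ := QuotientGroup.mk_surjective c
    have hc' : ∀ t ∈ T, g⁻¹ * t * g ∈ H := by
      intro t ht
      have := hc ⟨t, ht⟩
      rw [← smul_coset_iff]
      exact this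
    have hg : g ∈ H := hfix g (hc' z hzT)
    intro t ht
    have h4 := mul_mem (mul_mem hg (hc' t ht)) (inv_mem hg)
    have : g * (g⁻¹ * t * g) * g⁻¹ = t := by group
    rwa [this] at h4
  -- main claim for x ∈ P
  have main : ∀ x ∈ (P : Subgroup G), ∀ g : G, g * x * g⁻¹ ∈ (P : Subgroup G) →
      ∃ h ∈ H, h * x * h⁻¹ = g * x * g⁻¹ := by
    intro x hx g hg
    have hzC : z ∈ Subgroup.centralizer ({x} : Set G) := by
      rw [Subgroup.mem_centralizer_singleton_iff]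
      exact (hPz x hx).symm
    have hz'C : g⁻¹ * z * g ∈ Subgroup.centralizer ({x} : Set G) := by
      rw [Subgroup.mem_centralizer_singleton_iff]
      have := hPz _ hg
      calc g⁻¹ * z * g * x = g⁻¹ * (z * (g * x * g⁻¹)) * g := by group
        _ = g⁻¹ * ((g * x * g⁻¹) * z) * g := by rw [this]
        _ = x * (g⁻¹ * z * g) := by group
    have hp1 : IsPGroup 2 (Subgroup.zpowers (⟨z, hzC⟩ : Subgroup.centralizer ({x} : Set G))) := by
      rw [IsPGroup.iff_card]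
      refine ⟨1, ?_⟩
      rw [Nat.card_zpowers, Subgroup.orderOf_mk, hz2, pow_one]
    obtain ⟨S, hS⟩ := hp1.exists_le_sylow
    have hzS := hS (Subgroup.mem_zpowers _)
    have ho : orderOf (⟨g⁻¹ * z * g, hz'C⟩ : Subgroup.centralizer ({x} : Set G)) = 2 := by
      rw [Subgroup.orderOf_mk]
      have : g⁻¹ * z * g = MulAut.conj g⁻¹ z := by simp
      rw [this, ← hz2]
      exact orderOf_injective (MulAut.conj g⁻¹).toMonoidHom (MulAut.conj g⁻¹).injective z
    obtain ⟨c, hc⟩ := exists_conj_mem S (⟨g⁻¹ * z * g, hz'C⟩) ⟨1, by rw [ho, pow_one]⟩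
    have hSH : (S : Subgroup _).map (Subgroup.centralizer ({x} : Set G)).subtype ≤ H := by
      apply hT
      · exact S.isPGroup'.map _
      · exact ⟨_, hzS, rfl⟩
    have h5 : (c : G) * (g⁻¹ * z * g) * (c : G)⁻¹ ∈ H := hSH ⟨_, hc, rfl⟩
    have h6 : g * (c : G)⁻¹ ∈ H := by
      apply hfix
      have : (g * (c : G)⁻¹)⁻¹ * z * (g * (c : G)⁻¹) = (c : G) * (g⁻¹ * z * g) * (c : G)⁻¹ := by group
      rw [this]; exact h5
    refine ⟨_, h6, ?_⟩
    have h7 := Subgroup.mem_centralizer_singleton_iff.1 c.2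
    calc g * (c : G)⁻¹ * x * (g * (c : G)⁻¹)⁻¹ = g * ((c : G)⁻¹ * (x * (c : G))) * g⁻¹ := by group
      _ = g * ((c : G)⁻¹ * ((c : G) * x)) * g⁻¹ := by rw [h7]
      _ = g * x * g⁻¹ := by group
  intro x hx ⟨k, hk⟩ g hg
  have hgo : orderOf (g * x * g⁻¹) = 2 ^ k := by
    rw [← hk]
    exact orderOf_injective (MulAut.conj g).toMonoidHom (MulAut.conj g).injective x
  obtain ⟨h1, hh1⟩ := exists_conj_mem (P.subtype hPH) (⟨x, hx⟩ : H) ⟨k, by rw [Subgroup.orderOf_mk, hk]⟩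
  obtain ⟨h2, hh2⟩ := exists_conj_mem (P.subtype hPH) (⟨g * x * g⁻¹, hg⟩ : H)
    ⟨k, by rw [Subgroup.orderOf_mk, hgo]⟩
  have hh1' : (h1 : G) * x * (h1 : G)⁻¹ ∈ (P : Subgroup G) := hh1
  have hh2' : (h2 : G) * (g * x * g⁻¹) * (h2 : G)⁻¹ ∈ (P : Subgroup G) := hh2
  obtain ⟨h, hh, hhe⟩ := main _ hh1' ((h2 : G) * g * (h1 : G)⁻¹) (by
    have : (h2 : G) * g * (h1 : G)⁻¹ * ((h1 : G) * x * (h1 : G)⁻¹) * ((h2 : G) * g * (h1 : G)⁻¹)⁻¹
      = (h2 : G) * (g * x * g⁻¹) * (h2 : G)⁻¹ := by group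
    rw [this]; exact hh2')
  refine ⟨(h2 : G)⁻¹ * h * h1, mul_mem (mul_mem (inv_mem h2.2) hh) h1.2, ?_⟩
  calc (h2 : G)⁻¹ * h * h1 * x * ((h2 : G)⁻¹ * h * h1)⁻¹
      = (h2 : G)⁻¹ * (h * ((h1 : G) * x * (h1 : G)⁻¹) * h⁻¹) * h2 := by group
    _ = (h2 : G)⁻¹ * ((h2 : G) * g * (h1 : G)⁻¹ * ((h1 : G) * x * (h1 : G)⁻¹) * ((h2 : G) * g * (h1 : G)⁻¹)⁻¹) * h2 := by rw [hhe]
    _ = g * x * g⁻¹ := by group

end Cfsg.Agent.S5438
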