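import Cfsg.Statements.S5439


set_option autoImplicit false
open Cfsg

namespace Cfsg.Agent.S5439

theorem smul_coset_iff {G : Type*} [Group G] (H : Subgroup G) (x g : G) :
    x • (g : G ⧸ H) = (g : G ⧸ H) ↔ g⁻¹ * x * g ∈ H := by
  show ((x * g : G) : G ⧸ H) = (g : G ⧸ H) ↔ _
  rw [eq_comm, QuotientGroup.eq, mul_assoc]

/-- Let I and J be two different conjugacy classes of involutions of the finite group G and H a subgroup such that every member of I ∪ J fixes exactly one coset in the action on the cosets of H, and such that for every a in I ∩ H and every b in (I ∪ J) ∩ H different from a and commuting with it, the centralizer of a b lies in H. Then H = G. -/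
theorem result {G : Type*} [Group G] [Finite G] (I J : Set G) (a₀ b₀ : G) (ha₀ : orderOf a₀ = 2) (hb₀ : orderOf b₀ = 2) (hI : I = {x | IsConj a₀ x}) (hJ : J = {x | IsConj b₀ x}) (hIJ : I ≠ J) (H : Subgroup G) (hfix : ∀ x ∈ I ∪ J, ∃! c : G ⧸ H, x • c = c) (hcent : ∀ a ∈ I, a ∈ H → ∀ b ∈ I ∪ J, b ∈ H → a ≠ b → a * b = b * a → Subgroup.centralizer ({a * b} : Set G) ≤ H) : H = ⊤ := by
  have hIconj : ∀ x ∈ I, ∀ g : G, g * x * g⁻¹ ∈ I := by
    intro x hx g
    rw [hI] at hx ⊢
    exact IsConj.trans hx (isConj_iff.2 ⟨g, rfl⟩)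
  have hJconj : ∀ x ∈ J, ∀ g : G, g * x * g⁻¹ ∈ J := by
    intro x hx g
    rw [hJ] at hx ⊢
    exact IsConj.trans hx (isConj_iff.2 ⟨g, rfl⟩)
  have hIc' : ∀ x y, x ∈ I → y ∈ I → ∃ g : G, g * x * g⁻¹ = y := by
    intro x y hx hy
    rw [hI] at hx hy
    exact isConj_iff.1 (IsConj.trans (IsConj.symm hx) hy)
  have hI2 : ∀ x ∈ I, x * x = 1 := by
    intro x hx
    rw [hI] at hx
    obtain ⟨g, rfl⟩ := isConj_iff.1 hx
    have h1 : a₀ * a₀ = 1 := by rw [← pow_two, ← ha₀]; exact pow_orderOf_eq_one _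
    calc g * a₀ * g⁻¹ * (g * a₀ * g⁻¹) = g * (a₀ * a₀) * g⁻¹ := by group
      _ = 1 := by rw [h1]; group
  have hJ2 : ∀ x ∈ J, x * x = 1 := by
    intro x hx
    rw [hJ] at hx
    obtain ⟨g, rfl⟩ := isConj_iff.1 hx
    have h1 : b₀ * b₀ = 1 := by rw [← pow_two, ← hb₀]; exact pow_orderOf_eq_one _
    calc g * b₀ * g⁻¹ * (g * b₀ * g⁻¹) = g * (b₀ * b₀) * g⁻¹ := by group
      _ = 1 := by rw [h1]; group
  have hdisj : ∀ x, x ∈ I → x ∈ J → False := by
    intro x hx hy
    apply hIJ
    rw [hI] at hx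
    rw [hJ] at hy
    have hab : IsConj a₀ b₀ := IsConj.trans hx (IsConj.symm hy)
    rw [hI, hJ]
    ext y
    constructor
    · intro h; exact IsConj.trans (IsConj.symm hab) h
    · intro h; exact IsConj.trans hab h
  have ha₀I : a₀ ∈ I := by rw [hI]; exact IsConj.refl _
  have hb₀J : b₀ ∈ J := by rw [hJ]; exact IsConj.refl _
  -- uniqueness of fixed coset at H
  have huniq : ∀ x ∈ I ∪ J, x ∈ H → ∀ g : G, g⁻¹ * x * g ∈ H → g ∈ H := by
    intro x hx hxH g hg
    obtain ⟨c, hc, hu⟩ := hfix x hx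
    have h1 := hu ((1 : G) : G ⧸ H) (by
      show x • ((1 : G) : G ⧸ H) = ((1 : G) : G ⧸ H)
      rw [smul_coset_iff]
      simpa using hxH)
    have h2 := hu (g : G ⧸ H) (by
      show x • (g : G ⧸ H) = (g : G ⧸ H)
      rw [smul_coset_iff]
      exact hg)
    rw [← h2, QuotientGroup.eq] at h1
    simpa using h1
  -- key claim
  have key : ∀ a ∈ I, a ∈ H → ∀ b ∈ J, b ∈ H := by
    intro a haI haH b hbJ
    have ha2 := hI2 a haI
    have hb2 := hJ2 b hbJ
    have hai : a⁻¹ = a := inv_eq_of_mul_eq_one_left ha2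
    have hbi : b⁻¹ = b := inv_eq_of_mul_eq_one_left hb2
    have hab : ∀ n : ℕ, a * (a * b) ^ n * a⁻¹ = ((a * b) ^ n)⁻¹ := by
      intro n
      rw [← conj_pow, ← inv_pow]
      congr 1
      rw [mul_inv_rev, hai, hbi]
      calc a * (a * b) * a = (a * a) * b * a := by group
        _ = b * a := by rw [ha2, one_mul]
    have hmove : ∀ n : ℕ, a * (a * b) ^ n = ((a * b) ^ n)⁻¹ * a := by
      intro n
      have := hab n
      rw [mul_inv_eq_iff_eq_mul] at this
      exact this
    rcases Nat.even_or_odd (orderOf (a * b)) with ⟨m, hm⟩ | ⟨m, hm⟩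
    · -- t = (ab)^m
      have hm0 : 0 < m := by
        have := orderOf_pos (a * b)
        omega
      set t := (a * b) ^ m with ht
      have htt : t * t = 1 := by
        rw [ht, ← pow_add, ← hm]; exact pow_orderOf_eq_one _
      have ht1 : t ≠ 1 := by
        intro h1
        have := orderOf_dvd_of_pow_eq_one h1
        have := Nat.le_of_dvd hm0 this
        omega
      have hti : t⁻¹ = t := inv_eq_of_mul_eq_one_left htt
      have hat : a * t = t * a := by
        have := hmove m
        rw [← ht, hti] at this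
        exact this
      have hbt : b * t = t * b := by
        have h1 : (a * b) * t = t * (a * b) := by
          rw [ht, ← pow_succ', ← pow_succ]
        calc b * t = a⁻¹ * (a * b * t) := by group
          _ = a⁻¹ * (t * (a * b)) := by rw [h1]
          _ = a⁻¹ * (t * a) * b := by group
          _ = a⁻¹ * (a * t) * b := by rw [hat]
          _ = t * b := by group
      have htH : t ∈ H := by
        apply huniq a (Or.inl haI) haH
        have : t⁻¹ * a * t = a := by rw [mul_assoc, hat]; group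
        rw [this]; exact haH
      have hatIJ : a * t ∈ I ∪ J := by
        rcases Nat.even_or_odd m with ⟨j, hj⟩ | ⟨j, hj⟩
        · left
          have : a * t = ((a * b) ^ j)⁻¹ * a * ((a * b) ^ j)⁻¹⁻¹ := by
            rw [ht, hj, pow_add, ← mul_assoc, hmove j, inv_inv]
          rw [this]
          exact hIconj a haI _
        · right
          have : a * t = ((a * b) ^ j)⁻¹ * b * ((a * b) ^ j)⁻¹⁻¹ := by
            rw [ht, hj, two_mul, add_assoc, pow_add, ← mul_assoc, hmove j, inv_inv, pow_succ']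
            generalize (a * b) ^ j = w
            calc w⁻¹ * a * (a * b * w) = w⁻¹ * (a * a) * b * w := by group
              _ = w⁻¹ * b * w := by rw [ha2, mul_one]
          rw [this]
          exact hJconj b hbJ _
      have hle := hcent a haI haH (a * t) hatIJ (mul_mem haH htH) (by
        intro h
        apply ht1
        have := congrArg (fun x => a⁻¹ * x) h
        simpa using this.symm) (by
        rw [mul_assoc, ← hat])
      have haat : a * (a * t) = t := by rw [← mul_assoc, ha2, one_mul]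
      rw [haat] at hle
      apply hle
      rw [Subgroup.mem_centralizer_singleton_iff]
      exact hbt
    · exfalso
      have h1 : (a * b) ^ (2 * m) = (a * b)⁻¹ := by
        rw [eq_inv_iff_mul_eq_one, ← pow_succ, ← hm]; exact pow_orderOf_eq_one _
      have h2 : b = (a * b) ^ m * a * ((a * b) ^ m)⁻¹ := by
        have h3 : a * ((a * b) ^ m)⁻¹ = (a * b) ^ m * a := by
          have := hmove m
          calc a * ((a * b) ^ m)⁻¹ = a * (((a * b) ^ m)⁻¹ * a) * a⁻¹ := by group
            _ = a * (a * (a * b) ^ m) * a⁻¹ := by rw [this]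
            _ = (a * a) * (a * b) ^ m * a⁻¹ := by group
            _ = (a * b) ^ m * a := by rw [ha2, one_mul, hai]
        rw [mul_assoc, h3, ← mul_assoc, ← pow_add, ← two_mul, h1, mul_inv_rev, hai, hbi, mul_assoc,
          ha2, mul_one]
      apply hdisj b _ hbJ
      rw [h2]
      exact hIconj a haI _
  -- finish
  obtain ⟨c, hc, -⟩ := hfix a₀ (Or.inl ha₀I)
  obtain ⟨g, rfl⟩ := QuotientGroup.mk_surjective c
  have hc' : a₀ • (g : G ⧸ H) = (g : G ⧸ H) := hc
  rw [smul_coset_iff] at hc'
  have haI : g⁻¹ * a₀ * g ∈ I := by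
    have := hIconj a₀ ha₀I g⁻¹
    rwa [inv_inv] at this
  rw [eq_top_iff]
  intro x _
  apply huniq b₀ (Or.inr hb₀J) (key _ haI hc' b₀ hb₀J) x
  apply key _ haI hc'
  have := hJconj b₀ hb₀J x⁻¹
  rwa [inv_inv] at this

end Cfsg.Agent.S5439
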