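import Cfsg.Statements.S5459
import Cfsg.Agent.H29.XS

set_option autoImplicit false
open Cfsg

namespace Cfsg.Agent.S5459

open scoped commutatorElement

/-- commuting relation inside a set -/
def stepRel {G : Type*} [Group G] (D : Set G) (a b : G) : Prop := a ∈ D ∧ b ∈ D ∧ a * b = b * a

theorem reach_of_rel {G : Type*} [Group G] (D : Set G) {x y : G} (hx : x ∈ D)
    (h : Relation.ReflTransGen (stepRel D) x y) :
    ∃ hy : y ∈ D, (Cfsg.commutingGraph D).Reachable ⟨x, hx⟩ ⟨y, hy⟩ := by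
  induction h with
  | refl => exact ⟨hx, SimpleGraph.Reachable.refl _⟩
  | @tail b c h1 h2 ih =>
    obtain ⟨hb, hr⟩ := ih
    obtain ⟨_, hc, hbc⟩ := h2
    refine ⟨hc, hr.trans ?_⟩
    by_cases hne : b = c
    · subst hne; exact SimpleGraph.Reachable.refl _
    · apply SimpleGraph.Adj.reachable
      rw [Cfsg.commutingGraph, SimpleGraph.fromRel_adj]
      exact ⟨fun h => hne (congrArg Subtype.val h), Or.inl hbc⟩

theorem rel_conj {G : Type*} [Group G] (D : Set G) (hD : ∀ g : G, ∀ x ∈ D, g * x * g⁻¹ ∈ D) (g : G)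
    {x y : G} (h : Relation.ReflTransGen (stepRel D) x y) :
    Relation.ReflTransGen (stepRel D) (g * x * g⁻¹) (g * y * g⁻¹) := by
  induction h with
  | refl => exact Relation.ReflTransGen.refl
  | @tail b c h1 h2 ih =>
    apply Relation.ReflTransGen.tail ih
    obtain ⟨hb, hc, hbc⟩ := h2
    refine ⟨hD g b hb, hD g c hc, ?_⟩
    calc g * b * g⁻¹ * (g * c * g⁻¹) = g * (b * c) * g⁻¹ := by group
      _ = g * (c * b) * g⁻¹ := by rw [hbc]
      _ = _ := by group

theorem rel_symm {G : Type*} [Group G] (D : Set G) {x y : G}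
    (h : Relation.ReflTransGen (stepRel D) x y) : Relation.ReflTransGen (stepRel D) y x := by
  induction h with
  | refl => exact Relation.ReflTransGen.refl
  | @tail b c h1 h2 ih =>
    exact Relation.ReflTransGen.head ⟨h2.2.1, h2.1, h2.2.2.symm⟩ ih

theorem mem_cof {G : Type*} [Group G] {a b : G} : b ∈ conjugatesOf a ↔ IsConj a b := Iff.rfl

/-- Let G be a finite group with a quasisimple normal subgroup L and an involution d such that G is generated by L and d, the centre of L has odd order, and d inverts every element of the centre of L. If the commuting graph on the conjugacy class of the image of d in G modulo the centre of L is connected, then the commuting graph on the conjugacy class of d is connected. -/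
theorem result {G : Type*} [Group G] [Finite G] (L : Subgroup G) [L.Normal] (hL : Cfsg.IsQuasisimple ↥L) (d : G) (hd : orderOf d = 2) (hgen : L ⊔ Subgroup.zpowers d = ⊤) (hodd : Odd (Nat.card ↥(Subgroup.center ↥L))) (hinv : ∀ c ∈ (Subgroup.center ↥L).map L.subtype, d * c * d⁻¹ = c⁻¹) [hn : ((Subgroup.center ↥L).map L.subtype).Normal] (hconn : (Cfsg.commutingGraph (conjugatesOf (QuotientGroup.mk d : G ⧸ (Subgroup.center ↥L).map L.subtype))).Connected) : (Cfsg.commutingGraph (conjugatesOf d)).Connected := by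
  classical
  set C : Subgroup G := (Subgroup.center ↥L).map L.subtype with hC
  set D : Set G := conjugatesOf d with hD
  have hCL : C ≤ L := by
    rintro _ ⟨y, _, rfl⟩; exact y.2
  have hCc : ∀ c ∈ C, ∀ l ∈ L, c * l = l * c := by
    rintro _ ⟨y, hy, rfl⟩ l hl
    have := Subgroup.mem_center_iff.1 hy ⟨l, hl⟩
    exact (congrArg Subtype.val this).symm
  have hCodd : Odd (Nat.card C) := by
    have : Nat.card C = Nat.card (Subgroup.center ↥L) :=
      (Nat.card_congr ((Subgroup.center ↥L).equivMapOfInjective L.subtype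
        (Subgroup.subtype_injective L)).toEquiv).symm
    rw [this]; exact hodd
  have hhalf : ∀ e ∈ C, ∃ c ∈ C, c * c = e := by
    intro e he
    obtain ⟨m, hm⟩ := hCodd
    refine ⟨e ^ (m + 1), pow_mem he _, ?_⟩
    have h1 : e ^ Nat.card C = 1 := by
      have := pow_card_eq_one' (x := (⟨e, he⟩ : C))
      exact congrArg Subtype.val this
    rw [← pow_add]
    have : m + 1 + (m + 1) = Nat.card C + 1 := by omega
    rw [this, pow_succ, h1, one_mul]
  have hdd : d * d = 1 := by rw [← pow_two, ← hd]; exact pow_orderOf_eq_one d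
  have hD' : ∀ x, x ∈ D ↔ ∃ g : G, g * d * g⁻¹ = x := by
    intro x
    rw [hD, mem_cof, isConj_iff]
  have hDc : ∀ g : G, ∀ x ∈ D, g * x * g⁻¹ ∈ D := by
    intro g x hx
    obtain ⟨k, rfl⟩ := (hD' x).1 hx
    exact (hD' _).2 ⟨g * k, by group⟩
  have hdD : d ∈ D := (hD' d).2 ⟨1, by group⟩
  have hD2 : ∀ x ∈ D, x * x = 1 := by
    intro x hx
    obtain ⟨g, rfl⟩ := (hD' x).1 hx
    calc g * d * g⁻¹ * (g * d * g⁻¹) = g * (d * d) * g⁻¹ := by group
      _ = 1 := by rw [hdd]; group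
  -- every member of D inverts C
  have hgen' : ∀ g : G, ∃ l ∈ L, g = l ∨ g = l * d := by
    intro g
    have hg : g ∈ L ⊔ Subgroup.zpowers d := by rw [hgen]; trivial
    rw [← SetLike.mem_coe, Subgroup.normal_mul, Set.mem_mul] at hg
    obtain ⟨l, hl, e, he, rfl⟩ := hg
    rcases (H29.mem_zpowers_of_sq hdd).1 he with h | h
    · exact ⟨l, hl, Or.inl (by rw [h, mul_one])⟩
    · exact ⟨l, hl, Or.inr (by rw [h])⟩
  have hCn : ∀ g : G, ∀ c ∈ C, g * c * g⁻¹ ∈ C := fun g c hc => hn.conj_mem c hc g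
  have hDinv' : ∀ x ∈ D, ∀ c ∈ C, x * c = c⁻¹ * x := by
    intro x hx c hc
    obtain ⟨g, rfl⟩ := (hD' x).1 hx
    have h1 : ∀ l ∈ L, ∀ c ∈ C, l * d * l⁻¹ * c = c⁻¹ * (l * d * l⁻¹) := by
      intro l hl c hc
      have h2 := hinv c hc
      rw [mul_inv_eq_iff_eq_mul] at h2
      have h3 := hCc c hc _ (inv_mem hl)
      have h4 := hCc _ (inv_mem hc) _ hl
      calc l * d * l⁻¹ * c = l * d * (c * l⁻¹) := by rw [h3]; group
        _ = l * (d * c) * l⁻¹ := by group
        _ = (l * c⁻¹) * d * l⁻¹ := by rw [h2]; group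
        _ = (c⁻¹ * l) * d * l⁻¹ := by rw [h4]
        _ = c⁻¹ * (l * d * l⁻¹) := by group
    obtain ⟨l, hl, h2 | h2⟩ := hgen' g
    · rw [h2]; exact h1 l hl c hc
    · have h3 : g * d * g⁻¹ = l * d * l⁻¹ := by
        rw [h2]; group
      rw [h3]; exact h1 l hl c hc
  -- D is a union of cosets of C
  have hDC : ∀ x ∈ D, ∀ e ∈ C, ∃ c ∈ C, x * e = c * x * c⁻¹ := by
    intro x hx e he
    obtain ⟨c, hc, hce⟩ := hhalf _ (inv_mem he)
    refine ⟨c, hc, ?_⟩
    have h1 := hDinv' x hx c⁻¹ (inv_mem hc)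
    rw [inv_inv] at h1
    calc x * e = x * e⁻¹⁻¹ := by rw [inv_inv]
      _ = x * (c * c)⁻¹ := by rw [hce]
      _ = (x * c⁻¹) * c⁻¹ := by group
      _ = c * x * c⁻¹ := by rw [h1]
  have hDC' : ∀ x ∈ D, ∀ e ∈ C, x * e ∈ D := by
    intro x hx e he
    obtain ⟨c, _, h1⟩ := hDC x hx e he
    rw [h1]; exact hDc c x hx
  -- commuting partner
  have hpartner : ∀ a ∈ D, ∀ b ∈ D, a * b * a⁻¹ * b⁻¹ ∈ C → ∃ e ∈ C, a * (b * e) = (b * e) * a := by
    intro a ha b hb hab
    have hai : a⁻¹ = a := inv_eq_of_mul_eq_one_left (hD2 a ha)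
    have hbi : b⁻¹ = b := inv_eq_of_mul_eq_one_left (hD2 b hb)
    obtain ⟨e, he, hee⟩ := hhalf _ (inv_mem hab)
    refine ⟨e, he, ?_⟩
    have hea := hDinv' a ha e he
    have heb := hDinv' b hb e⁻¹ (inv_mem he)
    rw [inv_inv] at heb
    -- a b e = b e a ?  b e a = b a e⁻¹
    have h1 : e * a = a * e⁻¹ := by
      have := hDinv' a ha e⁻¹ (inv_mem he)
      rw [inv_inv] at this; exact this.symm
    rw [mul_assoc b e a, h1]
    -- a b e = b a e⁻¹ ↔ a b e e = b a
    have h2 : a * b * (e * e) = b * a := by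
      have heeC : e * e ∈ C := mul_mem he he
      have k1 := hDinv' b hb _ heeC
      have k2 := hDinv' a ha _ (inv_mem heeC)
      rw [inv_inv] at k2
      rw [mul_assoc, k1, ← mul_assoc, k2, hee]; group
    calc a * (b * e) = (a * b * (e * e)) * e⁻¹ := by group
      _ = b * (a * e⁻¹) := by rw [h2]; group
  -- lifting walks
  have hlift : ∀ (u v : conjugatesOf (QuotientGroup.mk d : G ⧸ C)) (p : (Cfsg.commutingGraph (conjugatesOf (QuotientGroup.mk d : G ⧸ C))).Walk u v),
      ∀ x ∈ D, (QuotientGroup.mk x : G ⧸ C) = u → Relation.ReflTransGen (stepRel D) d x →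
      ∃ y ∈ D, (QuotientGroup.mk y : G ⧸ C) = v ∧ Relation.ReflTransGen (stepRel D) d y := by
    intro u v p
    induction p with
    | nil => intro x hx hxu hr; exact ⟨x, hx, hxu, hr⟩
    | @cons u w v h p ih =>
      intro x hx hxu hr
      rw [Cfsg.commutingGraph, SimpleGraph.fromRel_adj] at h
      obtain ⟨hne, hcomm⟩ := h
      have hcomm' : (u : G ⧸ C) * w = w * u := by
        rcases hcomm with h | h
        · exact h
        · exact h.symm
      obtain ⟨g, hg⟩ := isConj_iff.1 (mem_cof.1 w.2)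
      obtain ⟨k, rfl⟩ := QuotientGroup.mk_surjective g
      have hw : (QuotientGroup.mk (k * d * k⁻¹) : G ⧸ C) = w := by rw [← hg]; rfl
      have hkD : k * d * k⁻¹ ∈ D := (hD' _).2 ⟨k, rfl⟩
      have h3 : x * (k * d * k⁻¹) * x⁻¹ * (k * d * k⁻¹)⁻¹ ∈ C := by
        rw [← QuotientGroup.eq_one_iff]
        simp only [QuotientGroup.mk_mul, QuotientGroup.mk_inv]
        have hw' : (QuotientGroup.mk k : G ⧸ C) * QuotientGroup.mk d * (QuotientGroup.mk k)⁻¹ = (w : G ⧸ C) := hw
        rw [hw', hxu, hcomm']; group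
      obtain ⟨e, he, hce⟩ := hpartner x hx _ hkD h3
      apply ih (k * d * k⁻¹ * e) (hDC' _ hkD e he)
      · rw [← hw, eq_comm, QuotientGroup.eq, inv_mul_cancel_left]
        exact he
      · exact Relation.ReflTransGen.tail hr ⟨hx, hDC' _ hkD e he, hce⟩
  -- N
  have hN1 : ∀ g : G, ∃ c ∈ C, Relation.ReflTransGen (stepRel D) d ((c * g) * d * (c * g)⁻¹) := by
    intro g
    have hgD : (QuotientGroup.mk (g * d * g⁻¹) : G ⧸ C) ∈ conjugatesOf (QuotientGroup.mk d : G ⧸ C) := by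
      rw [mem_cof, isConj_iff]
      exact ⟨QuotientGroup.mk g, rfl⟩
    obtain ⟨p⟩ := hconn.preconnected ⟨QuotientGroup.mk d, mem_conjugatesOf_self⟩ ⟨_, hgD⟩
    obtain ⟨y, hy, hyg, hr⟩ := hlift _ _ p d hdD rfl Relation.ReflTransGen.refl
    have hyg' : (QuotientGroup.mk (g * d * g⁻¹) : G ⧸ C) = QuotientGroup.mk y := hyg.symm
    rw [QuotientGroup.eq] at hyg'
    obtain ⟨c, hc, hce⟩ := hDC (g * d * g⁻¹) ((hD' _).2 ⟨g, rfl⟩) _ hyg'
    refine ⟨c, hc, ?_⟩
    have : c * g * d * (c * g)⁻¹ = y := by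
      calc c * g * d * (c * g)⁻¹ = c * (g * d * g⁻¹) * c⁻¹ := by group
        _ = (g * d * g⁻¹) * ((g * d * g⁻¹)⁻¹ * y) := by rw [hce]
        _ = y := by group
    rw [this]; exact hr
  let N : Subgroup G :=
    { carrier := {g | Relation.ReflTransGen (stepRel D) d (g * d * g⁻¹)}
      one_mem' := by
        show Relation.ReflTransGen (stepRel D) d (1 * d * 1⁻¹)
        have : (1 : G) * d * 1⁻¹ = d := by group
        rw [this]
      mul_mem' := by
        intro g h hg hh
        show Relation.ReflTransGen (stepRel D) d (g * h * d * (g * h)⁻¹)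
        have h1 := rel_conj D hDc g hh
        have h2 : g * (h * d * h⁻¹) * g⁻¹ = g * h * d * (g * h)⁻¹ := by group
        rw [h2] at h1
        exact Relation.ReflTransGen.trans hg h1
      inv_mem' := by
        intro g hg
        show Relation.ReflTransGen (stepRel D) d (g⁻¹ * d * g⁻¹⁻¹)
        have h1 := rel_conj D hDc g⁻¹ hg
        have h2 : g⁻¹ * (g * d * g⁻¹) * g⁻¹⁻¹ = d := by group
        rw [h2] at h1
        exact rel_symm D h1 }
  have hNmem : ∀ g, g ∈ N ↔ Relation.ReflTransGen (stepRel D) d (g * d * g⁻¹) := fun g => Iff.rfl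
  have hLN : L ≤ N := by
    have hperf : commutator L = ⊤ := hL.1.1
    have h1 : commutator L ≤ N.subgroupOf L := by
      rw [_root_.commutator_def, Subgroup.commutator_le]
      intro a _ b _
      obtain ⟨c1, hc1, hn1⟩ := hN1 a
      obtain ⟨c2, hc2, hn2⟩ := hN1 b
      rw [← hNmem] at hn1 hn2
      rw [Subgroup.mem_subgroupOf]
      have hcom : ((⁅a, b⁆ : L) : G) = ⁅(c1 * (a : G)), (c2 * (b : G))⁆ := by
        rw [commutatorElement_def, commutatorElement_def]
        simp only [Subgroup.coe_mul, InvMemClass.coe_inv]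
        have k1 := hCc c1 hc1 a a.2
        have k2 := hCc c2 hc2 b b.2
        have k3 := hCc c1 hc1 b b.2
        have k4 := hCc c2 hc2 a a.2
        have k5 := hCc c1 hc1 c2 (hCL hc2)
        symm
        calc c1 * (a : G) * (c2 * b) * (c1 * a)⁻¹ * (c2 * b)⁻¹
            = c1 * ((a : G) * c2) * b * (a : G)⁻¹ * c1⁻¹ * (b : G)⁻¹ * c2⁻¹ := by group
          _ = c1 * (c2 * (a : G)) * b * (a : G)⁻¹ * c1⁻¹ * (b : G)⁻¹ * c2⁻¹ := by rw [k4]
          _ = c1 * c2 * ((a : G) * b * (a : G)⁻¹) * c1⁻¹ * (b : G)⁻¹ * c2⁻¹ := by group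
          _ = c2 * (c1 * ((a : G) * b * (a : G)⁻¹)) * c1⁻¹ * (b : G)⁻¹ * c2⁻¹ := by rw [k5]; group
          _ = c2 * (((a : G) * b * (a : G)⁻¹) * c1) * c1⁻¹ * (b : G)⁻¹ * c2⁻¹ := by
              rw [hCc c1 hc1 _ (mul_mem (mul_mem a.2 b.2) (inv_mem a.2))]
          _ = (c2 * ((a : G) * b * (a : G)⁻¹ * (b : G)⁻¹)) * c2⁻¹ := by group
          _ = (((a : G) * b * (a : G)⁻¹ * (b : G)⁻¹) * c2) * c2⁻¹ := by
              rw [hCc c2 hc2 _ (mul_mem (mul_mem (mul_mem a.2 b.2) (inv_mem a.2)) (inv_mem b.2))]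
          _ = (a : G) * b * (a : G)⁻¹ * (b : G)⁻¹ := by group
      rw [hcom, commutatorElement_def]
      exact mul_mem (mul_mem (mul_mem hn1 hn2) (inv_mem hn1)) (inv_mem hn2)
    rw [hperf] at h1
    intro l hl
    exact h1 (Subgroup.mem_top (⟨l, hl⟩ : L))
  have hall : ∀ x ∈ D, Relation.ReflTransGen (stepRel D) d x := by
    intro x hx
    obtain ⟨g, rfl⟩ := (hD' x).1 hx
    obtain ⟨c, hc, h1⟩ := hN1 g
    have h2 : c⁻¹ * (c * g) ∈ N := mul_mem (inv_mem (hLN (hCL hc))) h1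
    rw [inv_mul_cancel_left] at h2
    exact h2
  have hne : Nonempty D := ⟨⟨d, hdD⟩⟩
  rw [SimpleGraph.connected_iff]
  refine ⟨?_, hne⟩
  rintro ⟨x, hx⟩ ⟨y, hy⟩
  obtain ⟨_, h1⟩ := reach_of_rel D hdD (hall x hx)
  obtain ⟨_, h2⟩ := reach_of_rel D hdD (hall y hy)
  exact h1.symm.trans h2

end Cfsg.Agent.S5459
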