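import Cfsg.Statements.S5471
import Cfsg.Agent.H29.TT15

set_option autoImplicit false
open Cfsg

namespace Cfsg.Agent.S5471

open Cfsg.Agent.H29 in
/-- the conjugation action on an invariant set of elements, when all transpositions occur -/
theorem quot_perm {G : Type*} [Group G] (T : Set G) [Finite T] (C K : Subgroup G)
    (hT : ∀ c ∈ C, ∀ x ∈ T, c * x * c⁻¹ ∈ T) (hK : K = Subgroup.centralizer T)
    (hsw : ∀ x ∈ T, ∀ y ∈ T, x ≠ y → ∃ c ∈ C, c * x * c⁻¹ = y ∧ c * y * c⁻¹ = x ∧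
      ∀ z ∈ T, z ≠ x → z ≠ y → c * z * c⁻¹ = z) :
    ∃ _ : (K.subgroupOf C).Normal, Nonempty (↥C ⧸ K.subgroupOf C ≃* Equiv.Perm T) := by
  classical
  let φ : ↥C →* Equiv.Perm T :=
    { toFun := fun c =>
        { toFun := fun x => ⟨(c : G) * x * (c : G)⁻¹, hT c c.2 x x.2⟩
          invFun := fun x => ⟨(c : G)⁻¹ * x * (c : G)⁻¹⁻¹, hT _ (inv_mem c.2) x x.2⟩
          left_inv := fun x => Subtype.ext (by
            show (c : G)⁻¹ * ((c : G) * x * (c : G)⁻¹) * (c : G)⁻¹⁻¹ = x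
            group)
          right_inv := fun x => Subtype.ext (by
            show (c : G) * ((c : G)⁻¹ * x * (c : G)⁻¹⁻¹) * (c : G)⁻¹ = x
            group) }
      map_one' := by
        ext x
        show (1 : G) * x * (1 : G)⁻¹ = x
        group
      map_mul' := by
        intro a b
        ext x
        show ((a : G) * b) * x * ((a : G) * b)⁻¹ = a * (b * x * (b : G)⁻¹) * (a : G)⁻¹
        group }
  have hφ : ∀ (c : ↥C) (x : T), ((φ c x : T) : G) = (c : G) * x * (c : G)⁻¹ := fun _ _ => rfl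
  have hker : φ.ker = K.subgroupOf C := by
    ext c
    rw [MonoidHom.mem_ker, Subgroup.mem_subgroupOf, hK, Subgroup.mem_centralizer_iff]
    constructor
    · intro h1 x hx
      have h2 := congrArg (fun σ : Equiv.Perm T => ((σ ⟨x, hx⟩ : T) : G)) h1
      have h3 : (c : G) * x * (c : G)⁻¹ = x := h2
      exact (mul_inv_eq_iff_eq_mul.1 h3).symm
    · intro h1
      ext x
      rw [hφ]
      show (c : G) * x * (c : G)⁻¹ = x
      rw [mul_inv_eq_iff_eq_mul]
      exact (h1 x x.2).symm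
  have hsurj : Function.Surjective φ := by
    rw [← MonoidHom.range_eq_top, eq_top_iff, ← Equiv.Perm.closure_isSwap, Subgroup.closure_le]
    rintro σ ⟨x, y, hxy, rfl⟩
    obtain ⟨c, hc, h1, h2, h3⟩ := hsw x x.2 y y.2 (fun h' => hxy (Subtype.ext h'))
    refine ⟨⟨c, hc⟩, ?_⟩
    ext z
    rw [hφ]
    show c * z * c⁻¹ = _
    by_cases hzx : z = x
    · rw [hzx, Equiv.swap_apply_left, h1]
    by_cases hzy : z = y
    · rw [hzy, Equiv.swap_apply_right, h2]
    · rw [Equiv.swap_apply_of_ne_of_ne hzx hzy]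
      exact h3 z z.2 (fun h' => hzx (Subtype.ext h')) (fun h' => hzy (Subtype.ext h'))
  have hn : (K.subgroupOf C).Normal := by rw [← hker]; infer_instance
  refine ⟨hn, ⟨?_⟩⟩
  have e1 : ↥C ⧸ K.subgroupOf C ≃* ↥C ⧸ φ.ker :=
    QuotientGroup.quotientMulEquivOfEq hker.symm
  exact e1.trans (QuotientGroup.quotientKerEquivOfSurjective φ hsurj)

/-- Let G be a finite group with trivial centre generated by a conjugation-invariant set D of 3-transpositions on which it acts primitively, such that for some d in D the subgroup generated by the members of D other than d commuting with d has central largest normal 2- and 3-subgroups, and suppose G with D is of type M(23). Let d₁, d₂, d₃ be distinct pairwise commuting members of D and j their product. Then the joint centralizer of d₁, d₂, d₃ is normal in the centralizer of j with quotient isomorphic to the symmetric group of degree 3. -/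
theorem result {G : Type*} [Group G] [Finite G] {D : Set G} (hD : Cfsg.IsThreeTranspositionGroup D) (hprim : Cfsg.IsPrimitiveUnderConj D) (d₀ : G) (hd₀ : d₀ ∈ D) (h3 : Cfsg.pCore 3 ↥(Subgroup.closure {y : G | y ∈ D ∧ y ≠ d₀ ∧ Commute d₀ y}) ≤ Subgroup.center ↥(Subgroup.closure {y : G | y ∈ D ∧ y ≠ d₀ ∧ Commute d₀ y})) (h2 : Cfsg.pCore 2 ↥(Subgroup.closure {y : G | y ∈ D ∧ y ≠ d₀ ∧ Commute d₀ y}) ≤ Subgroup.center ↥(Subgroup.closure {y : G | y ∈ D ∧ y ≠ d₀ ∧ Commute d₀ y})) (h23 : Cfsg.IsOfTypeM23 G D) (d₁ d₂ d₃ : G) (h₁ : d₁ ∈ D) (h₂ : d₂ ∈ D) (h₃ : d₃ ∈ D) (h12 : d₁ ≠ d₂) (h13 : d₁ ≠ d₃) (h23 : d₂ ≠ d₃) (c12 : Commute d₁ d₂) (c13 : Commute d₁ d₃) (c23 : Commute d₂ d₃) (K C : Subgroup G) (hK : K = Subgroup.centralizer ({d₁, d₂, d₃} : Set G)) (hC : C = Subgroup.centralizer ({d₁ * d₂ * d₃} : Set G)) : K ≤ C ∧ ∃ _ : (K.subgroupOf C).Normal, Nonempty (↥C ⧸ K.subgroupOf C ≃* Equiv.Perm (Fin 3)) := by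
  have ht : Cfsg.IsOfTypeM23 G D := by assumption
  have hcl := Cfsg.Agent.H29.class_of_primitive hD hprim
  have htt := Cfsg.Agent.H29.tt_of_class hcl
  have h6 : ∀ f : Fin 6 → G, Cfsg.Agent.H29.Rel6 D f → False :=
    fun f hf => Cfsg.Agent.H29.six23 hcl hprim ht hf
  subst hK hC
  have aux : ∀ a b e : G, Commute a e → Commute b e → e * a * b = a * b * e := by
    intro a b e h h'
    rw [← h.eq, mul_assoc, ← h'.eq, mul_assoc]
  have hmemC : ∀ g : G, g ∈ Subgroup.centralizer ({d₁ * d₂ * d₃} : Set G) ↔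
      g * (d₁ * d₂ * d₃) * g⁻¹ = d₁ * d₂ * d₃ := by
    intro g
    rw [Subgroup.mem_centralizer_singleton_iff, mul_inv_eq_iff_eq_mul]
  have hmemK : ∀ g : G, g ∈ Subgroup.centralizer ({d₁, d₂, d₃} : Set G) →
      Commute d₁ g ∧ Commute d₂ g ∧ Commute d₃ g := by
    intro g hg
    rw [Subgroup.mem_centralizer_iff] at hg
    exact ⟨hg _ (by simp), hg _ (by simp), hg _ (by simp)⟩
  have hcj : ∀ g : G, g * (d₁ * d₂ * d₃) * g⁻¹ = (g * d₁ * g⁻¹) * (g * d₂ * g⁻¹) * (g * d₃ * g⁻¹) := by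
    intro g
    group
  refine ⟨?_, ?_⟩
  · intro g hg
    obtain ⟨a1, a2, a3⟩ := hmemK g hg
    rw [hmemC, mul_inv_eq_iff_eq_mul]
    exact ((a1.mul_left a2).mul_left a3).eq.symm
  have hfin : Finite ({d₁, d₂, d₃} : Set G) := Set.toFinite _
  have hT : ∀ c ∈ Subgroup.centralizer ({d₁ * d₂ * d₃} : Set G), ∀ x ∈ ({d₁, d₂, d₃} : Set G),
      c * x * c⁻¹ ∈ ({d₁, d₂, d₃} : Set G) := by
    intro c hc x hx
    rw [hmemC, hcj] at hc
    have k1 := htt.conj c _ h₁
    have k2 := htt.conj c _ h₂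
    have k3 := htt.conj c _ h₃
    have q12 := (Cfsg.Agent.H29.comm_conj_iff c _ _).2 c12
    have q13 := (Cfsg.Agent.H29.comm_conj_iff c _ _).2 c13
    have q23 := (Cfsg.Agent.H29.comm_conj_iff c _ _).2 c23
    have r12 : c * d₁ * c⁻¹ ≠ c * d₂ * c⁻¹ := fun h' => h12 (Cfsg.Agent.H29.conj_inj c h')
    have r13 : c * d₁ * c⁻¹ ≠ c * d₃ * c⁻¹ := fun h' => h13 (Cfsg.Agent.H29.conj_inj c h')
    have r23 : c * d₂ * c⁻¹ ≠ c * d₃ * c⁻¹ := fun h' => h23 (Cfsg.Agent.H29.conj_inj c h')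
    simp only [Set.mem_insert_iff, Set.mem_singleton_iff] at hx ⊢
    rcases hx with rfl | rfl | rfl
    · exact Cfsg.Agent.H29.mem3 hcl hprim h6 k1 k2 k3 h₁ h₂ h₃ q12 q13 q23 c12 c13 c23 r12 r13 r23
        h12 h13 h23 hc
    · exact Cfsg.Agent.H29.mem3 hcl hprim h6 k2 k1 k3 h₁ h₂ h₃ q12.symm q23 q13 c12 c13 c23
        r12.symm r23 r13 h12 h13 h23 (by rw [← hc, q12.eq])
    · exact Cfsg.Agent.H29.mem3 hcl hprim h6 k3 k1 k2 h₁ h₂ h₃ q13.symm q23.symm q12 c12 c13 c23
        r13.symm r23.symm r12 h12 h13 h23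
        ((aux _ _ _ q13 q23).trans hc)
  -- any ordered pair in the triple has a third member
  have hthird : ∀ x ∈ ({d₁, d₂, d₃} : Set G), ∀ y ∈ ({d₁, d₂, d₃} : Set G), x ≠ y →
      ∃ z ∈ ({d₁, d₂, d₃} : Set G), x ≠ z ∧ y ≠ z ∧ x * y * z = d₁ * d₂ * d₃ ∧
        ∀ w ∈ ({d₁, d₂, d₃} : Set G), w ≠ x → w ≠ y → w = z := by
    have e1 : d₂ * d₁ * d₃ = d₁ * d₂ * d₃ := by rw [c12.eq]
    have e2 : d₁ * d₃ * d₂ = d₁ * d₂ * d₃ := by rw [mul_assoc, ← c23.eq, mul_assoc]
    have e3 : d₃ * d₁ * d₂ = d₁ * d₂ * d₃ := by rw [← c13.eq, e2]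
    have e4 : d₂ * d₃ * d₁ = d₁ * d₂ * d₃ := by rw [mul_assoc, ← c13.eq, ← mul_assoc, e1]
    have e5 : d₃ * d₂ * d₁ = d₁ * d₂ * d₃ := by rw [← c23.eq, e4]
    intro x hx y hy hxy
    simp only [Set.mem_insert_iff, Set.mem_singleton_iff] at hx hy
    rcases hx with rfl | rfl | rfl <;> rcases hy with rfl | rfl | rfl
    · exact absurd rfl hxy
    · exact ⟨d₃, by simp, h13, h23, rfl, by
        intro w hw h1 h2
        simp only [Set.mem_insert_iff, Set.mem_singleton_iff] at hw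
        rcases hw with h | h | h
        · exact absurd h h1
        · exact absurd h h2
        · exact h⟩
    · exact ⟨d₂, by simp, h12, h23.symm, e2, by
        intro w hw h1 h2
        simp only [Set.mem_insert_iff, Set.mem_singleton_iff] at hw
        rcases hw with h | h | h
        · exact absurd h h1
        · exact h
        · exact absurd h h2⟩
    · exact ⟨d₃, by simp, h23, h13, e1, by
        intro w hw h1 h2
        simp only [Set.mem_insert_iff, Set.mem_singleton_iff] at hw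
        rcases hw with h | h | h
        · exact absurd h h2
        · exact absurd h h1
        · exact h⟩
    · exact absurd rfl hxy
    · exact ⟨d₁, by simp, h12.symm, h13.symm, e4, by
        intro w hw h1 h2
        simp only [Set.mem_insert_iff, Set.mem_singleton_iff] at hw
        rcases hw with h | h | h
        · exact h
        · exact absurd h h1
        · exact absurd h h2⟩
    · exact ⟨d₂, by simp, h23.symm, h12, e3, by
        intro w hw h1 h2
        simp only [Set.mem_insert_iff, Set.mem_singleton_iff] at hw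
        rcases hw with h | h | h
        · exact absurd h h2
        · exact h
        · exact absurd h h1⟩
    · exact ⟨d₁, by simp, h13.symm, h12.symm, e5, by
        intro w hw h1 h2
        simp only [Set.mem_insert_iff, Set.mem_singleton_iff] at hw
        rcases hw with h | h | h
        · exact h
        · exact absurd h h2
        · exact absurd h h1⟩
    · exact absurd rfl hxy
  have hTD : ∀ x ∈ ({d₁, d₂, d₃} : Set G), x ∈ D := by
    rintro x (rfl | rfl | rfl) <;> assumption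
  have hTc : ∀ x ∈ ({d₁, d₂, d₃} : Set G), ∀ y ∈ ({d₁, d₂, d₃} : Set G), Commute x y := by
    rintro x (rfl | rfl | rfl) y (rfl | rfl | rfl)
    all_goals first
      | exact Commute.refl _
      | assumption
      | (apply Commute.symm; assumption)
  have hsw : ∀ x ∈ ({d₁, d₂, d₃} : Set G), ∀ y ∈ ({d₁, d₂, d₃} : Set G), x ≠ y →
      ∃ c ∈ Subgroup.centralizer ({d₁ * d₂ * d₃} : Set G), c * x * c⁻¹ = y ∧ c * y * c⁻¹ = x ∧
        ∀ z ∈ ({d₁, d₂, d₃} : Set G), z ≠ x → z ≠ y → c * z * c⁻¹ = z := by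
    intro x hx y hy hxy
    obtain ⟨z, hz, hxz, hyz, hj, hw⟩ := hthird x hx y hy hxy
    obtain ⟨g, g1, g2, g3⟩ := Cfsg.Agent.H29.swap_mem hcl hprim (hTD x hx) (hTD y hy) (hTD z hz)
      (hTc x hx y hy) (hTc x hx z hz) (hTc y hy z hz) hxy hxz hyz
    refine ⟨g, ?_, g1, g2, ?_⟩
    · rw [hmemC, ← hj]
      have e : g * (x * y * z) * g⁻¹ = (g * x * g⁻¹) * (g * y * g⁻¹) * (g * z * g⁻¹) := by group
      rw [e, g1, g2, g3, (hTc x hx y hy).eq]
    · intro w hw1 hw2 hw3
      rw [hw w hw1 hw2 hw3]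
      exact g3
  obtain ⟨hn, ⟨e⟩⟩ := quot_perm ({d₁, d₂, d₃} : Set G)
    (Subgroup.centralizer ({d₁ * d₂ * d₃} : Set G)) (Subgroup.centralizer ({d₁, d₂, d₃} : Set G))
    hT rfl hsw
  refine ⟨hn, ⟨e.trans ?_⟩⟩
  have hc3 : Nat.card ({d₁, d₂, d₃} : Set G) = 3 := by
    rw [Nat.card_coe_set_eq]
    exact Set.ncard_eq_three.2 ⟨d₁, d₂, d₃, h12, h13, h23, rfl⟩
  exact (Finite.equivFinOfCardEq hc3).permCongrHom

end Cfsg.Agent.S5471
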