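import Cfsg.Statements.S5541


set_option autoImplicit false
open Cfsg

namespace Cfsg.Agent.S5541

/-- Let ρ be a representation of a group H on a finite-dimensional real vector space U whose only ρ-invariant subspaces are the zero subspace and U, and suppose U carries a non-zero ρ-invariant symmetric bilinear form. Then the following are equivalent: (1) there is a non-zero ρ-equivariant commutative bilinear product on U of which every ρ-equivariant bilinear product is a scalar multiple; (2) there is a non-zero ρ-invariant trilinear form on U that is symmetric under all permutations of its arguments and of which every ρ-invariant trilinear form is a scalar multiple. -/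
theorem result {H : Type*} [Group H] {U : Type*} [AddCommGroup U] [Module ℝ U] [FiniteDimensional ℝ U] (ρ : Representation ℝ H U) (hirr : ∀ W : Submodule ℝ U, (∀ g : H, W.map (ρ g) ≤ W) → W = ⊥ ∨ W = ⊤) (B : LinearMap.BilinForm ℝ U) (hB0 : B ≠ 0) (hBs : ∀ u v, B u v = B v u) (hBi : ∀ (g : H) (u v : U), B (ρ g u) (ρ g v) = B u v) : (∃ m : U →ₗ[ℝ] U →ₗ[ℝ] U, m ≠ 0 ∧ (∀ u v, m u v = m v u) ∧ (∀ (g : H) (u v : U), m (ρ g u) (ρ g v) = ρ g (m u v)) ∧ ∀ m' : U →ₗ[ℝ] U →ₗ[ℝ] U, (∀ (g : H) (u v : U), m' (ρ g u) (ρ g v) = ρ g (m' u v)) → ∃ c : ℝ, m' = c • m) ↔ (∃ t : U →ₗ[ℝ] U →ₗ[ℝ] U →ₗ[ℝ] ℝ, t ≠ 0 ∧ (∀ u v w, t u v w = t v u w ∧ t u v w = t u w v) ∧ (∀ (g : H) (u v w : U), t (ρ g u) (ρ g v) (ρ g w) = t u v w) ∧ ∀ t' : U →ₗ[ℝ] U →ₗ[ℝ] U →ₗ[ℝ] ℝ, (∀ (g : H) (u v w : U), t' (ρ g u) (ρ g v) (ρ g w) = t' u v w) → ∃ c : ℝ, t' = c • t) := by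
  -- B nondegenerate
  have hgg : ∀ (g : H) (v : U), ρ g (ρ g⁻¹ v) = v := by
    intro g v
    rw [← Module.End.mul_apply, ← map_mul, mul_inv_cancel, map_one, Module.End.one_apply]
  have hker : LinearMap.ker B = ⊥ := by
    rcases hirr (LinearMap.ker B) (by
      intro g
      rintro _ ⟨u, hu, rfl⟩
      rw [SetLike.mem_coe, LinearMap.mem_ker] at hu
      rw [LinearMap.mem_ker]
      apply LinearMap.ext
      intro v
      have h1 := hBi g u (ρ g⁻¹ v)
      rw [hgg, hu] at h1
      exact h1) with h | h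
    · exact h
    · exact absurd (LinearMap.ker_eq_top.1 h) hB0
  have hnd : LinearMap.BilinForm.Nondegenerate B := LinearMap.BilinForm.nondegenerate_iff_ker_eq_bot.2 hker
  have hinj : ∀ a b : U, (∀ w, B a w = B b w) → a = b := by
    intro a b h
    exact LinearMap.ker_eq_bot.1 hker (LinearMap.ext h)
  let Φ := LinearMap.BilinForm.toDual B hnd
  let T : (U →ₗ[ℝ] U →ₗ[ℝ] U) → (U →ₗ[ℝ] U →ₗ[ℝ] U →ₗ[ℝ] ℝ) := fun m => m.compr₂ B
  have hT : ∀ m u v w, T m u v w = B (m u v) w := fun m u v w => rfl
  let M : (U →ₗ[ℝ] U →ₗ[ℝ] U →ₗ[ℝ] ℝ) → (U →ₗ[ℝ] U →ₗ[ℝ] U) := fun t =>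
    t.compr₂ (Φ.symm : Module.Dual ℝ U →ₗ[ℝ] U)
  have hM : ∀ t u v w, B (M t u v) w = t u v w := by
    intro t u v w
    show B (Φ.symm (t u v)) w = t u v w
    exact LinearMap.BilinForm.apply_toDual_symm_apply _ _
  have hMT : ∀ m, M (T m) = m := by
    intro m
    apply LinearMap.ext; intro u
    apply LinearMap.ext; intro v
    apply hinj
    intro w
    rw [hM, hT]
  have hTM : ∀ t, T (M t) = t := by
    intro t
    apply LinearMap.ext; intro u
    apply LinearMap.ext; intro v
    apply LinearMap.ext; intro w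
    rw [hT, hM]
  have hTe : ∀ m, (∀ (g : H) (u v : U), m (ρ g u) (ρ g v) = ρ g (m u v)) →
      ∀ (g : H) (u v w : U), T m (ρ g u) (ρ g v) (ρ g w) = T m u v w := by
    intro m hm g u v w
    rw [hT, hT, hm, hBi]
  have hMe : ∀ t, (∀ (g : H) (u v w : U), t (ρ g u) (ρ g v) (ρ g w) = t u v w) →
      ∀ (g : H) (u v : U), M t (ρ g u) (ρ g v) = ρ g (M t u v) := by
    intro t ht g u v
    apply hinj
    intro w
    rw [hM]
    have h1 := hBi g (M t u v) (ρ g⁻¹ w)
    rw [hgg] at h1
    rw [h1, hM]
    have h2 := ht g u v (ρ g⁻¹ w)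
    rw [hgg] at h2
    exact h2
  have hTs : ∀ (c : ℝ) m, T (c • m) = c • T m := by
    intro c m
    apply LinearMap.ext; intro u
    apply LinearMap.ext; intro v
    apply LinearMap.ext; intro w
    rw [hT]
    simp only [LinearMap.smul_apply, map_smul, hT]
  constructor
  · rintro ⟨m, hm0, hms, hme, hmu⟩
    have huniq : ∀ t' : U →ₗ[ℝ] U →ₗ[ℝ] U →ₗ[ℝ] ℝ,
        (∀ (g : H) (u v w : U), t' (ρ g u) (ρ g v) (ρ g w) = t' u v w) → ∃ c : ℝ, t' = c • T m := by
      intro t' ht'
      obtain ⟨c, hc⟩ := hmu (M t') (hMe t' ht')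
      refine ⟨c, ?_⟩
      rw [← hTs, ← hc, hTM]
    have hT0 : T m ≠ 0 := by
      intro h
      apply hm0
      apply LinearMap.ext; intro u
      apply LinearMap.ext; intro v
      apply hinj
      intro w
      rw [← hT, h]
      simp
    have hs1 : ∀ u v w, T m u v w = T m v u w := fun u v w => by rw [hT, hT, hms]
    refine ⟨T m, hT0, ?_, hTe m hme, huniq⟩
    -- the swapped form
    let t' : U →ₗ[ℝ] U →ₗ[ℝ] U →ₗ[ℝ] ℝ :=
      { toFun := fun u => (T m u).flip
        map_add' := by intro a b; ext v w; simp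
        map_smul' := by intro a b; ext v w; simp }
    have ht' : ∀ u v w, t' u v w = T m u w v := fun u v w => rfl
    obtain ⟨c, hc⟩ := huniq t' (fun g u v w => by rw [ht', ht', hTe m hme])
    have hcu : ∀ u v w, T m u w v = c * T m u v w := by
      intro u v w
      rw [← ht', hc]; rfl
    have hc2 : c * c = 1 := by
      by_contra hne
      apply hT0
      apply LinearMap.ext; intro u
      apply LinearMap.ext; intro v
      apply LinearMap.ext; intro w
      have h1 := hcu u v w
      have h2 := hcu u w v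
      rw [h1] at h2
      have h3 : (c * c - 1) * T m u v w = 0 := by linarith
      rcases mul_eq_zero.1 h3 with h4 | h4
      · exact absurd (by linarith) hne
      · exact h4
    have hc1 : c = 1 := by
      rcases mul_self_eq_one_iff.1 hc2 with h | h
      · exact h
      · exfalso
        apply hT0
        apply LinearMap.ext; intro u
        apply LinearMap.ext; intro v
        apply LinearMap.ext; intro w
        rw [h] at hcu
        -- t(u,v,w) = -t(u,w,v) = -t(w,u,v) = t(w,v,u) = t(v,w,u) = -t(v,u,w) = -t(u,v,w)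
        have h1 := hcu u w v
        have h2 := hs1 u w v
        have h3 := hcu w u v
        have h4 := hs1 w v u
        have h5 := hcu v w u
        have h6 := hs1 v u w
        have h7 : T m u v w = 0 := by linarith
        rw [h7]; rfl
    intro u v w
    refine ⟨hs1 u v w, ?_⟩
    have := hcu u w v
    rw [hc1, one_mul] at this
    exact this
  · rintro ⟨t, ht0, hts, hte, htu⟩
    refine ⟨M t, ?_, ?_, hMe t hte, ?_⟩
    · intro h
      apply ht0
      rw [← hTM t, h]
      apply LinearMap.ext; intro u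
      apply LinearMap.ext; intro v
      apply LinearMap.ext; intro w
      rw [hT]
      simp
    · intro u v
      apply hinj
      intro w
      rw [hM, hM, (hts u v w).1]
    · intro m' hm'
      obtain ⟨c, hc⟩ := htu (T m') (hTe m' hm')
      refine ⟨c, ?_⟩
      rw [← hMT m', hc]
      apply LinearMap.ext; intro u
      apply LinearMap.ext; intro v
      apply hinj
      intro w
      rw [hM]
      simp only [LinearMap.smul_apply, map_smul, hM]

end Cfsg.Agent.S5541
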