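import Cfsg.Statements.S5543


set_option autoImplicit false
open Cfsg

namespace Cfsg.Agent.S5543

/-- Let V be a finite-dimensional real vector space with a commutative bilinear product and a positive-definite symmetric bilinear form that associates with the product and satisfies the Norton inequality (the Majorana setting of the definitions). Let X be a group of linear automorphisms of V in which every element squares to the identity, and suppose every non-identity element x of X is a Majorana involution with an axial vector a(x) of squared length 1, such that for any two distinct non-identity x, y the product a(x) ∘ a(y) equals (1/8)(a(x) + a(y) − a(xy)) (the dihedral subalgebra of type 2A whose third axis belongs to the involution xy). Then X has order at most 4. -/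
theorem result {V : Type*} [AddCommGroup V] [Module ℝ V] [FiniteDimensional ℝ V] (mul : V →ₗ[ℝ] V →ₗ[ℝ] V) (B : LinearMap.BilinForm ℝ V) (hV : Cfsg.Axial.IsMajoranaAmbient mul B) (X : Subgroup (V ≃ₗ[ℝ] V)) (hX : ∀ x ∈ X, x * x = 1) (ax : (V ≃ₗ[ℝ] V) → V) (hax : ∀ x ∈ X, x ≠ 1 → Cfsg.Axial.IsMajoranaPair mul B x (ax x)) (h1 : ∀ x ∈ X, x ≠ 1 → B (ax x) (ax x) = 1) (h2A : ∀ x ∈ X, ∀ y ∈ X, x ≠ 1 → y ≠ 1 → x ≠ y → mul (ax x) (ax y) = (1 / 8 : ℝ) • (ax x + ax y - ax (x * y))) : Nat.card ↥X ≤ 4 := by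
  obtain ⟨hcm, hBs, hBp, hBa, -⟩ := hV
  by_contra hgt
  push Not at hgt
  have hfin : Finite X := Nat.finite_of_card_ne_zero (by omega)
  have hinv : ∀ x ∈ X, x⁻¹ = x := fun x hx => inv_eq_of_mul_eq_one_left (hX x hx)
  have hcomm : ∀ x ∈ X, ∀ y ∈ X, x * y = y * x := by
    intro x hx y hy
    have h1 := hinv _ (mul_mem hx hy)
    rw [mul_inv_rev, hinv x hx, hinv y hy] at h1
    exact h1.symm
  -- three independent elements
  have hex : ∀ S : Finset (V ≃ₗ[ℝ] V), S.card ≤ 4 → ∃ x ∈ X, x ∉ S := by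
    intro S hS
    by_contra hne
    push Not at hne
    have h1 : (X : Set (V ≃ₗ[ℝ] V)) ⊆ (S : Set (V ≃ₗ[ℝ] V)) := fun x hx => hne x hx
    have h2 := Set.ncard_le_ncard h1 (Finset.finite_toSet S)
    rw [Set.ncard_coe_finset] at h2
    have h3 : Nat.card X = (X : Set (V ≃ₗ[ℝ] V)).ncard := rfl
    omega
  classical
  obtain ⟨x, hxX, hx1⟩ := hex {1} (by simp)
  obtain ⟨y, hyX, hy1⟩ := hex {1, x} (le_trans Finset.card_le_two (by norm_num))
  obtain ⟨w, hwX, hw1⟩ := hex {1, x, y, x * y} Finset.card_le_four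
  simp only [Finset.mem_singleton, Finset.mem_insert, not_or] at hx1 hy1 hw1
  obtain ⟨hy1, hyx⟩ := hy1
  obtain ⟨hw1, hwx, hwy, hwxy⟩ := hw1
  have hxx := hX x hxX
  have hyy := hX y hyX
  have hww := hX w hwX
  have hxy := hcomm x hxX y hyX
  have hxw := hcomm x hxX w hwX
  have hyw := hcomm y hyX w hwX
  have hxyX := mul_mem hxX hyX
  have hxwX := mul_mem hxX hwX
  have hywX := mul_mem hyX hwX
  have hxy1 : x * y ≠ 1 := fun h => hyx (by rw [← hinv x hxX]; exact (inv_eq_of_mul_eq_one_right h).symm)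
  have hxw1 : x * w ≠ 1 := fun h => hwx (by rw [← hinv x hxX]; exact (inv_eq_of_mul_eq_one_right h).symm)
  have hyw1 : y * w ≠ 1 := fun h => hwy (by rw [← hinv y hyX]; exact (inv_eq_of_mul_eq_one_right h).symm)
  have hc1 : x * (x * y) = y := by rw [← mul_assoc, hxx, one_mul]
  have hc2 : x * (x * w) = w := by rw [← mul_assoc, hxx, one_mul]
  -- α_y
  have e1 : mul (ax x) (ax y) = (1 / 8 : ℝ) • (ax x + ax y - ax (x * y)) :=
    h2A x hxX y hyX hx1 hy1 (fun h => hyx h.symm)
  have e2 : mul (ax x) (ax (x * y)) = (1 / 8 : ℝ) • (ax x + ax (x * y) - ax y) := by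
    have := h2A x hxX (x * y) hxyX hx1 hxy1 (fun h => hy1 (by
      have := congrArg (fun t => x⁻¹ * t) h; simpa using this.symm))
    rwa [hc1] at this
  have e3 : mul (ax x) (ax w) = (1 / 8 : ℝ) • (ax x + ax w - ax (x * w)) :=
    h2A x hxX w hwX hx1 hw1 (fun h => hwx h.symm)
  have e4 : mul (ax x) (ax (x * w)) = (1 / 8 : ℝ) • (ax x + ax (x * w) - ax w) := by
    have := h2A x hxX (x * w) hxwX hx1 hxw1 (fun h => hw1 (by
      have := congrArg (fun t => x⁻¹ * t) h; simpa using this.symm))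
    rwa [hc2] at this
  have e5 : mul (ax y) (ax w) = (1 / 8 : ℝ) • (ax y + ax w - ax (y * w)) :=
    h2A y hyX w hwX hy1 hw1 (fun h => hwy h.symm)
  have e6 : mul (ax y) (ax (x * w)) = (1 / 8 : ℝ) • (ax y + ax (x * w) - ax (x * (y * w))) := by
    have := h2A y hyX (x * w) hxwX hy1 hxw1 (fun h => hwxy (by
      rw [h, ← mul_assoc, hxx, one_mul]))
    have h5 : y * (x * w) = x * (y * w) := by rw [← mul_assoc, ← hxy, mul_assoc]
    rwa [h5] at this
  have e7 : mul (ax (x * y)) (ax w) = (1 / 8 : ℝ) • (ax (x * y) + ax w - ax (x * (y * w))) := by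
    have := h2A (x * y) hxyX w hwX hxy1 hw1 (fun h => hwxy h.symm)
    rwa [mul_assoc] at this
  have e8 : mul (ax (x * y)) (ax (x * w)) = (1 / 8 : ℝ) • (ax (x * y) + ax (x * w) - ax (y * w)) := by
    have := h2A (x * y) hxyX (x * w) hxwX hxy1 hxw1 (fun h => hwy (by
      have := congrArg (fun t => x⁻¹ * t) h; simpa using this.symm))
    have h5 : x * y * (x * w) = y * w := by
      rw [hxy, mul_assoc, ← mul_assoc x x w, hxx, one_mul]
    rwa [h5] at this
  have m1 : ax y - ax (x * y) ∈ Cfsg.Axial.eigen mul (ax x) (1 / 4) := by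
    rw [Cfsg.Axial.eigen, Module.End.mem_eigenspace_iff, map_sub, e1, e2]
    module
  have m2 : ax w - ax (x * w) ∈ Cfsg.Axial.eigen mul (ax x) (1 / 4) := by
    rw [Cfsg.Axial.eigen, Module.End.mem_eigenspace_iff, map_sub, e3, e4]
    module
  have hprod : mul (ax y - ax (x * y)) (ax w - ax (x * w)) =
      (1 / 4 : ℝ) • (ax (x * (y * w)) - ax (y * w)) := by
    rw [map_sub, map_sub, LinearMap.sub_apply, LinearMap.sub_apply, e5, e6, e7, e8]
    module
  have hprod4 : mul (ax y - ax (x * y)) (ax w - ax (x * w)) ∈ Cfsg.Axial.eigen mul (ax x) (1 / 4) := by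
    have hxyw1 : x * (y * w) ≠ 1 := fun h => hwxy (by
      have := inv_eq_of_mul_eq_one_right h
      rw [hinv x hxX] at this
      rw [hxy, this, ← mul_assoc, hyy, one_mul])
    have hxywX := mul_mem hxX hywX
    have f1 : mul (ax x) (ax (y * w)) = (1 / 8 : ℝ) • (ax x + ax (y * w) - ax (x * (y * w))) :=
      h2A x hxX (y * w) hywX hx1 hyw1 (fun h => hwxy (by
        rw [hxy, h, ← mul_assoc, hyy, one_mul]))
    have f2 : mul (ax x) (ax (x * (y * w))) = (1 / 8 : ℝ) • (ax x + ax (x * (y * w)) - ax (y * w)) := by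
      have := h2A x hxX (x * (y * w)) hxywX hx1 hxyw1 (fun h => hyw1 (by
        have := congrArg (fun t => x⁻¹ * t) h; simpa using this.symm))
      have h6 : x * (x * (y * w)) = y * w := by rw [← mul_assoc, hxx, one_mul]
      rwa [h6] at this
    rw [hprod, Cfsg.Axial.eigen, Module.End.mem_eigenspace_iff, map_smul, map_sub, f1, f2]
    module
  have hfus := (hax x hxX hx1).2.2.1.1.2.2.2 (1 / 4) (by simp [Cfsg.Axial.majoranaSpectrum])
    (1 / 4) (by simp [Cfsg.Axial.majoranaSpectrum]) _ m1 _ m2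
  have hlaw : Cfsg.Axial.monsterLaw (1 / 4 : ℝ) (1 / 32) (1 / 4) (1 / 4) = {1, 0} := by
    unfold Cfsg.Axial.monsterLaw
    norm_num
  rw [hlaw] at hfus
  have hsum : Cfsg.Axial.eigenSum mul (ax x) ({1, 0} : Set ℝ) =
      Cfsg.Axial.eigen mul (ax x) 1 ⊔ Cfsg.Axial.eigen mul (ax x) 0 := by
    unfold Cfsg.Axial.eigenSum
    rw [iSup_insert, iSup_singleton]
  rw [hsum, Submodule.mem_sup] at hfus
  obtain ⟨v1, hv1, v0, hv0, hv⟩ := hfus
  rw [← hv] at hprod4
  rw [Cfsg.Axial.eigen, Module.End.mem_eigenspace_iff] at hv1 hv0 hprod4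
  rw [map_add, hv1, hv0] at hprod4
  have hv01 : v0 = (3 : ℝ) • v1 := by
    have : (4 : ℝ) • ((1 : ℝ) • v1 + (0 : ℝ) • v0) = (4 : ℝ) • ((1 / 4 : ℝ) • (v1 + v0)) := by rw [hprod4]
    have h7 : v0 = (4 : ℝ) • ((1 / 4 : ℝ) • (v1 + v0)) - v1 := by module
    rw [h7, ← this]
    module
  have hv10 : v1 = 0 := by
    rw [hv01, map_smul, hv1] at hv0
    have h8 : v1 = (1 / 3 : ℝ) • ((3 : ℝ) • (1 : ℝ) • v1) := by module
    rw [h8, hv0]
    module
  have hz : (1 / 4 : ℝ) • (ax (x * (y * w)) - ax (y * w)) = 0 := by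
    rw [← hprod, ← hv, hv01, hv10]
    module
  have heq : ax (x * (y * w)) = ax (y * w) := by
    have h9 : ax (x * (y * w)) = (4 : ℝ) • ((1 / 4 : ℝ) • (ax (x * (y * w)) - ax (y * w))) + ax (y * w) := by
      module
    rw [h9, hz]; module
  -- contradiction: ax x = -6 ax (yw)
  have hxyw1 : x * (y * w) ≠ 1 := fun h => hwxy (by
      have := inv_eq_of_mul_eq_one_right h
      rw [hinv x hxX] at this
      rw [hxy, this, ← mul_assoc, hyy, one_mul])
  have f2 : mul (ax x) (ax (x * (y * w))) = (1 / 8 : ℝ) • (ax x + ax (x * (y * w)) - ax (y * w)) := by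
    have := h2A x hxX (x * (y * w)) (mul_mem hxX hywX) hx1 hxyw1 (fun h => hyw1 (by
      have := congrArg (fun t => x⁻¹ * t) h; simpa using this.symm))
    have h6 : x * (x * (y * w)) = y * w := by rw [← mul_assoc, hxx, one_mul]
    rwa [h6] at this
  rw [heq] at f2
  have f3 : mul (ax x) (ax (y * w)) = (1 / 8 : ℝ) • (ax x) := by rw [f2]; module
  -- B (x, x·s) = B(x x, s) = B(x,s); also = 1/8 B(x,x)
  have g1 : B (ax x) (ax (y * w)) = 1 / 8 := by
    have h10 := hBa (ax x) (ax x) (ax (y * w))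
    rw [(hax x hxX hx1).2.2.1.1.2.1, f3, map_smul, smul_eq_mul, h1 x hxX hx1] at h10
    linarith
  have g2 : B (ax x) (ax (y * w)) = 1 / 8 * B (ax x) (ax (y * w)) := by
    have h10 := hBa (ax x) (ax (y * w)) (ax (y * w))
    rw [(hax (y * w) hywX hyw1).2.2.1.1.2.1, f3, map_smul, LinearMap.smul_apply, smul_eq_mul] at h10
    exact h10
  rw [g1] at g2
  norm_num at g2

end Cfsg.Agent.S5543
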