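import Cfsg.Statements.S5545

set_option autoImplicit false
open Cfsg

namespace Cfsg.Agent.S5545

open Cfsg.Axial

section aux

variable {V : Type*} [AddCommGroup V] [Module ℝ V]

theorem mem_eig (mul : V →ₗ[ℝ] V →ₗ[ℝ] V) (a : V) (c : ℝ) (v : V) :
    v ∈ eigen mul a c ↔ mul a v = c • v := by
  rw [eigen, Module.End.mem_eigenspace_iff]

theorem eigen_map (mul : V →ₗ[ℝ] V →ₗ[ℝ] V) (g : V ≃ₗ[ℝ] V)
    (hg : ∀ u v : V, g (mul u v) = mul (g u) (g v)) (a : V) (c : ℝ) :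
    eigen mul (g a) c = (eigen mul a c).map (g : V →ₗ[ℝ] V) := by
  ext v
  rw [Submodule.mem_map, mem_eig]
  constructor
  · intro h
    refine ⟨g.symm v, ?_, by simp⟩
    rw [mem_eig]
    apply g.injective
    rw [hg, map_smul]
    simpa using h
  · rintro ⟨w, hw, rfl⟩
    rw [mem_eig] at hw
    show mul (g a) (g w) = c • g w
    rw [← hg, hw, map_smul]

theorem eigenSum_map (mul : V →ₗ[ℝ] V →ₗ[ℝ] V) (g : V ≃ₗ[ℝ] V)
    (hg : ∀ u v : V, g (mul u v) = mul (g u) (g v)) (a : V) (S : Set ℝ) :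
    eigenSum mul (g a) S = (eigenSum mul a S).map (g : V →ₗ[ℝ] V) := by
  unfold eigenSum
  rw [Submodule.map_iSup]
  congr 1
  funext c
  rw [Submodule.map_iSup]
  congr 1
  funext hc
  exact eigen_map mul g hg a c

theorem conj_pair (mul : V →ₗ[ℝ] V →ₗ[ℝ] V) (B : LinearMap.BilinForm ℝ V) (g μ : V ≃ₗ[ℝ] V)
    (a : V) (hg : ∀ u v : V, g (mul u v) = mul (g u) (g v))
    (h : IsMajoranaPair mul B μ a) (hc : g * μ = μ * g) : IsMajoranaPair mul B μ (g a) := by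
  obtain ⟨hm, hB, ⟨⟨ha, haa, htop, hfus⟩, hprim⟩, hmi⟩ := h
  have hc' : ∀ v, g (μ v) = μ (g v) := fun v => by
    have := congrArg (fun t : V ≃ₗ[ℝ] V => t v) hc
    simpa using this
  refine ⟨hm, hB, ⟨⟨?_, ?_, ?_, ?_⟩, ?_⟩, ?_, ?_⟩
  · intro h0
    exact ha (g.injective (by rw [h0, map_zero]))
  · rw [← hg, haa]
  · rw [eigenSum_map mul g hg, htop, Submodule.map_top, LinearEquiv.range]
  · intro c hc1 d hd u hu v hv
    rw [eigen_map mul g hg, Submodule.mem_map] at hu hv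
    obtain ⟨u', hu', rfl⟩ := hu
    obtain ⟨v', hv', rfl⟩ := hv
    have := hfus c hc1 d hd u' hu' v' hv'
    show mul (g u') (g v') ∈ _
    rw [← hg, eigenSum_map mul g hg]
    exact Submodule.mem_map_of_mem this
  · rw [eigen_map mul g hg, hprim, Submodule.map_span, Set.image_singleton]
    rfl
  · intro v hv
    rw [eigenSum_map mul g hg, Submodule.mem_map] at hv
    obtain ⟨v', hv', rfl⟩ := hv
    show μ (g v') = g v'
    rw [← hc']
    have := hmi.1 v' hv'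
    exact congrArg g this
  · intro v hv
    rw [eigen_map mul g hg, Submodule.mem_map] at hv
    obtain ⟨v', hv', rfl⟩ := hv
    show μ (g v') = - g v'
    rw [← hc']
    have := hmi.2 v' hv'
    have h2 : g (μ v') = g (-v') := congrArg g this
    rw [h2, map_neg]

/-- The computation with respect to one axis. -/
theorem core (mul : V →ₗ[ℝ] V →ₗ[ℝ] V) (B : LinearMap.BilinForm ℝ V) (hV : IsMajoranaAmbient mul B)
    (μ : V ≃ₗ[ℝ] V) (a b : V) (h : IsMajoranaPair mul B μ a) (hbb : mul b b = b)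
    (hn : B a a = 1) (hb : μ b = b) :
    mul a (mul a b) = (3 * B a b / 4) • a + (1 / 4 : ℝ) • mul a b ∧
    (mul b (mul a b) = (3 * B a b / 4) • b + (1 / 4 : ℝ) • mul a b →
      (16 : ℝ) • mul (mul a b) (mul a b) =
        (3 * B a b) • b + (8 * B a b ^ 2 + 2 * B a b) • a + (4 * B a b - 1) • mul a b) := by
  obtain ⟨hcm, hBs, hBp, hBa, -⟩ := hV
  obtain ⟨hm, hB, ⟨⟨ha, haa, htop, hfus⟩, hprim⟩, hmi⟩ := h
  have hsplit : eigenSum mul a majoranaSpectrum =
      eigen mul a 1 ⊔ (eigen mul a 0 ⊔ (eigen mul a (1/4) ⊔ eigen mul a (1/32))) := by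
    unfold eigenSum majoranaSpectrum
    rw [iSup_insert, iSup_insert, iSup_insert, iSup_singleton]
  have hsplit3 : eigenSum mul a {1, 0, 1/4} =
      eigen mul a 1 ⊔ (eigen mul a 0 ⊔ (eigen mul a (1/4))) := by
    unfold eigenSum
    rw [iSup_insert, iSup_insert, iSup_singleton]
  have hsplit2 : eigenSum mul a {1, 0} = eigen mul a 1 ⊔ eigen mul a 0 := by
    unfold eigenSum
    rw [iSup_insert, iSup_singleton]
  have hbt : b ∈ eigenSum mul a majoranaSpectrum := by rw [htop]; trivial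
  rw [hsplit, Submodule.mem_sup] at hbt
  obtain ⟨v1, hv1, y, hy, hby⟩ := hbt
  obtain ⟨v0, hv0, z, hz, rfl⟩ := Submodule.mem_sup.mp hy
  obtain ⟨v4, hv4, v32, hv32, rfl⟩ := Submodule.mem_sup.mp hz
  have h3 : v1 + (v0 + v4) ∈ eigenSum mul a {1, 0, 1/4} := by
    rw [hsplit3]
    exact Submodule.add_mem_sup hv1 (Submodule.add_mem_sup hv0 hv4)
  have hf3 : μ (v1 + (v0 + v4)) = v1 + (v0 + v4) := hmi.1 _ h3
  have hf32 : μ v32 = - v32 := hmi.2 _ hv32
  have hv320 : v32 = 0 := by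
    have hb' := hb
    have e : b = (v1 + (v0 + v4)) + v32 := by rw [← hby]; abel
    rw [e, map_add, hf3, hf32] at hb'
    have h2 : -v32 = v32 := add_left_cancel hb'
    have h4 : v32 = (1/2 : ℝ) • (v32 - (-v32)) := by module
    rw [h4, h2]
    module
  rw [hv320, add_zero] at hby
  rw [hprim, Submodule.mem_span_singleton] at hv1
  obtain ⟨l, rfl⟩ := hv1
  rw [mem_eig] at hv0 hv4
  rw [zero_smul] at hv0
  have hB0 : B a v0 = 0 := by
    have := hBa a a v0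
    rw [haa, hv0, map_zero] at this
    exact this.symm
  have hB4 : B a v4 = 0 := by
    have := hBa a a v4
    rw [haa, hv4, map_smul, smul_eq_mul] at this
    linarith
  have hl : B a b = l := by
    rw [← hby, map_add, map_add, map_smul, hn, hB0, hB4]
    simp
  rw [hl]
  have hp : mul a b = l • a + (1/4 : ℝ) • v4 := by
    rw [← hby, map_add, map_add, map_smul, haa, hv0, hv4, zero_add]
  have hap : mul a (mul a b) = (3 * l / 4) • a + (1 / 4 : ℝ) • mul a b := by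
    rw [hp, map_add, map_smul, map_smul, haa, hv4]
    module
  refine ⟨hap, fun hbp => ?_⟩
  -- fusion
  have e0 : mul v0 v0 ∈ eigen mul a 0 := by
    have := hfus 0 (by simp [majoranaSpectrum]) 0 (by simp [majoranaSpectrum]) v0
      (by rw [mem_eig, zero_smul]; exact hv0) v0 (by rw [mem_eig, zero_smul]; exact hv0)
    have hlaw : monsterLaw (1 / 4 : ℝ) (1 / 32) 0 0 = {0} := by
      unfold monsterLaw
      norm_num
    rw [hlaw] at this
    unfold eigenSum at this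
    rwa [iSup_singleton] at this
  have e4 : mul v4 v4 ∈ eigen mul a 1 ⊔ eigen mul a 0 := by
    have := hfus (1/4) (by simp [majoranaSpectrum]) (1/4) (by simp [majoranaSpectrum]) v4
      (by rw [mem_eig]; exact hv4) v4 (by rw [mem_eig]; exact hv4)
    have hlaw : monsterLaw (1 / 4 : ℝ) (1 / 32) (1/4) (1/4) = {1, 0} := by
      unfold monsterLaw
      norm_num
    rw [hlaw, hsplit2] at this
    exact this
  have e04 : mul v0 v4 ∈ eigen mul a (1/4) := by
    have := hfus 0 (by simp [majoranaSpectrum]) (1/4) (by simp [majoranaSpectrum]) v0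
      (by rw [mem_eig, zero_smul]; exact hv0) v4 (by rw [mem_eig]; exact hv4)
    have hlaw : monsterLaw (1 / 4 : ℝ) (1 / 32) 0 (1/4) = {1/4} := by
      unfold monsterLaw
      norm_num
    rw [hlaw] at this
    unfold eigenSum at this
    rwa [iSup_singleton] at this
  obtain ⟨w1, hw1, w0, hw0, hw⟩ := Submodule.mem_sup.mp e4
  rw [mem_eig] at e0 hw1 hw0 e04
  rw [zero_smul] at e0 hw0
  rw [one_smul] at hw1
  -- b*b
  have hsq : mul b b = l ^ 2 • a + mul v0 v0 + mul v4 v4 + (l / 2) • v4 + (2 : ℝ) • mul v0 v4 := by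
    have c1 : mul v0 a = 0 := by rw [hcm, hv0]
    have c2 : mul v4 a = (1/4 : ℝ) • v4 := by rw [hcm, hv4]
    have c3 : mul v4 v0 = mul v0 v4 := hcm _ _
    rw [← hby]
    simp only [map_add, map_smul, LinearMap.add_apply, LinearMap.smul_apply, haa, hv0, hv4, c1, c2, c3]
    module
  -- T := mul a, apply to b*b - b = 0:  quarter part
  have hq : (2 : ℝ) • mul v0 v4 = (1 - l / 2) • v4 := by
    have E : l ^ 2 • a + mul v0 v0 + (w1 + w0) + (l / 2) • v4 + (2 : ℝ) • mul v0 v4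
        = l • a + (v0 + v4) := by
      rw [hby, hw, ← hsq, hbb]
    have E1 := congrArg (fun t => mul a t) E
    beta_reduce at E1
    simp only [map_add, map_smul, haa, e0, hw1, hw0, hv4, hv0, e04] at E1
    have E2 := congrArg (fun t => mul a t) E1
    beta_reduce at E2
    simp only [map_add, map_smul, map_zero, haa, e0, hw1, hw0, hv4, hv0, e04] at E2
    -- E1 : l²a + w1 + (l/2)(1/4)v4 + 2(1/4) v0v4 = l a + 1/4 v4 ; E2 : 1/16
    have E3 : (16/3 : ℝ) • ((l ^ 2 • a + 0 + (w1 + 0) + (l / 2) • (1 / 4 : ℝ) • v4 + (2 : ℝ) • (1 / 4 : ℝ) • mul v0 v4) - 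
      (l ^ 2 • a + 0 + (w1 + 0) + (l / 2) • (1 / 4 : ℝ) • (1 / 4 : ℝ) • v4 + (2 : ℝ) • (1 / 4 : ℝ) • (1 / 4 : ℝ) • mul v0 v4)) = 
       (16/3 : ℝ) • ((l • a + (0 + (1 / 4 : ℝ) • v4)) - (l • a + (0 + (1 / 4 : ℝ) • (1 / 4 : ℝ) • v4))) := by
      rw [E1, E2]
    have E4 : (2 : ℝ) • mul v0 v4 = (16/3 : ℝ) • ((l ^ 2 • a + 0 + (w1 + 0) + (l / 2) • (1 / 4 : ℝ) • v4 + (2 : ℝ) • (1 / 4 : ℝ) • mul v0 v4) - 
      (l ^ 2 • a + 0 + (w1 + 0) + (l / 2) • (1 / 4 : ℝ) • (1 / 4 : ℝ) • v4 + (2 : ℝ) • (1 / 4 : ℝ) • (1 / 4 : ℝ) • mul v0 v4)) - (l/2) • v4 := by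
      module
    rw [E4, E3]
    module
  have hv4' : v4 = (4 : ℝ) • (mul a b - l • a) := by rw [hp]; module
  have hv0' : v0 = b + (3 * l) • a - (4 : ℝ) • mul a b := by
    rw [hp, ← hby]; module
  have hba : mul b a = mul a b := hcm b a
  generalize mul a b = p at *
  have hpa : mul p a = (3 * l / 4) • a + (1 / 4 : ℝ) • p := by rw [hcm, hap]
  rw [hv0', hv4'] at hq
  simp only [map_add, map_sub, map_smul, LinearMap.add_apply, LinearMap.sub_apply, LinearMap.smul_apply,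
    hap, hbp, hpa, haa, hba] at hq
  linear_combination (norm := module) (-(1/2) : ℝ) • hq

end aux

/-- Let V be a finite-dimensional real vector space with a commutative bilinear product and a positive-definite symmetric bilinear form that associates with the product and satisfies the Norton inequality (the Majorana setting of the definitions). Let μ₀, μ₁ be commuting Majorana involutions with distinct axial vectors a₀ ≠ a₁ of squared length 1, each involution having no other axial vector. Then either a₀ and a₁ are orthogonal with a₀ ∘ a₁ = 0 (type 2B), or their inner product is 1/8 and, with a₂ = a₀ + a₁ − 8 a₀ ∘ a₁, the vector a₂ is an idempotent and a₀ ∘ a₂ = (1/8)(a₀ + a₂ − a₁), a₁ ∘ a₂ = (1/8)(a₁ + a₂ − a₀) (type 2A: the three idempotents span a subalgebra with aᵢ ∘ aⱼ = (1/8)(aᵢ + aⱼ − aₖ)). -/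
theorem result {V : Type*} [AddCommGroup V] [Module ℝ V] [FiniteDimensional ℝ V] (mul : V →ₗ[ℝ] V →ₗ[ℝ] V) (B : LinearMap.BilinForm ℝ V) (hV : Cfsg.Axial.IsMajoranaAmbient mul B) (μ₀ μ₁ : V ≃ₗ[ℝ] V) (a₀ a₁ : V) (h₀ : Cfsg.Axial.IsMajoranaPair mul B μ₀ a₀) (h₁ : Cfsg.Axial.IsMajoranaPair mul B μ₁ a₁) (hu₀ : ∀ a : V, Cfsg.Axial.IsMajoranaPair mul B μ₀ a → a = a₀) (hu₁ : ∀ a : V, Cfsg.Axial.IsMajoranaPair mul B μ₁ a → a = a₁) (hn₀ : B a₀ a₀ = 1) (hn₁ : B a₁ a₁ = 1) (hc : μ₀ * μ₁ = μ₁ * μ₀) (hne : a₀ ≠ a₁) : (B a₀ a₁ = 0 ∧ mul a₀ a₁ = 0) ∨ (B a₀ a₁ = 1 / 8 ∧ mul (a₀ + a₁ - (8 : ℝ) • mul a₀ a₁) (a₀ + a₁ - (8 : ℝ) • mul a₀ a₁) = a₀ + a₁ - (8 : ℝ) • mul a₀ a₁ ∧ mul a₀ (a₀ + a₁ - (8 : ℝ) • mul a₀ a₁) = (1 / 8 : ℝ) • (a₀ + (a₀ + a₁ - (8 : ℝ) • mul a₀ a₁) - a₁) ∧ mul a₁ (a₀ + a₁ - (8 : ℝ) • mul a₀ a₁) = (1 / 8 : ℝ) • (a₁ + (a₀ + a₁ - (8 : ℝ) • mul a₀ a₁) - a₀)) := by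
  have hcm := hV.1
  have hBs := hV.2.1
  have hBp := hV.2.2.1
  have hBa := hV.2.2.2.1
  have f1 : μ₀ a₁ = a₁ := hu₁ _ (conj_pair mul B μ₀ μ₁ a₁ h₀.1 h₁ hc)
  have f0 : μ₁ a₀ = a₀ := hu₀ _ (conj_pair mul B μ₁ μ₀ a₀ h₁.1 h₀ hc.symm)
  have i0 : mul a₀ a₀ = a₀ := h₀.2.2.1.1.2.1
  have i1 : mul a₁ a₁ = a₁ := h₁.2.2.1.1.2.1
  obtain ⟨p0, q0⟩ := core mul B hV μ₀ a₀ a₁ h₀ i1 hn₀ f1
  obtain ⟨p1, q1⟩ := core mul B hV μ₁ a₁ a₀ h₁ i0 hn₁ f0
  have hpp : mul a₁ a₀ = mul a₀ a₁ := hcm _ _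
  have hll : B a₁ a₀ = B a₀ a₁ := hBs _ _
  rw [hpp, hll] at p1 q1
  have r0 := q0 p1
  have r1 := q1 p0
  have hB1 : B a₁ (mul a₀ a₁) = B a₀ a₁ := by
    rw [← hpp, hBa, i1, hll]
  have hBpp : B (mul a₀ a₁) (mul a₀ a₁) = 3 * B a₀ a₁ / 4 * B a₀ a₁ + 1 / 4 * B a₀ a₁ := by
    rw [← hBa, p1, map_add, map_smul, map_smul, smul_eq_mul, smul_eq_mul, hBa, i0]
  generalize hl : B a₀ a₁ = l at *
  generalize hp : mul a₀ a₁ = p at *
  have hd : (8 * l ^ 2 - l) • (a₀ - a₁) = 0 := by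
    linear_combination (norm := module) (1 : ℝ) • r1 - (1 : ℝ) • r0
  rcases smul_eq_zero.mp hd with h | h
  · have h' : l = 0 ∨ l = 1 / 8 := by
      have : l * (l - 1 / 8) = 0 := by nlinarith
      rcases mul_eq_zero.mp this with h | h
      · exact Or.inl h
      · right; linarith
    rcases h' with rfl | rfl
    · left
      refine ⟨rfl, ?_⟩
      by_contra hne'
      have := hBp p hne'
      rw [hBpp] at this
      norm_num at this
    · right
      have e : mul p a₀ = (3 * (1/8) / 4 : ℝ) • a₀ + (1 / 4 : ℝ) • p := by rw [hcm]; exact p0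
      have e' : mul p a₁ = (3 * (1/8) / 4 : ℝ) • a₁ + (1 / 4 : ℝ) • p := by rw [hcm]; exact p1
      refine ⟨rfl, ?_, ?_, ?_⟩
      · simp only [map_add, map_sub, map_smul, LinearMap.add_apply, LinearMap.sub_apply,
          LinearMap.smul_apply, p0, p1, e, e', i0, i1, hp, hpp]
        linear_combination (norm := module) (4 : ℝ) • r0
      · simp only [map_add, map_sub, map_smul, LinearMap.add_apply, LinearMap.sub_apply,
          LinearMap.smul_apply, p0, p1, e, e', i0, i1, hp, hpp]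
        module
      · simp only [map_add, map_sub, map_smul, LinearMap.add_apply, LinearMap.sub_apply,
          LinearMap.smul_apply, p0, p1, e, e', i0, i1, hp, hpp]
        module
  · exact absurd (sub_eq_zero.mp h) hne

end Cfsg.Agent.S5545
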