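import Cfsg.Statements.S5546
import Cfsg.Agent.H7.Conway3

set_option autoImplicit false
open Cfsg

namespace Cfsg.Agent.S5546

open Cfsg.Agent.H7

instance fact13 : Fact (Nat.Prime 13) := ⟨by norm_num⟩

/-- `8 x = Σ x_j e8_j` -/
theorem eight_smul (x : leechLattice) : (8 : ℤ) • x = ∑ j, (x : GolayPt → ℤ) j • e8 j := by
  apply Subtype.ext
  funext k
  have h1 : (((8 : ℤ) • x : leechLattice) : GolayPt → ℤ) k = 8 * (x : GolayPt → ℤ) k := rfl
  rw [h1, AddSubgroup.val_finsetSum, Finset.sum_apply]
  have h2 : ∀ j, (((x : GolayPt → ℤ) j • e8 j : leechLattice) : GolayPt → ℤ) k =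
      (x : GolayPt → ℤ) j * (if k = j then 8 else 0) := by
    intro j
    rw [← e8_apply]
    rfl
  simp only [h2, mul_ite, mul_zero, Finset.sum_ite_eq, Finset.mem_univ, if_true]
  ring

theorem eight_smul' (g : Co0) (x : leechLattice) (k : GolayPt) :
    8 * ((g • x : leechLattice) : GolayPt → ℤ) k =
      ∑ j, (x : GolayPt → ℤ) j * ((g • e8 j : leechLattice) : GolayPt → ℤ) k := by
  have h1 : g • ((8 : ℤ) • x) = ∑ j, (x : GolayPt → ℤ) j • (g • e8 j) := by
    rw [eight_smul]
    have h2 := map_sum (co0Hom g) (fun j => (x : GolayPt → ℤ) j • e8 j) Finset.univ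
    have h3 : ∀ j, co0Hom g ((x : GolayPt → ℤ) j • e8 j) = (x : GolayPt → ℤ) j • (g • e8 j) :=
      fun j => co0_zsmul g _ _
    simp only [h3] at h2
    exact h2
  rw [co0_zsmul] at h1
  have h4 := congrArg (fun y : leechLattice => (y : GolayPt → ℤ) k) h1
  simp only [AddSubgroup.val_finsetSum, Finset.sum_apply] at h4
  exact h4

/-- the reduction modulo 13 of the matrix of an automorphism -/
noncomputable def M13 (g : Co0) : Matrix GolayPt GolayPt (ZMod 13) :=
  fun k i => 5 * (((g • e8 i : leechLattice) : GolayPt → ℤ) k : ZMod 13)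

theorem M13_apply (g : Co0) (x : leechLattice) (k : GolayPt) :
    (((g • x : leechLattice) : GolayPt → ℤ) k : ZMod 13) =
      ∑ j, M13 g k j * ((x : GolayPt → ℤ) j : ZMod 13) := by
  have h1 := congrArg (fun n : ℤ => (n : ZMod 13)) (eight_smul' g x k)
  simp only [Int.cast_mul, Int.cast_sum, Int.cast_ofNat] at h1
  have h2 : ∑ j, M13 g k j * ((x : GolayPt → ℤ) j : ZMod 13) =
      5 * ∑ j, ((x : GolayPt → ℤ) j : ZMod 13) *
        (((g • e8 j : leechLattice) : GolayPt → ℤ) k : ZMod 13) := by
    rw [Finset.mul_sum]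
    apply Finset.sum_congr rfl
    intro j _
    unfold M13
    ring
  rw [h2, ← h1, ← mul_assoc]
  have h3 : (5 * 8 : ZMod 13) = 1 := by decide
  rw [h3, one_mul]

theorem M13_mul (g h : Co0) : M13 (g * h) = M13 g * M13 h := by
  ext k i
  rw [Matrix.mul_apply]
  show 5 * ((((g * h) • e8 i : leechLattice) : GolayPt → ℤ) k : ZMod 13) = _
  rw [mul_smul, M13_apply, Finset.mul_sum]
  apply Finset.sum_congr rfl
  intro j _
  unfold M13
  ring

theorem M13_one : M13 1 = 1 := by
  ext k i
  show 5 * ((((1 : Co0) • e8 i : leechLattice) : GolayPt → ℤ) k : ZMod 13) = _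
  rw [one_smul, e8_apply, Matrix.one_apply]
  split_ifs
  · decide
  · decide

noncomputable def M13Hom : Co0 →* Matrix GolayPt GolayPt (ZMod 13) where
  toFun := M13
  map_one' := M13_one
  map_mul' := M13_mul

abbrev V13 := GolayPt → ZMod 13

noncomputable def u13 : V13 := fun p => (Cfsg.Spor.vecU p : ZMod 13)

noncomputable def inc (g : Cfsg.Spor.Co2) : Co0 := ⟨g.1, g.2.1⟩

theorem inc_fix (g : Cfsg.Spor.Co2) : inc g • Cfsg.Spor.leechU = Cfsg.Spor.leechU :=
  MulAction.mem_stabilizer_iff.1 g.2.2

theorem M13_u (g : Cfsg.Spor.Co2) : (M13 (inc g)).mulVec u13 = u13 := by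
  funext k
  have h1 := M13_apply (inc g) Cfsg.Spor.leechU k
  rw [inc_fix] at h1
  exact h1.symm

abbrev U13 : Submodule (ZMod 13) V13 := Submodule.span (ZMod 13) {u13}

theorem U_le (g : Cfsg.Spor.Co2) : U13 ≤ U13.comap (Matrix.toLin' (M13 (inc g))) := by
  rw [Submodule.span_le]
  rintro _ rfl
  rw [Submodule.comap_coe, Set.mem_preimage, Matrix.toLin'_apply, M13_u]
  exact Submodule.subset_span rfl

noncomputable def φ : Cfsg.Spor.Co2 →* Module.End (ZMod 13) (V13 ⧸ U13) where
  toFun g := U13.mapQ U13 (Matrix.toLin' (M13 (inc g))) (U_le g)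
  map_one' := by
    ext x
    show U13.mkQ ((M13 (inc 1)).mulVec _) = _
    have : inc 1 = 1 := rfl
    rw [this, M13_one, Matrix.one_mulVec]
    rfl
  map_mul' g h := by
    ext x
    show U13.mkQ ((M13 (inc (g * h))).mulVec _) = U13.mkQ ((M13 (inc g)).mulVec ((M13 (inc h)).mulVec _))
    have : inc (g * h) = inc g * inc h := rfl
    rw [this, M13_mul, Matrix.mulVec_mulVec]

theorem u13_ne : u13 ≠ 0 := by
  intro h
  have h1 := congrFun h none
  revert h1
  show ((Cfsg.Spor.vecU none : ℤ) : ZMod 13) ≠ 0
  decide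

theorem finrank_q : Module.finrank (ZMod 13) (V13 ⧸ U13) = 23 := by
  have h1 := Submodule.finrank_quotient_add_finrank U13
  rw [finrank_span_singleton u13_ne, Module.finrank_fintype_fun_eq_card] at h1
  have h2 : Fintype.card GolayPt = 24 := by decide
  omega

theorem aux6 : ∀ c : ZMod 13, c * 6 = 0 → c = 0 := by decide

/-- matrices of a faithful action on a space of dimension `n` -/
theorem embed {K : Type*} [Field K] {Q : Type*} [AddCommGroup Q] [Module K Q] [Module.Finite K Q]
    {n : ℕ} (h : Module.finrank K Q = n) {G : Type*} [Group G] (φ : G →* Module.End K Q)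
    (hφ : Function.Injective φ) : ∃ f : G →* GL (Fin n) K, Function.Injective f := by
  let b := Module.finBasisOfFinrankEq K Q h
  let ψ : (Module.End K Q) ≃* Matrix (Fin n) (Fin n) K := (LinearMap.toMatrixAlgEquiv b).toMulEquiv
  refine ⟨(Units.mapEquiv ψ).toMonoidHom.comp φ.toHomUnits, ?_⟩
  apply (Units.mapEquiv ψ).injective.comp
  intro g h hgh
  apply hφ
  exact congrArg Units.val hgh

theorem small_int {a : ℤ} (h : a ^ 2 ≤ 64) : -8 ≤ a ∧ a ≤ 8 := by
  constructor <;> nlinarith

theorem φ_inj : Function.Injective φ := by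
  rw [injective_iff_map_eq_one]
  intro g hg
  have h1 : ∀ w : V13, (M13 (inc g)).mulVec w - w ∈ U13 := by
    intro w
    have h2 := congrArg (fun f : Module.End (ZMod 13) (V13 ⧸ U13) => f (U13.mkQ w)) hg
    have h3 : U13.mkQ ((M13 (inc g)).mulVec w) = U13.mkQ w := h2
    exact (Submodule.Quotient.eq U13).1 h3
  -- the columns
  have h2 : ∀ i, ∃ c : ZMod 13, ∀ k, (((inc g • e8 i : leechLattice) : GolayPt → ℤ) k : ZMod 13) =
      (if k = i then 8 else 0) + c * u13 k := by
    intro i
    obtain ⟨c, hc⟩ := Submodule.mem_span_singleton.1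
      (h1 (fun j => (((e8 i : leechLattice) : GolayPt → ℤ) j : ZMod 13)))
    refine ⟨c, fun k => ?_⟩
    have h3 := congrFun hc k
    have h4 : (M13 (inc g)).mulVec (fun j => (((e8 i : leechLattice) : GolayPt → ℤ) j : ZMod 13)) k
        = (((inc g • e8 i : leechLattice) : GolayPt → ℤ) k : ZMod 13) :=
      (M13_apply (inc g) (e8 i) k).symm
    rw [Pi.sub_apply, h4, e8_apply] at h3
    have h5 : (c • u13) k = c * u13 k := rfl
    rw [h5] at h3
    rw [h3]
    split_ifs <;> simp
  have hb : ∀ i, inc g • e8 i = e8 i := by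
    intro i
    obtain ⟨c, hc⟩ := h2 i
    -- the coefficient vanishes
    have h3 : bL (inc g • e8 i) Cfsg.Spor.leechU = bL (e8 i) Cfsg.Spor.leechU := by
      conv_lhs => rw [← inc_fix g]
      exact co0_bL _ _ _
    have h4 : dotInt ((inc g • e8 i : leechLattice) : GolayPt → ℤ) Cfsg.Spor.vecU =
        dotInt (e8 i : GolayPt → ℤ) Cfsg.Spor.vecU := by
      have h5 := bL_mul (inc g • e8 i) Cfsg.Spor.leechU
      have h6 := bL_mul (e8 i) Cfsg.Spor.leechU
      rw [h3, h6] at h5
      exact h5.symm
    have h5 := congrArg (fun n : ℤ => (n : ZMod 13)) h4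
    simp only [dotInt, Int.cast_sum, Int.cast_mul] at h5
    have h6 : ∀ k, (Cfsg.Spor.vecU k : ZMod 13) = u13 k := fun _ => rfl
    simp only [h6, hc, add_mul, Finset.sum_add_distrib] at h5
    have h7 : ∀ k, (((e8 i : leechLattice) : GolayPt → ℤ) k : ZMod 13) * u13 k =
        (if k = i then 8 else 0) * u13 k := by
      intro k
      rw [e8_apply]
      split_ifs <;> simp
    simp only [h7] at h5
    have h8 : ∑ k, c * u13 k * u13 k = 0 := by
      have := h5
      rwa [add_eq_left] at this
    have h9 : ∑ k, c * u13 k * u13 k = c * ∑ k, u13 k * u13 k := by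
      rw [Finset.mul_sum]
      apply Finset.sum_congr rfl
      intro k _
      ring
    have h10 : ∑ k, u13 k * u13 k = 6 := by
      show ∑ k, ((Cfsg.Spor.vecU k : ℤ) : ZMod 13) * ((Cfsg.Spor.vecU k : ℤ) : ZMod 13) = 6
      decide +kernel
    rw [h9, h10] at h8
    have hc0 : c = 0 := aux6 c h8
    subst hc0
    -- entries
    have hnorm : sqNorm ((inc g • e8 i : leechLattice) : GolayPt → ℤ) = 64 := by
      rw [co0_norm, ← bL_self, bL_e8, e8_apply, if_pos rfl]
      norm_num
    have hsmall : ∀ k, -8 ≤ ((inc g • e8 i : leechLattice) : GolayPt → ℤ) k ∧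
        ((inc g • e8 i : leechLattice) : GolayPt → ℤ) k ≤ 8 := by
      intro k
      apply small_int
      rw [← hnorm]
      exact sq_le_sqNorm _ k
    have hoff : ∀ k, k ≠ i → ((inc g • e8 i : leechLattice) : GolayPt → ℤ) k = 0 := by
      intro k hk
      have h11 := hc k
      rw [if_neg hk, zero_mul, add_zero] at h11
      have h12 : (13 : ℤ) ∣ ((inc g • e8 i : leechLattice) : GolayPt → ℤ) k :=
        (ZMod.intCast_zmod_eq_zero_iff_dvd _ 13).1 h11
      have := hsmall k
      omega
    have hii : ((inc g • e8 i : leechLattice) : GolayPt → ℤ) i = 8 := by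
      have h11 := hc i
      rw [if_pos rfl, zero_mul, add_zero] at h11
      have h12 : (13 : ℤ) ∣ ((inc g • e8 i : leechLattice) : GolayPt → ℤ) i - 8 := by
        apply (ZMod.intCast_zmod_eq_zero_iff_dvd _ 13).1
        rw [Int.cast_sub, h11]
        simp
      have h13 : ((inc g • e8 i : leechLattice) : GolayPt → ℤ) i ^ 2 = 64 := by
        rw [← hnorm]
        unfold sqNorm
        symm
        apply Finset.sum_eq_single_of_mem i (Finset.mem_univ i)
        intro k _ hk
        rw [hoff k hk]
        norm_num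
      have h14 := hsmall i
      have h15 : ((inc g • e8 i : leechLattice) : GolayPt → ℤ) i = 8 ∨
          ((inc g • e8 i : leechLattice) : GolayPt → ℤ) i = -8 := by
        have : (((inc g • e8 i : leechLattice) : GolayPt → ℤ) i - 8) *
            (((inc g • e8 i : leechLattice) : GolayPt → ℤ) i + 8) = 0 := by
          linear_combination h13
        rcases mul_eq_zero.1 this with h | h
        · left; omega
        · right; omega
      rcases h15 with h | h
      · exact h
      · rw [h] at h12
        omega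
    apply Subtype.ext
    funext k
    rw [e8_apply]
    split_ifs with hk
    · rw [hk]; exact hii
    · exact hoff k hk
  have h3 : inc g = 1 := co0_ext_e8 (fun i => by rw [hb i, one_smul])
  apply Subtype.ext
  exact congrArg (fun y : Co0 => (y : Equiv.Perm leechLattice)) h3

/-- The second Conway group (the stabilizer in the Leech lattice automorphism group of the short vector fixed in the definitions) is isomorphic to a subgroup of the general linear group of degree 23 over the field with 13 elements: there is an injective homomorphism into it. -/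
theorem result : ∃ f : ↥Cfsg.Spor.Co2 →* GL (Fin 23) (ZMod 13), Function.Injective f := by
  exact embed finrank_q φ φ_inj

end Cfsg.Agent.S5546
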