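import Cfsg.Statements.S5548
import Cfsg.Agent.H29.GCInv

set_option autoImplicit false
open Cfsg

namespace Cfsg.Agent.S5548

open Cfsg.Agent.H7 Cfsg.Agent.H29 in
theorem sum_supp (w : Cfsg.GolayPt → ZMod 2) : ∑ p, w p = ((Cfsg.support₂ w).card : ZMod 2) := by
  rw [Finset.card_eq_sum_ones, Nat.cast_sum, Cfsg.support₂, Finset.sum_filter]
  apply Finset.sum_congr rfl
  intro p _
  generalize w p = a
  revert a
  decide

/-- For the automorphism group of the length-24 binary Golay code of the definitions (the Mathieu group of degree 24) acting on binary words of length 24 by permuting coordinates, the only invariant subspaces of the space of all words are: zero, the span of the all-ones word, the code itself, the even-weight words, and the whole space. (So the permutation module has a unique composition series.) -/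
theorem result (W : Submodule (ZMod 2) (Cfsg.GolayPt → ZMod 2)) (hW : ∀ σ ∈ Cfsg.M24, ∀ w ∈ W, (fun p => w (σ.symm p)) ∈ W) : W = ⊥ ∨ W = Submodule.span (ZMod 2) {fun _ => (1 : ZMod 2)} ∨ W = Cfsg.golayCode ∨ (W : Set (Cfsg.GolayPt → ZMod 2)) = {w | ∑ p, w p = 0} ∨ W = ⊤ := by
  have hI := Cfsg.Agent.H29.inv_WS hW
  by_cases hG : ∀ w ∈ W, w ∈ Cfsg.golayCode
  · by_cases hex : ∃ w ∈ W, Cfsg.support₂ w ≠ ∅ ∧ Cfsg.support₂ w ≠ Finset.univ
    · right; right; left
      obtain ⟨w, hw, h2, h3⟩ := hex
      apply le_antisymm hG
      intro v hv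
      rw [← Cfsg.Agent.H29.mem_WS]
      exact Cfsg.Agent.H29.GC_sub hI (Cfsg.Agent.H7.support_mem_GC.2 (hG w hw))
        (Cfsg.Agent.H29.mem_WS.2 hw) h2 h3 _ (Cfsg.Agent.H7.support_mem_GC.2 hv)
    · push Not at hex
      have h01 : ∀ w ∈ W, w = 0 ∨ w = 1 := by
        intro w hw
        by_cases h0 : Cfsg.support₂ w = ∅
        · left
          rw [← Cfsg.Agent.H29.supp_zero] at h0
          exact Cfsg.Agent.H7.support₂_injective h0
        · right
          have h2 := hex w hw (Finset.nonempty_iff_ne_empty.2 h0)
          rw [← Cfsg.Agent.H29.supp_one] at h2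
          exact Cfsg.Agent.H7.support₂_injective h2
      by_cases h1 : (1 : Cfsg.GolayPt → ZMod 2) ∈ W
      · right; left
        apply le_antisymm
        · intro w hw
          rcases h01 w hw with rfl | rfl
          · exact Submodule.zero_mem _
          · exact Submodule.subset_span rfl
        · rw [Submodule.span_le]
          rintro _ rfl
          exact h1
      · left
        rw [eq_bot_iff]
        intro w hw
        rcases h01 w hw with rfl | rfl
        · exact Submodule.zero_mem _
        · exact absurd hw h1
  · push Not at hG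
    obtain ⟨w, hw, hwG⟩ := hG
    obtain ⟨a, b, hab, hp⟩ := Cfsg.Agent.H29.pair_of_not_GC hI (Cfsg.Agent.H29.mem_WS.2 hw)
      (fun h => hwG (Cfsg.Agent.H7.support_mem_GC.1 h))
    have hev : ∀ v : Cfsg.GolayPt → ZMod 2, ∑ p, v p = 0 → v ∈ W := by
      intro v hv
      rw [← Cfsg.Agent.H29.mem_WS]
      apply Cfsg.Agent.H29.even_of_pair hI hab hp
      rw [sum_supp, ZMod.natCast_eq_zero_iff_even] at hv
      exact hv
    right; right; right
    by_cases hodd : ∃ u ∈ W, ∑ p, u p ≠ 0
    · right
      obtain ⟨u, hu, hu1⟩ := hodd
      rw [eq_top_iff]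
      intro v _
      by_cases hv : ∑ p, v p = 0
      · exact hev v hv
      · have h2 : v - u ∈ W := by
          apply hev
          simp only [Pi.sub_apply, Finset.sum_sub_distrib]
          generalize ∑ p, v p = x at hv
          generalize ∑ p, u p = y at hu1
          revert x y
          decide
        have := W.add_mem h2 hu
        rwa [sub_add_cancel] at this
    · left
      push Not at hodd
      ext v
      exact ⟨fun h => hodd v h, fun h => hev v h⟩

end Cfsg.Agent.S5548
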