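import Cfsg.Statements.S5549
import Cfsg.Agent.H29.GCDual

set_option autoImplicit false
open Cfsg

namespace Cfsg.Agent.S5549

open Cfsg.Agent.H7 Cfsg.Agent.H29
open scoped Pointwise

/-- words of weight eight killed by `F` -/
noncomputable def NF (F : ↥golayCode →ₗ[ZMod 2] ZMod 2) : ℕ :=
  {c : ↥golayCode | (support₂ (c : GolayPt → ZMod 2)).card = 8 ∧ F c = 0}.ncard

theorem NF_cs {F : ↥golayCode →ₗ[ZMod 2] ZMod 2} {S : Finset GolayPt}
    (h : ∀ c : ↥golayCode, F c = cs S (c : GolayPt → ZMod 2)) : NF F = n8 S := by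
  unfold NF n8
  have himg : {o | o ∈ octads ∧ Even (o ∩ S).card} =
      (fun c : ↥golayCode => support₂ (c : GolayPt → ZMod 2)) ''
        {c : ↥golayCode | (support₂ (c : GolayPt → ZMod 2)).card = 8 ∧ F c = 0} := by
    ext o
    constructor
    · rintro ⟨ho, he⟩
      obtain ⟨c, rfl⟩ := supp_surj o
      have hc : c ∈ golayCode := support_mem_GC.1 (mem_octads.1 ho).1
      refine ⟨⟨c, hc⟩, ⟨(mem_octads.1 ho).2, ?_⟩, rfl⟩
      rw [h, cs_eq_zero]
      exact he
    · rintro ⟨c, ⟨h8, h0⟩, rfl⟩
      refine ⟨mem_octads.2 ⟨support_mem_GC.2 c.2, h8⟩, ?_⟩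
      rw [h, cs_eq_zero] at h0
      exact h0
  rw [himg]
  apply (Set.InjOn.ncard_image _).symm
  intro c _ d _ hcd
  exact Subtype.ext (support₂_injective hcd)

/-- the all-ones word of the code -/
noncomputable def e1 : ↥golayCode := ⟨1, one_mem_code⟩

theorem add_e1 (c : ↥golayCode) : support₂ ((c + e1 : ↥golayCode) : GolayPt → ZMod 2) =
    (support₂ (c : GolayPt → ZMod 2))ᶜ := by
  show support₂ ((c : GolayPt → ZMod 2) + 1) = _
  rw [supp_add, supp_one]
  exact symmDiff_top _

theorem e1_add_e1 (c : ↥golayCode) : c + e1 + e1 = c := by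
  apply Subtype.ext
  funext p
  show (c : GolayPt → ZMod 2) p + 1 + 1 = (c : GolayPt → ZMod 2) p
  generalize (c : GolayPt → ZMod 2) p = a
  revert a
  decide

/-- a linear automorphism fixing the all-ones word and preserving weights up to complement
preserves `NF` -/
theorem NF_comp (x : ↥golayCode ≃ₗ[ZMod 2] ↥golayCode) (hx1 : x e1 = e1)
    (hw : ∀ c : ↥golayCode, (support₂ (x c : GolayPt → ZMod 2)).card =
        (support₂ (c : GolayPt → ZMod 2)).card ∨
      (support₂ (x c : GolayPt → ZMod 2)).card = 24 - (support₂ (c : GolayPt → ZMod 2)).card)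
    (F : ↥golayCode →ₗ[ZMod 2] ZMod 2) (hF : F e1 = 0) :
    NF (F ∘ₗ (x : ↥golayCode →ₗ[ZMod 2] ↥golayCode)) = NF F := by
  classical
  let Φ : ↥golayCode → ↥golayCode := fun c =>
    if (support₂ (x c : GolayPt → ZMod 2)).card = 8 then x c else x c + e1
  have h24 : Fintype.card GolayPt = 24 := by decide
  have hΦ8 : ∀ c : ↥golayCode, (support₂ (c : GolayPt → ZMod 2)).card = 8 →
      (support₂ (Φ c : GolayPt → ZMod 2)).card = 8 := by
    intro c hc
    show (support₂ ((if (support₂ (x c : GolayPt → ZMod 2)).card = 8 then x c else x c + e1 :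
      ↥golayCode) : GolayPt → ZMod 2)).card = 8
    split_ifs with h
    · exact h
    · rw [add_e1, Finset.card_compl, h24]
      rcases hw c with h2 | h2 <;> omega
  have hFΦ : ∀ c : ↥golayCode, F (Φ c) = F (x c) := by
    intro c
    show F (if (support₂ (x c : GolayPt → ZMod 2)).card = 8 then x c else x c + e1) = _
    split_ifs with h
    · rfl
    · rw [map_add, hF, add_zero]
  have hinj : ∀ c d : ↥golayCode, (support₂ (c : GolayPt → ZMod 2)).card = 8 →
      (support₂ (d : GolayPt → ZMod 2)).card = 8 → Φ c = Φ d → c = d := by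
    intro c d hc hd hcd
    have key : ∀ c d : ↥golayCode, (support₂ (c : GolayPt → ZMod 2)).card = 8 →
        (support₂ (d : GolayPt → ZMod 2)).card = 8 → x c = x d + e1 → False := by
      intro c d hc hd h
      have h2 : x c = x (d + e1) := by rw [map_add, hx1]; exact h
      have h3 := x.injective h2
      rw [h3, add_e1, Finset.card_compl, h24] at hc
      omega
    have hcd' : (if (support₂ (x c : GolayPt → ZMod 2)).card = 8 then x c else x c + e1) =
      (if (support₂ (x d : GolayPt → ZMod 2)).card = 8 then x d else x d + e1) := hcd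
    split_ifs at hcd' with h1 h2 h2
    · exact x.injective hcd'
    · exact (key c d hc hd hcd').elim
    · exact (key d c hd hc hcd'.symm).elim
    · exact x.injective (add_right_cancel hcd')
  -- `Φ` permutes the words of weight eight
  have hfin : ({c : ↥golayCode | (support₂ (c : GolayPt → ZMod 2)).card = 8}).Finite :=
    Set.toFinite _
  have hsurj : Φ '' {c : ↥golayCode | (support₂ (c : GolayPt → ZMod 2)).card = 8} =
      {c : ↥golayCode | (support₂ (c : GolayPt → ZMod 2)).card = 8} := by
    apply Set.eq_of_subset_of_ncard_le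
    · rintro _ ⟨c, hc, rfl⟩
      exact hΦ8 c hc
    · have hio : Set.InjOn Φ {c : ↥golayCode | (support₂ (c : GolayPt → ZMod 2)).card = 8} :=
        fun c hc d hd h => hinj c d hc hd h
      rw [hio.ncard_image]
    · exact hfin
  unfold NF
  have himg : {c : ↥golayCode | (support₂ (c : GolayPt → ZMod 2)).card = 8 ∧ F c = 0} =
      Φ '' {c : ↥golayCode | (support₂ (c : GolayPt → ZMod 2)).card = 8 ∧
        (F ∘ₗ (x : ↥golayCode →ₗ[ZMod 2] ↥golayCode)) c = 0} := by
    ext d
    constructor
    · rintro ⟨hd, hd0⟩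
      have : d ∈ Φ '' {c : ↥golayCode | (support₂ (c : GolayPt → ZMod 2)).card = 8} := by
        rw [hsurj]; exact hd
      obtain ⟨c, hc, rfl⟩ := this
      refine ⟨c, ⟨hc, ?_⟩, rfl⟩
      rw [hFΦ] at hd0
      exact hd0
    · rintro ⟨c, ⟨hc, hc0⟩, rfl⟩
      refine ⟨hΦ8 c hc, ?_⟩
      rw [hFΦ]
      exact hc0
  rw [himg]
  exact (Set.InjOn.ncard_image (fun c hc d hd h => hinj c d hc.1 hd.1 h)).symm

/-- the functional of a set -/
noncomputable def fS (S : Finset GolayPt) : ↥golayCode →ₗ[ZMod 2] ZMod 2 where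
  toFun c := cs S (c : GolayPt → ZMod 2)
  map_add' c d := by
    show ∑ p ∈ S, ((c : GolayPt → ZMod 2) p + (d : GolayPt → ZMod 2) p) = _
    rw [Finset.sum_add_distrib]
    rfl
  map_smul' r c := by
    show ∑ p ∈ S, r * (c : GolayPt → ZMod 2) p = r * ∑ p ∈ S, (c : GolayPt → ZMod 2) p
    rw [Finset.mul_sum]

theorem cs_pair {a b : GolayPt} (h : a ≠ b) (c : GolayPt → ZMod 2) : cs {a, b} c = c a + c b := by
  unfold cs
  rw [Finset.sum_pair h]

/-- pairs go to pairs -/
theorem pair_pair (x : ↥golayCode ≃ₗ[ZMod 2] ↥golayCode) (hx1 : x e1 = e1)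
    (hw : ∀ c : ↥golayCode, (support₂ (x c : GolayPt → ZMod 2)).card =
        (support₂ (c : GolayPt → ZMod 2)).card ∨
      (support₂ (x c : GolayPt → ZMod 2)).card = 24 - (support₂ (c : GolayPt → ZMod 2)).card)
    {a b : GolayPt} (hab : a ≠ b) : ∃ S : Finset GolayPt, S.card = 2 ∧
      ∀ c : ↥golayCode, (x c : GolayPt → ZMod 2) a + (x c : GolayPt → ZMod 2) b =
        cs S (c : GolayPt → ZMod 2) := by
  have hc2 : ({a, b} : Finset GolayPt).card = 2 := Finset.card_pair hab
  have h0 : fS {a, b} e1 = 0 := by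
    show cs {a, b} 1 = 0
    rw [cs_univ, hc2]
    rfl
  have h1 := NF_comp x hx1 hw (fS {a, b}) h0
  have h2 : NF (fS {a, b}) = 407 := by
    rw [NF_cs (S := {a, b}) (fun _ => rfl)]
    exact n8_two hc2
  obtain ⟨S, hS, hSc⟩ := functional (fS {a, b} ∘ₗ (x : ↥golayCode →ₗ[ZMod 2] ↥golayCode)) (by
    show fS {a, b} (x e1) = 0
    rw [hx1]
    exact h0)
  have h3 := NF_cs hSc
  rw [h1, h2] at h3
  refine ⟨S, ?_, fun c => ?_⟩
  · rcases hS with h | h | h
    · rw [Finset.card_eq_zero.1 h, n8_empty] at h3
      omega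
    · exact h
    · rw [n8_four h] at h3
      omega
  · rw [← hSc]
    show _ = cs {a, b} (x c : GolayPt → ZMod 2)
    rw [cs_pair hab]

theorem sd_eq_empty {T : Finset GolayPt} (h : ∀ c ∈ golayCode, cs T c = 0) (h8 : T.card < 8) :
    T = ∅ := by
  have h1 := GC_weights _ (mem_GC_of_cs h)
  rw [← Finset.card_eq_zero]
  omega

/-- the combinatorial extraction of a point map from a map on pairs -/
theorem extract (S : GolayPt → GolayPt → Finset GolayPt) (h2 : ∀ a b, a ≠ b → (S a b).card = 2)
    (hs : ∀ a b, a ≠ b → S a b = S b a)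
    (ht : ∀ a b c, a ≠ b → a ≠ c → b ≠ c → S b c = symmDiff (S a b) (S a c)) :
    ∃ f : GolayPt → GolayPt, Function.Injective f ∧ ∀ a b, a ≠ b → S a b = {f a, f b} := by
  classical
  have h24 : Fintype.card GolayPt = 24 := by decide
  have hex : ∀ T : Finset GolayPt, T.card < 24 → ∃ b, b ∉ T := by
    intro T hT
    by_contra hcon
    push Not at hcon
    have : T = Finset.univ := Finset.eq_univ_of_forall hcon
    rw [this, Finset.card_univ, h24] at hT
    exact absurd hT (lt_irrefl _)
  have hint : ∀ a b c, a ≠ b → a ≠ c → b ≠ c → (S a b ∩ S a c).card = 1 := by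
    intro a b c hab hac hbc
    have h3 := cardSD (S a b) (S a c)
    rw [← ht a b c hab hac hbc, h2 b c hbc, h2 a b hab, h2 a c hac] at h3
    omega
  -- the star
  have hstar : ∀ a, ∃ u, ∀ b, b ≠ a → u ∈ S a b := by
    intro a
    obtain ⟨b1, hb1⟩ := hex {a} (by simp)
    rw [Finset.mem_singleton] at hb1
    obtain ⟨b2, hb2⟩ := hex {a, b1} (by
      have := Finset.card_le_two (a := a) (b := b1)
      omega)
    simp only [Finset.mem_insert, Finset.mem_singleton, not_or] at hb2
    obtain ⟨u, hu⟩ := Finset.card_eq_one.1 (hint a b1 b2 (Ne.symm hb1) (Ne.symm hb2.1)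
      (Ne.symm hb2.2))
    have hu1 : u ∈ S a b1 := (Finset.mem_inter.1 (hu ▸ Finset.mem_singleton_self u)).1
    have hu2 : u ∈ S a b2 := (Finset.mem_inter.1 (hu ▸ Finset.mem_singleton_self u)).2
    -- description of the members of the family missing `u`
    have hmiss : ∀ b, b ≠ a → u ∉ S a b → S a b = symmDiff (S a b1) (S a b2) := by
      intro b hba hub
      have hb1' : b1 ≠ b := by rintro rfl; exact hub hu1
      have hb2' : b2 ≠ b := by rintro rfl; exact hub hu2
      have i1 := hint a b1 b (Ne.symm hb1) (Ne.symm hba) hb1'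
      have i2 := hint a b2 b (Ne.symm hb2.1) (Ne.symm hba) hb2'
      obtain ⟨v, hv⟩ := Finset.card_eq_one.1 i1
      obtain ⟨w, hw⟩ := Finset.card_eq_one.1 i2
      have hv1 := Finset.mem_inter.1 (hv ▸ Finset.mem_singleton_self v)
      have hw1 := Finset.mem_inter.1 (hw ▸ Finset.mem_singleton_self w)
      have hvu : v ≠ u := by rintro rfl; exact hub hv1.2
      have hwu : w ≠ u := by rintro rfl; exact hub hw1.2
      have hv2 : v ∉ S a b2 := by
        intro h
        have : v ∈ S a b1 ∩ S a b2 := Finset.mem_inter.2 ⟨hv1.1, h⟩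
        rw [hu, Finset.mem_singleton] at this
        exact hvu this
      have hw2 : w ∉ S a b1 := by
        intro h
        have : w ∈ S a b1 ∩ S a b2 := Finset.mem_inter.2 ⟨h, hw1.1⟩
        rw [hu, Finset.mem_singleton] at this
        exact hwu this
      have hvw : v ≠ w := by rintro rfl; exact hw2 hv1.1
      have e1 : ({v, w} : Finset GolayPt) = S a b := by
        apply Finset.eq_of_subset_of_card_le
        · intro z hz
          rw [Finset.mem_insert, Finset.mem_singleton] at hz
          rcases hz with rfl | rfl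
          · exact hv1.2
          · exact hw1.2
        · rw [h2 a b (Ne.symm hba), Finset.card_pair hvw]
      have e2 : ({v, w} : Finset GolayPt) = symmDiff (S a b1) (S a b2) := by
        apply Finset.eq_of_subset_of_card_le
        · intro z hz
          rw [Finset.mem_insert, Finset.mem_singleton] at hz
          rw [Finset.mem_symmDiff]
          rcases hz with rfl | rfl
          · exact Or.inl ⟨hv1.1, hv2⟩
          · exact Or.inr ⟨hw1.1, hw2⟩
        · rw [← ht a b1 b2 (Ne.symm hb1) (Ne.symm hb2.1) (Ne.symm hb2.2),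
            h2 b1 b2 (Ne.symm hb2.2), Finset.card_pair hvw]
      rw [← e1, e2]
    refine ⟨u, fun b hba => ?_⟩
    by_contra hub
    have e1 := hmiss b hba hub
    -- a further element
    obtain ⟨b4, hb4⟩ := hex {a, b1, b2, b} (by
      have h4 := Finset.card_le_four (a := a) (b := b1) (c := b2) (d := b)
      omega)
    simp only [Finset.mem_insert, Finset.mem_singleton, not_or] at hb4
    by_cases hu4 : u ∈ S a b4
    · -- `S a b4 = {u, z}` meets `S a b`
      obtain ⟨z, hz⟩ := Finset.card_eq_one.1 (hint a b4 b (Ne.symm hb4.1) (Ne.symm hba) hb4.2.2.2)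
      have hz1 := Finset.mem_inter.1 (hz ▸ Finset.mem_singleton_self z)
      have hzu : z ≠ u := by rintro rfl; exact hub hz1.2
      rw [e1, Finset.mem_symmDiff] at hz1
      have hpair : ∀ c, c ≠ b4 → c ≠ a → u ∈ S a c → z ∈ S a c → False := by
        intro c hc hca huc hzc
        have hi := hint a c b4 (Ne.symm hca) (Ne.symm hb4.1) hc
        have hsub : ({u, z} : Finset GolayPt) ⊆ S a c ∩ S a b4 := by
          intro y hy
          rw [Finset.mem_insert, Finset.mem_singleton] at hy
          rcases hy with rfl | rfl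
          · exact Finset.mem_inter.2 ⟨huc, hu4⟩
          · exact Finset.mem_inter.2 ⟨hzc, hz1.1⟩
        have := Finset.card_le_card hsub
        rw [Finset.card_pair (Ne.symm hzu)] at this
        omega
      rcases hz1.2 with h | h
      · exact hpair b1 (Ne.symm hb4.2.1) hb1 hu1 h.1
      · exact hpair b2 (Ne.symm hb4.2.2.1) hb2.1 hu2 h.1
    · have e2 := hmiss b4 hb4.1 hu4
      have hi := hint a b4 b (Ne.symm hb4.1) (Ne.symm hba) hb4.2.2.2
      rw [e2, e1, Finset.inter_self, ← ht a b1 b2 (Ne.symm hb1) (Ne.symm hb2.1) (Ne.symm hb2.2),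
        h2 b1 b2 (Ne.symm hb2.2)] at hi
      omega
  choose f hf using hstar
  have hne : ∀ a b, a ≠ b → f a ≠ f b := by
    intro a b hab he
    obtain ⟨c, hc⟩ := hex {a, b} (by
      have := Finset.card_le_two (a := a) (b := b)
      omega)
    simp only [Finset.mem_insert, Finset.mem_singleton, not_or] at hc
    have h3 := ht a b c hab (Ne.symm hc.1) (Ne.symm hc.2)
    have h4 : f b ∈ S b c := hf b c hc.2
    rw [h3, Finset.mem_symmDiff, ← he] at h4
    have h5 := hf a b (Ne.symm hab)
    have h6 := hf a c hc.1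
    rcases h4 with h4 | h4
    · exact h4.2 h6
    · exact h4.2 h5
  refine ⟨f, fun a b h => by_contra fun hab => hne a b hab h, fun a b hab => ?_⟩
  symm
  apply Finset.eq_of_subset_of_card_le
  · intro z hz
    rw [Finset.mem_insert, Finset.mem_singleton] at hz
    rcases hz with rfl | rfl
    · exact hf a b (Ne.symm hab)
    · rw [hs a b hab]
      exact hf b a hab
  · rw [h2 a b hab, Finset.card_pair (hne a b hab)]

/-- Let X be a group of linear automorphisms of the length-24 binary Golay code of the definitions that fix the all-ones word, containing the coordinate-permutation action of every element of the code's automorphism group (the Mathieu group of degree 24), and such that every element of X sends each codeword into its orbit under that Mathieu group up to adding the all-ones word (X has the same orbits as the Mathieu group on the code modulo the all-ones word). Then every element of X agrees, modulo the all-ones word, with the action of a single element of the Mathieu group: X induces exactly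 the Mathieu group on the code modulo the all-ones word. -/
theorem result (X : Subgroup (↥Cfsg.golayCode ≃ₗ[ZMod 2] ↥Cfsg.golayCode)) (h1 : ∀ x ∈ X, ∀ e : ↥Cfsg.golayCode, (e : (Cfsg.GolayPt → ZMod 2)) = (fun _ => (1 : ZMod 2)) → x e = e) (hM : ∀ σ ∈ Cfsg.M24, ∃ x ∈ X, ∀ c : ↥Cfsg.golayCode, ((x c : ↥Cfsg.golayCode) : (Cfsg.GolayPt → ZMod 2)) = fun p => (c : (Cfsg.GolayPt → ZMod 2)) (σ.symm p)) (horb : ∀ x ∈ X, ∀ c : ↥Cfsg.golayCode, ∃ σ ∈ Cfsg.M24, ((x c : ↥Cfsg.golayCode) : (Cfsg.GolayPt → ZMod 2)) = (fun p => (c : (Cfsg.GolayPt → ZMod 2)) (σ.symm p)) ∨ ((x c : ↥Cfsg.golayCode) : (Cfsg.GolayPt → ZMod 2)) = (fun p => (c : (Cfsg.GolayPt → ZMod 2)) (σ.symm p)) + fun _ => (1 : ZMod 2)) (x : ↥Cfsg.golayCode ≃ₗ[ZMod 2] ↥Cfsg.golayCode) (hx : x ∈ X) : ∃ σ ∈ Cfsg.M24, ∀ c : ↥Cfsg.golayCode, ((x c : ↥Cfsg.golayCode) : (Cfsg.GolayPt → ZMod 2)) = (fun p => (c : (Cfsg.GolayPt → ZMod 2)) (σ.symm p)) ∨ ((x c : ↥Cfsg.golayCode) : (Cfsg.GolayPt → ZMod 2)) = (fun p => (c : (Cfsg.GolayPt → ZMod 2)) (σ.symm p)) + fun _ =>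 (1 : ZMod 2) := by
  have he1 : x e1 = e1 := h1 x hx e1 rfl
  have h24 : Fintype.card GolayPt = 24 := by decide
  have hw : ∀ c : ↥golayCode, (support₂ (x c : GolayPt → ZMod 2)).card =
        (support₂ (c : GolayPt → ZMod 2)).card ∨
      (support₂ (x c : GolayPt → ZMod 2)).card = 24 - (support₂ (c : GolayPt → ZMod 2)).card := by
    intro c
    obtain ⟨σ, -, h | h⟩ := horb x hx c
    · left
      rw [h, supp_perm, Finset.card_smul_finset]
    · right
      rw [h]
      have h3 : support₂ ((fun p => (c : GolayPt → ZMod 2) (σ.symm p)) + fun _ => (1 : ZMod 2)) =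
          symmDiff (σ • support₂ (c : GolayPt → ZMod 2)) Finset.univ := by
        rw [← supp_one, ← supp_perm, ← supp_add]
        rfl
      rw [h3]
      have h4 : symmDiff (σ • support₂ (c : GolayPt → ZMod 2)) Finset.univ =
        (σ • support₂ (c : GolayPt → ZMod 2))ᶜ := symmDiff_top _
      rw [h4, Finset.card_compl, Finset.card_smul_finset, h24]
  have hp := fun a b (hab : a ≠ b) => pair_pair x he1 hw (a := a) (b := b) hab
  choose! S hS2 hSc using hp
  have hsd : ∀ T : Finset GolayPt, (∀ c : ↥golayCode, cs T (c : GolayPt → ZMod 2) = 0) →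
      T.card < 8 → T = ∅ := fun T h h8 => sd_eq_empty (fun c hc => h ⟨c, hc⟩) h8
  have hsym : ∀ a b, a ≠ b → S a b = S b a := by
    intro a b hab
    have h3 : symmDiff (S a b) (S b a) = ∅ := by
      apply hsd
      · intro c
        rw [cs_symmDiff, ← hSc a b hab, ← hSc b a hab.symm]
        generalize (x c : GolayPt → ZMod 2) a = u
        generalize (x c : GolayPt → ZMod 2) b = v
        revert u v
        decide
      · have h4 := cardSD (S a b) (S b a)
        rw [hS2 a b hab, hS2 b a hab.symm] at h4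
        omega
    exact symmDiff_eq_bot.1 h3
  have htri : ∀ a b c, a ≠ b → a ≠ c → b ≠ c → S b c = symmDiff (S a b) (S a c) := by
    intro a b c hab hac hbc
    have h3 : symmDiff (S b c) (symmDiff (S a b) (S a c)) = ∅ := by
      apply hsd
      · intro d
        rw [cs_symmDiff, cs_symmDiff, ← hSc a b hab, ← hSc a c hac, ← hSc b c hbc]
        generalize (x d : GolayPt → ZMod 2) a = u
        generalize (x d : GolayPt → ZMod 2) b = v
        generalize (x d : GolayPt → ZMod 2) c = w
        revert u v w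
        decide
      · have h4 := cardSD (S b c) (symmDiff (S a b) (S a c))
        have h5 := cardSD (S a b) (S a c)
        rw [hS2 a b hab, hS2 a c hac] at h5
        rw [hS2 b c hbc] at h4
        omega
    exact symmDiff_eq_bot.1 h3
  obtain ⟨f, hfi, hf⟩ := extract S hS2 hsym htri
  have hfb : Function.Bijective f := Finite.injective_iff_bijective.1 hfi
  set e : Equiv.Perm GolayPt := Equiv.ofBijective f hfb with he
  have hef : ∀ p, e p = f p := fun p => rfl
  -- the difference is constant
  have hdiff : ∀ (c : ↥golayCode) (a b : GolayPt), (x c : GolayPt → ZMod 2) a +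
      (c : GolayPt → ZMod 2) (f a) = (x c : GolayPt → ZMod 2) b + (c : GolayPt → ZMod 2) (f b) := by
    intro c a b
    by_cases hab : a = b
    · rw [hab]
    have h3 := hSc a b hab c
    rw [hf a b hab, cs_pair (hfi.ne hab)] at h3
    generalize (x c : GolayPt → ZMod 2) a = u at *
    generalize (x c : GolayPt → ZMod 2) b = v at *
    generalize (c : GolayPt → ZMod 2) (f a) = w at *
    generalize (c : GolayPt → ZMod 2) (f b) = z at *
    revert u v w z
    decide
  have hcase : ∀ c : ↥golayCode, (x c : GolayPt → ZMod 2) = (fun p => (c : GolayPt → ZMod 2) (e p)) ∨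
      (x c : GolayPt → ZMod 2) = (fun p => (c : GolayPt → ZMod 2) (e p)) + fun _ => (1 : ZMod 2) := by
    intro c
    by_cases h0 : (x c : GolayPt → ZMod 2) none + (c : GolayPt → ZMod 2) (f none) = 0
    · left
      funext p
      have h3 := hdiff c p none
      rw [h0] at h3
      show _ = (c : GolayPt → ZMod 2) (f p)
      generalize (x c : GolayPt → ZMod 2) p = u at *
      generalize (c : GolayPt → ZMod 2) (f p) = v at *
      revert u v
      decide
    · right
      funext p
      have h3 := hdiff c p none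
      rw [← h3] at h0
      show _ = (c : GolayPt → ZMod 2) (f p) + 1
      generalize (x c : GolayPt → ZMod 2) p = u at *
      generalize (c : GolayPt → ZMod 2) (f p) = v at *
      clear h3
      revert u v
      decide
  refine ⟨e⁻¹, ?_, hcase⟩
  rw [mem_M24_iff]
  intro s hs
  obtain ⟨c, rfl⟩ := supp_surj s
  have hc : c ∈ golayCode := support_mem_GC.1 hs
  rw [← supp_perm, support_mem_GC]
  have h5 : (fun p => c ((e⁻¹).symm p)) = fun p => c (e p) := rfl
  rw [h5]
  rcases hcase ⟨c, hc⟩ with h | h
  · have h6 : (fun p => c (e p)) = (x ⟨c, hc⟩ : GolayPt → ZMod 2) := h.symm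
    rw [h6]
    exact (x ⟨c, hc⟩).2
  · have h6 : (fun p => c (e p)) = ((x ⟨c, hc⟩ + e1 : ↥golayCode) : GolayPt → ZMod 2) := by
      funext p
      have h7 := congrFun h p
      show c (e p) = (x ⟨c, hc⟩ : GolayPt → ZMod 2) p + 1
      rw [h7]
      show c (e p) = c (e p) + 1 + 1
      generalize c (e p) = a
      revert a
      decide
    rw [h6]
    exact (x ⟨c, hc⟩ + e1).2

end Cfsg.Agent.S5549
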