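import Cfsg.Statements.S5550
import Cfsg.Agent.H29.GCInv
import Cfsg.Agent.H29.M24Sets

set_option autoImplicit false
open Cfsg

namespace Cfsg.Agent.S5550

open Cfsg.Agent.H7 Cfsg.Agent.H29
open scoped Pointwise

def P (s : Finset GolayPt) : Prop :=
  ∀ w : Finset GolayPt, w ∉ GC → ∃ σ ∈ M24, σ • s = s ∧ symmDiff (σ • w) w ∉ GC

def chk (c d k : ℕ) : Bool :=
  Nat.beq k 0 || !(isCW (pimg c (4096 * k) ^^^ (4096 * k))) ||
    !(isCW (pimg d (4096 * k) ^^^ (4096 * k)))

theorem P_std {m c d : ℕ} (hc : okPerm c = true) (hd : okPerm d = true) (hcm : pimg c m = m)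
    (hdm : pimg d m = m) (hk : allBin 12 (chk c d) 0 = true) : P (toSet m) := by
  intro w hw
  obtain ⟨n, hn, rfl⟩ := toSet_surj w
  have hlt : n % 4096 < 4096 := Nat.mod_lt _ (by norm_num)
  have h1 := enc_mod_all (n % 4096) hlt
  have h2 := enc_lt (n % 4096)
  set e := enc (n % 4096) with he
  have hr0 : (n ^^^ e) % 4096 = 0 := by
    have h3 := Nat.xor_mod_two_pow (a := n) (b := e) (n := 12)
    have h4 : (2 : ℕ) ^ 12 = 4096 := by norm_num
    rw [h4, h1, Nat.xor_self] at h3
    exact h3
  have hr1 : n ^^^ e < 16777216 := by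
    have := Nat.xor_lt_two_pow (n := 24) (x := n) (y := e) (by norm_num; exact hn)
      (by norm_num; exact h2)
    norm_num at this
    exact this
  have hrk : n ^^^ e = 4096 * ((n ^^^ e) / 4096) := by omega
  set k := (n ^^^ e) / 4096 with hkdef
  have hk4 : k < 4096 := by omega
  have hne : n = (n ^^^ e) ^^^ e := by rw [Nat.xor_assoc, Nat.xor_self, Nat.xor_zero]
  have hecw : isCW e = true := isCW_iff.2 ⟨_, hlt, rfl⟩
  have heG : toSet e ∈ GC := mem_GC_mask.2 ⟨e, hecw, rfl⟩
  have hk0 : k ≠ 0 := by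
    intro h0
    apply hw
    rw [h0, mul_zero] at hrk
    rw [hne, hrk, Nat.zero_xor]
    exact heG
  have h5 := allBin_lt hk k (by norm_num; exact hk4)
  unfold chk at h5
  rw [Bool.or_eq_true, Bool.or_eq_true] at h5
  have key : ∀ c : ℕ, okPerm c = true → pimg c m = m →
      (!(isCW (pimg c (4096 * k) ^^^ (4096 * k)))) = true →
      ∃ σ ∈ M24, σ • toSet m = toSet m ∧ symmDiff (σ • toSet n) (toSet n) ∉ GC := by
    intro c hc hcm h6
    refine ⟨mkPerm c, mkPerm_mem_M24 hc, ?_, ?_⟩
    · rw [smul_toSet (okPerm_isPerm hc), hcm]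
    · intro h7
      have h8 : mkPerm c • toSet e ∈ GC := M24_smul_mem (mkPerm_mem_M24 hc) heG
      have h9 : symmDiff (mkPerm c • toSet n) (toSet n) =
          symmDiff (symmDiff (mkPerm c • toSet (4096 * k)) (toSet (4096 * k)))
            (symmDiff (mkPerm c • toSet e) (toSet e)) := by
        conv_lhs => rw [hne, hrk, toSet_xor, smul_symmDiff']
        rw [symmDiff_symmDiff_symmDiff_comm]
      rw [h9] at h7
      have h10 := GC_symmDiff h7 (GC_symmDiff h8 heG)
      rw [symmDiff_assoc, symmDiff_self] at h10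
      have h11 : symmDiff (mkPerm c • toSet (4096 * k)) (toSet (4096 * k)) ∈ GC := by
        rwa [show symmDiff (symmDiff (mkPerm c • toSet (4096 * k)) (toSet (4096 * k))) ⊥ =
          symmDiff (mkPerm c • toSet (4096 * k)) (toSet (4096 * k)) from symmDiff_bot _] at h10
      rw [smul_toSet (okPerm_isPerm hc), ← toSet_xor] at h11
      have hlt2 : pimg c (4096 * k) ^^^ (4096 * k) < 16777216 := by
        have := Nat.xor_lt_two_pow (n := 24) (x := pimg c (4096 * k)) (y := 4096 * k)
          (by norm_num; exact pimg_lt (okPerm_isPerm hc)) (by norm_num; omega)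
        norm_num at this
        exact this
      rw [toSet_mem_GC hlt2] at h11
      rw [h11] at h6
      exact absurd h6 (by decide)
  rcases h5 with (h5 | h5) | h5
  · rw [Nat.beq_eq] at h5
    exact absurd h5 hk0
  · exact key c hc hcm h5
  · exact key d hd hdm h5

theorem P_conj {s : Finset GolayPt} (h : P s) {τ : Equiv.Perm GolayPt} (hτ : τ ∈ M24) :
    P (τ • s) := by
  intro w hw
  have hw' : τ⁻¹ • w ∉ GC := by
    intro h1
    apply hw
    have := M24_smul_mem hτ h1
    rwa [smul_inv_smul] at this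
  obtain ⟨σ, hσ, h1, h2⟩ := h _ hw'
  refine ⟨τ * σ * τ⁻¹, M24.mul_mem (M24.mul_mem hτ hσ) (M24.inv_mem hτ), ?_, ?_⟩
  · rw [mul_smul, mul_smul, inv_smul_smul, h1]
  · intro h3
    apply h2
    have h4 := M24_smul_mem (M24.inv_mem hτ) h3
    rw [smul_symmDiff', mul_smul, mul_smul, inv_smul_smul] at h4
    exact h4

theorem smul_compl (σ : Equiv.Perm GolayPt) (s : Finset GolayPt) : σ • sᶜ = (σ • s)ᶜ := by
  ext p
  rw [Finset.mem_compl, ← Finset.inv_smul_mem_iff, Finset.mem_compl, ← Finset.inv_smul_mem_iff]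

theorem P_compl {s : Finset GolayPt} (h : P s) : P sᶜ := by
  intro w hw
  obtain ⟨σ, hσ, h1, h2⟩ := h w hw
  exact ⟨σ, hσ, by rw [smul_compl, h1], h2⟩

theorem P_oct : P (toSet 8536111) :=
  P_std (c := 0xba8cf831c75c5a4aced44a07200445) (d := 0x149b54bdc758516a3264542e688ca0)
    (by decide +kernel) (by decide +kernel) (by decide +kernel) (by decide +kernel)
    (by decide +kernel)

theorem P_dod : P (toSet 11472927) :=
  P_std (c := 0x236689321533ce2b168b7254105e23) (d := 0x9522b24262539b74bca7b20d560061)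
    (by decide +kernel) (by decide +kernel) (by decide +kernel) (by decide +kernel)
    (by decide +kernel)

theorem P_all {s : Finset GolayPt} (hs : s ∈ GC) : P s := by
  have ho : toSet 8536111 ∈ octads := mem_GC_octad (by decide +kernel) (by decide +kernel)
  have hd : toSet 11472927 ∈ dodecads :=
    mem_dodecads.2 ⟨mem_GC_mask.2 ⟨_, by decide +kernel, rfl⟩, by
      rw [card_toSet]; decide +kernel⟩
  have h8 : ∀ o ∈ octads, P o := by
    intro o ho'
    obtain ⟨τ, hτ, rfl⟩ := octad_transitive ho ho'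
    exact P_conj P_oct hτ
  have h0 : P ∅ := by
    intro w hw
    obtain ⟨σ, hσ, -, h2⟩ := P_oct w hw
    exact ⟨σ, hσ, Finset.smul_finset_empty σ, h2⟩
  rcases GC_weights s hs with h | h | h | h | h
  · rw [Finset.card_eq_zero.1 h]
    exact h0
  · exact h8 s (mem_octads.2 ⟨hs, h⟩)
  · obtain ⟨τ, hτ, rfl⟩ := dodecad_transitive hd (mem_dodecads.2 ⟨hs, h⟩)
    exact P_conj P_dod hτ
  · have h1 : sᶜ ∈ octads := by
      refine mem_octads.2 ⟨GC_compl hs, ?_⟩
      rw [Finset.card_compl, h]
      rfl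
    have h2 := P_compl (h8 _ h1)
    rwa [compl_compl] at h2
  · have h1 : s = Finset.univ := by
      rw [← Finset.card_eq_iff_eq_univ, h]
      rfl
    rw [h1, ← Finset.compl_empty]
    exact P_compl h0

/-- Let u be a word of the length-24 binary Golay code of the definitions (possibly zero or all-ones) and w any binary word of length 24 outside the code. Then some automorphism of the code (a coordinate permutation preserving it) fixes u but moves w to a word not congruent to w modulo the code: the stabilizer of a codeword fixes no non-zero element of the quotient of the space of all words by the code. -/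
theorem result (u : (Cfsg.GolayPt → ZMod 2)) (hu : u ∈ Cfsg.golayCode) (w : (Cfsg.GolayPt → ZMod 2)) (hw : w ∉ Cfsg.golayCode) : ∃ σ ∈ Cfsg.M24, (fun p => u (σ.symm p)) = u ∧ (fun p => w (σ.symm p)) - w ∉ Cfsg.golayCode := by
  have hs : Cfsg.support₂ u ∈ Cfsg.Agent.H7.GC := Cfsg.Agent.H7.support_mem_GC.2 hu
  obtain ⟨σ, hσ, h1, h2⟩ := P_all hs (Cfsg.support₂ w)
    (fun h => hw (Cfsg.Agent.H7.support_mem_GC.1 h))
  refine ⟨σ, hσ, ?_, ?_⟩
  · apply Cfsg.Agent.H7.support₂_injective
    rw [Cfsg.Agent.H29.supp_perm, h1]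
  · intro h3
    apply h2
    have h4 := Cfsg.Agent.H7.support_mem_GC.2 h3
    have h5 : Cfsg.support₂ ((fun p => w (σ.symm p)) - w) =
        symmDiff (σ • Cfsg.support₂ w) (Cfsg.support₂ w) := by
      rw [Cfsg.Agent.H29.supp_sub, Cfsg.Agent.H29.supp_perm]
    rwa [h5] at h4

end Cfsg.Agent.S5550
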