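import Cfsg.Statements.S5599
import Cfsg.Agent.H29.M24List

set_option autoImplicit false
open scoped Pointwise
open Cfsg

namespace Cfsg.Agent.S5599

open Cfsg Cfsg.Agent.H7 Cfsg.Agent.H29
open scoped Pointwise

theorem ne0 : (none : GolayPt) ≠ some 0 := by simp

theorem mem_M22 {σ : Equiv.Perm GolayPt} : σ ∈ Spor.M22 ↔ σ ∈ M24 ∧ σ none = none ∧ σ (some 0) = some 0 := by
  constructor
  · rintro ⟨⟨h1, h2⟩, h3⟩; exact ⟨h1, h2, h3⟩
  · rintro ⟨h1, h2, h3⟩; exact ⟨⟨h1, h2⟩, h3⟩

theorem mem_L {σ : Equiv.Perm GolayPt} :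
    σ ∈ (M24 ⊓ MulAction.stabilizer (Equiv.Perm GolayPt) ({none, some 0} : Finset GolayPt)) ↔
    σ ∈ M24 ∧ ((σ none = none ∧ σ (some 0) = some 0) ∨ (σ none = some 0 ∧ σ (some 0) = none)) := by
  rw [Subgroup.mem_inf]
  refine and_congr_right fun _ => ?_
  show σ • ({none, some 0} : Finset GolayPt) = {none, some 0} ↔ _
  rw [Finset.smul_finset_insert, Finset.smul_finset_singleton]
  show ({σ none, σ (some 0)} : Finset GolayPt) = {none, some 0} ↔ _
  constructor
  · intro h
    have h1 : σ none ∈ ({none, some 0} : Finset GolayPt) := by rw [← h]; simp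
    have h2 : σ (some 0) ∈ ({none, some 0} : Finset GolayPt) := by rw [← h]; simp
    have h3 : σ none ≠ σ (some 0) := fun h' => ne0 (σ.injective h')
    rw [Finset.mem_insert, Finset.mem_singleton] at h1 h2
    rcases h1 with h1 | h1 <;> rcases h2 with h2 | h2
    · exact absurd (h1.trans h2.symm) h3
    · exact Or.inl ⟨h1, h2⟩
    · exact Or.inr ⟨h1, h2⟩
    · exact absurd (h1.trans h2.symm) h3
  · rintro (⟨h1, h2⟩ | ⟨h1, h2⟩)
    · rw [h1, h2]
    · rw [h1, h2]; exact Finset.pair_comm _ _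

theorem index2 (g : Equiv.Perm GolayPt) (hg : g ∈ M24) (h₁ : g none = some 0) (h₂ : g (some 0) = none) :
    Spor.M22.relIndex (M24 ⊓ MulAction.stabilizer (Equiv.Perm GolayPt) ({none, some 0} : Finset GolayPt)) = 2 := by
  set L := M24 ⊓ MulAction.stabilizer (Equiv.Perm GolayPt) ({none, some 0} : Finset GolayPt) with hL
  have h := card_step' L (none : GolayPt) ({none, some 0} : Set GolayPt)
    (fun σ hσ => by
      rcases (mem_L.1 hσ).2 with h | h
      · exact Or.inl h.1
      · exact Or.inr h.1)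
    (fun q hq => by
      rcases hq with rfl | hq
      · exact ⟨1, L.one_mem, rfl⟩
      · rw [Set.mem_singleton_iff] at hq
        subst hq
        exact ⟨g, mem_L.2 ⟨hg, Or.inr ⟨h₁, h₂⟩⟩, h₁⟩)
  rw [Set.ncard_pair ne0] at h
  have e : (L ⊓ MulAction.stabilizer (Equiv.Perm GolayPt) (none : GolayPt)) = Spor.M22 := by
    ext σ
    rw [Subgroup.mem_inf, mem_L, mem_M22]
    constructor
    · rintro ⟨⟨h1, h2⟩, h3⟩
      have h3 : σ none = none := h3
      rcases h2 with h2 | h2
      · exact ⟨h1, h2⟩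
      · rw [h3] at h2
        exact absurd h2.1 ne0
    · rintro ⟨h1, h2, h3⟩
      exact ⟨⟨h1, Or.inl ⟨h2, h3⟩⟩, h2⟩
  rw [e] at h
  have hle : Spor.M22 ≤ L := by rw [← e]; exact inf_le_left
  have h3 := Subgroup.relIndex_mul_relIndex ⊥ Spor.M22 L bot_le hle
  rw [Subgroup.relIndex_bot_left, Subgroup.relIndex_bot_left, h, mul_comm] at h3
  exact Nat.eq_of_mul_eq_mul_right Nat.card_pos h3

theorem fix_all {k : Equiv.Perm GolayPt} (hk : ∀ x ∈ Spor.M22, k * x = x * k)
    (hk1 : k none = some 0) (hk2 : k (some 0) = none) (p : GolayPt) (hp1 : p ≠ none)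
    (hp2 : p ≠ some 0) : k p = p := by
  by_contra hne
  have h1 : k p ≠ none := by rw [← hk2]; exact fun h => hp2 (k.injective h)
  have h2 : k p ≠ some 0 := by rw [← hk1]; exact fun h => hp1 (k.injective h)
  obtain ⟨s, hs⟩ : ∃ s : GolayPt, s ∉ ({none, some 0, p, k p} : Finset GolayPt) := by
    by_contra hcon
    push Not at hcon
    have : (Finset.univ : Finset GolayPt).card ≤ ({none, some 0, p, k p} : Finset GolayPt).card :=
      Finset.card_le_card (fun x _ => hcon x)
    have h3 : ({none, some 0, p, k p} : Finset GolayPt).card ≤ 4 := Finset.card_le_four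
    have h4 : (Finset.univ : Finset GolayPt).card = 24 := rfl
    omega
  simp only [Finset.mem_insert, Finset.mem_singleton, not_or] at hs
  obtain ⟨hs1, hs2, hs3, hs4⟩ := hs
  obtain ⟨σ, hσ, h⟩ := M24_mapn (n := 4) (by norm_num) ![none, some 0, p, k p] ![none, some 0, p, s]
    (by
      intro i j hij
      fin_cases i <;> fin_cases j <;> first | rfl | (exfalso; revert hij; simp [hp1, hp2, hp1.symm, hp2.symm, h1, h2, h1.symm, h2.symm, hne, Ne.symm hne])
      )
    (by
      intro i j hij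
      fin_cases i <;> fin_cases j <;> first | rfl | (exfalso; revert hij; simp [hp1, hp2, hp1.symm, hp2.symm, hs1, hs2, hs3, Ne.symm hs1, Ne.symm hs2, Ne.symm hs3]))
  have e0 : σ none = none := h 0
  have e1 : σ (some 0) = some 0 := h 1
  have e2 : σ p = p := h 2
  have e3 : σ (k p) = s := h 3
  have h5 := hk σ (mem_M22.2 ⟨hσ, e0, e1⟩)
  have h6 := congrArg (fun f => f p) h5
  have h6 : k (σ p) = σ (k p) := h6
  rw [e2, e3] at h6
  exact hs4 h6.symm

/-- In the automorphism group of the length-24 code, the two-point Mathieu group (permutations of the code's group fixing the extra point and the residue 0) has index 2 in the setwise stabiliser of that pair of points, and an element of the code's group interchanging the two points normalises the two-point group and induces on it, by conjugation, an automorphism that is not inner. -/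
theorem result (g : Equiv.Perm Cfsg.GolayPt) (hg : g ∈ Cfsg.M24) (h₁ : g none = some 0) (h₂ : g (some 0) = none) : Cfsg.Spor.M22.relIndex (Cfsg.M24 ⊓ MulAction.stabilizer (Equiv.Perm Cfsg.GolayPt) ({none, some 0} : Finset Cfsg.GolayPt)) = 2 ∧ (∀ x ∈ Cfsg.Spor.M22, g * x * g⁻¹ ∈ Cfsg.Spor.M22) ∧ ¬ ∃ h ∈ Cfsg.Spor.M22, ∀ x ∈ Cfsg.Spor.M22, g * x * g⁻¹ = h * x * h⁻¹ := by
  refine ⟨index2 g hg h₁ h₂, ?_, ?_⟩
  · intro x hx
    obtain ⟨hx1, hx2, hx3⟩ := mem_M22.1 hx
    have i1 : g⁻¹ none = some 0 := by rw [Equiv.Perm.inv_eq_iff_eq, h₂]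
    have i2 : g⁻¹ (some 0) = none := by rw [Equiv.Perm.inv_eq_iff_eq, h₁]
    refine mem_M22.2 ⟨M24.mul_mem (M24.mul_mem hg hx1) (M24.inv_mem hg), ?_, ?_⟩
    · show g (x (g⁻¹ none)) = none
      rw [i1, hx3, h₂]
    · show g (x (g⁻¹ (some 0))) = some 0
      rw [i2, hx2, h₁]
  · rintro ⟨h, hh, hc⟩
    obtain ⟨hh1, hh2, hh3⟩ := mem_M22.1 hh
    have hk : ∀ x ∈ Spor.M22, (h⁻¹ * g) * x = x * (h⁻¹ * g) := by
      intro x hx
      have h1 := hc x hx
      have h2 : h⁻¹ * (g * x * g⁻¹) * g = h⁻¹ * (h * x * h⁻¹) * g := by rw [h1]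
      have h3 : h⁻¹ * (g * x * g⁻¹) * g = h⁻¹ * g * x := by group
      have h4 : h⁻¹ * (h * x * h⁻¹) * g = x * (h⁻¹ * g) := by group
      rw [← h3, h2, h4]
    have j1 : h⁻¹ none = none := by rw [Equiv.Perm.inv_eq_iff_eq, hh2]
    have j2 : h⁻¹ (some 0) = some 0 := by rw [Equiv.Perm.inv_eq_iff_eq, hh3]
    have k1 : (h⁻¹ * g) none = some 0 := by rw [Equiv.Perm.mul_apply, h₁, j2]
    have k2 : (h⁻¹ * g) (some 0) = none := by rw [Equiv.Perm.mul_apply, h₂, j1]
    have h5 : h⁻¹ * g = 1 := by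
      apply M24_fix9 (M24.mul_mem (M24.inv_mem hh1) hg)
      have h6 : (Finset.univ \ {none, some 0} : Finset GolayPt) ⊆
          Finset.univ.filter fun p => (h⁻¹ * g) p = p := by
        intro p hp
        simp only [Finset.mem_sdiff, Finset.mem_univ, true_and, Finset.mem_insert,
          Finset.mem_singleton, not_or] at hp
        rw [Finset.mem_filter]
        exact ⟨Finset.mem_univ _, fix_all hk k1 k2 p hp.1 hp.2⟩
      refine le_trans ?_ (Finset.card_le_card h6)
      decide +kernel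
    rw [h5] at k1
    exact ne0 k1

end Cfsg.Agent.S5599
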