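import Cfsg.Statements.S5600
import Cfsg.Agent.H29.M24Hex

set_option autoImplicit false
open scoped Pointwise
open Cfsg

namespace Cfsg.Agent.S5600

open Cfsg.Agent.H7 Cfsg.Agent.H29

theorem extend_perm (E : Finset Cfsg.GolayPt) (hE : E.card = 6) (σ : Equiv.Perm ↥E) :
    ∃ g ∈ Cfsg.M24, ∀ p : ↥E, g p = σ p := by
  have e : Fin 6 ≃ ↥E := (E.equivFinOfCardEq hE).symm
  obtain ⟨g, hg, h⟩ := hex_map (fun i => (e i : Cfsg.GolayPt)) (fun i => (σ (e i) : Cfsg.GolayPt))
    (fun i j h => e.injective (Subtype.ext h))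
    (fun i j h => e.injective (σ.injective (Subtype.ext h))) (by
      constructor
      · rintro ⟨o, ho, h⟩
        refine ⟨o, ho, fun i => ?_⟩
        have := h (e.symm (σ (e i)))
        rwa [e.apply_symm_apply] at this
      · rintro ⟨o, ho, h⟩
        refine ⟨o, ho, fun i => ?_⟩
        have := h (e.symm (σ.symm (e i)))
        rwa [e.apply_symm_apply, σ.apply_symm_apply] at this)
  refine ⟨g, hg, fun p => ?_⟩
  have := h (e.symm p)
  rwa [e.apply_symm_apply] at this

theorem smul_mem' (τ : Equiv.Perm Cfsg.GolayPt) (E : Finset Cfsg.GolayPt) (h : τ • E = E)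
    (p : Cfsg.GolayPt) : τ p ∈ E ↔ p ∈ E := by
  constructor
  · intro hp
    rw [← h] at hp
    obtain ⟨q, hq, hq'⟩ := Finset.mem_smul_finset.1 hp
    rwa [← τ.injective hq']
  · intro hp
    rw [← h]
    exact Finset.smul_mem_smul_finset hp

/-- the action of the stabiliser on the set -/
def act (E : Finset Cfsg.GolayPt) : ↥(MulAction.stabilizer Cfsg.M24 E) →* Equiv.Perm ↥E where
  toFun g := Equiv.Perm.subtypePerm ((g : ↥Cfsg.M24) : Equiv.Perm Cfsg.GolayPt) (fun p => smul_mem' _ E g.2 p)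
  map_one' := rfl
  map_mul' := fun _ _ => rfl

theorem act_apply (E : Finset Cfsg.GolayPt) (g : ↥(MulAction.stabilizer Cfsg.M24 E)) (p : ↥E) :
    ((act E g p : ↥E) : Cfsg.GolayPt) = ((g : ↥Cfsg.M24) : Equiv.Perm Cfsg.GolayPt) p := rfl

theorem act_surj (E : Finset Cfsg.GolayPt) (hE : E.card = 6) : Function.Surjective (act E) := by
  intro σ
  obtain ⟨g, hg, h⟩ := extend_perm E hE σ
  have hs : g • E = E := by
    apply Finset.eq_of_subset_of_card_le
    · intro p hp
      obtain ⟨q, hq, rfl⟩ := Finset.mem_smul_finset.1 hp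
      have := h ⟨q, hq⟩
      show g q ∈ E
      rw [this]; exact (σ ⟨q, hq⟩).2
    · rw [Finset.card_smul_finset]
  refine ⟨⟨⟨g, hg⟩, hs⟩, Equiv.ext fun p => Subtype.ext ?_⟩
  rw [act_apply]
  exact h p

/-- Although the group of the length-24 code is only 5-transitive on the 24 points, it induces the full symmetric group on every 6-element subset: every permutation of a 6-set E is the restriction of an element of the group mapping E to itself. The pointwise stabiliser of E has order 16 when E lies in an octad and order 3 otherwise; in the latter case the setwise stabiliser of E has order 2160. -/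
theorem result (E : Finset Cfsg.GolayPt) (hE : E.card = 6) : (∀ σ : Equiv.Perm ↥E, ∃ g ∈ Cfsg.M24, ∀ p : ↥E, g p = σ p) ∧ ((∃ o ∈ Cfsg.octads, E ⊆ o) → Nat.card {g : Equiv.Perm Cfsg.GolayPt // g ∈ Cfsg.M24 ∧ ∀ p ∈ E, g p = p} = 16) ∧ ((¬ ∃ o ∈ Cfsg.octads, E ⊆ o) → Nat.card {g : Equiv.Perm Cfsg.GolayPt // g ∈ Cfsg.M24 ∧ ∀ p ∈ E, g p = p} = 3 ∧ Nat.card ↥(MulAction.stabilizer Cfsg.M24 E) = 2160) := by
  obtain ⟨h1, h2⟩ := hex_fix_card E hE
  refine ⟨extend_perm E hE, h1, fun h => ⟨h2 h, ?_⟩⟩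
  have h3 := h2 h
  have hk : Nat.card (act E).ker = 3 := by
    rw [← h3]
    refine Nat.card_congr ⟨fun g => ⟨((g.1 : ↥Cfsg.M24) : Equiv.Perm Cfsg.GolayPt), g.1.1.2, ?_⟩,
      fun g => ⟨⟨⟨g.1, g.2.1⟩, ?_⟩, ?_⟩, fun _ => rfl, fun _ => rfl⟩
    · intro p hp
      have h4 := MonoidHom.mem_ker.1 g.2
      have h5 := congrArg (fun σ : Equiv.Perm ↥E => ((σ ⟨p, hp⟩ : ↥E) : Cfsg.GolayPt)) h4
      exact h5
    · show g.1 • E = E
      apply Finset.eq_of_subset_of_card_le
      · intro p hp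
        obtain ⟨q, hq, rfl⟩ := Finset.mem_smul_finset.1 hp
        show g.1 q ∈ E
        rw [g.2.2 q hq]; exact hq
      · rw [Finset.card_smul_finset]
    · rw [MonoidHom.mem_ker]
      refine Equiv.ext fun p => Subtype.ext ?_
      rw [act_apply]
      exact g.2.2 p p.2
  have h4 := Subgroup.card_eq_card_quotient_mul_card_subgroup (act E).ker
  rw [hk, Nat.card_congr (QuotientGroup.quotientKerEquivOfSurjective _ (act_surj E hE)).toEquiv,
    Nat.card_perm] at h4
  have h6 : Nat.card ↥E = 6 := by rw [Nat.card_eq_fintype_card, Fintype.card_coe, hE]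
  rw [h4, h6]
  decide

end Cfsg.Agent.S5600
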