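import Cfsg.Statements.S5601
import Cfsg.Agent.H29.M24Leaf

set_option autoImplicit false
open scoped Pointwise
open Cfsg

namespace Cfsg.Agent.S5601

open Cfsg.Agent.H7 Cfsg.Agent.H29

theorem exists_gen (X : Subgroup ↥Cfsg.M24) (hX : Nat.card X = 3) :
    ∃ x : ↥Cfsg.M24, X = Subgroup.zpowers x ∧ orderOf (x : Equiv.Perm Cfsg.GolayPt) = 3 := by
  haveI : Fact (Nat.Prime 3) := ⟨by norm_num⟩
  haveI : Finite X := Nat.finite_of_card_ne_zero (by rw [hX]; norm_num)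
  obtain ⟨x, hx⟩ := exists_prime_orderOf_dvd_card' (G := X) 3 (by rw [hX])
  have hx' : orderOf (x : ↥Cfsg.M24) = 3 := by rw [Subgroup.orderOf_coe]; exact hx
  refine ⟨x, ?_, by rw [Subgroup.orderOf_coe]; exact hx'⟩
  symm
  apply Subgroup.eq_of_le_of_card_ge
  · rw [Subgroup.zpowers_le]; exact x.2
  · rw [hX, Nat.card_zpowers, hx']

theorem fix_card (x : ↥Cfsg.M24) :
    {p : Cfsg.GolayPt | ∀ y ∈ Subgroup.zpowers x, ((y : ↥Cfsg.M24) : Equiv.Perm Cfsg.GolayPt) p = p}.ncard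
      = (Finset.univ.filter fun p => (x : Equiv.Perm Cfsg.GolayPt) p = p).card := by
  rw [← Set.ncard_coe_finset]
  congr 1
  ext p
  simp only [Finset.coe_filter, Finset.mem_univ, true_and]
  constructor
  · intro h; exact h x (Subgroup.mem_zpowers x)
  · intro h y hy
    obtain ⟨n, rfl⟩ := Subgroup.mem_zpowers_iff.1 hy
    have h1 : (x : Equiv.Perm Cfsg.GolayPt) ∈ MulAction.stabilizer (Equiv.Perm Cfsg.GolayPt) p := h
    exact (MulAction.stabilizer (Equiv.Perm Cfsg.GolayPt) p).zpow_mem h1 n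

theorem fix_vals {σ : Equiv.Perm Cfsg.GolayPt} (hσ : σ ∈ Cfsg.M24) (h : orderOf σ = 3) :
    ((Finset.univ.filter fun p => σ p = p).card = 6 ∧ ∃ τ ∈ Cfsg.M24, τ * σ * τ⁻¹ = mkPerm r3A) ∨
    ((Finset.univ.filter fun p => σ p = p).card = 0 ∧ ∃ τ ∈ Cfsg.M24, τ * σ * τ⁻¹ = mkPerm r3B) := by
  by_cases h0 : (Finset.univ.filter fun p => σ p = p).card = 0
  · exact Or.inr ⟨h0, order3_B hσ h (by rw [h0]; norm_num)⟩
  · left
    obtain ⟨τ, hτ, h1⟩ := order3_A hσ h h0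
    exact ⟨by rw [← card_fixed_conj σ τ, h1, card_fix3A], τ, hτ, h1⟩

theorem order_of_code {c : ℕ} (hc : okPerm c = true) (h : hasPeriod c 3 = true)
    (h1 : Nat.beq (papp c 23) 23 = false) : orderOf (mkPerm c) = 3 := by
  haveI : Fact (Nat.Prime 3) := ⟨by norm_num⟩
  have hp := okPerm_isPerm hc
  apply orderOf_eq_prime (mkPerm_pow_eq_one hp h)
  intro h2
  have h3 : ap (mkPerm c) 23 = 23 := by rw [h2]; rfl
  rw [ap_mkPerm hp (by norm_num)] at h3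
  rw [h3] at h1
  exact Bool.noConfusion h1

theorem exists_sub {c : ℕ} (hc : okPerm c = true) (h : orderOf (mkPerm c) = 3) :
    ∃ X : Subgroup ↥Cfsg.M24, Nat.card X = 3 ∧ {p : Cfsg.GolayPt | ∀ x ∈ X, ((x : ↥Cfsg.M24) : Equiv.Perm Cfsg.GolayPt) p = p}.ncard = (Finset.univ.filter fun p => mkPerm c p = p).card := by
  refine ⟨Subgroup.zpowers ⟨mkPerm c, mkPerm_mem_M24 hc⟩, ?_, ?_⟩
  · rw [Nat.card_zpowers, ← Subgroup.orderOf_coe]; exact h
  · exact fix_card _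

/-- The group of the length-24 code has exactly two conjugacy classes of subgroups of order 3: a subgroup of order 3 fixes either exactly 6 of the 24 points or none of them, both cases occur, and two subgroups of order 3 with the same number of fixed points are conjugate. -/
theorem result : (∀ X : Subgroup ↥Cfsg.M24, Nat.card X = 3 → {p : Cfsg.GolayPt | ∀ x ∈ X, ((x : ↥Cfsg.M24) : Equiv.Perm Cfsg.GolayPt) p = p}.ncard = 6 ∨ {p : Cfsg.GolayPt | ∀ x ∈ X, ((x : ↥Cfsg.M24) : Equiv.Perm Cfsg.GolayPt) p = p}.ncard = 0) ∧ (∃ X : Subgroup ↥Cfsg.M24, Nat.card X = 3 ∧ {p : Cfsg.GolayPt | ∀ x ∈ X, ((x : ↥Cfsg.M24) : Equiv.Perm Cfsg.GolayPt) p = p}.ncard = 6) ∧ (∃ X : Subgroup ↥Cfsg.M24, Nat.card X = 3 ∧ {p : Cfsg.GolayPt | ∀ x ∈ X, ((x : ↥Cfsg.M24) : Equiv.Perm Cfsg.GolayPt) p = p}.ncard = 0) ∧ ∀ X Y : Subgroup ↥Cfsg.M24, Nat.card X = 3 → Nat.card Y = 3 → {p : Cfsg.GolayPt | ∀ x ∈ X, ((x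 : ↥Cfsg.M24) : Equiv.Perm Cfsg.GolayPt) p = p}.ncard = {p : Cfsg.GolayPt | ∀ x ∈ Y, ((x : ↥Cfsg.M24) : Equiv.Perm Cfsg.GolayPt) p = p}.ncard → ∃ k : ↥Cfsg.M24, MulAut.conj k • X = Y := by
  refine ⟨?_, ?_, ?_, ?_⟩
  · intro X hX
    obtain ⟨x, rfl, hx⟩ := exists_gen X hX
    rw [fix_card]
    rcases fix_vals x.2 hx with h | h
    · exact Or.inl h.1
    · exact Or.inr h.1
  · obtain ⟨X, h1, h2⟩ := exists_sub reps_ok.2.2.1
      (order_of_code reps_ok.2.2.1 (by decide +kernel) (by decide +kernel))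
    exact ⟨X, h1, by rw [h2, card_fix3A]⟩
  · obtain ⟨X, h1, h2⟩ := exists_sub reps_ok.2.2.2
      (order_of_code reps_ok.2.2.2 (by decide +kernel) (by decide +kernel))
    exact ⟨X, h1, by rw [h2, card_fix3B]⟩
  · intro X Y hX hY hXY
    obtain ⟨x, rfl, hx⟩ := exists_gen X hX
    obtain ⟨y, rfl, hy⟩ := exists_gen Y hY
    rw [fix_card, fix_card] at hXY
    have key : ∀ r : Equiv.Perm Cfsg.GolayPt, (∃ τ ∈ Cfsg.M24, τ * (x : Equiv.Perm Cfsg.GolayPt) * τ⁻¹ = r) →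
        (∃ τ ∈ Cfsg.M24, τ * (y : Equiv.Perm Cfsg.GolayPt) * τ⁻¹ = r) →
        ∃ k : ↥Cfsg.M24, MulAut.conj k • Subgroup.zpowers x = Subgroup.zpowers y := by
      rintro r ⟨τ, hτ, h1⟩ ⟨υ, hυ, h2⟩
      refine ⟨⟨υ⁻¹ * τ, Cfsg.M24.mul_mem (Cfsg.M24.inv_mem hυ) hτ⟩, ?_⟩
      rw [Subgroup.zpowers_eq_closure, Subgroup.smul_closure, Set.smul_set_singleton,
        ← Subgroup.zpowers_eq_closure]
      congr 1
      apply Subtype.ext
      show υ⁻¹ * τ * (x : Equiv.Perm Cfsg.GolayPt) * (υ⁻¹ * τ)⁻¹ = y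
      have : υ⁻¹ * τ * (x : Equiv.Perm Cfsg.GolayPt) * (υ⁻¹ * τ)⁻¹
        = υ⁻¹ * (τ * (x : Equiv.Perm Cfsg.GolayPt) * τ⁻¹) * υ := by group
      rw [this, h1, ← h2]; group
    rcases fix_vals x.2 hx with h | h <;> rcases fix_vals y.2 hy with h' | h'
    · exact key _ h.2 h'.2
    · rw [h.1, h'.1] at hXY; omega
    · rw [h.1, h'.1] at hXY; omega
    · exact key _ h.2 h'.2

end Cfsg.Agent.S5601
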