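import Cfsg.Statements.S5602
import Cfsg.Agent.H29.M24Fix

set_option autoImplicit false
open scoped Pointwise
open Cfsg

namespace Cfsg.Agent.S5602

open Cfsg.Agent.H7 Cfsg.Agent.H29

/-- An element of order 3 of the group of the length-24 code having exactly 6 fixed points maps to themselves exactly 21 octads, exactly 15 trios, exactly 16 sextets and exactly 20 dodecads. -/
theorem result (g : Equiv.Perm Cfsg.GolayPt) (hg : g ∈ Cfsg.M24) (h₃ : orderOf g = 3) (h₆ : (Finset.univ.filter fun p => g p = p).card = 6) : {o : Finset Cfsg.GolayPt | o ∈ Cfsg.octads ∧ g • o = o}.ncard = 21 ∧ {T : Finset (Finset Cfsg.GolayPt) | T ∈ Cfsg.trios ∧ g • T = T}.ncard = 15 ∧ {S : Finset (Finset Cfsg.GolayPt) | S ∈ Cfsg.sextets ∧ g • S = S}.ncard = 16 ∧ {d : Finset Cfsg.GolayPt | d ∈ Cfsg.dodecads ∧ g • d = d}.ncard = 20 := by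
  obtain ⟨τ, hτ, h⟩ := order3_A hg h₃ (by rw [h₆]; norm_num)
  rw [fixed_octads_conj hτ, fixed_trios_conj hτ, fixed_sextets_conj hτ, fixed_dodecads_conj hτ, h]
  exact ⟨cOct_spec reps_ok.2.2.1 (by decide +kernel), cTri_spec reps_ok.2.2.1 (by decide +kernel),
    cSex_spec reps_ok.2.2.1 (by decide +kernel), cDod_spec reps_ok.2.2.1 (by decide +kernel)⟩

end Cfsg.Agent.S5602
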