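import Cfsg.Statements.S5604
import Cfsg.Agent.H29.M24Leaf

set_option autoImplicit false
open scoped Pointwise
open Cfsg

namespace Cfsg.Agent.S5604

open Cfsg.Agent.H7 Cfsg.Agent.H29

def r7 : ℕ := 0x59543cee9ab8c88364f2322b28c41
/-- powers of `r7` -/
def p7 : List ℕ := [0xbdab49ca307b9ac5a928398a418820, 0x59543cee9ab8c88364f2322b28c41, 0xd9b421c125398f49a755a2f089462, 0x158d4590336b915930ea83c09bc4a3, 0x1d99482c47339ea9a08d4d43205e25, 0x2d9144c06463aad3bd6692853082f1, 0x8d9f4924ab439462560c9b46710417]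

def D7 : CData := ⟨r7, [(17, 23), (14, 14)],
  [[(2, 0)], [(1, 23)], [(1, 0)], [(1, 1)], [(1, 2)], [(1, 3)], [(2, 0)]],
  [(23, 0), (0, 1), (1, 2), (2, 3), (3, 5), (5, 17), (4, 11)]⟩

theorem D7_ok : D7.OK = true := by decide +kernel

theorem p7_ok : (p7.all fun c => okPerm c) = true := by decide +kernel

theorem p7_pow : ∀ k < 6, pm (p7.getD k 0) r7 = p7.getD (k + 1) 0 := by decide +kernel

theorem r7_ok : okPerm r7 = true := by decide +kernel

theorem p7_getD_ok {k : ℕ} (hk : k < 7) : okPerm (p7.getD k 0) = true := by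
  have h := p7_ok
  rw [List.all_eq_true] at h
  apply h
  rw [List.getD_eq_getElem _ _ (show k < p7.length from hk)]
  exact List.getElem_mem _

theorem p7_eq {k : ℕ} (hk : k < 7) : mkPerm (p7.getD k 0) = mkPerm r7 ^ k := by
  induction k with
  | zero => rw [pow_zero]; exact idc_ok.2
  | succ k ih =>
    rw [← p7_pow k (by omega), pm_eq]
    have h1 := okPerm_isPerm (p7_getD_ok (k := k) (by omega))
    have h2 := okPerm_isPerm r7_ok
    rw [mkPerm_pmul h1 h2 (isPermCode_pmul h1 h2), ih (by omega), pow_succ]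

theorem r7_pow7 : mkPerm r7 ^ 7 = 1 := mkPerm_pow_eq_one (okPerm_isPerm r7_ok) (by decide +kernel)

theorem r7_order : orderOf (mkPerm r7) = 7 := by
  have : Fact (Nat.Prime 7) := ⟨by norm_num⟩
  apply orderOf_eq_prime r7_pow7
  intro h2
  have h3 : ap (mkPerm r7) 23 = 23 := by rw [h2]; rfl
  rw [ap_mkPerm (okPerm_isPerm r7_ok) (by norm_num)] at h3
  revert h3
  decide +kernel

theorem cnt1 : {σ | σ ∈ Cfsg.M24 ∧ σ * mkPerm D7.g = mkPerm (p7.getD 1 0) * σ}.ncard = 42 :=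
  conj_count D7_ok (p7_getD_ok (by norm_num)) (by decide +kernel)
theorem cnt2 : {σ | σ ∈ Cfsg.M24 ∧ σ * mkPerm D7.g = mkPerm (p7.getD 2 0) * σ}.ncard = 42 :=
  conj_count D7_ok (p7_getD_ok (by norm_num)) (by decide +kernel)
theorem cnt3 : {σ | σ ∈ Cfsg.M24 ∧ σ * mkPerm D7.g = mkPerm (p7.getD 3 0) * σ}.ncard = 0 :=
  conj_count D7_ok (p7_getD_ok (by norm_num)) (by decide +kernel)
theorem cnt4 : {σ | σ ∈ Cfsg.M24 ∧ σ * mkPerm D7.g = mkPerm (p7.getD 4 0) * σ}.ncard = 42 :=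
  conj_count D7_ok (p7_getD_ok (by norm_num)) (by decide +kernel)
theorem cnt5 : {σ | σ ∈ Cfsg.M24 ∧ σ * mkPerm D7.g = mkPerm (p7.getD 5 0) * σ}.ncard = 0 :=
  conj_count D7_ok (p7_getD_ok (by norm_num)) (by decide +kernel)
theorem cnt6 : {σ | σ ∈ Cfsg.M24 ∧ σ * mkPerm D7.g = mkPerm (p7.getD 6 0) * σ}.ncard = 0 :=
  conj_count D7_ok (p7_getD_ok (by norm_num)) (by decide +kernel)

/-- the invariant trio -/
def ta : ℕ := 8536111
def tb' : ℕ := 1903248

theorem t_ok : trOK ta tb' = true := by decide +kernel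

theorem fixT (k : ℕ) (hk : k < 7) (h : tf0 (fun a b => bif a then b else false) true
      (preC (p7.getD k 0) D7.pre) (prTab (p7.getD k 0) D7.tab)
      (fun f => bif lfC (p7.getD k 0) D7.lf f then
        lfTri [0, 1, 2, 3, 5, 14, 17, 23] [4, 7, 9, 11, 16, 18, 19, 20] ta tb' f else true) idc = true) :
    ∀ σ ∈ Cfsg.M24, σ * mkPerm D7.g = mkPerm (p7.getD k 0) * σ → σ • trio ta tb' = trio ta tb' :=
  conj_all' D7_ok (p7_getD_ok hk) (lfTri_iff (a := ta) (b := tb') (by decide +kernel)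
    (by decide +kernel) t_ok t_ok).imp h

theorem fixT1 : ∀ σ ∈ Cfsg.M24, σ * mkPerm D7.g = mkPerm (p7.getD 1 0) * σ →
    σ • trio ta tb' = trio ta tb' := fixT 1 (by norm_num) (by decide +kernel)
theorem fixT2 : ∀ σ ∈ Cfsg.M24, σ * mkPerm D7.g = mkPerm (p7.getD 2 0) * σ →
    σ • trio ta tb' = trio ta tb' := fixT 2 (by norm_num) (by decide +kernel)
theorem fixT4 : ∀ σ ∈ Cfsg.M24, σ * mkPerm D7.g = mkPerm (p7.getD 4 0) * σ →
    σ • trio ta tb' = trio ta tb' := fixT 4 (by norm_num) (by decide +kernel)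

/-- the set of elements conjugating `r7` to its `k`-th power -/
def Ak (k : ℕ) : Set (Equiv.Perm Cfsg.GolayPt) :=
  {σ | σ ∈ Cfsg.M24 ∧ σ * mkPerm r7 = mkPerm r7 ^ k * σ}

theorem Ak_eq {k : ℕ} (hk : k < 7) :
    Ak k = {σ | σ ∈ Cfsg.M24 ∧ σ * mkPerm D7.g = mkPerm (p7.getD k 0) * σ} := by
  rw [p7_eq hk]; rfl

theorem Ak_empty {k : ℕ} (h : (Ak k).ncard = 0) : Ak k = ∅ :=
  (Set.ncard_eq_zero (Set.toFinite _)).1 h

theorem A1 : (Ak 1).ncard = 42 := by rw [Ak_eq (by norm_num)]; exact cnt1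
theorem A2 : (Ak 2).ncard = 42 := by rw [Ak_eq (by norm_num)]; exact cnt2
theorem A4 : (Ak 4).ncard = 42 := by rw [Ak_eq (by norm_num)]; exact cnt4
theorem A3 : Ak 3 = ∅ := Ak_empty (by rw [Ak_eq (by norm_num)]; exact cnt3)
theorem A5 : Ak 5 = ∅ := Ak_empty (by rw [Ak_eq (by norm_num)]; exact cnt5)
theorem A6 : Ak 6 = ∅ := Ak_empty (by rw [Ak_eq (by norm_num)]; exact cnt6)

theorem Ak_disj {j k : ℕ} (hj : j < 7) (hk : k < 7) (hjk : j ≠ k) : Disjoint (Ak j) (Ak k) := by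
  rw [Set.disjoint_left]
  rintro σ ⟨_, h1⟩ ⟨_, h2⟩
  rw [h1] at h2
  have h3 : mkPerm r7 ^ j = mkPerm r7 ^ k := mul_right_cancel h2
  have h4 := (pow_inj_mod (x := mkPerm r7) (n := j) (m := k)).1 h3
  rw [r7_order, Nat.mod_eq_of_lt hj, Nat.mod_eq_of_lt hk] at h4
  exact hjk h4

/-- the normaliser as a set -/
def NN : Set (Equiv.Perm Cfsg.GolayPt) :=
  {σ | σ ∈ Cfsg.M24 ∧ ∃ k < 7, σ * mkPerm r7 = mkPerm r7 ^ k * σ}

theorem A0 : Ak 0 = ∅ := by
  rw [Set.eq_empty_iff_forall_notMem]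
  rintro σ ⟨_, h⟩
  rw [pow_zero, one_mul] at h
  have : mkPerm r7 = 1 := by
    have h2 : σ * mkPerm r7 = σ * 1 := by rw [h, mul_one]
    exact mul_left_cancel h2
  have h3 := r7_order
  rw [this] at h3
  simp at h3

theorem NN_eq : NN = Ak 1 ∪ (Ak 2 ∪ Ak 4) := by
  ext σ
  constructor
  · rintro ⟨h1, k, hk, h2⟩
    have h3 : σ ∈ Ak k := ⟨h1, h2⟩
    interval_cases k
    · rw [A0] at h3; exact absurd h3 (Set.notMem_empty _)
    · exact Or.inl h3
    · exact Or.inr (Or.inl h3)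
    · rw [A3] at h3; exact absurd h3 (Set.notMem_empty _)
    · exact Or.inr (Or.inr h3)
    · rw [A5] at h3; exact absurd h3 (Set.notMem_empty _)
    · rw [A6] at h3; exact absurd h3 (Set.notMem_empty _)
  · rintro (h | h | h)
    · exact ⟨h.1, 1, by norm_num, h.2⟩
    · exact ⟨h.1, 2, by norm_num, h.2⟩
    · exact ⟨h.1, 4, by norm_num, h.2⟩

theorem NN_card : NN.ncard = 126 := by
  rw [NN_eq, Set.ncard_union_eq (Set.disjoint_union_right.2
    ⟨Ak_disj (by norm_num) (by norm_num) (by norm_num),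
      Ak_disj (by norm_num) (by norm_num) (by norm_num)⟩) (Set.toFinite _) (Set.toFinite _),
    Set.ncard_union_eq (Ak_disj (by norm_num) (by norm_num) (by norm_num)) (Set.toFinite _)
      (Set.toFinite _), A1, A2, A4]

theorem NN_fix {σ : Equiv.Perm Cfsg.GolayPt} (h : σ ∈ NN) : σ • trio ta tb' = trio ta tb' := by
  rw [NN_eq] at h
  rcases h with h | h | h
  · exact fixT1 σ h.1 (by rw [Ak_eq (by norm_num)] at h; exact h.2)
  · exact fixT2 σ h.1 (by rw [Ak_eq (by norm_num)] at h; exact h.2)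
  · exact fixT4 σ h.1 (by rw [Ak_eq (by norm_num)] at h; exact h.2)

noncomputable def s0 : ↥Cfsg.M24 := ⟨mkPerm r7, mkPerm_mem_M24 r7_ok⟩

theorem s0_order : orderOf s0 = 7 := by
  rw [← Subgroup.orderOf_coe]; exact r7_order

theorem S0_card : Nat.card (Subgroup.zpowers s0) = 7 := by
  rw [Nat.card_zpowers, s0_order]

theorem mem_zp {x : ↥Cfsg.M24} : x ∈ Subgroup.zpowers s0 ↔ ∃ k < 7, s0 ^ k = x := by
  constructor
  · intro h
    rw [mem_zpowers_iff_mem_range_orderOf, s0_order] at h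
    obtain ⟨k, hk, h⟩ := Finset.mem_image.1 h
    exact ⟨k, Finset.mem_range.1 hk, h⟩
  · rintro ⟨k, _, rfl⟩
    exact Subgroup.npow_mem_zpowers s0 k

theorem mem_norm {n : ↥Cfsg.M24} :
    n ∈ Subgroup.normalizer ((Subgroup.zpowers s0 : Subgroup ↥Cfsg.M24) : Set ↥Cfsg.M24) ↔
      (n : Equiv.Perm Cfsg.GolayPt) ∈ NN := by
  constructor
  · intro h
    refine ⟨n.2, ?_⟩
    have h1 := (Subgroup.mem_normalizer_iff.1 h s0).1 (Subgroup.mem_zpowers s0)
    obtain ⟨k, hk, h2⟩ := mem_zp.1 h1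
    refine ⟨k, hk, ?_⟩
    have h3 : n * s0 = s0 ^ k * n := by rw [h2]; group
    exact congrArg Subtype.val h3
  · rintro ⟨_, k, hk, h⟩
    have h3 : n * s0 * n⁻¹ = s0 ^ k := by
      have : n * s0 = s0 ^ k * n := Subtype.ext h
      rw [this]; group
    have h4 : (Subgroup.zpowers s0).map (MulAut.conj n).toMonoidHom = Subgroup.zpowers s0 := by
      apply Subgroup.eq_of_le_of_card_ge
      · rw [MonoidHom.map_zpowers, Subgroup.zpowers_le]
        show n * s0 * n⁻¹ ∈ _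
        rw [h3]
        exact Subgroup.npow_mem_zpowers s0 k
      · rw [Subgroup.card_map_of_injective (MulAut.conj n).injective]
    rw [Subgroup.mem_normalizer_iff]
    intro x
    constructor
    · intro hx
      rw [← h4]
      exact ⟨x, hx, rfl⟩
    · intro hx
      have hx' : n * x * n⁻¹ ∈ Subgroup.zpowers s0 := hx
      rw [← h4] at hx'
      obtain ⟨y, hy, hy'⟩ := hx'
      have hy' : n * y * n⁻¹ = n * x * n⁻¹ := hy'
      have : y = x := mul_left_cancel (mul_right_cancel hy')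
      rw [← this]; exact hy

theorem mem_cent {n : ↥Cfsg.M24} :
    n ∈ Subgroup.centralizer ((Subgroup.zpowers s0 : Subgroup ↥Cfsg.M24) : Set ↥Cfsg.M24) ↔
      (n : Equiv.Perm Cfsg.GolayPt) ∈ Ak 1 := by
  rw [Subgroup.mem_centralizer_iff]
  constructor
  · intro h
    refine ⟨n.2, ?_⟩
    rw [pow_one]
    exact (congrArg Subtype.val (h s0 (Subgroup.mem_zpowers s0))).symm
  · rintro ⟨_, h⟩ x hx
    obtain ⟨k, _, rfl⟩ := mem_zp.1 hx
    rw [pow_one] at h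
    have h1 : Commute s0 n := (Subtype.ext h : n * s0 = s0 * n).symm
    exact (h1.pow_left k).eq

/-- subgroups of order 7 are conjugate -/
theorem conj7 (S : Subgroup ↥Cfsg.M24) (hS : Nat.card S = 7) :
    ∃ g : ↥Cfsg.M24, S.map (MulAut.conj g).toMonoidHom = Subgroup.zpowers s0 := by
  have f7 : Fact (Nat.Prime 7) := ⟨by norm_num⟩
  have key : ∀ S : Subgroup ↥Cfsg.M24, Nat.card S = 7 → ∃ P : Sylow 7 ↥Cfsg.M24, (P : Subgroup _) = S := by
    intro S hS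
    have h1 : IsPGroup 7 S := IsPGroup.of_card (n := 1) (by rw [hS]; norm_num)
    obtain ⟨P, hP⟩ := h1.exists_le_sylow
    refine ⟨P, ?_⟩
    symm
    apply Subgroup.eq_of_le_of_card_ge hP
    obtain ⟨n, hn⟩ := P.isPGroup'.exists_card_eq
    have h2 : Nat.card (P : Subgroup ↥Cfsg.M24) ∣ 244823040 := by
      rw [← card_M24]; exact Subgroup.card_subgroup_dvd_card _
    have h3 : n ≤ 1 := by
      by_contra hn1
      have h4 : 7 ^ 2 ∣ 7 ^ n := pow_dvd_pow 7 (by omega)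
      rw [← hn] at h4
      have h5 := h4.trans h2
      revert h5; norm_num
    have h6 : Nat.card (P : Subgroup ↥Cfsg.M24) = 7 ^ n := hn
    rw [hS, h6]
    interval_cases n <;> norm_num
  obtain ⟨P, hP⟩ := key S hS
  obtain ⟨Q, hQ⟩ := key _ S0_card
  obtain ⟨g, hg⟩ := MulAction.exists_smul_eq ↥Cfsg.M24 P Q
  refine ⟨g, ?_⟩
  rw [← hP, ← hQ, ← hg]
  rfl

/-- For a subgroup S of order 7 of the group of the length-24 code (a Sylow 7-subgroup): the normaliser of S has order 126, the centraliser of S has order 42 and is non-abelian, and the whole normaliser leaves some trio invariant. (These are the orders of a Frobenius group of order 21 times a symmetric group of degree 3; the isomorphism type itself is not asserted here.) -/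
theorem result (S : Subgroup ↥Cfsg.M24) (hS : Nat.card S = 7) : Nat.card ↥(Subgroup.normalizer (S : Set ↥Cfsg.M24)) = 126 ∧ Nat.card ↥(Subgroup.centralizer (S : Set ↥Cfsg.M24)) = 42 ∧ (∃ x ∈ Subgroup.centralizer (S : Set ↥Cfsg.M24), ∃ y ∈ Subgroup.centralizer (S : Set ↥Cfsg.M24), x * y ≠ y * x) ∧ ∃ T ∈ Cfsg.trios, ∀ n ∈ Subgroup.normalizer (S : Set ↥Cfsg.M24), ((n : ↥Cfsg.M24) : Equiv.Perm Cfsg.GolayPt) • T = T := by
  obtain ⟨g, hg⟩ := conj7 S hS
  have hmem : ∀ x : ↥Cfsg.M24, x ∈ S ↔ g * x * g⁻¹ ∈ Subgroup.zpowers s0 := by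
    intro x
    rw [← hg]
    constructor
    · intro hx; exact ⟨x, hx, rfl⟩
    · rintro ⟨y, hy, h⟩
      have h : g * y * g⁻¹ = g * x * g⁻¹ := h
      have : y = x := mul_left_cancel (mul_right_cancel h)
      rw [← this]; exact hy
  have hN : ∀ n : ↥Cfsg.M24, n ∈ Subgroup.normalizer (S : Set ↥Cfsg.M24) ↔
      ((g * n * g⁻¹ : ↥Cfsg.M24) : Equiv.Perm Cfsg.GolayPt) ∈ NN := by
    intro n
    rw [← mem_norm, Subgroup.mem_normalizer_iff, Subgroup.mem_normalizer_iff]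
    constructor
    · intro h x
      have h1 := h (g⁻¹ * x * g)
      rw [hmem, hmem] at h1
      have e1 : g * (g⁻¹ * x * g) * g⁻¹ = x := by group
      have e2 : g * (n * (g⁻¹ * x * g) * n⁻¹) * g⁻¹ = g * n * g⁻¹ * x * (g * n * g⁻¹)⁻¹ := by group
      rwa [e1, e2] at h1
    · intro h x
      have h1 := h (g * x * g⁻¹)
      rw [← hmem] at h1
      have e2 : g * n * g⁻¹ * (g * x * g⁻¹) * (g * n * g⁻¹)⁻¹ = g * (n * x * n⁻¹) * g⁻¹ := by group
      rwa [e2, ← hmem] at h1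
  have hC : ∀ n : ↥Cfsg.M24, n ∈ Subgroup.centralizer (S : Set ↥Cfsg.M24) ↔
      ((g * n * g⁻¹ : ↥Cfsg.M24) : Equiv.Perm Cfsg.GolayPt) ∈ Ak 1 := by
    intro n
    rw [← mem_cent, Subgroup.mem_centralizer_iff, Subgroup.mem_centralizer_iff]
    constructor
    · intro h x hx
      have h1 := h (g⁻¹ * x * g) ((hmem _).2 (by
        have e1 : g * (g⁻¹ * x * g) * g⁻¹ = x := by group
        rw [e1]; exact hx))
      calc x * (g * n * g⁻¹) = g * ((g⁻¹ * x * g) * n) * g⁻¹ := by group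
        _ = g * (n * (g⁻¹ * x * g)) * g⁻¹ := by rw [h1]
        _ = _ := by group
    · intro h x hx
      have h1 := h (g * x * g⁻¹) ((hmem _).1 hx)
      calc x * n = g⁻¹ * ((g * x * g⁻¹) * (g * n * g⁻¹)) * g := by group
        _ = g⁻¹ * ((g * n * g⁻¹) * (g * x * g⁻¹)) * g := by rw [h1]
        _ = _ := by group
  refine ⟨?_, ?_, ?_, ?_⟩
  · rw [← NN_card, ← Nat.card_coe_set_eq]
    refine Nat.card_congr ⟨fun n => ⟨_, (hN n.1).1 n.2⟩, fun σ => ⟨g⁻¹ * ⟨σ.1, σ.2.1⟩ * g, ?_⟩, ?_, ?_⟩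
    · rw [hN]
      have : g * (g⁻¹ * (⟨σ.1, σ.2.1⟩ : ↥Cfsg.M24) * g) * g⁻¹ = ⟨σ.1, σ.2.1⟩ := by group
      rw [this]; exact σ.2
    · intro n
      apply Subtype.ext
      show g⁻¹ * (g * n.1 * g⁻¹) * g = n.1
      group
    · intro σ
      apply Subtype.ext
      show ((g * (g⁻¹ * (⟨σ.1, σ.2.1⟩ : ↥Cfsg.M24) * g) * g⁻¹ : ↥Cfsg.M24) : Equiv.Perm Cfsg.GolayPt) = σ.1
      have : g * (g⁻¹ * (⟨σ.1, σ.2.1⟩ : ↥Cfsg.M24) * g) * g⁻¹ = ⟨σ.1, σ.2.1⟩ := by group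
      rw [this]
  · rw [← A1, ← Nat.card_coe_set_eq]
    refine Nat.card_congr ⟨fun n => ⟨_, (hC n.1).1 n.2⟩, fun σ => ⟨g⁻¹ * ⟨σ.1, σ.2.1⟩ * g, ?_⟩, ?_, ?_⟩
    · rw [hC]
      have : g * (g⁻¹ * (⟨σ.1, σ.2.1⟩ : ↥Cfsg.M24) * g) * g⁻¹ = ⟨σ.1, σ.2.1⟩ := by group
      rw [this]; exact σ.2
    · intro n
      apply Subtype.ext
      show g⁻¹ * (g * n.1 * g⁻¹) * g = n.1
      group
    · intro σ
      apply Subtype.ext
      show ((g * (g⁻¹ * (⟨σ.1, σ.2.1⟩ : ↥Cfsg.M24) * g) * g⁻¹ : ↥Cfsg.M24) : Equiv.Perm Cfsg.GolayPt) = σ.1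
      have : g * (g⁻¹ * (⟨σ.1, σ.2.1⟩ : ↥Cfsg.M24) * g) * g⁻¹ = ⟨σ.1, σ.2.1⟩ := by group
      rw [this]
  · -- two non-commuting elements
    have hx : okPerm 0x5216432ed5ba47524c47ce3528c41 = true := by decide +kernel
    have hy : okPerm 0x238766a8ef15220416a135e6c9260b = true := by decide +kernel
    have hcomm : ∀ c : ℕ, okPerm c = true → Nat.beq (pm c r7) (pm r7 c) = true →
        mkPerm c ∈ Ak 1 := by
      intro c hc h
      have h := Nat.eq_of_beq_eq_true h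
      rw [pm_eq, pm_eq] at h
      have h1 := okPerm_isPerm hc
      have h2 := okPerm_isPerm r7_ok
      refine ⟨mkPerm_mem_M24 hc, ?_⟩
      rw [pow_one, ← mkPerm_pmul h1 h2 (isPermCode_pmul h1 h2), h,
        mkPerm_pmul h2 h1 (isPermCode_pmul h2 h1)]
    have e : ∀ x : ↥Cfsg.M24, g * (g⁻¹ * x * g) * g⁻¹ = x := fun x => by group
    refine ⟨g⁻¹ * ⟨mkPerm 0x5216432ed5ba47524c47ce3528c41, mkPerm_mem_M24 hx⟩ * g, ?_,
      g⁻¹ * ⟨mkPerm 0x238766a8ef15220416a135e6c9260b, mkPerm_mem_M24 hy⟩ * g, ?_, ?_⟩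
    · rw [hC, e]; exact hcomm _ hx (by decide +kernel)
    · rw [hC, e]; exact hcomm _ hy (by decide +kernel)
    · intro h
      have h1 : (⟨mkPerm 0x5216432ed5ba47524c47ce3528c41, mkPerm_mem_M24 hx⟩ : ↥Cfsg.M24) *
          ⟨mkPerm 0x238766a8ef15220416a135e6c9260b, mkPerm_mem_M24 hy⟩ =
          ⟨mkPerm 0x238766a8ef15220416a135e6c9260b, mkPerm_mem_M24 hy⟩ *
          ⟨mkPerm 0x5216432ed5ba47524c47ce3528c41, mkPerm_mem_M24 hx⟩ := by
        generalize (⟨mkPerm 0x5216432ed5ba47524c47ce3528c41, mkPerm_mem_M24 hx⟩ : ↥Cfsg.M24) = x at h ⊢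
        generalize (⟨mkPerm 0x238766a8ef15220416a135e6c9260b, mkPerm_mem_M24 hy⟩ : ↥Cfsg.M24) = y at h ⊢
        calc x * y = g * ((g⁻¹ * x * g) * (g⁻¹ * y * g)) * g⁻¹ := by group
          _ = g * ((g⁻¹ * y * g) * (g⁻¹ * x * g)) * g⁻¹ := by rw [h]
          _ = y * x := by group
      have h2 : mkPerm 0x5216432ed5ba47524c47ce3528c41 * mkPerm 0x238766a8ef15220416a135e6c9260b
        = mkPerm 0x238766a8ef15220416a135e6c9260b * mkPerm 0x5216432ed5ba47524c47ce3528c41 :=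
        congrArg Subtype.val h1
      have hx' := okPerm_isPerm hx
      have hy' := okPerm_isPerm hy
      have key : ∀ i < 24, papp 0x5216432ed5ba47524c47ce3528c41 (papp 0x238766a8ef15220416a135e6c9260b i)
          = papp 0x238766a8ef15220416a135e6c9260b (papp 0x5216432ed5ba47524c47ce3528c41 i) := by
        intro i hi
        have h3 := congrArg (fun σ => ap σ i) h2
        simp only [ap_mul] at h3
        rwa [ap_mkPerm hy' hi, ap_mkPerm hx' (papp_lt hy' hi), ap_mkPerm hx' hi,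
          ap_mkPerm hy' (papp_lt hx' hi)] at h3
      revert key
      decide +kernel
  · refine ⟨(g : Equiv.Perm Cfsg.GolayPt)⁻¹ • trio ta tb', smul_trio (Cfsg.M24.inv_mem g.2) (trio_mem t_ok), ?_⟩
    intro n hn
    have h1 := NN_fix ((hN n).1 hn)
    have h2 : (n : Equiv.Perm Cfsg.GolayPt) • (g : Equiv.Perm Cfsg.GolayPt)⁻¹ • trio ta tb'
        = (g : Equiv.Perm Cfsg.GolayPt)⁻¹ • ((g * n * g⁻¹ : ↥Cfsg.M24) : Equiv.Perm Cfsg.GolayPt) • trio ta tb' := by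
      rw [← mul_smul, ← mul_smul]
      congr 1
      show (n : Equiv.Perm Cfsg.GolayPt) * (g : Equiv.Perm Cfsg.GolayPt)⁻¹ =
        (g : Equiv.Perm Cfsg.GolayPt)⁻¹ * (g * n * (g : Equiv.Perm Cfsg.GolayPt)⁻¹)
      group
    rw [h2, h1]

end Cfsg.Agent.S5604
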