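import Cfsg.Statements.S5608
import Cfsg.Agent.H29.M24Cent

set_option autoImplicit false
open scoped Pointwise
open Cfsg

namespace Cfsg.Agent.S5608

open Cfsg.Agent.H7 Cfsg.Agent.H29

theorem cent3A : ∀ σ ∈ M24, σ * mkPerm D3A.g = mkPerm D3A.g * σ →
    (σ ^ 2 = 1 → σ ≠ 1 → (Finset.univ.filter fun p => σ p = p).card = 8) :=
  conj_all D3A_ok reps_ok.2.2.1 (lfInvN_imp _) (by decide +kernel)

theorem cent3B : ∀ σ ∈ M24, σ * mkPerm D3B.g = mkPerm D3B.g * σ →
    (σ ^ 2 = 1 → σ ≠ 1 → (Finset.univ.filter fun p => σ p = p).card = 0) :=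
  conj_all' D3B_ok reps_ok.2.2.2 (lfInvN_imp _) (by decide +kernel)

/-- If an element of order 3 and an involution of the group of the length-24 code commute, then either the element of order 3 has exactly 6 fixed points and the involution exactly 8, or both are fixed-point-free. -/
theorem result (x s : Equiv.Perm Cfsg.GolayPt) (hx : x ∈ Cfsg.M24) (hs : s ∈ Cfsg.M24) (h₃ : orderOf x = 3) (h₂ : orderOf s = 2) (hc : Commute x s) : ((Finset.univ.filter fun p => x p = p).card = 6 ∧ (Finset.univ.filter fun p => s p = p).card = 8) ∨ ((Finset.univ.filter fun p => x p = p).card = 0 ∧ (Finset.univ.filter fun p => s p = p).card = 0) := by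
  have hs2 : s ^ 2 = 1 := by rw [← h₂]; exact pow_orderOf_eq_one s
  have hs1 : s ≠ 1 := by rintro rfl; simp at h₂
  have key : ∀ τ ∈ M24, ∀ r, τ * x * τ⁻¹ = r → (τ * s * τ⁻¹) * r = r * (τ * s * τ⁻¹) := by
    rintro τ _ r rfl
    have := hc.eq
    calc τ * s * τ⁻¹ * (τ * x * τ⁻¹) = τ * (s * x) * τ⁻¹ := by group
      _ = τ * (x * s) * τ⁻¹ := by rw [this]
      _ = _ := by group
  have hp : ∀ τ : Equiv.Perm Cfsg.GolayPt, (τ * s * τ⁻¹) ^ 2 = 1 ∧ τ * s * τ⁻¹ ≠ 1 := by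
    intro τ
    refine ⟨by rw [conj_pow, hs2]; group, fun h => hs1 ?_⟩
    have : s = τ⁻¹ * (τ * s * τ⁻¹) * τ := by group
    rw [this, h]; group
  by_cases h0 : (Finset.univ.filter fun p => x p = p).card = 0
  · right
    refine ⟨h0, ?_⟩
    obtain ⟨τ, hτ, h⟩ := order3_B hx h₃ (by rw [h0]; norm_num)
    rw [← card_fixed_conj s τ]
    exact cent3B _ (M24.mul_mem (M24.mul_mem hτ hs) (M24.inv_mem hτ)) (key τ hτ _ h)
      (hp τ).1 (hp τ).2
  · left
    obtain ⟨τ, hτ, h⟩ := order3_A hx h₃ h0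
    refine ⟨by rw [← card_fixed_conj x τ, h, card_fix3A], ?_⟩
    rw [← card_fixed_conj s τ]
    exact cent3A _ (M24.mul_mem (M24.mul_mem hτ hs) (M24.inv_mem hτ)) (key τ hτ _ h)
      (hp τ).1 (hp τ).2

end Cfsg.Agent.S5608
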