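import Cfsg.Statements.S5609
import Cfsg.Agent.H29.M24List

set_option autoImplicit false
open scoped Pointwise
open Cfsg

namespace Cfsg.Agent.S5609

open Cfsg Cfsg.Agent.H7 Cfsg.Agent.H29
open scoped Pointwise

theorem adj_iff (a b : octads) : (blockGraph octads).Adj a b ↔ Disjoint (a : Finset GolayPt) b := by
  unfold blockGraph
  rw [SimpleGraph.fromRel_adj]
  constructor
  · rintro ⟨_, h | h⟩
    · exact h
    · exact h.symm
  · intro h
    refine ⟨?_, Or.inl h⟩
    rintro rfl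
    exact octad_ne_of_disjoint a.2 h rfl

theorem mid4 {o o' : Finset GolayPt} (ho : o ∈ octads) (ho' : o' ∈ octads) (h : (o ∩ o').card = 4) :
    ∃ m ∈ octads, Disjoint o m ∧ Disjoint m o' := by
  obtain ⟨σ, hσ, h1, h2⟩ := meet4_transitive ho ho' h
  refine ⟨σ • toSet 6656640, M24_smul_octad hσ (isOct_spec (by decide +kernel)).1, ?_, ?_⟩
  · rw [← h1, Finset.disjoint_iff_inter_eq_empty, ← Finset.smul_finset_inter]
    rw [show toSet oct0 ∩ toSet 6656640 = ∅ by rw [← toSet_and]; decide +kernel, Finset.smul_finset_empty]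
  · rw [← h2, Finset.disjoint_iff_inter_eq_empty, ← Finset.smul_finset_inter]
    rw [show toSet 6656640 ∩ toSet 9963547 = ∅ by rw [← toSet_and]; decide +kernel, Finset.smul_finset_empty]

theorem mid2 {o o' : Finset GolayPt} (ho : o ∈ octads) (ho' : o' ∈ octads) (h : (o ∩ o').card = 2) :
    ∃ u ∈ octads, ∃ v ∈ octads, Disjoint o u ∧ Disjoint u v ∧ Disjoint v o' := by
  obtain ⟨σ, hσ, h1, h2⟩ := meet2_transitive ho ho' h
  refine ⟨σ • toSet 6889680, M24_smul_octad hσ (isOct_spec (by decide +kernel)).1,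
    σ • toSet 430605, M24_smul_octad hσ (isOct_spec (by decide +kernel)).1, ?_, ?_, ?_⟩
  · rw [← h1, Finset.disjoint_iff_inter_eq_empty, ← Finset.smul_finset_inter]
    rw [show toSet oct0 ∩ toSet 6889680 = ∅ by rw [← toSet_and]; decide +kernel, Finset.smul_finset_empty]
  · rw [Finset.disjoint_iff_inter_eq_empty, ← Finset.smul_finset_inter]
    rw [show toSet 6889680 ∩ toSet 430605 = ∅ by rw [← toSet_and]; decide +kernel, Finset.smul_finset_empty]
  · rw [← h2, Finset.disjoint_iff_inter_eq_empty, ← Finset.smul_finset_inter]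
    rw [show toSet 430605 ∩ toSet 14682450 = ∅ by rw [← toSet_and]; decide +kernel, Finset.smul_finset_empty]

theorem no_mid2 {o o' u : Finset GolayPt} (ho : o ∈ octads) (ho' : o' ∈ octads) (hu : u ∈ octads)
    (h : (o ∩ o').card = 2) (h1 : Disjoint o u) (h2 : Disjoint u o') : False := by
  have hT := trio_of_disj ho hu h1
  set v := (o ∪ u)ᶜ with hv
  have hvo : v ∈ octads := hT.2.1 v (by simp)
  have h3 : o' \ o ⊆ o' ∩ v := by
    intro x hx
    rw [Finset.mem_sdiff] at hx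
    rw [Finset.mem_inter, hv, Finset.mem_compl, Finset.mem_union]
    exact ⟨hx.1, fun h => h.elim hx.2 (fun h => Finset.disjoint_left.1 h2 h hx.1)⟩
  have h4 : (o' \ o).card = 6 := by
    have := Finset.card_sdiff_add_card_inter o' o
    rw [ho'.2, Finset.inter_comm, h] at this
    omega
  have h5 : o' = v := octad_eq_of_five ho' hvo (by
    have := Finset.card_le_card h3
    omega)
  have h6 : o ∩ o' = ∅ := by
    rw [h5, hv]
    ext x; simp
    tauto
  rw [h6] at h
  simp at h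

theorem walk2 {V : Type*} {G : SimpleGraph V} {a b : V} (p : G.Walk a b) (h : p.length = 2) :
    ∃ u, G.Adj a u ∧ G.Adj u b := by
  cases p with
  | nil => simp at h
  | cons h1 q =>
    cases q with
    | nil => simp at h
    | cons h2 r =>
      cases r with
      | nil => exact ⟨_, h1, h2⟩
      | cons h3 s => simp at h

section
set_option linter.unusedSectionVars false
variable (o o' : Finset GolayPt) (ho : o ∈ octads) (ho' : o' ∈ octads) (hne : o ≠ o')
include hne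

theorem reach : (blockGraph octads).Reachable ⟨o, ho⟩ ⟨o', ho'⟩ := by
  rcases octad_inter_octad ho ho' hne with h | h | h
  · exact SimpleGraph.Adj.reachable ((adj_iff _ _).2 (Finset.disjoint_iff_inter_eq_empty.2 (Finset.card_eq_zero.1 h)))
  · obtain ⟨u, hu, v, hv, h1, h2, h3⟩ := mid2 ho ho' h
    exact (SimpleGraph.Adj.reachable (v := ⟨u, hu⟩) ((adj_iff _ _).2 h1)).trans
      ((SimpleGraph.Adj.reachable (v := ⟨v, hv⟩) ((adj_iff _ _).2 h2)).trans
      (SimpleGraph.Adj.reachable ((adj_iff _ _).2 h3)))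
  · obtain ⟨m, hm, h1, h2⟩ := mid4 ho ho' h
    exact (SimpleGraph.Adj.reachable (v := ⟨m, hm⟩) ((adj_iff _ _).2 h1)).trans
      (SimpleGraph.Adj.reachable ((adj_iff _ _).2 h2))

theorem d1 (h : (o ∩ o').card = 0) : (blockGraph octads).dist ⟨o, ho⟩ ⟨o', ho'⟩ = 1 :=
  SimpleGraph.dist_eq_one_iff_adj.2
    ((adj_iff _ _).2 (Finset.disjoint_iff_inter_eq_empty.2 (Finset.card_eq_zero.1 h)))

theorem dpos : (blockGraph octads).dist ⟨o, ho⟩ ⟨o', ho'⟩ ≠ 0 := by
  intro h
  have h1 := (reach o o' ho ho' hne).dist_eq_zero_iff.1 h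
  exact hne (congrArg Subtype.val h1)

theorem dne1 (h : (o ∩ o').card ≠ 0) : (blockGraph octads).dist ⟨o, ho⟩ ⟨o', ho'⟩ ≠ 1 := by
  intro h1
  rw [SimpleGraph.dist_eq_one_iff_adj, adj_iff] at h1
  exact h (by rw [Finset.disjoint_iff_inter_eq_empty.1 h1]; rfl)

theorem d2 (h : (o ∩ o').card = 4) : (blockGraph octads).dist ⟨o, ho⟩ ⟨o', ho'⟩ = 2 := by
  obtain ⟨m, hm, h1, h2⟩ := mid4 ho ho' h
  have a1 : (blockGraph octads).Adj ⟨o, ho⟩ ⟨m, hm⟩ := (adj_iff _ _).2 h1
  have a2 : (blockGraph octads).Adj ⟨m, hm⟩ ⟨o', ho'⟩ := (adj_iff _ _).2 h2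
  have h3 := SimpleGraph.dist_le (SimpleGraph.Walk.cons a1 (SimpleGraph.Walk.cons a2 SimpleGraph.Walk.nil))
  simp only [SimpleGraph.Walk.length_cons, SimpleGraph.Walk.length_nil] at h3
  have h4 := dpos o o' ho ho' hne
  have h5 := dne1 o o' ho ho' hne (by omega)
  omega

theorem d3 (h : (o ∩ o').card = 2) : (blockGraph octads).dist ⟨o, ho⟩ ⟨o', ho'⟩ = 3 := by
  obtain ⟨u, hu, v, hv, h1, h2, h3⟩ := mid2 ho ho' h
  have a1 : (blockGraph octads).Adj ⟨o, ho⟩ ⟨u, hu⟩ := (adj_iff _ _).2 h1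
  have a2 : (blockGraph octads).Adj ⟨u, hu⟩ ⟨v, hv⟩ := (adj_iff _ _).2 h2
  have a3 : (blockGraph octads).Adj ⟨v, hv⟩ ⟨o', ho'⟩ := (adj_iff _ _).2 h3
  have h6 := SimpleGraph.dist_le (SimpleGraph.Walk.cons a1
    (SimpleGraph.Walk.cons a2 (SimpleGraph.Walk.cons a3 SimpleGraph.Walk.nil)))
  simp only [SimpleGraph.Walk.length_cons, SimpleGraph.Walk.length_nil] at h6
  have h4 := dpos o o' ho ho' hne
  have h5 := dne1 o o' ho ho' hne (by omega)
  have h7 : (blockGraph octads).dist ⟨o, ho⟩ ⟨o', ho'⟩ ≠ 2 := by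
    intro h8
    obtain ⟨p, hp⟩ := (reach o o' ho ho' hne).exists_walk_length_eq_dist
    obtain ⟨w, hw1, hw2⟩ := walk2 p (hp.trans h8)
    exact no_mid2 ho ho' w.2 h ((adj_iff _ _).1 hw1) ((adj_iff _ _).1 hw2)
  omega
end

/-- In the graph on the 759 octads of the length-24 code in which two octads are adjacent when they are disjoint, the graph is connected (of diameter 3) and two distinct octads are at distance 1, 2 or 3 exactly when they meet in 0, 4 or 2 points respectively. -/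
theorem result (o o' : Finset Cfsg.GolayPt) (ho : o ∈ Cfsg.octads) (ho' : o' ∈ Cfsg.octads) (hne : o ≠ o') : (Cfsg.blockGraph Cfsg.octads).Connected ∧ ((Cfsg.blockGraph Cfsg.octads).dist ⟨o, ho⟩ ⟨o', ho'⟩ = 1 ↔ (o ∩ o').card = 0) ∧ ((Cfsg.blockGraph Cfsg.octads).dist ⟨o, ho⟩ ⟨o', ho'⟩ = 2 ↔ (o ∩ o').card = 4) ∧ ((Cfsg.blockGraph Cfsg.octads).dist ⟨o, ho⟩ ⟨o', ho'⟩ = 3 ↔ (o ∩ o').card = 2) := by
  have hd1 := d1 o o' ho ho' hne
  have hd2 := d2 o o' ho ho' hne
  have hd3 := d3 o o' ho ho' hne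
  refine ⟨?_, ?_, ?_, ?_⟩
  · have : Nonempty octads := ⟨⟨o, ho⟩⟩
    refine SimpleGraph.Connected.mk ?_
    rintro ⟨a, ha⟩ ⟨b, hb⟩
    by_cases hab : a = b
    · subst hab; exact SimpleGraph.Reachable.refl _
    · exact reach a b ha hb hab
  · rcases octad_inter_octad ho ho' hne with h | h | h
    · exact ⟨fun _ => h, fun _ => hd1 h⟩
    · rw [hd3 h, h]; simp
    · rw [hd2 h, h]; simp
  · rcases octad_inter_octad ho ho' hne with h | h | h
    · rw [hd1 h, h]; simp
    · rw [hd3 h, h]; simp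
    · exact ⟨fun _ => h, fun _ => hd2 h⟩
  · rcases octad_inter_octad ho ho' hne with h | h | h
    · rw [hd1 h, h]; simp
    · exact ⟨fun _ => h, fun _ => hd3 h⟩
    · rw [hd2 h, h]; simp

end Cfsg.Agent.S5609
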