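import Cfsg.Statements.S5610
import Cfsg.Agent.H29.M24Orb2

set_option autoImplicit false
open scoped Pointwise
open Cfsg

namespace Cfsg.Agent.S5610

open Cfsg Cfsg.Agent.H7 Cfsg.Agent.H29
open scoped Pointwise

theorem part1 (o : Finset GolayPt) (ho : o ∈ octads) :
    ∃ X₁ ∈ trios, ∃ X₂ ∈ trios, ∃ X₃ ∈ trios, (MulAction.orbit ↥(MulAction.stabilizer M24 o) X₁).ncard = 15 ∧ (MulAction.orbit ↥(MulAction.stabilizer M24 o) X₂).ncard = 420 ∧ (MulAction.orbit ↥(MulAction.stabilizer M24 o) X₃).ncard = 3360 ∧ trios = MulAction.orbit ↥(MulAction.stabilizer M24 o) X₁ ∪ MulAction.orbit ↥(MulAction.stabilizer M24 o) X₂ ∪ MulAction.orbit ↥(MulAction.stabilizer M24 o) X₃ := by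
  obtain ⟨g, hg, hgo⟩ := octad_transitive oct0_octad ho
  have hT := trio_of_disj oct0_octad disj0_octad disj0_disj
  set T0 : Finset (Finset GolayPt) := {toSet oct0, toSet disj0, (toSet oct0 ∪ toSet disj0)ᶜ} with hT0
  have hm1 : g • T0 ∈ trios := smul_trio hg hT
  have hm2 : g • oT420.π ∈ trios := smul_trio hg (trio_mem (by decide +kernel))
  have hm3 : g • oT3360.π ∈ trios := smul_trio hg (trio_mem (by decide +kernel))
  have j1 : JS o (g • T0) 21504 := js_O_T15 ho hm1 (by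
    rw [← hgo]; exact Finset.smul_mem_smul_finset (by rw [hT0]; simp))
  have j2 : JS o (g • oT420.π) 768 := by
    rw [← hgo]; exact (JS_oct oct0_octad js_O_T420).smul hg
  have j3 : JS o (g • oT3360.π) 96 := by
    rw [← hgo]; exact (JS_oct oct0_octad js_O_T3360).smul hg
  have e1 := orbit_card_of_JS (k := 15) (stab_octad ho) j1 (by norm_num) (by norm_num)
  have e2 := orbit_card_of_JS (k := 420) (stab_octad ho) j2 (by norm_num) (by norm_num)
  have e3 := orbit_card_of_JS (k := 3360) (stab_octad ho) j3 (by norm_num) (by norm_num)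
  exact ⟨_, hm1, _, hm2, _, hm3, e1, e2, e3, decomp3 (MulAction.stabilizer ↥M24 o) _ (Set.toFinite _)
    (fun σ _ x hx => smul_trio σ.2 hx) hm1 hm2 hm3 e1 e2 e3 (by norm_num) (by norm_num)
    (by norm_num) (by rw [trios_ncard])⟩

theorem part2 (o : Finset GolayPt) (ho : o ∈ octads) :
    ∃ Y₁ ∈ Cfsg.sextets, ∃ Y₂ ∈ Cfsg.sextets, ∃ Y₃ ∈ Cfsg.sextets, (MulAction.orbit ↥(MulAction.stabilizer Cfsg.M24 o) Y₁).ncard = 35 ∧ (MulAction.orbit ↥(MulAction.stabilizer Cfsg.M24 o) Y₂).ncard = 840 ∧ (MulAction.orbit ↥(MulAction.stabilizer Cfsg.M24 o) Y₃).ncard = 896 ∧ Cfsg.sextets = MulAction.orbit ↥(MulAction.stabilizer Cfsg.M24 o) Y₁ ∪ MulAction.orbit ↥(MulAction.stabilizer Cfsg.M24 o) Y₂ ∪ MulAction.orbit ↥(MulAction.stabilizer Cfsg.M24 o) Y₃ := by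
  obtain ⟨g, hg, hgo⟩ := octad_transitive oct0_octad ho
  have hs : ∀ m, Nat.beq (popc m) 4 = true → sext (toSet m) ∈ sextets := fun m hm =>
    mem_sextets_iff.2 ⟨_, by rw [card_toSet]; exact Nat.eq_of_beq_eq_true hm, rfl⟩
  have hm1 : g • oS35.π ∈ sextets := smul_sextet hg (hs _ (by decide +kernel))
  have hm2 : g • oS840.π ∈ sextets := smul_sextet hg (hs _ (by decide +kernel))
  have hm3 : g • oS896.π ∈ sextets := smul_sextet hg (hs _ (by decide +kernel))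
  have j1 : JS o (g • oS35.π) 9216 := by
    rw [← hgo]; exact (JS_oct oct0_octad js_O_S35).smul hg
  have j2 : JS o (g • oS840.π) 384 := by
    rw [← hgo]; exact (JS_oct oct0_octad js_O_S840).smul hg
  have j3 : JS o (g • oS896.π) 360 := by
    rw [← hgo]; exact (JS_oct oct0_octad js_O_S896).smul hg
  have e1 := orbit_card_of_JS (k := 35) (stab_octad ho) j1 (by norm_num) (by norm_num)
  have e2 := orbit_card_of_JS (k := 840) (stab_octad ho) j2 (by norm_num) (by norm_num)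
  have e3 := orbit_card_of_JS (k := 896) (stab_octad ho) j3 (by norm_num) (by norm_num)
  exact ⟨_, hm1, _, hm2, _, hm3, e1, e2, e3, decomp3 (MulAction.stabilizer ↥M24 o) _ (Set.toFinite _)
    (fun σ _ x hx => smul_sextet σ.2 hx) hm1 hm2 hm3 e1 e2 e3 (by norm_num) (by norm_num)
    (by norm_num) (by rw [sextets_ncard])⟩

/-- The stabiliser of an octad in the group of the length-24 code has exactly three orbits on the 3795 trios, of sizes 15, 420 and 3360, and exactly three orbits on the 1771 sextets, of sizes 35, 840 and 896. -/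
theorem result (o : Finset Cfsg.GolayPt) (ho : o ∈ Cfsg.octads) : (∃ X₁ ∈ Cfsg.trios, ∃ X₂ ∈ Cfsg.trios, ∃ X₃ ∈ Cfsg.trios, (MulAction.orbit ↥(MulAction.stabilizer Cfsg.M24 o) X₁).ncard = 15 ∧ (MulAction.orbit ↥(MulAction.stabilizer Cfsg.M24 o) X₂).ncard = 420 ∧ (MulAction.orbit ↥(MulAction.stabilizer Cfsg.M24 o) X₃).ncard = 3360 ∧ Cfsg.trios = MulAction.orbit ↥(MulAction.stabilizer Cfsg.M24 o) X₁ ∪ MulAction.orbit ↥(MulAction.stabilizer Cfsg.M24 o) X₂ ∪ MulAction.orbit ↥(MulAction.stabilizer Cfsg.M24 o) X₃) ∧ (∃ Y₁ ∈ Cfsg.sextets, ∃ Y₂ ∈ Cfsg.sextets, ∃ Y₃ ∈ Cfsg.sextets, (MulAction.orbit ↥(MulAction.stabilizer Cfsg.M24 o) Y₁).ncard = 35 ∧ (MulAction.orbit ↥(MulAction.stabilizer Cfsg.M24 o) Y₂).ncard = 840 ∧ (MulAction.orbit ↥(MulAction.stabilizer Cfsg.M24 o) Y₃).ncard = 896 ∧ Cfsg.sextets = MulAction.orbit ↥(MulAction.stabilizer Cfsg.M24 o) Y₁ ∪ MulAction.orbit ↥(MulAction.stabilizer Cfsg.M24 o) Y₂ ∪ MulAction.orbit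 ↥(MulAction.stabilizer Cfsg.M24 o) Y₃) := by
  exact ⟨part1 o ho, part2 o ho⟩

end Cfsg.Agent.S5610
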