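import Cfsg.Statements.S5611
import Cfsg.Agent.H29.M24Orb2

set_option autoImplicit false
open scoped Pointwise
open Cfsg

namespace Cfsg.Agent.S5611

open Cfsg Cfsg.Agent.H7 Cfsg.Agent.H29
open scoped Pointwise

theorem hs (m : ℕ) (hm : Nat.beq (popc m) 4 = true) : sext (toSet m) ∈ sextets :=
  mem_sextets_iff.2 ⟨_, by rw [card_toSet]; exact Nat.eq_of_beq_eq_true hm, rfl⟩

theorem smapOf {m : ℕ} (hm : Nat.beq (popc m) 4 = true) {S : Finset (Finset GolayPt)}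
    (hS : S ∈ sextets) : ∃ g ∈ M24, g • sext (toSet m) = S := sextet_transitive (hs m hm) hS

theorem part1 (S : Finset (Finset GolayPt)) (hS : S ∈ sextets) : ∃ X₁ ∈ octads, ∃ X₂ ∈ octads, ∃ X₃ ∈ octads, (MulAction.orbit ↥(MulAction.stabilizer M24 S) X₁).ncard = 15 ∧ (MulAction.orbit ↥(MulAction.stabilizer M24 S) X₂).ncard = 360 ∧ (MulAction.orbit ↥(MulAction.stabilizer M24 S) X₃).ncard = 384 ∧ octads = MulAction.orbit ↥(MulAction.stabilizer M24 S) X₁ ∪ MulAction.orbit ↥(MulAction.stabilizer M24 S) X₂ ∪ MulAction.orbit ↥(MulAction.stabilizer M24 S) X₃ := by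
  obtain ⟨g1, hg1, h1⟩ := smapOf (m := 8388615) (by decide +kernel) hS
  obtain ⟨g2, hg2, h2⟩ := smapOf (m := 11010049) (by decide +kernel) hS
  obtain ⟨g3, hg3, h3⟩ := smapOf (m := 9437193) (by decide +kernel) hS
  have hm1 : g1 • toSet oct0 ∈ octads := M24_smul_octad hg1 oct0_octad
  have hm2 : g2 • toSet oct0 ∈ octads := M24_smul_octad hg2 oct0_octad
  have hm3 : g3 • toSet oct0 ∈ octads := M24_smul_octad hg3 oct0_octad
  have j1 : JS S (g1 • toSet oct0) 9216 := by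
    rw [← h1]; exact (JS_oct oct0_octad js_O_S35).symm.smul hg1
  have j2 : JS S (g2 • toSet oct0) 384 := by
    rw [← h2]; exact (JS_oct oct0_octad js_O_S840).symm.smul hg2
  have j3 : JS S (g3 • toSet oct0) 360 := by
    rw [← h3]; exact (JS_oct oct0_octad js_O_S896).symm.smul hg3
  have e1 := orbit_card_of_JS (k := 15) (stab_sextet hS) j1 (by norm_num) (by norm_num)
  have e2 := orbit_card_of_JS (k := 360) (stab_sextet hS) j2 (by norm_num) (by norm_num)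
  have e3 := orbit_card_of_JS (k := 384) (stab_sextet hS) j3 (by norm_num) (by norm_num)
  exact ⟨_, hm1, _, hm2, _, hm3, e1, e2, e3, decomp3 (MulAction.stabilizer ↥M24 S) _ (Set.toFinite _)
    (fun σ _ x hx => M24_smul_octad σ.2 hx) hm1 hm2 hm3 e1 e2 e3 (by norm_num) (by norm_num)
    (by norm_num) (by rw [octads_ncard])⟩

theorem part2 (S : Finset (Finset GolayPt)) (hS : S ∈ sextets) : ∃ Y₁ ∈ Cfsg.trios, ∃ Y₂ ∈ Cfsg.trios, ∃ Y₃ ∈ Cfsg.trios, ∃ Y₄ ∈ Cfsg.trios, (MulAction.orbit ↥(MulAction.stabilizer Cfsg.M24 S) Y₁).ncard = 15 ∧ (MulAction.orbit ↥(MulAction.stabilizer Cfsg.M24 S) Y₂).ncard = 180 ∧ (MulAction.orbit ↥(MulAction.stabilizer Cfsg.M24 S) Y₃).ncard = 720 ∧ (MulAction.orbit ↥(MulAction.stabilizer Cfsg.M24 S) Y₄).ncard = 2880 ∧ Cfsg.trios = MulAction.orbit ↥(MulAction.stabilizer Cfsg.M24 S) Y₁ ∪ MulAction.orbit ↥(MulAction.stabilizer Cfsg.M24 S) Y₂ ∪ MulAction.orbit ↥(MulAction.stabilizer Cfsg.M24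 S) Y₃ ∪ MulAction.orbit ↥(MulAction.stabilizer Cfsg.M24 S) Y₄ := by
  obtain ⟨g, hg, h⟩ := smapOf (m := 8388615) (by decide +kernel) hS
  have hm1 : g • sT15.π ∈ trios := smul_trio hg (trio_mem (by decide +kernel))
  have hm2 : g • sT180.π ∈ trios := smul_trio hg (trio_mem (by decide +kernel))
  have hm3 : g • sT720.π ∈ trios := smul_trio hg (trio_mem (by decide +kernel))
  have hm4 : g • sT2880.π ∈ trios := smul_trio hg (trio_mem (by decide +kernel))
  have j1 : JS S (g • sT15.π) 9216 := by rw [← h]; exact js_S_T15.smul hg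
  have j2 : JS S (g • sT180.π) 768 := by rw [← h]; exact js_S_T180.smul hg
  have j3 : JS S (g • sT720.π) 192 := by rw [← h]; exact js_S_T720.smul hg
  have j4 : JS S (g • sT2880.π) 48 := by rw [← h]; exact js_S_T2880.smul hg
  have e1 := orbit_card_of_JS (k := 15) (stab_sextet hS) j1 (by norm_num) (by norm_num)
  have e2 := orbit_card_of_JS (k := 180) (stab_sextet hS) j2 (by norm_num) (by norm_num)
  have e3 := orbit_card_of_JS (k := 720) (stab_sextet hS) j3 (by norm_num) (by norm_num)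
  have e4 := orbit_card_of_JS (k := 2880) (stab_sextet hS) j4 (by norm_num) (by norm_num)
  exact ⟨_, hm1, _, hm2, _, hm3, _, hm4, e1, e2, e3, e4, decomp4 (MulAction.stabilizer ↥M24 S) _
    (Set.toFinite _)
    (fun σ _ x hx => smul_trio σ.2 hx) hm1 hm2 hm3 hm4 e1 e2 e3 e4 (by norm_num) (by norm_num)
    (by norm_num) (by norm_num) (by norm_num) (by norm_num) (by rw [trios_ncard])⟩

/-- The stabiliser of a sextet in the group of the length-24 code has exactly three orbits on the 759 octads, of sizes 15, 360 and 384, and exactly four orbits on the 3795 trios, of sizes 15, 180, 720 and 2880. -/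
theorem result (S : Finset (Finset Cfsg.GolayPt)) (hS : S ∈ Cfsg.sextets) : (∃ X₁ ∈ Cfsg.octads, ∃ X₂ ∈ Cfsg.octads, ∃ X₃ ∈ Cfsg.octads, (MulAction.orbit ↥(MulAction.stabilizer Cfsg.M24 S) X₁).ncard = 15 ∧ (MulAction.orbit ↥(MulAction.stabilizer Cfsg.M24 S) X₂).ncard = 360 ∧ (MulAction.orbit ↥(MulAction.stabilizer Cfsg.M24 S) X₃).ncard = 384 ∧ Cfsg.octads = MulAction.orbit ↥(MulAction.stabilizer Cfsg.M24 S) X₁ ∪ MulAction.orbit ↥(MulAction.stabilizer Cfsg.M24 S) X₂ ∪ MulAction.orbit ↥(MulAction.stabilizer Cfsg.M24 S) X₃) ∧ (∃ Y₁ ∈ Cfsg.trios, ∃ Y₂ ∈ Cfsg.trios, ∃ Y₃ ∈ Cfsg.trios, ∃ Y₄ ∈ Cfsg.trios, (MulAction.orbit ↥(MulAction.stabilizer Cfsg.M24 S) Y₁).ncard = 15 ∧ (MulAction.orbit ↥(MulAction.stabilizer Cfsg.M24 S) Y₂).ncard = 180 ∧ (MulAction.orbit ↥(MulAction.stabilizer Cfsg.M24 S) Y₃).ncard = 720 ∧ (MulAction.orbit ↥(MulAction.stabilizer Cfsg.M24 S) Y₄).ncard = 2880 ∧ Cfsg.trios = MulAction.orbit ↥(MulAction.stabilizer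 Cfsg.M24 S) Y₁ ∪ MulAction.orbit ↥(MulAction.stabilizer Cfsg.M24 S) Y₂ ∪ MulAction.orbit ↥(MulAction.stabilizer Cfsg.M24 S) Y₃ ∪ MulAction.orbit ↥(MulAction.stabilizer Cfsg.M24 S) Y₄) := by
  exact ⟨part1 S hS, part2 S hS⟩

end Cfsg.Agent.S5611
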