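import Cfsg.Statements.S5612
import Cfsg.Agent.H29.M24Orb2

set_option autoImplicit false
open scoped Pointwise
open Cfsg

namespace Cfsg.Agent.S5612

open Cfsg Cfsg.Agent.H7 Cfsg.Agent.H29
open scoped Pointwise

theorem hs (m : ℕ) (hm : Nat.beq (popc m) 4 = true) : sext (toSet m) ∈ sextets :=
  mem_sextets_iff.2 ⟨_, by rw [card_toSet]; exact Nat.eq_of_beq_eq_true hm, rfl⟩

theorem tmapOf {a b : ℕ} (h : trOK a b = true) {T : Finset (Finset GolayPt)}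
    (hT : T ∈ trios) : ∃ g ∈ M24, g • trio a b = T := trio_transitive (trio_mem h) hT

theorem part1 (T : Finset (Finset GolayPt)) (hT : T ∈ trios) : ∃ X₁ ∈ octads, ∃ X₂ ∈ octads, ∃ X₃ ∈ octads, (MulAction.orbit ↥(MulAction.stabilizer M24 T) X₁).ncard = 3 ∧ (MulAction.orbit ↥(MulAction.stabilizer M24 T) X₂).ncard = 84 ∧ (MulAction.orbit ↥(MulAction.stabilizer M24 T) X₃).ncard = 672 ∧ octads = MulAction.orbit ↥(MulAction.stabilizer M24 T) X₁ ∪ MulAction.orbit ↥(MulAction.stabilizer M24 T) X₂ ∪ MulAction.orbit ↥(MulAction.stabilizer M24 T) X₃ := by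
  obtain ⟨x, hx⟩ : T.Nonempty := by rw [← Finset.card_pos, hT.1]; norm_num
  obtain ⟨g2, hg2, h2⟩ := tmapOf (a := 11952160) (b := 5279) (by decide +kernel) hT
  obtain ⟨g3, hg3, h3⟩ := tmapOf (a := 8688833) (b := 3672838) (by decide +kernel) hT
  have hm1 : x ∈ octads := hT.2.1 x hx
  have hm2 : g2 • toSet oct0 ∈ octads := M24_smul_octad hg2 oct0_octad
  have hm3 : g3 • toSet oct0 ∈ octads := M24_smul_octad hg3 oct0_octad
  have j1 : JS T x 21504 := (js_O_T15 hm1 hT hx).symm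
  have j2 : JS T (g2 • toSet oct0) 768 := by
    rw [← h2]; exact (JS_oct oct0_octad js_O_T420).symm.smul hg2
  have j3 : JS T (g3 • toSet oct0) 96 := by
    rw [← h3]; exact (JS_oct oct0_octad js_O_T3360).symm.smul hg3
  have e1 := orbit_card_of_JS (k := 3) (stab_trio hT) j1 (by norm_num) (by norm_num)
  have e2 := orbit_card_of_JS (k := 84) (stab_trio hT) j2 (by norm_num) (by norm_num)
  have e3 := orbit_card_of_JS (k := 672) (stab_trio hT) j3 (by norm_num) (by norm_num)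
  exact ⟨_, hm1, _, hm2, _, hm3, e1, e2, e3, decomp3 (MulAction.stabilizer ↥M24 T) _ (Set.toFinite _)
    (fun σ _ x hx => M24_smul_octad σ.2 hx) hm1 hm2 hm3 e1 e2 e3 (by norm_num) (by norm_num)
    (by norm_num) (by rw [octads_ncard])⟩

theorem part2 (T : Finset (Finset GolayPt)) (hT : T ∈ trios) : ∃ Y₁ ∈ Cfsg.sextets, ∃ Y₂ ∈ Cfsg.sextets, ∃ Y₃ ∈ Cfsg.sextets, ∃ Y₄ ∈ Cfsg.sextets, (MulAction.orbit ↥(MulAction.stabilizer Cfsg.M24 T) Y₁).ncard = 7 ∧ (MulAction.orbit ↥(MulAction.stabilizer Cfsg.M24 T) Y₂).ncard = 84 ∧ (MulAction.orbit ↥(MulAction.stabilizer Cfsg.M24 T) Y₃).ncard = 336 ∧ (MulAction.orbit ↥(MulAction.stabilizer Cfsg.M24 T) Y₄).ncard = 1344 ∧ Cfsg.sextets = MulAction.orbit ↥(MulAction.stabilizer Cfsg.M24 T) Y₁ ∪ MulAction.orbit ↥(MulAction.stabilizer Cfsg.M24 T) Y₂ ∪ MulAction.orbit ↥(MulAction.stabilizer Cfsg.M24 T) Y₃ ∪ MulAction.orbit ↥(MulAction.stabilizer Cfsg.M24 T) Y₄ := by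
  obtain ⟨g1, hg1, h1⟩ := tmapOf (a := 8536111) (b := 2890176) (by decide +kernel) hT
  obtain ⟨g2, hg2, h2⟩ := tmapOf (a := 8937586) (b := 1351424) (by decide +kernel) hT
  obtain ⟨g3, hg3, h3⟩ := tmapOf (a := 12641313) (b := 919694) (by decide +kernel) hT
  obtain ⟨g4, hg4, h4⟩ := tmapOf (a := 8966165) (b := 198058) (by decide +kernel) hT
  have hm0 : oS35.π ∈ sextets := hs _ (by decide +kernel)
  have hm1 : g1 • oS35.π ∈ sextets := smul_sextet hg1 hm0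
  have hm2 : g2 • oS35.π ∈ sextets := smul_sextet hg2 hm0
  have hm3 : g3 • oS35.π ∈ sextets := smul_sextet hg3 hm0
  have hm4 : g4 • oS35.π ∈ sextets := smul_sextet hg4 hm0
  have j1 : JS T (g1 • oS35.π) 9216 := by rw [← h1]; exact js_S_T15.symm.smul hg1
  have j2 : JS T (g2 • oS35.π) 768 := by rw [← h2]; exact js_S_T180.symm.smul hg2
  have j3 : JS T (g3 • oS35.π) 192 := by rw [← h3]; exact js_S_T720.symm.smul hg3
  have j4 : JS T (g4 • oS35.π) 48 := by rw [← h4]; exact js_S_T2880.symm.smul hg4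
  have e1 := orbit_card_of_JS (k := 7) (stab_trio hT) j1 (by norm_num) (by norm_num)
  have e2 := orbit_card_of_JS (k := 84) (stab_trio hT) j2 (by norm_num) (by norm_num)
  have e3 := orbit_card_of_JS (k := 336) (stab_trio hT) j3 (by norm_num) (by norm_num)
  have e4 := orbit_card_of_JS (k := 1344) (stab_trio hT) j4 (by norm_num) (by norm_num)
  exact ⟨_, hm1, _, hm2, _, hm3, _, hm4, e1, e2, e3, e4, decomp4 (MulAction.stabilizer ↥M24 T) _
    (Set.toFinite _)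
    (fun σ _ x hx => smul_sextet σ.2 hx) hm1 hm2 hm3 hm4 e1 e2 e3 e4 (by norm_num) (by norm_num)
    (by norm_num) (by norm_num) (by norm_num) (by norm_num) (by rw [sextets_ncard])⟩

/-- The stabiliser of a trio in the group of the length-24 code has exactly three orbits on the 759 octads, of sizes 3, 84 and 672, and exactly four orbits on the 1771 sextets, of sizes 7, 84, 336 and 1344. -/
theorem result (T : Finset (Finset Cfsg.GolayPt)) (hT : T ∈ Cfsg.trios) : (∃ X₁ ∈ Cfsg.octads, ∃ X₂ ∈ Cfsg.octads, ∃ X₃ ∈ Cfsg.octads, (MulAction.orbit ↥(MulAction.stabilizer Cfsg.M24 T) X₁).ncard = 3 ∧ (MulAction.orbit ↥(MulAction.stabilizer Cfsg.M24 T) X₂).ncard = 84 ∧ (MulAction.orbit ↥(MulAction.stabilizer Cfsg.M24 T) X₃).ncard = 672 ∧ Cfsg.octads = MulAction.orbit ↥(MulAction.stabilizer Cfsg.M24 T) X₁ ∪ MulAction.orbit ↥(MulAction.stabilizer Cfsg.M24 T) X₂ ∪ MulAction.orbit ↥(MulAction.stabilizer Cfsg.M24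 T) X₃) ∧ (∃ Y₁ ∈ Cfsg.sextets, ∃ Y₂ ∈ Cfsg.sextets, ∃ Y₃ ∈ Cfsg.sextets, ∃ Y₄ ∈ Cfsg.sextets, (MulAction.orbit ↥(MulAction.stabilizer Cfsg.M24 T) Y₁).ncard = 7 ∧ (MulAction.orbit ↥(MulAction.stabilizer Cfsg.M24 T) Y₂).ncard = 84 ∧ (MulAction.orbit ↥(MulAction.stabilizer Cfsg.M24 T) Y₃).ncard = 336 ∧ (MulAction.orbit ↥(MulAction.stabilizer Cfsg.M24 T) Y₄).ncard = 1344 ∧ Cfsg.sextets = MulAction.orbit ↥(MulAction.stabilizer Cfsg.M24 T) Y₁ ∪ MulAction.orbit ↥(MulAction.stabilizer Cfsg.M24 T) Y₂ ∪ MulAction.orbit ↥(MulAction.stabilizer Cfsg.M24 T) Y₃ ∪ MulAction.orbit ↥(MulAction.stabilizer Cfsg.M24 T) Y₄) := by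
  exact ⟨part1 T hT, part2 T hT⟩

end Cfsg.Agent.S5612
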