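import Cfsg.Statements.S5613
import Cfsg.Agent.H29.M24Orb2

set_option autoImplicit false
open scoped Pointwise
open Cfsg

namespace Cfsg.Agent.S5613

open Cfsg Cfsg.Agent.H7 Cfsg.Agent.H29
open scoped Pointwise

theorem jcard {o o' : Finset GolayPt} {n : ℕ} (h : JS o o' n) :
    Nat.card ↥(MulAction.stabilizer M24 o ⊓ MulAction.stabilizer M24 o') = n := by
  rw [card_sub_M24 _ (fun σ => σ • o = o ∧ σ • o' = o')]
  · exact h
  · intro g
    rw [Subgroup.mem_inf]
    exact Iff.rfl

/-- In the group of the length-24 code, the joint stabiliser of two octads has order 10752, 1152 or 720 according as the octads meet in 0, 4 or 2 points. -/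
theorem result (o o' : Finset Cfsg.GolayPt) (ho : o ∈ Cfsg.octads) (ho' : o' ∈ Cfsg.octads) : ((o ∩ o').card = 0 → Nat.card ↥(MulAction.stabilizer Cfsg.M24 o ⊓ MulAction.stabilizer Cfsg.M24 o') = 10752) ∧ ((o ∩ o').card = 4 → Nat.card ↥(MulAction.stabilizer Cfsg.M24 o ⊓ MulAction.stabilizer Cfsg.M24 o') = 1152) ∧ ((o ∩ o').card = 2 → Nat.card ↥(MulAction.stabilizer Cfsg.M24 o ⊓ MulAction.stabilizer Cfsg.M24 o') = 720) := by
  refine ⟨fun h => ?_, fun h => ?_, fun h => ?_⟩
  · have hd : Disjoint o o' := by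
      rw [Finset.disjoint_iff_inter_eq_empty]; exact Finset.card_eq_zero.1 h
    obtain ⟨σ, hσ, h1, h2⟩ := disj_transitive oct0_octad disj0_octad ho ho' disj0_disj hd
    rw [← h1, ← h2]
    exact jcard (js_O_O30.smul hσ)
  · obtain ⟨σ, hσ, h1, h2⟩ := meet4_transitive ho ho' h
    rw [← h1, ← h2]
    exact jcard ((js_oct o280_octad js_O_O280).smul hσ)
  · obtain ⟨σ, hσ, h1, h2⟩ := meet2_transitive ho ho' h
    rw [← h1, ← h2]
    exact jcard ((js_oct o448_octad js_O_O448).smul hσ)

end Cfsg.Agent.S5613
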