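import Cfsg.Statements.S5614
import Cfsg.Agent.H29.M24List

set_option autoImplicit false
open scoped Pointwise
open Cfsg

namespace Cfsg.Agent.S5614

open Cfsg Cfsg.Agent.H7 Cfsg.Agent.H29
open scoped Pointwise

def mm : ℕ := 2019456
def mpts : List ℕ := [7, 12, 14, 15, 17, 18, 19, 20]

theorem mm_octad : toSet mm ∈ octads := (isOct_spec (m := mm) (by decide +kernel)).1

def ms : List (ℕ × List ℕ) := [(8388608, [23]), (1, [0]), (2, [1]), (4, [2]), (8, [3]), (32, [5]),
  (mm, mpts)]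

theorem one_fix : {σ | σ ∈ M24 ∧ StabMs ms σ}.ncard = 1 :=
  card_stabMs (by decide +kernel) (by decide +kernel)

theorem eq_one {σ : Equiv.Perm GolayPt} (hσ : σ ∈ M24) (h : StabMs ms σ) : σ = 1 := by
  obtain ⟨a, ha⟩ := Set.ncard_eq_one.1 one_fix
  have h1 : σ ∈ {σ | σ ∈ M24 ∧ StabMs ms σ} := ⟨hσ, h⟩
  have h2 : (1 : Equiv.Perm GolayPt) ∈ {σ | σ ∈ M24 ∧ StabMs ms σ} :=
    ⟨M24.one_mem, fun _ _ => one_smul _ _⟩
  rw [ha] at h1 h2
  exact h1.trans h2.symm

theorem base_iso : Nonempty (↥(MulAction.stabilizer M24 (toSet oct0) ⊓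
    MulAction.stabilizer M24 (toSet mm)) ≃* Equiv.Perm (Fin 6)) := by
  have hcap : (toSet oct0 ∩ toSet mm).card = 2 := by
    rw [← toSet_and, card_toSet]; decide +kernel
  obtain ⟨g, hg, h1, h2⟩ := meet2_transitive oct0_octad mm_octad hcap
  have hJ : JS (toSet oct0) (toSet mm) 720 := by
    have h3 := (js_oct o448_octad js_O_O448).smul hg
    rwa [h1, h2] at h3
  have hinv : ∀ σ ∈ (MulAction.stabilizer M24 (toSet oct0) ⊓ MulAction.stabilizer M24 (toSet mm) : Subgroup ↥M24),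
      (σ : Equiv.Perm GolayPt) • (toSet oct0 \ toSet mm) = toSet oct0 \ toSet mm := by
    intro σ hσ
    rw [Subgroup.mem_inf] at hσ
    have h3 : (σ : Equiv.Perm GolayPt) • toSet oct0 = toSet oct0 := hσ.1
    have h4 : (σ : Equiv.Perm GolayPt) • toSet mm = toSet mm := hσ.2
    rw [Finset.smul_finset_sdiff, h3, h4]
  refine perm6_of _ (toSet oct0 \ toSet mm) (by decide +kernel) hinv ?_ ?_
  · intro σ hσ hp
    apply Subtype.ext
    apply eq_one σ.2
    rw [Subgroup.mem_inf] at hσ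
    have h4 : (σ : Equiv.Perm GolayPt) • toSet mm = toSet mm := hσ.2
    have hpt : ∀ i < 24, gpt i ∈ toSet oct0 \ toSet mm →
        (σ : Equiv.Perm GolayPt) • toSet (1 <<< i) = toSet (1 <<< i) := fun i hi h =>
      (smul_single hi).2 (hp _ h)
    intro e he
    simp only [ms, List.mem_cons, List.not_mem_nil, or_false] at he
    rcases he with rfl | rfl | rfl | rfl | rfl | rfl | rfl
    · exact hpt 23 (by norm_num) (by decide +kernel)
    · exact hpt 0 (by norm_num) (by decide +kernel)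
    · exact hpt 1 (by norm_num) (by decide +kernel)
    · exact hpt 2 (by norm_num) (by decide +kernel)
    · exact hpt 3 (by norm_num) (by decide +kernel)
    · exact hpt 5 (by norm_num) (by decide +kernel)
    · exact h4
  · rw [card_sub_M24 _ (fun σ => σ • toSet oct0 = toSet oct0 ∧ σ • toSet mm = toSet mm)]
    · exact (show {σ | σ ∈ M24 ∧ (σ • toSet oct0 = toSet oct0 ∧ σ • toSet mm = toSet mm)}.ncard = 720 from hJ).ge
    · intro g
      rw [Subgroup.mem_inf]
      exact Iff.rfl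

/-- In the group of the length-24 code, the joint stabiliser of two octads meeting in exactly two points is isomorphic to the symmetric group of degree 6. -/
theorem result (o o' : Finset Cfsg.GolayPt) (ho : o ∈ Cfsg.octads) (ho' : o' ∈ Cfsg.octads) (h₂ : (o ∩ o').card = 2) : Nonempty (↥(MulAction.stabilizer Cfsg.M24 o ⊓ MulAction.stabilizer Cfsg.M24 o') ≃* Equiv.Perm (Fin 6)) := by
  have hcap : (toSet oct0 ∩ toSet mm).card = 2 := by
    rw [← toSet_and, card_toSet]; decide +kernel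
  obtain ⟨g, hg, h1, h3⟩ := meet2_transitive oct0_octad mm_octad hcap
  obtain ⟨g', hg', h1', h3'⟩ := meet2_transitive ho ho' h₂
  obtain ⟨f⟩ := base_iso
  have e1 : (⟨g' * g⁻¹, M24.mul_mem hg' (M24.inv_mem hg)⟩ : ↥M24) • toSet oct0 = o := by
    show (g' * g⁻¹) • toSet oct0 = o
    rw [mul_smul]
    nth_rw 1 [← h1]
    rw [inv_smul_smul, h1']
  have e2 : (⟨g' * g⁻¹, M24.mul_mem hg' (M24.inv_mem hg)⟩ : ↥M24) • toSet mm = o' := by
    show (g' * g⁻¹) • toSet mm = o'
    rw [mul_smul, ← h3, inv_smul_smul, h3']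
  obtain ⟨e⟩ := stab2_equiv (⟨g' * g⁻¹, M24.mul_mem hg' (M24.inv_mem hg)⟩ : ↥M24) (toSet oct0) (toSet mm)
  rw [e1, e2] at e
  exact ⟨e.trans f⟩

end Cfsg.Agent.S5614
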