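import Cfsg.Statements.S5615
import Cfsg.Agent.H29.M24List

set_option autoImplicit false
open scoped Pointwise
open Cfsg

namespace Cfsg.Agent.S5615

open Cfsg Cfsg.Agent.H7 Cfsg.Agent.H29
open scoped Pointwise

/-! ### two-transitivity -/

def codes14 : List ℕ := [0x15ab424827601af5a12a818732de2e, 0x8c0ea32ee4486d243e8c9d40d10dc5, 0xae8cb1a2a9ba047a5b241cb500ae3, 0xbd18bac826981167b5478244474465, 0xbeb62244a9de54634e83422b70ca0, 0x1ac94b404a785359a24d31e2c281d7, 0x8a5a8812ec901663d1f69d5ca188a1, 0x2a5079500433ad06ad8face2a10c37, 0xbc12a92c0f4398669274b54672c441, 0x1d9f4634275961322146926f570a20, 0x89a095502f68c8744d965d452bb8a0, 0x190955ae493a67831f5a2c2d2c443, 0x8a9266cc24909e83aeacb51d028c17, 0x1b51033c0b48a67932b62502a744b7]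

def b0 : ℕ := 337856
def b1 : ℕ := 628112

theorem codes14_ok : (codes14.all fun c => okPerm c && Nat.beq (pim c oct0) oct0 &&
    fixTr c oct0 b0 oct0 b0) = true := by decide +kernel

theorem t0_ok : trOK oct0 b0 = true := by decide +kernel
theorem t1_ok : trOK oct0 b1 = true := by decide +kernel

theorem codes14_cover : allLt 12 3795 (fun i => bif memTr oct0 (trAE i) (trBE i) then
    (bif Nat.beq (trBE i) b0 then true else codes14.any fun c => fixTr c oct0 b1 (trAE i) (trBE i))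
    else true) = true := by
  decide +kernel

theorem oct_eq (a b : ℕ) (h : trOK a b = true) (hm : memTr oct0 a b = true) : a = oct0 := by
  obtain ⟨ha, hb, oa, ob, oc, hab, hac, hbc, hlt, h23⟩ := trOK_spec h
  have h1 := (memTr_iff oct0_lt ha hb).1 hm
  simp only [trio, Finset.mem_insert, Finset.mem_singleton] at h1
  have h2 : gpt 23 ∈ toSet oct0 := by decide +kernel
  rcases h1 with h1 | h1 | h1
  · exact toSet_inj ha oct0_lt h1.symm
  · rw [h1] at h2
    exact absurd h2 (Finset.disjoint_left.1 hab h23)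
  · rw [h1] at h2
    exact absurd h2 (Finset.disjoint_left.1 hac h23)

theorem two_trans0 {T : Finset (Finset GolayPt)} (hT : T ∈ trios) (ho : toSet oct0 ∈ T)
    (hne : T ≠ trio oct0 b0) : ∃ σ ∈ M24, σ • toSet oct0 = toSet oct0 ∧
      σ • trio oct0 b0 = trio oct0 b0 ∧ σ • trio oct0 b1 = T := by
  obtain ⟨i, hi, rfl⟩ := mem_trios_iff.1 hT
  have hok := allLt_spec (by norm_num) tr_ok i hi
  have hok' := trOK_spec hok
  have hm : memTr oct0 (trAE i) (trBE i) = true := (memTr_iff oct0_lt hok'.1 hok'.2.1).2 ho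
  have h1 := allLt_spec (by norm_num) codes14_cover i hi
  rw [hm, cond_true] at h1
  have h2 : Nat.beq (trBE i) b0 = false := by
    by_contra hc
    rw [Bool.not_eq_false] at hc
    apply hne
    rw [Nat.eq_of_beq_eq_true hc, oct_eq _ _ hok hm]
  rw [h2, cond_false, List.any_eq_true] at h1
  obtain ⟨c, hc, h3⟩ := h1
  have h4 := codes14_ok
  rw [List.all_eq_true] at h4
  have h5 := h4 c hc
  rw [Bool.and_eq_true, Bool.and_eq_true] at h5
  have hp := okPerm_isPerm h5.1.1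
  refine ⟨mkPerm c, mkPerm_mem_M24 h5.1.1, ?_, ?_, ?_⟩
  · rw [smul_toSet hp, ← pim_eq, Nat.eq_of_beq_eq_true h5.1.2]
  · exact (fixTr_iff h5.1.1 t0_ok t0_ok).1 h5.2
  · exact (fixTr_iff h5.1.1 t1_ok hok).1 h3

theorem from_base {o : Finset GolayPt} (ho : o ∈ octads) {T₁ T₂ : Finset (Finset GolayPt)}
    (h1 : T₁ ∈ trios) (h2 : T₂ ∈ trios) (ho1 : o ∈ T₁) (ho2 : o ∈ T₂) (hne : T₁ ≠ T₂) :
    ∃ σ ∈ M24, σ • toSet oct0 = o ∧ σ • trio oct0 b0 = T₁ ∧ σ • trio oct0 b1 = T₂ := by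
  obtain ⟨g, hg, hgo⟩ := octad_transitive oct0_octad ho
  have ht0 : g • trio oct0 b0 ∈ trios := smul_trio hg (trio_mem t0_ok)
  have hm0 : o ∈ g • trio oct0 b0 := by
    rw [← hgo]; exact Finset.smul_mem_smul_finset (by simp [trio])
  obtain ⟨k, hk, hko, hkT⟩ := trios_oct_transitive ht0 h1 hm0 ho1
  have hkg : (k * g) ∈ M24 := M24.mul_mem hk hg
  have e1 : (k * g) • toSet oct0 = o := by rw [mul_smul, hgo, hko]
  have e2 : (k * g) • trio oct0 b0 = T₁ := by rw [mul_smul, hkT]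
  obtain ⟨σ, hσ, h3, h4, h5⟩ := two_trans0 (T := (k * g)⁻¹ • T₂) (smul_trio (M24.inv_mem hkg) h2)
    (by rw [← inv_smul_smul (k * g) (toSet oct0), e1]; exact Finset.smul_mem_smul_finset ho2)
    (by
      intro h
      apply hne
      rw [← e2, ← h, smul_inv_smul])
  refine ⟨(k * g) * σ, M24.mul_mem hkg hσ, ?_, ?_, ?_⟩
  · rw [mul_smul, h3, e1]
  · rw [mul_smul, h4, e2]
  · rw [mul_smul, h5, smul_inv_smul]

/-! ### the kernel -/

theorem sb6_check : allLt 12 3795 (fun i => bif memTr oct0 (trAE i) (trBE i) then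
    (gTrans.getD 6 []).all fun t => fixTr t (trAE i) (trBE i) (trAE i) (trBE i) else true) = true := by
  decide +kernel

theorem sb6_fix {s : Equiv.Perm GolayPt} (hs : s ∈ SB 6) {T : Finset (Finset GolayPt)}
    (hT : T ∈ trios) (ho : toSet oct0 ∈ T) : s • T = T := by
  obtain ⟨i, hi, rfl⟩ := mem_trios_iff.1 hT
  have hok := allLt_spec (by norm_num) tr_ok i hi
  have hok' := trOK_spec hok
  have hm : memTr oct0 (trAE i) (trBE i) = true := (memTr_iff oct0_lt hok'.1 hok'.2.1).2 ho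
  have h1 := allLt_spec (by norm_num) sb6_check i hi
  rw [hm, cond_true] at h1
  exact SB6_fix_trio hok h1 hs

theorem mem_SB6 {σ : Equiv.Perm GolayPt} (hσ : σ ∈ M24) (h : ∀ p ∈ toSet oct0, σ p = p) :
    σ ∈ SB 6 := by
  refine ⟨hσ, ?_⟩
  intro i hi
  apply h
  interval_cases i <;> decide +kernel

def PP (σ : Equiv.Perm GolayPt) : Prop := σ • toSet oct0 = toSet oct0 ∧
  (σ • trio oct0 337856 = trio oct0 337856 ∧ (σ • trio oct0 628112 = trio oct0 628112 ∧
    (σ • trio oct0 1161408 = trio oct0 1161408 ∧ σ • trio oct0 2141072 = trio oct0 2141072)))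

def l0 : List ℕ := [0, 1, 2, 3, 5, 14, 17, 23]

theorem PP_leaf : LeafIff PP (fun f => bif lfSet l0 oct0 f then (bif lfTri l0 [6, 7, 8, 9, 10, 13, 16, 18] oct0 337856 f then
    (bif lfTri l0 [4, 7, 8, 10, 12, 15, 16, 19] oct0 628112 f then
    (bif lfTri l0 [6, 7, 11, 12, 13, 15, 16, 20] oct0 1161408 f then
      lfTri l0 [4, 7, 8, 9, 11, 13, 15, 21] oct0 2141072 f else false) else false) else false) else false) :=
  LeafIff.and (lfSet_iff (by decide +kernel) oct0_lt)
    (LeafIff.and (lfTri_iff (by decide +kernel) (by decide +kernel) (by decide +kernel) (by decide +kernel))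
    (LeafIff.and (lfTri_iff (by decide +kernel) (by decide +kernel) (by decide +kernel) (by decide +kernel))
    (LeafIff.and (lfTri_iff (by decide +kernel) (by decide +kernel) (by decide +kernel) (by decide +kernel))
      (lfTri_iff (by decide +kernel) (by decide +kernel) (by decide +kernel) (by decide +kernel)))))

theorem PP_inv : Inv6 PP :=
  Inv6.and (Inv6_of_fix fun _ hs => SB6_fix_octad hs)
    (Inv6.and (Inv6_of_fix fun _ hs => sb6_fix hs (trio_mem (by decide +kernel)) (by simp [trio]))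
    (Inv6.and (Inv6_of_fix fun _ hs => sb6_fix hs (trio_mem (by decide +kernel)) (by simp [trio]))
    (Inv6.and (Inv6_of_fix fun _ hs => sb6_fix hs (trio_mem (by decide +kernel)) (by simp [trio]))
      (Inv6_of_fix fun _ hs => sb6_fix hs (trio_mem (by decide +kernel)) (by simp [trio])))))

theorem PP_card : {σ | σ ∈ M24 ∧ PP σ}.ncard = 16 :=
  card_of_coset PP_leaf PP_inv ((prM_sound oct0 oct0).mono fun _ _ h => h.1) (by decide +kernel)

theorem PP_SB6 {σ : Equiv.Perm GolayPt} (hσ : σ ∈ M24) (h : PP σ) : σ ∈ SB 6 := by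
  have hsub : (SB 6 : Set (Equiv.Perm GolayPt)) ⊆ {σ | σ ∈ M24 ∧ PP σ} := by
    intro s hs
    refine ⟨hs.1, ?_⟩
    have := PP_inv 1 M24.one_mem s hs
    rw [one_mul] at this
    rw [this]
    exact ⟨one_smul _ _, one_smul _ _, one_smul _ _, one_smul _ _, one_smul _ _⟩
  have heq : (SB 6 : Set (Equiv.Perm GolayPt)) = {σ | σ ∈ M24 ∧ PP σ} := by
    apply Set.eq_of_subset_of_ncard_le hsub _ (Set.toFinite _)
    rw [PP_card, ← Nat.card_coe_set_eq]
    exact le_of_eq card_SB6.symm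
  have : σ ∈ {σ | σ ∈ M24 ∧ PP σ} := ⟨hσ, h⟩
  rw [← heq] at this
  exact this

theorem SB6_pt {s : Equiv.Perm GolayPt} (hs : s ∈ SB 6) : ∀ p ∈ toSet oct0, s p = p := by
  obtain ⟨t, ht, h1, rfl⟩ := SB6_code hs
  have key : ((gTrans.getD 6 []).all fun t => (List.range 24).all fun i =>
      bif oct0.testBit i then Nat.beq (papp t i) i else true) = true := by decide +kernel
  intro p hp
  obtain ⟨i, hi, rfl⟩ : ∃ i < 24, gpt i = p := ⟨gidx p, gidx_lt p, gpt_gidx p⟩
  rw [gpt_mem_toSet hi] at hp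
  rw [List.all_eq_true] at key
  have h2 := key t ht
  rw [List.all_eq_true] at h2
  have h3 := h2 i (List.mem_range.2 hi)
  rw [hp, cond_true] at h3
  rw [mkPerm_gpt (okPerm_isPerm h1) hi, Nat.eq_of_beq_eq_true h3]

theorem ker0 {σ : Equiv.Perm GolayPt} (hσ : σ ∈ M24) (ho : σ • toSet oct0 = toSet oct0) :
    (∀ T ∈ trios, toSet oct0 ∈ T → σ • T = T) ↔ ∀ p ∈ toSet oct0, σ p = p := by
  constructor
  · intro h
    apply SB6_pt
    apply PP_SB6 hσ
    refine ⟨ho, h _ (trio_mem (by decide +kernel)) (by simp [trio]),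
      h _ (trio_mem (by decide +kernel)) (by simp [trio]),
      h _ (trio_mem (by decide +kernel)) (by simp [trio]),
      h _ (trio_mem (by decide +kernel)) (by simp [trio])⟩
  · intro h T hT hoT
    exact sb6_fix (mem_SB6 hσ h) hT hoT

/-- An octad of the length-24 code lies in exactly 15 trios; the stabiliser of the octad in the code's group acts doubly transitively on these 15 trios, and the kernel of this action is the pointwise stabiliser of the octad. -/
theorem result (o : Finset Cfsg.GolayPt) (ho : o ∈ Cfsg.octads) : {T : Finset (Finset Cfsg.GolayPt) | T ∈ Cfsg.trios ∧ o ∈ T}.ncard = 15 ∧ (∀ T₁ T₂ T₁' T₂' : Finset (Finset Cfsg.GolayPt), T₁ ∈ Cfsg.trios → T₂ ∈ Cfsg.trios → T₁' ∈ Cfsg.trios → T₂' ∈ Cfsg.trios → o ∈ T₁ → o ∈ T₂ → o ∈ T₁' → o ∈ T₂' → T₁ ≠ T₂ → T₁' ≠ T₂' → ∃ g ∈ Cfsg.M24, g • o = o ∧ g • T₁ = T₁' ∧ g • T₂ = T₂') ∧ ∀ g ∈ Cfsg.M24, g • o = o → ((∀ T ∈ Cfsg.trios, o ∈ T → g • T = T) ↔ ∀ p ∈ o, g p = p) := by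
  refine ⟨trios_oct_ncard ho, ?_, ?_⟩
  · intro T₁ T₂ T₁' T₂' h1 h2 h1' h2' o1 o2 o1' o2' hne hne'
    obtain ⟨σ, hσ, a1, a2, a3⟩ := from_base ho h1 h2 o1 o2 hne
    obtain ⟨τ, hτ, c1, c2, c3⟩ := from_base ho h1' h2' o1' o2' hne'
    refine ⟨τ * σ⁻¹, M24.mul_mem hτ (M24.inv_mem hσ), ?_, ?_, ?_⟩
    · rw [mul_smul]; nth_rw 1 [← a1]; rw [inv_smul_smul, c1]
    · rw [mul_smul, ← a2, inv_smul_smul, c2]
    · rw [mul_smul, ← a3, inv_smul_smul, c3]
  · intro g hg hgo
    obtain ⟨k, hk, rfl⟩ := octad_transitive oct0_octad ho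
    have hσ : k⁻¹ * g * k ∈ M24 := M24.mul_mem (M24.mul_mem (M24.inv_mem hk) hg) hk
    have h1 := ker0 hσ (by rw [mul_smul, mul_smul, hgo, inv_smul_smul])
    constructor
    · intro h p hp
      obtain ⟨q, hq, rfl⟩ := Finset.mem_smul_finset.1 hp
      have h2 := h1.1 (fun T hT hoT => by
        rw [mul_smul, mul_smul, h (k • T) (smul_trio hk hT) (Finset.smul_mem_smul_finset hoT),
          inv_smul_smul]) q hq
      have h3 : k⁻¹ • g • k • q = q := h2
      rw [inv_smul_eq_iff] at h3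
      exact h3
    · intro h T hT hoT
      have h2 := h1.2 (fun q hq => by
        have h3 : g (k • q) = k • q := h (k • q) (Finset.smul_mem_smul_finset hq)
        show k⁻¹ • g • k • q = q
        rw [inv_smul_eq_iff]
        exact h3) (k⁻¹ • T) (smul_trio (M24.inv_mem hk) hT) (by
          rw [← inv_smul_smul k (toSet oct0)]; exact Finset.smul_mem_smul_finset hoT)
      rw [mul_smul, mul_smul, smul_inv_smul] at h2
      exact (smul_left_cancel k⁻¹ h2)

end Cfsg.Agent.S5615
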