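import Cfsg.Statements.S5616
import Cfsg.Agent.H29.M24List
import Cfsg.Agent.H29.M24Hex

set_option autoImplicit false
open scoped Pointwise
open Cfsg

namespace Cfsg.Agent.S5616

open Cfsg Cfsg.Agent.H7 Cfsg.Agent.H29
open scoped Pointwise

/-- two points in the same tetrad -/
def A (S : Finset (Finset GolayPt)) (p q : GolayPt) : Prop := ∃ t ∈ S, p ∈ t ∧ q ∈ t

theorem exists_T {S : Finset (Finset GolayPt)} (hS : S ∈ sextets) :
    ∃ T : GolayPt → Finset GolayPt, ∀ p, T p ∈ S ∧ p ∈ T p ∧ ∀ t ∈ S, p ∈ t → t = T p := by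
  choose T hT using sextet_cover hS
  refine ⟨T, fun p => ⟨(hT p).1, (hT p).2, fun t ht hp => ?_⟩⟩
  by_contra hne
  exact Finset.disjoint_left.1 (sextet_disjoint hS ht (hT p).1 hne) hp (hT p).2

theorem filter_eq {S : Finset (Finset GolayPt)} {T : GolayPt → Finset GolayPt}
    (hT : ∀ p, T p ∈ S ∧ p ∈ T p ∧ ∀ t ∈ S, p ∈ t → t = T p) (Y : Finset GolayPt) :
    (S.filter fun t => (t ∩ Y).Nonempty) = Y.image T := by
  ext t
  rw [Finset.mem_filter, Finset.mem_image]
  constructor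
  · rintro ⟨h1, p, hp⟩
    rw [Finset.mem_inter] at hp
    exact ⟨p, hp.2, ((hT p).2.2 t h1 hp.1).symm⟩
  · rintro ⟨p, hp, rfl⟩
    exact ⟨(hT p).1, p, Finset.mem_inter.2 ⟨(hT p).2.1, hp⟩⟩

theorem A_iff {S : Finset (Finset GolayPt)} {T : GolayPt → Finset GolayPt}
    (hT : ∀ p, T p ∈ S ∧ p ∈ T p ∧ ∀ t ∈ S, p ∈ t → t = T p) (p q : GolayPt) :
    A S p q ↔ T p = T q := by
  constructor
  · rintro ⟨t, ht, hp, hq⟩
    rw [← (hT p).2.2 t ht hp, ← (hT q).2.2 t ht hq]
  · intro h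
    exact ⟨T p, (hT p).1, (hT p).2.1, by rw [h]; exact (hT q).2.1⟩

theorem count_iff {S : Finset (Finset GolayPt)} (hS : S ∈ sextets) (a b c : GolayPt) :
    ((S.filter fun t => (t ∩ {a, b, c}).Nonempty).card = 1 ↔ (A S a b ∧ A S a c)) ∧
    ((S.filter fun t => (t ∩ {a, b, c}).Nonempty).card = 2 ↔
      ((A S a b ∧ ¬ A S a c) ∨ (A S a c ∧ ¬ A S a b) ∨ (A S b c ∧ ¬ A S b a))) ∧
    ((S.filter fun t => (t ∩ {a, b, c}).Nonempty).card = 3 ↔
      (¬ A S a b ∧ ¬ A S a c ∧ ¬ A S b c)) := by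
  obtain ⟨T, hT⟩ := exists_T hS
  rw [filter_eq hT, A_iff hT, A_iff hT, A_iff hT, A_iff hT]
  simp only [Finset.image_insert, Finset.image_singleton]
  generalize T a = x
  generalize T b = y
  generalize T c = z
  by_cases h1 : x = y
  · subst h1
    by_cases h2 : x = z
    · subst h2; simp
    · have : ({x, x, z} : Finset (Finset GolayPt)).card = 2 := by
        rw [Finset.insert_eq_of_mem (by simp), Finset.card_pair h2]
      rw [this]; simp [h2]
  · by_cases h2 : x = z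
    · subst h2
      have : ({x, y, x} : Finset (Finset GolayPt)).card = 2 := by
        rw [Finset.insert_eq_of_mem (by simp), Finset.card_pair (Ne.symm h1)]
      rw [this]; simp [h1]
    · by_cases h3 : y = z
      · subst h3
        have : ({x, y, y} : Finset (Finset GolayPt)).card = 2 := by
          rw [show ({y, y} : Finset (Finset GolayPt)) = {y} by simp, Finset.card_pair h1]
        rw [this]; simp [h1, Ne.symm h1]
      · have : ({x, y, z} : Finset (Finset GolayPt)).card = 3 := Finset.card_eq_three.2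
          ⟨x, y, z, h1, h2, h3, rfl⟩
        rw [this]; simp [h1, h2, h3]

theorem A_smul {S : Finset (Finset GolayPt)} (g : Equiv.Perm GolayPt) (p q : GolayPt) :
    A (g • S) (g p) (g q) ↔ A S p q := by
  constructor
  · rintro ⟨t, ht, hp, hq⟩
    obtain ⟨u, hu, rfl⟩ := Finset.mem_smul_finset.1 ht
    obtain ⟨x, hx, hx'⟩ := Finset.mem_smul_finset.1 hp
    obtain ⟨y, hy, hy'⟩ := Finset.mem_smul_finset.1 hq
    have hx' : x = p := g.injective hx'
    have hy' : y = q := g.injective hy'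
    subst hx' hy'
    exact ⟨u, hu, hx, hy⟩
  · rintro ⟨t, ht, hp, hq⟩
    exact ⟨g • t, Finset.smul_mem_smul_finset ht, Finset.smul_mem_smul_finset hp,
      Finset.smul_mem_smul_finset hq⟩

theorem A_sext {m : ℕ} (hm : (toSet m).card = 4) (h23 : gpt 23 ∈ toSet m) (q : GolayPt) :
    A (sext (toSet m)) (gpt 23) q ↔ q ∈ toSet m := by
  constructor
  · rintro ⟨t, ht, h1, h2⟩
    by_cases h : t = toSet m
    · rwa [← h]
    · exact absurd h23 (Finset.disjoint_left.1 (sextet_disjoint (mem_sextets_iff.2 ⟨_, hm, rfl⟩)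
        ht (self_mem_sext hm) h) h1)
  · intro h
    exact ⟨_, self_mem_sext hm, h23, h⟩

theorem count1_0 : {S | S ∈ sextets ∧ (A S (gpt 23) (gpt 0) ∧ A S (gpt 23) (gpt 1))}.ncard = 21 := by
  refine sextets_count (φ := fun m => Nat.beq (Nat.land m 3) 3) ?_ (by decide +kernel)
  intro m hm h4 h23
  rw [A_sext h4 h23, A_sext h4 h23, gpt_mem_toSet (by norm_num), gpt_mem_toSet (by norm_num)]
  have e : Nat.land m 3 = m % 4 := Nat.and_two_pow_sub_one_eq_mod m 2
  rw [e]
  have e0 : m.testBit 0 = decide (m % 2 = 1) := by simp [Nat.testBit_eq_decide_div_mod_eq]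
  have e1 : m.testBit 1 = decide (m / 2 % 2 = 1) := by simp [Nat.testBit_eq_decide_div_mod_eq]
  rw [e0, e1, decide_eq_true_eq, decide_eq_true_eq]
  constructor
  · intro h
    have := Nat.eq_of_beq_eq_true h
    omega
  · intro h
    have : m % 4 = 3 := by omega
    rw [this]; rfl

theorem count2_0 : {S | S ∈ sextets ∧ (A S (gpt 23) (gpt 0) ∧ ¬ A S (gpt 23) (gpt 1))}.ncard = 210 := by
  refine sextets_count (φ := fun m => Nat.beq (Nat.land m 3) 1) ?_ (by decide +kernel)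
  intro m hm h4 h23
  rw [A_sext h4 h23, A_sext h4 h23, gpt_mem_toSet (by norm_num), gpt_mem_toSet (by norm_num)]
  have e : Nat.land m 3 = m % 4 := Nat.and_two_pow_sub_one_eq_mod m 2
  rw [e]
  have e0 : m.testBit 0 = decide (m % 2 = 1) := by simp [Nat.testBit_eq_decide_div_mod_eq]
  have e1 : m.testBit 1 = decide (m / 2 % 2 = 1) := by simp [Nat.testBit_eq_decide_div_mod_eq]
  rw [e0, e1, decide_eq_true_eq, decide_eq_true_eq]
  constructor
  · intro h
    have := Nat.eq_of_beq_eq_true h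
    omega
  · intro h
    have : m % 4 = 1 := by omega
    rw [this]; rfl

theorem inj3 {a b c : GolayPt} (hab : a ≠ b) (hac : a ≠ c) (hbc : b ≠ c) :
    Function.Injective ![a, b, c] := by
  intro i j hij
  fin_cases i <;> fin_cases j <;> first | rfl | (exfalso; revert hij; simp [hab, hac, hbc, Ne.symm hab, Ne.symm hac, Ne.symm hbc])

theorem base_map {a b c : GolayPt} (hab : a ≠ b) (hac : a ≠ c) (hbc : b ≠ c) :
    ∃ g ∈ M24, g (gpt 23) = a ∧ g (gpt 0) = b ∧ g (gpt 1) = c := by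
  obtain ⟨g, hg, h⟩ := M24_mapn (n := 3) (by norm_num) ![gpt 23, gpt 0, gpt 1] ![a, b, c]
    (inj3 (by decide +kernel) (by decide +kernel) (by decide +kernel)) (inj3 hab hac hbc)
  exact ⟨g, hg, h 0, h 1, h 2⟩

theorem ncard_transport {P Q : Finset (Finset GolayPt) → Prop} {g : Equiv.Perm GolayPt}
    (hg : g ∈ M24) (h : ∀ S, Q (g • S) ↔ P S) :
    {S | S ∈ sextets ∧ Q S}.ncard = {S | S ∈ sextets ∧ P S}.ncard := by
  have e : {S | S ∈ sextets ∧ Q S} = (fun S => g • S) '' {S | S ∈ sextets ∧ P S} := by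
    ext S
    constructor
    · rintro ⟨h1, h2⟩
      refine ⟨g⁻¹ • S, ⟨smul_sextet (M24.inv_mem hg) h1, ?_⟩, smul_inv_smul _ _⟩
      rw [← h, smul_inv_smul]; exact h2
    · rintro ⟨U, ⟨h1, h2⟩, rfl⟩
      exact ⟨smul_sextet hg h1, (h _).2 h2⟩
  rw [e, Set.ncard_image_of_injective _ (MulAction.injective g)]

theorem count1 {a b c : GolayPt} (hab : a ≠ b) (hac : a ≠ c) (hbc : b ≠ c) :
    {S | S ∈ sextets ∧ (A S a b ∧ A S a c)}.ncard = 21 := by
  obtain ⟨g, hg, rfl, rfl, rfl⟩ := base_map hab hac hbc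
  rw [← count1_0]
  exact ncard_transport hg (fun S => by rw [A_smul, A_smul])

theorem count2 {a b c : GolayPt} (hab : a ≠ b) (hac : a ≠ c) (hbc : b ≠ c) :
    {S | S ∈ sextets ∧ (A S a b ∧ ¬ A S a c)}.ncard = 210 := by
  obtain ⟨g, hg, rfl, rfl, rfl⟩ := base_map hab hac hbc
  rw [← count2_0]
  exact ncard_transport hg (fun S => by rw [A_smul, A_smul])

theorem counts {a b c : GolayPt} (hab : a ≠ b) (hac : a ≠ c) (hbc : b ≠ c) :
    {S | S ∈ sextets ∧ (S.filter fun t => (t ∩ {a, b, c}).Nonempty).card = 1}.ncard = 21 ∧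
    {S | S ∈ sextets ∧ (S.filter fun t => (t ∩ {a, b, c}).Nonempty).card = 2}.ncard = 630 ∧
    {S | S ∈ sextets ∧ (S.filter fun t => (t ∩ {a, b, c}).Nonempty).card = 3}.ncard = 1120 := by
  have e1 : {S | S ∈ sextets ∧ (S.filter fun t => (t ∩ {a, b, c}).Nonempty).card = 1}.ncard = 21 := by
    rw [← count1 hab hac hbc]
    congr 1
    ext S
    exact and_congr_right fun hS => (count_iff hS a b c).1
  have e2 : {S | S ∈ sextets ∧ (S.filter fun t => (t ∩ {a, b, c}).Nonempty).card = 2}.ncard = 630 := by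
    have h : {S | S ∈ sextets ∧ (S.filter fun t => (t ∩ {a, b, c}).Nonempty).card = 2} =
        ({S | S ∈ sextets ∧ (A S a b ∧ ¬ A S a c)} ∪ {S | S ∈ sextets ∧ (A S a c ∧ ¬ A S a b)}) ∪
        {S | S ∈ sextets ∧ (A S b c ∧ ¬ A S b a)} := by
      ext S
      have key : S ∈ sextets → _ := fun hS => (count_iff hS a b c).2.1
      simp only [Set.mem_ofPred_eq, Set.mem_union]
      tauto
    have sym : ∀ {S : Finset (Finset GolayPt)} {p q : GolayPt}, A S p q → A S q p := by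
      rintro S p q ⟨t, ht, h1, h2⟩; exact ⟨t, ht, h2, h1⟩
    rw [h, Set.ncard_union_eq _ (Set.toFinite _) (Set.toFinite _), Set.ncard_union_eq _
      (Set.toFinite _) (Set.toFinite _), count2 hab hac hbc, count2 hac hab hbc.symm,
      count2 hbc hab.symm hac.symm]
    · rw [Set.disjoint_left]
      rintro S ⟨_, h1, h2⟩ ⟨_, h3, h4⟩
      exact h2 h3
    · rw [Set.disjoint_left]
      rintro S (⟨_, h1, h2⟩ | ⟨hS, h1, h2⟩) ⟨_, h3, h4⟩
      · exact h4 (sym h1)
      · obtain ⟨T, hT⟩ := exists_T hS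
        rw [A_iff hT] at h1 h2 h3 h4
        exact h4 (h3.trans h1.symm)
  refine ⟨e1, e2, ?_⟩
  have h : sextets = ({S | S ∈ sextets ∧ (S.filter fun t => (t ∩ {a, b, c}).Nonempty).card = 1} ∪
      {S | S ∈ sextets ∧ (S.filter fun t => (t ∩ {a, b, c}).Nonempty).card = 2}) ∪
      {S | S ∈ sextets ∧ (S.filter fun t => (t ∩ {a, b, c}).Nonempty).card = 3} := by
    ext S
    constructor
    · intro hS
      obtain ⟨T, hT⟩ := exists_T hS
      have h1 : (S.filter fun t => (t ∩ {a, b, c}).Nonempty).card ≤ 3 := by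
        rw [filter_eq hT]
        exact Finset.card_image_le.trans Finset.card_le_three
      have h2 : (S.filter fun t => (t ∩ {a, b, c}).Nonempty).card ≠ 0 := by
        rw [filter_eq hT]
        simp
      have h3 : (S.filter fun t => (t ∩ {a, b, c}).Nonempty).card = 1 ∨
        (S.filter fun t => (t ∩ {a, b, c}).Nonempty).card = 2 ∨
        (S.filter fun t => (t ∩ {a, b, c}).Nonempty).card = 3 := by omega
      rcases h3 with h3 | h3 | h3
      · exact Or.inl (Or.inl ⟨hS, h3⟩)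
      · exact Or.inl (Or.inr ⟨hS, h3⟩)
      · exact Or.inr ⟨hS, h3⟩
    · rintro ((⟨h, _⟩ | ⟨h, _⟩) | ⟨h, _⟩) <;> exact h
  have h1 := sextets_ncard
  rw [h, Set.ncard_union_eq _ (Set.toFinite _) (Set.toFinite _), Set.ncard_union_eq _
    (Set.toFinite _) (Set.toFinite _), e1, e2] at h1
  · omega
  · rw [Set.disjoint_left]
    rintro S ⟨_, h1⟩ ⟨_, h2⟩
    omega
  · rw [Set.disjoint_left]
    rintro S (⟨_, h1⟩ | ⟨_, h1⟩) ⟨_, h2⟩ <;> omega

/-! ### transitivity -/

theorem map_sext {S S' : Finset (Finset GolayPt)} (hS : S ∈ sextets) (hS' : S' ∈ sextets)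
    {g : Equiv.Perm GolayPt} (hg : g ∈ M24) {t t' : Finset GolayPt} (ht : t ∈ S) (ht' : t' ∈ S')
    (h : g • t = t') : g • S = S' := by
  rw [← sextet_eq_sext hS ht, smul_sext hg, h, sextet_eq_sext hS' ht']

theorem trans1 {S S' : Finset (Finset GolayPt)} (hS : S ∈ sextets) (hS' : S' ∈ sextets)
    {a b c : GolayPt} (hab : a ≠ b) (hac : a ≠ c) (hbc : b ≠ c)
    (h : A S a b ∧ A S a c) (h' : A S' a b ∧ A S' a c) :
    ∃ g ∈ M24, g • ({a, b, c} : Finset GolayPt) = {a, b, c} ∧ g • S = S' := by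
  have key : ∀ {S : Finset (Finset GolayPt)}, S ∈ sextets → A S a b ∧ A S a c →
      ∃ p, a ≠ p ∧ b ≠ p ∧ c ≠ p ∧ {a, b, c, p} ∈ S := by
    intro S hS h
    obtain ⟨T, hT⟩ := exists_T hS
    have h1 := (A_iff hT _ _).1 h.1
    have h2 := (A_iff hT _ _).1 h.2
    have h3 : ({a, b, c} : Finset GolayPt) ⊆ T a := by
      intro x hx
      simp only [Finset.mem_insert, Finset.mem_singleton] at hx
      rcases hx with rfl | rfl | rfl
      · exact (hT _).2.1
      · rw [h1]; exact (hT _).2.1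
      · rw [h2]; exact (hT _).2.1
    have h4 : (T a \ {a, b, c}).card = 1 := by
      rw [Finset.card_sdiff_of_subset h3, hS.2.1 _ (hT a).1, Finset.card_eq_three.2
        ⟨a, b, c, hab, hac, hbc, rfl⟩]
    obtain ⟨p, hp⟩ := Finset.card_eq_one.1 h4
    have hp' : p ∈ T a \ {a, b, c} := by rw [hp]; simp
    simp only [Finset.mem_sdiff, Finset.mem_insert, Finset.mem_singleton, not_or] at hp'
    refine ⟨p, fun h => hp'.2.1 h.symm, fun h => hp'.2.2.1 h.symm, fun h => hp'.2.2.2 h.symm, ?_⟩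
    have h5 : ({a, b, c, p} : Finset GolayPt) = T a := by
      rw [← Finset.union_sdiff_of_subset h3, hp]
      ext x; simp only [Finset.mem_union, Finset.mem_insert, Finset.mem_singleton]; tauto
    rw [h5]; exact (hT a).1
  obtain ⟨p, hap, hbp, hcp, hp⟩ := key hS h
  obtain ⟨q, haq, hbq, hcq, hq⟩ := key hS' h'
  obtain ⟨g, hg, hm⟩ := M24_mapn (n := 4) (by norm_num) ![a, b, c, p] ![a, b, c, q]
    (by
      intro i j hij
      fin_cases i <;> fin_cases j <;> first | rfl | (exfalso; revert hij; simp [hab, hac, hbc, Ne.symm hab, Ne.symm hac, Ne.symm hbc, hap, hbp, hcp, Ne.symm hap, Ne.symm hbp, Ne.symm hcp]))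
    (by
      intro i j hij
      fin_cases i <;> fin_cases j <;> first | rfl | (exfalso; revert hij; simp [hab, hac, hbc, Ne.symm hab, Ne.symm hac, Ne.symm hbc, haq, hbq, hcq, Ne.symm haq, Ne.symm hbq, Ne.symm hcq]))
  have e0 : g • a = a := hm 0
  have e1 : g • b = b := hm 1
  have e2 : g • c = c := hm 2
  have e3 : g • p = q := hm 3
  refine ⟨g, hg, ?_, map_sext hS hS' hg hp hq ?_⟩
  · rw [Finset.smul_finset_insert, Finset.smul_finset_insert, Finset.smul_finset_singleton, e0, e1, e2]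
  · rw [Finset.smul_finset_insert, Finset.smul_finset_insert, Finset.smul_finset_insert,
      Finset.smul_finset_singleton, e0, e1, e2, e3]

theorem trans2 {S S' : Finset (Finset GolayPt)} (hS : S ∈ sextets) (hS' : S' ∈ sextets)
    {a b c a' b' c' : GolayPt} (hab : a ≠ b) (hac : a ≠ c) (hbc : b ≠ c)
    (hab' : a' ≠ b') (hac' : a' ≠ c') (hbc' : b' ≠ c')
    (h : A S a b ∧ ¬ A S a c) (h' : A S' a' b' ∧ ¬ A S' a' c') :
    ∃ g ∈ M24, g • ({a, b, c} : Finset GolayPt) = {a', b', c'} ∧ g • S = S' := by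
  have key : ∀ {S : Finset (Finset GolayPt)} {a b c : GolayPt}, a ≠ b → S ∈ sextets →
      A S a b ∧ ¬ A S a c →
      ∃ p q, a ≠ p ∧ b ≠ p ∧ c ≠ p ∧ a ≠ q ∧ b ≠ q ∧ c ≠ q ∧ p ≠ q ∧ {a, b, p, q} ∈ S := by
    intro S a b c hab hS h
    obtain ⟨T, hT⟩ := exists_T hS
    have h1 := (A_iff hT _ _).1 h.1
    have h2 : ¬ T a = T c := fun h' => h.2 ((A_iff hT _ _).2 h')
    have h3 : ({a, b} : Finset GolayPt) ⊆ T a := by
      intro x hx
      simp only [Finset.mem_insert, Finset.mem_singleton] at hx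
      rcases hx with rfl | rfl
      · exact (hT _).2.1
      · rw [h1]; exact (hT _).2.1
    have hc : c ∉ T a := fun hc => h2 ((hT c).2.2 _ (hT a).1 hc)
    have h4 : (T a \ {a, b}).card = 2 := by
      rw [Finset.card_sdiff_of_subset h3, hS.2.1 _ (hT a).1, Finset.card_pair hab]
    obtain ⟨p, q, hpq, hp⟩ := Finset.card_eq_two.1 h4
    have hp' : p ∈ T a \ {a, b} := by rw [hp]; simp
    have hq' : q ∈ T a \ {a, b} := by rw [hp]; simp
    simp only [Finset.mem_sdiff, Finset.mem_insert, Finset.mem_singleton, not_or] at hp' hq'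
    refine ⟨p, q, fun h => hp'.2.1 h.symm, fun h => hp'.2.2 h.symm, ?_,
      fun h => hq'.2.1 h.symm, fun h => hq'.2.2 h.symm, ?_, hpq, ?_⟩
    · rintro rfl; exact hc hp'.1
    · rintro rfl; exact hc hq'.1
    · have h5 : ({a, b, p, q} : Finset GolayPt) = T a := by
        rw [← Finset.union_sdiff_of_subset h3, hp]
        ext x; simp only [Finset.mem_union, Finset.mem_insert, Finset.mem_singleton]; tauto
      rw [h5]; exact (hT a).1
  obtain ⟨p, q, n1, n2, n3, n4, n5, n6, n7, hp⟩ := key hab hS h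
  obtain ⟨p', q', m1, m2, m3, m4, m5, m6, m7, hp'⟩ := key hab' hS' h'
  obtain ⟨g, hg, hm⟩ := M24_mapn (n := 5) (by norm_num) ![a, b, c, p, q] ![a', b', c', p', q']
    (by
      intro i j hij
      fin_cases i <;> fin_cases j <;> first | rfl | (exfalso; revert hij; simp [hab, hac, hbc, Ne.symm hab, Ne.symm hac, Ne.symm hbc, n1, n2, n3, n4, n5, n6, n7, Ne.symm n1, Ne.symm n2, Ne.symm n3, Ne.symm n4, Ne.symm n5, Ne.symm n6, Ne.symm n7]))
    (by
      intro i j hij
      fin_cases i <;> fin_cases j <;> first | rfl | (exfalso; revert hij; simp [hab', hac', hbc', Ne.symm hab', Ne.symm hac', Ne.symm hbc', m1, m2, m3, m4, m5, m6, m7, Ne.symm m1, Ne.symm m2, Ne.symm m3, Ne.symm m4, Ne.symm m5, Ne.symm m6, Ne.symm m7]))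
  have e0 : g • a = a' := hm 0
  have e1 : g • b = b' := hm 1
  have e2 : g • c = c' := hm 2
  have e3 : g • p = p' := hm 3
  have e4 : g • q = q' := hm 4
  refine ⟨g, hg, ?_, map_sext hS hS' hg hp hp' ?_⟩
  · rw [Finset.smul_finset_insert, Finset.smul_finset_insert, Finset.smul_finset_singleton, e0, e1, e2]
  · rw [Finset.smul_finset_insert, Finset.smul_finset_insert, Finset.smul_finset_insert,
      Finset.smul_finset_singleton, e0, e1, e3, e4]

theorem trans3 {S S' : Finset (Finset GolayPt)} (hS : S ∈ sextets) (hS' : S' ∈ sextets)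
    {a b c : GolayPt} (hab : a ≠ b) (hac : a ≠ c) (hbc : b ≠ c)
    (h : ¬ A S a b ∧ ¬ A S a c ∧ ¬ A S b c) (h' : ¬ A S' a b ∧ ¬ A S' a c ∧ ¬ A S' b c) :
    ∃ g ∈ M24, g • ({a, b, c} : Finset GolayPt) = {a, b, c} ∧ g • S = S' := by
  have key : ∀ {S : Finset (Finset GolayPt)}, S ∈ sextets →
      ¬ A S a b ∧ ¬ A S a c ∧ ¬ A S b c →
      ∃ x : Fin 3 → GolayPt, Function.Injective ![a, b, c, x 0, x 1, x 2] ∧
        {a, x 0, x 1, x 2} ∈ S ∧
        ¬ ∃ o ∈ octads, ∀ i, ![a, b, c, x 0, x 1, x 2] i ∈ o := by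
    intro S hS h
    obtain ⟨T, hT⟩ := exists_T hS
    rw [A_iff hT, A_iff hT, A_iff hT] at h
    obtain ⟨hTab, hTac, hTbc⟩ := h
    have hb : b ∉ T a := fun hc => hTab ((hT b).2.2 _ (hT a).1 hc)
    have hc : c ∉ T a := fun hc => hTac ((hT c).2.2 _ (hT a).1 hc)
    have h3 : ({a} : Finset GolayPt) ⊆ T a := by simpa using (hT a).2.1
    have h4 : (T a \ {a}).card = 3 := by
      rw [Finset.card_sdiff_of_subset h3, hS.2.1 _ (hT a).1, Finset.card_singleton]
    obtain ⟨p, q, r, hpq, hpr, hqr, hp⟩ := Finset.card_eq_three.1 h4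
    have hp' : p ∈ T a \ {a} := by rw [hp]; simp
    have hq' : q ∈ T a \ {a} := by rw [hp]; simp
    have hr' : r ∈ T a \ {a} := by rw [hp]; simp
    simp only [Finset.mem_sdiff, Finset.mem_singleton] at hp' hq' hr'
    have n1 : b ≠ p := by rintro rfl; exact hb hp'.1
    have n2 : b ≠ q := by rintro rfl; exact hb hq'.1
    have n3 : b ≠ r := by rintro rfl; exact hb hr'.1
    have n4 : c ≠ p := by rintro rfl; exact hc hp'.1
    have n5 : c ≠ q := by rintro rfl; exact hc hq'.1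
    have n6 : c ≠ r := by rintro rfl; exact hc hr'.1
    have h5 : ({a, p, q, r} : Finset GolayPt) = T a := by
      rw [← Finset.union_sdiff_of_subset h3, hp]
      ext x; simp only [Finset.mem_union, Finset.mem_insert, Finset.mem_singleton]
    refine ⟨![p, q, r], ?_, ?_, ?_⟩
    · intro i j hij
      fin_cases i <;> fin_cases j <;> first | rfl | (exfalso; revert hij; simp [hab, hac, hbc, Ne.symm hab, Ne.symm hac, Ne.symm hbc, hpq, hpr, hqr, Ne.symm hpq, Ne.symm hpr, Ne.symm hqr, hp'.2, hq'.2, hr'.2, Ne.symm hp'.2, Ne.symm hq'.2, Ne.symm hr'.2, n1, n2, n3, n4, n5, n6, Ne.symm n1, Ne.symm n2, Ne.symm n3, Ne.symm n4, Ne.symm n5, Ne.symm n6])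
    · show ({a, p, q, r} : Finset GolayPt) ∈ S
      rw [h5]; exact (hT a).1
    · rintro ⟨o, ho, hmem⟩
      -- `o` shares five points with `T a ∪ T b`
      have ho2 : T a ∪ T b ∈ octads := hS.2.2 _ (hT a).1 _ (hT b).1 hTab
      have hsub : insert b (T a) ⊆ o ∩ (T a ∪ T b) := by
        intro x hx
        rw [← h5] at hx
        simp only [Finset.mem_insert, Finset.mem_singleton] at hx
        rw [Finset.mem_inter, Finset.mem_union]
        rcases hx with rfl | rfl | rfl | rfl | rfl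
        · exact ⟨hmem 1, Or.inr (hT _).2.1⟩
        · exact ⟨hmem 0, Or.inl (hT _).2.1⟩
        · exact ⟨hmem 3, Or.inl hp'.1⟩
        · exact ⟨hmem 4, Or.inl hq'.1⟩
        · exact ⟨hmem 5, Or.inl hr'.1⟩
      have h6 : 5 ≤ (o ∩ (T a ∪ T b)).card := by
        refine le_trans ?_ (Finset.card_le_card hsub)
        rw [Finset.card_insert_of_notMem hb, hS.2.1 _ (hT a).1]
      have h7 : o = T a ∪ T b := octad_eq_of_five ho ho2 h6
      have h8 : c ∈ T a ∪ T b := by rw [← h7]; exact hmem 2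
      rw [Finset.mem_union] at h8
      rcases h8 with h8 | h8
      · exact hc h8
      · exact hTbc ((hT c).2.2 _ (hT b).1 h8)
  obtain ⟨x, hx, hxS, hxo⟩ := key hS h
  obtain ⟨y, hy, hyS, hyo⟩ := key hS' h'
  obtain ⟨g, hg, hm⟩ := hex_map _ _ hx hy ⟨fun h => absurd h hxo, fun h => absurd h hyo⟩
  have e0 : g • a = a := hm 0
  have e1 : g • b = b := hm 1
  have e2 : g • c = c := hm 2
  have e3 : g • x 0 = y 0 := hm 3
  have e4 : g • x 1 = y 1 := hm 4
  have e5 : g • x 2 = y 2 := hm 5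
  refine ⟨g, hg, ?_, map_sext hS hS' hg hxS hyS ?_⟩
  · rw [Finset.smul_finset_insert, Finset.smul_finset_insert, Finset.smul_finset_singleton, e0, e1, e2]
  · rw [Finset.smul_finset_insert, Finset.smul_finset_insert, Finset.smul_finset_insert,
      Finset.smul_finset_singleton, e0, e3, e4, e5]

theorem norm2 {S : Finset (Finset GolayPt)} {a b c : GolayPt} (hab : a ≠ b) (hac : a ≠ c)
    (hbc : b ≠ c) (h : (A S a b ∧ ¬ A S a c) ∨ (A S a c ∧ ¬ A S a b) ∨ (A S b c ∧ ¬ A S b a)) :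
    ∃ x y z : GolayPt, x ≠ y ∧ x ≠ z ∧ y ≠ z ∧ ({x, y, z} : Finset GolayPt) = {a, b, c} ∧
      (A S x y ∧ ¬ A S x z) := by
  rcases h with h | h | h
  · exact ⟨a, b, c, hab, hac, hbc, rfl, h⟩
  · refine ⟨a, c, b, hac, hab, hbc.symm, ?_, h⟩
    ext x; simp only [Finset.mem_insert, Finset.mem_singleton]; tauto
  · refine ⟨b, c, a, hbc, hab.symm, hac.symm, ?_, h⟩
    ext x; simp only [Finset.mem_insert, Finset.mem_singleton]; tauto

/-- Let Y be a set of 3 of the 24 points. The sextets of the length-24 code whose tetrads meeting Y number 1, 2 or 3 are respectively 21, 630 and 1120 in number, and two sextets with the same number of tetrads meeting Y are conjugate under the setwise stabiliser of Y in the code's group. -/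
theorem result (Y : Finset Cfsg.GolayPt) (hY : Y.card = 3) : {S : Finset (Finset Cfsg.GolayPt) | S ∈ Cfsg.sextets ∧ (S.filter fun t => (t ∩ Y).Nonempty).card = 1}.ncard = 21 ∧ {S : Finset (Finset Cfsg.GolayPt) | S ∈ Cfsg.sextets ∧ (S.filter fun t => (t ∩ Y).Nonempty).card = 2}.ncard = 630 ∧ {S : Finset (Finset Cfsg.GolayPt) | S ∈ Cfsg.sextets ∧ (S.filter fun t => (t ∩ Y).Nonempty).card = 3}.ncard = 1120 ∧ ∀ S S' : Finset (Finset Cfsg.GolayPt), S ∈ Cfsg.sextets → S' ∈ Cfsg.sextets → (S.filter fun t => (t ∩ Y).Nonempty).card = (S'.filter fun t => (t ∩ Y).Nonempty).card → ∃ g ∈ Cfsg.M24, g • Y = Y ∧ g • S = S' := by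
  obtain ⟨a, b, c, hab, hac, hbc, rfl⟩ := Finset.card_eq_three.1 hY
  obtain ⟨e1, e2, e3⟩ := counts hab hac hbc
  refine ⟨e1, e2, e3, ?_⟩
  intro S S' hS hS' h
  obtain ⟨c1, c2, c3⟩ := count_iff hS a b c
  obtain ⟨c1', c2', c3'⟩ := count_iff hS' a b c
  have h0 : (S.filter fun t => (t ∩ {a, b, c}).Nonempty).card = 1 ∨
      (S.filter fun t => (t ∩ {a, b, c}).Nonempty).card = 2 ∨
      (S.filter fun t => (t ∩ {a, b, c}).Nonempty).card = 3 := by
    obtain ⟨T, hT⟩ := exists_T hS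
    have h1 : (S.filter fun t => (t ∩ {a, b, c}).Nonempty).card ≤ 3 := by
      rw [filter_eq hT]
      exact Finset.card_image_le.trans Finset.card_le_three
    have h2 : (S.filter fun t => (t ∩ {a, b, c}).Nonempty).card ≠ 0 := by
      rw [filter_eq hT]
      simp
    omega
  rcases h0 with h0 | h0 | h0
  · exact trans1 hS hS' hab hac hbc (c1.1 h0) (c1'.1 (h ▸ h0))
  · obtain ⟨x, y, z, n1, n2, n3, he, h1⟩ := norm2 hab hac hbc (c2.1 h0)
    obtain ⟨x', y', z', m1, m2, m3, he', h1'⟩ := norm2 hab hac hbc (c2'.1 (h ▸ h0))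
    obtain ⟨g, hg, h2, h3⟩ := trans2 hS hS' n1 n2 n3 m1 m2 m3 h1 h1'
    exact ⟨g, hg, by rw [← he, h2, he', he], h3⟩
  · exact trans3 hS hS' hab hac hbc (c3.1 h0) (c3'.1 (h ▸ h0))

end Cfsg.Agent.S5616
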