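import Cfsg.Statements.S5617
import Cfsg.Agent.H29.M24Orb2

set_option autoImplicit false
open scoped Pointwise
open Cfsg

namespace Cfsg.Agent.S5617

open Cfsg Cfsg.Agent.H7 Cfsg.Agent.H29
open scoped Pointwise

theorem hs (m : ℕ) (hm : Nat.beq (popc m) 4 = true) : sext (toSet m) ∈ sextets :=
  mem_sextets_iff.2 ⟨_, by rw [card_toSet]; exact Nat.eq_of_beq_eq_true hm, rfl⟩

/-- The setwise stabiliser, in the group of the length-24 code, of a complementary pair of dodecads has exactly three orbits on the 1771 sextets, of sizes 396, 495 and 880. -/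
theorem result (d : Finset Cfsg.GolayPt) (hd : d ∈ Cfsg.dodecads) : ∃ X₁ ∈ Cfsg.sextets, ∃ X₂ ∈ Cfsg.sextets, ∃ X₃ ∈ Cfsg.sextets, (MulAction.orbit ↥(MulAction.stabilizer Cfsg.M24 ({d, Finset.univ \ d} : Finset (Finset Cfsg.GolayPt))) X₁).ncard = 396 ∧ (MulAction.orbit ↥(MulAction.stabilizer Cfsg.M24 ({d, Finset.univ \ d} : Finset (Finset Cfsg.GolayPt))) X₂).ncard = 495 ∧ (MulAction.orbit ↥(MulAction.stabilizer Cfsg.M24 ({d, Finset.univ \ d} : Finset (Finset Cfsg.GolayPt))) X₃).ncard = 880 ∧ Cfsg.sextets = MulAction.orbit ↥(MulAction.stabilizer Cfsg.M24 ({d, Finset.univ \ d} : Finset (Finset Cfsg.GolayPt))) X₁ ∪ MulAction.orbit ↥(MulAction.stabilizer Cfsg.M24 ({d, Finset.univ \ d} : Finset (Finset Cfsg.GolayPt))) X₂ ∪ MulAction.orbit ↥(MulAction.stabilizer Cfsg.M24 ({d, Finset.univ \ d} : Finset (Finset Cfsg.GolayPt))) X₃ := by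
  obtain ⟨g, hg, hgd⟩ := dodecad_transitive dod0_dodecad hd
  have hp : g • dodPart dod0 = ({d, Finset.univ \ d} : Finset (Finset GolayPt)) := by
    rw [← Finset.compl_eq_univ_sdiff, dodPart_eq]
    unfold octPart
    rw [Finset.smul_finset_insert, Finset.smul_finset_singleton, smul_compl', hgd]
  have hm1 : g • dS396.π ∈ sextets := smul_sextet hg (hs _ (by decide +kernel))
  have hm2 : g • dS495.π ∈ sextets := smul_sextet hg (hs _ (by decide +kernel))
  have hm3 : g • dS880.π ∈ sextets := smul_sextet hg (hs _ (by decide +kernel))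
  have j1 : JS ({d, Finset.univ \ d} : Finset (Finset GolayPt)) (g • dS396.π) 480 := by
    rw [← hp]; exact js_D_S396.smul hg
  have j2 : JS ({d, Finset.univ \ d} : Finset (Finset GolayPt)) (g • dS495.π) 384 := by
    rw [← hp]; exact js_D_S495.smul hg
  have j3 : JS ({d, Finset.univ \ d} : Finset (Finset GolayPt)) (g • dS880.π) 216 := by
    rw [← hp]; exact js_D_S880.smul hg
  have e1 := orbit_card_of_JS (k := 396) (stab_dodPair hd) j1 (by norm_num) (by norm_num)
  have e2 := orbit_card_of_JS (k := 495) (stab_dodPair hd) j2 (by norm_num) (by norm_num)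
  have e3 := orbit_card_of_JS (k := 880) (stab_dodPair hd) j3 (by norm_num) (by norm_num)
  exact ⟨_, hm1, _, hm2, _, hm3, e1, e2, e3, decomp3 (MulAction.stabilizer ↥M24
    ({d, Finset.univ \ d} : Finset (Finset GolayPt))) _ (Set.toFinite _)
    (fun σ _ x hx => smul_sextet σ.2 hx) hm1 hm2 hm3 e1 e2 e3 (by norm_num) (by norm_num)
    (by norm_num) (by rw [sextets_ncard])⟩

end Cfsg.Agent.S5617
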