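import Cfsg.Statements.S5618
import Cfsg.Agent.H29.M24List

set_option autoImplicit false
open scoped Pointwise
open Cfsg

namespace Cfsg.Agent.S5618

open Cfsg Cfsg.Agent.H7 Cfsg.Agent.H29
open scoped Pointwise

def ms : List (ℕ × List ℕ) := [(8388608, [23]), (1, [0]), (2, [1]), (4, [2]), (8, [3]),
  (dod0, [0, 1, 2, 3, 4, 12, 16, 17, 18, 19, 21, 23])]

theorem one_fix : {σ | σ ∈ M24 ∧ StabMs ms σ}.ncard = 1 :=
  card_stabMs (by decide +kernel) (by decide +kernel)

theorem eq_one {σ : Equiv.Perm GolayPt} (hσ : σ ∈ M24) (h : StabMs ms σ) : σ = 1 := by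
  obtain ⟨a, ha⟩ := Set.ncard_eq_one.1 one_fix
  have h1 : σ ∈ {σ | σ ∈ M24 ∧ StabMs ms σ} := ⟨hσ, h⟩
  have h2 : (1 : Equiv.Perm GolayPt) ∈ {σ | σ ∈ M24 ∧ StabMs ms σ} :=
    ⟨M24.one_mem, fun _ _ => one_smul _ _⟩
  rw [ha] at h1 h2
  exact h1.trans h2.symm

theorem fix5_dod0 {σ : Equiv.Perm GolayPt} (hσ : σ ∈ M24) (hd : σ • toSet dod0 = toSet dod0)
    (h : ∀ i : Fin 5, σ (bp i) = bp i) : σ = 1 := by
  apply eq_one hσ
  have hpt : ∀ i < 24, σ (gpt i) = gpt i → σ • toSet (1 <<< i) = toSet (1 <<< i) := fun i hi h =>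
      (smul_single hi).2 h
  intro e he
  simp only [ms, List.mem_cons, List.not_mem_nil, or_false] at he
  rcases he with rfl | rfl | rfl | rfl | rfl | rfl
  · exact hpt 23 (by norm_num) (h 0)
  · exact hpt 0 (by norm_num) (h 1)
  · exact hpt 1 (by norm_num) (h 2)
  · exact hpt 2 (by norm_num) (h 3)
  · exact hpt 3 (by norm_num) (h 4)
  · exact hd

theorem fix5_dod {d : Finset GolayPt} (hd : d ∈ dodecads) {σ : Equiv.Perm GolayPt} (hσ : σ ∈ M24)
    (hσd : σ • d = d) {X : Finset GolayPt} (hXd : X ⊆ d) (hX : 5 ≤ X.card)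
    (h : ∀ p ∈ X, σ p = p) : σ = 1 := by
  obtain ⟨x, hx, hxX⟩ := exists_enum (k := 5) hX
  obtain ⟨τ, hτ, h1, h2⟩ := dodecad_mapn (n := 5) (by norm_num) (fun i : Fin 5 => bp i) x bp_inj5 hx
    dod0_dodecad hd (fun i => bp_mem_dod0 i i.2) (fun i => hXd (hxX i))
  have h3 : τ⁻¹ * σ * τ = 1 := by
    apply fix5_dod0 (M24.mul_mem (M24.mul_mem (M24.inv_mem hτ) hσ) hτ)
    · rw [mul_smul, mul_smul, h2, hσd, ← h2, inv_smul_smul]
    · intro i
      have h4 : τ (bp i) = x i := h1 i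
      rw [Equiv.Perm.mul_apply, Equiv.Perm.mul_apply, h4, h _ (hxX i), ← h4]
      exact τ.symm_apply_apply _
  have h4 : τ * (τ⁻¹ * σ * τ) * τ⁻¹ = 1 := by rw [h3]; group
  have h5 : τ * (τ⁻¹ * σ * τ) * τ⁻¹ = σ := by group
  rw [← h5, h4]

theorem exists_perm {d C : Finset GolayPt} (hd : d ∈ dodecads) (hC : C ∈ hexadsOn d)
    (π : Equiv.Perm {p // p ∈ C}) :
    ∃ σ : ↥(MulAction.stabilizer M24 d ⊓ MulAction.stabilizer M24 C), ∀ p : {p // p ∈ C},
      ((σ : ↥M24) : Equiv.Perm GolayPt) p = π p := by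
  obtain ⟨hc6, o, ho, hoC⟩ := hC
  have hCd : C ⊆ d := by rw [← hoC]; exact Finset.inter_subset_right
  have hCo : C ⊆ o := by rw [← hoC]; exact Finset.inter_subset_left
  have e : Fin 6 ≃ {p // p ∈ C} := (Fintype.equivFinOfCardEq (by rw [Fintype.card_coe, hc6])).symm
  obtain ⟨σ, hσ, h1, h2⟩ := dodecad_mapn (n := 5) (by norm_num)
    (fun i : Fin 5 => ((e i.castSucc : {p // p ∈ C}) : GolayPt))
    (fun i : Fin 5 => ((π (e i.castSucc) : {p // p ∈ C}) : GolayPt))
    (fun i j hij => by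
      have h := e.injective (Subtype.ext hij)
      exact Fin.castSucc_injective _ h)
    (fun i j hij => by
      have h := e.injective (π.injective (Subtype.ext hij))
      exact Fin.castSucc_injective _ h) hd hd
    (fun i => hCd (e i.castSucc).2) (fun i => hCd (π (e i.castSucc)).2)
  have h5 : σ • o = o := by
    apply octad_eq_of_five (M24_smul_octad hσ ho) ho
    have hsub : (Finset.univ.image fun i : Fin 5 => ((π (e i.castSucc) : {p // p ∈ C}) : GolayPt))
        ⊆ σ • o ∩ o := by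
      intro x hx
      rw [Finset.mem_image] at hx
      obtain ⟨i, _, rfl⟩ := hx
      rw [Finset.mem_inter]
      refine ⟨?_, hCo (π (e i.castSucc)).2⟩
      rw [← h1 i]
      exact Finset.smul_mem_smul_finset (hCo (e i.castSucc).2)
    refine le_trans ?_ (Finset.card_le_card hsub)
    rw [Finset.card_image_of_injective]
    · simp
    · intro i j hij
      have h := e.injective (π.injective (Subtype.ext hij))
      exact Fin.castSucc_injective _ h
  have h6 : σ • C = C := by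
    rw [← hoC, Finset.smul_finset_inter, h5, h2]
  refine ⟨⟨⟨σ, hσ⟩, Subgroup.mem_inf.2 ⟨h2, h6⟩⟩, fun p => ?_⟩
  show σ p = π p
  have h7 : ∀ q : {p // p ∈ C}, q ≠ e (Fin.last 5) → σ q = π q := by
    intro q hq
    obtain ⟨i, rfl⟩ := e.surjective q
    have hi : i ≠ Fin.last 5 := fun h => hq (by rw [h])
    obtain ⟨j, rfl⟩ := Fin.exists_castSucc_eq.2 hi
    exact h1 j
  by_cases hp : p = e (Fin.last 5)
  · have h8 : σ p ∈ C := by
      have h8' : σ • (p : GolayPt) ∈ σ • C := Finset.smul_mem_smul_finset p.2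
      rw [h6] at h8'
      exact h8'
    by_contra hne
    set q : {p // p ∈ C} := π.symm ⟨σ p, h8⟩ with hq
    have h9 : π q = ⟨σ p, h8⟩ := by rw [hq, Equiv.apply_symm_apply]
    have h10 : q ≠ e (Fin.last 5) := by
      intro h
      apply hne
      rw [hp, ← h, h9, h, ← hp]
    have h11 := h7 q h10
    rw [h9] at h11
    have h12 : (q : GolayPt) = p := σ.injective h11
    exact h10 ((Subtype.ext h12).trans hp)
  · exact h7 p hp

/-- For a dodecad d of the length-24 code and a hexad C on it (a 6-point intersection of d with an octad): the joint stabiliser of d and C in the code's group is isomorphic to the symmetric group of degree 6, and it acts faithfully both on the six points of C and on the six points of d outside C. -/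
theorem result (d : Finset Cfsg.GolayPt) (hd : d ∈ Cfsg.dodecads) (C : Finset Cfsg.GolayPt) (hC : C ∈ Cfsg.hexadsOn d) : Nonempty (↥(MulAction.stabilizer Cfsg.M24 d ⊓ MulAction.stabilizer Cfsg.M24 C) ≃* Equiv.Perm (Fin 6)) ∧ (∀ g ∈ MulAction.stabilizer Cfsg.M24 d ⊓ MulAction.stabilizer Cfsg.M24 C, (∀ p ∈ C, ((g : ↥Cfsg.M24) : Equiv.Perm Cfsg.GolayPt) p = p) → g = 1) ∧ ∀ g ∈ MulAction.stabilizer Cfsg.M24 d ⊓ MulAction.stabilizer Cfsg.M24 C, (∀ p ∈ d \ C, ((g : ↥Cfsg.M24) : Equiv.Perm Cfsg.GolayPt) p = p) → g = 1 := by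
  have hC' := hC
  obtain ⟨hc6, o, ho, hoC⟩ := hC
  have hCd : C ⊆ d := by rw [← hoC]; exact Finset.inter_subset_right
  have hf : ∀ g ∈ MulAction.stabilizer Cfsg.M24 d ⊓ MulAction.stabilizer Cfsg.M24 C,
      (∀ p ∈ C, ((g : ↥Cfsg.M24) : Equiv.Perm Cfsg.GolayPt) p = p) → g = 1 := by
    intro g hg h
    rw [Subgroup.mem_inf] at hg
    exact Subtype.ext (fix5_dod hd g.2 hg.1 hCd (by omega) h)
  refine ⟨?_, hf, ?_⟩
  · refine perm6_of _ C hc6 (fun σ hσ => (Subgroup.mem_inf.1 hσ).2) hf ?_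
    choose F hF using exists_perm hd hC'
    have hinj : Function.Injective F := by
      intro π π' h
      ext p
      rw [← hF, ← hF, h]
    have h1 := Nat.card_le_card_of_injective F hinj
    have hcard : Nat.card (Equiv.Perm {p // p ∈ C}) = 720 := by
      rw [Nat.card_eq_fintype_card, Fintype.card_perm, Fintype.card_coe, hc6]
      rfl
    rwa [hcard] at h1
  · intro g hg h
    rw [Subgroup.mem_inf] at hg
    refine Subtype.ext (fix5_dod hd g.2 hg.1 (X := d \ C) Finset.sdiff_subset ?_ h)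
    rw [Finset.card_sdiff_of_subset hCd, hd.2, hc6]
    norm_num

end Cfsg.Agent.S5618
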