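import Cfsg.Statements.S5619
import Cfsg.Agent.H29.M24List
import Cfsg.Agent.H24.Quat

set_option autoImplicit false
open scoped Pointwise
open Cfsg

namespace Cfsg.Agent.S5619

open Cfsg Cfsg.Agent.H7 Cfsg.Agent.H29
open scoped Pointwise

/-! ### abstract part -/

theorem q8_gen : ∀ q : QuaternionGroup 2, q ≠ 1 → q = .a 2 ∨ q * q = .a 2 := by decide

theorem abs_part {G : Type*} [Group G] [Finite G] (hG : Nat.card G = 72) (N : Subgroup G)
    (hN : N.Normal) (hN9 : Nat.card N = 9) (hN3 : ∀ x ∈ N, x ^ 3 = 1) (x y : G)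
    (hx : x ^ (2 * 2) = 1) (hy : y * y = x ^ 2) (hxy : y * x * y⁻¹ = x⁻¹) (hx2 : x ^ 2 ≠ 1) :
    (∀ Q : Sylow 3 G, (Q : Subgroup G).Normal ∧ Nat.card ↥Q = 9 ∧ ∀ x ∈ (Q : Subgroup G), x ^ 3 = 1) ∧
    ∀ P : Sylow 2 G, Nonempty (↥P ≃* QuaternionGroup 2) := by
  have f3 : (72 : ℕ).factorization 3 = 2 := by
    rw [show (72 : ℕ) = 2 ^ 3 * 3 ^ 2 by norm_num, Nat.factorization_mul (by norm_num) (by norm_num),
      Nat.Prime.factorization_pow Nat.prime_two, Nat.Prime.factorization_pow Nat.prime_three]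
    simp
  have f2 : (72 : ℕ).factorization 2 = 3 := by
    rw [show (72 : ℕ) = 2 ^ 3 * 3 ^ 2 by norm_num, Nat.factorization_mul (by norm_num) (by norm_num),
      Nat.Prime.factorization_pow Nat.prime_two, Nat.Prime.factorization_pow Nat.prime_three]
    simp
  have := Fact.mk Nat.prime_three
  constructor
  · intro Q
    let N' : Sylow 3 G := Sylow.ofCard N (by rw [hN9, hG, f3]; norm_num)
    have hN' : (N' : Subgroup G) = N := rfl
    obtain ⟨g, hg⟩ := MulAction.exists_smul_eq G N' Q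
    have h1 : (Q : Subgroup G) = N := by
      rw [← hg, Sylow.smul_def, Sylow.pointwise_smul_def]
      show MulAut.conj g • N = N
      exact hN.conjAct g
    rw [h1]
    refine ⟨hN, ?_, hN3⟩
    have : Nat.card ↥(Q : Subgroup G) = 9 := by rw [h1, hN9]
    exact this
  · intro P
    let f := Cfsg.Agent.H24.quaternionLift 2 x y hx hy hxy
    have hfa : f (.a 2) = x ^ 2 := by
      have := Cfsg.Agent.H24.quaternionLift_a 2 x y hx hy hxy 2
      rw [← zpow_natCast]
      exact_mod_cast this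
    have hinj : Function.Injective f := by
      rw [injective_iff_map_eq_one]
      intro q hq
      by_contra hne
      rcases q8_gen q hne with h | h
      · rw [h, hfa] at hq; exact hx2 hq
      · have h1 := congrArg f h
        rw [map_mul, hq, one_mul, hfa] at h1
        exact hx2 h1.symm
    have e : QuaternionGroup 2 ≃* f.range := MonoidHom.ofInjective hinj
    have hc : Nat.card f.range = 8 := by
      rw [← Nat.card_congr e.toEquiv, Nat.card_eq_fintype_card, QuaternionGroup.card]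
    let P' : Sylow 2 G := Sylow.ofCard f.range (by rw [hc, hG, f2]; norm_num)
    have e2 : P ≃* P' := Sylow.equiv P P'
    exact ⟨e2.trans e.symm⟩

/-! ### the concrete group -/

def ms : List (ℕ × List ℕ) := [(8388608, [23]), (1, [0]), (2, [1]),
  (dod0, [0, 1, 2, 3, 4, 12, 16, 17, 18, 19, 21, 23])]

theorem card72 : {σ | σ ∈ M24 ∧ StabMs ms σ}.ncard = 72 :=
  card_stabMs (by decide +kernel) (by decide +kernel)

/-- the stabiliser of `dod0` and of three points -/
abbrev J0 : Subgroup ↥M24 := MulAction.stabilizer M24 (toSet dod0) ⊓ MulAction.stabilizer M24 (gpt 23) ⊓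
  MulAction.stabilizer M24 (gpt 0) ⊓ MulAction.stabilizer M24 (gpt 1)

theorem mem_J0 {g : ↥M24} : g ∈ J0 ↔ StabMs ms (g : Equiv.Perm GolayPt) := by
  constructor
  · rintro ⟨⟨⟨h1, h2⟩, h3⟩, h4⟩
    intro e he
    simp only [ms, List.mem_cons, List.not_mem_nil, or_false] at he
    rcases he with rfl | rfl | rfl | rfl
    · exact (smul_single (i := 23) (by norm_num)).2 h2
    · exact (smul_single (i := 0) (by norm_num)).2 h3
    · exact (smul_single (i := 1) (by norm_num)).2 h4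
    · exact h1
  · intro h
    exact ⟨⟨⟨h (dod0, [0, 1, 2, 3, 4, 12, 16, 17, 18, 19, 21, 23]) (by simp [ms]),
      (smul_single (i := 23) (by norm_num)).1 (h (8388608, [23]) (by simp [ms]))⟩,
      (smul_single (i := 0) (by norm_num)).1 (h (1, [0]) (by simp [ms]))⟩,
      (smul_single (i := 1) (by norm_num)).1 (h (2, [1]) (by simp [ms]))⟩

theorem card_J0 : Nat.card J0 = 72 := by
  rw [card_sub_M24 J0 (StabMs ms) (fun g => mem_J0)]
  exact card72

def L9 : List ℕ := [0xbdab49ca307b9ac5a928398a418820, 0xbbe488104c6bad3a28cb49cb588c20, 0xbd9888ce427a9a3a14eb325d0a9020, 0xbbe3420a15696d25b8e8325439b020, 0xbd86b94664795b5438d449d4264020, 0xbb48b65473b39f0428f4324b214420, 0xbb6141b2b1b29e2594c849dd324820, 0xbb448a8d92b15e4a392b3995184c20, 0xbbe6b140836aad141534399cc95420]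

theorem L9_ok : grpOK L9 = true := by decide +kernel
theorem L9_nd : L9.Nodup := by decide +kernel
theorem L9_stab : (L9.all fun c => msOK ms && lfMs ms (pa c)) = true := by decide +kernel

theorem code_stab {c : ℕ} (hc : okPerm c = true) (h : lfMs ms (pa c) = true) :
    StabMs ms (mkPerm c) :=
  (lfMs_iff (by decide +kernel) _ (mkPerm_mem_M24 hc) (pa c) (fun i hi => by
    rw [ap_mkPerm (okPerm_isPerm hc) hi]; rfl)).1 h

theorem L9_J0 {c : ℕ} (hc : c ∈ L9) : StabMs ms (mkPerm c) := by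
  have h := L9_stab
  rw [List.all_eq_true] at h
  have h1 := h c hc
  rw [Bool.and_eq_true] at h1
  exact code_stab (grpOK_mem L9_ok hc).1 h1.2

/-- the normal subgroup of order nine -/
noncomputable def NN : Subgroup ↥J0 := ((subL L9 L9_ok).subgroupOf M24).subgroupOf J0

theorem mem_NN {g : ↥J0} : g ∈ NN ↔ ((g : ↥M24) : Equiv.Perm GolayPt) ∈ subL L9 L9_ok := Iff.rfl

theorem card_NN : Nat.card NN = 9 := by
  have h1 : (subL L9 L9_ok).subgroupOf M24 ≤ J0 := by
    rintro ⟨g, hg⟩ ⟨c, hc, h⟩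
    rw [mem_J0]
    show StabMs ms g
    have h : mkPerm c = g := h
    rw [← h]
    exact L9_J0 hc
  rw [show NN = ((subL L9 L9_ok).subgroupOf M24).subgroupOf J0 from rfl,
    Nat.card_congr (Subgroup.subgroupOfEquivOfLe h1).toEquiv,
    Nat.card_congr (Subgroup.subgroupOfEquivOfLe subL_le).toEquiv, card_subL L9_nd]
  rfl

theorem conj_check : ∀ σ ∈ M24, StabMs ms σ → ∀ g ∈ L9, ∃ h ∈ L9, σ * mkPerm g * σ⁻¹ = mkPerm h :=
  all_stabMs (by decide +kernel) (lfNorm_imp (by decide +kernel) (by decide +kernel))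
    (by decide +kernel)

theorem NN_normal : NN.Normal := by
  constructor
  rintro n hn g
  rw [mem_NN] at hn ⊢
  obtain ⟨c, hc, h⟩ := hn
  obtain ⟨d, hd, h2⟩ := conj_check _ (g : ↥M24).2 (mem_J0.1 g.2) c hc
  refine ⟨d, hd, ?_⟩
  rw [← h2, h]
  rfl

theorem cube_check : (L9.all fun c => Nat.beq (pm c (pm c c)) idc) = true := by decide +kernel

theorem NN_cube {x : ↥J0} (hx : x ∈ NN) : x ^ 3 = 1 := by
  obtain ⟨c, hc, h⟩ := hx
  apply Subtype.ext
  apply Subtype.ext
  show ((x : ↥M24) : Equiv.Perm GolayPt) ^ 3 = 1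
  have h : mkPerm c = ((x : ↥M24) : Equiv.Perm GolayPt) := h
  rw [← h]
  have h1 := (grpOK_mem L9_ok hc).1
  have h2 : okPerm (pm c c) = true := by
    have : (L9.all fun c => okPerm (pm c c)) = true := by decide +kernel
    rw [List.all_eq_true] at this
    exact this c hc
  have h3 := cube_check
  rw [List.all_eq_true] at h3
  have h4 := Nat.eq_of_beq_eq_true (h3 c hc)
  rw [pow_succ', pow_two, ← mkPerm_pm h1 h1, ← mkPerm_pm h1 h2, h4]
  exact idc_ok.2

def cx : ℕ := 0xbba4964e03534b533e875a2d120820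
def cy : ℕ := 0xb988a80e554acf12d1eeb351360820
def cxi : ℕ := 0xb958995491559d33be8642da380820
def cx2 : ℕ := 0xbb674ab064796d24292b31dd088820

theorem cx_ok : okPerm cx = true := by decide +kernel
theorem cy_ok : okPerm cy = true := by decide +kernel
theorem cxi_ok : okPerm cxi = true := by decide +kernel
theorem cx2_ok : okPerm cx2 = true := by decide +kernel

noncomputable def X : ↥J0 := ⟨⟨mkPerm cx, mkPerm_mem_M24 cx_ok⟩, mem_J0.2 (code_stab cx_ok (by decide +kernel))⟩
noncomputable def Y : ↥J0 := ⟨⟨mkPerm cy, mkPerm_mem_M24 cy_ok⟩, mem_J0.2 (code_stab cy_ok (by decide +kernel))⟩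

theorem sqx : mkPerm cx * mkPerm cx = mkPerm cx2 := by
  have : pm cx cx = cx2 := Nat.eq_of_beq_eq_true (by decide +kernel)
  rw [← mkPerm_pm cx_ok cx_ok, this]

theorem sqy : mkPerm cy * mkPerm cy = mkPerm cx2 := by
  have : pm cy cy = cx2 := Nat.eq_of_beq_eq_true (by decide +kernel)
  rw [← mkPerm_pm cy_ok cy_ok, this]

theorem X2 : X ^ 2 = Y * Y := by
  apply Subtype.ext
  apply Subtype.ext
  show mkPerm cx ^ 2 = mkPerm cy * mkPerm cy
  rw [pow_two, sqx, sqy]

theorem X2_ne : X ^ 2 ≠ 1 := by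
  intro h
  have h1 : mkPerm cx ^ 2 = 1 := congrArg (fun g : ↥J0 => ((g : ↥M24) : Equiv.Perm GolayPt)) h
  rw [pow_two, sqx, ← idc_ok.2] at h1
  have h2 := mkPerm_inj (by decide +kernel) (by decide +kernel) cx2_ok (by decide +kernel) h1
  revert h2
  decide +kernel

theorem X4 : X ^ (2 * 2) = 1 := by
  apply Subtype.ext
  apply Subtype.ext
  show mkPerm cx ^ (2 * 2) = 1
  rw [pow_mul, pow_two, pow_two, sqx, ← mkPerm_pm cx2_ok cx2_ok]
  have : pm cx2 cx2 = idc := Nat.eq_of_beq_eq_true (by decide +kernel)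
  rw [this]
  exact idc_ok.2

theorem YX : Y * X * Y⁻¹ = X⁻¹ := by
  have h1 : mkPerm cx * mkPerm cxi = 1 := by
    rw [← mkPerm_pm cx_ok cxi_ok]
    have : pm cx cxi = idc := Nat.eq_of_beq_eq_true (by decide +kernel)
    rw [this]
    exact idc_ok.2
  have h2 : mkPerm cy * mkPerm cx = mkPerm cxi * mkPerm cy := by
    have : pm cy cx = pm cxi cy := Nat.eq_of_beq_eq_true (by decide +kernel)
    rw [← mkPerm_pm cy_ok cx_ok, ← mkPerm_pm cxi_ok cy_ok, this]
  apply Subtype.ext
  apply Subtype.ext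
  show mkPerm cy * mkPerm cx * (mkPerm cy)⁻¹ = (mkPerm cx)⁻¹
  rw [h2, mul_inv_cancel_right]
  exact (inv_eq_of_mul_eq_one_right h1).symm

/-! ### transport -/

theorem stab4_equiv (g : ↥M24) (d : Finset GolayPt) (p q r : GolayPt) :
    MulAction.stabilizer M24 (g • d) ⊓ MulAction.stabilizer M24 (g • p) ⊓ MulAction.stabilizer M24 (g • q) ⊓
      MulAction.stabilizer M24 (g • r) = (MulAction.stabilizer M24 d ⊓ MulAction.stabilizer M24 p ⊓
        MulAction.stabilizer M24 q ⊓ MulAction.stabilizer M24 r).map (MulAut.conj g).toMonoidHom := by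
  rw [stab_smul, stab_smul, stab_smul, stab_smul, ← Subgroup.map_inf _ _ _ (MulAut.conj g).injective,
    ← Subgroup.map_inf _ _ _ (MulAut.conj g).injective, ← Subgroup.map_inf _ _ _ (MulAut.conj g).injective]

theorem inj3 {a b c : GolayPt} (hab : a ≠ b) (hac : a ≠ c) (hbc : b ≠ c) :
    Function.Injective ![a, b, c] := by
  intro i j hij
  fin_cases i <;> fin_cases j <;> first | rfl | (exfalso; revert hij; simp [hab, hac, hbc, Ne.symm hab, Ne.symm hac, Ne.symm hbc])

/-- In the group of the length-24 code, the subgroup fixing a dodecad setwise and three of its points individually (a group of order 72) has a normal Sylow 3-subgroup that is elementary abelian of order 9, and its Sylow 2-subgroups are quaternion of order 8. -/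
theorem result (d : Finset Cfsg.GolayPt) (hd : d ∈ Cfsg.dodecads) (p q r : Cfsg.GolayPt) (hp : p ∈ d) (hq : q ∈ d) (hr : r ∈ d) (hpq : p ≠ q) (hpr : p ≠ r) (hqr : q ≠ r) : (∀ Q : Sylow 3 ↥(MulAction.stabilizer Cfsg.M24 d ⊓ MulAction.stabilizer Cfsg.M24 p ⊓ MulAction.stabilizer Cfsg.M24 q ⊓ MulAction.stabilizer Cfsg.M24 r), (Q : Subgroup ↥(MulAction.stabilizer Cfsg.M24 d ⊓ MulAction.stabilizer Cfsg.M24 p ⊓ MulAction.stabilizer Cfsg.M24 q ⊓ MulAction.stabilizer Cfsg.M24 r)).Normal ∧ Nat.card ↥Q = 9 ∧ ∀ x ∈ (Q : Subgroup ↥(MulAction.stabilizer Cfsg.M24 d ⊓ MulAction.stabilizer Cfsg.M24 p ⊓ MulAction.stabilizer Cfsg.M24 q ⊓ MulAction.stabilizer Cfsg.M24 r)), x ^ 3 = 1) ∧ ∀ P : Sylow 2 ↥(MulAction.stabilizer Cfsg.M24 d ⊓ MulAction.stabilizer Cfsg.M24 p ⊓ MulAction.stabilizer Cfsg.M24 q ⊓ MulAction.stabilizer Cfsg.M24 r), Nonempty (↥P ≃* QuaternionGroup 2) := by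
  obtain ⟨g, hg, h1, h2⟩ := dodecad_mapn (n := 3) (by norm_num) ![gpt 23, gpt 0, gpt 1] ![p, q, r]
    (inj3 (by decide +kernel) (by decide +kernel) (by decide +kernel)) (inj3 hpq hpr hqr)
    dod0_dodecad hd (fun i => by fin_cases i <;> decide +kernel)
    (fun i => by fin_cases i <;> assumption)
  have e0 : (⟨g, hg⟩ : ↥M24) • toSet dod0 = d := h2
  have e1 : (⟨g, hg⟩ : ↥M24) • gpt 23 = p := h1 0
  have e2 : (⟨g, hg⟩ : ↥M24) • gpt 0 = q := h1 1
  have e3 : (⟨g, hg⟩ : ↥M24) • gpt 1 = r := h1 2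
  rw [← e0, ← e1, ← e2, ← e3, stab4_equiv]
  have e := Subgroup.equivMapOfInjective J0 (MulAut.conj (⟨g, hg⟩ : ↥M24)).toMonoidHom (MulAut.conj (⟨g, hg⟩ : ↥M24)).injective
  refine abs_part ?_ (NN.map e.toMonoidHom) (NN_normal.map _ e.surjective) ?_ ?_ (e X) (e Y) ?_ ?_ ?_ ?_
  · rw [← Nat.card_congr e.toEquiv]; exact card_J0
  · rw [Nat.card_congr (Subgroup.equivMapOfInjective NN e.toMonoidHom e.injective).toEquiv.symm]
    exact card_NN
  · rintro _ ⟨x, hx, rfl⟩
    show (e x) ^ 3 = 1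
    rw [← map_pow, NN_cube hx, map_one]
  · rw [← map_pow, X4, map_one]
  · rw [← map_mul, ← map_pow, X2]
  · rw [← map_inv, ← map_mul, ← map_mul, YX, map_inv]
  · rw [← map_pow]
    intro h
    exact X2_ne (e.injective (h.trans (map_one e).symm))

end Cfsg.Agent.S5619
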