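import Cfsg.Statements.S5620
import Cfsg.Agent.H29.M24Orb2

set_option autoImplicit false
open scoped Pointwise
open Cfsg

namespace Cfsg.Agent.S5620

open Cfsg Cfsg.Agent.H7 Cfsg.Agent.H29
open scoped Pointwise

theorem sq_eq : Spor.squareDodecad = toSet 0x5335f := by decide +kernel
theorem sq_dod : Spor.squareDodecad ∈ dodecads := by
  rw [sq_eq]; exact (isDod_spec (by decide +kernel)).1
theorem sqc_dod : Finset.univ \ Spor.squareDodecad ∈ dodecads := by
  rw [← Finset.compl_eq_univ_sdiff]; exact compl_dodecad sq_dod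
theorem mem0 : (some 0 : GolayPt) ∈ Spor.squareDodecad := by decide +kernel
theorem memn : (none : GolayPt) ∈ Finset.univ \ Spor.squareDodecad := by decide +kernel

def c11 : ℕ := 0x2deb33a1525c589b3e0670a83091a0
def c2 : ℕ := 0x2bd7138ec29d024bb932522a6831a0

theorem code_mem {c : ℕ} (h : (okPerm c && Nat.beq (pim c 0x5335f) 0x5335f && Nat.beq (papp c 0) 0) = true) :
    mkPerm c ∈ Spor.M11 := by
  rw [Bool.and_eq_true, Bool.and_eq_true] at h
  have hp := okPerm_isPerm h.1.1
  refine ⟨⟨mkPerm_mem_M24 h.1.1, ?_⟩, ?_⟩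
  · show mkPerm c • Spor.squareDodecad = Spor.squareDodecad
    rw [sq_eq, smul_toSet hp, ← pim_eq, Nat.eq_of_beq_eq_true h.1.2]
  · show mkPerm c (gpt 0) = gpt 0
    rw [mkPerm_gpt hp (by norm_num), Nat.eq_of_beq_eq_true h.2]

theorem no_fix (q : GolayPt) (hq : q ∉ Spor.squareDodecad) (h : ∀ σ ∈ Spor.M11, σ q = q) : False := by
  obtain ⟨j, hj, rfl⟩ : ∃ j < 24, gpt j = q := ⟨gidx q, gidx_lt q, gpt_gidx q⟩
  have h1 := h _ (code_mem (c := c11) (by decide +kernel))
  have h2 := h _ (code_mem (c := c2) (by decide +kernel))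
  have k1 : isPermCode c11 = true := okPerm_isPerm (by decide +kernel)
  have k2 : isPermCode c2 = true := okPerm_isPerm (by decide +kernel)
  rw [mkPerm_gpt k1 hj] at h1
  rw [mkPerm_gpt k2 hj] at h2
  have h1 := congrArg gidx h1
  have h2 := congrArg gidx h2
  rw [gidx_gpt (papp_lt k1 hj), gidx_gpt hj] at h1
  rw [gidx_gpt (papp_lt k2 hj), gidx_gpt hj] at h2
  rw [sq_eq, gpt_mem_toSet hj] at hq
  have key : ∀ j < 24, papp c11 j = j → papp c2 j = j → Nat.testBit 0x5335f j = true := by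
    decide +kernel
  exact hq (key j hj h1 h2)

theorem conj_eq : ∃ g ∈ Cfsg.M24, g • Cfsg.Spor.squareDodecad = Finset.univ \ Cfsg.Spor.squareDodecad ∧ MulAut.conj g • Cfsg.Spor.M11 = Cfsg.Spor.M12 ⊓ MulAction.stabilizer (Equiv.Perm Cfsg.GolayPt) (none : Cfsg.GolayPt) := by
  obtain ⟨g, hg, h1, h2⟩ := dodecad_mapn (n := 1) (by norm_num) ![(some 0 : GolayPt)] ![(none : GolayPt)]
    (Function.injective_of_subsingleton _) (Function.injective_of_subsingleton _) sq_dod sqc_dod
    (fun i => by fin_cases i; exact mem0) (fun i => by fin_cases i; exact memn)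
  have h1 : g (some 0) = none := h1 0
  refine ⟨g, hg, h2, ?_⟩
  ext τ
  rw [Subgroup.mem_pointwise_smul_iff_inv_smul_mem]
  have e : (MulAut.conj g)⁻¹ • τ = g⁻¹ * τ * g := by
    rw [← map_inv, MulAut.smul_def, MulAut.conj_apply, inv_inv]
  rw [e]
  have e1 : g⁻¹ * τ * g ∈ M24 ↔ τ ∈ M24 := by
    constructor
    · intro h
      have := M24.mul_mem (M24.mul_mem hg h) (M24.inv_mem hg)
      simpa [mul_assoc] using this
    · intro h
      exact M24.mul_mem (M24.mul_mem (M24.inv_mem hg) h) hg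
  have e2 : (g⁻¹ * τ * g) • Spor.squareDodecad = Spor.squareDodecad ↔
      τ • Spor.squareDodecad = Spor.squareDodecad := by
    rw [← stab_conj_iff' h2, ← Finset.compl_eq_univ_sdiff, smul_compl', compl_inj_iff]
  have e3 : (g⁻¹ * τ * g) (some 0) = some 0 ↔ τ none = none := (stab_conj_iff h1).symm
  show ((g⁻¹ * τ * g ∈ M24 ∧ (g⁻¹ * τ * g) • Spor.squareDodecad = Spor.squareDodecad) ∧
    (g⁻¹ * τ * g) (some 0) = some 0) ↔ ((τ ∈ M24 ∧ τ • Spor.squareDodecad = Spor.squareDodecad) ∧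
    τ none = none)
  rw [e1, e2, e3]

/-- Inside the stabiliser of the dodecad of squares (a Mathieu group of degree 12), the stabiliser of the residue 0 (a point of the dodecad) and the stabiliser of the extra point (a point outside the dodecad) are isomorphic but not conjugate; conjugation by a suitable element of the code's group that maps the dodecad of squares onto its complement carries the first onto the second. -/
theorem result : Nonempty (↥(Cfsg.Spor.M12 ⊓ MulAction.stabilizer (Equiv.Perm Cfsg.GolayPt) (none : Cfsg.GolayPt)) ≃* ↥Cfsg.Spor.M11) ∧ (¬ ∃ k ∈ Cfsg.Spor.M12, MulAut.conj k • Cfsg.Spor.M11 = Cfsg.Spor.M12 ⊓ MulAction.stabilizer (Equiv.Perm Cfsg.GolayPt) (none : Cfsg.GolayPt)) ∧ ∃ g ∈ Cfsg.M24, g • Cfsg.Spor.squareDodecad = Finset.univ \ Cfsg.Spor.squareDodecad ∧ MulAut.conj g • Cfsg.Spor.M11 = Cfsg.Spor.M12 ⊓ MulAction.stabilizer (Equiv.Perm Cfsg.GolayPt) (none : Cfsg.GolayPt) := by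
  obtain ⟨g, hg, h1, h2⟩ := conj_eq
  refine ⟨?_, ?_, g, hg, h1, h2⟩
  · rw [← h2]
    exact ⟨(Subgroup.equivSMul (MulAut.conj g) Spor.M11).symm⟩
  · rintro ⟨k, hk, h3⟩
    refine no_fix (k⁻¹ none) ?_ ?_
    · intro h4
      have h5 : k • Spor.squareDodecad = Spor.squareDodecad := hk.2
      have h6 : k • (k⁻¹ none) ∈ k • Spor.squareDodecad := Finset.smul_mem_smul_finset h4
      rw [h5] at h6
      have h7 : k • (k⁻¹ none) = (none : GolayPt) := smul_inv_smul k (none : GolayPt)
      rw [h7] at h6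
      have := memn
      simp only [Finset.mem_sdiff] at this
      exact this.2 h6
    · intro σ hσ
      have h4 : MulAut.conj k • σ ∈ MulAut.conj k • Spor.M11 := Subgroup.smul_mem_pointwise_smul _ _ _ hσ
      rw [h3] at h4
      have h5 : (k * σ * k⁻¹) none = none := h4.2
      rw [Equiv.Perm.mul_apply, Equiv.Perm.mul_apply] at h5
      have h6 := congrArg (fun x => k⁻¹ x) h5
      have h7 : k⁻¹ (k (σ (k⁻¹ none))) = σ (k⁻¹ none) := inv_smul_smul k (σ (k⁻¹ none))
      rw [← h7]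
      exact h6

end Cfsg.Agent.S5620
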