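import Cfsg.Statements.S5625
import Cfsg.Agent.H29.Steiner

set_option autoImplicit false
open Cfsg

namespace Cfsg.Agent.S5625

/-- In any Steiner system S(5, 8, 24) and for any set Y of three points, the blocks meeting Y in exactly 3, 2, 1 and 0 points number 21, 168, 360 and 210 respectively (so there are 759 blocks in all). -/
theorem result (α : Type*) [Fintype α] [DecidableEq α] (hα : Fintype.card α = 24) (B : Set (Finset α)) (hB : Cfsg.IsSteinerSystem 5 8 B) (Y : Finset α) (hY : Y.card = 3) : {b : Finset α | b ∈ B ∧ (b ∩ Y).card = 3}.ncard = 21 ∧ {b : Finset α | b ∈ B ∧ (b ∩ Y).card = 2}.ncard = 168 ∧ {b : Finset α | b ∈ B ∧ (b ∩ Y).card = 1}.ncard = 360 ∧ {b : Finset α | b ∈ B ∧ (b ∩ Y).card = 0}.ncard = 210 := by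
  rw [H29.ncard_blk, H29.ncard_blk, H29.ncard_blk, H29.ncard_blk]
  have hlt : ∀ b ∈ H29.blk B, (b ∩ Y).card < 4 := by
    intro b _
    have : (b ∩ Y).card ≤ Y.card := Finset.card_le_card Finset.inter_subset_right
    omega
  have h0 := H29.sum_choose_inter B Y 0
  have h1 := H29.sum_choose_inter B Y 1
  have h2 := H29.sum_choose_inter B Y 2
  have h3 := H29.sum_choose_inter B Y 3
  rw [Finset.sum_congr rfl (fun T hT => H29.nb5824_0 hα hB (Finset.mem_powersetCard.1 hT).2),
    Finset.sum_const, Finset.card_powersetCard, hY, smul_eq_mul,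
    H29.sum_by_value (H29.blk B) (fun b => (b ∩ Y).card) (fun j => j.choose 0) 4 hlt] at h0
  rw [Finset.sum_congr rfl (fun T hT => H29.nb5824_1 hα hB (Finset.mem_powersetCard.1 hT).2),
    Finset.sum_const, Finset.card_powersetCard, hY, smul_eq_mul,
    H29.sum_by_value (H29.blk B) (fun b => (b ∩ Y).card) (fun j => j.choose 1) 4 hlt] at h1
  rw [Finset.sum_congr rfl (fun T hT => H29.nb5824_2 hα hB (Finset.mem_powersetCard.1 hT).2),
    Finset.sum_const, Finset.card_powersetCard, hY, smul_eq_mul,
    H29.sum_by_value (H29.blk B) (fun b => (b ∩ Y).card) (fun j => j.choose 2) 4 hlt] at h2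
  rw [Finset.sum_congr rfl (fun T hT => H29.nb5824_3 hα hB (Finset.mem_powersetCard.1 hT).2),
    Finset.sum_const, Finset.card_powersetCard, hY, smul_eq_mul,
    H29.sum_by_value (H29.blk B) (fun b => (b ∩ Y).card) (fun j => j.choose 3) 4 hlt] at h3
  simp only [Finset.sum_range_succ, Finset.sum_range_zero, Nat.choose_self, Nat.choose_zero_right,
    Nat.choose_one_right, show Nat.choose 0 1 = 0 from rfl, show Nat.choose 0 2 = 0 from rfl,
    show Nat.choose 0 3 = 0 from rfl, show Nat.choose 1 2 = 0 from rfl,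
    show Nat.choose 1 3 = 0 from rfl, show Nat.choose 2 3 = 0 from rfl,
    show Nat.choose 3 2 = 3 from rfl] at h0 h1 h2 h3
  omega

end Cfsg.Agent.S5625
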