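import Cfsg.Statements.S5627
import Cfsg.Agent.H1.PG24b

set_option autoImplicit false
open Cfsg
open scoped Pointwise commutatorElement

namespace Cfsg.Agent.S5627

/-- In a projective plane of order 4 (a Steiner system S(2, 5, 21)), call a set of points independent when no line meets it in more than two points. There are exactly 2520 independent 4-sets and exactly 168 independent 6-sets (hyperovals), and every independent 4-set lies in exactly one hyperoval. -/
theorem result {α : Type*} [Fintype α] [DecidableEq α] (hα : Fintype.card α = 21) (L : Set (Finset α)) (hL : Cfsg.IsSteinerSystem 2 5 L) : {S : Finset α | (S.card = 4 ∧ ∀ l ∈ L, (l ∩ S).card ≤ 2)}.ncard = 2520 ∧ {H : Finset α | (H.card = 6 ∧ ∀ l ∈ L, (l ∩ H).card ≤ 2)}.ncard = 168 ∧ ∀ S : Finset α, (S.card = 4 ∧ ∀ l ∈ L, (l ∩ S).card ≤ 2) → ∃! H : Finset α, (H.card = 6 ∧ ∀ l ∈ L, (l ∩ H).card ≤ 2) ∧ S ⊆ H := by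
  have h : Cfsg.Agent.H1.PG24.Pl L := ⟨hα, hL⟩
  refine ⟨?_, ?_, ?_⟩
  · rw [Cfsg.Agent.H1.PG24.ncard_IF 4]; exact Cfsg.Agent.H1.PG24.card_quad h
  · rw [Cfsg.Agent.H1.PG24.ncard_IF 6]; exact Cfsg.Agent.H1.PG24.card_hyp h
  · intro S hS
    exact Cfsg.Agent.H1.PG24.exists_unique_hyp h hS

end Cfsg.Agent.S5627
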