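import Cfsg.Statements.S5631
import Cfsg.Agent.H12.Irred

set_option autoImplicit false
open Cfsg

namespace Cfsg.Agent.S5631

open scoped MatrixGroups Matrix
open Cfsg.Agent.H12

variable {ι : Type} [Fintype ι] [DecidableEq ι] {F : Type*} [Field F]

lemma mem_stab_of_inv {M : Subgroup (GL ι F)} {W : Submodule F (ι → F)} (h : Inv M W) :
    M ≤ Geo.subspaceStabilizer W := by
  intro g hg v
  constructor
  · intro hv
    exact h g hg v hv
  · intro hv
    have := h g⁻¹ (inv_mem hg) _ hv
    rwa [show (Cfsg.glToMat ι F g) = (g : Matrix ι ι F) from rfl, gl_inv_mulVec_mulVec] at this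

lemma tv_mem_stab {W : Submodule F (ι → F)} {v φ : ι → F} (h0 : φ ⬝ᵥ v = 0)
    (h : v ∈ W ∨ ∀ y ∈ W, φ ⬝ᵥ y = 0) : tv v φ ∈ Geo.subspaceStabilizer W := by
  have key : ∀ (φ : ι → F), φ ⬝ᵥ v = 0 → (v ∈ W ∨ ∀ y ∈ W, φ ⬝ᵥ y = 0) → ∀ x ∈ W,
      ((tv v φ : GL ι F) : Matrix ι ι F) *ᵥ x ∈ W := by
    intro φ h0 h x hx
    rw [tv_mulVec h0]
    rcases h with h | h
    · exact W.add_mem hx (W.smul_mem _ h)
    · rw [h x hx, zero_smul, add_zero]; exact hx
  intro x
  constructor
  · exact fun hx => key φ h0 h x hx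
  · intro hx
    have h1 : (-φ) ⬝ᵥ v = 0 := by rw [neg_dotProduct, h0, neg_zero]
    have h2 := key (-φ) h1 (by
      rcases h with h | h
      · exact Or.inl h
      · right; intro y hy; rw [neg_dotProduct, h y hy, neg_zero]) _ hx
    rw [← tv_inv h0] at h2
    rwa [show (Cfsg.glToMat ι F (tv v φ)) = ((tv v φ : GL ι F) : Matrix ι ι F) from rfl, gl_inv_mulVec_mulVec] at h2

/-- For a finite field F and n ≥ 13, the stabiliser in SL_n(F) of any proper non-zero subspace W of F^n is a maximal subgroup of SL_n(F). Here SL_n(F) is the kernel of the determinant inside GL_n(F) and the stabiliser is the set of elements of determinant one mapping W onto itself. -/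
theorem result {F : Type*} [Field F] [Fintype F] (n : ℕ) (hn : 13 ≤ n) (W : Submodule F (Fin n → F)) (hW0 : W ≠ ⊥) (hW1 : W ≠ ⊤) : Cfsg.Geo.IsMaximalIn (Cfsg.Geo.specialLinear (Fin n) F) (Cfsg.Geo.subspaceStabilizer W ⊓ Cfsg.Geo.specialLinear (Fin n) F) := by
  classical
  obtain ⟨w, hwW, hw0⟩ := (Submodule.ne_bot_iff W).mp hW0
  obtain ⟨x, hxW⟩ : ∃ x, x ∉ W := by
    by_contra hcon
    push Not at hcon
    exact hW1 (Submodule.eq_top_iff'.mpr hcon)
  refine ⟨lt_of_le_of_ne inf_le_right ?_, ?_⟩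
  · intro heq
    have hwx : w ∉ Submodule.span F {x} := by
      intro h
      obtain ⟨c, hc⟩ := Submodule.mem_span_singleton.mp h
      have hc0 : c ≠ 0 := by
        rintro rfl
        apply hw0
        rw [← hc, zero_smul]
      apply hxW
      have := W.smul_mem c⁻¹ hwW
      rwa [← hc, smul_smul, inv_mul_cancel₀ hc0, one_smul] at this
    obtain ⟨φ, h1, h2⟩ := exists_dot_span hwx
    have h3 : tv x φ ∈ Geo.specialLinear (Fin n) F := det_tv x φ
    rw [← heq] at h3
    have h4 := (h3.1 w).mp hwW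
    have h5 : (Cfsg.glToMat (Fin n) F (tv x φ)) *ᵥ w = w + x := by
      have := tv_mulVec h1 w
      rw [h2, one_smul] at this
      exact this
    rw [h5] at h4
    have h6 := W.sub_mem h4 hwW
    rw [add_sub_cancel_left] at h6
    exact hxW h6
  intro M hM1 hM2
  by_cases hcase : M ≤ Geo.subspaceStabilizer W
  · left
    exact le_antisymm (le_inf hcase hM2) hM1
  right
  apply le_antisymm hM2
  have htv : ∀ v φ : Fin n → F, φ ⬝ᵥ v = 0 → (v ∈ W ∨ ∀ y ∈ W, φ ⬝ᵥ y = 0) → tv v φ ∈ M :=
    fun v φ h0 h => hM1 ⟨tv_mem_stab h0 h, det_tv v φ⟩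
  apply sl_le_of_irred (w := w) _ _ hw0 (fun φ hφ => htv w φ hφ (Or.inl hwW))
  · intro Y hY
    by_contra hcon
    push Not at hcon
    obtain ⟨hYb, hYt⟩ := hcon
    obtain ⟨y, hyY, hy0⟩ := (Submodule.ne_bot_iff Y).mp hYb
    -- W ≤ Y
    have hWY : W ≤ Y := by
      intro v hv
      by_cases hyv : y ∈ Submodule.span F {v}
      · obtain ⟨c, hc⟩ := Submodule.mem_span_singleton.mp hyv
        have hc0 : c ≠ 0 := by
          rintro rfl
          apply hy0
          rw [← hc, zero_smul]
        have := Y.smul_mem c⁻¹ hyY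
        rwa [← hc, smul_smul, inv_mul_cancel₀ hc0, one_smul] at this
      · obtain ⟨φ, h1, h2⟩ := exists_dot_span hyv
        have h3 := hY _ (htv v φ h1 (Or.inl hv)) y hyY
        rw [tv_mulVec h1, h2, one_smul] at h3
        have h4 := Y.sub_mem h3 hyY
        rwa [add_sub_cancel_left] at h4
    -- Y ≤ W
    by_cases hYW : Y ≤ W
    · have : Y = W := le_antisymm hYW hWY
      rw [this] at hY
      exact hcase (mem_stab_of_inv hY)
    · rw [SetLike.not_le_iff_exists] at hYW
      obtain ⟨z, hzY, hzW⟩ := hYW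
      apply hYt
      rw [Submodule.eq_top_iff']
      intro v
      by_cases hz : z ∈ W ⊔ Submodule.span F {v}
      · obtain ⟨a, ha, b, hb, hab⟩ := Submodule.mem_sup.mp hz
        obtain ⟨c, rfl⟩ := Submodule.mem_span_singleton.mp hb
        have hc0 : c ≠ 0 := by
          rintro rfl
          apply hzW
          rw [← hab, zero_smul, add_zero]; exact ha
        have h1 : c • v ∈ Y := by
          have := Y.sub_mem hzY (hWY ha)
          rwa [← hab, add_sub_cancel_left] at this
        have := Y.smul_mem c⁻¹ h1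
        rwa [smul_smul, inv_mul_cancel₀ hc0, one_smul] at this
      · obtain ⟨φ, h1, h2⟩ := exists_dot_of_notMem _ hz
        have h3 : φ ⬝ᵥ v = 0 := h1 v (Submodule.mem_sup_right (Submodule.mem_span_singleton_self v))
        have h4 := hY _ (htv v φ h3 (Or.inr (fun y hy => h1 y (Submodule.mem_sup_left hy)))) z hzY
        rw [tv_mulVec h3, h2, one_smul] at h4
        have h5 := Y.sub_mem h4 hzY
        rwa [add_sub_cancel_left] at h5
  · rw [Fintype.card_fin]; omega

end Cfsg.Agent.S5631
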