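import Cfsg.Statements.S5633
import Cfsg.Agent.H12.Perp

set_option autoImplicit false
open Cfsg

namespace Cfsg.Agent.S5633

open Cfsg.Agent.H12 Matrix
/-- a transvection in `SL` moving the proper non-zero subspace `W` -/
theorem exists_move {F : Type*} [Field F] (n : ℕ) (W : Submodule F (Fin n → F)) (h0 : W ≠ ⊥) (h1 : W ≠ ⊤) :
    ∃ g : Matrix.GeneralLinearGroup (Fin n) F, g ∈ Cfsg.Geo.specialLinear (Fin n) F ∧ g ∉ Cfsg.Geo.subspaceStabilizer W := by
  obtain ⟨w, hw, hw0⟩ := (Submodule.ne_bot_iff W).1 h0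
  obtain ⟨u, hu⟩ : ∃ u, u ∉ W := by
    by_contra hcon
    push Not at hcon
    exact h1 (by rw [eq_top_iff]; intro x _; exact hcon x)
  have hwu : w ∉ Submodule.span F {u} := by
    intro h
    rw [Submodule.mem_span_singleton] at h
    obtain ⟨c, rfl⟩ := h
    have hc : c ≠ 0 := by
      rintro rfl
      exact hw0 (zero_smul _ _)
    exact hu ((W.smul_mem_iff hc).1 hw)
  obtain ⟨φ, hφ1, hφ2⟩ := exists_dot_span hwu
  refine ⟨tv u φ, det_tv u φ, ?_⟩
  rw [mem_subspaceStabilizer_iff]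
  intro h
  have h2 := h w hw
  rw [tv_mulVec hφ1, hφ2, one_smul] at h2
  exact hu ((W.add_mem_iff_right hw).1 h2)

open Cfsg.Agent.H12 Matrix
/-- For a finite field F and complementary non-zero subspaces W ⊕ U = F^n with dim W < dim U, the elements of SL_n(F) stabilising both W and U form a subgroup that is not maximal in SL_n(F): some subgroup lies strictly between it and SL_n(F). -/
theorem result {F : Type*} [Field F] [Fintype F] (n : ℕ) (W U : Submodule F (Fin n → F)) (hW0 : W ≠ ⊥) (hWU : W ⊓ U = ⊥) (hWU' : W ⊔ U = ⊤) (hdim : Module.finrank F W < Module.finrank F U) : ∃ K : Subgroup (Matrix.GeneralLinearGroup (Fin n) F), Cfsg.Geo.subspaceStabilizer W ⊓ Cfsg.Geo.subspaceStabilizer U ⊓ Cfsg.Geo.specialLinear (Fin n) F < K ∧ K < Cfsg.Geo.specialLinear (Fin n) F := by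
  classical
  have hU0 : U ≠ ⊥ := by
    rintro rfl
    simp at hdim
  have hW1 : W ≠ ⊤ := by
    rintro rfl
    rw [top_inf_eq] at hWU
    exact hU0 hWU
  refine ⟨Cfsg.Geo.subspaceStabilizer W ⊓ Cfsg.Geo.specialLinear (Fin n) F, ?_, ?_⟩
  · refine lt_of_le_of_ne ?_ ?_
    · intro g hg
      rw [Subgroup.mem_inf, Subgroup.mem_inf] at hg
      exact Subgroup.mem_inf.2 ⟨hg.1.1, hg.2⟩
    · intro heq
      obtain ⟨y, hyU, hy0⟩ := (Submodule.ne_bot_iff U).1 hU0
      obtain ⟨u, huW, hu0⟩ := (Submodule.ne_bot_iff W).1 hW0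
      have hyW : y ∉ W := by
        intro h
        have : y ∈ W ⊓ U := ⟨h, hyU⟩
        rw [hWU, Submodule.mem_bot] at this
        exact hy0 this
      have huU : u ∉ U := by
        intro h
        have : u ∈ W ⊓ U := ⟨huW, h⟩
        rw [hWU, Submodule.mem_bot] at this
        exact hu0 this
      obtain ⟨φ, hφW, hφy⟩ := exists_dot_of_notMem W hyW
      have hφu : φ ⬝ᵥ u = 0 := hφW u huW
      have h1 : tv u φ ∈ Cfsg.Geo.subspaceStabilizer W ⊓ Cfsg.Geo.specialLinear (Fin n) F := by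
        rw [Subgroup.mem_inf, mem_subspaceStabilizer_iff]
        refine ⟨?_, det_tv u φ⟩
        intro v hv
        rw [tv_mulVec hφu, hφW v hv, zero_smul, add_zero]
        exact hv
      rw [← heq, Subgroup.mem_inf, Subgroup.mem_inf, mem_subspaceStabilizer_iff, mem_subspaceStabilizer_iff] at h1
      have h2 := h1.1.2 y hyU
      rw [tv_mulVec hφu, hφy, one_smul] at h2
      exact huU ((U.add_mem_iff_right hyU).1 h2)
  · refine lt_of_le_of_ne inf_le_right ?_
    intro heq
    obtain ⟨g, hg1, hg2⟩ := exists_move n W hW0 hW1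
    rw [← heq] at hg1
    exact hg2 (Subgroup.mem_inf.1 hg1).1

end Cfsg.Agent.S5633
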