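import Cfsg.Statements.S5635
import Cfsg.Agent.H12.DecSL

set_option autoImplicit false
open Cfsg

namespace Cfsg.Agent.S5635

set_option linter.unusedSectionVars false

open Cfsg.Agent.H12 Cfsg.Agent.H12.IsProj Matrix

section aux

variable {ι : Type} [Fintype ι] [DecidableEq ι] {F : Type*} [Field F] [Fintype F]
variable {t m : ℕ} {D : Fin t → Submodule F (ι → F)} {p : Fin t → (ι → F) →ₗ[F] (ι → F)}

theorem exists_out (hD : Geo.IsMDecomposition m D) (hp : IsProj D p) (ht : 2 ≤ t) :
    ∃ x ∈ Geo.specialLinear ι F, x ∉ wgrp p := by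
  classical
  obtain ⟨a, ha, ha0⟩ := exists_ne_zero_dec hD ⟨0, by omega⟩
  obtain ⟨b, hb, hb0⟩ := exists_ne_zero_dec hD ⟨1, by omega⟩
  have hne : (⟨0, by omega⟩ : Fin t) ≠ ⟨1, by omega⟩ := by simp
  have hab : a ∉ Submodule.span F {b} := by
    intro h
    rw [Submodule.mem_span_singleton] at h
    obtain ⟨c, rfl⟩ := h
    have h1 := hp.self _ _ ha
    rw [map_smul, hp.other _ _ hne b hb, smul_zero] at h1
    exact ha0 h1.symm
  obtain ⟨φ, hφ1, hφ2⟩ := exists_dot_span hab
  refine ⟨tv b φ, det_tv b φ, ?_⟩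
  intro h
  have h1 := h a
  rw [tv_mulVec hφ1, hφ2, one_smul, hp.wt_eq_one ha ha0] at h1
  have h2 : wt p (a + b) = 2 := by
    unfold wt
    rw [Finset.card_eq_two]
    refine ⟨_, _, hne, ?_⟩
    ext i
    simp only [Finset.mem_filter, Finset.mem_univ, true_and, Finset.mem_insert, Finset.mem_singleton]
    constructor
    · intro hi
      by_contra hcon
      push Not at hcon
      apply hi
      rw [map_add, hp.other i _ hcon.1 a ha, hp.other i _ hcon.2 b hb, add_zero]
    · rintro (rfl | rfl)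
      · rw [map_add, hp.self _ a ha, hp.other _ _ hne b hb, add_zero]; exact ha0
      · rw [map_add, hp.self _ b hb, hp.other _ _ hne.symm a ha, zero_add]; exact hb0
  rw [h2] at h1
  push_cast at h1
  have h3 : (1 : F) = 0 := by linear_combination h1
  exact one_ne_zero h3

theorem exists_line {D : Fin t → Submodule F (ι → F)} (hD : Geo.IsMDecomposition 1 D) (hp : IsProj D p)
    (hq : Fintype.card F ≤ 4) (ht : 5 ≤ t) :
    ∃ x ∈ wgrp p ⊓ Geo.specialLinear ι F, x ∉ Geo.decompositionStabilizer D := by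
  classical
  obtain ⟨e, φ, he, he0, hpe, hφ1, hφ2⟩ := exists_coord hD hp
  let ε : Fin 4 → Fin t := fun k => ⟨k.1, by omega⟩
  have hε : Function.Injective ε := by
    intro a b hab
    exact Fin.ext (congrArg (fun (z : Fin t) => z.1) hab)
  let u : ι → F := e (ε 0) + e (ε 1) + e (ε 2) + e (ε 3)
  let ψ : ι → F := φ (ε 0) + φ (ε 1) + φ (ε 2) + φ (ε 3)
  have hφu : ∀ k, φ (ε k) ⬝ᵥ u = 1 := by
    intro k
    have h1 : ∀ j, φ (ε k) ⬝ᵥ e (ε j) = if k = j then 1 else 0 := by
      intro j
      by_cases hkj : k = j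
      · subst hkj; rw [if_pos rfl]; exact hφ1 _
      · rw [if_neg hkj]; exact hφ2 _ _ (fun h => hkj (hε h))
    simp only [u, dotProduct_add, h1]
    fin_cases k <;> simp
  have hφu0 : ∀ i, (∀ k, ε k ≠ i) → φ i ⬝ᵥ u = 0 := by
    intro i hi
    simp only [u, dotProduct_add]
    rw [hφ2 _ _ (hi 0).symm, hφ2 _ _ (hi 1).symm, hφ2 _ _ (hi 2).symm, hφ2 _ _ (hi 3).symm]
    simp
  have hψu : ψ ⬝ᵥ u = 4 := by
    simp only [ψ, add_dotProduct, hφu]
    norm_num
  have hwt : ∀ v, (wt p (v + (ψ ⬝ᵥ v) • u) : F) = (wt p v : F) := by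
    intro v
    rw [wt_eq_pow he0 hpe, wt_eq_pow he0 hpe, ← sub_eq_zero, ← Finset.sum_sub_distrib]
    rw [sum_eq_of_supp ε hε]
    · rw [Fin.sum_univ_four]
      simp only [dotProduct_add, dotProduct_smul, hφu, smul_eq_mul, mul_one]
      have h1 := pow_id hq (φ (ε 0) ⬝ᵥ v) (φ (ε 1) ⬝ᵥ v) (φ (ε 2) ⬝ᵥ v) (φ (ε 3) ⬝ᵥ v)
      have h2 : ψ ⬝ᵥ v = φ (ε 0) ⬝ᵥ v + φ (ε 1) ⬝ᵥ v + φ (ε 2) ⬝ᵥ v + φ (ε 3) ⬝ᵥ v := by
        simp only [ψ, add_dotProduct]
      rw [h2]
      linear_combination h1
    · intro i hi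
      rw [dotProduct_add, dotProduct_smul, hφu0 i hi]
      simp
  have hout : ∀ g : GL ι F, (g : Matrix ι ι F) *ᵥ (e (ε 0)) = e (ε 0) + u → g ∉ Geo.decompositionStabilizer D := by
    intro g hg hgs
    obtain ⟨j, hj⟩ := exists_mem_of_stab hgs (he (ε 0))
    rw [hg] at hj
    have h1 : ∀ i, φ i ⬝ᵥ (e (ε 0) + u) ≠ 0 → i = j := by
      intro i hi
      by_contra hne
      have h2 := hp.other i j hne _ hj
      rw [hpe] at h2
      exact (smul_ne_zero hi (he0 i)) h2
    have h3 := h1 (ε 1) (by rw [dotProduct_add, hφu, hφ2 _ _ (fun h => by simpa using hε h), zero_add]; exact one_ne_zero)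
    have h4 := h1 (ε 2) (by rw [dotProduct_add, hφu, hφ2 _ _ (fun h => by simpa using hε h), zero_add]; exact one_ne_zero)
    have h5 := hε (h3.trans h4.symm)
    simp at h5
  have h0 : ((Fintype.card F : ℕ) : F) = 0 := FiniteField.cast_card_eq_zero F
  have hc : 1 < Fintype.card F := Fintype.one_lt_card
  by_cases h3 : Fintype.card F = 3
  · -- characteristic three
    rw [h3] at h0
    push_cast at h0
    let i4 : Fin t := ⟨4, by omega⟩
    have hi4 : ∀ k, ε k ≠ i4 := by
      intro k hk
      have := congrArg (fun (z : Fin t) => z.1) hk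
      simp only [ε, i4] at this
      omega
    have hψe4 : ψ ⬝ᵥ e i4 = 0 := by
      simp only [ψ, add_dotProduct]
      rw [hφ2 _ _ (hi4 0), hφ2 _ _ (hi4 1), hφ2 _ _ (hi4 2), hφ2 _ _ (hi4 3)]
      simp
    have hd1 : (tvm u ψ).det ≠ 0 := by
      rw [det_tvmm, hψu]
      intro h
      have : (1 : F) = 0 := by linear_combination 2 * h0 - h
      exact one_ne_zero this
    have hd2 : (tvm (e i4) (φ i4)).det ≠ 0 := by
      rw [det_tvmm, hφ1]
      intro h
      have : (1 : F) = 0 := by linear_combination h0 - h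
      exact one_ne_zero this
    refine ⟨psr u ψ hd1 * psr (e i4) (φ i4) hd2, ?_, ?_⟩
    · rw [Subgroup.mem_inf]
      constructor
      · intro v
        rw [gl_mul_mulVec, psr_mulVec, hwt, psr_mulVec]
        -- negation of one coordinate
        unfold wt
        congr 2
        ext i
        simp only [Finset.mem_filter, Finset.mem_univ, true_and]
        have h4 : p i (v + (φ i4 ⬝ᵥ v) • e i4) = 0 ↔ p i v = 0 := by
          rw [map_add, map_smul]
          by_cases hi : i = i4
          · subst hi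
            rw [hp.self _ _ (he i4), hpe, ← add_smul]
            have h5 : φ i4 ⬝ᵥ v + φ i4 ⬝ᵥ v = -(φ i4 ⬝ᵥ v) := by linear_combination (φ i4 ⬝ᵥ v) * h0
            rw [h5, neg_smul, neg_eq_zero]
          · rw [hp.other i i4 hi _ (he i4), smul_zero, add_zero]
        exact not_congr h4
      · show Matrix.GeneralLinearGroup.det _ = 1
        apply Units.ext
        rw [Matrix.GeneralLinearGroup.val_det_apply, Units.val_mul, Matrix.det_mul, det_psr, det_psr, hψu, hφ1, Units.val_one]
        linear_combination 3 * h0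
    · apply hout
      have h7 : ((psr (e i4) (φ i4) hd2 : GL ι F) : Matrix ι ι F) *ᵥ e (ε 0) = e (ε 0) := by
        rw [psr_mulVec, hφ2 _ _ (hi4 0).symm, zero_smul, add_zero]
      rw [gl_mul_mulVec, h7, psr_mulVec]
      have h6 : ψ ⬝ᵥ e (ε 0) = 1 := by
        simp only [ψ, add_dotProduct]
        rw [hφ1, hφ2 _ _ (fun h => by simpa using hε h), hφ2 _ _ (fun h => by simpa using hε h),
          hφ2 _ _ (fun h => by simpa using hε h)]
        simp
      rw [h6, one_smul]
  · have h4 : ψ ⬝ᵥ u = 0 := by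
      rw [hψu]
      have h1 : Fintype.card F = 2 ∨ Fintype.card F = 4 := by omega
      rcases h1 with h | h
      · rw [h] at h0
        push_cast at h0
        linear_combination 2 * h0
      · rw [h] at h0
        push_cast at h0
        exact h0
    refine ⟨tv u ψ, ?_, ?_⟩
    · rw [Subgroup.mem_inf]
      refine ⟨?_, det_tv u ψ⟩
      intro v
      rw [tv_mulVec h4, hwt]
    · apply hout
      rw [tv_mulVec h4]
      have h6 : ψ ⬝ᵥ e (ε 0) = 1 := by
        simp only [ψ, add_dotProduct]
        rw [hφ1, hφ2 _ _ (fun h => by simpa using hε h), hφ2 _ _ (fun h => by simpa using hε h),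
          hφ2 _ _ (fun h => by simpa using hε h)]
        simp
      rw [h6, one_smul]

theorem exists_two {D : Fin t → Submodule F (ι → F)} (hD : Geo.IsMDecomposition 2 D) (hp : IsProj D p)
    (hq : Fintype.card F = 2) (ht : 5 ≤ t) :
    ∃ x ∈ wgrp p ⊓ Geo.specialLinear ι F, x ∉ Geo.decompositionStabilizer D := by
  classical
  have h2 := f2_two hq
  have h1 : ∀ i, ∃ x ∈ D i, x ≠ 0 := exists_ne_zero_dec hD
  choose a ha ha0 using h1
  have hb : ∀ i, ∃ b ∈ D i, b ≠ 0 ∧ b ≠ a i := by
    intro i
    by_contra hcon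
    push Not at hcon
    have h3 : D i ≤ Submodule.span F {a i} := by
      intro x hx
      rw [Submodule.mem_span_singleton]
      by_cases hx0 : x = 0
      · exact ⟨0, by rw [hx0, zero_smul]⟩
      · exact ⟨1, by rw [hcon x hx hx0, one_smul]⟩
    have h4 := Submodule.finrank_mono h3
    rw [hD.finrank_eq, finrank_span_singleton (ha0 i)] at h4
    omega
  choose b hb hb0 hba using hb
  have hφ : ∀ i, ∃ φ : ι → F, (∀ y ∈ LinearMap.ker (p i) ⊔ Submodule.span F {a i}, φ ⬝ᵥ y = 0) ∧ φ ⬝ᵥ b i = 1 := by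
    intro i
    apply exists_dot_of_notMem
    intro h
    rw [Submodule.mem_sup] at h
    obtain ⟨y, hy, z, hz, hyz⟩ := h
    rw [Submodule.mem_span_singleton] at hz
    obtain ⟨c, rfl⟩ := hz
    rw [LinearMap.mem_ker] at hy
    have h3 := congrArg (p i) hyz
    rw [map_add, hy, zero_add, map_smul, hp.self i _ (ha i), hp.self i _ (hb i)] at h3
    rcases f2_cases hq c with rfl | rfl
    · rw [zero_smul] at h3; exact hb0 i h3.symm
    · rw [one_smul] at h3; exact hba i h3.symm
  choose φ hφ1 hφ2 using hφ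
  have hφa : ∀ i j, φ i ⬝ᵥ a j = 0 := by
    intro i j
    apply hφ1
    by_cases hij : i = j
    · subst hij
      exact Submodule.mem_sup_right (Submodule.mem_span_singleton_self _)
    · apply Submodule.mem_sup_left
      rw [LinearMap.mem_ker]
      exact hp.other i j hij _ (ha j)
  have hφp : ∀ i v, φ i ⬝ᵥ v = φ i ⬝ᵥ (p i v) := by
    intro i v
    have h3 : φ i ⬝ᵥ (v - p i v) = 0 := by
      apply hφ1
      apply Submodule.mem_sup_left
      rw [LinearMap.mem_ker, map_sub, hp.self i _ (hp.mem i v), sub_self]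
    rw [dotProduct_sub, sub_eq_zero] at h3
    exact h3
  have hself : ∀ x : ι → F, x + x = 0 := by
    intro x
    calc x + x = (1 + 1 : F) • x := by rw [add_smul, one_smul]
      _ = 0 := by rw [h2, zero_smul]
  -- elements of `D i`
  have hcases : ∀ i, ∀ x ∈ D i, x = 0 ∨ x = a i ∨ (φ i ⬝ᵥ x = 1 ∧ x ≠ 0 ∧ x ≠ a i) := by
    intro i x hx
    by_cases hx0 : x = 0
    · exact Or.inl hx0
    · right
      by_cases hxa : x = a i
      · exact Or.inl hxa
      · right
        refine ⟨?_, hx0, hxa⟩
        have hli : LinearIndependent F ![(⟨a i, ha i⟩ : D i), ⟨b i, hb i⟩] := by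
          rw [LinearIndependent.pair_iff]
          intro s u hsu
          have hsu' : s • a i + u • b i = 0 := congrArg Subtype.val hsu
          rcases f2_cases hq s with rfl | rfl <;> rcases f2_cases hq u with rfl | rfl
          · exact ⟨rfl, rfl⟩
          · simp at hsu'; exact absurd hsu' (hb0 i)
          · simp at hsu'; exact absurd hsu' (ha0 i)
          · simp only [one_smul] at hsu'
            exfalso
            apply hba i
            calc b i = (a i + b i) + a i := by rw [add_comm (a i), add_assoc, hself, add_zero]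
              _ = a i := by rw [hsu', zero_add]
        have hspan : Submodule.span F (Set.range ![(⟨a i, ha i⟩ : D i), ⟨b i, hb i⟩]) = ⊤ := by
          apply hli.span_eq_top_of_card_eq_finrank
          rw [Fintype.card_fin, hD.finrank_eq]
        have hx' : (⟨x, hx⟩ : D i) ∈ Submodule.span F (Set.range ![(⟨a i, ha i⟩ : D i), ⟨b i, hb i⟩]) := by rw [hspan]; trivial
        rw [Matrix.range_cons, Matrix.range_cons, Matrix.range_empty, Set.union_empty, Set.singleton_union,
          Submodule.mem_span_pair] at hx'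
        obtain ⟨s, u, hsu⟩ := hx'
        have hsu' : s • a i + u • b i = x := congrArg Subtype.val hsu
        rcases f2_cases hq u with rfl | rfl
        · exfalso
          rw [zero_smul, add_zero] at hsu'
          rcases f2_cases hq s with rfl | rfl
          · rw [zero_smul] at hsu'; exact hx0 hsu'.symm
          · rw [one_smul] at hsu'; exact hxa hsu'.symm
        · rw [← hsu', dotProduct_add, dotProduct_smul, dotProduct_smul, hφa, hφ2]
          simp
  let ε : Fin 3 → Fin t := fun k => ⟨k.1, by omega⟩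
  have hε : Function.Injective ε := by
    intro a b hab
    exact Fin.ext (congrArg (fun (z : Fin t) => z.1) hab)
  let u : ι → F := a (ε 0) + a (ε 1) + a (ε 2)
  let ψ : ι → F := φ (ε 0) + φ (ε 1) + φ (ε 2)
  have hψu : ψ ⬝ᵥ u = 0 := by
    simp only [ψ, u, add_dotProduct, dotProduct_add, hφa]
    simp
  have hpu : ∀ k, p (ε k) u = a (ε k) := by
    intro k
    have h3 : ∀ j, p (ε k) (a (ε j)) = if k = j then a (ε k) else 0 := by
      intro j
      by_cases hkj : k = j
      · subst hkj; rw [if_pos rfl]; exact hp.self _ _ (ha _)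
      · rw [if_neg hkj]; exact hp.other _ _ (fun h => hkj (hε h)) _ (ha _)
    simp only [u, map_add, h3]
    fin_cases k <;> simp
  have hpu0 : ∀ i, (∀ k, ε k ≠ i) → p i u = 0 := by
    intro i hi
    simp only [u, map_add]
    rw [hp.other _ _ (hi 0).symm _ (ha _), hp.other _ _ (hi 1).symm _ (ha _), hp.other _ _ (hi 2).symm _ (ha _)]
    simp
  refine ⟨tv u ψ, ?_, ?_⟩
  · rw [Subgroup.mem_inf]
    refine ⟨?_, det_tv u ψ⟩
    intro v
    rw [tv_mulVec hψu]
    rcases f2_cases hq (ψ ⬝ᵥ v) with h3 | h3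
    · rw [h3, zero_smul, add_zero]
    · rw [h3, one_smul, cast_wt, cast_wt, ← sub_eq_zero, ← Finset.sum_sub_distrib, sum_eq_of_supp ε hε]
      · have key : ∀ k, ((if p (ε k) (v + u) ≠ 0 then (1 : F) else 0) - (if p (ε k) v ≠ 0 then 1 else 0)) = 1 + φ (ε k) ⬝ᵥ v := by
          intro k
          rw [map_add, hpu, hφp]
          rcases hcases (ε k) (p (ε k) v) (hp.mem _ _) with h4 | h4 | ⟨h4, h5, h6⟩
          · rw [h4]; simp [ha0]
          · rw [h4, hself, hφa]
            simp only [ne_eq, not_true_eq_false, if_false, ha0, not_false_eq_true, if_true]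
            linear_combination (-1 : F) * h2
          · have h7 : p (ε k) v + a (ε k) ≠ 0 := by
              intro h
              apply h6
              calc p (ε k) v = (p (ε k) v + a (ε k)) + a (ε k) := by rw [add_assoc, hself, add_zero]
                _ = a (ε k) := by rw [h, zero_add]
            rw [h4, if_pos h7, if_pos h5]
            linear_combination (-1 : F) * h2
        rw [Finset.sum_congr rfl (fun k _ => key k), Fin.sum_univ_three]
        have h8 : φ (ε 0) ⬝ᵥ v + φ (ε 1) ⬝ᵥ v + φ (ε 2) ⬝ᵥ v = 1 := by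
          rw [← h3]; simp only [ψ, add_dotProduct]
        linear_combination h8 + 2 * h2
      · intro i hi
        rw [map_add, hpu0 i hi, add_zero, sub_self]
  · intro hgs
    obtain ⟨j, hj⟩ := exists_mem_of_stab hgs (hb (ε 0))
    have h3 : ψ ⬝ᵥ b (ε 0) = 1 := by
      simp only [ψ, add_dotProduct]
      rw [hφ2]
      have h4 : ∀ k, k ≠ ε 0 → φ k ⬝ᵥ b (ε 0) = 0 := by
        intro k hk
        apply hφ1
        apply Submodule.mem_sup_left
        rw [LinearMap.mem_ker]
        exact hp.other _ _ hk _ (hb _)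
      rw [h4 _ (fun h => by simpa using hε h), h4 _ (fun h => by simpa using hε h)]
      simp
    rw [tv_mulVec hψu, h3, one_smul] at hj
    have h5 : ∀ k, k ≠ 0 → ε k = j := by
      intro k hk
      by_contra hne
      have h6 := hp.other (ε k) j hne _ hj
      rw [map_add, hpu, hp.other _ _ (fun h => hk (hε h)) _ (hb _), zero_add] at h6
      exact ha0 _ h6
    have h7 := hε ((h5 1 (by simp)).trans (h5 2 (by simp)).symm)
    simp at h7

end aux

/-- For a finite field F with q elements and n ≥ 13, let D be a decomposition of F^n into t ≥ 2 independent subspaces of equal dimension m spanning F^n, where m = 1 and q ≤ 4, or m = 2 and q = 2. Then the elements of SL_n(F) permuting the members of D form a subgroup that is not maximal: some subgroup lies strictly between it and SL_n(F). -/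
theorem result {F : Type*} [Field F] [Fintype F] (n : ℕ) (hn : 13 ≤ n) {t : ℕ} (m : ℕ) (D : Fin t → Submodule F (Fin n → F)) (hD : Cfsg.Geo.IsMDecomposition m D) (h : (m = 1 ∧ Fintype.card F ≤ 4) ∨ (m = 2 ∧ Fintype.card F = 2)) : ∃ K : Subgroup (Matrix.GeneralLinearGroup (Fin n) F), Cfsg.Geo.decompositionStabilizer D ⊓ Cfsg.Geo.specialLinear (Fin n) F < K ∧ K < Cfsg.Geo.specialLinear (Fin n) F := by
  classical
  obtain ⟨p, hp⟩ := exists_isProj hD
  have htm : t * m = n := by
    have h1 := card_decomp hD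
    rwa [Fintype.card_fin] at h1
  have ht5 : 5 ≤ t := by
    rcases h with ⟨rfl, _⟩ | ⟨rfl, _⟩ <;> omega
  refine ⟨wgrp p ⊓ Cfsg.Geo.specialLinear (Fin n) F, ?_, ?_⟩
  · refine lt_of_le_of_ne (inf_le_inf_right _ (stab_le_wgrp hp)) ?_
    intro heq
    rcases h with ⟨rfl, hq⟩ | ⟨rfl, hq⟩
    · obtain ⟨x, hx1, hx2⟩ := exists_line hD hp hq ht5
      rw [← heq, Subgroup.mem_inf] at hx1
      exact hx2 hx1.1
    · obtain ⟨x, hx1, hx2⟩ := exists_two hD hp hq ht5
      rw [← heq, Subgroup.mem_inf] at hx1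
      exact hx2 hx1.1
  · refine lt_of_le_of_ne inf_le_right ?_
    intro heq
    obtain ⟨x, hx1, hx2⟩ := exists_out hD hp (by omega)
    rw [← heq, Subgroup.mem_inf] at hx1
    exact hx2 hx1.1

end Cfsg.Agent.S5635
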