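import Cfsg.Statements.S5638
import Cfsg.Agent.H12.Tensor
import Cfsg.Agent.H12.DecF2

set_option autoImplicit false
open Cfsg

namespace Cfsg.Agent.S5638

set_option linter.unusedSectionVars false

open Cfsg.Agent.H12 Matrix

section aux

/-- elements normalising an element of order three -/
def NW {G : Type*} [Group G] (W : G) (h : W ^ 3 = 1) : Subgroup G where
  carrier := {g | g * W = W * g ∨ g * W = W ^ 2 * g}
  mul_mem' := by
    have key : ∀ g : G, g * W = W ^ 2 * g → g * W ^ 2 = W * g := by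
      intro g hg
      have h4 : W ^ 4 = W := by rw [pow_succ, h, one_mul]
      calc g * W ^ 2 = (g * W) * W := by rw [pow_two, mul_assoc]
        _ = (W ^ 2 * g) * W := by rw [hg]
        _ = W ^ 2 * (g * W) := by rw [mul_assoc]
        _ = W ^ 2 * (W ^ 2 * g) := by rw [hg]
        _ = W ^ 4 * g := by rw [← mul_assoc, ← pow_add]
        _ = W * g := by rw [h4]
    rintro a b (ha | ha) (hb | hb)
    · left; rw [mul_assoc, hb, ← mul_assoc, ha, mul_assoc]
    · right
      have h1 : a * W ^ 2 = W ^ 2 * a := by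
        rw [pow_two, ← mul_assoc, ha, mul_assoc, ha, ← mul_assoc]
      rw [mul_assoc, hb, ← mul_assoc, h1, mul_assoc]
    · right; rw [mul_assoc, hb, ← mul_assoc, ha, mul_assoc]
    · left
      rw [mul_assoc, hb, ← mul_assoc, key a ha, mul_assoc]
  one_mem' := by left; simp
  inv_mem' := by
    rintro g (hg | hg)
    · left
      rw [inv_mul_eq_iff_eq_mul, ← mul_assoc, hg, mul_assoc, mul_inv_cancel, mul_one]
    · right
      have h4 : W ^ 4 = W := by rw [pow_succ, h, one_mul]
      have key : g * W ^ 2 = W * g := by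
        calc g * W ^ 2 = (g * W) * W := by rw [pow_two, mul_assoc]
          _ = (W ^ 2 * g) * W := by rw [hg]
          _ = W ^ 2 * (g * W) := by rw [mul_assoc]
          _ = W ^ 2 * (W ^ 2 * g) := by rw [hg]
          _ = W ^ 4 * g := by rw [← mul_assoc, ← pow_add]
          _ = W * g := by rw [h4]
      rw [inv_mul_eq_iff_eq_mul, ← mul_assoc, key, mul_assoc, mul_inv_cancel, mul_one]

variable {F : Type*} [Field F] [Fintype F]

/-- the matrix of order three -/
def wm {F : Type*} [Field F] : Matrix (Fin 2) (Fin 2) F := !![0, 1; 1, 1]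

theorem mat_two {k : ℕ} {F : Type*} [Field F] (h2 : (1 : F) + 1 = 0) (A : Matrix (Fin k) (Fin k) F) : A + A = 0 := by
  calc A + A = ((1 : F) + 1) • A := by rw [add_smul, one_smul]
    _ = 0 := by rw [h2, zero_smul]

theorem wm_sq (hq : Fintype.card F = 2) : (wm : Matrix (Fin 2) (Fin 2) F) * wm = wm + 1 := by
  have h2 := f2_two hq
  ext i j
  fin_cases i <;> fin_cases j <;> simp [wm, Matrix.mul_apply, Fin.sum_univ_two, h2]

theorem gl2_norm (hq : Fintype.card F = 2) (z : GL (Fin 2) F)
    (hz : (z : Matrix (Fin 2) (Fin 2) F) * z = z + 1) :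
    (z : Matrix (Fin 2) (Fin 2) F) = wm ∨ (z : Matrix (Fin 2) (Fin 2) F) = wm + 1 := by
  have h2 := f2_two hq
  generalize (z : Matrix (Fin 2) (Fin 2) F) = Z at hz ⊢
  obtain ⟨a, b, c, d, rfl⟩ : ∃ a b c d : F, Z = !![a, b; c, d] :=
    ⟨Z 0 0, Z 0 1, Z 1 0, Z 1 1, by ext i j; fin_cases i <;> fin_cases j <;> rfl⟩
  have e00 := congrFun (congrFun hz 0) 0
  have e01 := congrFun (congrFun hz 0) 1
  have e10 := congrFun (congrFun hz 1) 0
  have e11 := congrFun (congrFun hz 1) 1
  simp [Matrix.mul_apply, Fin.sum_univ_two] at e00 e01 e10 e11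
  rcases f2_cases hq a with rfl | rfl <;> rcases f2_cases hq b with rfl | rfl <;>
    rcases f2_cases hq c with rfl | rfl <;> rcases f2_cases hq d with rfl | rfl <;>
    simp [h2] at e00 e01 e10 e11
  · left; rfl
  · right
    ext i j
    fin_cases i <;> fin_cases j <;> simp [wm, h2]

end aux

/-- Over the field with 2 elements, for n = 2 n₂ ≥ 13, the stabiliser in SL_n of a tensor decomposition with factors of dimensions 2 and n₂ (the conjugate by any P of the Kronecker-product subgroup transported along any bijection Fin n ≃ Fin 2 × Fin n₂, intersected with SL_n) is not a maximal subgroup: some subgroup lies strictly between it and SL_n. -/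
theorem result {F : Type*} [Field F] [Fintype F] (n : ℕ) (hn : 13 ≤ n) (hq : Fintype.card F = 2) (n₂ : ℕ) (e : Fin n ≃ Fin 2 × Fin n₂) (P : Matrix.GeneralLinearGroup (Fin n) F) : ∃ K : Subgroup (Matrix.GeneralLinearGroup (Fin n) F), Cfsg.Geo.tensorProductSubgroup 2 n₂ e P ⊓ Cfsg.Geo.specialLinear (Fin n) F < K ∧ K < Cfsg.Geo.specialLinear (Fin n) F := by
  classical
  have h2 := f2_two hq
  have hn2 : 3 ≤ n₂ := by
    have h1 := Fintype.card_congr e
    simp at h1
    omega
  have hww : (wm : Matrix (Fin 2) (Fin 2) F) * wm = wm + 1 := wm_sq hq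
  -- the element `W`
  let wg : GL (Fin 2) F := ⟨wm, wm + 1, by rw [mul_add, hww, mul_one]; rw [add_right_comm, mat_two h2, zero_add],
    by rw [add_mul, hww, one_mul]; rw [add_right_comm, mat_two h2, zero_add]⟩
  let W : GL (Fin n) F := kgl e P wg 1
  have hWten : ∀ α β, (W : Matrix (Fin n) (Fin n) F) *ᵥ ten e P α β = ten e P (wm *ᵥ α) β := by
    intro α β
    rw [kgl_ten, Units.val_one, Matrix.one_mulVec]
  have hwg3 : wg ^ 3 = 1 := by
    apply Units.ext
    rw [Units.val_pow_eq_pow_val, Units.val_one]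
    show wm ^ 3 = 1
    rw [pow_succ, pow_two, hww, add_mul, hww, one_mul, add_right_comm, mat_two h2, zero_add]
  have hkgl_mul : ∀ (a a' : GL (Fin 2) F) (b b' : GL (Fin n₂) F), kgl e P a b * kgl e P a' b' = kgl e P (a * a') (b * b') := by
    intro a a' b b'
    apply Units.ext
    exact kop_mul e P _ _ _ _
  have hW3 : W ^ 3 = 1 := by
    have h1 : W ^ 3 = kgl e P (wg ^ 3) 1 := by
      show kgl e P wg 1 ^ 3 = _
      rw [pow_succ, pow_two, hkgl_mul, hkgl_mul, mul_one, mul_one, pow_succ, pow_two]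
    rw [h1, hwg3]
    apply Units.ext
    exact kop_one e P
  have hdet : ∀ g : GL (Fin n) F, g ∈ Cfsg.Geo.specialLinear (Fin n) F := by
    intro g
    show Matrix.GeneralLinearGroup.det g = 1
    apply Units.ext
    exact (f2_cases hq _).resolve_left (Units.ne_zero _)
  refine ⟨NW W hW3 ⊓ Cfsg.Geo.specialLinear (Fin n) F, ?_, ?_⟩
  · refine lt_of_le_of_ne (inf_le_inf_right _ ?_) ?_
    · intro g hg
      obtain ⟨a, b, rfl⟩ := (mem_tensor e P).1 hg
      have h3 : a * wg = wg * a ∨ a * wg = wg ^ 2 * a := by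
        have h4 := gl2_norm hq (a * wg * a⁻¹ : GL (Fin 2) F) (by
          obtain ⟨A, hA⟩ : ∃ A : Matrix (Fin 2) (Fin 2) F, (a : Matrix (Fin 2) (Fin 2) F) = A := ⟨_, rfl⟩
          obtain ⟨B, hB⟩ : ∃ B : Matrix (Fin 2) (Fin 2) F, ((a⁻¹ : GL (Fin 2) F) : Matrix (Fin 2) (Fin 2) F) = B := ⟨_, rfl⟩
          have hAB : A * B = 1 := by rw [← hA, ← hB, ← Units.val_mul, mul_inv_cancel, Units.val_one]
          have hBA : B * A = 1 := by rw [← hA, ← hB, ← Units.val_mul, inv_mul_cancel, Units.val_one]
          rw [Units.val_mul, Units.val_mul, hA, hB]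
          show A * wm * B * (A * wm * B) = A * wm * B + 1
          calc A * wm * B * (A * wm * B) = A * wm * (B * A) * wm * B := by simp only [mul_assoc]
            _ = A * (wm * wm) * B := by rw [hBA, mul_one]; simp only [mul_assoc]
            _ = A * wm * B + 1 := by rw [hww, mul_add, mul_one, add_mul, hAB])
        have h6 : a * wg * a⁻¹ = wg ∨ a * wg * a⁻¹ = wg ^ 2 := by
          rcases h4 with h4 | h4
          · exact Or.inl (Units.ext h4)
          · right
            apply Units.ext
            rw [h4, Units.val_pow_eq_pow_val, pow_two]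
            exact hww.symm
        rcases h6 with h6 | h6
        · exact Or.inl (mul_inv_eq_iff_eq_mul.1 h6)
        · exact Or.inr (mul_inv_eq_iff_eq_mul.1 h6)
      show kgl e P a b * W = W * kgl e P a b ∨ kgl e P a b * W = W ^ 2 * kgl e P a b
      have hW2 : W ^ 2 = kgl e P (wg ^ 2) 1 := by
        show kgl e P wg 1 ^ 2 = _
        rw [pow_two, hkgl_mul, mul_one, pow_two]
      rcases h3 with h3 | h3
      · left
        show kgl e P a b * kgl e P wg 1 = kgl e P wg 1 * kgl e P a b
        rw [hkgl_mul, hkgl_mul, h3, one_mul, mul_one]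
      · right
        rw [hW2]
        show kgl e P a b * kgl e P wg 1 = kgl e P (wg ^ 2) 1 * kgl e P a b
        rw [hkgl_mul, hkgl_mul, h3, one_mul, mul_one]
    · intro heq
      let E : Matrix (Fin n₂) (Fin n₂) F := Matrix.single ⟨0, by omega⟩ ⟨1, by omega⟩ 1
      have hEE : E * E = 0 := by
        simp only [E]
        rw [Matrix.single_mul_single_of_ne]
        simp
      have hk0 : kop e P (wm * wm) (0 : Matrix (Fin n₂) (Fin n₂) F) = 0 := by
        apply mat_ext e P
        intro α β
        rw [kop_ten, Matrix.zero_mulVec, Matrix.zero_mulVec, ten_zero_right]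
      have hself : ∀ A : Matrix (Fin n) (Fin n) F, A + A = 0 := mat_two h2
      have hXX : (1 + kop e P wm E) * (1 + kop e P wm E) = 1 := by
        rw [add_mul, mul_add, mul_add, kop_mul, hEE, hk0, mul_one, one_mul, mul_one, add_zero, add_assoc, hself, add_zero]
      let X : GL (Fin n) F := ⟨1 + kop e P wm E, 1 + kop e P wm E, hXX, hXX⟩
      have hX : X ∈ NW W hW3 ⊓ Cfsg.Geo.specialLinear (Fin n) F := by
        refine Subgroup.mem_inf.2 ⟨Or.inl ?_, hdet X⟩
        apply Units.ext
        rw [Units.val_mul, Units.val_mul]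
        show (1 + kop e P wm E) * kop e P wm (1 : GL (Fin n₂) F) = kop e P wm (1 : GL (Fin n₂) F) * (1 + kop e P wm E)
        rw [add_mul, mul_add, kop_mul, kop_mul, Units.val_one, one_mul, mul_one, one_mul, mul_one]
      rw [← heq, Subgroup.mem_inf, mem_tensor] at hX
      obtain ⟨⟨a, b, hab⟩, -⟩ := hX
      have h3 : (X : Matrix (Fin n) (Fin n) F) *ᵥ ten e P ![1, 0] (Pi.single ⟨1, by omega⟩ 1) =
          ten e P ![1, 0] (Pi.single ⟨1, by omega⟩ 1) + ten e P (wm *ᵥ ![1, 0]) (Pi.single ⟨0, by omega⟩ 1) := by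
        show (1 + kop e P wm E) *ᵥ _ = _
        rw [Matrix.add_mulVec, Matrix.one_mulVec, kop_ten]
        congr 2
        simp only [E, Matrix.mulVec_single_one]
        funext i
        simp [Matrix.single, Matrix.col, Pi.single_apply, eq_comm]
      rw [hab, kgl_ten] at h3
      refine not_pure e P ?_ ?_ _ _ h3.symm
      · rw [LinearIndependent.pair_iff]
        intro s u hsu
        have e0 := congrFun hsu 0
        have e1 := congrFun hsu 1
        simp [wm, Matrix.mulVec, dotProduct] at e0 e1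
        exact ⟨e0, e1⟩
      · rw [LinearIndependent.pair_iff]
        intro s u hsu
        have e0 := congrFun hsu ⟨0, by omega⟩
        have e1 := congrFun hsu ⟨1, by omega⟩
        simp [Pi.single_apply] at e0 e1
        exact ⟨e1, e0⟩
  · refine lt_of_le_of_ne inf_le_right ?_
    intro heq
    obtain ⟨φ, hφ⟩ := exists_tc_dot e P 0 ⟨0, by omega⟩
    have hφu : φ ⬝ᵥ ten e P ![1, 0] (Pi.single ⟨1, by omega⟩ 1) = 0 := by
      rw [hφ, tc_ten]
      simp [Pi.single_apply]
    have hy := hdet (tv (ten e P ![1, 0] (Pi.single ⟨1, by omega⟩ 1)) φ)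
    rw [← heq, Subgroup.mem_inf] at hy
    have hwe : wm *ᵥ (![1, 0] : Fin 2 → F) = ![0, 1] := by
      funext i
      fin_cases i <;> simp [wm, Matrix.mulVec, dotProduct]
    have hwe2 : wm *ᵥ (![0, 1] : Fin 2 → F) = ![1, 1] := by
      funext i
      fin_cases i <;> simp [wm, Matrix.mulVec, dotProduct]
    rcases hy.1 with h3 | h3
    · have h4 := congrArg (fun g : GL (Fin n) F => (g : Matrix (Fin n) (Fin n) F) *ᵥ ten e P ![1, 0] (Pi.single ⟨0, by omega⟩ 1)) h3
      simp only [gl_mul_mulVec] at h4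
      rw [hWten, tv_mulVec hφu, tv_mulVec hφu, hφ, hφ, tc_ten, tc_ten, hwe, Matrix.mulVec_add, hWten, hwe] at h4
      simp only [Matrix.cons_val_zero, zero_mul, zero_smul, add_zero, Pi.single_eq_same, mul_one, one_smul] at h4
      rw [hWten, hwe] at h4
      have h5 : ten e P (![0, 1] : Fin 2 → F) (Pi.single ⟨1, by omega⟩ 1) = 0 := by
        exact (left_eq_add.1 h4)
      refine ten_ne_zero e P ?_ ?_ h5
      · intro h; simpa using congrFun h 1
      · intro h; simpa using congrFun h ⟨1, by omega⟩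
    · have h4 := congrArg (fun g : GL (Fin n) F => (g : Matrix (Fin n) (Fin n) F) *ᵥ ten e P ![1, 0] (Pi.single ⟨2, by omega⟩ 1)) h3
      simp only [gl_mul_mulVec, pow_two] at h4
      rw [hWten, tv_mulVec hφu, tv_mulVec hφu, hφ, hφ, tc_ten, tc_ten, hwe] at h4
      simp only [Matrix.cons_val_zero, zero_mul, zero_smul, add_zero, ne_eq, Fin.mk.injEq, OfNat.zero_ne_ofNat, not_false_eq_true,
        Pi.single_eq_of_ne, mul_zero] at h4
      rw [hWten, hWten, hwe, hwe2] at h4
      have h5 := congrArg (fun v => tc e P v 0 ⟨2, by omega⟩) h4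
      simp [tc_ten] at h5

end Cfsg.Agent.S5638
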