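import Cfsg.Statements.S5639
import Cfsg.Agent.H12.SubLin2
import Cfsg.Agent.H12.SubCard
set_option autoImplicit false
open Cfsg
namespace Cfsg.Agent.S5639

open scoped MatrixGroups Matrix
open Cfsg.Agent.H12

set_option linter.unusedSectionVars false

section aux

variable {n : ℕ} {F : Type*} [Field F] {F₀ : Subfield F}

lemma rho_tv (P : GL (Fin n) F) {u φ : Fin n → F₀} (h : φ ⬝ᵥ u = 0) :
    rho P (tv u φ) = tv (emb P u) (emb (ti P) φ) := by
  have h0 : emb (ti P) φ ⬝ᵥ emb P u = 0 := by rw [demb_dot_emb, h]; rfl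
  apply gl_ext_emb (F₀ := F₀) P
  intro v
  rw [rho_mulVec_emb, tv_mulVec h, tv_mulVec h0, emb_add, emb_smul, demb_dot_emb]

/-- diagonal sign matrices -/
def dsg {K : Type*} [Field K] (m : ℕ) : Fin n → K := fun k => if k.1 < m then -1 else 1

lemma dsg_mul {K : Type*} [Field K] (m : ℕ) (k : Fin n) : (dsg m k : K) * dsg m k = 1 := by
  simp only [dsg]
  split_ifs <;> ring

/-- diagonal sign elements -/
def dgl {K : Type*} [Field K] (m : ℕ) : GL (Fin n) K :=
  ⟨Matrix.diagonal (dsg m), Matrix.diagonal (dsg m),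
    by rw [Matrix.diagonal_mul_diagonal, ← Matrix.diagonal_one]; congr 1; funext k; exact dsg_mul m k,
    by rw [Matrix.diagonal_mul_diagonal, ← Matrix.diagonal_one]; congr 1; funext k; exact dsg_mul m k⟩

lemma dgl_mulVec {K : Type*} [Field K] (m : ℕ) (x : Fin n → K) (k : Fin n) :
    (((dgl m : GL (Fin n) K) : Matrix (Fin n) (Fin n) K) *ᵥ x) k = dsg m k * x k := by
  show (Matrix.diagonal (dsg m) *ᵥ x) k = _
  rw [Matrix.mulVec_diagonal]

lemma dgl_sq {K : Type*} [Field K] (m : ℕ) : (dgl m : GL (Fin n) K) * dgl m = 1 := by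
  apply gl_ext
  intro x
  funext k
  rw [gl_mul_mulVec, dgl_mulVec, dgl_mulVec, ← mul_assoc, dsg_mul, one_mul]
  simp

lemma card_filt {m : ℕ} (hm : m ≤ n) : (Finset.univ.filter (fun k : Fin n => k.1 < m)).card = m := by
  have h1 : (Finset.univ.filter (fun k : Fin n => k.1 < m)) = Finset.univ.map (Fin.castLEEmb hm) := by
    ext k
    simp only [Finset.mem_filter, Finset.mem_univ, true_and, Finset.mem_map, Fin.castLEEmb_apply]
    constructor
    · intro h
      exact ⟨⟨k.1, h⟩, Fin.ext rfl⟩
    · rintro ⟨a, rfl⟩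
      exact a.2
  rw [h1, Finset.card_map, Finset.card_univ, Fintype.card_fin]

lemma dgl_det {K : Type*} [Field K] {m : ℕ} (hm : m ≤ n) (hev : Even m) :
    ((dgl m : GL (Fin n) K) : Matrix (Fin n) (Fin n) K).det = 1 := by
  show (Matrix.diagonal (dsg m)).det = 1
  rw [Matrix.det_diagonal]
  simp only [dsg]
  rw [Finset.prod_ite, Finset.prod_const_one, mul_one, Finset.prod_const, card_filt hm, hev.neg_one_pow]

lemma dgl_trace {K : Type*} [Field K] {m : ℕ} (hm : m ≤ n) :
    ((dgl m : GL (Fin n) K) : Matrix (Fin n) (Fin n) K).trace = n - 2 * m := by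
  show (Matrix.diagonal (dsg m)).trace = _
  rw [Matrix.trace_diagonal]
  have h1 : ∀ k : Fin n, (dsg m k : K) = 1 - (if k.1 < m then 2 else 0) := by
    intro k
    simp only [dsg]
    split_ifs <;> ring
  simp only [h1]
  rw [Finset.sum_sub_distrib, Finset.sum_ite, Finset.sum_const, Finset.sum_const, Finset.sum_const_zero, card_filt hm]
  simp
  ring

lemma det_rho {P : GL (Fin n) F} {g : GL (Fin n) F₀} (h : (g : Matrix (Fin n) (Fin n) F₀).det = 1) :
    rho P g ∈ Geo.specialLinear (Fin n) F := by
  show Matrix.GeneralLinearGroup.det (rho P g) = 1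
  have h1 : rho P g = P * Matrix.GeneralLinearGroup.map (F₀.subtype : F₀ →+* F) g * P⁻¹ := rfl
  rw [h1, map_mul, map_mul, map_inv, mul_comm, ← mul_assoc, inv_mul_cancel, one_mul]
  apply Units.ext
  show ((g : Matrix (Fin n) (Fin n) F₀).map F₀.subtype).det = 1
  rw [← RingHom.mapMatrix_apply, ← RingHom.map_det, h, map_one]

end aux

/-- For a finite field F, a subfield F₀ with |F| = |F₀| ^ r for a prime r, and n ≥ 13, the subfield group (the conjugate by any P of the product of GL_n(F₀) with the non-zero scalars of F, intersected with SL_n(F)) is a maximal subgroup of SL_n(F). -/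
theorem result {F : Type*} [Field F] [Fintype F] (n : ℕ) (hn : 13 ≤ n) (F₀ : Subfield F) (r : ℕ) (hr : r.Prime) (hcard : Fintype.card F = Nat.card F₀ ^ r) (P : Matrix.GeneralLinearGroup (Fin n) F) : Cfsg.Geo.IsMaximalIn (Cfsg.Geo.specialLinear (Fin n) F) (Cfsg.Geo.subfieldSubgroup F₀ P ⊓ Cfsg.Geo.specialLinear (Fin n) F) := by
  classical
  have hfin : Module.finrank F₀ F = r := finrank_sub hcard
  have hmemH : ∀ u φ : Fin n → F₀, φ ⬝ᵥ u = 0 →
      tv (emb P u) (emb (ti P) φ) ∈ Cfsg.Geo.subfieldSubgroup F₀ P ⊓ Cfsg.Geo.specialLinear (Fin n) F := by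
    intro u φ h
    refine Subgroup.mem_inf.2 ⟨?_, det_tv _ _⟩
    rw [← rho_tv P h]
    exact rho_mem P _
  have hi01 : (⟨0, by omega⟩ : Fin n) ≠ ⟨1, by omega⟩ := by simp
  -- basis vectors
  obtain ⟨e, he⟩ : ∃ e : Fin n → (Fin n → F₀), e = fun j => Pi.single j 1 := ⟨_, rfl⟩
  have hedot : ∀ i j, e i ⬝ᵥ e j = if i = j then 1 else 0 := by
    intro i j
    rw [he]
    simp only [single_one_dotProduct, Pi.single_apply]
  have hene : ∀ i, e i ≠ 0 := by
    intro i h
    have h1 := hedot i i
    rw [h, zero_dotProduct] at h1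
    simp at h1
  refine ⟨lt_of_le_of_ne inf_le_right ?_, ?_⟩
  · -- proper
    intro heq
    have hle : Geo.specialLinear (Fin n) F ≤ Geo.subfieldSubgroup F₀ P := by
      rw [← heq]; exact inf_le_left
    obtain ⟨l, hl⟩ : ∃ l : F, l ∉ F₀ := by
      by_contra hcon
      push Not at hcon
      have h2 : Module.finrank F₀ F ≤ 1 := by
        apply finrank_le_one (1 : F)
        intro w
        exact ⟨⟨w, hcon w⟩, by rw [Subfield.smul_def, smul_eq_mul, mul_one]⟩
      rw [hfin] at h2
      have := hr.two_le
      omega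
    obtain ⟨i0, i1, i2, h01, h02, h12⟩ : ∃ i0 i1 i2 : Fin n, i0 ≠ i1 ∧ i0 ≠ i2 ∧ i1 ≠ i2 :=
      ⟨⟨0, by omega⟩, ⟨1, by omega⟩, ⟨2, by omega⟩, by simp, by simp, by simp⟩
    have hd0 : emb (ti P) (e i1) ⬝ᵥ (l • emb P (e i0)) = 0 := by
      rw [dotProduct_smul, demb_dot_emb, hedot, if_neg (Ne.symm h01)]; simp
    have h1 : tv (l • emb P (e i0)) (emb (ti P) (e i1)) ∈ Geo.subfieldSubgroup F₀ P := hle (det_tv _ _)
    obtain ⟨g₀, c, hc, hg₀⟩ := (mem_subfield_iff P _).mp h1
    -- apply to `e i2`: fixed
    have h2 := hg₀ (e i2)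
    rw [tv_mulVec hd0, demb_dot_emb, hedot, if_neg h12] at h2
    simp only [ZeroMemClass.coe_zero, zero_smul, add_zero] at h2
    have hge := gl_mulVec_ne_zero g₀ (hene i2)
    obtain ⟨c₀, hc₀⟩ := emb_smul_mem P hge h2
    have h3 := hg₀ (e i1)
    rw [tv_mulVec hd0, demb_dot_emb, hedot, if_pos rfl, ← hc₀, ← emb_smul] at h3
    simp only [OneMemClass.coe_one, one_smul] at h3
    have h4 : emb P (c₀ • ((g₀ : Matrix _ _ F₀) *ᵥ (e i1)) - e i1) = l • emb P (e i0) := by
      rw [emb_sub, ← h3]; abel
    obtain ⟨l', hl'⟩ := emb_smul_mem P (hene i0) h4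
    apply hl
    rw [← hl']
    exact SetLike.coe_mem _
  intro M hHM hMS
  have S : LinF F₀ P M :=
    { dim := by rw [Fintype.card_fin]; exact hn
      hM := fun u φ h => hHM (hmemH u φ h) }
  have hrho : ∀ g : GL (Fin n) F₀, (g : Matrix (Fin n) (Fin n) F₀).det = 1 → rho P g ∈ M := by
    intro g hg
    exact hHM (Subgroup.mem_inf.2 ⟨rho_mem P g, det_rho hg⟩)
  have := Subalgebra.isSimpleOrder_of_finrank_prime F₀ F (by rw [hfin]; exact hr)
  rcases eq_bot_or_eq_top S.Csub with hbot | htop
  · left
    have hC : ∀ s ∈ S.Csub, s ∈ F₀ := by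
      intro s hs
      rw [hbot, Algebra.mem_bot] at hs
      obtain ⟨r, rfl⟩ := hs
      exact SetLike.coe_mem r
    have T := S.triv_of hC
    refine le_antisymm (fun g hg => Subgroup.mem_inf.2 ⟨?_, hMS hg⟩) hHM
    by_cases hrn : r < n
    · -- every vector is killed by a rational functional
      have h1 : ∀ x : Fin n → F, Kil F₀ P x := by
        intro x
        let L : (Fin n → F₀) →ₗ[F₀] F :=
          { toFun := fun φ => emb (ti P) φ ⬝ᵥ x
            map_add' := by intro u v; rw [emb_add, add_dotProduct]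
            map_smul' := by
              intro c u
              rw [emb_smul, smul_dotProduct, RingHom.id_apply, Subfield.smul_def] }
        have h4 : Module.finrank F₀ F < Module.finrank F₀ (Fin n → F₀) := by
          rw [hfin, Module.finrank_fintype_fun_eq_card, Fintype.card_fin]; exact hrn
        have h5 : LinearMap.ker L ≠ ⊥ := LinearMap.ker_ne_bot_of_finrank_lt h4
        obtain ⟨u, hu, hu0⟩ := (Submodule.ne_bot_iff _).mp h5
        exact ⟨u, hu0, hu⟩
      exact S.all_rat T hg (hene ⟨0, by omega⟩) (S.rat_of_kil T hg (hene ⟨0, by omega⟩) (h1 _))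
    · have hodd : Odd r := by
        rcases hr.eq_two_or_odd' with h | h
        · omega
        · exact h
      have hsq : ∀ c : F, c * c ∈ F₀ → c ∈ F₀ := fun c hc => sq_mem_of_odd hodd hcard hc
      by_cases h2 : (2 : F) = 0
      · -- even characteristic
        have h2' : (2 : F₀) = 0 := Subtype.ext (by push_cast; exact h2)
        obtain ⟨i0, i1, i2, i3, h01, h02, h03, h12, h13, h23⟩ : ∃ i0 i1 i2 i3 : Fin n,
            i0 ≠ i1 ∧ i0 ≠ i2 ∧ i0 ≠ i3 ∧ i1 ≠ i2 ∧ i1 ≠ i3 ∧ i2 ≠ i3 :=
          ⟨⟨0, by omega⟩, ⟨1, by omega⟩, ⟨2, by omega⟩, ⟨3, by omega⟩, by simp, by simp, by simp, by simp, by simp, by simp⟩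
        have hd1 : e i1 ⬝ᵥ e i0 = 0 := by rw [hedot, if_neg (Ne.symm h01)]
        have hd2 : e i3 ⬝ᵥ e i2 = 0 := by rw [hedot, if_neg (Ne.symm h23)]
        have hself : ∀ x : Fin n → F₀, x + x = 0 := by
          intro x
          rw [← two_smul F₀ x, h2', zero_smul]
        have ha : tv (e i0) (e i1) * tv (e i0) (e i1) = 1 := by
          rw [tv_mul hd1 hd1, hself, tv_zero_right]
        have hb : tv (e i2) (e i3) * tv (e i2) (e i3) = 1 := by
          rw [tv_mul hd2 hd2, hself, tv_zero_right]
        have hab : tv (e i0) (e i1) * tv (e i2) (e i3) = tv (e i2) (e i3) * tv (e i0) (e i1) := by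
          apply gl_ext
          intro x
          rw [gl_mul_mulVec, gl_mul_mulVec, tv_mulVec hd1, tv_mulVec hd2, tv_mulVec hd1, tv_mulVec hd2, dotProduct_add,
            dotProduct_add, dotProduct_smul, dotProduct_smul, hedot, hedot, if_neg h12, if_neg (Ne.symm h03)]
          simp only [smul_zero, add_zero]
          abel
        have hmv : ∀ x, ((tv (e i0) (e i1) * tv (e i2) (e i3) : GL (Fin n) F₀) : Matrix (Fin n) (Fin n) F₀) *ᵥ x =
            x + (e i3 ⬝ᵥ x) • e i2 + (e i1 ⬝ᵥ x) • e i0 := by
          intro x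
          rw [gl_mul_mulVec, tv_mulVec hd1, tv_mulVec hd2, dotProduct_add, dotProduct_smul, hedot, if_neg h12]
          simp
        refine S.core T hsq (i1 := tv (e i0) (e i1)) (i2 := tv (e i0) (e i1) * tv (e i2) (e i3)) ha ?_ ?_ ?_ ?_ ?_
          ⟨{e i1}, by simp, ?_⟩ ⟨{e i1, e i3}, ?_, ?_⟩ ?_ hg
        · calc tv (e i0) (e i1) * tv (e i2) (e i3) * (tv (e i0) (e i1) * tv (e i2) (e i3))
              = tv (e i0) (e i1) * (tv (e i2) (e i3) * tv (e i0) (e i1)) * tv (e i2) (e i3) := by group
            _ = (tv (e i0) (e i1) * tv (e i0) (e i1)) * (tv (e i2) (e i3) * tv (e i2) (e i3)) := by rw [← hab]; group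
            _ = 1 := by rw [ha, hb, one_mul]
        · rw [rho_tv P hd1]; exact S.hM _ _ hd1
        · rw [map_mul, rho_tv P hd1, rho_tv P hd2]; exact mul_mem (S.hM _ _ hd1) (S.hM _ _ hd2)
        · intro h
          have h3 := congrArg (fun g : GL (Fin n) F₀ => (g : Matrix (Fin n) (Fin n) F₀) *ᵥ e i1) h
          beta_reduce at h3
          rw [tv_mulVec hd1, hedot, if_pos rfl, one_smul] at h3
          simp only [Units.val_one, Matrix.one_mulVec, add_eq_left] at h3
          exact hene i0 h3
        · intro h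
          have h3 := congrArg (fun g : GL (Fin n) F₀ => (g : Matrix (Fin n) (Fin n) F₀) *ᵥ e i1) h
          beta_reduce at h3
          rw [hmv, hedot, hedot, if_pos rfl, if_neg (Ne.symm h13), one_smul, zero_smul, add_zero] at h3
          simp only [Units.val_one, Matrix.one_mulVec, add_eq_left] at h3
          exact hene i0 h3
        · intro x hx
          rw [tv_mulVec hd1, hx (e i1) (by simp), zero_smul, add_zero]
        · exact Finset.card_le_two.trans (by norm_num)
        · intro x hx
          rw [hmv, hx (e i1) (by simp), hx (e i3) (by simp), zero_smul, zero_smul, add_zero, add_zero]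
        · intro x hx
          have hd1' : emb (ti P) (e i1) ⬝ᵥ emb P (e i0) = 0 := by rw [demb_dot_emb, hd1]; rfl
          rw [rho_tv P hd1, conj_tv x hd1'] at hx
          have hd1'' : (emb (ti P) (e i1) ᵥ* ((x⁻¹ : GL (Fin n) F) : Matrix (Fin n) (Fin n) F)) ⬝ᵥ
              ((x : Matrix (Fin n) (Fin n) F) *ᵥ emb P (e i0)) = 0 := by rw [vecMul_inv_dot_self, hd1']
          have h3 := congrArg (fun g : GL (Fin n) F => (g : Matrix (Fin n) (Fin n) F) *ᵥ emb P (e i1)) hx
          have h4 := congrArg (fun g : GL (Fin n) F => (g : Matrix (Fin n) (Fin n) F) *ᵥ emb P (e i3)) hx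
          beta_reduce at h3 h4
          rw [tv_mulVec hd1'', rho_mulVec_emb, hmv, hedot, hedot, if_pos rfl, if_neg (Ne.symm h13), one_smul, zero_smul,
            add_zero, emb_add] at h3
          rw [tv_mulVec hd1'', rho_mulVec_emb, hmv, hedot, hedot, if_pos rfl, if_neg h13, one_smul, zero_smul,
            add_zero, emb_add] at h4
          have h5 := add_left_cancel h3
          have h6 := add_left_cancel h4
          -- `emb (e i2)` is a multiple of `emb (e i0)`
          set a := (emb (ti P) (e i1) ᵥ* ((x⁻¹ : GL (Fin n) F) : Matrix (Fin n) (Fin n) F)) ⬝ᵥ emb P (e i1) with hadef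
          have ha0 : a ≠ 0 := by
            intro h'
            rw [h', zero_smul] at h5
            exact hene i0 ((emb_eq_zero P).mp h5.symm)
          set b := (emb (ti P) (e i1) ᵥ* ((x⁻¹ : GL (Fin n) F) : Matrix (Fin n) (Fin n) F)) ⬝ᵥ emb P (e i3) with hbdef
          have h7 : emb P (e i2) = (b / a) • emb P (e i0) := by
            rw [← h6]
            conv_rhs => rw [← h5]
            rw [smul_smul, div_mul_cancel₀ _ ha0]
          have h8 := congrArg (fun y => emb (ti P) (e i2) ⬝ᵥ y) h7
          beta_reduce at h8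
          rw [dotProduct_smul, demb_dot_emb, demb_dot_emb, hedot, hedot, if_pos rfl, if_neg (Ne.symm h02)] at h8
          simp at h8
      · -- odd characteristic
        have h2' : (2 : F₀) ≠ 0 := by
          intro h'
          apply h2
          have h4 : (((2 : F₀) : F)) = ((0 : F₀) : F) := by rw [h']
          push_cast at h4
          exact h4
        have hneg : (-1 : F₀) ≠ 1 := by
          intro h'
          apply h2'
          linear_combination -h'
        have hmove : ∀ m : ℕ, 0 < m → (dgl m : GL (Fin n) F₀) ≠ 1 := by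
          intro m hm h'
          have h3 := congrArg (fun g : GL (Fin n) F₀ => ((g : Matrix (Fin n) (Fin n) F₀) *ᵥ e ⟨0, by omega⟩) ⟨0, by omega⟩) h'
          simp only [dgl_mulVec, dsg, hm, if_true] at h3
          rw [he] at h3
          simp at h3
          exact hneg h3
        have hfx : ∀ m : ℕ, m ≤ 4 → ∃ s : Finset (Fin n → F₀), s.card ≤ 4 ∧
            ∀ x : Fin n → F₀, (∀ φ ∈ s, φ ⬝ᵥ x = 0) → ((dgl m : GL (Fin n) F₀) : Matrix (Fin n) (Fin n) F₀) *ᵥ x = x := by
          intro m hm
          refine ⟨(Finset.univ.filter (fun k : Fin n => k.1 < m)).image e, ?_, ?_⟩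
          · refine Finset.card_image_le.trans ?_
            rw [card_filt (by omega)]; exact hm
          · intro x hx
            funext k
            rw [dgl_mulVec, dsg]
            split_ifs with hk
            · have h3 := hx (e k) (Finset.mem_image_of_mem _ (by simp [hk]))
              rw [he] at h3
              simp only [single_one_dotProduct] at h3
              rw [h3, mul_zero]
            · rw [one_mul]
        refine S.core T hsq (i1 := dgl 2) (i2 := dgl 4) (dgl_sq 2) (dgl_sq 4) (hrho _ (dgl_det (by omega) (by decide)))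
          (hrho _ (dgl_det (by omega) (by decide))) (hmove 2 (by norm_num)) (hmove 4 (by norm_num))
          (hfx 2 (by norm_num)) (hfx 4 (by norm_num)) ?_ hg
        intro x hx
        have h3 := congrArg (fun g : GL (Fin n) F => (g : Matrix (Fin n) (Fin n) F).trace) hx
        beta_reduce at h3
        rw [conj_trace, rho_trace, rho_trace, dgl_trace (by omega), dgl_trace (by omega)] at h3
        have h4 : ((n : F₀) - 2 * ((2 : ℕ) : F₀)) = ((n : F₀) - 2 * ((4 : ℕ) : F₀)) := Subtype.ext h3
        push_cast at h4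
        apply h2'
        have h5 : (2 : F₀) * 2 = 0 := by linear_combination h4
        rcases mul_eq_zero.mp h5 with h6 | h6 <;> exact h6
  · right
    apply le_antisymm hMS
    have hC : ∀ (s : F) (u φ : Fin n → F₀), φ ⬝ᵥ u = 0 → tv (s • emb P u) (emb (ti P) φ) ∈ M := by
      intro s
      have : s ∈ S.Csub := by rw [htop]; trivial
      exact S.mem_Csub.1 this
    refine sl_le_of_irred (w := emb P (e ⟨0, by omega⟩)) ?_ ?_ ?_ ?_
    · -- irreducibility
      intro Y hY
      by_cases hY0 : Y = ⊥
      · exact Or.inl hY0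
      right
      obtain ⟨y, hy, hy0⟩ := (Submodule.ne_bot_iff _).mp hY0
      have hstep : ∀ (x : Fin n → F) (i j : Fin n), x ∈ Y → i ≠ j → emb (ti P) (e j) ⬝ᵥ x ≠ 0 → emb P (e i) ∈ Y := by
        intro x i j hx hij hne
        have hd : e j ⬝ᵥ e i = 0 := by rw [hedot, if_neg (Ne.symm hij)]
        have h1 := hY _ (S.hM _ _ hd) x hx
        rw [tv_mulVec (by rw [demb_dot_emb, hd]; rfl)] at h1
        have h2 := Y.sub_mem h1 hx
        rw [add_sub_cancel_left] at h2
        have h3 := Y.smul_mem (emb (ti P) (e j) ⬝ᵥ x)⁻¹ h2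
        rwa [smul_smul, inv_mul_cancel₀ hne, one_smul] at h3
      -- a non-zero coordinate
      obtain ⟨j, hj⟩ : ∃ j, emb (ti P) (e j) ⬝ᵥ y ≠ 0 := by
        by_contra hcon
        push Not at hcon
        obtain ⟨v, hv⟩ := emb_comb_eq (F₀ := F₀) P (x := y) (by
          intro χ
          obtain ⟨d, hd⟩ := exists_emb_comb (F₀ := F₀) (ti P) (emb (ti P) χ)
          rw [hd, sum_dotProduct, Finset.sum_eq_zero (fun j _ => by
            rw [smul_dotProduct]
            have := hcon j
            rw [he] at this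
            rw [this, smul_zero])]
          exact F₀.zero_mem)
        apply hy0
        rw [hv]
        have hv0 : v = 0 := by
          funext j
          have h1 := hcon j
          rw [hv, demb_dot_emb, he] at h1
          simp only [single_one_dotProduct] at h1
          exact Subtype.ext h1
        rw [hv0, emb_zero]
      have h1 : ∀ i, i ≠ j → emb P (e i) ∈ Y := fun i hij => hstep y i j hy hij hj
      have h2 : ∀ i, emb P (e i) ∈ Y := by
        intro i
        by_cases hij : i = j
        · obtain ⟨k, hk⟩ : ∃ k, k ≠ j := by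
            by_cases h0 : j = ⟨0, by omega⟩
            · exact ⟨⟨1, by omega⟩, by rw [h0]; simp⟩
            · exact ⟨_, Ne.symm h0⟩
          refine hstep (emb P (e k)) i k (h1 k hk) (by rw [hij]; exact Ne.symm hk) ?_
          rw [demb_dot_emb, hedot, if_pos rfl]
          simp
        · exact h1 i hij
      rw [eq_top_iff]
      intro x _
      obtain ⟨c, hc⟩ := exists_emb_comb (F₀ := F₀) P x
      rw [hc]
      apply Y.sum_mem
      intro i _
      have := h2 i
      rw [he] at this
      exact Y.smul_mem _ this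
    · rw [Fintype.card_fin]; omega
    · intro h'
      exact hene _ ((emb_eq_zero P).mp h')
    · intro φ hφ
      set i0 : Fin n := ⟨0, by omega⟩ with hi0
      obtain ⟨c, hc⟩ := exists_emb_comb (F₀ := F₀) (ti P) φ
      have hc0 : c i0 = 0 := by
        rw [hc, sum_dotProduct, Finset.sum_eq_single i0] at hφ
        · rw [smul_dotProduct, demb_dot_emb, he] at hφ
          simpa using hφ
        · intro j _ hj
          rw [smul_dotProduct, demb_dot_emb, he]
          simp [Ne.symm hj]
        · simp
      rw [hc]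
      have key : ∀ s : Finset (Fin n), tv (emb P (e i0)) (∑ j ∈ s, c j • emb (ti P) (Pi.single j (1 : F₀))) ∈ M ∧
          (∑ j ∈ s, c j • emb (ti P) (Pi.single j (1 : F₀))) ⬝ᵥ emb P (e i0) = 0 := by
        intro s
        induction s using Finset.induction_on with
        | empty => simp only [Finset.sum_empty, tv_zero_right, zero_dotProduct]; exact ⟨one_mem M, trivial⟩
        | insert j s hj ih =>
          rw [Finset.sum_insert hj]
          by_cases hji : j = i0
          · rw [hji, hc0, zero_smul, zero_add]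
            exact ih
          · have hd : (Pi.single j (1 : F₀) : Fin n → F₀) ⬝ᵥ e i0 = 0 := by
              have h1 := hedot j i0
              rw [if_neg hji] at h1
              rw [he] at h1 ⊢
              exact h1
            have hd' : (c j • emb (ti P) (Pi.single j (1 : F₀))) ⬝ᵥ emb P (e i0) = 0 := by
              rw [smul_dotProduct, demb_dot_emb, hd]; simp
            refine ⟨?_, by rw [add_dotProduct, hd', ih.2, add_zero]⟩
            rw [← tv_mul hd' ih.2]
            refine mul_mem ?_ ih.1
            have h2 : emb (ti P) (Pi.single j (1 : F₀)) ⬝ᵥ emb P (e i0) = 0 := by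
              rw [demb_dot_emb, hd]; rfl
            rw [← tv_smul_left h2]
            exact hC _ _ _ hd
      exact (key Finset.univ).1

end Cfsg.Agent.S5639
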