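import Cfsg.Statements.S5642
import Cfsg.Agent.H12.Transv
import Cfsg.Agent.H12.SymForm

set_option autoImplicit false
open Cfsg

namespace Cfsg.Agent.S5642

open scoped MatrixGroups Matrix
open Cfsg.Agent.H12

variable {ι : Type} [Fintype ι] [DecidableEq ι] {F : Type*} [Field F]
variable {f : (ι → F) → (ι → F) → F}

/-- if every vector's transvection functional is preserved up to scalar then `g` is a similarity. -/
lemma sim_of_prop (hf : Geo.IsSymplecticForm f) (g : GL ι F)
    (h : ∀ v : ι → F, v ≠ 0 → ∃ l : F, ∀ y, f v y = l * f ((g : Matrix ι ι F) *ᵥ v) ((g : Matrix ι ι F) *ᵥ y)) :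
    g ∈ Geo.similarityGroup f := by
  classical
  by_cases hne : ∃ v : ι → F, v ≠ 0
  swap
  · push Not at hne
    refine ⟨1, fun u v => ?_⟩
    rw [hne u, hne v]
    simp
  obtain ⟨v0, hv0⟩ := hne
  obtain ⟨l0, hl0⟩ := h v0 hv0
  have hl0ne : l0 ≠ 0 := by
    rintro rfl
    obtain ⟨-, x, hx⟩ := hf.nondegenerate v0 hv0
    apply hx
    rw [hl0 x, zero_mul]
  have key : ∀ v : ι → F, v ≠ 0 → ∀ w : ι → F, w ≠ 0 → f v w ≠ 0 → ∀ l m : F,
      (∀ y, f v y = l * f ((g : Matrix ι ι F) *ᵥ v) ((g : Matrix ι ι F) *ᵥ y)) →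
      (∀ y, f w y = m * f ((g : Matrix ι ι F) *ᵥ w) ((g : Matrix ι ι F) *ᵥ y)) → l = m := by
    intro v hv w hw hvw l m hl hm
    have h1 := hl w
    have h2 := hm v
    rw [hf.skew w v, hf.skew ((g : Matrix ι ι F) *ᵥ w)] at h2
    have h3 : f ((g : Matrix ι ι F) *ᵥ v) ((g : Matrix ι ι F) *ᵥ w) ≠ 0 := by
      intro h0
      rw [h0, mul_zero] at h1
      exact hvw h1
    have h4 : l * f ((g : Matrix ι ι F) *ᵥ v) ((g : Matrix ι ι F) *ᵥ w) =
        m * f ((g : Matrix ι ι F) *ᵥ v) ((g : Matrix ι ι F) *ᵥ w) := by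
      rw [← h1]
      linear_combination h2 * (-1)
    exact mul_right_cancel₀ h3 h4
  have all : ∀ v : ι → F, ∀ y, f v y = l0 * f ((g : Matrix ι ι F) *ᵥ v) ((g : Matrix ι ι F) *ᵥ y) := by
    intro v y
    by_cases hv : v = 0
    · rw [hv, bil_zero_left hf.bilinear, Matrix.mulVec_zero, bil_zero_left hf.bilinear, mul_zero]
    · obtain ⟨x, hx1, hx2⟩ := exists_common hf.bilinear hf.nondegenerate hv0 hv
      have hx : x ≠ 0 := by
        rintro rfl
        exact hx1 (bil_zero_right hf.bilinear _)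
      obtain ⟨l, hl⟩ := h v hv
      obtain ⟨m, hm⟩ := h x hx
      have e1 := key v0 hv0 x hx hx1 l0 m hl0 hm
      have e2 := key v hv x hx hx2 l m hl hm
      rw [hl y, e2, ← e1]
  refine ⟨Units.mk0 l0⁻¹ (inv_ne_zero hl0ne), fun u v => ?_⟩
  rw [all u v, Units.val_mk0, ← mul_assoc, inv_mul_cancel₀ hl0ne, one_mul]

lemma stv_mem_sim (hf : Geo.IsSymplecticForm f) (v : ι → F) (c : F) :
    stv f v c ∈ Geo.similarityGroup f ⊓ Geo.specialLinear ι F := by
  refine ⟨⟨1, fun x y => ?_⟩, det_tv _ _⟩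
  rw [stv_isometry hf, Units.val_one, one_mul]

/-- a transvection in a similarity group has proportional functional -/
lemma exists_not_sim (hf : Geo.IsSymplecticForm f) (hι : 3 ≤ Fintype.card ι) :
    ∃ g ∈ Geo.specialLinear ι F, g ∉ Geo.similarityGroup f := by
  classical
  haveI : Nonempty ι := by
    rw [← Fintype.card_pos_iff]; omega
  obtain ⟨i0⟩ := ‹Nonempty ι›
  set v : ι → F := Pi.single i0 1 with hv
  have hv0 : v ≠ 0 := by
    intro h
    have := congr_fun h i0
    simp [hv] at this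
  -- find φ with φ v = 0 not proportional to fvec f v
  have hex : ∃ φ : ι → F, φ ⬝ᵥ v = 0 ∧ ∀ c : F, φ ≠ c • fvec f v := by
    by_contra hcon
    push Not at hcon
    -- the space of φ with φ(v)=0 has dimension ≥ 2
    let W : Submodule F (ι → F) := LinearMap.ker (LinearMap.proj i0 : (ι → F) →ₗ[F] F)
    have hW : W ≤ Submodule.span F {fvec f v} := by
      intro φ hφ
      have h1 : φ ⬝ᵥ v = 0 := by
        have : φ i0 = 0 := hφ
        simp [hv, this]
      obtain ⟨c, hc⟩ := hcon φ h1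
      rw [hc]
      exact Submodule.smul_mem _ _ (Submodule.mem_span_singleton_self _)
    have h2 : Module.finrank F W ≤ 1 :=
      (Submodule.finrank_mono hW).trans ((finrank_span_le_card _).trans (by simp))
    have h3 : Module.finrank F (LinearMap.range (LinearMap.proj i0 : (ι → F) →ₗ[F] F)) ≤ 1 := by
      calc _ ≤ Module.finrank F F := Submodule.finrank_le _
        _ = 1 := Module.finrank_self F
    have h4 := LinearMap.finrank_range_add_finrank_ker (LinearMap.proj i0 : (ι → F) →ₗ[F] F)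
    rw [Module.finrank_fintype_fun_eq_card] at h4
    have h5 : Module.finrank F W = Module.finrank F (LinearMap.ker (LinearMap.proj i0 : (ι → F) →ₗ[F] F)) := rfl
    omega
  obtain ⟨φ, hφ, hφc⟩ := hex
  refine ⟨tv v φ, det_tv v φ, ?_⟩
  rintro ⟨c, hc⟩
  obtain ⟨-, x0, hx0⟩ := hf.nondegenerate v hv0
  have h1 : ∀ x y, f x y + φ ⬝ᵥ y * f x v + φ ⬝ᵥ x * f v y = (c : F) * f x y := by
    intro x y
    rw [← hc x y, tv_mulVec hφ, tv_mulVec hφ]
    simp only [hf.bilinear.add_left, hf.bilinear.add_right, hf.bilinear.smul_left, hf.bilinear.smul_right,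
      hf.alternating]
    ring
  have hc1 : (c : F) = 1 := by
    have := h1 v x0
    rw [hφ, hf.alternating, mul_zero, zero_mul, add_zero, add_zero] at this
    exact (mul_right_cancel₀ hx0 (by rw [one_mul]; exact this)).symm
  rw [hc1] at h1
  apply hφc (φ ⬝ᵥ x0 * (f v x0)⁻¹)
  ext j
  have h2 := h1 x0 (Pi.single j 1)
  have h3 : φ ⬝ᵥ (Pi.single j 1 : ι → F) = φ j := by simp
  rw [h3, hf.skew x0 v] at h2
  have h4 : φ j * f v x0 = φ ⬝ᵥ x0 * f v (Pi.single j 1) := by linear_combination -h2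
  simp only [Pi.smul_apply, smul_eq_mul, fvec]
  field_simp
  linear_combination h4

theorem main (hf : Geo.IsSymplecticForm f) (hι : 3 ≤ Fintype.card ι) :
    Geo.IsMaximalIn (Geo.specialLinear ι F) (Geo.similarityGroup f ⊓ Geo.specialLinear ι F) := by
  classical
  refine ⟨lt_of_le_of_ne inf_le_right ?_, ?_⟩
  · intro heq
    obtain ⟨g, hg, hg'⟩ := exists_not_sim hf hι
    rw [← heq] at hg
    exact hg' hg.1
  intro M hM1 hM2
  by_cases hcase : M ≤ Geo.similarityGroup f
  · left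
    exact le_antisymm (le_inf hcase hM2) hM1
  right
  apply le_antisymm hM2
  rw [SetLike.not_le_iff_exists] at hcase
  obtain ⟨g, hgM, hg⟩ := hcase
  have hstv : ∀ v c, stv f v c ∈ M := fun v c => hM1 (stv_mem_sim hf v c)
  -- Step 1
  have step1 : ∃ w φ : ι → F, w ≠ 0 ∧ φ ⬝ᵥ w = 0 ∧ tv w φ ∈ M ∧ ∀ c : F, φ ≠ c • fvec f w := by
    by_contra hcon
    push Not at hcon
    apply hg
    apply sim_of_prop hf
    intro v hv
    obtain ⟨c, hc⟩ := hcon ((g : Matrix ι ι F) *ᵥ v) (fvec f v ᵥ* ((g⁻¹ : GL ι F) : Matrix ι ι F))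
      (gl_mulVec_ne_zero g hv)
      (by rw [vecMul_inv_dot_self, fvec_dot hf.bilinear, hf.alternating])
      (by
        rw [← conj_tv g (by rw [fvec_dot hf.bilinear, hf.alternating])]
        have := hstv v 1
        rw [stv, one_smul] at this
        exact mul_mem (mul_mem hgM this) (inv_mem hgM))
    refine ⟨c, fun y => ?_⟩
    have h1 := vecMul_inv_dot_self g (fvec f v) y
    rw [hc, smul_dotProduct, fvec_dot hf.bilinear, fvec_dot hf.bilinear, smul_eq_mul] at h1
    exact h1.symm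
  obtain ⟨w, φ, hw, hφw, hφM, hφc⟩ := step1
  -- Step 2
  obtain ⟨u, rfl⟩ := fvec_surj hf.bilinear hf.nondegenerate φ
  rw [fvec_dot hf.bilinear] at hφw
  have hadd : ∀ a b : ι → F, f a w = 0 → f b w = 0 → tv w (fvec f a) ∈ M → tv w (fvec f b) ∈ M →
      tv w (fvec f (a + b)) ∈ M := by
    intro a b ha hb ha' hb'
    rw [fvec_add hf.bilinear, ← tv_mul (by rw [fvec_dot hf.bilinear, ha]) (by rw [fvec_dot hf.bilinear, hb])]
    exact mul_mem ha' hb'
  have hneg : ∀ a : ι → F, f a w = 0 → tv w (fvec f a) ∈ M → tv w (fvec f (-a)) ∈ M := by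
    intro a ha ha'
    have : fvec f (-a) = - fvec f a := by
      have := fvec_smul hf.bilinear (-1) a
      simpa using this
    rw [this, ← tv_inv (by rw [fvec_dot hf.bilinear, ha])]
    exact inv_mem ha'
  have hconj : ∀ z : ι → F, f z w = 0 → ∀ c : F, tv w (fvec f (u + (c * f z u) • z)) ∈ M := by
    intro z hz c
    have hh := hstv z c
    have h1 : ((stv f z c : GL ι F) : Matrix ι ι F) *ᵥ w = w := by
      rw [stv_mulVec hf, hz, mul_zero, zero_smul, add_zero]
    have h2 := conj_tv (stv f z c) (v := w) (φ := fvec f u) (by rw [fvec_dot hf.bilinear, hφw])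
    have h3 : fvec f u ᵥ* (((stv f z c)⁻¹ : GL ι F) : Matrix ι ι F) = fvec f (u + (c * f z u) • z) := by
      have h4 : ∀ x, (fvec f u ᵥ* (((stv f z c)⁻¹ : GL ι F) : Matrix ι ι F)) ⬝ᵥ x =
          fvec f (u + (c * f z u) • z) ⬝ᵥ x := by
        intro x
        rw [vecMul_inv_dot, fvec_dot hf.bilinear, fvec_dot hf.bilinear, ← stv_mulVec hf z c u]
        conv_rhs => rw [← gl_mulVec_inv_mulVec (stv f z c) x]
        rw [stv_isometry hf]
      exact dotProduct_eq_iff.mp h4 |>.symm ▸ rfl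
    rw [h1, h3] at h2
    rw [← h2]
    exact mul_mem (mul_mem hh hφM) (inv_mem hh)
  have hz1 : ∀ z : ι → F, f z w = 0 → f z u ≠ 0 → tv w (fvec f z) ∈ M := by
    intro z hz hzu
    have h1 := hconj z hz (f z u)⁻¹
    rw [inv_mul_cancel₀ hzu, one_smul] at h1
    have h2 := hadd (u + z) (-u) (by rw [hf.bilinear.add_left, hφw, hz, add_zero])
      (by rw [bil_neg_left hf.bilinear, hφw, neg_zero]) h1 (hneg u hφw hφM)
    rwa [show u + z + -u = z by abel] at h2
  have hz0 : ∃ z0 : ι → F, f z0 w = 0 ∧ f z0 u ≠ 0 := by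
    by_contra hcon
    push Not at hcon
    -- then u is a multiple of w
    obtain ⟨x0, -, hx0⟩ := exists_common hf.bilinear hf.nondegenerate hw hw
    have hx0' : f x0 w ≠ 0 := by rw [hf.skew]; exact neg_ne_zero.mpr hx0
    apply hφc (f x0 u * (f x0 w)⁻¹)
    rw [← fvec_smul hf.bilinear]
    have h1 : ∀ z, f z u = f z ((f x0 u * (f x0 w)⁻¹) • w) := by
      intro z
      have h2 := hcon (z - (f z w * (f x0 w)⁻¹) • x0) (by
        rw [bil_sub_left hf.bilinear, hf.bilinear.smul_left, mul_assoc, inv_mul_cancel₀ hx0', mul_one, sub_self])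
      rw [bil_sub_left hf.bilinear, hf.bilinear.smul_left] at h2
      rw [hf.bilinear.smul_right]
      linear_combination h2
    ext j
    simp only [fvec]
    rw [hf.skew u, h1, ← hf.skew]
  obtain ⟨z0, hz0w, hz0u⟩ := hz0
  have hall : ∀ y : ι → F, f y w = 0 → tv w (fvec f y) ∈ M := by
    intro y hy
    by_cases hyu : f y u = 0
    · have h1 := hz1 (y + z0) (by rw [hf.bilinear.add_left, hy, hz0w, add_zero])
        (by rw [hf.bilinear.add_left, hyu, zero_add]; exact hz0u)
      have h2 := hadd (y + z0) (-z0) (by rw [hf.bilinear.add_left, hy, hz0w, add_zero])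
        (by rw [bil_neg_left hf.bilinear, hz0w, neg_zero]) h1 (hneg z0 hz0w (hz1 z0 hz0w hz0u))
      rwa [show y + z0 + -z0 = y by abel] at h2
    · exact hz1 y hy hyu
  -- Step 3
  apply sl_le_of_tv_mem
  intro v ψ hψ
  by_cases hv : v = 0
  · rw [hv, tv_zero_left]; exact one_mem _
  obtain ⟨h, hh, hhw⟩ := stv_transitive hf hstv hw hv
  have h1 : tv v ψ = h * tv w (ψ ᵥ* (h : Matrix ι ι F)) * h⁻¹ := by
    have h2 : (ψ ᵥ* (h : Matrix ι ι F)) ⬝ᵥ w = 0 := by
      rw [← Matrix.dotProduct_mulVec, hhw, hψ]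
    rw [conj_tv h h2, hhw, Matrix.vecMul_vecMul, ← Units.val_mul, mul_inv_cancel, Units.val_one,
      Matrix.vecMul_one]
  rw [h1]
  refine mul_mem (mul_mem hh ?_) (inv_mem hh)
  obtain ⟨y, hy⟩ := fvec_surj hf.bilinear hf.nondegenerate (ψ ᵥ* (h : Matrix ι ι F))
  rw [← hy]
  apply hall
  rw [← fvec_dot hf.bilinear, hy, ← Matrix.dotProduct_mulVec, hhw, hψ]

/-- For a finite field F and n ≥ 13, let f be a non-degenerate symplectic form on F^n (so n is even). Then the elements of SL_n(F) that are similarities of f (f(gu, gv) = c f(u, v) for a non-zero scalar c depending on g) form a maximal subgroup of SL_n(F). -/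
theorem result {F : Type*} [Field F] [Fintype F] (n : ℕ) (hn : 13 ≤ n) (f : (Fin n → F) → (Fin n → F) → F) (hf : Cfsg.Geo.IsSymplecticForm f) : Cfsg.Geo.IsMaximalIn (Cfsg.Geo.specialLinear (Fin n) F) (Cfsg.Geo.similarityGroup f ⊓ Cfsg.Geo.specialLinear (Fin n) F) := by
  apply main hf
  rw [Fintype.card_fin]
  omega

end Cfsg.Agent.S5642
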