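import Cfsg.Statements.S5643
import Cfsg.Agent.H12.UniForm

set_option autoImplicit false
set_option linter.unusedSectionVars false
open Cfsg

namespace Cfsg.Agent.S5643

open scoped MatrixGroups Matrix
open Cfsg.Agent.H12

variable {ι : Type} [Fintype ι] [DecidableEq ι] {F : Type*} [Field F] [Finite F]
variable {σ : F ≃+* F} {f : (ι → F) → (ι → F) → F}

lemma herm1 (h : ReflForm σ 1 f) (x y : ι → F) : f x y = σ (f y x) := by
  have := h.herm x y
  rwa [one_mul] at this

lemma iso_exists (h : ReflForm σ 1 f) (hσ : σ ≠ RingEquiv.refl F) (hι : 2 ≤ Fintype.card ι) :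
    ∃ z : ι → F, z ≠ 0 ∧ f z z = 0 := by
  obtain ⟨z, -, h1, h2⟩ := iso_in h hσ ⊤ (by rwa [finrank_top, Module.finrank_fintype_fun_eq_card])
  exact ⟨z, h1, h2⟩

/-- for non-zero `v`, an isotropic vector non-orthogonal to `v` and to a given isotropic e ... -/
lemma iso_common (h : ReflForm σ 1 f) (hσ : σ ≠ RingEquiv.refl F) {e v : ι → F} (he0 : e ≠ 0)
    (he : f e e = 0) (hv : v ≠ 0) (hev : f e v = 0) : ∃ z : ι → F, f z z = 0 ∧ f z e ≠ 0 ∧ f z v ≠ 0 := by
  obtain ⟨x, hx1, hx2⟩ := h.exists_common he0 hv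
  obtain ⟨c, hc⟩ := iso_adj h hσ he hx1
  refine ⟨x + c • e, hc, ?_, ?_⟩
  · rwa [h.add_left, h.smul_left, he, mul_zero, add_zero]
  · rwa [h.add_left, h.smul_left, hev, mul_zero, add_zero]

/-- a linear property: closed under addition and scalars and true for isotropic vectors is true everywhere -/
lemma iso_induction (h : ReflForm σ 1 f) (hσ : σ ≠ RingEquiv.refl F) (Y : Submodule F (ι → F)) {e : ι → F}
    (he0 : e ≠ 0) (he : f e e = 0) (heY : e ∈ Y) (hY : ∀ z, f z z = 0 → f z e ≠ 0 → z ∈ Y) : Y = ⊤ := by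
  have key : ∀ x, f x e ≠ 0 → x ∈ Y := by
    intro x hx
    obtain ⟨c, hc⟩ := iso_adj h hσ he hx
    have h1 : x + c • e ∈ Y := hY _ hc (by rwa [h.add_left, h.smul_left, he, mul_zero, add_zero])
    have h2 := Y.sub_mem h1 (Y.smul_mem c heY)
    rwa [add_sub_cancel_right] at h2
  rw [Submodule.eq_top_iff']
  intro x
  by_cases hx : f x e = 0
  · obtain ⟨t, ht⟩ := h.nondeg e he0
    have h1 := key (x + t) (by rwa [h.add_left, hx, zero_add])
    have h2 := Y.sub_mem h1 (key t ht)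
    rwa [add_sub_cancel_right] at h2
  · exact key x hx

lemma sim_of_prop (h : ReflForm σ 1 f) (hσ : σ ≠ RingEquiv.refl F) (hι : 2 ≤ Fintype.card ι) (g : GL ι F)
    (hp : ∀ v : ι → F, v ≠ 0 → f v v = 0 →
      ∃ l : F, ∀ y, f y v = l * f ((g : Matrix ι ι F) *ᵥ y) ((g : Matrix ι ι F) *ᵥ v)) :
    g ∈ Geo.similarityGroup f := by
  classical
  obtain ⟨e, he0, he⟩ := iso_exists h hσ hι
  obtain ⟨a, ha0, ha⟩ := exists_skew hσ h.inv
  have ne_of : ∀ {x y : ι → F}, f x y ≠ 0 → x ≠ 0 ∧ y ≠ 0 := by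
    intro x y hxy
    constructor
    · rintro rfl; exact hxy (h.zero_left _)
    · rintro rfl; exact hxy (h.zero_right _)
  have key1 : ∀ v w : ι → F, f v v = 0 → f w w = 0 → f v w ≠ 0 → ∀ l m : F,
      (∀ y, f y v = l * f ((g : Matrix ι ι F) *ᵥ y) ((g : Matrix ι ι F) *ᵥ v)) →
      (∀ y, f y w = m * f ((g : Matrix ι ι F) *ᵥ y) ((g : Matrix ι ι F) *ᵥ w)) → m = σ l := by
    intro v w hv hw hvw l m hl hm
    have h1 := hm v
    have h2 := hl w
    have h3 : f v w = σ l * f ((g : Matrix ι ι F) *ᵥ v) ((g : Matrix ι ι F) *ᵥ w) := by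
      rw [herm1 h v w, h2, map_mul, ← herm1 h]
    have h4 : f ((g : Matrix ι ι F) *ᵥ v) ((g : Matrix ι ι F) *ᵥ w) ≠ 0 := by
      intro h0
      rw [h0, mul_zero] at h1
      exact hvw h1
    exact mul_right_cancel₀ h4 (h1.symm.trans h3)
  have key2 : ∀ v w : ι → F, f v v = 0 → f w w = 0 → f v w ≠ 0 → ∀ l m : F,
      (∀ y, f y v = l * f ((g : Matrix ι ι F) *ᵥ y) ((g : Matrix ι ι F) *ᵥ v)) →
      (∀ y, f y w = m * f ((g : Matrix ι ι F) *ᵥ y) ((g : Matrix ι ι F) *ᵥ w)) → m = l ∧ σ l = l := by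
    intro v w hv hw hvw l m hl hm
    have hσs : σ (f v w) ≠ 0 := by rwa [Ne, map_eq_zero]
    -- third isotropic vector
    set c : F := a / σ (f v w) with hc
    have hu : f (v + c • w) (v + c • w) = 0 := by
      rw [h.add_left, h.add_right, h.smul_left, h.add_right, h.smul_right, h.smul_right, hv, hw, herm1 h w v]
      have : σ c * f v w = σ a := by
        rw [hc, map_div₀, h.inv]; field_simp
      have h2 : c * σ (f v w) = a := by
        rw [hc]; field_simp
      linear_combination this + h2 + ha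
    have hc0 : c ≠ 0 := div_ne_zero ha0 hσs
    have huw : f (v + c • w) w ≠ 0 := by
      rwa [h.add_left, h.smul_left, hw, mul_zero, add_zero]
    have huv : f (v + c • w) v ≠ 0 := by
      rw [h.add_left, h.smul_left, hv, zero_add, herm1 h w v]
      exact mul_ne_zero hc0 hσs
    obtain ⟨k, hk⟩ := hp _ (ne_of huv).1 hu
    have e1 := key1 v w hv hw hvw l m hl hm
    have e2 := key1 _ v hu hv huv k l hk hl
    have e3 := key1 _ w hu hw huw k m hk hm
    -- m = σ l, l = σ k, m = σ k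
    have e4 : m = l := by rw [e3, e2]
    exact ⟨e4, by rw [← e1, e4]⟩
  have key3 : ∀ v w : ι → F, v ≠ 0 → w ≠ 0 → f v v = 0 → f w w = 0 → ∀ l m : F,
      (∀ y, f y v = l * f ((g : Matrix ι ι F) *ᵥ y) ((g : Matrix ι ι F) *ᵥ v)) →
      (∀ y, f y w = m * f ((g : Matrix ι ι F) *ᵥ y) ((g : Matrix ι ι F) *ᵥ w)) → m = l := by
    intro v w hv0 hw0 hv hw l m hl hm
    by_cases hvw : f v w = 0
    · obtain ⟨z, hz, hz1, hz2⟩ := iso_common h hσ hv0 hv hw0 hvw
      obtain ⟨k, hk⟩ := hp z (ne_of hz1).1 hz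
      rw [← (key2 z v hz hv hz1 k l hk hl).1] at *
      rw [(key2 z w hz hw hz2 _ m hk hm).1]
    · exact (key2 v w hv hw hvw l m hl hm).1
  obtain ⟨l0, hl0⟩ := hp e he0 he
  have hl0ne : l0 ≠ 0 := by
    rintro rfl
    obtain ⟨x, hx⟩ := h.nondeg e he0
    apply hx
    rw [hl0 x, zero_mul]
  let Y : Submodule F (ι → F) :=
    { carrier := {v | ∀ y, f y v = l0 * f ((g : Matrix ι ι F) *ᵥ y) ((g : Matrix ι ι F) *ᵥ v)}
      add_mem' := by
        intro u v hu hv y
        rw [h.add_right, hu y, hv y, Matrix.mulVec_add, h.add_right]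
        ring
      zero_mem' := by
        intro y
        rw [h.zero_right, Matrix.mulVec_zero, h.zero_right, mul_zero]
      smul_mem' := by
        intro c v hv y
        rw [h.smul_right, hv y, Matrix.mulVec_smul, h.smul_right]
        ring }
  have hY : Y = ⊤ := by
    apply iso_induction h hσ Y he0 he hl0
    intro z hz hze y
    obtain ⟨m, hm⟩ := hp z (ne_of hze).1 hz
    rw [hm y, key3 e z he0 (ne_of hze).1 he hz l0 m hl0 hm]
  refine ⟨Units.mk0 l0⁻¹ (inv_ne_zero hl0ne), fun u v => ?_⟩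
  have hv : v ∈ Y := by rw [hY]; trivial
  rw [Units.val_mk0, hv u, ← mul_assoc, inv_mul_cancel₀ hl0ne, one_mul]

lemma utv_mem_sim (h : ReflForm σ 1 f) {z : ι → F} (hz : f z z = 0) {a : F} (ha : σ a = -a) :
    utv f z a ∈ Geo.similarityGroup f ⊓ Geo.specialLinear ι F := by
  refine ⟨⟨1, fun x y => ?_⟩, det_tv _ _⟩
  rw [utv_isometry h hz ha, Units.val_one, one_mul]

lemma exists_not_sim (h : ReflForm σ 1 f) (hσ : σ ≠ RingEquiv.refl F) (hι : 3 ≤ Fintype.card ι) :
    ∃ g ∈ Geo.specialLinear ι F, g ∉ Geo.similarityGroup f := by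
  classical
  obtain ⟨v, hv0, hv⟩ := iso_exists h hσ (by omega)
  have hex : ∃ u, f u v = 0 ∧ u ∉ Submodule.span F {v} := by
    by_contra hcon
    push Not at hcon
    have h1 := h.finrank_perp {v}
    have h2 : h.perp {v} ≤ Submodule.span F {v} := by
      intro u hu
      exact hcon u (hu v (Finset.mem_singleton_self v))
    have h3 : Module.finrank F (h.perp {v}) ≤ 1 :=
      (Submodule.finrank_mono h2).trans ((finrank_span_le_card _).trans (by simp))
    rw [Finset.card_singleton] at h1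
    omega
  obtain ⟨u, huv, hu⟩ := hex
  have hφ : gvec f u ⬝ᵥ v = 0 := by rw [h.gvec_dot]; exact h.symm_zero.mp huv
  refine ⟨tv v (gvec f u), det_tv _ _, ?_⟩
  rintro ⟨c, hc⟩
  obtain ⟨x0, hx0⟩ := h.nondeg v hv0
  have h1 : ∀ x y, f x y + σ (f y u) * f x v + f x u * f v y = (c : F) * f x y := by
    intro x y
    rw [← hc x y, tv_mulVec hφ, tv_mulVec hφ, h.gvec_dot, h.gvec_dot]
    rw [h.add_left, h.add_right, h.smul_left, h.add_right, h.smul_right, h.smul_right, hv]
    ring
  have hc1 : (c : F) = 1 := by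
    have h2 := h1 x0 v
    have h3 : f v u = 0 := h.symm_zero.mp huv
    rw [h3, map_zero, zero_mul, hv, mul_zero, add_zero, add_zero] at h2
    exact (mul_right_cancel₀ hx0 (by rw [one_mul]; exact h2)).symm
  rw [hc1] at h1
  have hx0' : f v x0 ≠ 0 := fun h0 => hx0 (h.symm_zero.mp h0)
  apply hu
  rw [Submodule.mem_span_singleton]
  refine ⟨σ (-σ (f x0 u) / f v x0), ?_⟩
  apply h.gvec_inj
  intro x
  have h2 := h1 x x0
  rw [h.smul_right, h.inv]
  field_simp
  linear_combination -h2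

theorem main (h : ReflForm σ 1 f) (hσ : σ ≠ RingEquiv.refl F) (hι : 7 ≤ Fintype.card ι) :
    Geo.IsMaximalIn (Geo.specialLinear ι F) (Geo.similarityGroup f ⊓ Geo.specialLinear ι F) := by
  classical
  refine ⟨lt_of_le_of_ne inf_le_right ?_, ?_⟩
  · intro heq
    obtain ⟨g, hg, hg'⟩ := exists_not_sim h hσ (by omega)
    rw [← heq] at hg
    exact hg' hg.1
  intro M hM1 hM2
  by_cases hcase : M ≤ Geo.similarityGroup f
  · left
    exact le_antisymm (le_inf hcase hM2) hM1
  right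
  apply le_antisymm hM2
  rw [SetLike.not_le_iff_exists] at hcase
  obtain ⟨g, hgM, hg⟩ := hcase
  obtain ⟨a, ha0, ha⟩ := exists_skew hσ h.inv
  have hutv : ∀ z, f z z = 0 → utv f z a ∈ M := fun z hz => hM1 (utv_mem_sim h hz ha)
  have ne_of : ∀ {x y : ι → F}, f x y ≠ 0 → x ≠ 0 ∧ y ≠ 0 := by
    intro x y hxy
    constructor
    · rintro rfl; exact hxy (h.zero_left _)
    · rintro rfl; exact hxy (h.zero_right _)
  -- Step 1
  have step1 : ∃ w u : ι → F, w ≠ 0 ∧ f w u = 0 ∧ tv w (gvec f u) ∈ M ∧ u ∉ Submodule.span F {w} := by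
    by_contra hcon
    push Not at hcon
    apply hg
    apply sim_of_prop h hσ (by omega)
    intro v hv0 hv
    obtain ⟨u, hu⟩ := h.gvec_surj ((a • gvec f v) ᵥ* ((g⁻¹ : GL ι F) : Matrix ι ι F))
    have hmem : tv ((g : Matrix ι ι F) *ᵥ v) (gvec f u) ∈ M := by
      rw [hu, ← conj_tv g (utv_dot h hv a)]
      exact mul_mem (mul_mem hgM (hutv v hv)) (inv_mem hgM)
    have hwu : f ((g : Matrix ι ι F) *ᵥ v) u = 0 := by
      rw [← h.gvec_dot, hu, vecMul_inv_dot_self, utv_dot h hv]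
    have h1 := hcon ((g : Matrix ι ι F) *ᵥ v) u (gl_mulVec_ne_zero g hv0) hwu hmem
    obtain ⟨c, hc⟩ := Submodule.mem_span_singleton.mp h1
    refine ⟨a⁻¹ * σ c, fun y => ?_⟩
    have h2 := vecMul_inv_dot_self g (a • gvec f v) y
    rw [← hu, h.gvec_dot, smul_dotProduct, h.gvec_dot, ← hc, h.smul_right, smul_eq_mul] at h2
    rw [mul_assoc, h2, ← mul_assoc, inv_mul_cancel₀ ha0, one_mul]
  obtain ⟨w, u, hw, hwu, huM, huw⟩ := step1
  -- the set U
  have hadd : ∀ x y : ι → F, f w x = 0 → f w y = 0 → tv w (gvec f x) ∈ M → tv w (gvec f y) ∈ M →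
      tv w (gvec f (x + y)) ∈ M := by
    intro x y hx hy hx' hy'
    rw [h.gvec_add, ← tv_mul (by rw [h.gvec_dot, hx]) (by rw [h.gvec_dot, hy])]
    exact mul_mem hx' hy'
  have hneg : ∀ x : ι → F, f w x = 0 → tv w (gvec f x) ∈ M → tv w (gvec f (-x)) ∈ M := by
    intro x hx hx'
    rw [h.gvec_neg, ← tv_inv (by rw [h.gvec_dot, hx])]
    exact inv_mem hx'
  let U : AddSubgroup (ι → F) :=
    { carrier := {x | f w x = 0 ∧ tv w (gvec f x) ∈ M}
      add_mem' := by
        rintro x y ⟨hx, hx'⟩ ⟨hy, hy'⟩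
        exact ⟨by rw [h.add_right, hx, hy, add_zero], hadd x y hx hy hx' hy'⟩
      zero_mem' := ⟨h.zero_right w, by
        have : gvec f (0 : ι → F) = 0 := by ext j; simp [gvec, h.zero_right]
        rw [this, tv_zero_right]; exact one_mem _⟩
      neg_mem' := by
        rintro x ⟨hx, hx'⟩
        exact ⟨by rw [h.neg_right, hx, neg_zero], hneg x hx hx'⟩ }
  have hT : ∀ z x : ι → F, f z z = 0 → f w z = 0 → x ∈ U → (a * f x z) • z ∈ U := by
    rintro z x hz hwz ⟨hx, hx'⟩
    have h1 : ((utv f z a : GL ι F) : Matrix ι ι F) *ᵥ w = w := by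
      rw [utv_mulVec h hz, hwz, mul_zero, zero_smul, add_zero]
    have h2 := conj_tv (utv f z a) (v := w) (φ := gvec f x) (by rw [h.gvec_dot, hx])
    rw [h1, gvec_vecMul_inv h (utv_isometry h hz ha), utv_mulVec h hz] at h2
    have h3 : x + (a * f x z) • z ∈ U := by
      refine ⟨by rw [h.add_right, h.smul_right, hx, hwz, mul_zero, add_zero], ?_⟩
      rw [← h2]
      exact mul_mem (mul_mem (hutv z hz) hx') (inv_mem (hutv z hz))
    have h4 := U.sub_mem h3 (show x ∈ U from ⟨hx, hx'⟩)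
    rwa [add_sub_cancel_left] at h4
  have huU : u ∈ U := ⟨hwu, huM⟩
  have hsymm : ∀ {x y : ι → F}, f x y = 0 → f y x = 0 := fun hxy => h.symm_zero.mp hxy
  -- (a): isotropic z in w^⊥ with f u z ≠ 0
  have ha' : ∃ z, f z z = 0 ∧ f w z = 0 ∧ f z u ≠ 0 := by
    obtain ⟨x0, hx0⟩ := h.nondeg w hw
    have hfr := h.finrank_perp {w, u, x0}
    have hcard : ({w, u, x0} : Finset (ι → F)).card ≤ 3 := Finset.card_le_three
    obtain ⟨e, heY, he0, he⟩ := iso_in h hσ (h.perp {w, u, x0}) (by omega)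
    have hew : f e w = 0 := heY w (by simp)
    have heu : f e u = 0 := heY u (by simp)
    have hex0 : f e x0 = 0 := heY x0 (by simp)
    have hespan : e ∉ Submodule.span F {w} := by
      intro hmem
      obtain ⟨c, hc⟩ := Submodule.mem_span_singleton.mp hmem
      have hc0 : c ≠ 0 := by
        rintro rfl
        apply he0
        rw [← hc, zero_smul]
      rw [← hc, h.smul_left] at hex0
      rcases mul_eq_zero.mp hex0 with h1 | h1
      · exact hc0 h1
      · exact hx0 (hsymm h1)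
    have h1 := h.exists_perp_not_orth {w} (x := u) (by simpa using huw)
    have h2 := h.exists_perp_not_orth {w} (x := e) (by simpa using hespan)
    obtain ⟨z1, hz1, hz1u, hz1e⟩ := h.exists_common_in _ h1 h2
    have hz1w : f z1 w = 0 := hz1 w (by simp)
    obtain ⟨c, hc⟩ := iso_adj h hσ he hz1e
    refine ⟨z1 + c • e, hc, ?_, ?_⟩
    · rw [h.add_right, h.smul_right, hsymm hz1w, hsymm hew, mul_zero, add_zero]
    · rwa [h.add_left, h.smul_left, heu, mul_zero, add_zero]
  obtain ⟨z, hz, hwz, hzu⟩ := ha'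
  have hzw : f z w = 0 := hsymm hwz
  have huz : f u z ≠ 0 := fun h0 => hzu (hsymm h0)
  have hzspan : z ∉ Submodule.span F {w} := by
    intro hmem
    obtain ⟨c, hc⟩ := Submodule.mem_span_singleton.mp hmem
    rw [← hc, h.smul_left, hwu, mul_zero] at hzu
    exact hzu rfl
  -- (b)
  have hb' : ∃ z', f z' z' = 0 ∧ f w z' = 0 ∧ f z' z = 1 := by
    obtain ⟨y1, hy1, hy1z⟩ := h.exists_perp_not_orth {w} (x := z) (by simpa using hzspan)
    have hy1w : f y1 w = 0 := hy1 w (by simp)
    have hnorm : f ((f y1 z)⁻¹ • y1) z = 1 := by rw [h.smul_left, inv_mul_cancel₀ hy1z]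
    obtain ⟨c, hc⟩ := iso_adj h hσ hz (x := (f y1 z)⁻¹ • y1) (by rw [hnorm]; exact one_ne_zero)
    refine ⟨(f y1 z)⁻¹ • y1 + c • z, hc, ?_, ?_⟩
    · rw [h.add_right, h.smul_right, h.smul_right, hsymm hy1w, hwz, mul_zero, mul_zero, add_zero]
    · rw [h.add_left, hnorm, h.smul_left, hz, mul_zero, add_zero]
  obtain ⟨z', hz', hwz', hz'z⟩ := hb'
  have hzz' : f z z' = 1 := by rw [herm1 h, hz'z, map_one]
  -- (c)
  have hc' : ∃ y, f y w = 0 ∧ f y z = 0 ∧ f y z' = 0 ∧ f y y ≠ 0 := by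
    by_contra hcon
    push Not at hcon
    have hfr := h.finrank_perp {w, z, z'}
    have hcard : ({w, z, z'} : Finset (ι → F)).card ≤ 3 := Finset.card_le_three
    have hiso : ∀ y ∈ h.perp {w, z, z'}, f y y = 0 := by
      intro y hy
      exact hcon y (hy w (by simp)) (hy z (by simp)) (hy z' (by simp))
    have htot := tot_iso h hσ hiso
    have hle : h.perp {w, z, z'} ≤ Submodule.span F (({w, z, z'} : Finset (ι → F)) : Set (ι → F)) := by
      intro x hx
      exact h.mem_span_of_perp _ (fun y hy => htot y hy x hx)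
    have h1 := Submodule.finrank_mono hle
    have h2 := finrank_span_finset_le_card (R := F) ({w, z, z'} : Finset (ι → F))
    have h3 : Module.finrank F (h.perp {w, z, z'}) ≤ 3 := h1.trans (h2.trans hcard)
    omega
  obtain ⟨y, hyw, hyz, hyz', hyy⟩ := hc'
  have hfix : σ (- f y y) = - f y y := by rw [map_neg, ← herm1 h]
  obtain ⟨β, hβ⟩ := tr_surj hσ h.inv hfix
  set x : ι → F := z + β • z' + y with hx
  have hxx : f x x = 0 := by
    rw [hx]
    simp only [h.add_left, h.add_right, h.smul_left, h.smul_right, hz, hz', hzz', hz'z, hyz, hyz',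
      hsymm hyz, hsymm hyz']
    linear_combination hβ
  have hwx : f w x = 0 := by
    rw [hx, h.add_right, h.add_right, h.smul_right, hwz, hwz', hsymm hyw, mul_zero, add_zero, add_zero]
  have hzx : f z x = σ β := by
    rw [hx, h.add_right, h.add_right, h.smul_right, hz, hzz', hsymm hyz]; ring
  have hxz' : f x z' = 1 := by
    rw [hx, h.add_left, h.add_left, h.smul_left, hzz', hz', hyz']; ring
  -- Γ
  set γ : F := a * f u z with hγ
  have hγ0 : γ ≠ 0 := mul_ne_zero ha0 huz
  have hγU : γ • z ∈ U := hT z u hz hwz huU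
  have hcyc : ∀ t : F, t • z ∈ U → (a ^ 3 * σ β * t) • z ∈ U := by
    intro t ht
    have h1 := hT x _ hxx hwx ht
    rw [h.smul_left, hzx] at h1
    have h2 := hT z' _ hz' hwz' h1
    rw [h.smul_left, hxz'] at h2
    have h3 := hT z _ hz hwz h2
    rw [h.smul_left, hz'z] at h3
    convert h3 using 2
    ring
  have hcyc2 : ∀ t c : F, t • z ∈ U → (a ^ 2 * (c * σ c) * t) • z ∈ U := by
    intro t c ht
    have h1 := hT (c • z') _ (by rw [h.smul_left, h.smul_right, hz']; ring)
      (by rw [h.smul_right, hwz', mul_zero]) ht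
    rw [h.smul_left, h.smul_right, hzz'] at h1
    have h2 := hT z _ hz hwz h1
    rw [h.smul_left, h.smul_left, hz'z] at h2
    convert h2 using 2
    ring
  have hFix : ∀ t r : F, σ r = r → t • z ∈ U → (r * t) • z ∈ U := by
    intro t r hr ht
    by_cases hr0 : r = 0
    · rw [hr0, zero_mul, zero_smul]; exact U.zero_mem
    · obtain ⟨c, hc0, hc⟩ := norm_surj hσ h.inv (b := r / a ^ 2) (div_ne_zero hr0 (pow_ne_zero 2 ha0))
        (by rw [map_div₀, hr, map_pow, ha]; ring)
      have h1 := hcyc2 t c ht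
      rw [hc, mul_div_cancel₀ r (pow_ne_zero 2 ha0)] at h1
      exact h1
  have hall_z : ∀ t : F, t • z ∈ U := by
    intro t
    set m : F := a ^ 3 * σ β with hm
    have hσm : σ m = - (a ^ 3 * β) := by
      rw [hm, map_mul, map_pow, ha, h.inv]; ring
    have hmm : m - σ m ≠ 0 := by
      rw [hσm, hm]
      have : a ^ 3 * σ β - - (a ^ 3 * β) = a ^ 3 * (- f y y) := by
        rw [← hβ]; ring
      rw [this]
      exact mul_ne_zero (pow_ne_zero 3 ha0) (neg_ne_zero.mpr hyy)
    set τ : F := t / γ with hτ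
    set s : F := (τ - σ τ) / (m - σ m) with hs
    have hσs : σ s = s := by
      rw [hs, map_div₀, map_sub, map_sub, h.inv, h.inv, ← neg_sub τ, ← neg_sub m, neg_div_neg_eq]
    set r : F := τ - s * m with hr
    have hσr : σ r = r := by
      rw [hr, map_sub, map_mul, hσs]
      have : s * (m - σ m) = τ - σ τ := by rw [hs]; field_simp
      linear_combination this
    have h1 := hFix γ r hσr hγU
    have h2 := hFix _ s hσs (hcyc γ hγU)
    have h3 := U.add_mem h1 h2
    rw [← add_smul] at h3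
    convert h3 using 2
    have : t = τ * γ := by rw [hτ]; field_simp
    rw [this, hr]
    ring
  -- all of w^⊥
  have key : ∀ v : ι → F, f w v = 0 → f v z ≠ 0 → v ∈ U := by
    intro v hwv hvz
    obtain ⟨c, hc⟩ := iso_adj h hσ hz hvz
    have h1 : f (v + c • z) z ≠ 0 := by rwa [h.add_left, h.smul_left, hz, mul_zero, add_zero]
    have h2 : f z (v + c • z) ≠ 0 := fun h0 => h1 (hsymm h0)
    have h3 := hT (v + c • z) _ hc (by rw [h.add_right, h.smul_right, hwv, hwz, mul_zero, add_zero])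
      (hall_z (a * f z (v + c • z))⁻¹)
    rw [h.smul_left] at h3
    have h4 : a * ((a * f z (v + c • z))⁻¹ * f z (v + c • z)) = 1 := by field_simp
    rw [h4, one_smul] at h3
    have h5 := U.sub_mem h3 (hall_z c)
    rwa [add_sub_cancel_right] at h5
  have hall : ∀ v : ι → F, f w v = 0 → v ∈ U := by
    intro v hwv
    by_cases hvz : f v z = 0
    · have h1 := key (v + z') (by rw [h.add_right, hwv, hwz', add_zero])
        (by rw [h.add_left, hvz, hz'z, zero_add]; exact one_ne_zero)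
      have h2 := key z' hwz' (by rw [hz'z]; exact one_ne_zero)
      have h3 := U.sub_mem h1 h2
      rwa [add_sub_cancel_right] at h3
    · exact key v hwv hvz
  -- conclusion
  apply sl_le_of_irred _ (by omega) hw
  · intro φ hφ
    obtain ⟨v, rfl⟩ := h.gvec_surj φ
    rw [h.gvec_dot] at hφ
    exact (hall v hφ).2
  · intro Y hY
    by_cases hYb : Y = ⊥
    · exact Or.inl hYb
    right
    obtain ⟨y0, hy0Y, hy0⟩ := (Submodule.ne_bot_iff Y).mp hYb
    have himg : ∀ v ∈ Y, ∀ x : ι → F, f x x = 0 → f v x ≠ 0 → x ∈ Y := by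
      intro v hv x hx hvx
      have h1 := hY _ (hutv x hx) v hv
      rw [utv_mulVec h hx] at h1
      have h2 := Y.sub_mem h1 hv
      rw [add_sub_cancel_left] at h2
      have h3 := Y.smul_mem (a * f v x)⁻¹ h2
      rwa [smul_smul, inv_mul_cancel₀ (mul_ne_zero ha0 hvx), one_smul] at h3
    have hz0 : ∃ z0 ∈ Y, z0 ≠ 0 ∧ f z0 z0 = 0 := by
      obtain ⟨e, he0, he⟩ := iso_exists h hσ (by omega)
      by_cases hey : f y0 e = 0
      · obtain ⟨x1, hx1, hx1e, hx1y⟩ := iso_common h hσ he0 he hy0 (hsymm hey)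
        exact ⟨x1, himg y0 hy0Y x1 hx1 (fun h0 => hx1y (hsymm h0)), (ne_of hx1e).1, hx1⟩
      · exact ⟨e, himg y0 hy0Y e he hey, he0, he⟩
    obtain ⟨z0, hz0Y, hz00, hz0⟩ := hz0
    exact iso_induction h hσ Y hz00 hz0 hz0Y (fun x hx hxz => himg z0 hz0Y x hx (fun h0 => hxz (hsymm h0)))

/-- For a finite field F and n ≥ 13, let σ be a field automorphism of F of order two and f a non-degenerate unitary form on F^n with respect to σ. Then the elements of SL_n(F) that are similarities of f form a maximal subgroup of SL_n(F). -/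
theorem result {F : Type*} [Field F] [Fintype F] (n : ℕ) (hn : 13 ≤ n) (σ : F ≃+* F) (f : (Fin n → F) → (Fin n → F) → F) (hf : Cfsg.Geo.IsUnitaryForm σ f) : Cfsg.Geo.IsMaximalIn (Cfsg.Geo.specialLinear (Fin n) F) (Cfsg.Geo.similarityGroup f ⊓ Cfsg.Geo.specialLinear (Fin n) F) := by
  apply main (reflForm_of_unitary hf) hf.ne_refl
  rw [Fintype.card_fin]
  omega

end Cfsg.Agent.S5643
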