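import Cfsg.Statements.S5644
import Cfsg.Agent.H12.QuadForm

set_option autoImplicit false
set_option linter.unusedSectionVars false
set_option linter.unusedVariables false
open Cfsg

namespace Cfsg.Agent.S5644

open scoped MatrixGroups Matrix
open Cfsg.Agent.H12

variable {ι : Type} [Fintype ι] [DecidableEq ι] {F : Type*} [Field F] [Fintype F]
variable {Q : (ι → F) → F}

local notation "bf" => QuadraticMap.polar Q

lemma two_ne (hodd : Odd (Fintype.card F)) : (2 : F) ≠ 0 := by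
  intro h7
  have : ringChar F = 2 := by
    apply CharP.ringChar_of_prime_eq_zero Nat.prime_two
    exact_mod_cast h7
  have h8 := FiniteField.even_card_of_char_two this
  rw [Nat.odd_iff] at hodd
  omega

lemma sing_exists (hQ : Geo.IsNondegenerateQuadraticForm Q) (hodd : Odd (Fintype.card F))
    (hι : 3 ≤ Fintype.card ι) : ∃ z : ι → F, z ≠ 0 ∧ Q z = 0 := by
  obtain ⟨z, -, h1, h2⟩ := sing_in hQ hodd ⊤ (by rwa [finrank_top, Module.finrank_fintype_fun_eq_card])
  exact ⟨z, h1, h2⟩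

lemma sing_common (hQ : Geo.IsNondegenerateQuadraticForm Q) {e v : ι → F} (he0 : e ≠ 0)
    (he : Q e = 0) (hv : v ≠ 0) (hev : bf e v = 0) : ∃ z : ι → F, Q z = 0 ∧ bf z e ≠ 0 ∧ bf z v ≠ 0 := by
  have h := reflForm_of_quad hQ
  obtain ⟨x, hx1, hx2⟩ := h.exists_common he0 hv
  refine ⟨_, sing_adj hQ he hx1, ?_, ?_⟩
  · rwa [h.add_left, h.smul_left, polar_self hQ, he, mul_zero, mul_zero, add_zero]
  · rwa [h.add_left, h.smul_left, hev, mul_zero, add_zero]

lemma sing_induction (hQ : Geo.IsNondegenerateQuadraticForm Q) (Y : Submodule F (ι → F)) {e : ι → F}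
    (he0 : e ≠ 0) (he : Q e = 0) (heY : e ∈ Y) (hY : ∀ z, Q z = 0 → bf z e ≠ 0 → z ∈ Y) : Y = ⊤ := by
  have h := reflForm_of_quad hQ
  have key : ∀ x, bf x e ≠ 0 → x ∈ Y := by
    intro x hx
    have hc := sing_adj hQ he hx
    have h1 := hY _ hc (by rwa [h.add_left, h.smul_left, polar_self hQ, he, mul_zero, mul_zero, add_zero])
    have h2 := Y.sub_mem h1 (Y.smul_mem (-Q x / bf x e) heY)
    rwa [add_sub_cancel_right] at h2
  rw [Submodule.eq_top_iff']
  intro x
  by_cases hx : bf x e = 0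
  · obtain ⟨t, ht⟩ := h.nondeg e he0
    have h1 := key (x + t) (by rwa [h.add_left, hx, zero_add])
    have h2 := Y.sub_mem h1 (key t ht)
    rwa [add_sub_cancel_right] at h2
  · exact key x hx

lemma sim_of_prop (hQ : Geo.IsNondegenerateQuadraticForm Q) (hodd : Odd (Fintype.card F))
    (hι : 3 ≤ Fintype.card ι) (g : GL ι F)
    (hp : ∀ v : ι → F, v ≠ 0 → Q v = 0 →
      ∃ l : F, ∀ y, bf y v = l * bf ((g : Matrix ι ι F) *ᵥ y) ((g : Matrix ι ι F) *ᵥ v)) :
    g ∈ Geo.quadSimilarityGroup Q := by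
  classical
  have h := reflForm_of_quad hQ
  obtain ⟨e, he0, he⟩ := sing_exists hQ hodd hι
  have ne_of : ∀ {x y : ι → F}, bf x y ≠ 0 → x ≠ 0 ∧ y ≠ 0 := by
    intro x y hxy
    constructor
    · rintro rfl; exact hxy (h.zero_left _)
    · rintro rfl; exact hxy (h.zero_right _)
  have key1 : ∀ v w : ι → F, bf v w ≠ 0 → ∀ l m : F,
      (∀ y, bf y v = l * bf ((g : Matrix ι ι F) *ᵥ y) ((g : Matrix ι ι F) *ᵥ v)) →
      (∀ y, bf y w = m * bf ((g : Matrix ι ι F) *ᵥ y) ((g : Matrix ι ι F) *ᵥ w)) → m = l := by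
    intro v w hvw l m hl hm
    have h1 := hm v
    have h2 := hl w
    rw [polar_symm w v, polar_symm ((g : Matrix ι ι F) *ᵥ w)] at h2
    have h4 : bf ((g : Matrix ι ι F) *ᵥ v) ((g : Matrix ι ι F) *ᵥ w) ≠ 0 := by
      intro h0
      rw [h0, mul_zero] at h1
      exact hvw h1
    exact mul_right_cancel₀ h4 (h1.symm.trans h2)
  have key3 : ∀ v w : ι → F, v ≠ 0 → w ≠ 0 → Q v = 0 → Q w = 0 → ∀ l m : F,
      (∀ y, bf y v = l * bf ((g : Matrix ι ι F) *ᵥ y) ((g : Matrix ι ι F) *ᵥ v)) →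
      (∀ y, bf y w = m * bf ((g : Matrix ι ι F) *ᵥ y) ((g : Matrix ι ι F) *ᵥ w)) → m = l := by
    intro v w hv0 hw0 hv hw l m hl hm
    by_cases hvw : bf v w = 0
    · obtain ⟨z, hz, hz1, hz2⟩ := sing_common hQ hv0 hv hw0 hvw
      obtain ⟨k, hk⟩ := hp z (ne_of hz1).1 hz
      rw [key1 z w hz2 k m hk hm, key1 z v hz1 k l hk hl]
    · exact key1 v w hvw l m hl hm
  obtain ⟨l0, hl0⟩ := hp e he0 he
  have hl0ne : l0 ≠ 0 := by
    rintro rfl
    obtain ⟨x, hx⟩ := h.nondeg e he0
    apply hx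
    rw [hl0 x, zero_mul]
  let Y : Submodule F (ι → F) :=
    { carrier := {v | ∀ y, bf y v = l0 * bf ((g : Matrix ι ι F) *ᵥ y) ((g : Matrix ι ι F) *ᵥ v)}
      add_mem' := by
        intro u v hu hv y
        rw [h.add_right, hu y, hv y, Matrix.mulVec_add, h.add_right]
        ring
      zero_mem' := by
        intro y
        rw [h.zero_right, Matrix.mulVec_zero, h.zero_right, mul_zero]
      smul_mem' := by
        intro c v hv y
        rw [h.smul_right, hv y, Matrix.mulVec_smul, h.smul_right]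
        ring }
  have hY : Y = ⊤ := by
    apply sing_induction hQ Y he0 he hl0
    intro z hz hze y
    obtain ⟨m, hm⟩ := hp z (ne_of hze).1 hz
    rw [hm y, key3 e z he0 (ne_of hze).1 he hz l0 m hl0 hm]
  refine ⟨Units.mk0 l0⁻¹ (inv_ne_zero hl0ne), fun v => ?_⟩
  have hv : v ∈ Y := by rw [hY]; trivial
  have h1 := hv v
  rw [polar_self hQ, polar_self hQ] at h1
  have h2 := two_ne hodd
  have h3 : Q v = l0 * Q ((g : Matrix ι ι F) *ᵥ v) := by
    apply mul_left_cancel₀ h2
    linear_combination h1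
  rw [Units.val_mk0, h3, ← mul_assoc, inv_mul_cancel₀ hl0ne, one_mul]

lemma eich_mem_sim (hQ : Geo.IsNondegenerateQuadraticForm Q) {v u : ι → F} (hv : Q v = 0) (hu : bf u v = 0) :
    eich Q v u ∈ Geo.quadSimilarityGroup Q ⊓ Geo.specialLinear ι F := by
  refine ⟨⟨1, fun x => ?_⟩, eich_sl _ _⟩
  rw [eich_isometry hQ hv hu, Units.val_one, one_mul]

lemma exists_not_sim (hQ : Geo.IsNondegenerateQuadraticForm Q) (hodd : Odd (Fintype.card F))
    (hι : 3 ≤ Fintype.card ι) :
    ∃ g ∈ Geo.specialLinear ι F, g ∉ Geo.quadSimilarityGroup Q := by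
  classical
  have h := reflForm_of_quad hQ
  obtain ⟨v, hv0, hv⟩ := sing_exists hQ hodd (by omega)
  have hvv : bf v v = 0 := by rw [polar_self hQ, hv, mul_zero]
  have hφ : gvec (bf) v ⬝ᵥ v = 0 := by rw [h.gvec_dot, hvv]
  refine ⟨tv v (gvec (bf) v), det_tv _ _, ?_⟩
  rintro ⟨c, hc⟩
  have h1 : ∀ x, Q x + bf x v * bf x v = (c : F) * Q x := by
    intro x
    rw [← hc x, tv_mulVec hφ, h.gvec_dot, q_add Q, hQ.smul, hv, h.smul_right]
    simp only [RingEquiv.refl_apply]
    ring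
  obtain ⟨y, hy, hyQ⟩ := exists_nonsing_perp hQ {v} (by rw [Finset.card_singleton]; omega)
  have hyv : bf y v = 0 := hy v (by simp)
  have hc1 : (c : F) = 1 := by
    have h2 := h1 y
    rw [hyv, mul_zero, add_zero] at h2
    exact (mul_right_cancel₀ hyQ (by rw [one_mul]; exact h2)).symm
  obtain ⟨x0, hx0⟩ := h.nondeg v hv0
  have h2 := h1 x0
  rw [hc1, one_mul] at h2
  have h3 : bf x0 v * bf x0 v = 0 := by linear_combination h2
  exact hx0 (mul_self_eq_zero.mp h3)

theorem main (hQ : Geo.IsNondegenerateQuadraticForm Q) (hodd : Odd (Fintype.card F)) (hι : 9 ≤ Fintype.card ι) :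
    Geo.IsMaximalIn (Geo.specialLinear ι F) (Geo.quadSimilarityGroup Q ⊓ Geo.specialLinear ι F) := by
  classical
  have h := reflForm_of_quad hQ
  have h2ne := two_ne (F := F) hodd
  refine ⟨lt_of_le_of_ne inf_le_right ?_, ?_⟩
  · intro heq
    obtain ⟨g, hg, hg'⟩ := exists_not_sim hQ hodd (by omega)
    rw [← heq] at hg
    exact hg' hg.1
  intro M hM1 hM2
  by_cases hcase : M ≤ Geo.quadSimilarityGroup Q
  · left
    exact le_antisymm (le_inf hcase hM2) hM1
  right
  apply le_antisymm hM2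
  rw [SetLike.not_le_iff_exists] at hcase
  obtain ⟨g, hgM, hg⟩ := hcase
  have heich : ∀ v u, Q v = 0 → bf u v = 0 → eich Q v u ∈ M := fun v u hv hu => hM1 (eich_mem_sim hQ hv hu)
  have ne_of : ∀ {x y : ι → F}, bf x y ≠ 0 → x ≠ 0 ∧ y ≠ 0 := by
    intro x y hxy
    constructor
    · rintro rfl; exact hxy (h.zero_left _)
    · rintro rfl; exact hxy (h.zero_right _)
  have hsymm : ∀ {x y : ι → F}, bf x y = 0 → bf y x = 0 := fun hxy => by rw [polar_symm]; exact hxy
  -- existence of singular vectors in w^⊥ not orthogonal to u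
  have hsing : ∀ w u : ι → F, bf w u = 0 → u ∉ Submodule.span F {w} → u ≠ 0 →
      ∃ z, Q z = 0 ∧ bf w z = 0 ∧ bf z u ≠ 0 := by
    intro w u hwu huw hu0
    -- a vector x0 with f(w, x0) ≠ 0 if w ≠ 0
    obtain ⟨x0, hx0⟩ : ∃ x0, w = 0 ∨ bf x0 w ≠ 0 := by
      by_cases hw : w = 0
      · exact ⟨0, Or.inl hw⟩
      · obtain ⟨x0, hx0⟩ := h.nondeg w hw
        exact ⟨x0, Or.inr hx0⟩
    have hfr := h.finrank_perp {w, u, x0}
    have hcard : ({w, u, x0} : Finset (ι → F)).card ≤ 3 := Finset.card_le_three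
    obtain ⟨e, heY, he0, he⟩ := sing_in hQ hodd (h.perp {w, u, x0}) (by omega)
    have hew : bf e w = 0 := heY w (by simp)
    have heu : bf e u = 0 := heY u (by simp)
    have hex0 : bf e x0 = 0 := heY x0 (by simp)
    have hespan : e ∉ Submodule.span F {w} := by
      intro hmem
      obtain ⟨c, hc⟩ := Submodule.mem_span_singleton.mp hmem
      have hc0 : c ≠ 0 := by
        rintro rfl
        apply he0
        rw [← hc, zero_smul]
      rcases hx0 with hx0 | hx0
      · apply he0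
        rw [← hc, hx0, smul_zero]
      rw [← hc, h.smul_left] at hex0
      rcases mul_eq_zero.mp hex0 with h1 | h1
      · exact hc0 h1
      · exact hx0 (hsymm h1)
    have h1 := h.exists_perp_not_orth {w} (x := u) (by simpa using huw)
    have h2 := h.exists_perp_not_orth {w} (x := e) (by simpa using hespan)
    obtain ⟨z1, hz1, hz1u, hz1e⟩ := h.exists_common_in _ h1 h2
    have hz1w : bf z1 w = 0 := hz1 w (by simp)
    refine ⟨_, sing_adj hQ he hz1e, ?_, ?_⟩
    · rw [h.add_right, h.smul_right, hsymm hz1w, hsymm hew, mul_zero, add_zero]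
    · rwa [h.add_left, h.smul_left, heu, mul_zero, add_zero]
  -- Step 1
  have step1 : ∃ w u : ι → F, w ≠ 0 ∧ bf w u = 0 ∧ tv w (gvec (bf) u) ∈ M ∧ u ∉ Submodule.span F {w} := by
    -- a singular v with a0 ∉ F w
    have hv : ∃ v a0 : ι → F, v ≠ 0 ∧ Q v = 0 ∧
        (∀ x, bf (((g⁻¹ : GL ι F) : Matrix ι ι F) *ᵥ x) v = bf x a0) ∧
        a0 ∉ Submodule.span F {(g : Matrix ι ι F) *ᵥ v} := by
      by_contra hcon
      push Not at hcon
      apply hg
      apply sim_of_prop hQ hodd (by omega)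
      intro v hv0 hv
      obtain ⟨a0, ha0⟩ := h.gvec_surj ((gvec (bf) v) ᵥ* ((g⁻¹ : GL ι F) : Matrix ι ι F))
      have ha0' : ∀ x, bf (((g⁻¹ : GL ι F) : Matrix ι ι F) *ᵥ x) v = bf x a0 := by
        intro x
        rw [← h.gvec_dot, ← h.gvec_dot, ha0, vecMul_inv_dot]
      obtain ⟨c, hc⟩ := Submodule.mem_span_singleton.mp (hcon v a0 hv0 hv ha0')
      refine ⟨c, fun y => ?_⟩
      have h1 := ha0' ((g : Matrix ι ι F) *ᵥ y)
      rw [gl_inv_mulVec_mulVec, ← hc, h.smul_right] at h1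
      exact h1
    obtain ⟨v, a0, hv0, hvQ, ha0, ha0w⟩ := hv
    set w : ι → F := (g : Matrix ι ι F) *ᵥ v with hw
    have hw0 : w ≠ 0 := gl_mulVec_ne_zero g hv0
    have hginvw : ((g⁻¹ : GL ι F) : Matrix ι ι F) *ᵥ w = v := by rw [hw, gl_inv_mulVec_mulVec]
    have hvv : bf v v = 0 := by rw [polar_self hQ, hvQ, mul_zero]
    have hwa0 : bf w a0 = 0 := by rw [← ha0, hginvw, hvv]
    have ha00 : a0 ≠ 0 := by
      rintro rfl
      exact ha0w (Submodule.zero_mem _)
    -- h
    obtain ⟨v1, hv1, hwv1, hv1a0⟩ := hsing w a0 hwa0 ha0w ha00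
    have hu1 : ∃ u1, bf u1 w = 0 ∧ bf u1 v1 = 0 ∧
        u1 ∉ Submodule.span F (({a0, w, v1} : Finset (ι → F)) : Set (ι → F)) := by
      by_contra hcon
      push Not at hcon
      have hfr := h.finrank_perp {w, v1}
      have hcard : ({w, v1} : Finset (ι → F)).card ≤ 2 := Finset.card_le_two
      have hle : h.perp {w, v1} ≤ Submodule.span F (({a0, w, v1} : Finset (ι → F)) : Set (ι → F)) := by
        intro x hx
        exact hcon x (hx w (by simp)) (hx v1 (by simp))
      have h1 := Submodule.finrank_mono hle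
      have h2 : Module.finrank F (Submodule.span F (({a0, w, v1} : Finset (ι → F)) : Set (ι → F))) ≤ 3 :=
        (finrank_span_finset_le_card (R := F) _).trans Finset.card_le_three
      omega
    obtain ⟨u1, hu1w, hu1v1, hu1span⟩ := hu1
    set k : GL ι F := eich Q v1 u1 with hk
    have hkM : k ∈ M := heich v1 u1 hv1 hu1v1
    have hkmul : ∀ x, (k : Matrix ι ι F) *ᵥ x = x + bf x v1 • u1 - (bf x u1 + Q u1 * bf x v1) • v1 :=
      fun x => eich_mulVec hQ hv1 hu1v1 x
    have hkiso : ∀ x y, bf ((k : Matrix ι ι F) *ᵥ x) ((k : Matrix ι ι F) *ᵥ y) = bf x y :=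
      fun x y => eich_isometry2 hQ hv1 hu1v1 x y
    have hkw : (k : Matrix ι ι F) *ᵥ w = w := by
      rw [hkmul, hwv1, hsymm hu1w]; simp
    have hkinvw : ((k⁻¹ : GL ι F) : Matrix ι ι F) *ᵥ w = w := by
      conv_lhs => rw [← hkw]
      rw [gl_inv_mulVec_mulVec]
    set b0 : ι → F := (k : Matrix ι ι F) *ᵥ a0 with hb0
    have hkinv : ∀ x y, bf (((k⁻¹ : GL ι F) : Matrix ι ι F) *ᵥ x) y = bf x ((k : Matrix ι ι F) *ᵥ y) := by
      intro x y
      rw [← hkiso, gl_mulVec_inv_mulVec]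
    have hwb0 : bf w b0 = 0 := by rw [hb0, ← hkinv, hkinvw, hwa0]
    have ha0v1 : bf a0 v1 ≠ 0 := fun h0 => hv1a0 (hsymm h0)
    have hindep : ∀ s t r : F, s ≠ 0 → t • a0 - s • b0 ≠ r • w := by
      intro s t r hs heq
      apply hu1span
      rw [hb0, hkmul] at heq
      have h1 : (s * bf a0 v1) • u1 = (t - s) • a0 + (-r) • w + (s * (bf a0 u1 + Q u1 * bf a0 v1)) • v1 := by
        have h2 : r • w = t • a0 - s • (a0 + bf a0 v1 • u1 - (bf a0 u1 + Q u1 * bf a0 v1) • v1) := heq.symm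
        rw [neg_smul, h2]
        module
      have h3 : u1 = (s * bf a0 v1)⁻¹ • ((t - s) • a0 + (-r) • w + (s * (bf a0 u1 + Q u1 * bf a0 v1)) • v1) := by
        rw [← h1, smul_smul, inv_mul_cancel₀ (mul_ne_zero hs ha0v1), one_smul]
      rw [h3]
      apply Submodule.smul_mem
      apply Submodule.add_mem
      apply Submodule.add_mem
      · exact Submodule.smul_mem _ _ (Submodule.subset_span (by simp))
      · exact Submodule.smul_mem _ _ (Submodule.subset_span (by simp))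
      · exact Submodule.smul_mem _ _ (Submodule.subset_span (by simp))
    -- y, y'
    have hyy : ∃ y y', bf y a0 = 0 ∧ bf y b0 = 0 ∧ bf y' a0 = 0 ∧ bf y' b0 = 0 ∧
        bf (((g⁻¹ : GL ι F) : Matrix ι ι F) *ᵥ y') (((g⁻¹ : GL ι F) : Matrix ι ι F) *ᵥ y) ≠ 0 := by
      by_contra hcon
      push Not at hcon
      obtain ⟨c1, hc1⟩ := h.gvec_surj ((gvec (bf) a0) ᵥ* (g : Matrix ι ι F))
      obtain ⟨c2, hc2⟩ := h.gvec_surj ((gvec (bf) b0) ᵥ* (g : Matrix ι ι F))
      have hc1' : ∀ x, bf x c1 = bf ((g : Matrix ι ι F) *ᵥ x) a0 := by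
        intro x
        rw [← h.gvec_dot, ← h.gvec_dot, hc1, Matrix.dotProduct_mulVec]
      have hc2' : ∀ x, bf x c2 = bf ((g : Matrix ι ι F) *ᵥ x) b0 := by
        intro x
        rw [← h.gvec_dot, ← h.gvec_dot, hc2, Matrix.dotProduct_mulVec]
      have hle : h.perp {c1, c2} ≤ Submodule.span F (({c1, c2} : Finset (ι → F)) : Set (ι → F)) := by
        intro x hx
        apply h.mem_span_of_perp
        intro y hy
        have e1 := hx c1 (by simp)
        have e2 := hx c2 (by simp)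
        have e3 := hy c1 (by simp)
        have e4 := hy c2 (by simp)
        rw [hc1'] at e1 e3
        rw [hc2'] at e2 e4
        have e5 := hcon _ _ e1 e2 e3 e4
        rwa [gl_inv_mulVec_mulVec, gl_inv_mulVec_mulVec] at e5
      have h1 := Submodule.finrank_mono hle
      have h2 : Module.finrank F (Submodule.span F (({c1, c2} : Finset (ι → F)) : Set (ι → F))) ≤ 2 :=
        (finrank_span_finset_le_card (R := F) _).trans Finset.card_le_two
      have h3 := h.finrank_perp {c1, c2}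
      have hcard : ({c1, c2} : Finset (ι → F)).card ≤ 2 := Finset.card_le_two
      omega
    obtain ⟨y, y', hya0, hyb0, hy'a0, hy'b0, hyy'⟩ := hyy
    -- the two elements
    set u : ι → F := ((g⁻¹ : GL ι F) : Matrix ι ι F) *ᵥ y with hu
    have hgu : (g : Matrix ι ι F) *ᵥ u = y := by rw [hu, gl_mulVec_inv_mulVec]
    have huv : bf u v = 0 := by rw [hu, ha0, hya0]
    set u' : ι → F := ((g⁻¹ : GL ι F) : Matrix ι ι F) *ᵥ (((k⁻¹ : GL ι F) : Matrix ι ι F) *ᵥ y') with hu'
    have hgu' : (g : Matrix ι ι F) *ᵥ u' = ((k⁻¹ : GL ι F) : Matrix ι ι F) *ᵥ y' := by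
      rw [hu', gl_mulVec_inv_mulVec]
    have hu'v : bf u' v = 0 := by rw [hu', ha0, hkinv, ← hb0, hy'b0]
    set e1 : GL ι F := g * eich Q v u * g⁻¹ with he1
    set e2 : GL ι F := k * (g * eich Q v u' * g⁻¹) * k⁻¹ with he2
    have he1M : e1 ∈ M := mul_mem (mul_mem hgM (heich v u hvQ huv)) (inv_mem hgM)
    have he2M : e2 ∈ M :=
      mul_mem (mul_mem hkM (mul_mem (mul_mem hgM (heich v u' hvQ hu'v)) (inv_mem hgM))) (inv_mem hkM)
    -- γ functions
    set γ : (ι → F) → F := fun x => bf (((g⁻¹ : GL ι F) : Matrix ι ι F) *ᵥ x) u + Q u * bf x a0 with hγ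
    set γ' : (ι → F) → F := fun x =>
      bf (((g⁻¹ : GL ι F) : Matrix ι ι F) *ᵥ (((k⁻¹ : GL ι F) : Matrix ι ι F) *ᵥ x)) u' + Q u' * bf x b0 with hγ'
    have hγadd : ∀ x y, γ (x + y) = γ x + γ y := by
      intro x y
      simp only [hγ, Matrix.mulVec_add, h.add_left]; ring
    have hγsmul : ∀ (c : F) x, γ (c • x) = c * γ x := by
      intro c x
      simp only [hγ, Matrix.mulVec_smul, h.smul_left]; ring
    have hγ'add : ∀ x y, γ' (x + y) = γ' x + γ' y := by
      intro x y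
      simp only [hγ', Matrix.mulVec_add, h.add_left]; ring
    have hγ'smul : ∀ (c : F) x, γ' (c • x) = c * γ' x := by
      intro c x
      simp only [hγ', Matrix.mulVec_smul, h.smul_left]; ring
    have hγw : γ w = 0 := by
      simp only [hγ]
      rw [hginvw, hwa0, hsymm huv]; ring
    have hγ'w : γ' w = 0 := by
      simp only [hγ']
      rw [hkinvw, hginvw, hwb0, hsymm hu'v]; ring
    have he1mul : ∀ x, (e1 : Matrix ι ι F) *ᵥ x = x + bf x a0 • y + (-γ x) • w := by
      intro x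
      rw [he1, gl_mul_mulVec, gl_mul_mulVec, eich_mulVec hQ hvQ huv, ha0, Matrix.mulVec_sub, Matrix.mulVec_add,
        Matrix.mulVec_smul, Matrix.mulVec_smul, gl_mulVec_inv_mulVec, hgu, ← hw]
      simp only [hγ, neg_smul]
      abel
    have he2mul : ∀ x, (e2 : Matrix ι ι F) *ᵥ x = x + bf x b0 • y' + (-γ' x) • w := by
      intro x
      rw [he2, gl_mul_mulVec, gl_mul_mulVec, gl_mul_mulVec, gl_mul_mulVec, eich_mulVec hQ hvQ hu'v, ha0,
        Matrix.mulVec_sub, Matrix.mulVec_add,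
        Matrix.mulVec_smul, Matrix.mulVec_smul, gl_mulVec_inv_mulVec, hgu', ← hw, Matrix.mulVec_sub, Matrix.mulVec_add,
        Matrix.mulVec_smul, Matrix.mulVec_smul, gl_mulVec_inv_mulVec, gl_mulVec_inv_mulVec, hkw, hkinv, ← hb0]
      simp only [hγ', neg_smul]
      abel
    -- commutator
    set s : F := γ y' with hs
    set t : F := γ' y with ht
    have hs0 : s ≠ 0 := by
      simp only [hs, hγ]
      rw [hy'a0, mul_zero, add_zero]
      exact hyy'
    have hc : e1 * e2 * (e2 * e1)⁻¹ = tv w (gvec (bf) (t • a0 - s • b0)) := by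
      rw [mul_inv_eq_iff_eq_mul]
      apply gl_ext
      intro x
      have hdot : gvec (bf) (t • a0 - s • b0) ⬝ᵥ w = 0 := by
        rw [h.gvec_dot, h.sub_right, h.smul_right, h.smul_right, hwa0, hwb0]; simp
      have E1 := he1mul x
      have E2 := he2mul x
      clear_value e1 e2
      rw [gl_mul_mulVec e1 e2 x, gl_mul_mulVec (tv w _) (e2 * e1) x, tv_mulVec hdot, gl_mul_mulVec e2 e1 x, h.gvec_dot]
      rw [he1mul ((e2 : Matrix ι ι F) *ᵥ x), he2mul ((e1 : Matrix ι ι F) *ᵥ x), E1, E2]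
      simp only [hγadd, hγsmul, hγ'add, hγ'smul, hγw, hγ'w, h.add_left, h.smul_left, h.sub_right, h.smul_right,
        hya0, hyb0, hy'a0, hy'b0, hwa0, hwb0, RingEquiv.refl_apply]
      rw [← hs, ← ht]
      module
    refine ⟨w, t • a0 - s • b0, hw0, ?_, ?_, ?_⟩
    · rw [h.sub_right, h.smul_right, h.smul_right, hwa0, hwb0]; simp
    · rw [← hc]
      exact mul_mem (mul_mem he1M he2M) (inv_mem (mul_mem he2M he1M))
    · intro hmem
      obtain ⟨r, hr⟩ := Submodule.mem_span_singleton.mp hmem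
      exact hindep s t r hs0 hr.symm
  obtain ⟨w, u, hw, hwu, huM, huw⟩ := step1
  -- the set U
  have hadd : ∀ x y : ι → F, bf w x = 0 → bf w y = 0 → tv w (gvec (bf) x) ∈ M → tv w (gvec (bf) y) ∈ M →
      tv w (gvec (bf) (x + y)) ∈ M := by
    intro x y hx hy hx' hy'
    rw [h.gvec_add, ← tv_mul (by rw [h.gvec_dot, hx]) (by rw [h.gvec_dot, hy])]
    exact mul_mem hx' hy'
  have hneg : ∀ x : ι → F, bf w x = 0 → tv w (gvec (bf) x) ∈ M → tv w (gvec (bf) (-x)) ∈ M := by
    intro x hx hx'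
    rw [h.gvec_neg, ← tv_inv (by rw [h.gvec_dot, hx])]
    exact inv_mem hx'
  let U : AddSubgroup (ι → F) :=
    { carrier := {x | bf w x = 0 ∧ tv w (gvec (bf) x) ∈ M}
      add_mem' := by
        rintro x y ⟨hx, hx'⟩ ⟨hy, hy'⟩
        exact ⟨by rw [h.add_right, hx, hy, add_zero], hadd x y hx hy hx' hy'⟩
      zero_mem' := ⟨h.zero_right w, by
        have : gvec (bf) (0 : ι → F) = 0 := by ext j; simp [gvec, h.zero_right]
        rw [this, tv_zero_right]; exact one_mem _⟩
      neg_mem' := by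
        rintro x ⟨hx, hx'⟩
        exact ⟨by rw [h.neg_right, hx, neg_zero], hneg x hx hx'⟩ }
  have hE : ∀ z v x : ι → F, Q z = 0 → bf v z = 0 → bf w z = 0 → bf w v = 0 → x ∈ U →
      (eich Q z v : Matrix ι ι F) *ᵥ x ∈ U := by
    rintro z v x hz hvz hwz hwv ⟨hx, hx'⟩
    have h1 : ((eich Q z v : GL ι F) : Matrix ι ι F) *ᵥ w = w := by
      rw [eich_mulVec hQ hz hvz, hwz, hwv]; simp
    have h2 := conj_tv (eich Q z v) (v := w) (φ := gvec (bf) x) (by rw [h.gvec_dot, hx])
    have h3 : gvec (bf) x ᵥ* (((eich Q z v)⁻¹ : GL ι F) : Matrix ι ι F) =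
        gvec (bf) ((eich Q z v : Matrix ι ι F) *ᵥ x) := by
      apply dotProduct_eq
      intro t
      rw [vecMul_inv_dot, h.gvec_dot, h.gvec_dot]
      conv_rhs => rw [← gl_mulVec_inv_mulVec (eich Q z v) t]
      rw [eich_isometry2 hQ hz hvz]
    rw [h1, h3] at h2
    refine ⟨?_, ?_⟩
    · have := eich_isometry2 hQ hz hvz w x
      rw [h1, hx] at this
      exact this
    · rw [← h2]
      exact mul_mem (mul_mem (heich z v hz hvz) hx') (inv_mem (heich z v hz hvz))
  -- F z ⊆ U for z singular non orthogonal to an element of U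
  have hT : ∀ z x : ι → F, Q z = 0 → bf w z = 0 → x ∈ U → bf x z ≠ 0 → ∀ t : F, t • z ∈ U := by
    intro z x hz hwz hx hxz t
    obtain ⟨v, hv, hvQ⟩ := exists_nonsing_perp hQ {z, w} (by
      have : ({z, w} : Finset (ι → F)).card ≤ 2 := Finset.card_le_two
      omega)
    have hvz : bf v z = 0 := hv z (by simp)
    have hvw : bf v w = 0 := hv w (by simp)
    have key : ∀ c : F, (-(2 * c ^ 2 * Q v * bf x z)) • z ∈ U := by
      intro c
      have h1 := hE z (c • v) x hz (by rw [h.smul_left, hvz, mul_zero]) hwz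
        (by rw [h.smul_right, hsymm hvw, mul_zero]) hx
      have h2 := hE z ((-c) • v) x hz (by rw [h.smul_left, hvz, mul_zero]) hwz
        (by rw [h.smul_right, hsymm hvw, mul_zero]) hx
      rw [eich_mulVec hQ hz (by rw [h.smul_left, hvz, mul_zero])] at h1 h2
      have h3 := U.sub_mem (U.sub_mem (U.add_mem h1 h2) hx) hx
      convert h3 using 1
      rw [hQ.smul, hQ.smul, h.smul_right, h.smul_right]
      simp only [RingEquiv.refl_apply]
      module
    -- t = difference of squares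
    set m : F := -(2 * Q v * bf x z) with hm
    have hm0 : m ≠ 0 := neg_ne_zero.mpr (mul_ne_zero (mul_ne_zero h2ne hvQ) hxz)
    have h1 := key ((t / m + 1) / 2)
    have h2 := key ((t / m - 1) / 2)
    have h3 := U.sub_mem h1 h2
    rw [← sub_smul] at h3
    convert h3 using 2
    have : -(2 * ((t / m + 1) / 2) ^ 2 * Q v * bf x z) - -(2 * ((t / m - 1) / 2) ^ 2 * Q v * bf x z) =
        (((t / m + 1) / 2) ^ 2 - ((t / m - 1) / 2) ^ 2) * m := by rw [hm]; ring
    rw [this]
    field_simp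
    ring
  have huU : u ∈ U := ⟨hwu, huM⟩
  have hu0 : u ≠ 0 := by
    rintro rfl
    exact huw (Submodule.zero_mem _)
  obtain ⟨z, hz, hwz, hzu⟩ := hsing w u hwu huw hu0
  have hzz : bf z z = 0 := by rw [polar_self hQ, hz, mul_zero]
  have hall_z : ∀ t : F, t • z ∈ U := hT z u hz hwz huU (fun h0 => hzu (hsymm h0))
  have hzU : z ∈ U := by have := hall_z 1; rwa [one_smul] at this
  have hzspan : z ∉ Submodule.span F {w} := by
    intro hmem
    obtain ⟨c, hc⟩ := Submodule.mem_span_singleton.mp hmem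
    rw [← hc, h.smul_left, hwu, mul_zero] at hzu
    exact hzu rfl
  obtain ⟨z', hz', hz'z⟩ := h.exists_perp_not_orth {w} (x := z) (by simpa using hzspan)
  have hwz' : bf w z' = 0 := hsymm (hz' w (by simp))
  have key : ∀ v : ι → F, bf w v = 0 → bf v z ≠ 0 → v ∈ U := by
    intro v hwv hvz
    have h1 := sing_adj hQ hz hvz
    set c : F := -Q v / bf v z with hc
    have h2 : bf (v + c • z) z ≠ 0 := by rwa [h.add_left, h.smul_left, hzz, mul_zero, add_zero]
    have h3 := hT (v + c • z) z h1 (by rw [h.add_right, h.smul_right, hwv, hwz, mul_zero, add_zero]) hzU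
      (fun h0 => h2 (hsymm h0)) 1
    rw [one_smul] at h3
    have h5 := U.sub_mem h3 (hall_z c)
    rwa [add_sub_cancel_right] at h5
  have hall : ∀ v : ι → F, bf w v = 0 → v ∈ U := by
    intro v hwv
    by_cases hvz : bf v z = 0
    · have h1 := key (v + z') (by rw [h.add_right, hwv, hwz', add_zero])
        (by rw [h.add_left, hvz, zero_add]; exact hz'z)
      have h2 := key z' hwz' hz'z
      have h3 := U.sub_mem h1 h2
      rwa [add_sub_cancel_right] at h3
    · exact key v hwv hvz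
  -- conclusion
  apply sl_le_of_irred _ (by omega) hw
  · intro φ hφ
    obtain ⟨v, rfl⟩ := h.gvec_surj φ
    rw [h.gvec_dot] at hφ
    exact (hall v hφ).2
  · intro Y hY
    by_cases hYb : Y = ⊥
    · exact Or.inl hYb
    right
    obtain ⟨y0, hy0Y, hy0⟩ := (Submodule.ne_bot_iff Y).mp hYb
    have himg : ∀ v ∈ Y, ∀ x : ι → F, Q x = 0 → bf v x ≠ 0 → x ∈ Y := by
      intro v hv x hx hvx
      obtain ⟨p, hp, hpQ⟩ := exists_nonsing_perp hQ {x} (by rw [Finset.card_singleton]; omega)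
      have hpx : bf p x = 0 := hp x (by simp)
      have hpx' : bf (-p) x = 0 := by rw [h.neg_left, hpx, neg_zero]
      have h1 := hY _ (heich x p hx hpx) v hv
      have h2 := hY _ (heich x (-p) hx hpx') v hv
      rw [eich_mulVec hQ hx hpx] at h1
      rw [eich_mulVec hQ hx hpx'] at h2
      have h3 := Y.sub_mem (Y.sub_mem (Y.add_mem h1 h2) hv) hv
      have h4 : v + bf v x • p - (bf v p + Q p * bf v x) • x + (v + bf v x • -p - (bf v (-p) + Q (-p) * bf v x) • x)
          - v - v = (-(2 * Q p * bf v x)) • x := by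
        rw [h.neg_right, q_neg hQ]
        module
      rw [h4] at h3
      have h5 := Y.smul_mem (-(2 * Q p * bf v x))⁻¹ h3
      rwa [smul_smul, inv_mul_cancel₀ (neg_ne_zero.mpr (mul_ne_zero (mul_ne_zero h2ne hpQ) hvx)), one_smul] at h5
    have hz0 : ∃ z0 ∈ Y, z0 ≠ 0 ∧ Q z0 = 0 := by
      obtain ⟨z1, hz1, -, hz1y⟩ := hsing 0 y0 (h.zero_left _) (by simpa using hy0) hy0
      exact ⟨z1, himg y0 hy0Y z1 hz1 (fun h0 => hz1y (hsymm h0)), (ne_of hz1y).1, hz1⟩
    obtain ⟨z0, hz0Y, hz00, hz0⟩ := hz0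
    exact sing_induction hQ Y hz00 hz0 hz0Y (fun x hx hxz => himg z0 hz0Y x hx (fun h0 => hxz (hsymm h0)))

/-- For a finite field F of odd order and n ≥ 13, let Q be a non-degenerate quadratic form on F^n (its polar form is non-degenerate). Then the elements of SL_n(F) that are similarities of Q (Q(gv) = c Q(v) for a non-zero scalar c depending on g) form a maximal subgroup of SL_n(F). -/
theorem result {F : Type*} [Field F] [Fintype F] (n : ℕ) (hn : 13 ≤ n) (hodd : Odd (Fintype.card F)) (Q : (Fin n → F) → F) (hQ : Cfsg.Geo.IsNondegenerateQuadraticForm Q) : Cfsg.Geo.IsMaximalIn (Cfsg.Geo.specialLinear (Fin n) F) (Cfsg.Geo.quadSimilarityGroup Q ⊓ Cfsg.Geo.specialLinear (Fin n) F) := by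
  apply main hQ hodd
  rw [Fintype.card_fin]
  omega

end Cfsg.Agent.S5644
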