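import Cfsg.Statements.S5645
import Cfsg.Agent.H12.Perp
set_option autoImplicit false
open Cfsg
namespace Cfsg.Agent.S5645

open scoped MatrixGroups Matrix
open Cfsg.Agent.H12

/-- For a finite field F and m ≥ 7, in the symplectic group Sp_2m(F) of the standard alternating form on F^(2m) (as a subgroup of GL_2m(F)), the stabiliser of any non-zero subspace on which the form vanishes identically is a maximal subgroup. -/
theorem result {F : Type*} [Field F] [Fintype F] (m : ℕ) (hm : 7 ≤ m) (W : Submodule F (Fin m ⊕ Fin m → F)) (hW0 : W ≠ ⊥) (hW : Cfsg.Geo.IsTotallySingularFor (Cfsg.sympForm m F) W) : Cfsg.Geo.IsMaximalIn (Cfsg.spGL m F) (Cfsg.Geo.subspaceStabilizer W ⊓ Cfsg.spGL m F) := by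
  classical
  set f : (Fin m ⊕ Fin m → F) → (Fin m ⊕ Fin m → F) → F := sympForm m F with hfdef
  have hf : Geo.IsSymplecticForm f := sympForm_isSymp m
  have hb := hf.bilinear
  have hr := reflForm_of_symplectic hf
  obtain ⟨w0, hw0W, hw0⟩ := (Submodule.ne_bot_iff W).mp hW0
  set P := hr.perpS W with hP
  have hWP : W ≤ P := fun x hx a ha => hW x hx a ha
  have hstvH : ∀ v ∈ P, ∀ c, stv f v c ∈ Geo.subspaceStabilizer W ⊓ spGL m F := by
    intro v hv c
    refine ⟨mem_subspaceStabilizer_iff.mpr ?_, stv_mem_spGL m v c⟩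
    intro x hx
    rw [stv_mulVec hf, hv x hx]
    simpa using hx
  obtain ⟨z, hz⟩ : ∃ z, z ∉ P := by
    obtain ⟨x, hx⟩ := hr.nondeg w0 hw0
    exact ⟨x, fun h => hx (h w0 hw0W)⟩
  refine ⟨lt_of_le_of_ne inf_le_right ?_, ?_⟩
  · intro heq
    obtain ⟨h, hh, hh2⟩ := stv_transitive hf (H := spGL m F) (fun v c => stv_mem_spGL m v c) hw0
      (w := z) (by rintro rfl; exact hz P.zero_mem)
    rw [← heq] at hh
    have := mem_subspaceStabilizer_iff.mp hh.1 w0 hw0W
    rw [hh2] at this
    exact hz (hWP this)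
  intro M hHM hMS
  by_cases hMH : M ≤ Geo.subspaceStabilizer W ⊓ spGL m F
  · left; exact le_antisymm hMH hHM
  right
  obtain ⟨g, hgM, hgH⟩ := SetLike.not_le_iff_exists.mp hMH
  have hgi : IsIsom f g := hMS hgM
  have hPfull : ∀ v ∈ P, fullc f M v := fun v hv c => hHM (hstvH v hv c)
  -- a full centre outside P
  obtain ⟨x0, hx0P, hx0⟩ : ∃ x, x ∉ P ∧ fullc f M x := by
    by_contra hcon
    push Not at hcon
    apply hgH
    refine ⟨mem_subspaceStabilizer_iff.mpr ?_, hMS hgM⟩
    apply hr.isom_of_perpS hgi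
    intro v hv
    by_contra hne
    exact hcon _ hne (fullc_image hf (hPfull v hv) hgM hgi)
  -- translate by P
  have htr : ∀ x, x ∉ P → fullc f M x → ∀ v ∈ P, fullc f M (x + v) := by
    intro x hxP hx v hv
    by_cases hxv : f x v = 0
    · have hxW : x ∉ W := fun h => hxP (hWP h)
      have hxvW : x + v ∉ W := by
        intro h
        apply hxP
        have := P.sub_mem (hWP h) hv
        rwa [add_sub_cancel_right] at this
      obtain ⟨y, hyP, hy1, hy2⟩ := hr.exists_common_in P (hr.exists_perpS_of_notMem hxW)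
        (hr.exists_perpS_of_notMem hxvW)
      have hy1' : f x y ≠ 0 := by rw [hf.skew]; exact neg_ne_zero.mpr hy1
      have h1 : fullc f M (x + y) := fullc_add' hf hx (hPfull y hyP) hy1'
      have h2 : f (x + y) (v - y) ≠ 0 := by
        have : f (x + y) (v - y) = f y (x + v) := by
          rw [bil_sub_right hb, hb.add_left, hb.add_left, hf.alternating, hxv, hb.add_right, hf.skew x y]
          ring
        rw [this]; exact hy2
      have h3 := fullc_add' hf h1 (hPfull _ (P.sub_mem hv hyP)) h2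
      have h4 : x + y + (v - y) = x + v := by abel
      rwa [h4] at h3
    · exact fullc_add' hf hx (hPfull v hv) hxv
  have htr' : ∀ x, x ∉ P → fullc f M x → ∀ y, ∀ c : F, y - c • x ∈ P → fullc f M y := by
    intro x hxP hx y c hy
    by_cases hc : c = 0
    · rw [hc, zero_smul, sub_zero] at hy
      exact hPfull y hy
    have hcx : c • x ∉ P := by
      intro h
      apply hxP
      have := P.smul_mem c⁻¹ h
      rwa [smul_smul, inv_mul_cancel₀ hc, one_smul] at this
    have := htr (c • x) hcx (fullc_smul hf hx c) _ hy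
    rwa [add_sub_cancel] at this
  apply eq_spGL_of_fullc hMS
  intro y
  by_cases hyP : y ∈ P
  · exact hPfull y hyP
  by_cases hdep : ∃ c : F, y - c • x0 ∈ P
  · obtain ⟨c, hc⟩ := hdep
    exact htr' x0 hx0P hx0 y c hc
  push Not at hdep
  -- find w ∈ W with f w x0 = f w y ≠ 0
  obtain ⟨w1, hw1W, hw1⟩ : ∃ w ∈ W, f w x0 ≠ 0 := by
    by_contra hcon
    push Not at hcon
    apply hx0P
    exact (hr.mem_perpS').mpr hcon
  obtain ⟨w, hwW, hwx, hwy⟩ : ∃ w ∈ W, f w x0 ≠ 0 ∧ f w (y - x0) = 0 := by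
    -- w2 with f w2 (y - c x0) ≠ 0 where c = f w1 y / f w1 x0
    have h1 := hdep (f w1 y / f w1 x0)
    rw [hP, hr.mem_perpS'] at h1
    push Not at h1
    obtain ⟨w2, hw2W, hw2⟩ := h1
    rw [bil_sub_right hb, hb.smul_right] at hw2
    -- w = a w1 + b w2
    set D := f w1 x0 * f w2 y - f w1 y * f w2 x0 with hD
    have hDne : D ≠ 0 := by
      intro h
      apply hw2
      field_simp
      linear_combination h
    refine ⟨(f w2 (y - x0)) • w1 - (f w1 (y - x0)) • w2, W.sub_mem (W.smul_mem _ hw1W) (W.smul_mem _ hw2W), ?_, ?_⟩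
    · rw [bil_sub_left hb, hb.smul_left, hb.smul_left, bil_sub_right hb, bil_sub_right hb]
      have : (f w2 y - f w2 x0) * f w1 x0 - (f w1 y - f w1 x0) * f w2 x0 = D := by rw [hD]; ring
      rw [this]; exact hDne
    · rw [bil_sub_left hb, hb.smul_left, hb.smul_left]
      ring
  -- scale w so that f w x0 = 1
  set w' := (f w x0)⁻¹ • w with hw'
  have hw'W : w' ∈ W := W.smul_mem _ hwW
  have h1 : f w' x0 = 1 := by rw [hw', hb.smul_left, inv_mul_cancel₀ hwx]
  have h2 : f w' (y - x0) = 0 := by rw [hw', hb.smul_left, hwy, mul_zero]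
  set u := y - x0 with hu
  -- the element x ↦ x + f u x w' + f w' x u
  have hE : ∀ x, ((stv f (u + w') 1 * (stv f u (-1) * stv f w' (-1)) : GL (Fin m ⊕ Fin m) F) : Matrix _ _ F) *ᵥ x =
      x + f u x • w' + f w' x • u := by
    intro x
    have h3 : f u w' = 0 := by rw [hf.skew, h2, neg_zero]
    rw [gl_mul_mulVec, gl_mul_mulVec, stv_mulVec hf, stv_mulVec hf, stv_mulVec hf]
    simp only [hb.add_left, hb.add_right, hb.smul_right, hf.alternating, h2, h3]
    module
  set E : GL (Fin m ⊕ Fin m) F := stv f (u + w') 1 * (stv f u (-1) * stv f w' (-1)) with hEdef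
  have hEi : IsIsom f E := (isIsom_stv hf _ _).mul ((isIsom_stv hf _ _).mul (isIsom_stv hf _ _))
  have hEM : E ∈ M := by
    apply hHM
    refine ⟨mem_subspaceStabilizer_iff.mpr ?_, hEi⟩
    intro x hx
    rw [hE, hW w' hw'W x hx, zero_smul, add_zero]
    exact W.add_mem hx (W.smul_mem _ hw'W)
  have h3 := fullc_image hf hx0 hEM hEi
  rw [hE, h1, one_smul] at h3
  have h4 : x0 + f u x0 • w' + u = y + f u x0 • w' := by rw [hu]; abel
  rw [h4] at h3
  have h5 : y + f u x0 • w' ∉ P := by
    intro h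
    apply hyP
    have := P.sub_mem h (P.smul_mem (f u x0) (hWP hw'W))
    rwa [add_sub_cancel_right] at this
  apply htr' _ h5 h3 y 1
  rw [one_smul]
  have : y - (y + f u x0 • w') = - (f u x0 • w') := by abel
  rw [this]
  exact P.neg_mem (P.smul_mem _ (hWP hw'W))

end Cfsg.Agent.S5645
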