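import Cfsg.Statements.S5646
import Cfsg.Agent.H12.Perp
set_option autoImplicit false
open Cfsg
namespace Cfsg.Agent.S5646

open scoped MatrixGroups Matrix
open Cfsg.Agent.H12

/-- For a finite field F and m ≥ 7, in the symplectic group Sp_2m(F) of the standard alternating form on F^(2m), the stabiliser of any non-zero subspace W on which the form is non-degenerate and with dim W < m is a maximal subgroup. -/
theorem result {F : Type*} [Field F] [Fintype F] (m : ℕ) (hm : 7 ≤ m) (W : Submodule F (Fin m ⊕ Fin m → F)) (hW0 : W ≠ ⊥) (hW : Cfsg.Geo.IsNondegenerateOn (Cfsg.sympForm m F) W) (hdim : Module.finrank F W < m) : Cfsg.Geo.IsMaximalIn (Cfsg.spGL m F) (Cfsg.Geo.subspaceStabilizer W ⊓ Cfsg.spGL m F) := by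
  classical
  set f : (Fin m ⊕ Fin m → F) → (Fin m ⊕ Fin m → F) → F := sympForm m F with hfdef
  have hf : Geo.IsSymplecticForm f := sympForm_isSymp m
  have hb := hf.bilinear
  have hr := reflForm_of_symplectic hf
  obtain ⟨w0, hw0W, hw0⟩ := (Submodule.ne_bot_iff W).mp hW0
  set P := hr.perpS W with hP
  have hPnd : Geo.IsNondegenerateOn f P := hr.nondeg_perpS hW
  have hfr := hr.finrank_perpS_of_nondeg hW
  rw [← hP] at hfr
  have hcard : Fintype.card (Fin m ⊕ Fin m) = 2 * m := by simp; ring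
  have hWPdim : Module.finrank F W < Module.finrank F P := by omega
  have hWP : W ⊓ P = ⊥ := hr.inf_perpS_of_nondeg hW
  have hP0 : P ≠ ⊥ := by
    intro h
    rw [h, finrank_bot] at hWPdim
    omega
  obtain ⟨p0, hp0P, hp0⟩ := (Submodule.ne_bot_iff P).mp hP0
  have hWPorth : ∀ a ∈ W, ∀ b ∈ P, f a b = 0 := fun a ha b hb => hr.symm_zero.mp (hb a ha)
  have hPWorth : ∀ a ∈ P, ∀ b ∈ W, f a b = 0 := fun a ha b hb => ha b hb
  have hstvP : ∀ v ∈ P, ∀ c, stv f v c ∈ Geo.subspaceStabilizer W ⊓ spGL m F := by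
    intro v hv c
    refine ⟨mem_subspaceStabilizer_iff.mpr ?_, stv_mem_spGL m v c⟩
    intro x hx
    rw [stv_mulVec hf, hv x hx]
    simpa using hx
  have hstvW : ∀ v ∈ W, ∀ c, stv f v c ∈ Geo.subspaceStabilizer W ⊓ spGL m F := by
    intro v hv c
    refine ⟨mem_subspaceStabilizer_iff.mpr ?_, stv_mem_spGL m v c⟩
    intro x hx
    rw [stv_mulVec hf]
    exact W.add_mem hx (W.smul_mem _ hv)
  refine ⟨lt_of_le_of_ne inf_le_right ?_, ?_⟩
  · intro heq
    obtain ⟨h, hh, hh2⟩ := stv_transitive hf (H := spGL m F) (fun v c => stv_mem_spGL m v c) hw0 hp0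
    rw [← heq] at hh
    have := mem_subspaceStabilizer_iff.mp hh.1 w0 hw0W
    rw [hh2] at this
    have h1 : p0 ∈ W ⊓ P := ⟨this, hp0P⟩
    rw [hWP] at h1
    exact hp0 ((Submodule.mem_bot F).mp h1)
  intro M hHM hMS
  by_cases hMH : M ≤ Geo.subspaceStabilizer W ⊓ spGL m F
  · left; exact le_antisymm hMH hHM
  right
  obtain ⟨g, hgM, hgH⟩ := SetLike.not_le_iff_exists.mp hMH
  have hgi : IsIsom f g := hMS hgM
  have hPfull : ∀ v ∈ P, fullc f M v := fun v hv c => hHM (hstvP v hv c)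
  have hWfull : ∀ v ∈ W, fullc f M v := fun v hv c => hHM (hstvW v hv c)
  -- a full centre outside P ∪ W
  obtain ⟨x0, hx0P, hx0W, hx0⟩ : ∃ x, x ∉ P ∧ x ∉ W ∧ fullc f M x := by
    by_contra hcon
    push Not at hcon
    apply hgH
    refine ⟨mem_subspaceStabilizer_iff.mpr ?_, hMS hgM⟩
    apply hr.isom_of_perpS hgi
    rw [← hP]
    -- images of P lie in P ∪ W
    have h1 : ∀ v ∈ P, (g : Matrix _ _ F) *ᵥ v ∈ P ∨ (g : Matrix _ _ F) *ᵥ v ∈ W := by
      intro v hv
      by_contra hne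
      push Not at hne
      exact hcon _ hne.1 hne.2 (fullc_image hf (hPfull v hv) hgM hgi)
    -- either all in P or all in W
    by_cases hall : ∀ v ∈ P, (g : Matrix _ _ F) *ᵥ v ∈ P
    · exact hall
    exfalso
    push Not at hall
    obtain ⟨v1, hv1P, hv1⟩ := hall
    have hv1W : (g : Matrix _ _ F) *ᵥ v1 ∈ W := (h1 v1 hv1P).resolve_left hv1
    have hallW : ∀ v ∈ P, (g : Matrix _ _ F) *ᵥ v ∈ W := by
      intro v hv
      rcases h1 v hv with h2 | h2
      · rcases h1 (v1 + v) (P.add_mem hv1P hv) with h3 | h3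
        · exfalso
          apply hv1
          rw [Matrix.mulVec_add] at h3
          have := P.sub_mem h3 h2
          rwa [add_sub_cancel_right] at this
        · rw [Matrix.mulVec_add] at h3
          have := W.sub_mem h3 hv1W
          rwa [add_sub_cancel_left] at this
      · exact h2
    -- dimension contradiction
    let L : P →ₗ[F] W :=
      { toFun := fun v => ⟨(g : Matrix _ _ F) *ᵥ (v : Fin m ⊕ Fin m → F), hallW v v.2⟩
        map_add' := by intro a b; ext1; simp [Matrix.mulVec_add]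
        map_smul' := by intro c a; ext1; simp [Matrix.mulVec_smul] }
    have hinj : Function.Injective L := by
      intro a b hab
      have h1 : (g : Matrix (Fin m ⊕ Fin m) (Fin m ⊕ Fin m) F) *ᵥ (a : Fin m ⊕ Fin m → F) =
          (g : Matrix (Fin m ⊕ Fin m) (Fin m ⊕ Fin m) F) *ᵥ (b : Fin m ⊕ Fin m → F) :=
        congrArg Subtype.val hab
      apply Subtype.ext
      rw [← gl_inv_mulVec_mulVec g (a : Fin m ⊕ Fin m → F), h1, gl_inv_mulVec_mulVec]
    have := LinearMap.finrank_le_finrank_of_injective hinj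
    omega
  -- all vectors a + b, a ∈ W, b ∈ P
  obtain ⟨a0, ha0, b0, hb0, hab⟩ := hr.decomp_of_nondeg hW x0
  have ha0' : a0 ≠ 0 := by
    rintro rfl
    rw [zero_add] at hab
    exact hx0P (hab ▸ hb0)
  have hb0' : b0 ≠ 0 := by
    rintro rfl
    rw [add_zero] at hab
    exact hx0W (hab ▸ ha0)
  apply eq_spGL_of_fullc hMS
  intro y
  obtain ⟨a, ha, b, hb', hy⟩ := hr.decomp_of_nondeg hW y
  by_cases ha' : a = 0
  · rw [← hy, ha', zero_add]; exact hPfull b hb'
  by_cases hb'' : b = 0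
  · rw [← hy, hb'', add_zero]; exact hWfull a ha
  obtain ⟨g1, hg1, e1⟩ := stv_trans_on hf (H := (Geo.subspaceStabilizer W ⊓ spGL m F) ⊓ fixer (P : Set _)) hW
    (fun v hv c => ⟨hstvW v hv c, fun x hx => stv_fix hf c (hWPorth v hv x hx)⟩) ha0 ha ha0' ha'
  obtain ⟨g2, hg2, e2⟩ := stv_trans_on hf (H := (Geo.subspaceStabilizer W ⊓ spGL m F) ⊓ fixer (W : Set _)) hPnd
    (fun v hv c => ⟨hstvP v hv c, fun x hx => stv_fix hf c (hPWorth v hv x hx)⟩) hb0 hb' hb0' hb''
  have h1 := fullc_image hf hx0 (hHM hg1.1) hg1.1.2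
  have h2 := fullc_image hf h1 (hHM hg2.1) hg2.1.2
  rw [← hab, Matrix.mulVec_add, e1, hg1.2 b0 hb0, Matrix.mulVec_add, e2, hg2.2 a ha, hy] at h2
  exact h2

end Cfsg.Agent.S5646
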