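import Cfsg.Statements.S5647
import Cfsg.Agent.H12.SympSwap
set_option autoImplicit false
open Cfsg
namespace Cfsg.Agent.S5647

open scoped MatrixGroups Matrix
open Cfsg.Agent.H12

section gen

variable {ι : Type} [Fintype ι] [DecidableEq ι] {F : Type*} [Field F]
variable {f : (ι → F) → (ι → F) → F} {t k : ℕ} {D : Fin t → Submodule F (ι → F)}

lemma exists_comp (hD : Geo.IsNondegenerateMDecomposition f k D) (x : ι → F) :
    ∃ c : Fin t → ι → F, (∀ i, c i ∈ D i) ∧ ∑ i, c i = x := by
  have hx : x ∈ iSup D := by rw [hD.decomp.iSup_eq_top]; trivial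
  rw [Submodule.mem_iSup_iff_exists_finsupp] at hx
  obtain ⟨c, hc, hs⟩ := hx
  refine ⟨c, hc, ?_⟩
  rw [← hs, Finsupp.sum_fintype]
  intro i; rfl

lemma not_mem_of_two (hf : Geo.IsSymplecticForm f) (hD : Geo.IsNondegenerateMDecomposition f k D) {a b s : Fin t}
    (hab : a ≠ b) {x y : ι → F} (hx : x ∈ D a) (hy : y ∈ D b) (hxy : x + y ∈ D s) : x = 0 ∨ y = 0 := by
  have hb := hf.bilinear
  by_cases hsa : s = a
  · right
    by_contra hy0
    obtain ⟨⟨z, hz, hzy⟩, -⟩ := hD.nondegenerate b y hy hy0
    apply hzy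
    have h1 : f z (x + y) = 0 := hD.orthogonal b s (by rw [hsa]; exact hab.symm) z hz _ hxy
    rw [hb.add_right, hD.orthogonal b a hab.symm z hz x hx, zero_add] at h1
    exact h1
  · left
    by_contra hx0
    obtain ⟨⟨z, hz, hzx⟩, -⟩ := hD.nondegenerate a x hx hx0
    apply hzx
    have h1 : f z (x + y) = 0 := hD.orthogonal a s (fun h => hsa h.symm) z hz _ hxy
    rw [hb.add_right, hD.orthogonal a b hab z hz y hy, add_zero] at h1
    exact h1

lemma exists_ne_zero (hD : Geo.IsNondegenerateMDecomposition f k D) (i : Fin t) : ∃ x ∈ D i, x ≠ 0 := by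
  have h1 := hD.decomp.finrank_eq i
  have h2 := hD.decomp.pos
  have h3 : D i ≠ ⊥ := by
    intro h
    rw [h, finrank_bot] at h1
    omega
  exact (Submodule.ne_bot_iff _).mp h3

lemma stv_mem_dec (hf : Geo.IsSymplecticForm f) (hD : Geo.IsNondegenerateMDecomposition f k D) {i : Fin t}
    {v : ι → F} (hv : v ∈ D i) (c : F) : stv f v c ∈ Geo.decompositionStabilizer D := by
  refine ⟨1, fun j => ?_⟩
  apply map_eq_of_maps _ rfl
  intro x hx
  rw [stv_mulVec hf]
  by_cases hij : i = j
  · subst hij
    exact (D i).add_mem hx ((D i).smul_mem _ hv)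
  · rw [hD.orthogonal i j hij v hv x hx]
    simpa using hx

/-- elements whose images of the summands lie in the union of the summands -/
lemma mem_dec_of_union (hf : Geo.IsSymplecticForm f) (hD : Geo.IsNondegenerateMDecomposition f k D) {g : GL ι F}
    (h : ∀ i, ∀ v ∈ D i, ∃ j, (g : Matrix ι ι F) *ᵥ v ∈ D j) : g ∈ Geo.decompositionStabilizer D := by
  have h1 : ∀ i, ∃ j, ∀ v ∈ D i, (g : Matrix ι ι F) *ᵥ v ∈ D j := by
    intro i
    obtain ⟨v0, hv0, hv0'⟩ := exists_ne_zero hD i
    obtain ⟨j, hj⟩ := h i v0 hv0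
    refine ⟨j, fun v hv => ?_⟩
    obtain ⟨l, hl⟩ := h i v hv
    by_cases hlj : l = j
    · rw [← hlj]; exact hl
    obtain ⟨s, hs⟩ := h i (v0 + v) ((D i).add_mem hv0 hv)
    rw [Matrix.mulVec_add] at hs
    rcases not_mem_of_two hf hD (fun h => hlj h.symm) hj hl hs with h2 | h2
    · exact absurd h2 (gl_mulVec_ne_zero g hv0')
    · rw [h2]; exact (D j).zero_mem
  choose τ hτ using h1
  have hmap : ∀ i, (D i).map (Matrix.toLin' (g : Matrix ι ι F)) = D (τ i) := fun i =>
    map_eq_of_maps (hτ i) (by rw [hD.decomp.finrank_eq, hD.decomp.finrank_eq])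
  have hinj : Function.Injective τ := by
    intro i j hij
    by_contra hne
    obtain ⟨v, hv, hv0⟩ := exists_ne_zero hD i
    have h2 : (g : Matrix ι ι F) *ᵥ v ∈ (D j).map (Matrix.toLin' (g : Matrix ι ι F)) := by
      rw [hmap, ← hij]; exact hτ i v hv
    obtain ⟨w, hw, hw'⟩ := h2
    have h3 : w = v := by
      have h4 : (g : Matrix ι ι F) *ᵥ w = (g : Matrix ι ι F) *ᵥ v := hw'
      rw [← gl_inv_mulVec_mulVec g w, h4, gl_inv_mulVec_mulVec]
    obtain ⟨-, z, hz, hz'⟩ := hD.nondegenerate i v hv hv0
    apply hz'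
    have h5 : w ∈ D j := hw
    rw [h3] at h5
    exact hD.orthogonal j i (fun h => hne h.symm) v h5 z hz
  refine ⟨Equiv.ofBijective τ ((Finite.injective_iff_bijective).mp hinj), hmap⟩

/-- swap elements -/
lemma exists_swap_dec (hf : Geo.IsSymplecticForm f) (hD : Geo.IsNondegenerateMDecomposition f k D) {a c : Fin t}
    (hac : a ≠ c) : ∃ g ∈ Geo.decompositionStabilizer D, IsIsom f g ∧ (∀ x ∈ D a, (g : Matrix ι ι F) *ᵥ x ∈ D c) ∧
      (∀ x ∈ D c, (g : Matrix ι ι F) *ᵥ x ∈ D a) ∧ ∀ b, b ≠ a → b ≠ c → ∀ x ∈ D b, (g : Matrix ι ι F) *ᵥ x = x := by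
  obtain ⟨g, hgi, h1, h2, h3⟩ := exists_swap hf k (D a) (D c) (hD.nondegenerate a) (hD.nondegenerate c)
    (hD.orthogonal a c hac) (hD.decomp.finrank_eq a) (hD.decomp.finrank_eq c)
  have h4 : ∀ b, b ≠ a → b ≠ c → ∀ x ∈ D b, (g : Matrix ι ι F) *ᵥ x = x := fun b hba hbc x hx =>
    h3 x (fun y hy => hD.orthogonal b a hba x hx y hy) (fun y hy => hD.orthogonal b c hbc x hx y hy)
  refine ⟨g, ?_, hgi, h1, h2, h4⟩
  apply mem_dec_of_union hf hD
  intro i v hv
  by_cases hia : i = a
  · subst hia; exact ⟨c, h1 v hv⟩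
  by_cases hic : i = c
  · subst hic; exact ⟨a, h2 v hv⟩
  · exact ⟨i, by rw [h4 i hia hic v hv]; exact hv⟩

/-- changing components -/
lemma fullc_change (hf : Geo.IsSymplecticForm f) (hD : Geo.IsNondegenerateMDecomposition f k D)
    {M : Subgroup (GL ι F)} (hM : ∀ i, ∀ v ∈ D i, fullc f M v) (c c' : Fin t → ι → F) (hc : ∀ i, c i ∈ D i)
    (hc' : ∀ i, c' i ∈ D i) (h0 : ∀ i, c i = 0 ↔ c' i = 0) (hfull : fullc f M (∑ i, c i)) :
    fullc f M (∑ i, c' i) := by
  classical
  have key : ∀ T : Finset (Fin t), fullc f M (∑ i, if i ∈ T then c' i else c i) := by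
    intro T
    induction T using Finset.induction_on with
    | empty => simpa using hfull
    | insert a T ha ih =>
      by_cases hca : c a = 0
      · have h1 : c' a = 0 := (h0 a).mp hca
        have h2 : (∑ i, if i ∈ insert a T then c' i else c i) = ∑ i, if i ∈ T then c' i else c i := by
          apply Finset.sum_congr rfl
          intro i _
          by_cases hia : i = a
          · subst hia
            simp [ha, hca, h1]
          · simp [Finset.mem_insert, hia]
        rw [h2]; exact ih
      · have hca' : c' a ≠ 0 := fun h => hca ((h0 a).mpr h)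
        obtain ⟨g, hg, hg2⟩ := stv_trans_on hf
          (H := M ⊓ (preserving (glToMat ι F) f ⊓ fixer {x | ∃ j, j ≠ a ∧ x ∈ D j}))
          (hD.nondegenerate a)
          (fun v hv s => ⟨hM a v hv s, isIsom_stv hf v s, by
            rintro x ⟨j, hja, hx⟩
            exact stv_fix hf s (hD.orthogonal a j hja.symm v hv x hx)⟩) (hc a) (hc' a) hca hca'
        have h3 := fullc_image hf ih hg.1 hg.2.1
        have h4 : ((g : GL ι F) : Matrix ι ι F) *ᵥ (∑ i, if i ∈ T then c' i else c i) =
            ∑ i, if i ∈ insert a T then c' i else c i := by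
          rw [Matrix.mulVec_sum]
          apply Finset.sum_congr rfl
          intro i _
          by_cases hia : i = a
          · subst hia
            simp [ha, hg2]
          · have h5 : ∀ x ∈ D i, ((g : GL ι F) : Matrix ι ι F) *ᵥ x = x := fun x hx => hg.2.2 x ⟨i, hia, hx⟩
            by_cases hiT : i ∈ T
            · simp [hiT, h5 _ (hc' i)]
            · simp [hiT, hia, h5 _ (hc i)]
        rw [h4] at h3
        exact h3
  have := key Finset.univ
  simpa using this

end gen

/-- For a finite field F with q elements and m ≥ 7, let D be a decomposition of F^(2m) into t ≥ 2 pairwise orthogonal subspaces of equal dimension k on each of which the standard alternating form is non-degenerate, spanning F^(2m). Unless k = 2 and q = 2, the elements of Sp_2m(F) permuting the members of D form a maximal subgroup of Sp_2m(F). -/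
theorem result {F : Type*} [Field F] [Fintype F] (m : ℕ) (hm : 7 ≤ m) {t : ℕ} (k : ℕ) (D : Fin t → Submodule F (Fin m ⊕ Fin m → F)) (hD : Cfsg.Geo.IsNondegenerateMDecomposition (Cfsg.sympForm m F) k D) (hex : ¬ (k = 2 ∧ Fintype.card F = 2)) : Cfsg.Geo.IsMaximalIn (Cfsg.spGL m F) (Cfsg.Geo.decompositionStabilizer D ⊓ Cfsg.spGL m F) := by
  classical
  set f : (Fin m ⊕ Fin m → F) → (Fin m ⊕ Fin m → F) → F := sympForm m F with hfdef
  have hf : Geo.IsSymplecticForm f := sympForm_isSymp m
  have hb := hf.bilinear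
  have hr := reflForm_of_symplectic hf
  have ht := hD.decomp.two_le
  have hstvH : ∀ i, ∀ v ∈ D i, ∀ c, stv f v c ∈ Geo.decompositionStabilizer D ⊓ spGL m F :=
    fun i v hv c => ⟨stv_mem_dec hf hD hv c, stv_mem_spGL m v c⟩
  refine ⟨lt_of_le_of_ne inf_le_right ?_, ?_⟩
  · intro heq
    obtain ⟨va, hva, hva0⟩ := exists_ne_zero hD ⟨0, by omega⟩
    obtain ⟨vb, hvb, hvb0⟩ := exists_ne_zero hD ⟨1, by omega⟩
    have hab : (⟨0, by omega⟩ : Fin t) ≠ ⟨1, by omega⟩ := by simp
    have hne : va + vb ≠ 0 := by
      intro h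
      rcases not_mem_of_two hf hD hab hva hvb (s := ⟨0, by omega⟩) (by rw [h]; exact Submodule.zero_mem _) with h | h
      · exact hva0 h
      · exact hvb0 h
    obtain ⟨h, hh, hh2⟩ := stv_transitive hf (H := spGL m F) (fun v c => stv_mem_spGL m v c) hva0 hne
    rw [← heq] at hh
    obtain ⟨σ, hσ⟩ := hh.1
    have h1 : va + vb ∈ D (σ ⟨0, by omega⟩) := by
      rw [← hσ]
      exact ⟨va, hva, hh2⟩
    rcases not_mem_of_two hf hD hab hva hvb h1 with h | h
    · exact hva0 h
    · exact hvb0 h
  intro M hHM hMS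
  by_cases hMH : M ≤ Geo.decompositionStabilizer D ⊓ spGL m F
  · left; exact le_antisymm hMH hHM
  right
  obtain ⟨g, hgM, hgH⟩ := SetLike.not_le_iff_exists.mp hMH
  have hgi : IsIsom f g := hMS hgM
  have hDfull : ∀ i, ∀ v ∈ D i, fullc f M v := fun i v hv c => hHM (hstvH i v hv c)
  -- a full centre outside the union
  obtain ⟨x0, hx0D, hx0⟩ : ∃ x, (∀ j, x ∉ D j) ∧ fullc f M x := by
    by_contra hcon
    push Not at hcon
    apply hgH
    refine ⟨mem_dec_of_union hf hD ?_, hMS hgM⟩
    intro i v hv
    by_contra hne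
    push Not at hne
    exact hcon _ hne (fullc_image hf (hDfull i v hv) hgM hgi)
  obtain ⟨c, hcD, hc⟩ := exists_comp hD x0
  -- two non-zero components
  obtain ⟨a, b, hab, hca, hcb⟩ : ∃ a b, a ≠ b ∧ c a ≠ 0 ∧ c b ≠ 0 := by
    by_contra hcon
    push Not at hcon
    by_cases hall : ∀ i, c i = 0
    · apply hx0D ⟨0, by omega⟩
      rw [← hc, Finset.sum_eq_zero (fun i _ => hall i)]
      exact Submodule.zero_mem _
    · push Not at hall
      obtain ⟨a, ha⟩ := hall
      apply hx0D a
      rw [← hc, Finset.sum_eq_single a]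
      · exact hcD a
      · intro b _ hba
        exact hcon a b hba.symm ha
      · intro h; exact absurd (Finset.mem_univ a) h
  -- the vector v_b
  obtain ⟨vb, hvbD, hvb0, hvbc, hvbf⟩ : ∃ v ∈ D b, v ≠ 0 ∧ c b + v ≠ 0 ∧ f (c b) v = 0 := by
    by_cases hq : Fintype.card F = 2
    · -- dimension of D b at least 3
      have hk : 3 ≤ k := by
        have h1 : k ≠ 2 := fun h => hex ⟨h, hq⟩
        have h2 := hD.decomp.pos
        have h3 : k ≠ 1 := by
          intro hk1
          obtain ⟨-, z, hz, hzb⟩ := hD.nondegenerate b (c b) (hcD b) hcb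
          have h4 := finrank_eq_one_iff_of_nonzero' (K := F) (⟨c b, hcD b⟩ : D b) (by
            intro h; exact hcb (congrArg Subtype.val h))
          obtain ⟨r, hr'⟩ := h4.mp (by rw [hD.decomp.finrank_eq, hk1]) ⟨z, hz⟩
          apply hzb
          have h5 : r • c b = z := congrArg Subtype.val hr'
          rw [← h5, hb.smul_right, hf.alternating, mul_zero]
        omega
      have h1 := ReflForm.finrank_inf_ker (hr.lin (c b)) (D b)
      rw [hD.decomp.finrank_eq] at h1
      set Y : Submodule F (Fin m ⊕ Fin m → F) := D b ⊓ LinearMap.ker (hr.lin (c b)) with hY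
      have h2 : ¬ (Y ≤ Submodule.span F {c b}) := by
        intro hle
        have h3 := Submodule.finrank_mono hle
        have h4 := finrank_span_singleton (K := F) hcb
        omega
      obtain ⟨v, hvY, hv⟩ := SetLike.not_le_iff_exists.mp h2
      have hvf : f v (c b) = 0 := hvY.2
      refine ⟨v, hvY.1, ?_, ?_, ?_⟩
      · rintro rfl; exact hv (Submodule.zero_mem _)
      · intro h
        apply hv
        rw [eq_neg_of_add_eq_zero_right h]
        exact Submodule.neg_mem _ (Submodule.mem_span_singleton_self _)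
      · rw [hf.skew, hvf, neg_zero]
    · -- |F| ≥ 3: a scalar ≠ 0, -1
      have hcard : 2 < Fintype.card F := by
        have := Fintype.one_lt_card (α := F)
        omega
      obtain ⟨r, hr0, hr1⟩ : ∃ r : F, r ≠ 0 ∧ r ≠ -1 := by
        have h1 : ({0, -1} : Finset F).card < Fintype.card F :=
          lt_of_le_of_lt (Finset.card_le_two) hcard
        obtain ⟨r, hr⟩ := Finset.exists_mem_notMem_of_card_lt_card (s := {0, -1}) (t := (Finset.univ : Finset F))
          (by simpa using h1)
        simp only [Finset.mem_insert, Finset.mem_singleton, not_or] at hr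
        exact ⟨r, hr.2.1, hr.2.2⟩
      refine ⟨r • c b, (D b).smul_mem _ (hcD b), smul_ne_zero hr0 hcb, ?_, ?_⟩
      · intro h
        have h2 : (1 + r) • c b = 0 := by rw [add_smul, one_smul]; exact h
        rcases smul_eq_zero.mp h2 with h3 | h3
        · exact hr1 (by linear_combination h3)
        · exact hcb h3
      · rw [hb.smul_right, hf.alternating, mul_zero]
  obtain ⟨-, va, hvaD, hvaf⟩ := hD.nondegenerate a (c a) (hcD a) hca
  have hva0 : va ≠ 0 := by
    rintro rfl
    exact hvaf (bil_zero_right hb _)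
  have hvac : c a + va ≠ 0 := by
    intro h
    apply hvaf
    rw [eq_neg_of_add_eq_zero_right h, bil_neg_right hb, hf.alternating, neg_zero]
  -- the vector v
  let d : Fin t → Fin m ⊕ Fin m → F := fun i => if i = a then va else if i = b then vb else - c i
  have hdD : ∀ i, d i ∈ D i := by
    intro i
    simp only [d]
    split_ifs with h1 h2
    · rw [h1]; exact hvaD
    · rw [h2]; exact hvbD
    · exact (D i).neg_mem (hcD i)
  have hd0 : ∀ i, c i = 0 ↔ d i = 0 := by
    intro i
    simp only [d]
    split_ifs with h1 h2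
    · subst h1; simp [hca, hva0]
    · subst h2; simp [hcb, hvb0]
    · rw [neg_eq_zero]
  rw [← hc] at hx0
  have hdfull := fullc_change hf hD hDfull c d hcD hdD hd0 hx0
  -- f of sums
  have hfsum : ∀ p q : Fin t → Fin m ⊕ Fin m → F, (∀ i, p i ∈ D i) → (∀ i, q i ∈ D i) →
      f (∑ i, p i) (∑ i, q i) = ∑ i, f (p i) (q i) := by
    intro p q hp hq
    rw [bil_sum_right hb]
    apply Finset.sum_congr rfl
    intro j _
    rw [hf.skew, bil_sum_right hb, Finset.sum_eq_single j]
    · rw [← hf.skew]
    · intro i _ hij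
      exact hD.orthogonal j i hij.symm _ (hq j) _ (hp i)
    · intro h; exact absurd (Finset.mem_univ j) h
  have hba : b ≠ a := hab.symm
  have hfcd : f (∑ i, c i) (∑ i, d i) ≠ 0 := by
    rw [hfsum c d hcD hdD, Finset.sum_eq_single a]
    · simp only [d, if_true]; exact hvaf
    · intro i _ hia
      simp only [d, hia, if_false]
      split_ifs with h1
      · rw [h1]; exact hvbf
      · rw [bil_neg_right hb, hf.alternating, neg_zero]
    · intro h; exact absurd (Finset.mem_univ a) h
  have hw := fullc_add' hf hx0 hdfull hfcd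
  have hwsum : ∑ i, c i + ∑ i, d i = (c a + va) + (c b + vb) := by
    rw [← Finset.sum_add_distrib]
    have : ∀ i, c i + d i = if i = a then c a + va else if i = b then c b + vb else 0 := by
      intro i
      simp only [d]
      split_ifs with h1 h2
      · rw [h1]
      · rw [h2]
      · rw [add_neg_cancel]
    rw [Finset.sum_congr rfl (fun i _ => this i)]
    rw [← Finset.add_sum_erase _ _ (Finset.mem_univ a), if_pos rfl,
      Finset.sum_eq_single b]
    · rw [if_neg hba, if_pos rfl]
    · intro i hi hib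
      rw [if_neg (Finset.ne_of_mem_erase hi), if_neg hib]
    · intro h
      exact absurd (Finset.mem_erase.mpr ⟨hba, Finset.mem_univ b⟩) h
  rw [hwsum] at hw
  -- the relation E
  let E : Fin t → Fin t → Prop := fun i j => ∀ x ∈ D i, ∀ y ∈ D j, fullc f M (x + y)
  have hEab : E a b := by
    intro x hx y hy
    by_cases hx0' : x = 0
    · rw [hx0', zero_add]; exact hDfull b y hy
    by_cases hy0' : y = 0
    · rw [hy0', add_zero]; exact hDfull a x hx
    have hsum2 : ∀ p q : Fin m ⊕ Fin m → F, ∑ i, (if i = a then p else if i = b then q else 0) = p + q := by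
      intro p q
      rw [← Finset.add_sum_erase _ _ (Finset.mem_univ a), if_pos rfl, Finset.sum_eq_single b]
      · rw [if_neg hba, if_pos rfl]
      · intro i hi hib
        rw [if_neg (Finset.ne_of_mem_erase hi), if_neg hib]
      · intro h
        exact absurd (Finset.mem_erase.mpr ⟨hba, Finset.mem_univ b⟩) h
    have hmem : ∀ p q : Fin m ⊕ Fin m → F, p ∈ D a → q ∈ D b →
        ∀ i, (if i = a then p else if i = b then q else 0) ∈ D i := by
      intro p q hp hq i
      split_ifs with h1 h2
      · rw [h1]; exact hp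
      · rw [h2]; exact hq
      · exact Submodule.zero_mem _
    have := fullc_change hf hD hDfull (fun i => if i = a then c a + va else if i = b then c b + vb else 0)
      (fun i => if i = a then x else if i = b then y else 0)
      (hmem _ _ ((D a).add_mem (hcD a) hvaD) ((D b).add_mem (hcD b) hvbD)) (hmem _ _ hx hy)
      (by
        intro i
        split_ifs with h1 h2
        · simp [hvac, hx0']
        · simp [hvbc, hy0']
        · rfl)
      (by rw [hsum2]; exact hw)
    rwa [hsum2] at this
  have hEsymm : ∀ i j, E i j → E j i := by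
    intro i j h x hx y hy
    rw [add_comm]; exact h y hy x hx
  have hEmove : ∀ i j l, i ≠ j → l ≠ j → E i j → E l j := by
    intro i j l hij hlj h
    by_cases hil : i = l
    · rw [← hil]; exact h
    obtain ⟨s, hsD, hsi, h1, h2, h3⟩ := exists_swap_dec hf hD hil
    have hsM : s ∈ M := hHM ⟨hsD, hsi⟩
    intro x hx y hy
    obtain ⟨x', hx', rfl⟩ : ∃ x' ∈ D i, (s : Matrix _ _ F) *ᵥ x' = x := by
      have h4 := map_eq_of_maps h1 (by rw [hD.decomp.finrank_eq, hD.decomp.finrank_eq])
      rw [← h4] at hx
      exact hx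
    have h5 := fullc_image hf (h x' hx' y hy) hsM hsi
    rwa [Matrix.mulVec_add, h3 j hij.symm hlj.symm y hy] at h5
  have hEall : ∀ i j, i ≠ j → E i j := by
    intro i j hij
    by_cases hib : i = b
    · subst hib
      -- E a i → E i a → E j i
      by_cases hja : j = a
      · rw [hja]; exact hEsymm _ _ hEab
      · exact hEsymm _ _ (hEmove a i j hab hij.symm hEab)
    · have h1 : E i b := hEmove a b i hab hib hEab
      have h2 : E b i := hEsymm _ _ h1
      exact hEsymm _ _ (hEmove b i j (fun h => hib h.symm) hij.symm h2)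
  -- everything
  have hfin : ∀ T : Finset (Fin t), ∀ c : Fin t → Fin m ⊕ Fin m → F, (∀ i, c i ∈ D i) → fullc f M (∑ i ∈ T, c i) := by
    intro T
    induction T using Finset.induction_on with
    | empty => intro c _; simpa using fullc_zero hf M
    | insert a T ha ih =>
      intro c hc
      rw [Finset.sum_insert ha]
      by_cases hall : ∀ i ∈ T, c i = 0
      · rw [Finset.sum_eq_zero hall, add_zero]; exact hDfull a _ (hc a)
      push Not at hall
      obtain ⟨b, hbT, hcb⟩ := hall
      have hab : a ≠ b := by rintro rfl; exact ha hbT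
      obtain ⟨⟨z, hz, hzf⟩, -⟩ := hD.nondegenerate b (c b) (hc b) hcb
      have h1 : fullc f M (c a + z) := hEall a b hab _ (hc a) z hz
      have h2 := ih (fun i => if i = b then c b - z else c i) (by
        intro i
        split_ifs with h
        · rw [h]; exact (D b).sub_mem (hc b) hz
        · exact hc i)
      have h3 : (∑ i ∈ T, if i = b then c b - z else c i) = (∑ i ∈ T, c i) - z := by
        rw [← Finset.add_sum_erase _ _ hbT, if_pos rfl, ← Finset.add_sum_erase T c hbT,
          Finset.sum_congr rfl (fun i hi => if_neg (Finset.ne_of_mem_erase hi))]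
        abel
      rw [h3] at h2
      have h4 : ∀ j, j ∉ T → ∀ w ∈ D j, f w (∑ i ∈ T, c i) = 0 := by
        intro j hj w hw
        rw [bil_sum_right hb]
        apply Finset.sum_eq_zero
        intro i hi
        exact hD.orthogonal j i (by rintro rfl; exact hj hi) w hw _ (hc i)
      have h5 : f z (∑ i ∈ T, c i) = f z (c b) := by
        rw [bil_sum_right hb, Finset.sum_eq_single b]
        · intro i hi hib
          exact hD.orthogonal b i hib.symm z hz _ (hc i)
        · intro h; exact absurd hbT h
      have h6 : f (c a + z) (∑ i ∈ T, c i - z) ≠ 0 := by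
        rw [hb.add_left, bil_sub_right hb, bil_sub_right hb, h4 a ha _ (hc a), h5, hf.alternating,
          hD.orthogonal a b hab _ (hc a) z hz, sub_zero, sub_zero, zero_add]
        exact hzf
      have h7 := fullc_add' hf h1 h2 h6
      have h8 : c a + z + (∑ i ∈ T, c i - z) = c a + ∑ i ∈ T, c i := by abel
      rwa [h8] at h7
  apply eq_spGL_of_fullc hMS
  intro y
  obtain ⟨e, heD, he⟩ := exists_comp hD y
  rw [← he]
  exact hfin Finset.univ e heD

end Cfsg.Agent.S5647
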