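import Cfsg.Statements.S5648
import Cfsg.Agent.H12.DecF2

set_option autoImplicit false
open Cfsg

namespace Cfsg.Agent.S5648

open Cfsg.Agent.H12 Cfsg.Agent.H12.IsProj

/-- Over the field with 2 elements and for m ≥ 7, let D be a decomposition of F^(2m) into t pairwise orthogonal non-degenerate 2-dimensional subspaces for the standard alternating form (t = m ≥ 2). Then the elements of Sp_2m(2) permuting the members of D form a subgroup that is not maximal: some subgroup lies strictly between it and Sp_2m(2). -/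
theorem result {F : Type*} [Field F] [Fintype F] (m : ℕ) (hm : 7 ≤ m) (hq : Fintype.card F = 2) {t : ℕ} (D : Fin t → Submodule F (Fin m ⊕ Fin m → F)) (hD : Cfsg.Geo.IsNondegenerateMDecomposition (Cfsg.sympForm m F) 2 D) : ∃ K : Subgroup (Matrix.GeneralLinearGroup (Fin m ⊕ Fin m) F), Cfsg.Geo.decompositionStabilizer D ⊓ Cfsg.spGL m F < K ∧ K < Cfsg.spGL m F := by
  classical
  have hf : Geo.IsSymplecticForm (Cfsg.sympForm m F) := sympForm_isSymp m
  have hb := hf.bilinear
  obtain ⟨p, hp⟩ := exists_isProj hD.decomp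
  have ht : t = m := by
    have h1 := card_decomp hD.decomp
    rw [Fintype.card_sum, Fintype.card_fin] at h1
    omega
  obtain ⟨i0, i1, i2, h01, h02, h12⟩ : ∃ i0 i1 i2 : Fin t, i0 ≠ i1 ∧ i0 ≠ i2 ∧ i1 ≠ i2 :=
    ⟨⟨0, by omega⟩, ⟨1, by omega⟩, ⟨2, by omega⟩, by simp [Fin.ext_iff], by simp [Fin.ext_iff], by simp [Fin.ext_iff]⟩
  obtain ⟨a, ha, ha0⟩ := exists_ne_zero_dec hD.decomp i0
  obtain ⟨b, hb', hb0⟩ := exists_ne_zero_dec hD.decomp i1
  obtain ⟨c, hc, hc0⟩ := exists_ne_zero_dec hD.decomp i2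
  have hab : (Cfsg.sympForm m F) a b = 0 := hD.orthogonal i0 i1 h01 a ha b hb'
  have hac : (Cfsg.sympForm m F) a c = 0 := hD.orthogonal i0 i2 h02 a ha c hc
  have hbc : (Cfsg.sympForm m F) b c = 0 := hD.orthogonal i1 i2 h12 b hb' c hc
  have h2 := f2_two hq
  have hwa : (wt p a : F) = 1 := by rw [hp.wt_eq_one ha ha0]; simp
  have hwb : (wt p b : F) = 1 := by rw [hp.wt_eq_one hb' hb0]; simp
  have hwc : (wt p c : F) = 1 := by rw [hp.wt_eq_one hc hc0]; simp
  have hwab : (wt p (a + b) : F) = 0 := by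
    rw [wt_add hq hf hD hp, hwa, hwb, hab, add_zero, h2]
  have hwabc : (wt p (a + b + c) : F) = 1 := by
    rw [wt_add hq hf hD hp, hwab, hwc, hb.add_left, hac, hbc]; simp
  refine ⟨wgrp p ⊓ Cfsg.spGL m F, ?_, ?_⟩
  · refine lt_of_le_of_ne (inf_le_inf_right _ (stab_le_wgrp hp)) ?_
    intro heq
    have h3 : stv (Cfsg.sympForm m F) (a + b + c) 1 ∈ wgrp p ⊓ Cfsg.spGL m F :=
      Subgroup.mem_inf.2 ⟨stv_mem_wgrp hq hf hD hp hwabc, stv_mem_spGL m _ _⟩
    rw [← heq, Subgroup.mem_inf] at h3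
    obtain ⟨⟨x, hx, hxa⟩, -⟩ := hD.nondegenerate i0 a ha ha0
    have hax : (Cfsg.sympForm m F) a x = 1 := by
      refine (f2_cases hq _).resolve_left ?_
      intro h
      rw [hf.skew, h, neg_zero] at hxa
      exact hxa rfl
    obtain ⟨j, hj⟩ := exists_mem_of_stab h3.1 hx
    rw [stv_mulVec hf, hb.add_left, hb.add_left, hax, hD.orthogonal i1 i0 h01.symm b hb' x hx,
      hD.orthogonal i2 i0 h02.symm c hc x hx, add_zero, add_zero, mul_one, one_smul] at hj
    have key : ∀ i : Fin t, ∀ y ∈ D i, y ≠ 0 → ∀ z, (∀ w ∈ D i, (Cfsg.sympForm m F) w z = 0) → y + z ∈ D j → j = i := by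
      intro i y hy hy0 z hz hyz
      by_contra hne
      obtain ⟨⟨w, hw, hwy⟩, -⟩ := hD.nondegenerate i y hy hy0
      apply hwy
      have h5 := hD.orthogonal i j (Ne.symm hne) w hw _ hyz
      rw [hb.add_right, hz w hw, add_zero] at h5
      exact h5
    have k1 := key i1 b hb' hb0 (x + a + c) (by
      intro w hw
      rw [hb.add_right, hb.add_right, hD.orthogonal i1 i0 h01.symm w hw x hx, hD.orthogonal i1 i0 h01.symm w hw a ha,
        hD.orthogonal i1 i2 h12 w hw c hc]
      simp) (by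
      have : b + (x + a + c) = x + (a + b + c) := by abel
      rw [this]; exact hj)
    have k2 := key i2 c hc hc0 (x + a + b) (by
      intro w hw
      rw [hb.add_right, hb.add_right, hD.orthogonal i2 i0 h02.symm w hw x hx, hD.orthogonal i2 i0 h02.symm w hw a ha,
        hD.orthogonal i2 i1 h12.symm w hw b hb']
      simp) (by
      have : c + (x + a + b) = x + (a + b + c) := by abel
      rw [this]; exact hj)
    exact h12 (k1.symm.trans k2)
  · refine lt_of_le_of_ne inf_le_right ?_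
    intro heq
    have h3 : stv (Cfsg.sympForm m F) (a + b) 1 ∈ Cfsg.spGL m F := stv_mem_spGL m _ _
    rw [← heq, Subgroup.mem_inf] at h3
    obtain ⟨⟨x, hx, hxa⟩, -⟩ := hD.nondegenerate i0 a ha ha0
    have hax : (Cfsg.sympForm m F) a x = 1 := by
      refine (f2_cases hq _).resolve_left ?_
      intro h
      rw [hf.skew, h, neg_zero] at hxa
      exact hxa rfl
    have hxa' : (Cfsg.sympForm m F) x a = 1 := (f2_cases hq _).resolve_left hxa
    have h4 := h3.1 x
    rw [stv_mulVec hf, hb.add_left, hax, hD.orthogonal i1 i0 h01.symm b hb' x hx, add_zero, mul_one, one_smul,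
      wt_add hq hf hD hp, hwab, hb.add_right, hxa', hD.orthogonal i0 i1 h01 x hx b hb', add_zero, add_zero] at h4
    have h5 : (1 : F) = 0 := by
      have := congrArg (fun z => z - (wt p x : F)) h4
      simpa using this
    exact one_ne_zero h5

end Cfsg.Agent.S5648
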