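import Cfsg.Statements.S5649
import Cfsg.Agent.H12.SSE
import Cfsg.Agent.H12.SwapTI
set_option autoImplicit false
open Cfsg
namespace Cfsg.Agent.S5649

open scoped MatrixGroups Matrix
open Cfsg.Agent.H12

section gen

variable {ι : Type} [Fintype ι] [DecidableEq ι] {F : Type*} [Field F]

lemma le_or_le {U X Y : Submodule F (ι → F)} (h : ∀ u ∈ U, u ∈ X ∨ u ∈ Y) : U ≤ X ∨ U ≤ Y := by
  by_contra hcon
  push Not at hcon
  obtain ⟨h1, h2⟩ := hcon
  obtain ⟨u, hu, hux⟩ := SetLike.not_le_iff_exists.mp h1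
  obtain ⟨v, hv, hvy⟩ := SetLike.not_le_iff_exists.mp h2
  have huy := (h u hu).resolve_left hux
  have hvx := (h v hv).resolve_right hvy
  rcases h (u + v) (U.add_mem hu hv) with h3 | h3
  · apply hux
    have := X.sub_mem h3 hvx
    rwa [add_sub_cancel_right] at this
  · apply hvy
    have := Y.sub_mem h3 huy
    rwa [add_sub_cancel_left] at this

/-- the set-up: two complementary totally isotropic subspaces, a group `M` of isometries containing the short
root elements and no transvections -/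
structure Setup (f : (ι → F) → (ι → F) → F) (A B : Submodule F (ι → F)) (M : Subgroup (GL ι F)) : Prop where
  hf : Geo.IsSymplecticForm f
  hAA : ∀ a ∈ A, ∀ a' ∈ A, f a a' = 0
  hBB : ∀ b ∈ B, ∀ b' ∈ B, f b b' = 0
  htop : A ⊔ B = ⊤
  hbot : A ⊓ B = ⊥
  hA : 7 ≤ Module.finrank F A
  hB : 7 ≤ Module.finrank F B
  h2 : (2 : F) ≠ 0
  hM : ∀ a ∈ A, ∀ b ∈ B, f a b = 0 → sse f a b ∈ M
  hiso : ∀ g ∈ M, IsIsom f g
  hno : ∀ w c, w ≠ 0 → c ≠ 0 → stv f w c ∉ M

variable {f : (ι → F) → (ι → F) → F} {A B : Submodule F (ι → F)} {M : Subgroup (GL ι F)}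

lemma Setup.symm (S : Setup f A B M) : Setup f B A M where
  hf := S.hf
  hAA := S.hBB
  hBB := S.hAA
  htop := by rw [sup_comm]; exact S.htop
  hbot := by rw [inf_comm]; exact S.hbot
  hA := S.hB
  hB := S.hA
  h2 := S.h2
  hM := by
    intro a ha b hb hab
    rw [sse_symm S.hf hab]
    exact S.hM b hb a ha (by rw [S.hf.skew, hab, neg_zero])
  hiso := S.hiso
  hno := S.hno

lemma Setup.dec (S : Setup f A B M) (x : ι → F) : ∃ a ∈ A, ∃ b ∈ B, a + b = x := by
  have : x ∈ A ⊔ B := by rw [S.htop]; trivial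
  exact Submodule.mem_sup.mp this

lemma Setup.L1 (S : Setup f A B M) {a y : ι → F} (ha : a ∈ A) (ha0 : a ≠ 0) (hay : f a y = 0)
    (hy : sse f a y ∈ M) : y ∈ B := by
  have hf := S.hf
  have hb := hf.bilinear
  have hr := reflForm_of_symplectic hf
  obtain ⟨y0, hy0, y1, hy1, rfl⟩ := S.dec y
  have step1 : ∀ b ∈ B, f a b = 0 → f b (y0 + y1) = 0 := by
    intro b hbB hab
    by_contra hne
    exact S.hno a _ ha0 (mul_ne_zero S.h2 hne) (sse_comm_mem hf hab hay (S.hM a ha b hbB hab) hy)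
  have step2 : y0 ∈ Submodule.span F {a} := by
    by_contra hne
    obtain ⟨z, hz, hzy⟩ := hr.exists_perp_not_orth {a} (x := y0) (by simpa using hne)
    have hza : f z a = 0 := hz a (by simp)
    obtain ⟨z0, hz0, z1, hz1, rfl⟩ := S.dec z
    rw [hb.add_left, S.hAA z0 hz0 a ha, zero_add] at hza
    rw [hb.add_left, S.hAA z0 hz0 y0 hy0, zero_add] at hzy
    have h1 := step1 z1 hz1 (by rw [hf.skew, hza, neg_zero])
    rw [hb.add_right, S.hBB z1 hz1 y1 hy1, add_zero] at h1
    exact hzy h1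
  obtain ⟨c, rfl⟩ := Submodule.mem_span_singleton.mp step2
  have hay1 : f a y1 = 0 := by
    rwa [hb.add_right, hb.smul_right, hf.alternating, mul_zero, zero_add] at hay
  by_cases hc : c = 0
  · rw [hc, zero_smul, zero_add]; exact hy1
  · exfalso
    apply S.hno a (2 * c) ha0 (mul_ne_zero S.h2 hc)
    have h1 : stv f a (2 * c) = sse f a (c • a + y1) * (sse f a y1)⁻¹ := by
      rw [eq_mul_inv_iff_mul_eq]
      apply gl_ext
      intro x
      rw [gl_mul_mulVec, stv_mulVec hf, sse_mulVec hf hay, sse_mulVec hf hay1]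
      simp only [hb.add_right, hb.add_left, hb.smul_right, hb.smul_left, hf.alternating, hay1]
      module
    rw [h1]
    exact mul_mem hy (inv_mem (S.hM a ha y1 hy1 hay1))

lemma Setup.L2a (S : Setup f A B M) {w0 w1 u : ι → F} (hw0 : w0 ∈ A) (hw1 : w1 ∈ B)
    (hwu : f (w0 + w1) u = 0) (hM : sse f (w0 + w1) u ∈ M) (hw : w0 + w1 ≠ 0) :
    u ∈ A ⊔ Submodule.span F {w1} ∨ u ∈ B ⊔ Submodule.span F {w0} := by
  classical
  have hf := S.hf
  have hb := hf.bilinear
  have hr := reflForm_of_symplectic hf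
  by_contra hcon
  push Not at hcon
  obtain ⟨hc1, hc2⟩ := hcon
  obtain ⟨u0, hu0, u1, hu1, rfl⟩ := S.dec u
  have hu1' : u1 ∉ Submodule.span F {w1} := fun h => hc1 (Submodule.add_mem_sup hu0 h)
  have hu0' : u0 ∉ Submodule.span F {w0} := fun h => hc2 (by rw [add_comm]; exact Submodule.add_mem_sup hu1 h)
  -- a1
  obtain ⟨a1, ha1, ha1w, ha1u⟩ : ∃ a ∈ A, f a w1 = 0 ∧ f a u1 ≠ 0 := by
    obtain ⟨z, hz, hzy⟩ := hr.exists_perp_not_orth {w1} (x := u1) (by simpa using hu1')
    have hza : f z w1 = 0 := hz w1 (by simp)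
    obtain ⟨z0, hz0, z1, hz1, rfl⟩ := S.dec z
    rw [hb.add_left, S.hBB z1 hz1 w1 hw1, add_zero] at hza
    rw [hb.add_left, S.hBB z1 hz1 u1 hu1, add_zero] at hzy
    exact ⟨z0, hz0, hza, hzy⟩
  -- z
  obtain ⟨z, hz, hzw, hzu, hzs⟩ : ∃ z ∈ A, f z w1 = 0 ∧ f z u1 = 0 ∧ z ∉ Submodule.span F ({w0, u0} : Set (ι → F)) := by
    have h1 := ReflForm.finrank_inf_ker (hr.lin w1) A
    have h2 := ReflForm.finrank_inf_ker (hr.lin u1) (A ⊓ LinearMap.ker (hr.lin w1))
    have h3 : ¬ (A ⊓ LinearMap.ker (hr.lin w1) ⊓ LinearMap.ker (hr.lin u1) ≤ Submodule.span F ({w0, u0} : Set (ι → F))) := by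
      intro hle
      have h4 := Submodule.finrank_mono hle
      have h5 := finrank_span_finset_le_card (R := F) ({w0, u0} : Finset (ι → F))
      rw [Set.finrank, Finset.coe_insert, Finset.coe_singleton] at h5
      have h6 := Finset.card_le_two (a := w0) (b := u0)
      have h7 := S.hA
      omega
    obtain ⟨z, hz, hzs⟩ := SetLike.not_le_iff_exists.mp h3
    exact ⟨z, hz.1.1, hz.1.2, hz.2, hzs⟩
  obtain ⟨a', ha', ha'w, ha'u, ha's⟩ : ∃ a ∈ A, f a w1 = 0 ∧ f a u1 ≠ 0 ∧ a ∉ Submodule.span F ({w0, u0} : Set (ι → F)) := by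
    by_cases h : a1 ∈ Submodule.span F ({w0, u0} : Set (ι → F))
    · refine ⟨a1 + z, A.add_mem ha1 hz, ?_, ?_, ?_⟩
      · rw [hb.add_left, ha1w, hzw, add_zero]
      · rw [hb.add_left, hzu, add_zero]; exact ha1u
      · intro h'
        apply hzs
        have := Submodule.sub_mem _ h' h
        rwa [add_sub_cancel_left] at this
    · exact ⟨a1, ha1, ha1w, ha1u, h⟩
  -- b'
  have hu0s : u0 ∉ Submodule.span F ({w0, a'} : Set (ι → F)) := by
    intro h
    obtain ⟨α, β, hαβ⟩ := Submodule.mem_span_pair.mp h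
    by_cases hβ : β = 0
    · apply hu0'
      rw [← hαβ, hβ, zero_smul, add_zero]
      exact Submodule.smul_mem _ _ (Submodule.mem_span_singleton_self w0)
    · apply ha's
      rw [Submodule.mem_span_pair]
      refine ⟨-(β⁻¹ * α), β⁻¹, ?_⟩
      rw [← hαβ, smul_add, smul_smul, smul_smul, inv_mul_cancel₀ hβ, one_smul]
      module
  obtain ⟨b', hb', hb'w, hb'a, hb'u⟩ : ∃ b ∈ B, f b w0 = 0 ∧ f b a' = 0 ∧ f b u0 ≠ 0 := by
    obtain ⟨z, hz, hzy⟩ := hr.exists_perp_not_orth {w0, a'} (x := u0) (by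
      rw [Finset.coe_insert, Finset.coe_singleton]; exact hu0s)
    have hz1 : f z w0 = 0 := hz w0 (by simp)
    have hz2 : f z a' = 0 := hz a' (by simp)
    obtain ⟨z0, hz0, z1, hz1', rfl⟩ := S.dec z
    rw [hb.add_left, S.hAA z0 hz0 w0 hw0, zero_add] at hz1
    rw [hb.add_left, S.hAA z0 hz0 a' ha', zero_add] at hz2
    rw [hb.add_left, S.hAA z0 hz0 u0 hu0, zero_add] at hzy
    exact ⟨z1, hz1', hz1, hz2, hzy⟩
  have hab : f a' b' = 0 := by rw [hf.skew, hb'a, neg_zero]
  set k := sse f a' b' with hk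
  have hkM : k ∈ M := S.hM a' ha' b' hb' hab
  have hki : IsIsom f k := sse_isom hf a' b'
  have hkmul : ∀ x, (k : Matrix ι ι F) *ᵥ x = x + f a' x • b' + f b' x • a' := sse_mulVec hf hab
  have e1 : f a' (w0 + w1) = 0 := by rw [hb.add_right, S.hAA a' ha' w0 hw0, ha'w, add_zero]
  have e2 : f b' (w0 + w1) = 0 := by rw [hb.add_right, hb'w, S.hBB b' hb' w1 hw1, add_zero]
  have hkw : (k : Matrix ι ι F) *ᵥ (w0 + w1) = w0 + w1 := by rw [hkmul, e1, e2]; simp
  have e3 : f a' (u0 + u1) = f a' u1 := by rw [hb.add_right, S.hAA a' ha' u0 hu0, zero_add]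
  have e4 : f b' (u0 + u1) = f b' u0 := by rw [hb.add_right, S.hBB b' hb' u1 hu1, add_zero]
  have h1 : sse f (w0 + w1) ((k : Matrix ι ι F) *ᵥ (u0 + u1)) ∈ M := by
    have h2 := conj_sse hf hki hwu
    rw [hkw] at h2
    rw [← h2]
    exact mul_mem (mul_mem hkM hM) (inv_mem hkM)
  have h2 : f (w0 + w1) ((k : Matrix ι ι F) *ᵥ (u0 + u1)) = 0 := by
    rw [← hkw, hki]; exact hwu
  have h3 := sse_comm_mem hf hwu h2 hM h1
  have h4 : f (u0 + u1) ((k : Matrix ι ι F) *ᵥ (u0 + u1)) = -(2 * (f a' u1 * f b' u0)) := by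
    have e5 : f (u0 + u1) b' = -f b' u0 := by rw [hf.skew, e4]
    have e6 : f (u0 + u1) a' = -f a' u1 := by rw [hf.skew, e3]
    rw [hkmul, e3, e4, hb.add_right (u0 + u1) (u0 + u1 + f a' u1 • b'), hb.add_right (u0 + u1) (u0 + u1), hb.smul_right,
      hb.smul_right, hf.alternating, e5, e6]
    ring
  apply S.hno _ _ hw _ h3
  rw [h4]
  exact mul_ne_zero S.h2 (neg_ne_zero.mpr (mul_ne_zero S.h2 (mul_ne_zero ha'u hb'u)))

lemma Setup.L2b (S : Setup f A B M) {w0 w1 : ι → F} (hw0 : w0 ∈ A) (hw1 : w1 ∈ B) (hw00 : w0 ≠ 0)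
    {U : Submodule F (ι → F)} (hU : 2 ≤ Module.finrank F U) (hle : U ≤ A ⊔ Submodule.span F {w1})
    (hUw : ∀ u ∈ U, f (w0 + w1) u = 0 ∧ sse f (w0 + w1) u ∈ M) : False := by
  have h1 := Submodule.finrank_sup_add_finrank_inf_eq U A
  have h2 : U ⊔ A ≤ A ⊔ Submodule.span F {w1} := sup_le hle le_sup_left
  have h3 := Submodule.finrank_mono h2
  have h4 := Submodule.finrank_add_le_finrank_add_finrank A (Submodule.span F {w1})
  have h5 := finrank_span_le_card (R := F) ({w1} : Set (ι → F))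
  simp only [Set.toFinset_singleton, Finset.card_singleton] at h5
  have h6 : (U ⊓ A : Submodule F (ι → F)) ≠ ⊥ := by
    intro h0
    rw [h0, finrank_bot] at h1
    omega
  obtain ⟨u, hu, hu0⟩ := (Submodule.ne_bot_iff _).mp h6
  obtain ⟨h7, h8⟩ := hUw u hu.1
  have h9 : w0 + w1 ∈ B := by
    apply S.L1 hu.2 hu0 (by rw [S.hf.skew, h7, neg_zero])
    rw [← sse_symm S.hf h7]; exact h8
  have h10 : w0 ∈ A ⊓ B := ⟨hw0, by
    have := B.sub_mem h9 hw1
    rwa [add_sub_cancel_right] at this⟩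
  rw [S.hbot] at h10
  exact hw00 ((Submodule.mem_bot F).mp h10)

lemma Setup.L3 (S : Setup f A B M) {g : GL ι F} (hg : g ∈ M) {a : ι → F} (ha : a ∈ A) :
    (g : Matrix ι ι F) *ᵥ a ∈ A ∨ (g : Matrix ι ι F) *ᵥ a ∈ B := by
  have hf := S.hf
  have hb := hf.bilinear
  have hr := reflForm_of_symplectic hf
  have hgi := S.hiso g hg
  obtain ⟨w0, hw0, w1, hw1, hw⟩ := S.dec ((g : Matrix ι ι F) *ᵥ a)
  by_cases h0 : w0 = 0
  · right; rw [← hw, h0, zero_add]; exact hw1
  by_cases h1 : w1 = 0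
  · left; rw [← hw, h1, add_zero]; exact hw0
  exfalso
  have hane : a ≠ 0 := by
    rintro rfl
    rw [Matrix.mulVec_zero] at hw
    have h2 : w0 ∈ A ⊓ B := ⟨hw0, by rw [eq_neg_of_add_eq_zero_left hw]; exact B.neg_mem hw1⟩
    rw [S.hbot] at h2
    exact h0 ((Submodule.mem_bot F).mp h2)
  have hwne : w0 + w1 ≠ 0 := by rw [hw]; exact gl_mulVec_ne_zero g hane
  set U := (B ⊓ LinearMap.ker (hr.lin a)).map (Matrix.toLin' (g : Matrix ι ι F)) with hU
  have hUdim : 6 ≤ Module.finrank F U := by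
    have h2 := ReflForm.finrank_inf_ker (hr.lin a) B
    have h3 : Module.finrank F U = Module.finrank F (B ⊓ LinearMap.ker (hr.lin a) : Submodule F (ι → F)) := by
      apply LinearEquiv.finrank_eq
      refine (Submodule.equivMapOfInjective _ ?_ _).symm
      intro x y hxy
      have h1 : (g : Matrix ι ι F) *ᵥ x = (g : Matrix ι ι F) *ᵥ y := hxy
      rw [← gl_inv_mulVec_mulVec g x, h1, gl_inv_mulVec_mulVec]
    have h4 := S.hB
    omega
  have hUw : ∀ u ∈ U, f (w0 + w1) u = 0 ∧ sse f (w0 + w1) u ∈ M := by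
    rintro _ ⟨b, ⟨hbB, hba⟩, rfl⟩
    have hba' : f b a = 0 := hba
    have hab : f a b = 0 := by rw [hf.skew, hba', neg_zero]
    rw [Matrix.toLin'_apply, hw]
    refine ⟨by rw [hgi]; exact hab, ?_⟩
    rw [← conj_sse hf hgi hab]
    exact mul_mem (mul_mem hg (S.hM a ha b hbB hab)) (inv_mem hg)
  have hor : U ≤ A ⊔ Submodule.span F {w1} ∨ U ≤ B ⊔ Submodule.span F {w0} :=
    le_or_le (fun u hu => S.L2a hw0 hw1 (hUw u hu).1 (hUw u hu).2 hwne)
  rcases hor with h2 | h2
  · exact S.L2b hw0 hw1 h0 (by omega) h2 hUw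
  · exact S.symm.L2b hw1 hw0 h1 (by omega) h2 (fun u hu => by rw [add_comm]; exact hUw u hu)

lemma Setup.L4 (S : Setup f A B M) {g : GL ι F} (hg : g ∈ M) :
    ((∀ a ∈ A, (g : Matrix ι ι F) *ᵥ a ∈ A) ∧ (∀ b ∈ B, (g : Matrix ι ι F) *ᵥ b ∈ B)) ∨
    ((∀ a ∈ A, (g : Matrix ι ι F) *ᵥ a ∈ B) ∧ (∀ b ∈ B, (g : Matrix ι ι F) *ᵥ b ∈ A)) := by
  have key : ∀ X : Submodule F (ι → F), (∀ a ∈ X, (g : Matrix ι ι F) *ᵥ a ∈ A ∨ (g : Matrix ι ι F) *ᵥ a ∈ B) →
      (∀ a ∈ X, (g : Matrix ι ι F) *ᵥ a ∈ A) ∨ (∀ a ∈ X, (g : Matrix ι ι F) *ᵥ a ∈ B) := by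
    intro X hX
    have h1 : X ≤ A.comap (Matrix.toLin' (g : Matrix ι ι F)) ∨ X ≤ B.comap (Matrix.toLin' (g : Matrix ι ι F)) :=
      le_or_le (fun u hu => hX u hu)
    rcases h1 with h1 | h1
    · left; intro a ha; exact h1 ha
    · right; intro a ha; exact h1 ha
  have hnot : ∀ X : Submodule F (ι → F), X ≠ ⊤ → ¬ ((∀ a ∈ A, (g : Matrix ι ι F) *ᵥ a ∈ X) ∧ (∀ b ∈ B, (g : Matrix ι ι F) *ᵥ b ∈ X)) := by
    rintro X hX ⟨h1, h2⟩
    apply hX
    rw [Submodule.eq_top_iff']
    intro x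
    obtain ⟨a, ha, b, hb, hab⟩ := S.dec (((g⁻¹ : GL ι F) : Matrix ι ι F) *ᵥ x)
    rw [← gl_mulVec_inv_mulVec g x, ← hab, Matrix.mulVec_add]
    exact X.add_mem (h1 a ha) (h2 b hb)
  have hAtop : A ≠ ⊤ := by
    intro h
    have h1 := S.hbot
    rw [h, top_inf_eq] at h1
    have h2 := S.hB
    rw [h1, finrank_bot] at h2
    omega
  have hBtop : B ≠ ⊤ := by
    intro h
    have h1 := S.hbot
    rw [h, inf_top_eq] at h1
    have h2 := S.hA
    rw [h1, finrank_bot] at h2
    omega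
  rcases key A (fun a ha => S.L3 hg ha) with h1 | h1
  · rcases key B (fun b hb => (S.symm.L3 hg hb).symm) with h2 | h2
    · exact absurd ⟨h1, h2⟩ (hnot A hAtop)
    · exact Or.inl ⟨h1, h2⟩
  · rcases key B (fun b hb => (S.symm.L3 hg hb).symm) with h2 | h2
    · exact Or.inr ⟨h1, h2⟩
    · exact absurd ⟨h1, h2⟩ (hnot B hBtop)

end gen

/-- For a finite field F of odd order and m ≥ 7, let D be a decomposition of F^(2m) into two complementary subspaces of dimension m on each of which the standard alternating form vanishes identically. Then the elements of Sp_2m(F) preserving or interchanging the two subspaces form a maximal subgroup of Sp_2m(F). -/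
theorem result {F : Type*} [Field F] [Fintype F] (m : ℕ) (hm : 7 ≤ m) (hodd : Odd (Fintype.card F)) (D : Fin 2 → Submodule F (Fin m ⊕ Fin m → F)) (hD : Cfsg.Geo.IsMDecomposition m D) (hts : ∀ i, Cfsg.Geo.IsTotallySingularFor (Cfsg.sympForm m F) (D i)) : Cfsg.Geo.IsMaximalIn (Cfsg.spGL m F) (Cfsg.Geo.decompositionStabilizer D ⊓ Cfsg.spGL m F) := by
  classical
  set f : (Fin m ⊕ Fin m → F) → (Fin m ⊕ Fin m → F) → F := sympForm m F with hfdef
  have hf : Geo.IsSymplecticForm f := sympForm_isSymp m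
  have hb := hf.bilinear
  have hr := reflForm_of_symplectic hf
  have h2 : (2 : F) ≠ 0 := by
    intro h7
    have : ringChar F = 2 := by
      apply CharP.ringChar_of_prime_eq_zero Nat.prime_two
      exact_mod_cast h7
    have h8 := FiniteField.even_card_of_char_two this
    rw [Nat.odd_iff] at hodd
    omega
  set A := D 0 with hA
  set B := D 1 with hB
  have hAA : ∀ a ∈ A, ∀ a' ∈ A, f a a' = 0 := hts 0
  have hBB : ∀ b ∈ B, ∀ b' ∈ B, f b b' = 0 := hts 1
  have htop : A ⊔ B = ⊤ := by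
    rw [← hD.iSup_eq_top]
    apply le_antisymm
    · exact sup_le (le_iSup D 0) (le_iSup D 1)
    · apply iSup_le
      intro i
      fin_cases i
      · exact le_sup_left
      · exact le_sup_right
  have hbot : A ⊓ B = ⊥ := by
    have h := hD.indep.pairwiseDisjoint (i := 0) (j := 1) (by simp)
    exact disjoint_iff.mp h
  have hfrA : Module.finrank F A = m := hD.finrank_eq 0
  have hfrB : Module.finrank F B = m := hD.finrank_eq 1
  have hdec : ∀ x : Fin m ⊕ Fin m → F, ∃ a ∈ A, ∃ b ∈ B, a + b = x := by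
    intro x
    have : x ∈ A ⊔ B := by rw [htop]; trivial
    exact Submodule.mem_sup.mp this
  -- membership in the decomposition stabiliser
  have hmem : ∀ g : GL (Fin m ⊕ Fin m) F,
      ((∀ a ∈ A, (g : Matrix _ _ F) *ᵥ a ∈ A) ∧ (∀ b ∈ B, (g : Matrix _ _ F) *ᵥ b ∈ B)) ∨
      ((∀ a ∈ A, (g : Matrix _ _ F) *ᵥ a ∈ B) ∧ (∀ b ∈ B, (g : Matrix _ _ F) *ᵥ b ∈ A)) →
      g ∈ Geo.decompositionStabilizer D := by
    rintro g (⟨h1, h3⟩ | ⟨h1, h3⟩)
    · refine ⟨1, fun i => ?_⟩
      fin_cases i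
      · exact map_eq_of_maps h1 rfl
      · exact map_eq_of_maps h3 rfl
    · refine ⟨Equiv.swap 0 1, fun i => ?_⟩
      fin_cases i
      · simp only [Fin.zero_eta, Equiv.swap_apply_left]
        exact map_eq_of_maps h1 (by rw [hfrA, hfrB])
      · simp only [Fin.mk_one, Equiv.swap_apply_right]
        exact map_eq_of_maps h3 (by rw [hfrA, hfrB])
  set H := Geo.decompositionStabilizer D ⊓ spGL m F with hH
  have hsseH : ∀ a ∈ A, ∀ b ∈ B, f a b = 0 → sse f a b ∈ H := by
    intro a ha b hbB hab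
    have hba : f b a = 0 := by rw [hf.skew, hab, neg_zero]
    refine ⟨hmem _ (Or.inl ⟨?_, ?_⟩), sse_isom hf a b⟩
    · intro x hx
      rw [sse_mulVec hf hab, hAA a ha x hx, zero_smul, add_zero]
      exact A.add_mem hx (A.smul_mem _ ha)
    · intro x hx
      rw [sse_mulVec hf hab, hBB b hbB x hx, zero_smul, add_zero]
      exact B.add_mem hx (B.smul_mem _ hbB)
  -- non-zero vectors
  have hAne : A ≠ ⊥ := by
    intro h; rw [h, finrank_bot] at hfrA; omega
  obtain ⟨a0, ha0, ha00⟩ := (Submodule.ne_bot_iff A).mp hAne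
  obtain ⟨b0, hb0, hb0a⟩ : ∃ b ∈ B, f b a0 ≠ 0 := by
    obtain ⟨x, hx⟩ := hr.nondeg a0 ha00
    obtain ⟨a, ha, b, hb', rfl⟩ := hdec x
    rw [hb.add_left, hAA a ha a0 ha0, zero_add] at hx
    exact ⟨b, hb', hx⟩
  refine ⟨lt_of_le_of_ne inf_le_right ?_, ?_⟩
  · -- proper
    intro heq
    have h1 : stv f (a0 + b0) 1 ∈ H := by rw [heq]; exact stv_mem_spGL m _ _
    obtain ⟨τ, hτ⟩ := h1.1
    have h3 : ((stv f (a0 + b0) 1 : GL (Fin m ⊕ Fin m) F) : Matrix _ _ F) *ᵥ a0 ∈ D (τ 0) := by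
      rw [← hτ 0]; exact ⟨a0, ha0, rfl⟩
    have e1 : ((stv f (a0 + b0) 1 : GL (Fin m ⊕ Fin m) F) : Matrix _ _ F) *ᵥ a0 = (1 + f b0 a0) • a0 + f b0 a0 • b0 := by
      rw [stv_mulVec hf, hb.add_left, hf.alternating]; module
    have hb00 : b0 ≠ 0 := by rintro rfl; exact hb0a (bil_zero_left hb _)
    have h4 : ∀ i : Fin 2, i = 0 ∨ i = 1 := by intro i; fin_cases i <;> simp
    rw [e1] at h3
    rcases h4 (τ 0) with h5 | h5
    · rw [h5] at h3
      have h6 : f b0 a0 • b0 ∈ A := by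
        have := A.sub_mem h3 (A.smul_mem (1 + f b0 a0) ha0)
        rwa [add_sub_cancel_left] at this
      have h7 : b0 ∈ A ⊓ B := ⟨by
        have := A.smul_mem (f b0 a0)⁻¹ h6
        rwa [smul_smul, inv_mul_cancel₀ hb0a, one_smul] at this, hb0⟩
      rw [hbot] at h7
      exact hb00 ((Submodule.mem_bot F).mp h7)
    · rw [h5] at h3
      -- then a0 must be in B unless 1 + f b0 a0 = 0 ; use another multiple of b0
      by_cases hz : 1 + f b0 a0 = 0
      · -- apply to 2 b0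
        have h1' : stv f (a0 + (2 : F) • b0) 1 ∈ H := by rw [heq]; exact stv_mem_spGL m _ _
        obtain ⟨τ', hτ'⟩ := h1'.1
        have h3' : ((stv f (a0 + (2 : F) • b0) 1 : GL (Fin m ⊕ Fin m) F) : Matrix _ _ F) *ᵥ a0 ∈ D (τ' 0) := by
          rw [← hτ' 0]; exact ⟨a0, ha0, rfl⟩
        have e1' : ((stv f (a0 + (2 : F) • b0) 1 : GL (Fin m ⊕ Fin m) F) : Matrix _ _ F) *ᵥ a0 =
            (1 + 2 * f b0 a0) • a0 + (4 * f b0 a0) • b0 := by
          rw [stv_mulVec hf, hb.add_left, hb.smul_left, hf.alternating]; module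
        rw [e1'] at h3'
        have hne1 : 1 + 2 * f b0 a0 ≠ 0 := by
          intro h
          have : f b0 a0 = 0 := by linear_combination h - hz
          exact hb0a this
        have hne2 : 4 * f b0 a0 ≠ 0 := by
          have : (4 : F) = 2 * 2 := by norm_num
          rw [this]; exact mul_ne_zero (mul_ne_zero h2 h2) hb0a
        rcases h4 (τ' 0) with h5' | h5'
        · rw [h5'] at h3'
          have h6 : (4 * f b0 a0) • b0 ∈ A := by
            have := A.sub_mem h3' (A.smul_mem (1 + 2 * f b0 a0) ha0)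
            rwa [add_sub_cancel_left] at this
          have h7 : b0 ∈ A ⊓ B := ⟨by
            have := A.smul_mem (4 * f b0 a0)⁻¹ h6
            rwa [smul_smul, inv_mul_cancel₀ hne2, one_smul] at this, hb0⟩
          rw [hbot] at h7
          exact hb00 ((Submodule.mem_bot F).mp h7)
        · rw [h5'] at h3'
          have h6 : (1 + 2 * f b0 a0) • a0 ∈ B := by
            have := B.sub_mem h3' (B.smul_mem (4 * f b0 a0) hb0)
            rwa [add_sub_cancel_right] at this
          have h7 : a0 ∈ A ⊓ B := ⟨ha0, by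
            have := B.smul_mem (1 + 2 * f b0 a0)⁻¹ h6
            rwa [smul_smul, inv_mul_cancel₀ hne1, one_smul] at this⟩
          rw [hbot] at h7
          exact ha00 ((Submodule.mem_bot F).mp h7)
      · have h6 : (1 + f b0 a0) • a0 ∈ B := by
          have := B.sub_mem h3 (B.smul_mem (f b0 a0) hb0)
          rwa [add_sub_cancel_right] at this
        have h7 : a0 ∈ A ⊓ B := ⟨ha0, by
          have := B.smul_mem (1 + f b0 a0)⁻¹ h6
          rwa [smul_smul, inv_mul_cancel₀ hz, one_smul] at this⟩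
        rw [hbot] at h7
        exact ha00 ((Submodule.mem_bot F).mp h7)
  intro M hHM hMS
  by_cases hMH : M ≤ H
  · left; exact le_antisymm hMH hHM
  right
  have hMi : ∀ g ∈ M, IsIsom f g := fun g hg => hMS hg
  -- a transvection in M
  obtain ⟨w, c, hw, hc, hwc⟩ : ∃ w c, w ≠ 0 ∧ c ≠ 0 ∧ stv f w c ∈ M := by
    by_contra hcon
    push Not at hcon
    apply hMH
    have S : Setup f A B M :=
      { hf := hf, hAA := hAA, hBB := hBB, htop := htop, hbot := hbot, hA := by omega, hB := by omega, h2 := h2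
        hM := fun a ha b hb hab => hHM (hsseH a ha b hb hab)
        hiso := hMi
        hno := hcon }
    intro g hg
    exact ⟨hmem g (S.L4 hg), hMS hg⟩
  -- swap
  obtain ⟨s, hsi, hsA, hsB⟩ := hr.exists_swap_ti hAA hBB htop hbot
  have hsM : s ∈ M := hHM ⟨hmem s (Or.inr ⟨hsA, hsB⟩), hsi⟩
  -- a transvection with centre in A
  obtain ⟨a, c, ha, hane, hc, hac⟩ : ∃ a c, a ∈ A ∧ a ≠ 0 ∧ c ≠ 0 ∧ stv f a c ∈ M := by
    obtain ⟨w0, hw0, w1, hw1, rfl⟩ := hdec w
    by_cases h0 : w0 = 0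
    · -- centre in B
      rw [h0, zero_add] at hwc hw
      refine ⟨_, c, hsB w1 hw1, gl_mulVec_ne_zero s hw, hc, ?_⟩
      rw [← conj_stv hf hsi]
      exact mul_mem (mul_mem hsM hwc) (inv_mem hsM)
    · -- a ∈ A orthogonal to w1, not in span w0
      obtain ⟨a, haA, haw, hasp⟩ : ∃ a ∈ A, f a w1 = 0 ∧ a ∉ Submodule.span F {w0} := by
        have h1 := ReflForm.finrank_inf_ker (hr.lin w1) A
        have h3 : ¬ (A ⊓ LinearMap.ker (hr.lin w1) ≤ Submodule.span F {w0}) := by
          intro hle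
          have h4 := Submodule.finrank_mono hle
          have h5 := finrank_span_singleton (K := F) h0
          omega
        obtain ⟨z, hz, hzs⟩ := SetLike.not_le_iff_exists.mp h3
        exact ⟨z, hz.1, hz.2, hzs⟩
      have hane : a ≠ 0 := by rintro rfl; exact hasp (Submodule.zero_mem _)
      have hw0s : w0 ∉ Submodule.span F {a} := by
        intro h
        obtain ⟨r, hr'⟩ := Submodule.mem_span_singleton.mp h
        have hr0 : r ≠ 0 := by rintro rfl; exact h0 (by rw [← hr', zero_smul])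
        apply hasp
        rw [Submodule.mem_span_singleton]
        exact ⟨r⁻¹, by rw [← hr', smul_smul, inv_mul_cancel₀ hr0, one_smul]⟩
      obtain ⟨b, hbB, hba, hbw⟩ : ∃ b ∈ B, f b a = 0 ∧ f b w0 = 1 := by
        obtain ⟨z, hz, hzy⟩ := hr.exists_perp_not_orth {a} (x := w0) (by simpa using hw0s)
        have hza : f z a = 0 := hz a (by simp)
        obtain ⟨z0, hz0, z1, hz1, rfl⟩ := hdec z
        rw [hb.add_left, hAA z0 hz0 a haA, zero_add] at hza
        rw [hb.add_left, hAA z0 hz0 w0 hw0, zero_add] at hzy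
        refine ⟨(f z1 w0)⁻¹ • z1, B.smul_mem _ hz1, ?_, ?_⟩
        · rw [hb.smul_left, hza, mul_zero]
        · rw [hb.smul_left, inv_mul_cancel₀ hzy]
      have hab : f a b = 0 := by rw [hf.skew, hba, neg_zero]
      have hkM := hHM (hsseH a haA b hbB hab)
      have hki := sse_isom hf a b
      have e1 : f a (w0 + w1) = 0 := by rw [hb.add_right, hAA a haA w0 hw0, haw, add_zero]
      have e2 : f b (w0 + w1) = 1 := by rw [hb.add_right, hbw, hBB b hbB w1 hw1, add_zero]
      have e3 : f (w0 + w1) a = 0 := by rw [hf.skew, e1, neg_zero]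
      have h1 : stv f (w0 + w1 + a) c ∈ M := by
        have h3 := conj_stv hf hki (w0 + w1) c
        rw [sse_mulVec hf hab, e1, e2, zero_smul, add_zero, one_smul] at h3
        rw [← h3]
        exact mul_mem (mul_mem hkM hwc) (inv_mem hkM)
      have hna : f (-a) b = 0 := by rw [bil_neg_left hb, hab, neg_zero]
      have hkM' := hHM (hsseH (-a) (A.neg_mem haA) b hbB hna)
      have hki' := sse_isom hf (-a) b
      have h3 : stv f (w0 + w1 - a) c ∈ M := by
        have h3 := conj_stv hf hki' (w0 + w1) c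
        rw [sse_mulVec hf hna, bil_neg_left hb, e1, neg_zero, e2, zero_smul, add_zero, one_smul, ← sub_eq_add_neg] at h3
        rw [← h3]
        exact mul_mem (mul_mem hkM' hwc) (inv_mem hkM')
      have h4 : stv f (w0 + w1) (-(2 * c)) ∈ M := by
        have h5 := inv_mem (mul_mem hwc hwc)
        rw [stv_mul hf, stv_inv hf] at h5
        have : -(2 * c) = -(c + c) := by ring
        rw [this]; exact h5
      refine ⟨a, 2 * c, haA, hane, mul_ne_zero h2 hc, ?_⟩
      have h5 : stv f a (2 * c) = stv f (w0 + w1 + a) c * (stv f (w0 + w1 - a) c * stv f (w0 + w1) (-(2 * c))) := by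
        set w := w0 + w1 with hwdef
        clear_value w
        apply gl_ext
        intro x
        rw [gl_mul_mulVec, gl_mul_mulVec, stv_mulVec hf, stv_mulVec hf, stv_mulVec hf, stv_mulVec hf]
        simp only [hb.add_left, hb.add_right, bil_sub_left hb, bil_sub_right hb, hb.smul_right, hf.alternating, e1, e3]
        module
      rw [h5]
      exact mul_mem h1 (mul_mem h3 h4)
  -- all vectors of A
  have hmove : ∀ x ∈ A, ∀ x' ∈ A, x ∉ Submodule.span F {x'} → x' ∉ Submodule.span F {x} → ∀ c, stv f x c ∈ M → stv f x' c ∈ M := by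
    intro x hx x' hx' hxx' hx'x c hxc
    have hxs : x ∉ Submodule.span F {x' - x} := by
      intro h
      obtain ⟨r, hr'⟩ := Submodule.mem_span_singleton.mp h
      have hr0 : r ≠ 0 := by
        rintro rfl
        rw [zero_smul] at hr'
        exact hxx' (by rw [← hr']; exact Submodule.zero_mem _)
      apply hx'x
      rw [Submodule.mem_span_singleton]
      refine ⟨r⁻¹ * (1 + r), ?_⟩
      have h1 : (1 + r) • x = r • x' := by
        rw [add_smul, one_smul]
        nth_rewrite 1 [← hr']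
        rw [smul_sub]; abel
      rw [mul_smul, h1, smul_smul, inv_mul_cancel₀ hr0, one_smul]
    obtain ⟨b, hbB, hba, hbw⟩ : ∃ b ∈ B, f b (x' - x) = 0 ∧ f b x = 1 := by
      obtain ⟨z, hz, hzy⟩ := hr.exists_perp_not_orth {x' - x} (x := x) (by simpa using hxs)
      have hza : f z (x' - x) = 0 := hz _ (by simp)
      obtain ⟨z0, hz0, z1, hz1, rfl⟩ := hdec z
      rw [hb.add_left, hAA z0 hz0 _ (A.sub_mem hx' hx), zero_add] at hza
      rw [hb.add_left, hAA z0 hz0 x hx, zero_add] at hzy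
      refine ⟨(f z1 x)⁻¹ • z1, B.smul_mem _ hz1, ?_, ?_⟩
      · rw [hb.smul_left, hza, mul_zero]
      · rw [hb.smul_left, inv_mul_cancel₀ hzy]
    have hab : f (x' - x) b = 0 := by rw [hf.skew, hba, neg_zero]
    have hkM := hHM (hsseH _ (A.sub_mem hx' hx) b hbB hab)
    have hki := sse_isom hf (x' - x) b
    have h3 := conj_stv hf hki x c
    rw [sse_mulVec hf hab, hAA _ (A.sub_mem hx' hx) x hx, hbw, zero_smul, add_zero, one_smul, add_sub_cancel] at h3
    rw [← h3]
    exact mul_mem (mul_mem hkM hxc) (inv_mem hkM)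
  have hallA : ∀ x ∈ A, x ≠ 0 → stv f x c ∈ M := by
    intro x hx hx0
    -- a vector independent of both a and x
    obtain ⟨y, hy, hys⟩ : ∃ y ∈ A, y ∉ Submodule.span F ({a, x} : Set (Fin m ⊕ Fin m → F)) := by
      by_contra hcon
      push Not at hcon
      have h4 := Submodule.finrank_mono (show A ≤ Submodule.span F ({a, x} : Set (Fin m ⊕ Fin m → F)) from hcon)
      have h5 := finrank_span_finset_le_card (R := F) ({a, x} : Finset (Fin m ⊕ Fin m → F))
      rw [Set.finrank, Finset.coe_insert, Finset.coe_singleton] at h5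
      have h6 := Finset.card_le_two (a := a) (b := x)
      omega
    have hind : ∀ z, z ≠ 0 → z ∈ ({a, x} : Set (Fin m ⊕ Fin m → F)) → z ∉ Submodule.span F {y} ∧ y ∉ Submodule.span F {z} := by
      intro z hz0 hz
      have hzs : z ∈ Submodule.span F ({a, x} : Set (Fin m ⊕ Fin m → F)) := Submodule.subset_span hz
      constructor
      · intro h
        obtain ⟨r, hr'⟩ := Submodule.mem_span_singleton.mp h
        have hr0 : r ≠ 0 := by rintro rfl; exact hz0 (by rw [← hr', zero_smul])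
        apply hys
        have := Submodule.smul_mem _ r⁻¹ hzs
        rwa [← hr', smul_smul, inv_mul_cancel₀ hr0, one_smul] at this
      · intro h
        obtain ⟨r, hr'⟩ := Submodule.mem_span_singleton.mp h
        apply hys
        rw [← hr']
        exact Submodule.smul_mem _ r hzs
    have h1 := hind a hane (by simp)
    have h3 := hind x hx0 (by simp)
    exact hmove y hy x hx h3.2 h3.1 c (hmove a ha y hy h1.1 h1.2 c hac)
  have hAfull : ∀ x ∈ A, fullc f M x := by
    intro x hx d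
    by_cases hx0 : x = 0
    · rw [hx0]; exact fullc_zero hf M d
    obtain ⟨p, q, hpq⟩ := FiniteField.exists_root_sum_quadratic
      (f := Polynomial.X ^ 2) (g := Polynomial.X ^ 2 + Polynomial.C (-(d / c)))
      (by rw [Polynomial.degree_X_pow]; rfl)
      (by
        rw [Polynomial.degree_add_C]
        · rw [Polynomial.degree_X_pow]; rfl
        · rw [Polynomial.degree_X_pow]; norm_num)
      (Nat.odd_iff.mp hodd)
    simp only [Polynomial.eval_add, Polynomial.eval_C, Polynomial.eval_pow, Polynomial.eval_X] at hpq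
    have hsq : ∀ r : F, stv f x (r ^ 2 * c) ∈ M := by
      intro r
      by_cases hr0 : r = 0
      · rw [hr0]
        have : (0 : F) ^ 2 * c = 0 := by ring
        rw [this, stv_zero hf]; exact one_mem M
      · rw [← stv_smul hf]
        exact hallA _ (A.smul_mem _ hx) (smul_ne_zero hr0 hx0)
    have h1 := mul_mem (hsq p) (hsq q)
    rw [stv_mul hf] at h1
    have h3 : p ^ 2 * c + q ^ 2 * c = d := by
      have h4 : p ^ 2 + q ^ 2 = d / c := by linear_combination hpq
      rw [← add_mul, h4, div_mul_cancel₀ _ hc]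
    rwa [h3] at h1
  have hBfull : ∀ x ∈ B, fullc f M x := by
    intro x hx
    obtain ⟨y, hy⟩ : ∃ y : Fin m ⊕ Fin m → F,
        y = ((s⁻¹ : GL (Fin m ⊕ Fin m) F) : Matrix (Fin m ⊕ Fin m) (Fin m ⊕ Fin m) F) *ᵥ x :=
      ⟨_, rfl⟩
    have hxy : x = (s : Matrix (Fin m ⊕ Fin m) (Fin m ⊕ Fin m) F) *ᵥ y := by
      rw [hy, gl_mulVec_inv_mulVec]
    -- y ∈ A
    have hyA : y ∈ A := by
      have h1 := map_eq_of_maps hsA (by rw [hfrA, hfrB])
      have h3 : x ∈ A.map (Matrix.toLin' (s : Matrix _ _ F)) := by rw [h1]; exact hx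
      obtain ⟨z, hz, hzx⟩ := h3
      have h4 : (s : Matrix _ _ F) *ᵥ z = x := hzx
      rw [hy, ← h4, gl_inv_mulVec_mulVec]; exact hz
    rw [hxy]
    exact fullc_image hf (hAfull y hyA) hsM hsi
  apply eq_spGL_of_fullc hMS
  intro y
  obtain ⟨x, hx, z, hz, rfl⟩ := hdec y
  by_cases hxz : f x z = 0
  · by_cases hz0 : z = 0
    · rw [hz0, add_zero]; exact hAfull x hx
    obtain ⟨p, hp, hpz⟩ : ∃ p ∈ A, f p z ≠ 0 := by
      obtain ⟨v, hv⟩ := hr.nondeg z hz0
      obtain ⟨a', ha', b', hb', rfl⟩ := hdec v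
      rw [hb.add_left, hBB b' hb' z hz, add_zero] at hv
      exact ⟨a', ha', hv⟩
    have h1 := fullc_add' hf (hAfull p hp) (hBfull z hz) hpz
    have h3 : f (x - p) (p + z) ≠ 0 := by
      rw [bil_sub_left hb, hb.add_right, hb.add_right, hAA x hx p hp, hxz, hf.alternating]
      simpa using hpz
    have h4 := fullc_add' hf (hAfull _ (A.sub_mem hx hp)) h1 h3
    have h5 : x - p + (p + z) = x + z := by abel
    rwa [h5] at h4
  · exact fullc_add' hf (hAfull x hx) (hBfull z hz) hxz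

end Cfsg.Agent.S5649
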