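import Cfsg.Statements.S5650
import Cfsg.Agent.H12.SubCard
import Cfsg.Agent.H12.SpGen
set_option autoImplicit false
open Cfsg
namespace Cfsg.Agent.S5650

open scoped MatrixGroups Matrix
open Cfsg.Agent.H12

/-- For a finite field F, a subfield F₀ with |F| = |F₀| ^ r for a prime r, and m ≥ 7, let P be an invertible matrix and ζ a non-zero scalar such that ζ times the standard alternating form takes values in F₀ on the F₀-span of the columns of P. Then the elements of Sp_2m(F) lying in the subfield group of P (the conjugate by P of the product of GL_2m(F₀) with the scalars) form a maximal subgroup of Sp_2m(F). -/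
theorem result {F : Type*} [Field F] [Fintype F] (m : ℕ) (hm : 7 ≤ m) (F₀ : Subfield F) (r : ℕ) (hr : r.Prime) (hcard : Fintype.card F = Nat.card F₀ ^ r) (P : Matrix.GeneralLinearGroup (Fin m ⊕ Fin m) F) (ζ : F) (hζ : ζ ≠ 0) (hP : Cfsg.Geo.IsFormRationalStructure (Cfsg.sympForm m F) F₀ ζ P) : Cfsg.Geo.IsMaximalIn (Cfsg.spGL m F) (Cfsg.Geo.subfieldSubgroup F₀ P ⊓ Cfsg.spGL m F) := by
  classical
  set f : (Fin m ⊕ Fin m → F) → (Fin m ⊕ Fin m → F) → F := sympForm m F with hfdef
  have hf : Geo.IsSymplecticForm f := sympForm_isSymp m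
  have h : ReflForm (RingEquiv.refl F) (-1) f := reflForm_of_symplectic hf
  have hfin : Module.finrank F₀ F = r := finrank_sub hcard
  -- the form over F₀
  let b : (Fin m ⊕ Fin m → F₀) → (Fin m ⊕ Fin m → F₀) → F₀ :=
    fun u v => ⟨ζ * f (emb P u) (emb P v), hP (cov u) (cov v) (fun i => (u i).2) (fun i => (v i).2)⟩
  have hb : ∀ u v, ((b u v : F₀) : F) = ζ * f (emb P u) (emb P v) := fun u v => rfl
  have hbil : Geo.IsBilinearForm b :=
    { add_left := by
        intro x y v; apply Subtype.ext; push_cast; rw [hb, hb, hb, emb_add, h.add_left]; ring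
      smul_left := by
        intro c x v; apply Subtype.ext; push_cast; rw [hb, hb, emb_smul, h.smul_left]; ring
      add_right := by
        intro v x y; apply Subtype.ext; push_cast; rw [hb, hb, hb, emb_add, h.add_right]; ring
      smul_right := by
        intro c v x; apply Subtype.ext; push_cast; rw [hb, hb, emb_smul, h.smul_right, RingEquiv.refl_apply]; ring }
  have halt : ∀ v, b v v = 0 := by
    intro v; apply Subtype.ext; rw [hb, hf.alternating]; simp
  have hskew : ∀ v w, b v w = -b w v := by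
    intro v w
    have := halt (v + w)
    rw [hbil.add_left, hbil.add_right, hbil.add_right, halt, halt] at this
    linear_combination this
  have hnd : ∀ v : Fin m ⊕ Fin m → F₀, v ≠ 0 → ∃ x, b x v ≠ 0 := by
    intro v hv
    by_contra hcon
    push Not at hcon
    obtain ⟨x, hx⟩ := h.nondeg (emb P v) (fun h' => hv ((emb_eq_zero P).mp h'))
    apply hx
    obtain ⟨c, hc⟩ := exists_emb_comb (F₀ := F₀) P x
    rw [hc, h.sum_left]
    apply Finset.sum_eq_zero
    intro j _
    have h1 := hb (Pi.single j 1) v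
    rw [hcon] at h1
    rw [h.smul_left, (mul_eq_zero.mp h1.symm).resolve_left hζ, mul_zero]
  have hs : Geo.IsSymplecticForm b :=
    { bilinear := hbil
      skew := hskew
      alternating := halt
      nondegenerate := by
        intro v hv
        obtain ⟨x, hx⟩ := hnd v hv
        exact ⟨⟨x, hx⟩, x, by rw [hskew]; exact neg_ne_zero.mpr hx⟩ }
  have h₀ : ReflForm (RingEquiv.refl F₀) (-1) b := reflForm_of_symplectic hs
  clear_value b
  set H := Geo.subfieldSubgroup F₀ P ⊓ spGL m F with hH
  -- rational isometries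
  have hrhoH : ∀ g₀ : GL (Fin m ⊕ Fin m) F₀, IsIsom b g₀ → rho P g₀ ∈ H := by
    intro g₀ hg₀
    refine ⟨rho_mem P _, ?_⟩
    have key : ∀ x y : Fin m ⊕ Fin m → F, f (((rho P g₀ : GL (Fin m ⊕ Fin m) F) : Matrix _ _ F) *ᵥ x)
        (((rho P g₀ : GL (Fin m ⊕ Fin m) F) : Matrix _ _ F) *ᵥ y) = f x y := by
      intro x y
      obtain ⟨c, hc⟩ := exists_emb_comb (F₀ := F₀) P x
      obtain ⟨d, hd⟩ := exists_emb_comb (F₀ := F₀) P y
      rw [hc, hd, Matrix.mulVec_sum, Matrix.mulVec_sum, h.sum_left, h.sum_left]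
      apply Finset.sum_congr rfl
      intro i _
      rw [h.sum_right, h.sum_right]
      apply Finset.sum_congr rfl
      intro j _
      rw [Matrix.mulVec_smul, Matrix.mulVec_smul, rho_mulVec_emb, rho_mulVec_emb, h.smul_left, h.smul_left, h.smul_right,
        h.smul_right]
      have h1 : ζ * f (emb P ((g₀ : Matrix _ _ F₀) *ᵥ Pi.single i 1)) (emb P ((g₀ : Matrix _ _ F₀) *ᵥ Pi.single j 1)) =
          ζ * f (emb P (Pi.single i (1 : F₀))) (emb P (Pi.single j (1 : F₀))) := by
        rw [← hb, ← hb, hg₀]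
      rw [mul_left_cancel₀ hζ h1]
    exact key
  have hcardι : Fintype.card (Fin m ⊕ Fin m) = 2 * m := by
    rw [Fintype.card_sum, Fintype.card_fin]; ring
  refine ⟨lt_of_le_of_ne inf_le_right ?_, ?_⟩
  · -- proper
    intro heq
    have hle : spGL m F ≤ Geo.subfieldSubgroup F₀ P := by
      rw [← heq]; exact inf_le_left
    -- an element outside F₀
    obtain ⟨l, hl⟩ : ∃ l : F, l ∉ F₀ := by
      by_contra hcon
      push Not at hcon
      have h1 : (⊤ : Subfield F) ≤ F₀ := fun x _ => hcon x
      have h2 : Module.finrank F₀ F ≤ 1 := by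
        apply finrank_le_one (1 : F)
        intro w
        exact ⟨⟨w, hcon w⟩, by rw [Subfield.smul_def, smul_eq_mul, mul_one]⟩
      rw [hfin] at h2
      have := hr.two_le
      omega
    set e : Fin m ⊕ Fin m → F₀ := Pi.single (Sum.inl ⟨0, by omega⟩) 1 with he
    have he0 : e ≠ 0 := by
      intro h'
      have := congrFun h' (Sum.inl ⟨0, by omega⟩)
      simp [he] at this
    obtain ⟨u, hu⟩ := hnd e he0
    have h1 : stv f (emb P e) l ∈ spGL m F := stv_mem_spGL m _ _
    obtain ⟨g₀, c, hc, hg₀⟩ := (mem_subfield_iff P _).mp (hle h1)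
    -- apply to u
    have hfu : f (emb P e) (emb P u) ≠ 0 := by
      intro h'
      apply hu
      apply Subtype.ext
      rw [hb, hf.skew, h']; simp
    -- first, c ∈ F₀ from e
    have h2 := hg₀ e
    rw [stv_mulVec hf, hf.alternating, mul_zero, zero_smul, add_zero] at h2
    have hge := gl_mulVec_ne_zero g₀ he0
    obtain ⟨c₀, hc₀⟩ := emb_smul_mem P hge h2
    -- scale l so that the image is not rational
    have h3 := hg₀ u
    rw [stv_mulVec hf, ← hc₀, ← emb_smul] at h3
    have h4 : emb P (c₀ • ((g₀ : Matrix _ _ F₀) *ᵥ u) - u) = (l * f (emb P e) (emb P u)) • emb P e := by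
      rw [emb_sub, ← h3]; abel
    obtain ⟨l', hl'⟩ := emb_smul_mem P he0 h4
    -- the same with l replaced by 1
    have h1' : stv f (emb P e) 1 ∈ spGL m F := stv_mem_spGL m _ _
    obtain ⟨g₁, c1, hc1, hg₁⟩ := (mem_subfield_iff P _).mp (hle h1')
    have k2 := hg₁ e
    rw [stv_mulVec hf, hf.alternating, mul_zero, zero_smul, add_zero] at k2
    have kge := gl_mulVec_ne_zero g₁ he0
    obtain ⟨c₁, hc₁⟩ := emb_smul_mem P kge k2
    have k3 := hg₁ u
    rw [stv_mulVec hf, ← hc₁, ← emb_smul] at k3
    have k4 : emb P (c₁ • ((g₁ : Matrix _ _ F₀) *ᵥ u) - u) = (1 * f (emb P e) (emb P u)) • emb P e := by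
      rw [emb_sub, ← k3]; abel
    obtain ⟨l1, hl1⟩ := emb_smul_mem P he0 k4
    apply hl
    have : l = ((l' / l1 : F₀) : F) := by
      push_cast
      rw [hl', hl1]
      field_simp
    rw [this]; exact SetLike.coe_mem _
  intro M hHM hMS
  have hMi : ∀ g ∈ M, IsIsom f g := fun g hg => hMS hg
  have hrho : ∀ g₀ : GL (Fin m ⊕ Fin m) F₀, IsIsom b g₀ → rho P g₀ ∈ M := fun g₀ hg => hHM (hrhoH g₀ hg)
  have S : SubF (RingEquiv.refl F) (-1) f F₀ P (RingEquiv.refl F₀) (-1) b ζ 1 M :=
    { h := h
      h₀ := h₀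
      hσ := fun x => rfl
      hε := by push_cast; rfl
      hζ0 := hζ
      hζσ := rfl
      hb := hb
      ht0 := one_ne_zero
      ht := by simp
      P2 := by
        intro s _ x hx
        obtain ⟨y, hy, hyx⟩ := h₀.exists_perp_not_orth s hx
        exact ⟨y, hy, halt y, hyx⟩
      P3 := by
        intro s _ x hx
        exact ⟨x, 0, hx, fun u _ => h₀.zero_left u, halt x, halt 0, by rw [add_zero]⟩
      dim := by rw [hcardι]; omega
      hiso := hMi
      trans := by
        intro a a' _ ha _ ha'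
        let K : Subgroup (GL (Fin m ⊕ Fin m) F₀) :=
          { carrier := {g | IsIsom b g}
            mul_mem' := fun hg hh => hg.mul hh
            one_mem' := isIsom_one
            inv_mem' := fun hg => hg.inv }
        obtain ⟨g₀, hg₀, hga⟩ := stv_transitive hs (H := K) (fun v c => stv_isometry hs v c) ha ha'
        exact ⟨g₀, hrho g₀ hg₀, hga⟩
      hMs := by
        intro w v l hw hvw hl
        rw [← rho_rs h h₀ (by push_cast; rfl) rfl hζ hb hw hvw l]
        exact hrho _ (rs_isom h₀ hw hvw hl) }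
  have hTV : (∀ s, s ∈ S.Csub) → ∀ a, b a a = 0 → ∀ l, RingEquiv.refl F l + (-1) * l = 0 → utv f (emb P a) l ∈ M := by
    intro hC a _ l _
    have faa := S.fE0 (halt a)
    by_cases ha0 : a = 0
    · have : utv f (emb P a) l = 1 := by
        apply gl_ext
        intro x
        rw [rtv_mulVec h faa, ha0, emb_zero]; simp
      rw [this]; exact one_mem M
    -- a hyperbolic pair orthogonal to a
    have hsq : ∀ s : F, utv f (emb P a) (ζ * (s * s)) ∈ M := by
      intro s
      obtain ⟨d, hd, hdd, hds⟩ := S.P1 {a} (by simp)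
      rw [Finset.coe_singleton] at hds
      have hda : b d a = 0 := hd a (by simp)
      obtain ⟨d', hd', hdd', hd'd⟩ := S.P2 {a} (by simp) d (by rw [Finset.coe_singleton]; exact hds)
      have hd'a : b d' a = 0 := hd' a (by simp)
      set d1 := (b d' d)⁻¹ • d' with hd1
      have hd1a : b d1 a = 0 := by rw [hd1, h₀.smul_left, hd'a, mul_zero]
      have hd1d : b d1 d = 1 := by rw [hd1, h₀.smul_left, inv_mul_cancel₀ hd'd]
      have hd1s : d1 ∉ Submodule.span F₀ {a} := by
        intro hm'
        obtain ⟨r', hr'⟩ := Submodule.mem_span_singleton.mp hm'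
        rw [← hr', h₀.smul_left, h₀.symm_zero.mp hda, mul_zero] at hd1d
        exact zero_ne_one hd1d
      -- conjugate the transvection at d1
      have h1 := (S.mem_Csub.mp (hC s)) a d (halt a) (halt d) hda ha0 hds
      have h2 := S.hMt (halt d1)
      have hda' : f ((s * ζ) • emb P d) (emb P a) = 0 := by rw [h.smul_left, S.fE0 hda, mul_zero]
      have h3 := conj_rtv h (S.hiso _ h1) (ζ * ((1 : F₀) : F)) (S.fE0 (halt d1))
      have hfd : ζ * f (emb P d1) (emb P d) = 1 := by rw [← hb, hd1d]; rfl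
      rw [rs_mulVec h faa hda', S.fE0 hd1a, h.smul_right, RingEquiv.refl_apply, zero_smul, add_zero] at h3
      have e1 : emb P d1 + ((0 : F) * 0 - -1 * (s * ζ * f (emb P d1) (emb P d))) • emb P a = emb P d1 + s • emb P a := by
        have : (0 : F) * 0 - -1 * (s * ζ * f (emb P d1) (emb P d)) = s := by linear_combination s * hfd
        rw [this]
      rw [e1] at h3
      have h4 : utv f (emb P d1 + s • emb P a) (ζ * ((1 : F₀) : F)) * (utv f (emb P d1) (ζ * ((1 : F₀) : F)))⁻¹ ∈ M := by
        rw [← h3]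
        exact mul_mem (mul_mem (mul_mem h1 h2) (inv_mem h1)) (inv_mem h2)
      rw [rtv_add_eq_rs h (S.fE0 (halt d1)) faa (S.fE0 hd1a) (by rw [RingEquiv.refl_apply]; ring) s] at h4
      have h5 := (S.mem_Csub.mp (hC s)) a d1 (halt a) (halt d1) hd1a ha0 hd1s
      have e2 : ζ * ((1 : F₀) : F) * (RingEquiv.refl F) s = s * ζ := by
        rw [RingEquiv.refl_apply]; push_cast; ring
      rw [e2] at h4
      have hd1a' : f ((s * ζ) • emb P d1) (emb P a) = 0 := by rw [h.smul_left, S.fE0 hd1a, mul_zero]
      have h6 := mul_mem h4 (inv_mem h5)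
      rw [rs_inv h faa hd1a', rs_mul h faa hd1a' (by rw [h.neg_left, hd1a', neg_zero]), add_neg_cancel,
        rs_zero_vec h faa] at h6
      have e3 : ζ * ((1 : F₀) : F) * (s * (RingEquiv.refl F) s) + (-0 - -1 * f ((s * ζ) • emb P d1) ((s * ζ) • emb P d1)) -
          -1 * f (-((s * ζ) • emb P d1)) ((s * ζ) • emb P d1) = ζ * (s * s) := by
        rw [hf.alternating, h.neg_left, hf.alternating, RingEquiv.refl_apply]
        push_cast
        ring
      rwa [e3] at h6
    by_cases h2 : (2 : F) = 0
    · have hch : ringChar F = 2 := CharP.ringChar_of_prime_eq_zero Nat.prime_two (by exact_mod_cast h2)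
      obtain ⟨s, hs'⟩ := FiniteField.isSquare_of_char_two hch (l / ζ)
      have := hsq s
      rw [← hs', mul_div_cancel₀ _ hζ] at this
      exact this
    · have h3 := mul_mem (hsq ((l / ζ + 1) / 2)) (inv_mem (hsq ((l / ζ - 1) / 2)))
      rw [rtv_inv h faa, rtv_mul h faa] at h3
      have e4 : ζ * ((l / ζ + 1) / 2 * ((l / ζ + 1) / 2)) + -(ζ * ((l / ζ - 1) / 2 * ((l / ζ - 1) / 2))) = l := by
        field_simp
        ring
      rwa [e4] at h3
  have hcase : (∀ w, f w w = 0 → NF f P b w) ∨ ((∀ c : F, c * c ∈ F₀ → c ∈ F₀) ∧ ((2 : F) = 0 ∨ S.OddData)) := by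
    by_cases h2 : (2 : F) = 0
    · exact Or.inr ⟨fun c hc => sq_mem_of_two h2 hc, Or.inl h2⟩
    rcases hr.eq_two_or_odd' with h3 | h3
    · left
      intro w _
      -- dimension count
      let L : (Fin m ⊕ Fin m → F₀) →ₗ[F₀] F :=
        { toFun := fun u => f w (emb P u)
          map_add' := by intro u v; rw [emb_add, h.add_right]
          map_smul' := by
            intro c u
            rw [emb_smul, h.smul_right, RingEquiv.refl_apply, RingHom.id_apply, Subfield.smul_def, smul_eq_mul] }
      have h4 : Module.finrank F₀ F < Module.finrank F₀ (Fin m ⊕ Fin m → F₀) := by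
        rw [hfin, h3, Module.finrank_fintype_fun_eq_card, hcardι]; omega
      have h5 : LinearMap.ker L ≠ ⊥ := LinearMap.ker_ne_bot_of_finrank_lt h4
      obtain ⟨u, hu, hu0⟩ := (Submodule.ne_bot_iff _).mp h5
      exact ⟨u, hu0, halt u, hu⟩
    · right
      refine ⟨fun c hc => sq_mem_of_odd h3 hcard hc, Or.inr ?_⟩
      apply S.oddData h2 (fun g₀ hg _ => hrho g₀ hg)
      intro z₀ hz₀ _ hz1 ⟨u, v, hu, _, hu0, _⟩
      refine ⟨hz₀, ?_, ?_⟩
      · rintro s (rfl | rfl)
        · exact ⟨u, hu0, halt u, by rw [hu, one_smul]⟩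
        · obtain ⟨x, hx⟩ : ∃ x : Fin m ⊕ Fin m → F₀, (z₀ : Matrix _ _ F₀) *ᵥ x ≠ x := by
            by_contra hcon
            push Not at hcon
            apply hz1
            apply gl_ext
            intro x
            rw [hcon x]; simp
          refine ⟨x - (z₀ : Matrix _ _ F₀) *ᵥ x, sub_ne_zero.mpr (Ne.symm hx), halt _, ?_⟩
          rw [Matrix.mulVec_sub, ← gl_mul_mulVec z₀ z₀ x, hz₀, Units.val_one, Matrix.one_mulVec]
          module
      · intro s _ x hx
        exact ⟨x, 0, halt x, halt 0, hx, by rw [Matrix.mulVec_zero, smul_zero], by rw [add_zero]⟩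
  rcases S.main (by rw [hfin]; exact hr) hTV hcase with h1 | h1
  · left
    exact le_antisymm (fun g hg => ⟨h1 hg, hMS hg⟩) hHM
  · right
    apply eq_spGL_of_fullc hMS
    intro y c
    have h2 := h1 y (hf.alternating y) (-c) (by rw [RingEquiv.refl_apply]; ring)
    have h3 : stv f y c = utv f y (-c) := by
      apply gl_ext
      intro x
      rw [stv_mulVec hf, rtv_mulVec h (hf.alternating y), hf.skew y x]
      module
    rw [h3]; exact h2

end Cfsg.Agent.S5650
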