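import Cfsg.Statements.S5652
import Cfsg.Agent.H12.SpGen
import Cfsg.Agent.H12.QuadForm
set_option autoImplicit false
open Cfsg
namespace Cfsg.Agent.S5652

open scoped MatrixGroups Matrix
open Cfsg.Agent.H12

/-- For a finite field F of characteristic two and m ≥ 7, let Q be a non-degenerate quadratic form on F^(2m) whose polar form is the standard alternating form. Then the elements of Sp_2m(F) that are similarities of Q (they are exactly the isometries of Q) form a maximal subgroup of Sp_2m(F). -/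
theorem result {F : Type*} [Field F] [Fintype F] (m : ℕ) (hm : 7 ≤ m) (heven : ¬ Odd (Fintype.card F)) (Q : (Fin m ⊕ Fin m → F) → F) (hQ : Cfsg.Geo.IsNondegenerateQuadraticForm Q) (hpol : ∀ u v, QuadraticMap.polar Q u v = Cfsg.sympForm m F u v) : Cfsg.Geo.IsMaximalIn (Cfsg.spGL m F) (Cfsg.Geo.quadSimilarityGroup Q ⊓ Cfsg.spGL m F) := by
  classical
  have hchar : ringChar F = 2 := by
    by_contra h
    exact heven (Nat.odd_iff.mpr (FiniteField.odd_card_of_char_ne_two h))
  have hcp : CharP F 2 := by rw [← hchar]; exact ringChar.charP F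
  have hsqrt : ∀ a : F, ∃ b : F, b ^ 2 = a := by
    intro a
    obtain ⟨b, hb⟩ := (PerfectRing.bijective_frobenius (R := F) (p := 2)).surjective a
    exact ⟨b, hb⟩
  have h2 : (2 : F) = 0 := CharTwo.two_eq_zero
  have hneg : ∀ a : F, -a = a := fun a => CharTwo.neg_eq a
  set f : (Fin m ⊕ Fin m → F) → (Fin m ⊕ Fin m → F) → F := sympForm m F with hfdef
  have hf : Geo.IsSymplecticForm f := sympForm_isSymp m
  have hb := hf.bilinear
  have hsym : ∀ u v, f u v = f v u := fun u v => by rw [hf.skew, hneg]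
  have hqadd : ∀ x y, Q (x + y) = Q x + Q y + f x y := by
    intro x y; rw [q_add Q, hpol]
  have hQ0 : Q 0 = 0 := q_zero hQ
  have hinv2 : ∀ a : F, a ≠ 0 → a⁻¹ + a⁻¹ ^ 2 * a = 0 := by
    intro a ha
    have : a⁻¹ + a⁻¹ ^ 2 * a = 2 * a⁻¹ := by field_simp; ring
    rw [this, h2, zero_mul]
  -- transvections in the orthogonal group
  have hstvQ : ∀ v c x, Q (((stv f v c : GL (Fin m ⊕ Fin m) F) : Matrix _ _ F) *ᵥ x) = Q x + (c + c ^ 2 * Q v) * f v x ^ 2 := by
    intro v c x
    rw [stv_mulVec hf, hqadd, hQ.smul, hb.smul_right, hsym x v]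
    ring
  have hort : ∀ v c, c + c ^ 2 * Q v = 0 → stv f v c ∈ Geo.quadSimilarityGroup Q ⊓ spGL m F := by
    intro v c hc
    refine ⟨⟨1, fun x => ?_⟩, stv_mem_spGL m v c⟩
    rw [hstvQ, hc]; simp
  -- a non-zero singular vector
  obtain ⟨z0, hz0, hQz0⟩ : ∃ z : Fin m ⊕ Fin m → F, z ≠ 0 ∧ Q z = 0 := by
    let x : Fin m ⊕ Fin m → F := Pi.single (Sum.inl ⟨0, by omega⟩) 1
    let y : Fin m ⊕ Fin m → F := Pi.single (Sum.inl ⟨1, by omega⟩) 1
    have hx : x ≠ 0 := by
      intro h
      have := congrFun h (Sum.inl ⟨0, by omega⟩)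
      simp [x] at this
    have hxy : f x y = 0 := by
      rw [hfdef, sympForm_eq]
      apply Finset.sum_eq_zero
      intro i _
      simp [x, y]
    by_cases hQx : Q x = 0
    · exact ⟨x, hx, hQx⟩
    obtain ⟨b, hb'⟩ := hsqrt (Q y / Q x)
    refine ⟨y + b • x, ?_, ?_⟩
    · intro h
      have := congrFun h (Sum.inl ⟨1, by omega⟩)
      simp [x, y] at this
    · rw [hqadd, hQ.smul, hb.smul_right, hsym y x, hxy, hb', div_mul_cancel₀ _ hQx, mul_zero, add_zero]
      exact CharTwo.add_self_eq_zero _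
  -- adjusting
  have hadj : ∀ x e, Q e = 0 → f x e ≠ 0 → Q (x + (Q x / f x e) • e) = 0 := by
    intro x e he hxe
    rw [hqadd, hQ.smul, he, hb.smul_right, div_mul_cancel₀ _ hxe, mul_zero, add_zero]
    exact CharTwo.add_self_eq_zero _
  have hsing1 : ∀ w, w ≠ 0 → ∃ v, v ≠ 0 ∧ Q v = 0 ∧ f v w ≠ 0 := by
    intro w hw
    by_cases h0 : f z0 w = 0
    · obtain ⟨x, hx1, hx2⟩ := exists_common hb hf.nondegenerate hz0 hw
      have hx1' : f x z0 ≠ 0 := by rw [hsym]; exact hx1
      have hx3 : f (x + (Q x / f x z0) • z0) w ≠ 0 := by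
        rw [hb.add_left, hb.smul_left, h0, mul_zero, add_zero, hsym]; exact hx2
      refine ⟨x + (Q x / f x z0) • z0, ?_, hadj x z0 hQz0 hx1', hx3⟩
      intro h
      rw [h, bil_zero_left hb] at hx3
      exact hx3 rfl
    · exact ⟨z0, hz0, hQz0, h0⟩
  -- H := isometries
  set H := Geo.quadSimilarityGroup Q ⊓ spGL m F with hH
  -- transitivity of H on non-zero singular vectors
  have htrans0 : ∀ u v, Q u = 0 → Q v = 0 → f u v ≠ 0 →
      ∃ h ∈ H, ((h : GL (Fin m ⊕ Fin m) F) : Matrix _ _ F) *ᵥ u = v := by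
    intro u v hu hv huv
    have hQuv : Q (u + v) = f u v := by rw [hqadd, hu, hv]; ring
    refine ⟨stv f (u + v) (f u v)⁻¹, hort _ _ ?_, ?_⟩
    · rw [hQuv]
      exact hinv2 _ huv
    · rw [stv_mulVec hf, hb.add_left, hf.alternating, zero_add, hsym v u, inv_mul_cancel₀ huv, one_smul]
      rw [← add_assoc]
      have : u + u = 0 := by
        ext i; exact CharTwo.add_self_eq_zero _
      rw [this, zero_add]
  have htrans : ∀ u v, u ≠ 0 → v ≠ 0 → Q u = 0 → Q v = 0 →
      ∃ h ∈ H, ((h : GL (Fin m ⊕ Fin m) F) : Matrix _ _ F) *ᵥ u = v := by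
    intro u v hu0 hv0 hu hv
    by_cases huv : f u v = 0
    · obtain ⟨x, hx1, hx2⟩ := exists_common hb hf.nondegenerate hu0 hv0
      have hx1' : f x u ≠ 0 := by rw [hsym]; exact hx1
      set w := x + (Q x / f x u) • u with hw
      have hQw : Q w = 0 := hadj x u hu hx1'
      have h1 : f u w ≠ 0 := by
        rw [hw, hb.add_right, hb.smul_right, hf.alternating, mul_zero, add_zero]; exact hx1
      have h2 : f w v ≠ 0 := by
        rw [hw, hb.add_left, hb.smul_left, huv, mul_zero, add_zero, hsym]; exact hx2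
      obtain ⟨g1, hg1, e1⟩ := htrans0 u w hu hQw h1
      obtain ⟨g2, hg2, e2⟩ := htrans0 w v hQw hv h2
      exact ⟨g2 * g1, mul_mem hg2 hg1, by rw [gl_mul_mulVec, e1, e2]⟩
    · exact htrans0 u v hu hv huv
  refine ⟨?_, ?_⟩
  · -- proper
    refine lt_of_le_of_ne inf_le_right ?_
    intro heq
    have h1 : stv f z0 1 ∈ H := by
      rw [heq]; exact stv_mem_spGL m z0 1
    obtain ⟨c, hc⟩ := h1.1
    obtain ⟨v, hv0, hv, hvz⟩ := hsing1 z0 hz0
    have h2 := hc v
    rw [hstvQ, hv, hQz0] at h2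
    simp only [mul_zero, add_zero, zero_add, one_mul] at h2
    rw [hsym] at hvz
    exact pow_ne_zero 2 hvz h2
  · intro M hHM hMS
    by_cases hMH : M ≤ H
    · left; exact le_antisymm hMH hHM
    right
    obtain ⟨g, hgM, hgH⟩ := SetLike.not_le_iff_exists.mp hMH
    have hgi : IsIsom f g := hMS hgM
    -- the functional
    have hex : ∃ v, v ≠ 0 ∧ Q v = 0 ∧ Q ((g : Matrix _ _ F) *ᵥ v) ≠ 0 := by
      by_contra hcon
      push Not at hcon
      apply hgH
      refine ⟨⟨1, ?_⟩, hMS hgM⟩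
      -- D v = Q (g v) + Q v is additive, zero on singular vectors
      have hD : ∀ x y, Q ((g : Matrix _ _ F) *ᵥ (x + y)) + Q (x + y) =
          (Q ((g : Matrix _ _ F) *ᵥ x) + Q x) + (Q ((g : Matrix _ _ F) *ᵥ y) + Q y) := by
        intro x y
        rw [Matrix.mulVec_add, hqadd, hqadd, hgi]
        linear_combination (f x y) * h2
      have hDs : ∀ v, Q v = 0 → Q ((g : Matrix _ _ F) *ᵥ v) + Q v = 0 := by
        intro v hv
        by_cases hv0 : v = 0
        · rw [hv0, Matrix.mulVec_zero, hQ0, add_zero]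
        · rw [hcon v hv0 hv, hv, add_zero]
      intro x
      rw [Units.val_one, one_mul]
      by_cases hx0 : x = 0
      · rw [hx0, Matrix.mulVec_zero]
      obtain ⟨v, hv0, hv, hvx⟩ := hsing1 x hx0
      have hxv : f x v ≠ 0 := by rw [hsym]; exact hvx
      have h3 := hadj x v hv hxv
      have h4 := hDs _ h3
      rw [hD, hDs ((Q x / f x v) • v) (by rw [hQ.smul, hv, mul_zero]), add_zero] at h4
      have := eq_neg_of_add_eq_zero_left h4
      rw [this, hneg]
    obtain ⟨v, hv0, hv, hgv⟩ := hex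
    -- stv f v c ∈ M for c = (Q (g v))⁻¹
    have hc1 : stv f v (Q ((g : Matrix _ _ F) *ᵥ v))⁻¹ ∈ M := by
      have h1 : stv f ((g : Matrix _ _ F) *ᵥ v) (Q ((g : Matrix _ _ F) *ᵥ v))⁻¹ ∈ M := by
        apply hHM
        apply hort
        exact hinv2 _ hgv
      rw [← conj_stv hf hgi] at h1
      have h2 := M.mul_mem (M.mul_mem (M.inv_mem hgM) h1) hgM
      have h3 : g⁻¹ * (g * stv f v (Q ((g : Matrix _ _ F) *ᵥ v))⁻¹ * g⁻¹) * g = stv f v (Q ((g : Matrix _ _ F) *ᵥ v))⁻¹ := by
        group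
      rwa [h3] at h2
    set c0 := (Q ((g : Matrix _ _ F) *ᵥ v))⁻¹ with hc0
    have hc0ne : c0 ≠ 0 := inv_ne_zero hgv
    -- all singular vectors are full centres
    have hfull1 : ∀ w, Q w = 0 → fullc f M w := by
      intro w hw c
      by_cases hw0 : w = 0
      · rw [hw0]; exact fullc_zero hf M c
      by_cases hc : c = 0
      · rw [hc, stv_zero hf]; exact one_mem M
      obtain ⟨a, ha⟩ := hsqrt (c / c0)
      have ha0 : a ≠ 0 := by
        intro h
        rw [h] at ha
        have : c / c0 ≠ 0 := div_ne_zero hc hc0ne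
        apply this
        rw [← ha]; ring
      obtain ⟨h, hhH, hh⟩ := htrans v (a • w) hv0 (smul_ne_zero ha0 hw0) hv (by rw [hQ.smul, hw, mul_zero])
      have hhi : IsIsom f h := hhH.2
      have h1 : stv f (a • w) c0 ∈ M := by
        rw [← hh, ← conj_stv hf hhi]
        exact M.mul_mem (M.mul_mem (hHM hhH) hc1) (M.inv_mem (hHM hhH))
      rw [stv_smul hf, ha, div_mul_cancel₀ _ hc0ne] at h1
      exact h1
    -- all vectors
    apply eq_spGL_of_fullc hMS
    intro w
    by_cases hw0 : w = 0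
    · rw [hw0]; exact fullc_zero hf M
    obtain ⟨v', hv'0, hv', hv'w⟩ := hsing1 w hw0
    have hwv' : f w v' ≠ 0 := by rw [hsym]; exact hv'w
    have h1 := hfull1 _ (hadj w v' hv' hwv')
    have h2 := hfull1 v' hv'
    have h3 : f (w + (Q w / f w v') • v') v' ≠ 0 := by
      rw [hb.add_left, hb.smul_left, hf.alternating, mul_zero, add_zero]; exact hwv'
    have h4 := fullc_add hf h1 h2 h3 (-(Q w / f w v'))
    have h5 : w + (Q w / f w v') • v' + (-(Q w / f w v')) • v' = w := by
      rw [neg_smul]; abel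
    rwa [h5] at h4

end Cfsg.Agent.S5652
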