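import Cfsg.Statements.S5653
import Cfsg.Agent.H12.UniSieg
set_option autoImplicit false
open Cfsg
namespace Cfsg.Agent.S5653

open scoped MatrixGroups Matrix
open Cfsg.Agent.H12

/-- Let F be the field with q² elements and n ≥ 13, and let SU_n(q) be the group of matrices of determinant one preserving the standard unitary form Σ u_i v_i^q on F^n (the intersection of the unitary group GU_n with the kernel of the determinant). The elements of SU_n(q) stabilising a non-zero subspace on which the form vanishes identically form a maximal subgroup of SU_n(q). -/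
theorem result {F : Type*} [Field F] [Fintype F] (n q : ℕ) (hF : Fintype.card F = q ^ 2) (hn : 13 ≤ n) (W : Submodule F (Fin n → F)) (hW0 : W ≠ ⊥) (hW : Cfsg.Geo.IsTotallySingularFor (Cfsg.hermForm n F q) W) : Cfsg.Geo.IsMaximalIn (Cfsg.GU n F q ⊓ Cfsg.Geo.specialLinear (Fin n) F) (Cfsg.Geo.subspaceStabilizer W ⊓ (Cfsg.GU n F q ⊓ Cfsg.Geo.specialLinear (Fin n) F)) := by
  classical
  obtain ⟨σ, hσq, hσ, hinv⟩ := exists_frob hF
  set f := hermForm n F q with hfdef
  have h : ReflForm σ 1 f := reflForm_herm hσq hinv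
  have hcardι : 7 ≤ Fintype.card (Fin n) := by rw [Fintype.card_fin]; omega
  obtain ⟨w0, hw0W, hw0⟩ := (Submodule.ne_bot_iff W).mp hW0
  set P := h.perpS W with hP
  have hWP : W ≤ P := fun x hx a ha => hW x hx a ha
  set H := Geo.subspaceStabilizer W ⊓ (GU n F q ⊓ Geo.specialLinear (Fin n) F) with hH
  have hsieg : ∀ w ∈ W, ∀ v, f v w = 0 → ∀ l, l + σ l + f v v = 0 → usieg f w v l ∈ H := by
    intro w hw v hvw l hl
    refine ⟨mem_subspaceStabilizer_iff.mpr ?_, usieg_isom h (hW w hw w hw) hvw hl, usieg_sl w v l⟩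
    intro x hx
    rw [usieg_mulVec h (hW w hw w hw) hvw, hW x hx w hw, zero_smul, add_zero]
    exact W.add_mem hx (W.smul_mem _ hw)
  have hfullH : ∀ v ∈ P, f v v = 0 → ufull σ f H v := by
    intro v hv hvv
    refine ⟨hvv, fun a ha => ⟨mem_subspaceStabilizer_iff.mpr ?_, utv_isometry h hvv ha, det_tv _ _⟩⟩
    intro x hx
    rw [utv_mulVec h hvv, h.symm_zero.mp (hv x hx)]
    simpa using hx
  refine ⟨lt_of_le_of_ne inf_le_right ?_, ?_⟩
  · intro heq
    obtain ⟨x, hx⟩ := h.nondeg w0 hw0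
    obtain ⟨c, hc⟩ := iso_adj h hσ (hW w0 hw0W w0 hw0W) hx
    set z := x + c • w0 with hz
    have hzw : f z w0 ≠ 0 := by
      rw [hz, h.add_left, h.smul_left, hW w0 hw0W w0 hw0W, mul_zero, add_zero]; exact hx
    have hwz : f w0 z ≠ 0 := fun h' => hzw (h.symm_zero.mp h')
    obtain ⟨a, ha0, ha⟩ := exists_skew hσ h.inv
    have h1 : utv f z a ∈ GU n F q ⊓ Geo.specialLinear (Fin n) F := ⟨utv_isometry h hc ha, det_tv _ _⟩
    rw [← heq] at h1
    have h2 := mem_subspaceStabilizer_iff.mp h1.1 w0 hw0W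
    rw [utv_mulVec h hc] at h2
    have h3 := W.sub_mem h2 hw0W
    rw [add_sub_cancel_left] at h3
    have h4 := W.smul_mem (a * f w0 z)⁻¹ h3
    rw [smul_smul, inv_mul_cancel₀ (mul_ne_zero ha0 hwz), one_smul] at h4
    exact hzw (hW z h4 w0 hw0W)
  intro M hHM hMS
  by_cases hMH : M ≤ H
  · left; exact le_antisymm hMH hHM
  right
  apply le_antisymm hMS
  obtain ⟨g, hgM, hgH⟩ := SetLike.not_le_iff_exists.mp hMH
  have hgi : IsIsom f g := (hMS hgM).1
  have hfullM : ∀ v ∈ P, f v v = 0 → ufull σ f M v := fun v hv hvv =>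
    ⟨hvv, fun a ha => hHM ((hfullH v hv hvv).2 a ha)⟩
  -- a full centre outside P
  obtain ⟨x0, hx0P, hx0⟩ : ∃ x, x ∉ P ∧ ufull σ f M x := by
    by_contra hcon
    push Not at hcon
    apply hgH
    refine ⟨mem_subspaceStabilizer_iff.mpr ?_, hMS hgM⟩
    intro w hw
    by_contra hgw
    have hgw' := ufull_image h (hfullM w (hWP hw) (hW w hw w hw)) hgM hgi
    obtain ⟨y, hyP, hy⟩ := h.exists_perpS_of_notMem hgw
    obtain ⟨c, hc⟩ := iso_adj h hσ hgw'.1 hy
    have hgwP : (g : Matrix (Fin n) (Fin n) F) *ᵥ w ∈ P := by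
      by_contra hne
      exact hcon _ hne hgw'
    have hy'P : y + c • ((g : Matrix (Fin n) (Fin n) F) *ᵥ w) ∈ P := P.add_mem hyP (P.smul_mem _ hgwP)
    have h1 := ufull_image h (hfullM _ hy'P hc) (inv_mem hgM) hgi.inv
    have h2 : ((g⁻¹ : GL (Fin n) F) : Matrix (Fin n) (Fin n) F) *ᵥ (y + c • ((g : Matrix (Fin n) (Fin n) F) *ᵥ w)) ∈ P := by
      by_contra hne
      exact hcon _ hne h1
    have h3 := h2 w hw
    rw [← hgi, gl_mulVec_inv_mulVec, h.add_left, h.smul_left, hgw'.1, mul_zero, add_zero] at h3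
    exact hy h3
  have hall : ∀ y, f y y = 0 → ufull σ f M y := by
    intro y hy
    by_cases hyP : y ∈ P
    · exact hfullM y hyP hy
    have h1 : ∃ w ∈ W, f w x0 ≠ 0 := by
      by_contra hcon
      push Not at hcon
      exact hx0P (h.mem_perpS'.mpr hcon)
    have h2 : ∃ w ∈ W, f w y ≠ 0 := by
      by_contra hcon
      push Not at hcon
      exact hyP (h.mem_perpS'.mpr hcon)
    obtain ⟨w, hwW, hwx, hwy⟩ := h.exists_common_in W h1 h2
    have hxw : f x0 w ≠ 0 := fun h' => hwx (h.symm_zero.mp h')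
    have hyw : f y w ≠ 0 := fun h' => hwy (h.symm_zero.mp h')
    set c := f y w / f x0 w with hc
    have hx := ufull_smul h hx0 c
    set x := c • x0 with hxdef
    set w' := σ (f y w)⁻¹ • w with hw'
    have hw'W : w' ∈ W := W.smul_mem _ hwW
    have e1 : f y w' = 1 := by
      rw [hw', h.smul_right, h.inv, inv_mul_cancel₀ hyw]
    have e2 : f x w' = 1 := by
      rw [hw', h.smul_right, h.inv, hxdef, h.smul_left, hc, div_mul_cancel₀ _ hxw, inv_mul_cancel₀ hyw]
    have e3 : f (y - x) w' = 0 := by rw [h.sub_left, e1, e2, sub_self]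
    have e4 : f x y + σ (f x y) + f (y - x) (y - x) = 0 := by
      rw [h.sub_left, h.sub_right, h.sub_right, hy, hx.1, herm' h y x]; ring
    have h5 := hsieg w' hw'W (y - x) e3 (f x y) e4
    have h6 := ufull_image h hx (hHM h5) h5.2.1
    rw [usieg_mulVec h (hW w' hw'W w' hw'W) e3, e2, h.sub_right, hx.1] at h6
    have h7 : x + (1 : F) • (y - x) + (f x y * 1 - (f x y - 0)) • w' = y := by module
    rwa [h7] at h6
  intro k hk
  exact su_mem_of_utv_mem h hσ hcardι (fun z a hz ha => (hall z hz).2 a ha) hk.1 hk.2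

end Cfsg.Agent.S5653
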