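import Cfsg.Statements.S5654
import Cfsg.Agent.H12.UniRel
set_option autoImplicit false
open Cfsg
namespace Cfsg.Agent.S5654

open scoped MatrixGroups Matrix
open Cfsg.Agent.H12

section gen

variable {ι : Type} [Fintype ι] [DecidableEq ι] {F : Type*} [Field F]
variable {σ : F ≃+* F} {f : (ι → F) → (ι → F) → F}

lemma exists_norm_one_ne (hσ : σ ≠ RingEquiv.refl F) (hinv : ∀ a, σ (σ a) = a) : ∃ μ : F, μ * σ μ = 1 ∧ μ ≠ 1 := by
  obtain ⟨b, hb⟩ := exists_moved hσ
  have hb0 : b ≠ 0 := by rintro rfl; exact hb (map_zero σ)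
  have hσb : σ b ≠ 0 := by simpa using hb0
  refine ⟨b / σ b, ?_, ?_⟩
  · rw [map_div₀, hinv]; field_simp
  · intro h
    rw [div_eq_one_iff_eq hσb] at h
    exact hb h.symm

end gen

/-- Let F be the field with q² elements and n ≥ 13. In SU_n(q) (determinant-one isometries of the standard unitary form on F^n) the stabiliser of a non-zero subspace W on which the form is non-degenerate and with 2 dim W < n is a maximal subgroup. -/
theorem result {F : Type*} [Field F] [Fintype F] (n q : ℕ) (hF : Fintype.card F = q ^ 2) (hn : 13 ≤ n) (W : Submodule F (Fin n → F)) (hW0 : W ≠ ⊥) (hW : Cfsg.Geo.IsNondegenerateOn (Cfsg.hermForm n F q) W) (hdim : 2 * Module.finrank F W < n) : Cfsg.Geo.IsMaximalIn (Cfsg.GU n F q ⊓ Cfsg.Geo.specialLinear (Fin n) F) (Cfsg.Geo.subspaceStabilizer W ⊓ (Cfsg.GU n F q ⊓ Cfsg.Geo.specialLinear (Fin n) F)) := by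
  classical
  obtain ⟨σ, hσq, hσ, hinv⟩ := exists_frob hF
  set f := hermForm n F q with hfdef
  have h : ReflForm σ 1 f := reflForm_herm hσq hinv
  have hcardι : 7 ≤ Fintype.card (Fin n) := by rw [Fintype.card_fin]; omega
  obtain ⟨w0, hw0W, hw0⟩ := (Submodule.ne_bot_iff W).mp hW0
  set P := h.perpS W with hP
  have hPnd : Geo.IsNondegenerateOn f P := h.nondeg_perpS hW
  have hPP : h.perpS P = W := h.perpS_perpS W
  have hfr := h.finrank_perpS_of_nondeg hW
  rw [← hP, Fintype.card_fin] at hfr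
  have hPdim : 7 ≤ Module.finrank F P := by omega
  have hWPbot : W ⊓ P = ⊥ := h.inf_perpS_of_nondeg hW
  have hWPo : ∀ a ∈ W, ∀ b ∈ P, f a b = 0 := fun a ha b hb => h.symm_zero.mp (hb a ha)
  have hPWo : ∀ b ∈ P, ∀ a ∈ W, f b a = 0 := fun b hb a ha => hb a ha
  set H := Geo.subspaceStabilizer W ⊓ (GU n F q ⊓ Geo.specialLinear (Fin n) F) with hH
  have hfullHP : ∀ v ∈ P, f v v = 0 → ufull σ f H v := by
    intro v hv hvv
    refine ⟨hvv, fun a ha => ⟨mem_subspaceStabilizer_iff.mpr ?_, utv_isometry h hvv ha, det_tv _ _⟩⟩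
    intro x hx
    rw [utv_mulVec h hvv, h.symm_zero.mp (hv x hx)]
    simpa using hx
  have hfullHW : ∀ v ∈ W, f v v = 0 → ufull σ f H v := by
    intro v hv hvv
    refine ⟨hvv, fun a ha => ⟨mem_subspaceStabilizer_iff.mpr ?_, utv_isometry h hvv ha, det_tv _ _⟩⟩
    intro x hx
    rw [utv_mulVec h hvv]
    exact W.add_mem hx (W.smul_mem _ hv)
  have hTP : utvGroupOn σ f P ≤ H := utvGroupOn_le (fun z hz hzz a ha => (hfullHP z hz hzz).2 a ha)
  -- a non-zero isotropic vector in P
  obtain ⟨v1, hv1P, hv10, hv1⟩ := iso_in h hσ P (by omega)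
  refine ⟨lt_of_le_of_ne inf_le_right ?_, ?_⟩
  · intro heq
    -- move v1 by a transvection with centre not in P
    obtain ⟨v2, hv2P, hv12, hv2⟩ := exists_pair_in h hσ hPnd hPdim hv1P hv10 1 (c := - f w0 w0)
      (by rw [map_neg, fix_self h])
    set z := w0 + v2 with hz
    have hzz : f z z = 0 := by
      rw [hz, h.add_left, h.add_right, h.add_right, hv2, hWPo w0 hw0W v2 hv2P, hPWo v2 hv2P w0 hw0W]; ring
    have hv1z : f v1 z = 1 := by rw [hz, h.add_right, hPWo v1 hv1P w0 hw0W, hv12, zero_add]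
    obtain ⟨a, ha0, ha⟩ := exists_skew hσ h.inv
    have h1 : utv f z a ∈ GU n F q ⊓ Geo.specialLinear (Fin n) F := ⟨utv_isometry h hzz ha, det_tv _ _⟩
    rw [← heq] at h1
    have h2 := h.isom_perpS h1.2.1 (mem_subspaceStabilizer_iff.mp h1.1) v1 hv1P
    rw [utv_mulVec h hzz, hv1z, mul_one] at h2
    have h3 := P.sub_mem h2 hv1P
    rw [add_sub_cancel_left] at h3
    have h4 := P.smul_mem a⁻¹ h3
    rw [smul_smul, inv_mul_cancel₀ ha0, one_smul] at h4
    have h5 : w0 ∈ P := by
      have := P.sub_mem h4 hv2P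
      rwa [hz, add_sub_cancel_right] at this
    have h6 : w0 ∈ W ⊓ P := ⟨hw0W, h5⟩
    rw [hWPbot] at h6
    exact hw0 ((Submodule.mem_bot F).mp h6)
  intro M hHM hMS
  by_cases hMH : M ≤ H
  · left; exact le_antisymm hMH hHM
  right
  apply le_antisymm hMS
  obtain ⟨g, hgM, hgH⟩ := SetLike.not_le_iff_exists.mp hMH
  have hgi : IsIsom f g := (hMS hgM).1
  have hfullP : ∀ v ∈ P, f v v = 0 → ufull σ f M v := fun v hv hvv =>
    ⟨hvv, fun a ha => hHM ((hfullHP v hv hvv).2 a ha)⟩
  have hfullW : ∀ v ∈ W, f v v = 0 → ufull σ f M v := fun v hv hvv =>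
    ⟨hvv, fun a ha => hHM ((hfullHW v hv hvv).2 a ha)⟩
  -- F6: a full centre outside W ∪ P
  obtain ⟨x0, hx0W, hx0P, hx0⟩ : ∃ x, x ∉ W ∧ x ∉ P ∧ ufull σ f M x := by
    by_contra hcon
    push Not at hcon
    -- isotropic vectors of P have images in W ∪ P
    have himg : ∀ v ∈ P, f v v = 0 → (g : Matrix (Fin n) (Fin n) F) *ᵥ v ∈ W ∨
        (g : Matrix (Fin n) (Fin n) F) *ᵥ v ∈ P := by
      intro v hv hvv
      by_contra hne
      push Not at hne
      exact hcon _ hne.1 hne.2 (ufull_image h (hfullP v hv hvv) hgM hgi)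
    -- propagate
    have hprop : ∀ A B : Submodule F (Fin n → F), (∀ a ∈ A, ∀ b ∈ B, f a b = 0) →
        (∀ v ∈ P, f v v = 0 → (g : Matrix (Fin n) (Fin n) F) *ᵥ v ∈ A ∨ (g : Matrix (Fin n) (Fin n) F) *ᵥ v ∈ B) →
        (g : Matrix (Fin n) (Fin n) F) *ᵥ v1 ∈ A → ∀ x ∈ P, (g : Matrix (Fin n) (Fin n) F) *ᵥ x ∈ A := by
      intro A B hAB himg hA
      have hstep : ∀ x ∈ P, f x v1 ≠ 0 → (g : Matrix (Fin n) (Fin n) F) *ᵥ x ∈ A := by
        intro x hx hxv
        obtain ⟨c, hc⟩ := iso_adj h hσ hv1 hxv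
        have h1 : x + c • v1 ∈ P := P.add_mem hx (P.smul_mem _ hv1P)
        have h2 : f (x + c • v1) v1 ≠ 0 := by
          rw [h.add_left, h.smul_left, hv1, mul_zero, add_zero]; exact hxv
        rcases himg _ h1 hc with h3 | h3
        · rw [Matrix.mulVec_add, Matrix.mulVec_smul] at h3
          have := A.sub_mem h3 (A.smul_mem c hA)
          rwa [add_sub_cancel_right] at this
        · exfalso
          apply h2
          rw [← hgi]
          exact h.symm_zero.mp (hAB _ hA _ h3)
      intro x hx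
      by_cases hxv : f x v1 = 0
      · obtain ⟨⟨v2, hv2, hv21⟩, -⟩ := hPnd v1 hv1P hv10
        have h1 := hstep v2 hv2 hv21
        have h2 := hstep (x + v2) (P.add_mem hx hv2) (by rw [h.add_left, hxv, zero_add]; exact hv21)
        rw [Matrix.mulVec_add] at h2
        have := A.sub_mem h2 h1
        rwa [add_sub_cancel_right] at this
      · exact hstep x hx hxv
    rcases himg v1 hv1P hv1 with h1 | h1
    · have h2 := hprop W P hWPo himg h1
      -- dimension contradiction
      let L : P →ₗ[F] W :=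
        { toFun := fun v => ⟨(g : Matrix (Fin n) (Fin n) F) *ᵥ (v : Fin n → F), h2 v v.2⟩
          map_add' := by intro a b; ext1; simp [Matrix.mulVec_add]
          map_smul' := by intro c a; ext1; simp [Matrix.mulVec_smul] }
      have hinj : Function.Injective L := by
        intro a b hab
        have h1 : (g : Matrix (Fin n) (Fin n) F) *ᵥ (a : Fin n → F) =
            (g : Matrix (Fin n) (Fin n) F) *ᵥ (b : Fin n → F) :=
          congrArg Subtype.val hab
        apply Subtype.ext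
        rw [← gl_inv_mulVec_mulVec g (a : Fin n → F), h1, gl_inv_mulVec_mulVec]
      have := LinearMap.finrank_le_finrank_of_injective hinj
      omega
    · have h2 := hprop P W hPWo (fun v hv hvv => (himg v hv hvv).symm) h1
      apply hgH
      refine ⟨mem_subspaceStabilizer_iff.mpr ?_, hMS hgM⟩
      exact h.isom_of_perpS hgi h2
  -- the predicate G
  let G : (Fin n → F) → Prop := fun a => ∀ b ∈ P, b ≠ 0 → f (a + b) (a + b) = 0 → ufull σ f M (a + b)
  have hnorm : ∀ a ∈ W, ∀ b ∈ P, f (a + b) (a + b) = f a a + f b b := by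
    intro a ha b hb
    rw [h.add_left, h.add_right, h.add_right, hWPo a ha b hb, hPWo b hb a ha]; ring
  -- F2
  have hG1 : ∀ a ∈ W, ∀ b ∈ P, b ≠ 0 → ufull σ f M (a + b) → G a := by
    intro a ha b hb hb0 hab b' hb' hb'0 hab'
    have h1 := hab.1
    rw [hnorm a ha b hb] at h1
    rw [hnorm a ha b' hb'] at hab'
    obtain ⟨t, ht, htb⟩ := utv_trans_in h hσ hPnd hPdim hb hb' hb0 hb'0 (by linear_combination h1 - hab')
    have h2 := ufull_image h hab (hHM (hTP ht)) (hTP ht).2.1
    rwa [Matrix.mulVec_add, utvGroupOn_fix h ht (by rw [hPP]; exact ha), htb] at h2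
  -- G is closed under scalars
  have hG2 : ∀ a ∈ W, G a → ∀ μ : F, μ ≠ 0 → G (μ • a) := by
    intro a ha hGa μ hμ b hb hb0 hab
    have h1 : μ • a + b = μ • (a + μ⁻¹ • b) := by
      rw [smul_add, smul_smul, mul_inv_cancel₀ hμ, one_smul]
    have hσμ : σ μ ≠ 0 := by simpa using hμ
    rw [h1]
    apply ufull_smul h
    apply hGa _ (P.smul_mem _ hb) (smul_ne_zero (inv_ne_zero hμ) hb0)
    rw [h1, h.smul_left, h.smul_right] at hab
    have := (mul_eq_zero.mp hab).resolve_left hμ
    exact (mul_eq_zero.mp this).resolve_left hσμ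
  -- vectors of P of given norm
  have hexb : ∀ c : F, σ c = c → ∃ b ∈ P, b ≠ 0 ∧ f b b = c := by
    intro c hc
    obtain ⟨b, hb, hb1, hb2⟩ := exists_pair_in h hσ hPnd hPdim hv1P hv10 1 hc
    refine ⟨b, hb, ?_, hb2⟩
    rintro rfl
    rw [h.zero_right] at hb1
    exact zero_ne_one hb1
  -- F4 : one step
  have hG3 : ∀ a ∈ W, ∀ a' ∈ W, f a a = f a' a' → f a (a' - a) ≠ 0 → G a → G a' := by
    intro a ha a' ha' haa hne hGa
    set u := a' - a with hu
    have huW : u ∈ W := W.sub_mem ha' ha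
    set α := (f a u)⁻¹ with hα
    have hnormu : f a u + σ (f a u) + f u u = 0 := by
      have h1 : f a' a' = f (a + u) (a + u) := by rw [hu]; congr 1 <;> abel
      rw [← haa, h.add_left, h.add_right, h.add_right, herm' h u a] at h1
      linear_combination -h1
    have hσau : σ (f a u) ≠ 0 := by simpa using hne
    have hcond : α + σ α + α * σ α * f u u = 0 := by
      rw [hα, map_inv₀]
      field_simp
      linear_combination hnormu
    set s := uqr f u α with hs
    have hsi : IsIsom f s := uqr_isom h hcond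
    have hsmul : ∀ y, (s : Matrix (Fin n) (Fin n) F) *ᵥ y = y + (α * f y u) • u := fun y =>
      uqr_mulVec h (uni_cond_ne u hcond) y
    set ν := 1 + α * f u u with hν
    have hν0 : ν ≠ 0 := uni_cond_ne u hcond
    have hνν : ν * σ ν = 1 := by
      rw [hν, map_add, map_one, map_mul, fix_self h]
      linear_combination (f u u) * hcond
    obtain ⟨p, hp, hp0, hpp⟩ := hexb 1 (map_one σ)
    have hcond' : (ν⁻¹ - 1) + σ (ν⁻¹ - 1) + (ν⁻¹ - 1) * σ (ν⁻¹ - 1) * f p p = 0 := by
      rw [hpp, map_sub, map_inv₀, map_one]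
      have hσν : σ ν ≠ 0 := by simpa using hν0
      field_simp
      linear_combination -hνν
    set r := uqr f p (ν⁻¹ - 1) with hr
    have hri : IsIsom f r := uqr_isom h hcond'
    have hrmul : ∀ y, (r : Matrix (Fin n) (Fin n) F) *ᵥ y = y + ((ν⁻¹ - 1) * f y p) • p := fun y =>
      uqr_mulVec h (uni_cond_ne p hcond') y
    have hsr : s * r ∈ H := by
      refine ⟨mem_subspaceStabilizer_iff.mpr ?_, hsi.mul hri, ?_⟩
      · intro x hx
        rw [gl_mul_mulVec, hrmul, hWPo x hx p hp, mul_zero, zero_smul, add_zero, hsmul]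
        exact W.add_mem hx (W.smul_mem _ huW)
      · change s * r ∈ Geo.specialLinear (Fin n) F
        rw [Geo.specialLinear, MonoidHom.mem_ker]
        apply Units.ext
        rw [Matrix.GeneralLinearGroup.val_det_apply, Units.val_mul, Matrix.det_mul, hs, hr,
          det_uqr h (uni_cond_ne u hcond), det_uqr h (uni_cond_ne p hcond'), hpp, ← hν]
        simp only [mul_one, add_sub_cancel, Units.val_one]
        exact mul_inv_cancel₀ hν0
    obtain ⟨b, hb, hb0, hbb⟩ := hexb (- f a a) (by rw [map_neg, fix_self h])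
    have h1 := hGa b hb hb0 (by rw [hnorm a ha b hb, hbb]; ring)
    have h2 := ufull_image h h1 (hHM hsr) hsr.2.1
    have h3 : ((s * r : GL (Fin n) F) : Matrix (Fin n) (Fin n) F) *ᵥ (a + b) = a' +
        (b + ((ν⁻¹ - 1) * f b p) • p) := by
      have h4 : b + ((ν⁻¹ - 1) * f b p) • p ∈ P := P.add_mem hb (P.smul_mem _ hp)
      rw [Matrix.mulVec_add, gl_mul_mulVec, gl_mul_mulVec, hrmul, hrmul, hWPo a ha p hp, mul_zero, zero_smul,
        add_zero, hsmul a, hsmul (b + _), hPWo _ h4 u huW, mul_zero, zero_smul, add_zero, hα,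
        inv_mul_cancel₀ hne, one_smul, hu]
      abel
    rw [h3] at h2
    apply hG1 a' ha' _ (P.add_mem hb (P.smul_mem _ hp)) _ h2
    intro h0
    have h4 : (r : Matrix (Fin n) (Fin n) F) *ᵥ b = 0 := by rw [hrmul]; exact h0
    exact gl_mulVec_ne_zero r hb0 h4
  obtain ⟨μ1, hμ1, hμ1'⟩ := exists_norm_one_ne hσ h.inv
  have hμ10 : μ1 ≠ 0 := by rintro rfl; rw [zero_mul] at hμ1; exact zero_ne_one hμ1
  have hσμ1 : σ μ1 ≠ 0 := by simpa using hμ10
  -- F4 : transitivity
  have hG4 : ∀ a ∈ W, ∀ a' ∈ W, a ≠ 0 → a' ≠ 0 → f a a = f a' a' → G a → G a' := by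
    intro a ha a' ha' ha0 ha'0 haa hGa
    by_cases hne : f a (a' - a) = 0
    · have hfa : f a a' = f a a := by rw [h.sub_right, sub_eq_zero] at hne; exact hne
      by_cases hc : f a a = 0
      · -- isotropic case
        obtain ⟨z, hz, hza, hza'⟩ := h.exists_common_in W (hW a ha ha0).1 (hW a' ha' ha'0).1
        obtain ⟨k, hk⟩ := iso_adj h hσ hc hza
        set z' := z + k • a with hz'
        have hz'W : z' ∈ W := W.add_mem hz (W.smul_mem _ ha)
        have e1 : f a z' ≠ 0 := by
          rw [hz', h.add_right, h.smul_right, hc, mul_zero, add_zero]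
          exact fun h' => hza (h.symm_zero.mp h')
        have e2 : f z' a' ≠ 0 := by
          rw [hz', h.add_left, h.smul_left, hfa, hc, mul_zero, add_zero]; exact hza'
        have hGz : G z' := hG3 a ha z' hz'W (by rw [hc, hk]) (by rw [h.sub_right, hc, sub_zero]; exact e1) hGa
        exact hG3 z' hz'W a' ha' (by rw [hk, ← haa, hc]) (by rw [h.sub_right, hk, sub_zero]; exact e2) hGz
      · have hGμ := hG2 a ha hGa μ1 hμ10
        apply hG3 (μ1 • a) (W.smul_mem _ ha) a' ha' _ _ hGμ
        · rw [h.smul_left, h.smul_right, ← mul_assoc, hμ1, one_mul, haa]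
        · rw [h.sub_right, h.smul_left, h.smul_left, h.smul_right, hfa]
          have : μ1 * f a a - μ1 * (σ μ1 * f a a) = (μ1 - 1) * f a a := by
            linear_combination (-(f a a)) * hμ1
          rw [this]
          exact mul_ne_zero (sub_ne_zero.mpr hμ1') hc
    · exact hG3 a ha a' ha' haa hne hGa
  -- the starting point
  obtain ⟨a0, ha0W, b0, hb0P, hab0⟩ := h.decomp_of_nondeg hW x0
  have ha0 : a0 ≠ 0 := by
    rintro rfl
    rw [zero_add] at hab0
    exact hx0P (hab0 ▸ hb0P)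
  have hb0 : b0 ≠ 0 := by
    rintro rfl
    rw [add_zero] at hab0
    exact hx0W (hab0 ▸ ha0W)
  have hGa0 : G a0 := hG1 a0 ha0W b0 hb0P hb0 (by rw [hab0]; exact hx0)
  obtain ⟨δ, hδ0, hδ⟩ := exists_skew hσ h.inv
  obtain ⟨κ, hκ⟩ := tr_surj hσ h.inv (b := (1 : F)) (map_one σ)
  have hκ0 : κ ≠ 0 := by
    rintro rfl
    rw [map_zero, add_zero] at hκ
    exact zero_ne_one hκ
  -- a point of G with non-zero norm
  obtain ⟨a1, ha1W, ha1n, hGa1⟩ : ∃ a ∈ W, f a a ≠ 0 ∧ G a := by
    by_cases hc : f a0 a0 = 0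
    · obtain ⟨⟨x, hx, hxa⟩, -⟩ := hW a0 ha0W ha0
      obtain ⟨k, hk⟩ := iso_adj h hσ hc hxa
      set y := x + k • a0 with hy
      have hyW : y ∈ W := W.add_mem hx (W.smul_mem _ ha0W)
      have hya : f y a0 ≠ 0 := by rw [hy, h.add_left, h.smul_left, hc, mul_zero, add_zero]; exact hxa
      have hay : f a0 y ≠ 0 := fun h' => hya (h.symm_zero.mp h')
      -- scale
      set a' := σ (f a0 y)⁻¹ • y with ha'
      have ha'W : a' ∈ W := W.smul_mem _ hyW
      have ha'1 : f a0 a' = 1 := by rw [ha', h.smul_right, h.inv, inv_mul_cancel₀ hay]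
      have ha'a' : f a' a' = 0 := by rw [ha', h.smul_left, h.smul_right, hk]; ring
      have ha'0 : a' ≠ 0 := by
        intro h'; rw [h', h.zero_right] at ha'1; exact zero_ne_one ha'1
      have hGa' : G a' := hG4 a0 ha0W a' ha'W ha0 ha'0 (by rw [hc, ha'a']) hGa0
      clear_value a'
      -- b isotropic, b' with prescribed product
      obtain ⟨b', hb'P, hb'1, hb'2⟩ := exists_pair_in h hσ hPnd hPdim hv1P hv10 (σ (δ / κ) - 1) (c := 0) (map_zero σ)
      -- make sure b' ≠ 0
      obtain ⟨b'', hb''P, hb''0, hb''1, hb''2⟩ : ∃ b'' ∈ P, b'' ≠ 0 ∧ f v1 b'' = σ (δ / κ) - 1 ∧ f b'' b'' = 0 := by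
        by_cases hb'0 : b' = 0
        · refine ⟨v1, hv1P, hv10, ?_, hv1⟩
          rw [hb'0, h.zero_right] at hb'1
          rw [hv1, hb'1]
        · exact ⟨b', hb'P, hb'0, hb'1, hb'2⟩
      have hu1 : ufull σ f M (a0 + v1) := hGa0 v1 hv1P hv10 (by rw [hnorm a0 ha0W v1 hv1P, hc, hv1, add_zero])
      have hu2 : ufull σ f M (a' + b'') := hGa' b'' hb''P hb''0 (by rw [hnorm a' ha'W b'' hb''P, ha'a', hb''2, add_zero])
      have hu12 : f (a0 + v1) (a' + b'') = σ (δ / κ) := by
        rw [h.add_left, h.add_right, h.add_right, ha'1, hWPo a0 ha0W b'' hb''P, hPWo v1 hv1P a' ha'W, hb''1]; ring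
      have hu21 : f (a' + b'') (a0 + v1) = δ / κ := by
        rw [herm' h, hu12, h.inv]
      have hσκ : σ κ ≠ 0 := by simpa using hκ0
      have hne : f (a0 + v1) (a' + b'') ≠ 0 := by
        rw [hu12]
        simpa using ⟨hδ0, hκ0⟩
      have hc' : f ((a0 + v1) + κ • (a' + b'')) ((a0 + v1) + κ • (a' + b'')) = 0 := by
        rw [h.add_left, h.add_right (a0 + v1), h.add_right (κ • (a' + b'')), h.smul_left, h.smul_right, h.smul_left,
          h.smul_right, hu1.1, hu2.1, hu12, hu21, map_div₀, hδ]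
        field_simp
        ring
      have h1 := ufull_add h hu1 hu2 hne hc'
      have h2 : (a0 + v1) + κ • (a' + b'') = (a0 + κ • a') + (v1 + κ • b'') := by rw [smul_add]; abel
      rw [h2] at h1
      have haW : a0 + κ • a' ∈ W := W.add_mem ha0W (W.smul_mem _ ha'W)
      have hbP : v1 + κ • b'' ∈ P := P.add_mem hv1P (P.smul_mem _ hb''P)
      have hn1 : f (a0 + κ • a') (a0 + κ • a') = 1 := by
        have ha'1' : f a' a0 = 1 := by rw [herm' h, ha'1, map_one]
        rw [h.add_left, h.add_right, h.add_right, h.smul_left, h.smul_right, h.smul_left, h.smul_right, hc, ha'a',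
          ha'1, ha'1']
        linear_combination hκ
      refine ⟨a0 + κ • a', haW, by rw [hn1]; exact one_ne_zero, hG1 _ haW _ hbP ?_ h1⟩
      intro h0
      have h3 := h1.1
      rw [hnorm _ haW _ hbP, hn1, h0, h.zero_left, add_zero] at h3
      exact one_ne_zero h3
    · exact ⟨a0, ha0W, hc, hGa0⟩
  -- G for all anisotropic vectors
  have hG5 : ∀ a ∈ W, f a a ≠ 0 → G a := by
    intro a ha hc
    have ha0' : a ≠ 0 := by rintro rfl; rw [h.zero_left] at hc; exact hc rfl
    obtain ⟨μ, hμ0, hμ⟩ := norm_surj hσ h.inv (b := f a a / f a1 a1) (div_ne_zero hc ha1n)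
      (by rw [map_div₀, fix_self h, fix_self h])
    have h1 := hG2 a1 ha1W hGa1 μ hμ0
    have ha10 : a1 ≠ 0 := by rintro rfl; rw [h.zero_left] at ha1n; exact ha1n rfl
    apply hG4 (μ • a1) (W.smul_mem _ ha1W) a ha (smul_ne_zero hμ0 ha10) ha0' _ h1
    rw [h.smul_left, h.smul_right, ← mul_assoc, hμ, div_mul_cancel₀ _ ha1n]
  -- everything
  have hall : ∀ y, f y y = 0 → ufull σ f M y := by
    intro y hy
    obtain ⟨a, ha, b, hb, hab⟩ := h.decomp_of_nondeg hW y
    rw [← hab] at hy ⊢
    by_cases ha0' : a = 0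
    · rw [ha0', zero_add] at hy ⊢
      exact hfullP b hb hy
    by_cases hb0' : b = 0
    · rw [hb0', add_zero] at hy ⊢
      exact hfullW a ha hy
    by_cases hc : f a a = 0
    · have hbb : f b b = 0 := by rw [hnorm a ha b hb, hc, zero_add] at hy; exact hy
      obtain ⟨⟨x, hx, hxa⟩, -⟩ := hW a ha ha0'
      obtain ⟨k, hk⟩ := iso_adj h hσ hc hxa
      set y' := x + k • a with hy'
      have hyW : y' ∈ W := W.add_mem hx (W.smul_mem _ ha)
      have hya : f y' a ≠ 0 := by rw [hy', h.add_left, h.smul_left, hc, mul_zero, add_zero]; exact hxa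
      have hay : f a y' ≠ 0 := fun h' => hya (h.symm_zero.mp h')
      set a' := σ (f a y')⁻¹ • y' with ha'
      have ha'W : a' ∈ W := W.smul_mem _ hyW
      have ha'1 : f a a' = 1 := by rw [ha', h.smul_right, h.inv, inv_mul_cancel₀ hay]
      have ha'1' : f a' a = 1 := by rw [herm' h, ha'1, map_one]
      have ha'a' : f a' a' = 0 := by rw [ha', h.smul_left, h.smul_right, hk]; ring
      clear_value a'
      set a2 := κ • a + a' with ha2
      have ha2W : a2 ∈ W := W.add_mem (W.smul_mem _ ha) ha'W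
      have hn2 : f a2 a2 = 1 := by
        rw [ha2, h.add_left, h.add_right, h.add_right, h.smul_left, h.smul_right, h.smul_left, h.smul_right, hc,
          ha'a', ha'1, ha'1']
        linear_combination hκ
      have ha12 : f a a2 = 1 := by rw [ha2, h.add_right, h.smul_right, hc, ha'1]; ring
      have ha21 : f a2 a = 1 := by rw [herm' h, ha12, map_one]
      clear_value a2
      obtain ⟨b2, hb2P, hb21, hb22⟩ := exists_pair_in h hσ hPnd hPdim hb hb0' (δ - 1) (c := -1) (by rw [map_neg, map_one])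
      have hb20 : b2 ≠ 0 := by
        rintro rfl; rw [h.zero_left] at hb22; exact one_ne_zero (by linear_combination hb22)
      have hz : ufull σ f M (a2 + b2) := hG5 a2 ha2W (by rw [hn2]; exact one_ne_zero) b2 hb2P hb20
        (by rw [hnorm a2 ha2W b2 hb2P, hn2, hb22]; ring)
      have hyz : f (a + b) (a2 + b2) = δ := by
        rw [h.add_left, h.add_right, h.add_right, ha12, hWPo a ha b2 hb2P, hPWo b hb a2 ha2W, hb21]; ring
      have hzy : f (a2 + b2) (a + b) = -δ := by rw [herm' h, hyz, hδ]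
      have hb12' : f b2 b = -δ - 1 := by rw [herm' h, hb21, map_sub, map_one, hδ]
      -- y - z
      have hd : (a + b) - (a2 + b2) = (a - a2) + (b - b2) := by abel
      have hdn : f (a - a2) (a - a2) = -1 := by
        rw [h.sub_left, h.sub_right, h.sub_right, hc, hn2, ha12, ha21]; ring
      have hdb : f (b - b2) (b - b2) = 1 := by
        rw [h.sub_left, h.sub_right, h.sub_right, hbb, hb22, hb21, hb12']; ring
      have haW' : a - a2 ∈ W := W.sub_mem ha ha2W
      have hbP' : b - b2 ∈ P := P.sub_mem hb hb2P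
      have hyz' : ufull σ f M ((a - a2) + (b - b2)) := by
        apply hG5 _ haW' (by rw [hdn]; exact neg_ne_zero.mpr one_ne_zero) _ hbP'
        · intro h0; rw [h0, h.zero_left] at hdb; exact zero_ne_one hdb
        · rw [hnorm _ haW' _ hbP', hdn, hdb]; ring
      rw [← hd] at hyz'
      have hne : f ((a + b) - (a2 + b2)) (a2 + b2) ≠ 0 := by
        rw [h.sub_left, hyz, hz.1, sub_zero]; exact hδ0
      have h5 : (a + b) - (a2 + b2) + (1 : F) • (a2 + b2) = a + b := by rw [one_smul, sub_add_cancel]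
      have h6 := ufull_add h hyz' hz hne (c := 1) (by rw [h5]; exact hy)
      rwa [h5] at h6
    · exact hG5 a ha hc b hb hb0' hy
  intro k hk
  exact su_mem_of_utv_mem h hσ hcardι (fun z a hz ha => (hall z hz).2 a ha) hk.1 hk.2

end Cfsg.Agent.S5654
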