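import Cfsg.Statements.S5656
import Cfsg.Agent.H12.DecProj
import Cfsg.Agent.H12.HermStd

set_option autoImplicit false
open Cfsg

namespace Cfsg.Agent.S5656

set_option linter.unusedSectionVars false

open Cfsg.Agent.H12 Cfsg.Agent.H12.IsProj Matrix

section aux

variable {ι : Type} [Fintype ι] [DecidableEq ι] {F : Type*} [Field F]
variable {t : ℕ} {D : Fin t → Submodule F (ι → F)} {f : (ι → F) → (ι → F) → F} {σ : F ≃+* F}

/-- the group of matrices permuting the anisotropic vectors of the members of the decomposition -/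
def Kw (D : Fin t → Submodule F (ι → F)) (f : (ι → F) → (ι → F) → F) : Subgroup (GL ι F) where
  carrier := {g | ∀ v, ((∃ i, (g : Matrix ι ι F) *ᵥ v ∈ D i) ∧ f ((g : Matrix ι ι F) *ᵥ v) ((g : Matrix ι ι F) *ᵥ v) ≠ 0) ↔
    ((∃ i, v ∈ D i) ∧ f v v ≠ 0)}
  mul_mem' := by
    intro a b ha hb v
    rw [gl_mul_mulVec, ha, hb]
  one_mem' := by
    intro v
    simp
  inv_mem' := by
    intro a ha v
    rw [← ha, gl_mulVec_inv_mulVec]

theorem stab_le_Kw {g : GL ι F} (hg : g ∈ Geo.decompositionStabilizer D) (hi : IsIsom f g) : g ∈ Kw D f := by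
  intro v
  rw [hi]
  constructor
  · rintro ⟨⟨i, hgi⟩, hv⟩
    refine ⟨?_, hv⟩
    have := exists_mem_of_stab (Subgroup.inv_mem _ hg) hgi
    rwa [gl_inv_mulVec_mulVec] at this
  · rintro ⟨⟨i, hvi⟩, hv⟩
    exact ⟨exists_mem_of_stab hg hvi, hv⟩

theorem norm_cases (h : ReflForm σ 1 f) (hσq : ∀ x, σ x = x ^ 2) (h2 : (2 : F) = 0) (w : ι → F) (hw : f w w ≠ 0) :
    f w w = 1 := by
  have h1 := h.herm w w
  rw [one_mul, hσq] at h1
  have h3 : f w w * (f w w - 1) = 0 := by linear_combination -h1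
  rcases mul_eq_zero.1 h3 with h4 | h4
  · exact absurd h4 hw
  · exact sub_eq_zero.1 h4

theorem exists_orth (h : ReflForm σ 1 f) {W : Submodule F (ι → F)} (hdim : Module.finrank F W = 2) {w : ι → F}
    (hw : w ∈ W) (hww : f w w = 1) : ∃ z ∈ W, z ≠ 0 ∧ f z w = 0 := by
  have hw0 : w ≠ 0 := by
    rintro rfl
    rw [h.zero_left] at hww
    exact zero_ne_one hww
  have h1 : ∃ z ∈ W, z ∉ Submodule.span F {w} := by
    by_contra hcon
    push Not at hcon
    have h3 : W ≤ Submodule.span F {w} := hcon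
    have h4 := Submodule.finrank_mono h3
    rw [hdim, finrank_span_singleton hw0] at h4
    omega
  obtain ⟨z, hz, hzw⟩ := h1
  refine ⟨z - f z w • w, W.sub_mem hz (W.smul_mem _ hw), ?_, ?_⟩
  · intro h0
    apply hzw
    rw [sub_eq_zero] at h0
    rw [h0]
    exact Submodule.smul_mem _ _ (Submodule.mem_span_singleton_self w)
  · rw [h.sub_left, h.smul_left, hww, mul_one, sub_self]

theorem aniso_mult (h : ReflForm σ 1 f) (hσq : ∀ x, σ x = x ^ 2) (h4 : ∀ x : F, x ≠ 0 → x ^ 3 = 1) {W : Submodule F (ι → F)}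
    (hW : Geo.IsNondegenerateOn f W) (hdim : Module.finrank F W = 2) {v w : ι → F} (hv : v ∈ W) (hw : w ∈ W)
    (hww : f w w = 1) (hvv : f v v = 1) (hvw : f v w ≠ 0) : v = f v w • w := by
  by_contra hne
  have hz : v - f v w • w ∈ W := W.sub_mem hv (W.smul_mem _ hw)
  have hz0 : v - f v w • w ≠ 0 := fun h0 => hne (sub_eq_zero.1 h0)
  have hzw : f (v - f v w • w) w = 0 := by rw [h.sub_left, h.smul_left, hww, mul_one, sub_self]
  have hwz : f w (v - f v w • w) = 0 := h.symm_zero.1 hzw
  have hzz : f (v - f v w • w) (v - f v w • w) = 0 := by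
    rw [h.sub_right, h.smul_right, hzw, mul_zero, sub_zero, h.sub_left, h.smul_left, hvv]
    have h5 : f w v = σ (f v w) := by rw [h.herm w v, one_mul]
    rw [h5, hσq]
    have h6 := h4 _ hvw
    linear_combination -h6
  obtain ⟨⟨x, hx, hxz⟩, -⟩ := hW _ hz hz0
  apply hxz
  have hw0 : w ≠ 0 := by
    rintro rfl
    rw [h.zero_left] at hww
    exact zero_ne_one hww
  have hli : LinearIndependent F ![(⟨w, hw⟩ : W), ⟨_, hz⟩] := by
    rw [LinearIndependent.pair_iff]
    intro s u hsu
    have hsu' : s • w + u • (v - f v w • w) = 0 := congrArg Subtype.val hsu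
    have h7 := congrArg (fun y => f y w) hsu'
    simp only [h.add_left, h.smul_left, hww, hzw, h.zero_left, mul_zero, add_zero, mul_one] at h7
    rw [h7, zero_smul, zero_add] at hsu'
    exact ⟨h7, (smul_eq_zero.1 hsu').resolve_right hz0⟩
  have hspan : Submodule.span F (Set.range ![(⟨w, hw⟩ : W), ⟨_, hz⟩]) = ⊤ := by
    apply hli.span_eq_top_of_card_eq_finrank
    rw [Fintype.card_fin, hdim]
  have hx' : (⟨x, hx⟩ : W) ∈ Submodule.span F (Set.range ![(⟨w, hw⟩ : W), ⟨_, hz⟩]) := by rw [hspan]; trivial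
  rw [Matrix.range_cons, Matrix.range_cons, Matrix.range_empty, Set.union_empty, Set.singleton_union,
    Submodule.mem_span_pair] at hx'
  obtain ⟨s, u, hsu⟩ := hx'
  have hsu' : s • w + u • (v - f v w • w) = x := congrArg Subtype.val hsu
  rw [← hsu', h.add_left, h.smul_left, h.smul_left, hwz, hzz, mul_zero, mul_zero, add_zero]

theorem utv_mem_Kw [Fintype F] (h : ReflForm σ 1 f) (hσq : ∀ x, σ x = x ^ 2) (h2 : (2 : F) = 0)
    (hD : Geo.IsNondegenerateMDecomposition f 2 D) {w : Fin t → ι → F} (hwD : ∀ i, w i ∈ D i)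
    (hww : ∀ i, f (w i) (w i) = 1) (hF : Fintype.card F = 4) {a b : Fin t} (hab : a ≠ b) : utv f (w a + w b) 1 ∈ Kw D f := by
  have h4 : ∀ x : F, x ≠ 0 → x ^ 3 = 1 := by
    intro x hx
    have := FiniteField.pow_card_sub_one_eq_one x hx
    rwa [hF] at this
  have hwab : f (w a) (w b) = 0 := hD.orthogonal a b hab _ (hwD a) _ (hwD b)
  have hwba : f (w b) (w a) = 0 := hD.orthogonal b a hab.symm _ (hwD b) _ (hwD a)
  have hu0 : f (w a + w b) (w a + w b) = 0 := by
    rw [h.add_left, h.add_right, h.add_right, hww, hww, hwab, hwba]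
    linear_combination h2
  have hself : ∀ x : ι → F, x + x = 0 := by
    intro x
    calc x + x = (2 : F) • x := by rw [two_smul]
      _ = 0 := by rw [h2, zero_smul]
  have hσ1 : σ 1 = -1 := by rw [map_one]; linear_combination h2
  -- one direction
  have key : ∀ v, ((∃ i, v ∈ D i) ∧ f v v ≠ 0) →
      ((∃ i, ((utv f (w a + w b) 1 : GL ι F) : Matrix ι ι F) *ᵥ v ∈ D i) ∧
        f (((utv f (w a + w b) 1 : GL ι F) : Matrix ι ι F) *ᵥ v) (((utv f (w a + w b) 1 : GL ι F) : Matrix ι ι F) *ᵥ v) ≠ 0) := by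
    rintro v ⟨⟨i, hvi⟩, hvv⟩
    refine ⟨?_, by rw [utv_isometry h hu0 hσ1]; exact hvv⟩
    have hv1 := norm_cases h hσq h2 v hvv
    rw [utv_mulVec h hu0, one_mul, h.add_right]
    by_cases hia : i = a
    · subst hia
      rw [hD.orthogonal i b hab v hvi _ (hwD b), add_zero]
      by_cases h5 : f v (w i) = 0
      · rw [h5, zero_smul, add_zero]; exact ⟨i, hvi⟩
      · have h6 := aniso_mult h hσq h4 (hD.nondegenerate i) (hD.decomp.finrank_eq i) hvi (hwD i) (hww i) hv1 h5
        refine ⟨b, ?_⟩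
        have h7 : v + f v (w i) • (w i + w b) = f v (w i) • w b := by
          calc v + f v (w i) • (w i + w b) = (v + f v (w i) • w i) + f v (w i) • w b := by rw [smul_add, add_assoc]
            _ = (f v (w i) • w i + f v (w i) • w i) + f v (w i) • w b := by rw [← h6]
            _ = _ := by rw [hself, zero_add]
        rw [h7]
        exact (D b).smul_mem _ (hwD b)
    · by_cases hib : i = b
      · subst hib
        rw [hD.orthogonal i a hia v hvi _ (hwD a), zero_add]
        by_cases h5 : f v (w i) = 0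
        · rw [h5, zero_smul, add_zero]; exact ⟨i, hvi⟩
        · have h6 := aniso_mult h hσq h4 (hD.nondegenerate i) (hD.decomp.finrank_eq i) hvi (hwD i) (hww i) hv1 h5
          refine ⟨a, ?_⟩
          have h7 : v + f v (w i) • (w a + w i) = f v (w i) • w a := by
            calc v + f v (w i) • (w a + w i) = (v + f v (w i) • w i) + f v (w i) • w a := by rw [smul_add]; abel
              _ = (f v (w i) • w i + f v (w i) • w i) + f v (w i) • w a := by rw [← h6]
              _ = _ := by rw [hself, zero_add]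
          rw [h7]
          exact (D a).smul_mem _ (hwD a)
      · rw [hD.orthogonal i a hia v hvi _ (hwD a), hD.orthogonal i b hib v hvi _ (hwD b), add_zero, zero_smul, add_zero]
        exact ⟨i, hvi⟩
  intro v
  refine ⟨fun hv => ?_, key v⟩
  have h5 := key _ hv
  have h6 : ((utv f (w a + w b) 1 : GL ι F) : Matrix ι ι F) *ᵥ (((utv f (w a + w b) 1 : GL ι F) : Matrix ι ι F) *ᵥ v) = v := by
    rw [utv_mulVec h hu0, utv_mulVec h hu0, h.add_left, h.smul_left, hu0, mul_zero, add_zero, add_assoc, hself, add_zero]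
  rw [h6] at h5
  exact h5

end aux

/-- Let F be the field with 4 elements (q = 2) and n ≥ 13. Let D be a decomposition of F^n into t pairwise orthogonal 2-dimensional subspaces, each non-degenerate for the standard unitary form Σ u_i v_i². Then the elements of SU_n(2) permuting the members of D form a subgroup that is not maximal: some subgroup lies strictly between it and SU_n(2). -/
theorem result {F : Type*} [Field F] [Fintype F] (n : ℕ) (hF : Fintype.card F = 4) (hn : 13 ≤ n) {t : ℕ} (D : Fin t → Submodule F (Fin n → F)) (hD : Cfsg.Geo.IsNondegenerateMDecomposition (Cfsg.hermForm n F 2) 2 D) : ∃ K : Subgroup (Matrix.GeneralLinearGroup (Fin n) F), Cfsg.Geo.decompositionStabilizer D ⊓ (Cfsg.GU n F 2 ⊓ Cfsg.Geo.specialLinear (Fin n) F) < K ∧ K < (Cfsg.GU n F 2 ⊓ Cfsg.Geo.specialLinear (Fin n) F) := by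
  classical
  have hF' : Fintype.card F = 2 ^ 2 := by rw [hF]; norm_num
  obtain ⟨σ, hσq, hσ1, hinv⟩ := exists_frob hF'
  have h : ReflForm σ 1 (Cfsg.hermForm n F 2) := reflForm_herm hσq hinv
  have h2 : (2 : F) = 0 := by
    have h0 : ((Fintype.card F : ℕ) : F) = 0 := FiniteField.cast_card_eq_zero F
    rw [hF] at h0
    push_cast at h0
    have : (2 : F) * 2 = 0 := by linear_combination h0
    exact (mul_self_eq_zero).1 this
  have hσ1' : σ 1 = -1 := by rw [map_one]; linear_combination h2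
  obtain ⟨p, hp⟩ := exists_isProj hD.decomp
  have ht : t * 2 = n := by
    have h1 := card_decomp hD.decomp
    rwa [Fintype.card_fin] at h1
  have hw : ∀ i, ∃ w ∈ D i, Cfsg.hermForm n F 2 w w = 1 := by
    intro i
    obtain ⟨x, hx, hx0⟩ := exists_ne_zero_dec hD.decomp i
    obtain ⟨⟨y, hy, hyx⟩, -⟩ := hD.nondegenerate i x hx hx0
    have h3 : ∃ w ∈ D i, Cfsg.hermForm n F 2 w w ≠ 0 := by
      by_contra hcon
      push Not at hcon
      exact hyx (tot_iso h hσ1 hcon y hy x hx)
    obtain ⟨w, hw, hww⟩ := h3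
    exact ⟨w, hw, norm_cases h hσq h2 w hww⟩
  choose w hwD hww using hw
  have hne : ∀ i, w i ≠ 0 := by
    intro i h0
    have := hww i
    rw [h0, h.zero_left] at this
    exact zero_ne_one this
  let ε : Fin 4 → Fin t := fun k => ⟨k.1, by omega⟩
  have hε : Function.Injective ε := by
    intro a b hab
    exact Fin.ext (congrArg (fun (z : Fin t) => z.1) hab)
  have hort : ∀ i j, i ≠ j → Cfsg.hermForm n F 2 (w i) (w j) = 0 := fun i j hij =>
    hD.orthogonal i j hij _ (hwD i) _ (hwD j)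
  let I := Cfsg.GU n F 2 ⊓ Cfsg.Geo.specialLinear (Fin n) F
  have hutv : ∀ u : Fin n → F, Cfsg.hermForm n F 2 u u = 0 → utv (Cfsg.hermForm n F 2) u 1 ∈ I := by
    intro u hu
    refine Subgroup.mem_inf.2 ⟨?_, det_tv _ _⟩
    rw [mem_GU]
    exact utv_isometry h hu hσ1'
  refine ⟨Kw D (Cfsg.hermForm n F 2) ⊓ I, ?_, ?_⟩
  · refine lt_of_le_of_ne ?_ ?_
    · intro g hg
      rw [Subgroup.mem_inf] at hg
      refine Subgroup.mem_inf.2 ⟨stab_le_Kw hg.1 (mem_GU.1 (Subgroup.mem_inf.1 hg.2).1), hg.2⟩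
    · intro heq
      have hu0 : Cfsg.hermForm n F 2 (w (ε 0) + w (ε 1)) (w (ε 0) + w (ε 1)) = 0 := by
        rw [h.add_left, h.add_right, h.add_right, hww, hww, hort _ _ (fun h => by simpa using hε h),
          hort _ _ (fun h => by simpa using hε h)]
        linear_combination h2
      have h5 : utv (Cfsg.hermForm n F 2) (w (ε 0) + w (ε 1)) 1 ∈ Kw D (Cfsg.hermForm n F 2) ⊓ I :=
        Subgroup.mem_inf.2 ⟨utv_mem_Kw h hσq h2 hD hwD hww hF (fun h => by simpa using hε h), hutv _ hu0⟩
      rw [← heq, Subgroup.mem_inf] at h5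
      obtain ⟨τ, hτ⟩ := h5.1
      -- a vector of `D (ε 0)` orthogonal to `w (ε 0)`
      obtain ⟨z, hz, hz0, hzw⟩ := exists_orth h (hD.decomp.finrank_eq (ε 0)) (hwD (ε 0)) (hww (ε 0))
      have h6 : ((utv (Cfsg.hermForm n F 2) (w (ε 0) + w (ε 1)) 1 : Matrix.GeneralLinearGroup (Fin n) F) : Matrix (Fin n) (Fin n) F) *ᵥ z ∈ D (τ (ε 0)) := by
        rw [← hτ]; exact ⟨z, hz, by rw [Matrix.toLin'_apply]⟩
      have h7 : ((utv (Cfsg.hermForm n F 2) (w (ε 0) + w (ε 1)) 1 : Matrix.GeneralLinearGroup (Fin n) F) : Matrix (Fin n) (Fin n) F) *ᵥ w (ε 0) ∈ D (τ (ε 0)) := by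
        rw [← hτ]; exact ⟨w (ε 0), hwD _, by rw [Matrix.toLin'_apply]⟩
      rw [utv_mulVec h hu0, h.add_right, hzw, hD.orthogonal _ _ (fun h => by simpa using hε h) z hz _ (hwD (ε 1)), add_zero, mul_zero,
        zero_smul, add_zero] at h6
      rw [utv_mulVec h hu0, h.add_right, hww, hort _ _ (fun h => by simpa using hε h), add_zero, mul_one, one_smul] at h7
      have h8 : τ (ε 0) = ε 0 := by
        by_contra hne'
        have h9 := hp.other (ε 0) (τ (ε 0)) (Ne.symm hne') z h6
        rw [hp.self _ _ hz] at h9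
        exact hz0 h9
      rw [h8] at h7
      have h9 := hp.other (ε 1) (ε 0) (fun h => by simpa using hε h) _ h7
      rw [map_add, map_add, hp.other _ _ (fun h => by simpa using hε h) _ (hwD (ε 0)), hp.self _ _ (hwD (ε 1)), zero_add, zero_add] at h9
      exact hne _ h9
  · refine lt_of_le_of_ne inf_le_right ?_
    intro heq
    have hu0 : Cfsg.hermForm n F 2 (w (ε 0) + w (ε 1) + w (ε 2) + w (ε 3)) (w (ε 0) + w (ε 1) + w (ε 2) + w (ε 3)) = 0 := by
      have h3 : ∀ i j, Cfsg.hermForm n F 2 (w (ε i)) (w (ε j)) = if i = j then 1 else 0 := by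
        intro i j
        by_cases hij : i = j
        · subst hij; rw [if_pos rfl]; exact hww _
        · rw [if_neg hij]; exact hort _ _ (fun h => hij (hε h))
      simp only [h.add_left, h.add_right, h3]
      simp
      linear_combination 2 * h2
    have h5 : utv (Cfsg.hermForm n F 2) (w (ε 0) + w (ε 1) + w (ε 2) + w (ε 3)) 1 ∈
      Cfsg.GU n F 2 ⊓ Cfsg.Geo.specialLinear (Fin n) F := hutv _ hu0
    rw [← heq, Subgroup.mem_inf] at h5
    have h6 := (h5.1 (w (ε 0))).2 ⟨⟨_, hwD _⟩, by rw [hww]; exact one_ne_zero⟩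
    obtain ⟨⟨j, hj⟩, -⟩ := h6
    have h7 : Cfsg.hermForm n F 2 (w (ε 0)) (w (ε 0) + w (ε 1) + w (ε 2) + w (ε 3)) = 1 := by
      rw [h.add_right, h.add_right, h.add_right, hww, hort _ _ (fun h => by simpa using hε h),
        hort _ _ (fun h => by simpa using hε h), hort _ _ (fun h => by simpa using hε h)]
      simp
    rw [utv_mulVec h hu0, h7, mul_one, one_smul] at hj
    have key : ∀ k : Fin 4, k ≠ 0 → ε k = j := by
      intro k hk
      by_contra hne'
      have h8 := hp.other (ε k) j hne' _ hj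
      have h9 : ∀ l, p (ε k) (w (ε l)) = if k = l then w (ε k) else 0 := by
        intro l
        by_cases hkl : k = l
        · subst hkl; rw [if_pos rfl]; exact hp.self _ _ (hwD _)
        · rw [if_neg hkl]; exact hp.other _ _ (fun h => hkl (hε h)) _ (hwD _)
      simp only [map_add, h9] at h8
      fin_cases k
      · exact hk rfl
      · simp at h8; exact hne _ h8
      · simp at h8; exact hne _ h8
      · simp at h8; exact hne _ h8
    have h10 := hε ((key 1 (by simp)).trans (key 2 (by simp)).symm)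
    simp at h10

end Cfsg.Agent.S5656
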