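import Cfsg.Statements.S5657
import Cfsg.Agent.H12.UniSieg2
import Cfsg.Agent.H12.SwapTI
set_option autoImplicit false
open Cfsg
namespace Cfsg.Agent.S5657

open scoped MatrixGroups Matrix
open Cfsg.Agent.H12

section gen

variable {ι : Type} [Fintype ι] [DecidableEq ι] {F : Type*} [Field F]

lemma le_or_le {U X Y : Submodule F (ι → F)} (h : ∀ u ∈ U, u ∈ X ∨ u ∈ Y) : U ≤ X ∨ U ≤ Y := by
  by_contra hcon
  push Not at hcon
  obtain ⟨h1, h2⟩ := hcon
  obtain ⟨u, hu, hux⟩ := SetLike.not_le_iff_exists.mp h1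
  obtain ⟨v, hv, hvy⟩ := SetLike.not_le_iff_exists.mp h2
  have huy := (h u hu).resolve_left hux
  have hvx := (h v hv).resolve_right hvy
  rcases h (u + v) (U.add_mem hu hv) with h3 | h3
  · apply hux
    have := X.sub_mem h3 hvx
    rwa [add_sub_cancel_right] at this
  · apply hvy
    have := Y.sub_mem h3 huy
    rwa [add_sub_cancel_left] at this

/-- the set-up: two complementary totally isotropic subspaces, a group `M` of isometries containing the Siegel
elements and no transvections -/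
structure Setup (σ : F ≃+* F) (f : (ι → F) → (ι → F) → F) (A B : Submodule F (ι → F)) (M : Subgroup (GL ι F)) :
    Prop where
  h : ReflForm σ 1 f
  hσ : σ ≠ RingEquiv.refl F
  hAA : ∀ a ∈ A, ∀ a' ∈ A, f a a' = 0
  hBB : ∀ b ∈ B, ∀ b' ∈ B, f b b' = 0
  htop : A ⊔ B = ⊤
  hbot : A ⊓ B = ⊥
  hA : 7 ≤ Module.finrank F A
  hB : 7 ≤ Module.finrank F B
  hM : ∀ a ∈ A, ∀ b ∈ B, f b a = 0 → usieg f a b 0 ∈ M
  hiso : ∀ g ∈ M, IsIsom f g
  hno : ∀ w c, f w w = 0 → w ≠ 0 → σ c = -c → c ≠ 0 → utv f w c ∉ M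

variable {σ : F ≃+* F} {f : (ι → F) → (ι → F) → F} {A B : Submodule F (ι → F)} {M : Subgroup (GL ι F)}

lemma Setup.symm (S : Setup σ f A B M) : Setup σ f B A M where
  h := S.h
  hσ := S.hσ
  hAA := S.hBB
  hBB := S.hAA
  htop := by rw [sup_comm]; exact S.htop
  hbot := by rw [inf_comm]; exact S.hbot
  hA := S.hB
  hB := S.hA
  hM := by
    intro b hb a ha hab
    rw [usieg_swap S.h (S.hBB b hb b hb) (S.hAA a ha a ha) hab]
    exact S.hM a ha (-b) (B.neg_mem hb) (by rw [S.h.neg_left, S.h.symm_zero.mp hab, neg_zero])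
  hiso := S.hiso
  hno := S.hno

lemma Setup.dec (S : Setup σ f A B M) (x : ι → F) : ∃ a ∈ A, ∃ b ∈ B, a + b = x := by
  have : x ∈ A ⊔ B := by rw [S.htop]; trivial
  exact Submodule.mem_sup.mp this

lemma Setup.L1 (S : Setup σ f A B M) {a y : ι → F} (ha : a ∈ A) (ha0 : a ≠ 0) (hya : f y a = 0)
    (hy : usieg f a y 0 ∈ M) : y ∈ B ⊔ Submodule.span F {a} := by
  have h := S.h
  obtain ⟨y0, hy0, y1, hy1, rfl⟩ := S.dec y
  have haa := S.hAA a ha a ha
  have step1 : ∀ b ∈ B, f b a = 0 → f b (y0 + y1) = 0 := by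
    have step0 : ∀ b ∈ B, f b a = 0 → f b (y0 + y1) = f (y0 + y1) b := by
      intro b hbB hba
      by_contra hne
      have h1 := usieg_comm h haa hba hya 0 0
      apply S.hno a (f b (y0 + y1) - f (y0 + y1) b) haa ha0
      · rw [map_sub, ← herm' h, ← herm' h]; ring
      · exact sub_ne_zero.mpr hne
      · have h2 : utv f a (f b (y0 + y1) - f (y0 + y1) b) =
            (usieg f a b 0 * usieg f a (y0 + y1) 0) * (usieg f a (y0 + y1) 0 * usieg f a b 0)⁻¹ := by
          rw [h1]; group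
        rw [h2]
        have h3 := S.hM a ha b hbB hba
        exact mul_mem (mul_mem h3 hy) (inv_mem (mul_mem hy h3))
    intro b hbB hba
    obtain ⟨l, hl⟩ := exists_moved S.hσ
    have h1 := step0 b hbB hba
    have h2 := step0 (l • b) (B.smul_mem _ hbB) (by rw [h.smul_left, hba, mul_zero])
    rw [h.smul_left, h.smul_right, ← h1] at h2
    by_contra hne
    exact hl (mul_right_cancel₀ hne h2).symm
  have step2 : y0 ∈ Submodule.span F {a} := by
    by_contra hne
    obtain ⟨z, hz, hzy⟩ := h.exists_perp_not_orth {a} (x := y0) (by simpa using hne)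
    have hza : f z a = 0 := hz a (by simp)
    obtain ⟨z0, hz0, z1, hz1, rfl⟩ := S.dec z
    rw [h.add_left, S.hAA z0 hz0 a ha, zero_add] at hza
    rw [h.add_left, S.hAA z0 hz0 y0 hy0, zero_add] at hzy
    have h1 := step1 z1 hz1 hza
    rw [h.add_right, S.hBB z1 hz1 y1 hy1, add_zero] at h1
    exact hzy h1
  rw [add_comm]
  exact Submodule.add_mem_sup hy1 step2

lemma Setup.L2 (S : Setup σ f A B M) {w0 w1 u0 u1 : ι → F} (hw0 : w0 ∈ A) (hw1 : w1 ∈ B)
    (hu0 : u0 ∈ A) (hu1 : u1 ∈ B) (hww : f (w0 + w1) (w0 + w1) = 0)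
    (huw : f (u0 + u1) (w0 + w1) = 0) (hM : usieg f (w0 + w1) (u0 + u1) 0 ∈ M) (hw : w0 ≠ 0) :
    u0 ∈ Submodule.span F {w0} := by
  classical
  have h := S.h
  by_contra hcon
  -- b2
  obtain ⟨b2, hb2, hb2w, hb2u⟩ : ∃ b ∈ B, f b w0 = 0 ∧ f b u0 ≠ 0 := by
    obtain ⟨z, hz, hzy⟩ := h.exists_perp_not_orth {w0} (x := u0) (by simpa using hcon)
    have hza : f z w0 = 0 := hz w0 (by simp)
    obtain ⟨z0, hz0, z1, hz1, rfl⟩ := S.dec z
    rw [h.add_left, S.hAA z0 hz0 w0 hw0, zero_add] at hza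
    rw [h.add_left, S.hAA z0 hz0 u0 hu0, zero_add] at hzy
    exact ⟨z1, hz1, hza, hzy⟩
  -- a2
  obtain ⟨a, ha, haw, hau, hab, has⟩ : ∃ a ∈ A, f a w1 = 0 ∧ f a u1 = 0 ∧ f a b2 = 0 ∧ a ∉ Submodule.span F {w0} := by
    have h1 := ReflForm.finrank_inf_ker (h.lin w1) A
    have h2 := ReflForm.finrank_inf_ker (h.lin u1) (A ⊓ LinearMap.ker (h.lin w1))
    have h3 := ReflForm.finrank_inf_ker (h.lin b2) (A ⊓ LinearMap.ker (h.lin w1) ⊓ LinearMap.ker (h.lin u1))
    have h4 : ¬ (A ⊓ LinearMap.ker (h.lin w1) ⊓ LinearMap.ker (h.lin u1) ⊓ LinearMap.ker (h.lin b2) ≤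
        Submodule.span F {w0}) := by
      intro hle
      have h4 := Submodule.finrank_mono hle
      have h5 := finrank_span_singleton (K := F) hw
      have h7 := S.hA
      omega
    obtain ⟨z, hz, hzs⟩ := SetLike.not_le_iff_exists.mp h4
    exact ⟨z, hz.1.1.1, hz.1.1.2, hz.1.2, hz.2, hzs⟩
  have ha0 : a ≠ 0 := by rintro rfl; exact has (Submodule.zero_mem _)
  have hba : f b2 a = 0 := h.symm_zero.mp hab
  have haa := S.hAA a ha a ha
  have hbb := S.hBB b2 hb2 b2 hb2
  set k := usieg f a b2 0 with hk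
  have hkM : k ∈ M := S.hM a ha b2 hb2 hba
  have hki : IsIsom f k := S.hiso k hkM
  have hkmul : ∀ x, (k : Matrix ι ι F) *ᵥ x = x + f x a • b2 + (0 * f x a - f x b2) • a := usieg_mulVec h haa hba 0
  have e1 : f (w0 + w1) a = 0 := by
    rw [h.add_left, S.hAA w0 hw0 a ha, h.symm_zero.mp haw, add_zero]
  have e2 : f (w0 + w1) b2 = 0 := by
    rw [h.add_left, S.hBB w1 hw1 b2 hb2, h.symm_zero.mp hb2w, add_zero]
  have hkw : (k : Matrix ι ι F) *ᵥ (w0 + w1) = w0 + w1 := by rw [hkmul, e1, e2]; simp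
  have e3 : f (u0 + u1) a = 0 := by
    rw [h.add_left, S.hAA u0 hu0 a ha, h.symm_zero.mp hau, add_zero]
  have e4 : f (u0 + u1) b2 = f u0 b2 := by
    rw [h.add_left, S.hBB u1 hu1 b2 hb2, add_zero]
  have hku : (k : Matrix ι ι F) *ᵥ (u0 + u1) = u0 + u1 - f u0 b2 • a := by
    rw [hkmul, e3, e4]; simp only [zero_smul, mul_zero, zero_sub, neg_smul, add_zero]; abel
  have h1 : usieg f (w0 + w1) (u0 + u1 - f u0 b2 • a) 0 ∈ M := by
    have h2 := conj_usieg h hki hww huw 0
    rw [hkw, hku] at h2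
    rw [← h2]
    exact mul_mem (mul_mem hkM hM) (inv_mem hkM)
  have haw' : f a (w0 + w1) = 0 := h.symm_zero.mp e1
  have haw'' : f (-(f u0 b2 • a)) (w0 + w1) = 0 := by rw [h.neg_left, h.smul_left, haw', mul_zero, neg_zero]
  have hau' : f a (u0 + u1) = 0 := h.symm_zero.mp e3
  have h2 : usieg f (w0 + w1) (-(f u0 b2 • a)) 0 ∈ M := by
    have h3 := usieg_mul h hww haw'' huw 0 0
    have e5 : -(f u0 b2 • a) + (u0 + u1) = u0 + u1 - f u0 b2 • a := by abel
    have e6 : (0 : F) + 0 - f (u0 + u1) (-(f u0 b2 • a)) = 0 := by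
      rw [h.neg_right, h.smul_right, e3]; ring
    rw [e5, e6] at h3
    have h4 : usieg f (w0 + w1) (-(f u0 b2 • a)) 0 =
        usieg f (w0 + w1) (u0 + u1 - f u0 b2 • a) 0 * (usieg f (w0 + w1) (u0 + u1) 0)⁻¹ := by
      rw [← h3]; group
    rw [h4]
    exact mul_mem h1 (inv_mem hM)
  have hc : f u0 b2 ≠ 0 := fun h' => hb2u (h.symm_zero.mp h')
  have hcaA : f u0 b2 • a ∈ A := A.smul_mem _ ha
  have hca0 : f u0 b2 • a ≠ 0 := smul_ne_zero hc ha0
  have h3 : usieg f (f u0 b2 • a) (w0 + w1) 0 ∈ M := by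
    rw [usieg_swap h (S.hAA _ hcaA _ hcaA) hww (by rw [h.smul_right, e1, mul_zero])]
    exact h2
  have h4 := S.L1 hcaA hca0 (by rw [h.smul_right, e1, mul_zero]) h3
  obtain ⟨b, hb, s, hs, hbs⟩ := Submodule.mem_sup.mp h4
  obtain ⟨r, rfl⟩ := Submodule.mem_span_singleton.mp hs
  -- w0 = r • ...
  have h5 : w0 - r • f u0 b2 • a ∈ A ⊓ B := by
    refine ⟨A.sub_mem hw0 (A.smul_mem _ hcaA), ?_⟩
    have : w0 - r • f u0 b2 • a = b - w1 := by
      rw [sub_eq_sub_iff_add_eq_add, ← hbs]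
    rw [this]
    exact B.sub_mem hb hw1
  rw [S.hbot] at h5
  have h6 := sub_eq_zero.mp ((Submodule.mem_bot F).mp h5)
  have h7 : r * f u0 b2 ≠ 0 := by
    intro h8
    apply hw
    rw [h6, smul_smul, h8, zero_smul]
  apply has
  rw [Submodule.mem_span_singleton]
  refine ⟨(r * f u0 b2)⁻¹, ?_⟩
  rw [h6, smul_smul r, smul_smul, inv_mul_cancel₀ h7, one_smul]

lemma Setup.L3 (S : Setup σ f A B M) {g : GL ι F} (hg : g ∈ M) {a : ι → F} (ha : a ∈ A) :
    (g : Matrix ι ι F) *ᵥ a ∈ A ∨ (g : Matrix ι ι F) *ᵥ a ∈ B := by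
  have h := S.h
  have hgi := S.hiso g hg
  obtain ⟨w0, hw0, w1, hw1, hw⟩ := S.dec ((g : Matrix ι ι F) *ᵥ a)
  by_cases h0 : w0 = 0
  · right; rw [← hw, h0, zero_add]; exact hw1
  by_cases h1 : w1 = 0
  · left; rw [← hw, h1, add_zero]; exact hw0
  exfalso
  have haa := S.hAA a ha a ha
  have hww : f (w0 + w1) (w0 + w1) = 0 := by rw [hw, hgi]; exact haa
  set U := (B ⊓ LinearMap.ker (h.lin a)).map (Matrix.toLin' (g : Matrix ι ι F)) with hU
  have hUdim : 6 ≤ Module.finrank F U := by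
    have h2 := ReflForm.finrank_inf_ker (h.lin a) B
    have h3 : Module.finrank F U = Module.finrank F (B ⊓ LinearMap.ker (h.lin a) : Submodule F (ι → F)) := by
      apply LinearEquiv.finrank_eq
      refine (Submodule.equivMapOfInjective _ ?_ _).symm
      intro x y hxy
      have h1 : (g : Matrix ι ι F) *ᵥ x = (g : Matrix ι ι F) *ᵥ y := hxy
      rw [← gl_inv_mulVec_mulVec g x, h1, gl_inv_mulVec_mulVec]
    have h4 := S.hB
    omega
  have hle : U ≤ Submodule.span F ({w0, w1} : Set (ι → F)) := by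
    rintro _ ⟨b, ⟨hbB, hba⟩, rfl⟩
    have hba' : f b a = 0 := hba
    rw [Matrix.toLin'_apply]
    obtain ⟨u0, hu0, u1, hu1, hu⟩ := S.dec ((g : Matrix ι ι F) *ᵥ b)
    have huw : f (u0 + u1) (w0 + w1) = 0 := by rw [hu, hw, hgi]; exact hba'
    have hM : usieg f (w0 + w1) (u0 + u1) 0 ∈ M := by
      rw [hu, hw, ← conj_usieg h hgi haa hba']
      exact mul_mem (mul_mem hg (S.hM a ha b hbB hba')) (inv_mem hg)
    have h5 := S.L2 hw0 hw1 hu0 hu1 hww huw hM h0
    have h6 := S.symm.L2 hw1 hw0 hu1 hu0 (by rw [add_comm w1 w0]; exact hww)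
      (by rw [add_comm w1 w0, add_comm u1 u0]; exact huw)
      (by rw [add_comm w1 w0, add_comm u1 u0]; exact hM) h1
    rw [← hu]
    apply Submodule.add_mem
    · exact Submodule.span_mono (by simp) h5
    · exact Submodule.span_mono (by simp) h6
  have h4 := Submodule.finrank_mono hle
  classical
  have h5 := finrank_span_finset_le_card (R := F) ({w0, w1} : Finset (ι → F))
  rw [Set.finrank, Finset.coe_insert, Finset.coe_singleton] at h5
  have h6 := Finset.card_le_two (a := w0) (b := w1)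
  omega

lemma Setup.L4 (S : Setup σ f A B M) {g : GL ι F} (hg : g ∈ M) :
    ((∀ a ∈ A, (g : Matrix ι ι F) *ᵥ a ∈ A) ∧ (∀ b ∈ B, (g : Matrix ι ι F) *ᵥ b ∈ B)) ∨
    ((∀ a ∈ A, (g : Matrix ι ι F) *ᵥ a ∈ B) ∧ (∀ b ∈ B, (g : Matrix ι ι F) *ᵥ b ∈ A)) := by
  have key : ∀ X : Submodule F (ι → F), (∀ a ∈ X, (g : Matrix ι ι F) *ᵥ a ∈ A ∨ (g : Matrix ι ι F) *ᵥ a ∈ B) →
      (∀ a ∈ X, (g : Matrix ι ι F) *ᵥ a ∈ A) ∨ (∀ a ∈ X, (g : Matrix ι ι F) *ᵥ a ∈ B) := by
    intro X hX
    have h1 : X ≤ A.comap (Matrix.toLin' (g : Matrix ι ι F)) ∨ X ≤ B.comap (Matrix.toLin' (g : Matrix ι ι F)) :=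
      le_or_le (fun u hu => hX u hu)
    rcases h1 with h1 | h1
    · left; intro a ha; exact h1 ha
    · right; intro a ha; exact h1 ha
  have hnot : ∀ X : Submodule F (ι → F), X ≠ ⊤ → ¬ ((∀ a ∈ A, (g : Matrix ι ι F) *ᵥ a ∈ X) ∧ (∀ b ∈ B, (g : Matrix ι ι F) *ᵥ b ∈ X)) := by
    rintro X hX ⟨h1, h2⟩
    apply hX
    rw [Submodule.eq_top_iff']
    intro x
    obtain ⟨a, ha, b, hb, hab⟩ := S.dec (((g⁻¹ : GL ι F) : Matrix ι ι F) *ᵥ x)
    rw [← gl_mulVec_inv_mulVec g x, ← hab, Matrix.mulVec_add]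
    exact X.add_mem (h1 a ha) (h2 b hb)
  have hAtop : A ≠ ⊤ := by
    intro h
    have h1 := S.hbot
    rw [h, top_inf_eq] at h1
    have h2 := S.hB
    rw [h1, finrank_bot] at h2
    omega
  have hBtop : B ≠ ⊤ := by
    intro h
    have h1 := S.hbot
    rw [h, inf_top_eq] at h1
    have h2 := S.hA
    rw [h1, finrank_bot] at h2
    omega
  rcases key A (fun a ha => S.L3 hg ha) with h1 | h1
  · rcases key B (fun b hb => (S.symm.L3 hg hb).symm) with h2 | h2
    · exact absurd ⟨h1, h2⟩ (hnot A hAtop)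
    · exact Or.inl ⟨h1, h2⟩
  · rcases key B (fun b hb => (S.symm.L3 hg hb).symm) with h2 | h2
    · exact Or.inr ⟨h1, h2⟩
    · exact absurd ⟨h1, h2⟩ (hnot B hBtop)

lemma isom_det [Finite F] (h : ReflForm σ 1 f) (hσ : σ ≠ RingEquiv.refl F) (hcard : 7 ≤ Fintype.card ι)
    {g : GL ι F} (hg : IsIsom f g) :
    ((g : Matrix ι ι F).det) * σ ((g : Matrix ι ι F).det) = 1 := by
  obtain ⟨v0, -, hv0⟩ := exists_norm_perp h hσ ∅ (by simp; omega) (c := 1) (map_one σ)
  obtain ⟨t, ht, μ, hμ, rfl⟩ := uni_decomp h hσ hcard hv0 _ g hg le_rfl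
  have h1 : (((t * uqr f v0 (μ - 1) : GL ι F) : Matrix ι ι F).det) = μ := by
    have h2 : ((t : Matrix ι ι F).det) = 1 := by
      have h3 := utvGroup_det (σ := σ) (f := f) ht
      have h4 := congrArg Units.val (MonoidHom.mem_ker.mp h3)
      exact h4
    rw [Units.val_mul, Matrix.det_mul, h2, det_uqr h (by rw [hv0]; intro h5; apply zero_ne_one (α := F); rw [← hμ]; simp only [add_sub_cancel, mul_one] at h5; rw [h5]; simp), hv0]
    ring
  rw [h1]; exact hμ

/-- an isometry interchanging `A` and `B` of determinant one -/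
lemma exists_swap_det [Finite F] (h : ReflForm σ 1 f) (hσ : σ ≠ RingEquiv.refl F) (hcard : 7 ≤ Fintype.card ι)
    {A B : Submodule F (ι → F)} (hAA : ∀ a ∈ A, ∀ a' ∈ A, f a a' = 0)
    (hBB : ∀ b ∈ B, ∀ b' ∈ B, f b b' = 0) (htop : A ⊔ B = ⊤) (hbot : A ⊓ B = ⊥)
    {e b : ι → F} (he : e ∈ A) (hb : b ∈ B) (heb : f e b = 1) :
    ∃ g : GL ι F, IsIsom f g ∧ g ∈ Geo.specialLinear ι F ∧
      (∀ a ∈ A, (g : Matrix ι ι F) *ᵥ a ∈ B) ∧ (∀ b ∈ B, (g : Matrix ι ι F) *ᵥ b ∈ A) := by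
  obtain ⟨s, hsi, hsA, hsB⟩ := h.exists_swap_ti hAA hBB htop hbot
  have hdet := isom_det h hσ hcard hsi
  obtain ⟨c, hc, hc'⟩ := hilbert90 hσ h.inv hdet
  have hee := hAA e he e he
  have hbb := hBB b hb b hb
  refine ⟨udil σ f e b c⁻¹ * s, ?_, ?_, ?_, ?_⟩
  · intro x y
    rw [gl_mul_mulVec, gl_mul_mulVec, udil_isom h hee hbb heb (inv_ne_zero hc), hsi]
  · change _ ∈ MonoidHom.ker _
    rw [MonoidHom.mem_ker]
    apply Units.ext
    change (((udil σ f e b c⁻¹ * s : GL ι F) : Matrix ι ι F).det) = 1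
    rw [Units.val_mul, Matrix.det_mul, det_udil h heb (inv_ne_zero hc), map_inv₀, inv_inv, mul_assoc, mul_comm (σ c),
      hc', inv_mul_cancel₀ hc]
  · intro a ha
    rw [gl_mul_mulVec, udil_mulVec h hee hbb heb (inv_ne_zero hc), hBB _ (hsA a ha) b hb, mul_zero, zero_smul, add_zero]
    exact B.add_mem (hsA a ha) (B.smul_mem _ hb)
  · intro a ha
    rw [gl_mul_mulVec, udil_mulVec h hee hbb heb (inv_ne_zero hc), hAA _ (hsB a ha) e he, mul_zero, zero_smul, add_zero]
    exact A.add_mem (hsB a ha) (A.smul_mem _ he)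

end gen

/-- Let F be the field with q² elements and n = 2k ≥ 13. Let D be a decomposition of F^n into two complementary subspaces of dimension k on each of which the standard unitary form vanishes identically. Then the elements of SU_n(q) preserving or interchanging the two subspaces form a maximal subgroup of SU_n(q). -/
theorem result {F : Type*} [Field F] [Fintype F] (n q : ℕ) (hF : Fintype.card F = q ^ 2) (hn : 13 ≤ n) (k : ℕ) (hk : 2 * k = n) (D : Fin 2 → Submodule F (Fin n → F)) (hD : Cfsg.Geo.IsMDecomposition k D) (hts : ∀ i, Cfsg.Geo.IsTotallySingularFor (Cfsg.hermForm n F q) (D i)) : Cfsg.Geo.IsMaximalIn (Cfsg.GU n F q ⊓ Cfsg.Geo.specialLinear (Fin n) F) (Cfsg.Geo.decompositionStabilizer D ⊓ (Cfsg.GU n F q ⊓ Cfsg.Geo.specialLinear (Fin n) F)) := by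
  classical
  obtain ⟨σ, hσq, hσ, hinv⟩ := exists_frob hF
  set f : (Fin n → F) → (Fin n → F) → F := hermForm n F q with hfdef
  have h : ReflForm σ 1 f := reflForm_herm hσq hinv
  clear_value f
  have hGU : ∀ g : GL (Fin n) F, g ∈ GU n F q ↔ IsIsom f g := by
    intro g; rw [hfdef]; exact mem_GU
  have hcard : 7 ≤ Fintype.card (Fin n) := by rw [Fintype.card_fin]; omega
  set A := D 0 with hA
  set B := D 1 with hB
  have hAA : ∀ a ∈ A, ∀ a' ∈ A, f a a' = 0 := hts 0
  have hBB : ∀ b ∈ B, ∀ b' ∈ B, f b b' = 0 := hts 1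
  have htop : A ⊔ B = ⊤ := by
    rw [← hD.iSup_eq_top]
    apply le_antisymm
    · exact sup_le (le_iSup D 0) (le_iSup D 1)
    · apply iSup_le
      intro i
      fin_cases i
      · exact le_sup_left
      · exact le_sup_right
  have hbot : A ⊓ B = ⊥ := by
    have h := hD.indep.pairwiseDisjoint (i := 0) (j := 1) (by simp)
    exact disjoint_iff.mp h
  have hfrA : Module.finrank F A = k := hD.finrank_eq 0
  have hfrB : Module.finrank F B = k := hD.finrank_eq 1
  have hdec : ∀ x : Fin n → F, ∃ a ∈ A, ∃ b ∈ B, a + b = x := by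
    intro x
    have : x ∈ A ⊔ B := by rw [htop]; trivial
    exact Submodule.mem_sup.mp this
  -- membership in the decomposition stabiliser
  have hmem : ∀ g : GL (Fin n) F,
      ((∀ a ∈ A, (g : Matrix _ _ F) *ᵥ a ∈ A) ∧ (∀ b ∈ B, (g : Matrix _ _ F) *ᵥ b ∈ B)) ∨
      ((∀ a ∈ A, (g : Matrix _ _ F) *ᵥ a ∈ B) ∧ (∀ b ∈ B, (g : Matrix _ _ F) *ᵥ b ∈ A)) →
      g ∈ Geo.decompositionStabilizer D := by
    rintro g (⟨h1, h3⟩ | ⟨h1, h3⟩)
    · refine ⟨1, fun i => ?_⟩
      fin_cases i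
      · exact map_eq_of_maps h1 rfl
      · exact map_eq_of_maps h3 rfl
    · refine ⟨Equiv.swap 0 1, fun i => ?_⟩
      fin_cases i
      · simp only [Fin.zero_eta, Equiv.swap_apply_left]
        exact map_eq_of_maps h1 (by rw [hfrA, hfrB])
      · simp only [Fin.mk_one, Equiv.swap_apply_right]
        exact map_eq_of_maps h3 (by rw [hfrA, hfrB])
  set H := Geo.decompositionStabilizer D ⊓ (GU n F q ⊓ Geo.specialLinear (Fin n) F) with hH
  have hsH : ∀ a ∈ A, ∀ b ∈ B, f b a = 0 → usieg f a b 0 ∈ H := by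
    intro a ha b hbB hba
    refine ⟨hmem _ (Or.inl ⟨?_, ?_⟩), (hGU _).mpr (usieg_isom h (hAA a ha a ha) hba (by rw [hBB b hbB b hbB]; simp)),
      usieg_sl _ _ _⟩
    · intro x hx
      rw [usieg_mulVec h (hAA a ha a ha) hba, hAA x hx a ha, zero_smul, add_zero]
      exact A.add_mem hx (A.smul_mem _ ha)
    · intro x hx
      rw [usieg_mulVec h (hAA a ha a ha) hba, hBB x hx b hbB, mul_comm, sub_zero, mul_zero, zero_smul, add_zero]
      exact B.add_mem hx (B.smul_mem _ hbB)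
  -- non-zero vectors
  have hpair : ∀ a ∈ A, a ≠ 0 → ∃ b ∈ B, f b a = 1 := by
    intro a0 ha0 ha00
    obtain ⟨x, hx⟩ := h.nondeg a0 ha00
    obtain ⟨a, ha, b, hb', rfl⟩ := hdec x
    rw [h.add_left, hAA a ha a0 ha0, zero_add] at hx
    refine ⟨(f b a0)⁻¹ • b, B.smul_mem _ hb', ?_⟩
    rw [h.smul_left, inv_mul_cancel₀ hx]
  have hAne : A ≠ ⊥ := by
    intro h; rw [h, finrank_bot] at hfrA; omega
  obtain ⟨a0, ha0, ha00⟩ := (Submodule.ne_bot_iff A).mp hAne
  obtain ⟨b0, hb0, hb0a⟩ := hpair a0 ha0 ha00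
  obtain ⟨κ, hκ0, hκ⟩ := exists_skew hσ hinv
  have hisoab : ∀ a ∈ A, ∀ b ∈ B, f a b + f b a = 0 → f (a + b) (a + b) = 0 := by
    intro a ha b hb hab
    rw [h.add_left, h.add_right, h.add_right, hAA a ha a ha, hBB b hb b hb, zero_add, add_zero, hab]
  have hutvSU : ∀ w c, f w w = 0 → σ c = -c → utv f w c ∈ GU n F q ⊓ Geo.specialLinear (Fin n) F := by
    intro w c hw hc
    have h1 := utv_mem_group (f := f) hw hc
    exact ⟨(hGU _).mpr (utvGroup_isom h h1), utvGroup_det h1⟩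
  refine ⟨lt_of_le_of_ne inf_le_right ?_, ?_⟩
  · -- proper
    intro heq
    obtain ⟨a1, ha1, ha1s⟩ : ∃ a ∈ A, a ∉ Submodule.span F {a0} := by
      by_contra hcon
      push Not at hcon
      have h4 := Submodule.finrank_mono (show A ≤ Submodule.span F {a0} from hcon)
      have h5 := finrank_span_singleton (K := F) ha00
      omega
    obtain ⟨a1', ha1', ha1s', hfa⟩ : ∃ a ∈ A, a ∉ Submodule.span F {a0} ∧ f b0 a ≠ 0 := by
      by_cases h5 : f b0 a1 = 0
      · refine ⟨a1 + a0, A.add_mem ha1 ha0, ?_, ?_⟩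
        · intro h6
          apply ha1s
          have := Submodule.sub_mem _ h6 (Submodule.mem_span_singleton_self a0)
          rwa [add_sub_cancel_right] at this
        · rw [h.add_right, h5, zero_add, hb0a]; exact one_ne_zero
      · exact ⟨a1, ha1, ha1s, h5⟩
    have hw : f (a0 + κ • b0) (a0 + κ • b0) = 0 := by
      apply hisoab a0 ha0 _ (B.smul_mem _ hb0)
      rw [h.smul_left, h.smul_right, herm' h a0 b0, hb0a, hκ, map_one]; ring
    have h1 : utv f (a0 + κ • b0) κ ∈ H := by rw [heq]; exact hutvSU _ _ hw hκ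
    obtain ⟨τ, hτ⟩ := h1.1
    have h3 : ((utv f (a0 + κ • b0) κ : GL (Fin n) F) : Matrix _ _ F) *ᵥ a1' ∈ D (τ 0) := by
      rw [← hτ 0]; exact ⟨a1', ha1', rfl⟩
    have e1 : ((utv f (a0 + κ • b0) κ : GL (Fin n) F) : Matrix _ _ F) *ᵥ a1' =
        (a1' + (κ * f a1' (κ • b0)) • a0) + (κ * f a1' (κ • b0) * κ) • b0 := by
      rw [utv_mulVec h hw, h.add_right, hAA a1' ha1' a0 ha0]; module
    have hne : κ * f a1' (κ • b0) ≠ 0 := by
      rw [h.smul_right]
      refine mul_ne_zero hκ0 (mul_ne_zero ((map_ne_zero σ).mpr hκ0) ?_)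
      exact fun h' => hfa (h.symm_zero.mp h')
    have hb00 : b0 ≠ 0 := by rintro rfl; rw [h.zero_left] at hb0a; exact zero_ne_one hb0a
    have h4 : ∀ i : Fin 2, i = 0 ∨ i = 1 := by intro i; fin_cases i <;> simp
    rw [e1] at h3
    rcases h4 (τ 0) with h5 | h5
    · rw [h5] at h3
      have h6 : (κ * f a1' (κ • b0) * κ) • b0 ∈ A := by
        have := A.sub_mem h3 (A.add_mem ha1' (A.smul_mem (κ * f a1' (κ • b0)) ha0))
        rwa [add_sub_cancel_left] at this
      have h7 : b0 ∈ A ⊓ B := ⟨by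
        have := A.smul_mem (κ * f a1' (κ • b0) * κ)⁻¹ h6
        rwa [smul_smul, inv_mul_cancel₀ (mul_ne_zero hne hκ0), one_smul] at this, hb0⟩
      rw [hbot] at h7
      exact hb00 ((Submodule.mem_bot F).mp h7)
    · rw [h5] at h3
      have h6 : a1' + (κ * f a1' (κ • b0)) • a0 ∈ B := by
        have := B.sub_mem h3 (B.smul_mem (κ * f a1' (κ • b0) * κ) hb0)
        rwa [add_sub_cancel_right] at this
      have h7 : a1' + (κ * f a1' (κ • b0)) • a0 ∈ A ⊓ B := ⟨A.add_mem ha1' (A.smul_mem _ ha0), h6⟩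
      rw [hbot, Submodule.mem_bot] at h7
      apply ha1s'
      rw [eq_neg_of_add_eq_zero_left h7]
      exact Submodule.neg_mem _ (Submodule.smul_mem _ _ (Submodule.mem_span_singleton_self a0))
  intro M hHM hMS
  by_cases hMH : M ≤ H
  · left; exact le_antisymm hMH hHM
  right
  have hMi : ∀ g ∈ M, IsIsom f g := fun g hg => (hGU g).mp (hMS hg).1
  -- a transvection in M
  obtain ⟨w, c, hww, hw, hcs, hc, hwc⟩ : ∃ w c, f w w = 0 ∧ w ≠ 0 ∧ σ c = -c ∧ c ≠ 0 ∧ utv f w c ∈ M := by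
    by_contra hcon
    push Not at hcon
    apply hMH
    have S : Setup σ f A B M :=
      { h := h, hσ := hσ, hAA := hAA, hBB := hBB, htop := htop, hbot := hbot, hA := by omega, hB := by omega
        hM := fun a ha b hb hab => hHM (hsH a ha b hb hab)
        hiso := hMi
        hno := hcon }
    intro g hg
    exact ⟨hmem g (S.L4 hg), hMS hg⟩
  -- swap
  obtain ⟨s, hsi, hsdet, hsA, hsB⟩ := exists_swap_det h hσ hcard hAA hBB htop hbot ha0 hb0
    (by rw [herm' h, hb0a, map_one])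
  have hsM : s ∈ M := hHM ⟨hmem s (Or.inr ⟨hsA, hsB⟩), (hGU _).mpr hsi, hsdet⟩
  -- a transvection with centre in A
  obtain ⟨a, c, ha, hane, hcs, hc, hac⟩ : ∃ a c, a ∈ A ∧ a ≠ 0 ∧ σ c = -c ∧ c ≠ 0 ∧ utv f a c ∈ M := by
    obtain ⟨w0, hw0, w1, hw1, rfl⟩ := hdec w
    by_cases h0 : w0 = 0
    · -- centre in B
      rw [h0, zero_add] at hwc hw
      refine ⟨_, c, hsB w1 hw1, gl_mulVec_ne_zero s hw, hcs, hc, ?_⟩
      rw [← conj_utv h hsi c (hBB w1 hw1 w1 hw1)]
      exact mul_mem (mul_mem hsM hwc) (inv_mem hsM)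
    · -- a ∈ A orthogonal to w1, not in span w0
      obtain ⟨a, haA, haw, hasp⟩ : ∃ a ∈ A, f a w1 = 0 ∧ a ∉ Submodule.span F {w0} := by
        have h1 := ReflForm.finrank_inf_ker (h.lin w1) A
        have h3 : ¬ (A ⊓ LinearMap.ker (h.lin w1) ≤ Submodule.span F {w0}) := by
          intro hle
          have h4 := Submodule.finrank_mono hle
          have h5 := finrank_span_singleton (K := F) h0
          omega
        obtain ⟨z, hz, hzs⟩ := SetLike.not_le_iff_exists.mp h3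
        exact ⟨z, hz.1, hz.2, hzs⟩
      have hane : a ≠ 0 := by rintro rfl; exact hasp (Submodule.zero_mem _)
      have hw0s : w0 ∉ Submodule.span F {a} := by
        intro h
        obtain ⟨r, hr'⟩ := Submodule.mem_span_singleton.mp h
        have hr0 : r ≠ 0 := by rintro rfl; exact h0 (by rw [← hr', zero_smul])
        apply hasp
        rw [Submodule.mem_span_singleton]
        exact ⟨r⁻¹, by rw [← hr', smul_smul, inv_mul_cancel₀ hr0, one_smul]⟩
      obtain ⟨b, hbB, hba, hbw⟩ : ∃ b ∈ B, f b a = 0 ∧ f b w0 = 1 := by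
        obtain ⟨z, hz, hzy⟩ := h.exists_perp_not_orth {a} (x := w0) (by simpa using hw0s)
        have hza : f z a = 0 := hz a (by simp)
        obtain ⟨z0, hz0, z1, hz1, rfl⟩ := hdec z
        rw [h.add_left, hAA z0 hz0 a haA, zero_add] at hza
        rw [h.add_left, hAA z0 hz0 w0 hw0, zero_add] at hzy
        refine ⟨(f z1 w0)⁻¹ • z1, B.smul_mem _ hz1, ?_, ?_⟩
        · rw [h.smul_left, hza, mul_zero]
        · rw [h.smul_left, inv_mul_cancel₀ hzy]
      have haa := hAA a haA a haA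
      have hwb : f w0 b = 1 := by rw [herm' h, hbw, map_one]
      have e1 : f (w0 + w1) a = 0 := by rw [h.add_left, hAA w0 hw0 a haA, h.symm_zero.mp haw, add_zero]
      have e2 : f (w0 + w1) b = 1 := by rw [h.add_left, hwb, hBB w1 hw1 b hbB, add_zero]
      have e3 : f a (w0 + w1) = 0 := h.symm_zero.mp e1
      have hww' : ∀ γ : F, f (w0 + w1 - γ • a) (w0 + w1 - γ • a) = 0 := by
        intro γ
        rw [h.sub_left, h.sub_right, h.sub_right, h.smul_left, h.smul_left, h.smul_right, h.smul_right, hww, e1, e3, haa]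
        simp
      have hconj : ∀ γ : F, utv f (w0 + w1 - γ • a) c ∈ M := by
        intro γ
        have hba' : f (σ γ • b) a = 0 := by rw [h.smul_left, hba, mul_zero]
        have hkM := hHM (hsH a haA (σ γ • b) (B.smul_mem _ hbB) hba')
        have hki := hMi _ hkM
        have h3 := conj_utv h hki c hww
        rw [usieg_mulVec h haa hba', e1, h.smul_right, e2, hinv, zero_smul, add_zero, mul_zero, zero_sub, mul_one,
          neg_smul, ← sub_eq_add_neg] at h3
        rw [← h3]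
        exact mul_mem (mul_mem hkM hwc) (inv_mem hkM)
      obtain ⟨γ, hγ⟩ := tr_surj hσ hinv (b := 1) (map_one σ)
      refine ⟨a, -c, haA, hane, by rw [map_neg, hcs], neg_ne_zero.mpr hc, ?_⟩
      have h5 : utv f a (-c) = utv f (w0 + w1 - (1 : F) • a) c * (utv f (w0 + w1 - γ • a) c *
          ((utv f (w0 + w1 - (1 + γ) • a) c)⁻¹ * (utv f (w0 + w1) c)⁻¹)) := by
        rw [utv_inv h (hww' _), utv_inv h hww]
        have hγ' : σ γ = 1 - γ := by linear_combination hγ
        have f1 := hww' 1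
        have f2 := hww' γ
        have f3 := hww' (1 + γ)
        set w := w0 + w1 with hwdef
        clear_value w
        apply gl_ext
        intro x
        rw [gl_mul_mulVec, gl_mul_mulVec, gl_mul_mulVec, utv_mulVec h haa, utv_mulVec h hww, utv_mulVec h f1,
          utv_mulVec h f2, utv_mulVec h f3]
        simp only [h.add_left, h.add_right, h.sub_left, h.sub_right, h.smul_right, h.smul_left, hww, haa, e1, e3,
          map_add, map_one, hγ']
        module
      rw [h5]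
      exact mul_mem (hconj 1) (mul_mem (hconj γ) (mul_mem (inv_mem (hconj (1 + γ))) (inv_mem hwc)))
  -- all vectors of A
  have hmove : ∀ x ∈ A, ∀ x' ∈ A, x ∉ Submodule.span F {x'} → x' ∉ Submodule.span F {x} → utv f x c ∈ M →
      utv f x' c ∈ M := by
    intro x hx x' hx' hxx' hx'x hxc
    have hxs : x ∉ Submodule.span F {x' - x} := by
      intro h
      obtain ⟨r, hr'⟩ := Submodule.mem_span_singleton.mp h
      have hr0 : r ≠ 0 := by
        rintro rfl
        rw [zero_smul] at hr'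
        exact hxx' (by rw [← hr']; exact Submodule.zero_mem _)
      apply hx'x
      rw [Submodule.mem_span_singleton]
      refine ⟨r⁻¹ * (1 + r), ?_⟩
      have h1 : (1 + r) • x = r • x' := by
        rw [add_smul, one_smul]
        nth_rewrite 1 [← hr']
        rw [smul_sub]; abel
      rw [mul_smul, h1, smul_smul, inv_mul_cancel₀ hr0, one_smul]
    obtain ⟨b, hbB, hba, hbw⟩ : ∃ b ∈ B, f b (x' - x) = 0 ∧ f b x = 1 := by
      obtain ⟨z, hz, hzy⟩ := h.exists_perp_not_orth {x' - x} (x := x) (by simpa using hxs)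
      have hza : f z (x' - x) = 0 := hz (x' - x) (by simp)
      obtain ⟨z0, hz0, z1, hz1, rfl⟩ := hdec z
      rw [h.add_left, hAA z0 hz0 (x' - x) (A.sub_mem hx' hx), zero_add] at hza
      rw [h.add_left, hAA z0 hz0 x hx, zero_add] at hzy
      refine ⟨(f z1 x)⁻¹ • z1, B.smul_mem _ hz1, ?_, ?_⟩
      · rw [h.smul_left, hza, mul_zero]
      · rw [h.smul_left, inv_mul_cancel₀ hzy]
    have hxA : x' - x ∈ A := A.sub_mem hx' hx
    have hba' : f (-b) (x' - x) = 0 := by rw [h.neg_left, hba, neg_zero]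
    have hkM := hHM (hsH (x' - x) hxA (-b) (B.neg_mem hbB) hba')
    have hki := hMi _ hkM
    have h3 := conj_utv h hki c (hAA x hx x hx)
    rw [usieg_mulVec h (hAA _ hxA _ hxA) hba', hAA x hx _ hxA, h.neg_right, herm' h x b, hbw, map_one, zero_smul,
      add_zero] at h3
    have e5 : x + ((0 : F) * 0 - -1) • (x' - x) = x' := by module
    rw [e5] at h3
    rw [← h3]
    exact mul_mem (mul_mem hkM hxc) (inv_mem hkM)
  have hallA : ∀ x ∈ A, x ≠ 0 → utv f x c ∈ M := by
    intro x hx hx0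
    -- y outside span a and span x
    obtain ⟨y, hy, hys⟩ : ∃ y ∈ A, y ∉ Submodule.span F ({a, x} : Set (Fin n → F)) := by
      by_contra hcon
      push Not at hcon
      have h4 := Submodule.finrank_mono (show A ≤ Submodule.span F ({a, x} : Set (Fin n → F)) from hcon)
      have h5 := finrank_span_finset_le_card (R := F) ({a, x} : Finset (Fin n → F))
      rw [Set.finrank, Finset.coe_insert, Finset.coe_singleton] at h5
      have h6 := Finset.card_le_two (a := a) (b := x)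
      omega
    have hind : ∀ z, z ≠ 0 → z ∈ ({a, x} : Set (Fin n → F)) → y ∉ Submodule.span F {z} ∧ z ∉ Submodule.span F {y} := by
      intro z hz0 hz
      have hzs : z ∈ Submodule.span F ({a, x} : Set (Fin n → F)) := Submodule.subset_span hz
      have h6 : y ∉ Submodule.span F {z} := by
        intro h
        obtain ⟨r, hr'⟩ := Submodule.mem_span_singleton.mp h
        apply hys
        rw [← hr']
        exact Submodule.smul_mem _ r hzs
      refine ⟨h6, ?_⟩
      intro h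
      obtain ⟨r, hr'⟩ := Submodule.mem_span_singleton.mp h
      have hr0 : r ≠ 0 := by rintro rfl; exact hz0 (by rw [← hr', zero_smul])
      apply h6
      rw [Submodule.mem_span_singleton]
      exact ⟨r⁻¹, by rw [← hr', smul_smul, inv_mul_cancel₀ hr0, one_smul]⟩
    have h1 := hind a hane (by simp)
    have h3 := hind x hx0 (by simp)
    exact hmove y hy x hx h3.1 h3.2 (hmove a ha y hy h1.2 h1.1 hac)
  have hAfull : ∀ x ∈ A, ufull σ f M x := by
    intro x hx
    refine ⟨hAA x hx x hx, ?_⟩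
    intro d hd
    by_cases hd0 : d = 0
    · rw [hd0, utv_zero h (hAA x hx x hx)]; exact one_mem M
    by_cases hx0 : x = 0
    · rw [hx0, utv_zero_vec]; exact one_mem M
    obtain ⟨p, hp0, hp⟩ := norm_surj hσ hinv (b := d * c⁻¹) (mul_ne_zero hd0 (inv_ne_zero hc))
      (by rw [map_mul, map_inv₀, hd, hcs, inv_neg]; ring)
    have h1 := hallA _ (A.smul_mem p hx) (smul_ne_zero hp0 hx0)
    rw [utv_smul h (hAA x hx x hx), hp] at h1
    have h3 : c * (d * c⁻¹) = d := by field_simp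
    rwa [h3] at h1
  have hBfull : ∀ x ∈ B, ufull σ f M x := by
    intro x hx
    obtain ⟨y, hy⟩ : ∃ y : Fin n → F,
        y = ((s⁻¹ : GL (Fin n) F) : Matrix (Fin n) (Fin n) F) *ᵥ x :=
      ⟨_, rfl⟩
    have hxy : x = (s : Matrix (Fin n) (Fin n) F) *ᵥ y := by
      rw [hy, gl_mulVec_inv_mulVec]
    -- y ∈ A
    have hyA : y ∈ A := by
      have h1 := map_eq_of_maps hsA (by rw [hfrA, hfrB])
      have h3 : x ∈ A.map (Matrix.toLin' (s : Matrix _ _ F)) := by rw [h1]; exact hx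
      obtain ⟨z, hz, hzx⟩ := h3
      have h4 : (s : Matrix _ _ F) *ᵥ z = x := hzx
      rw [hy, ← h4, gl_inv_mulVec_mulVec]; exact hz
    rw [hxy]
    exact ufull_image h (hAfull y hyA) hsM hsi
  have hadd : ∀ y z, ufull σ f M y → ufull σ f M z → f y z ≠ 0 → f (y + z) (y + z) = 0 → ufull σ f M (y + z) := by
    intro y z hy hz hyz h0
    have := ufull_add h hy hz hyz (c := 1) (by rw [one_smul]; exact h0)
    rwa [one_smul] at this
  apply le_antisymm hMS
  intro g hg
  refine su_mem_of_utv_mem h hσ hcard ?_ ((hGU g).mp hg.1) hg.2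
  intro y d hy0 hd
  suffices hfull : ufull σ f M y from hfull.2 d hd
  obtain ⟨x, hx, z, hz, rfl⟩ := hdec y
  by_cases hxz : f x z = 0
  · by_cases hz0 : z = 0
    · rw [hz0, add_zero]; exact hAfull x hx
    obtain ⟨p, hp, hpz⟩ : ∃ p ∈ A, f p z = κ := by
      obtain ⟨v, hv⟩ := h.nondeg z hz0
      obtain ⟨a', ha', b', hb', rfl⟩ := hdec v
      rw [h.add_left, hBB b' hb' z hz, add_zero] at hv
      exact ⟨(κ * (f a' z)⁻¹) • a', A.smul_mem _ ha', by rw [h.smul_left, mul_assoc, inv_mul_cancel₀ hv, mul_one]⟩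
    have h1 := hadd p z (hAfull p hp) (hBfull z hz) (by rw [hpz]; exact hκ0)
      (hisoab p hp z hz (by rw [herm' h z p, hpz, hκ]; ring))
    have h3 : f (x - p) (p + z) ≠ 0 := by
      rw [h.sub_left, h.add_right, h.add_right, hAA x hx p hp, hxz, hAA p hp p hp, hpz]
      simpa using hκ0
    have h5 : x - p + (p + z) = x + z := by abel
    have h4 := hadd _ _ (hAfull _ (A.sub_mem hx hp)) h1 h3 (by rw [h5]; exact hy0)
    rwa [h5] at h4
  · exact hadd _ _ (hAfull x hx) (hBfull z hz) hxz hy0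

end Cfsg.Agent.S5657
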