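import Cfsg.Statements.S5658
import Cfsg.Agent.H12.SubCard
import Cfsg.Agent.H12.UniRel
set_option autoImplicit false
open Cfsg
namespace Cfsg.Agent.S5658

open scoped MatrixGroups Matrix
open Cfsg.Agent.H12

section rich

variable {ι : Type} [Fintype ι] [DecidableEq ι] {K : Type*} [Field K] [Finite K]
variable {σ : K ≃+* K} {b : (ι → K) → (ι → K) → K}

lemma uP2 (h : ReflForm σ 1 b) (hσ : σ ≠ RingEquiv.refl K) (hdim : 13 ≤ Fintype.card ι) (s : Finset (ι → K))
    (hs : s.card ≤ 4) (x : ι → K) (hx : x ∉ Submodule.span K (s : Set (ι → K))) :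
    ∃ a, (∀ u ∈ s, b a u = 0) ∧ b a a = 0 ∧ b a x ≠ 0 := by
  classical
  obtain ⟨h0, h0s, h0x⟩ := h.exists_perp_not_orth s hx
  obtain ⟨z, hz, hzz⟩ := exists_norm_perp h hσ (insert h0 (insert x s)) (by
    have h1 := Finset.card_insert_le h0 (insert x s)
    have h2 := Finset.card_insert_le x s
    omega) (c := -(b h0 h0)) (by rw [map_neg, fix_self h])
  have hz0 : b z h0 = 0 := hz h0 (by simp)
  have hzx : b z x = 0 := hz x (by simp)
  refine ⟨h0 + z, fun u hu => ?_, ?_, ?_⟩
  · rw [h.add_left, h0s u hu, hz u (by simp [hu]), add_zero]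
  · rw [h.add_left, h.add_right, h.add_right, hz0, hzz, h.symm_zero.mp hz0]; ring
  · rw [h.add_left, hzx, add_zero]; exact h0x

lemma uP3 (h : ReflForm σ 1 b) (hσ : σ ≠ RingEquiv.refl K) (hdim : 13 ≤ Fintype.card ι) (s : Finset (ι → K))
    (hs : s.card ≤ 4) (x : ι → K) (hx : ∀ u ∈ s, b x u = 0) :
    ∃ y z, (∀ u ∈ s, b y u = 0) ∧ (∀ u ∈ s, b z u = 0) ∧ b y y = 0 ∧ b z z = 0 ∧ x = y + z := by
  classical
  obtain ⟨l, hl⟩ := tr_surj hσ h.inv (b := (1 : K)) (map_one σ)
  have hl' : σ l = 1 - l := by linear_combination hl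
  obtain ⟨z, hz, hzz⟩ := exists_norm_perp h hσ (insert x s) (by
    have h2 := Finset.card_insert_le x s
    omega) (c := -(l * σ l * b x x)) (by
      rw [map_neg, map_mul, map_mul, h.inv, fix_self h]; ring)
  have hzx : b z x = 0 := hz x (by simp)
  have hxz : b x z = 0 := h.symm_zero.mp hzx
  refine ⟨l • x + z, (1 - l) • x - z, fun u hu => ?_, fun u hu => ?_, ?_, ?_, ?_⟩
  · rw [h.add_left, h.smul_left, hx u hu, hz u (by simp [hu])]; ring
  · rw [h.sub_left, h.smul_left, hx u hu, hz u (by simp [hu])]; ring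
  · rw [h.add_left, h.add_right, h.add_right, h.smul_left, h.smul_left, h.smul_right, h.smul_right, hzx, hxz, hzz]; ring
  · rw [h.sub_left, h.sub_right, h.sub_right, h.smul_left, h.smul_left, h.smul_right, h.smul_right, hzx, hxz, hzz,
      map_sub, map_one, hl']; ring
  · module

lemma eigen_good {F : Type*} [Field F] {F₀ : Subfield F} [Finite F₀] {σ₀ : F₀ ≃+* F₀} {b : (ι → F₀) → (ι → F₀) → F₀}
    (h : ReflForm σ₀ 1 b) (hσ : σ₀ ≠ RingEquiv.refl F₀)
    (h2 : (2 : F₀) ≠ 0) {z : GL ι F₀} (hzz : z * z = 1) (hzi : IsIsom b z) (hdet : (z : Matrix ι ι F₀).det = 1)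
    (hz1 : z ≠ 1) {u v : ι → F₀} (hu : (z : Matrix ι ι F₀) *ᵥ u = u) (hv : (z : Matrix ι ι F₀) *ᵥ v = v) (hu0 : u ≠ 0)
    (hvu : v ∉ Submodule.span F₀ {u}) : SubF.GoodI b z := by
  classical
  have hzzx : ∀ x : ι → F₀, (z : Matrix ι ι F₀) *ᵥ ((z : Matrix ι ι F₀) *ᵥ x) = x := by
    intro x
    rw [← gl_mul_mulVec z z x, hzz]; simp
  -- two independent vectors in each eigenspace
  have htwo : ∀ s : F₀, (s = 1 ∨ s = -1) → ∃ p q : ι → F₀, (z : Matrix ι ι F₀) *ᵥ p = s • p ∧
      (z : Matrix ι ι F₀) *ᵥ q = s • q ∧ p ≠ 0 ∧ q ∉ Submodule.span F₀ {p} := by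
    rintro s (rfl | rfl)
    · exact ⟨u, v, by rw [hu, one_smul], by rw [hv, one_smul], hu0, hvu⟩
    · obtain ⟨x, hx⟩ : ∃ x : ι → F₀, (z : Matrix ι ι F₀) *ᵥ x ≠ x := by
        by_contra hcon
        push Not at hcon
        apply hz1
        apply gl_ext
        intro x
        rw [hcon x]; simp
      set p := x - (z : Matrix ι ι F₀) *ᵥ x with hp
      have hp0 : p ≠ 0 := sub_ne_zero.mpr (Ne.symm hx)
      have hzp : (z : Matrix ι ι F₀) *ᵥ p = (-1 : F₀) • p := by
        rw [hp, Matrix.mulVec_sub, hzzx]; module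
      clear_value p
      by_contra hcon
      push Not at hcon
      have hall : ∀ y, y - (z : Matrix ι ι F₀) *ᵥ y ∈ Submodule.span F₀ {p} := by
        intro y
        apply hcon p _ hzp _ hp0
        rw [Matrix.mulVec_sub, hzzx]; module
      obtain ⟨j, hj⟩ : ∃ j, p j ≠ 0 := by
        by_contra hc
        push Not at hc
        exact hp0 (funext hc)
      set ψ : ι → F₀ := fun k => ((Pi.single k (1 : F₀) : ι → F₀) -
        (z : Matrix ι ι F₀) *ᵥ (Pi.single k (1 : F₀) : ι → F₀)) j / p j with hψ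
      have hψ' : ∀ y, y - (z : Matrix ι ι F₀) *ᵥ y = (ψ ⬝ᵥ y) • p := by
        intro y
        obtain ⟨r, hr⟩ := Submodule.mem_span_singleton.mp (hall y)
        rw [← hr]
        congr 1
        have h3 : r = (y - (z : Matrix ι ι F₀) *ᵥ y) j / p j := by
          rw [← hr, Pi.smul_apply, smul_eq_mul, mul_div_cancel_right₀ _ hj]
        rw [h3, hψ, dotProduct]
        have h4 : (y - (z : Matrix ι ι F₀) *ᵥ y) j =
            ∑ k, ((Pi.single k (1 : F₀) : ι → F₀) - (z : Matrix ι ι F₀) *ᵥ (Pi.single k (1 : F₀) : ι → F₀)) j * y k := by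
          simp only [Pi.sub_apply, sub_mul, Finset.sum_sub_distrib, Matrix.mulVec_single_one, Matrix.col_apply]
          congr 1
          rw [Finset.sum_eq_single j]
          · simp
          · intro k _ hkj
            rw [Pi.single_eq_of_ne' hkj, zero_mul]
          · intro h'; exact absurd (Finset.mem_univ j) h'
        rw [h4, Finset.sum_div]
        apply Finset.sum_congr rfl
        intro k _
        ring
      have hmat : (z : Matrix ι ι F₀) = tvm p (-ψ) := by
        apply Matrix.toLin'.injective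
        apply LinearMap.ext
        intro y
        rw [Matrix.toLin'_apply, Matrix.toLin'_apply, tvm_mulVec, neg_dotProduct, neg_smul, ← hψ' y]
        abel
      have h5 : ψ ⬝ᵥ p = 2 := by
        have h6 := hψ' p
        rw [hzp] at h6
        have h7 : ((2 : F₀) - ψ ⬝ᵥ p) • p = 0 := by
          rw [sub_smul, ← h6]; module
        exact (sub_eq_zero.mp ((smul_eq_zero.mp h7).resolve_right hp0)).symm
      rw [hmat, det_tvm, neg_dotProduct, h5] at hdet
      apply h2
      linear_combination -hdet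
  -- eigenspaces are non-degenerate
  have hnd : ∀ s : F₀, (s = 1 ∨ s = -1) → ∀ x : ι → F₀, (z : Matrix ι ι F₀) *ᵥ x = s • x → x ≠ 0 →
      ∃ y, (z : Matrix ι ι F₀) *ᵥ y = s • y ∧ b y x ≠ 0 := by
    intro s hs x hx hx0
    obtain ⟨y, hy⟩ := h.nondeg x hx0
    have horth : ∀ p : ι → F₀, (z : Matrix ι ι F₀) *ᵥ p = (-s) • p → b p x = 0 := by
      intro p hp
      have h1 := hzi p x
      rw [hp, hx, h.smul_left, h.smul_right] at h1
      have hs2 : s * σ₀ s = 1 := by rcases hs with rfl | rfl <;> simp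
      have h3 : 2 * b p x = 0 := by linear_combination -(b p x) * hs2 - h1
      exact (mul_eq_zero.mp h3).resolve_left h2
    obtain ⟨p, q, hp, hq, hpq⟩ := SubF.eigen_dec hzz h2 y
    rcases hs with rfl | rfl
    · refine ⟨p, hp, fun h' => hy ?_⟩
      rw [hpq, h.add_left, h', horth q hq, add_zero]
    · refine ⟨q, hq, fun h' => hy ?_⟩
      rw [hpq, h.add_left, h', horth p (by rw [neg_neg]; exact hp), add_zero]
  have hsplit : ∀ s : F₀, (s = 1 ∨ s = -1) → ∀ x : ι → F₀, (z : Matrix ι ι F₀) *ᵥ x = s • x →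
      ∃ y w : ι → F₀, b y y = 0 ∧ b w w = 0 ∧ (z : Matrix ι ι F₀) *ᵥ y = s • y ∧ (z : Matrix ι ι F₀) *ᵥ w = s • w ∧
        x = y + w := by
    intro s hs x hx
    by_cases hxx : b x x = 0
    · exact ⟨x, 0, hxx, h.zero_left 0, hx, by rw [Matrix.mulVec_zero, smul_zero], by rw [add_zero]⟩
    -- closure of the eigenspace
    have hcl : ∀ (p q : ι → F₀) (c d : F₀), (z : Matrix ι ι F₀) *ᵥ p = s • p → (z : Matrix ι ι F₀) *ᵥ q = s • q →
        (z : Matrix ι ι F₀) *ᵥ (c • p + d • q) = s • (c • p + d • q) := by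
      intro p q c d hp hq
      rw [Matrix.mulVec_add, Matrix.mulVec_smul, Matrix.mulVec_smul, hp, hq]; module
    obtain ⟨y0, hy0, hxy0, hy00⟩ : ∃ y0, (z : Matrix ι ι F₀) *ᵥ y0 = s • y0 ∧ b x y0 = 0 ∧ b y0 y0 ≠ 0 := by
      obtain ⟨p, q, hp, hq, hp0, hqp⟩ := htwo s hs
      obtain ⟨x2, hx2, hx2s⟩ : ∃ x2, (z : Matrix ι ι F₀) *ᵥ x2 = s • x2 ∧ x2 ∉ Submodule.span F₀ {x} := by
        by_contra hcon
        push Not at hcon
        obtain ⟨r, hr⟩ := Submodule.mem_span_singleton.mp (hcon p hp)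
        obtain ⟨r', hr'⟩ := Submodule.mem_span_singleton.mp (hcon q hq)
        have hr0 : r ≠ 0 := by rintro rfl; exact hp0 (by rw [← hr, zero_smul])
        apply hqp
        rw [Submodule.mem_span_singleton]
        refine ⟨r' * r⁻¹, ?_⟩
        rw [← hr, ← hr', smul_smul, mul_assoc, inv_mul_cancel₀ hr0, mul_one]
      set x2' := x2 - (b x2 x / b x x) • x with hx2'
      have e1 : b x2' x = 0 := by rw [hx2', h.sub_left, h.smul_left, div_mul_cancel₀ _ hxx, sub_self]
      have e1' : b x x2' = 0 := h.symm_zero.mp e1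
      have e2 : (z : Matrix ι ι F₀) *ᵥ x2' = s • x2' := by
        have := hcl x2 x 1 (-(b x2 x / b x x)) hx2 hx
        rw [one_smul, neg_smul, ← sub_eq_add_neg] at this
        exact this
      have e3 : x2' ≠ 0 := by
        intro h'
        apply hx2s
        rw [hx2', sub_eq_zero] at h'
        rw [h']
        exact Submodule.smul_mem _ _ (Submodule.mem_span_singleton_self x)
      by_cases e4 : b x2' x2' = 0
      · obtain ⟨x3, hx3, hx3b⟩ := hnd s hs x2' e2 e3
        set x3' := x3 - (b x3 x / b x x) • x with hx3'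
        have f1 : b x3' x = 0 := by rw [hx3', h.sub_left, h.smul_left, div_mul_cancel₀ _ hxx, sub_self]
        have f1' : b x x3' = 0 := h.symm_zero.mp f1
        have f2 : (z : Matrix ι ι F₀) *ᵥ x3' = s • x3' := by
          have := hcl x3 x 1 (-(b x3 x / b x x)) hx3 hx
          rw [one_smul, neg_smul, ← sub_eq_add_neg] at this
          exact this
        have f3 : b x3' x2' ≠ 0 := by rw [hx3', h.sub_left, h.smul_left, e1', mul_zero, sub_zero]; exact hx3b
        by_cases f4 : b x3' x3' = 0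
        · obtain ⟨μ, hμ⟩ := tr_surj hσ h.inv (b := (1 : F₀)) (map_one σ₀)
          refine ⟨(μ / b x3' x2') • x3' + x2', ?_, ?_, ?_⟩
          · have := hcl x3' x2' (μ / b x3' x2') 1 f2 e2
            rwa [one_smul] at this
          · rw [h.add_right, h.smul_right, f1', e1']; ring
          · have hσb : σ₀ (b x3' x2') ≠ 0 := (map_ne_zero σ₀).mpr f3
            have e5 : b ((μ / b x3' x2') • x3' + x2') ((μ / b x3' x2') • x3' + x2') = 1 := by
              rw [h.add_left, h.add_right, h.add_right, h.smul_left, h.smul_left, h.smul_right, h.smul_right,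
                f4, e4, herm' h x2' x3', map_div₀, ← hμ]
              field_simp
              ring
            rw [e5]; exact one_ne_zero
        · exact ⟨x3', f2, f1', f4⟩
      · exact ⟨x2', e2, e1', e4⟩
    obtain ⟨l, hl⟩ := tr_surj hσ h.inv (b := (1 : F₀)) (map_one σ₀)
    have hl' : σ₀ l = 1 - l := by linear_combination hl
    have hl0 : l ≠ 0 := by rintro rfl; rw [map_zero, add_zero] at hl; exact zero_ne_one hl
    obtain ⟨μ, hμ0, hμ⟩ := norm_surj hσ h.inv (b := -(l * σ₀ l * b x x) / b y0 y0)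
      (div_ne_zero (neg_ne_zero.mpr (mul_ne_zero (mul_ne_zero hl0 ((map_ne_zero σ₀).mpr hl0)) hxx)) hy00)
      (by rw [map_div₀, map_neg, map_mul, map_mul, h.inv, fix_self h, fix_self h]; ring)
    have hμ' : μ * σ₀ μ * b y0 y0 = -(l * σ₀ l * b x x) := by rw [hμ, div_mul_cancel₀ _ hy00]
    have hy0x : b y0 x = 0 := h.symm_zero.mp hxy0
    refine ⟨l • x + μ • y0, (1 - l) • x + (-μ) • y0, ?_, ?_, hcl _ _ _ _ hx hy0, hcl _ _ _ _ hx hy0, ?_⟩
    · rw [h.add_left, h.add_right, h.add_right, h.smul_left, h.smul_left, h.smul_left, h.smul_left, h.smul_right,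
        h.smul_right, h.smul_right, h.smul_right, hxy0, hy0x]
      linear_combination hμ'
    · rw [h.add_left, h.add_right, h.add_right, h.smul_left, h.smul_left, h.smul_left, h.smul_left, h.smul_right,
        h.smul_right, h.smul_right, h.smul_right, hxy0, hy0x, map_sub, map_one, map_neg, hl']
      rw [hl'] at hμ'
      linear_combination hμ'
    · module
  refine ⟨hzz, ?_, hsplit⟩
  intro s hs
  obtain ⟨p, -, hp, -, hp0, -⟩ := htwo s hs
  obtain ⟨y, w, hy, hw, hzy, hzw, hpy⟩ := hsplit s hs p hp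
  by_cases hy0 : y = 0
  · exact ⟨w, by rintro rfl; apply hp0; rw [hpy, hy0, add_zero], hw, hzw⟩
  · exact ⟨y, hy0, hy, hzy⟩

end rich

/-- Let F be the field with q² elements, n ≥ 13, and F₀ a subfield with |F| = |F₀| ^ r for an odd prime r. Let P be an invertible matrix such that the standard unitary form takes values in F₀ on the F₀-span of the columns of P. Then the elements of SU_n(q) lying in the subfield group of P (the conjugate by P of the product of GL_n(F₀) with the scalars) form a maximal subgroup of SU_n(q). -/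
theorem result {F : Type*} [Field F] [Fintype F] (n q : ℕ) (hF : Fintype.card F = q ^ 2) (hn : 13 ≤ n) (F₀ : Subfield F) (r : ℕ) (hr : r.Prime) (hro : Odd r) (hcard : Fintype.card F = Nat.card F₀ ^ r) (P : Matrix.GeneralLinearGroup (Fin n) F) (hP : Cfsg.Geo.IsFormRationalStructure (Cfsg.hermForm n F q) F₀ 1 P) : Cfsg.Geo.IsMaximalIn (Cfsg.GU n F q ⊓ Cfsg.Geo.specialLinear (Fin n) F) (Cfsg.Geo.subfieldSubgroup F₀ P ⊓ (Cfsg.GU n F q ⊓ Cfsg.Geo.specialLinear (Fin n) F)) := by
  classical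
  obtain ⟨σ, hσq, hσ, hinv⟩ := exists_frob hF
  set f := hermForm n F q with hfdef
  have h : ReflForm σ 1 f := reflForm_herm hσq hinv
  have hGU : ∀ g : GL (Fin n) F, g ∈ GU n F q ↔ IsIsom f g := fun g => mem_GU
  have hcardι : 7 ≤ Fintype.card (Fin n) := by rw [Fintype.card_fin]; omega
  have hcardι' : 13 ≤ Fintype.card (Fin n) := by rw [Fintype.card_fin]; omega
  have hfin : Module.finrank F₀ F = r := finrank_sub hcard
  haveI : Fintype F₀ := Fintype.ofFinite F₀
  -- the restriction of σ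
  have hσmem : ∀ x : F, x ∈ F₀ → σ x ∈ F₀ := fun x hx => by rw [hσq]; exact F₀.pow_mem hx q
  let σ₀ : F₀ ≃+* F₀ :=
    { toFun := fun x => ⟨σ x, hσmem _ x.2⟩
      invFun := fun x => ⟨σ x, hσmem _ x.2⟩
      left_inv := fun x => Subtype.ext (hinv _)
      right_inv := fun x => Subtype.ext (hinv _)
      map_mul' := fun x y => Subtype.ext (by push_cast; exact map_mul σ _ _)
      map_add' := fun x y => Subtype.ext (by push_cast; exact map_add σ _ _) }
  have hσ₀ : ∀ x : F₀, ((σ₀ x : F₀) : F) = σ (x : F) := fun x => rfl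
  have hinv₀ : ∀ x : F₀, σ₀ (σ₀ x) = x := fun x => Subtype.ext (hinv _)
  have hσ₀ne : σ₀ ≠ RingEquiv.refl F₀ := by
    intro heq
    let τ : F ≃ₐ[F₀] F := AlgEquiv.ofRingEquiv (f := σ) (fun x => by
      change σ (x : F) = x
      rw [← hσ₀, heq]; rfl)
    have h1 : τ ^ 2 = 1 := by
      apply AlgEquiv.ext
      intro x
      rw [pow_two]
      exact hinv x
    have h2 : τ ≠ 1 := by
      intro h'
      apply hσ
      apply RingEquiv.ext
      intro x
      exact congrArg (fun t : F ≃ₐ[F₀] F => t x) h'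
    have h3 : orderOf τ = 2 := orderOf_eq_prime h1 h2
    have h4 : orderOf τ ∣ Nat.card (F ≃ₐ[F₀] F) := orderOf_dvd_natCard τ
    rw [h3, IsGalois.card_aut_eq_finrank, hfin] at h4
    rw [Nat.odd_iff] at hro
    omega
  clear_value σ₀
  -- the form over F₀
  have hP' : ∀ u v : Fin n → F₀, f (emb P u) (emb P v) ∈ F₀ := by
    intro u v
    have := hP (cov u) (cov v) (fun i => (u i).2) (fun i => (v i).2)
    rwa [one_mul] at this
  let b : (Fin n → F₀) → (Fin n → F₀) → F₀ := fun u v => ⟨f (emb P u) (emb P v), hP' u v⟩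
  have hE : ∀ u v, ((b u v : F₀) : F) = f (emb P u) (emb P v) := fun u v => rfl
  have h₀ : ReflForm σ₀ 1 b :=
    { inv := hinv₀
      eps := one_mul 1
      seps := map_one σ₀
      add_left := by
        intro x y v; apply Subtype.ext; push_cast; rw [hE, hE, hE, emb_add, h.add_left]
      smul_left := by
        intro c x v; apply Subtype.ext; push_cast; rw [hE, hE, emb_smul, h.smul_left]
      herm := by
        intro v w
        apply Subtype.ext
        rw [one_mul, hσ₀, hE, hE, herm' h]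
      nondeg := by
        intro v hv
        by_contra hcon
        push Not at hcon
        obtain ⟨x, hx⟩ := h.nondeg (emb P v) (fun h' => hv ((emb_eq_zero P).mp h'))
        apply hx
        obtain ⟨c, hc⟩ := exists_emb_comb (F₀ := F₀) P x
        rw [hc, h.sum_left]
        apply Finset.sum_eq_zero
        intro j _
        rw [h.smul_left, ← hE, hcon]
        simp }
  have hb : ∀ u v, ((b u v : F₀) : F) = 1 * f (emb P u) (emb P v) := fun u v => by rw [one_mul, hE]
  clear_value b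
  obtain ⟨t₀, ht0, ht⟩ := exists_skew hσ₀ne hinv₀
  set H := Geo.subfieldSubgroup F₀ P ⊓ (GU n F q ⊓ Geo.specialLinear (Fin n) F) with hH
  -- rational isometries
  have hdetrho : ∀ g₀ : GL (Fin n) F₀, ((rho P g₀ : GL (Fin n) F) : Matrix (Fin n) (Fin n) F).det =
      (((g₀ : Matrix (Fin n) (Fin n) F₀).det : F₀) : F) := by
    intro g₀
    have h1 : ((rho P g₀ : GL (Fin n) F) : Matrix (Fin n) (Fin n) F) =
        (P : Matrix (Fin n) (Fin n) F) * ((g₀ : Matrix (Fin n) (Fin n) F₀).map (F₀.subtype)) * ((P⁻¹ : GL (Fin n) F) : Matrix (Fin n) (Fin n) F) := rfl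
    rw [h1, Matrix.det_mul_right_comm, ← Units.val_mul, mul_inv_cancel, Units.val_one, one_mul]
    exact (RingHom.map_det F₀.subtype _).symm
  have hrhoH : ∀ g₀ : GL (Fin n) F₀, IsIsom b g₀ → ((g₀ : Matrix (Fin n) (Fin n) F₀)).det = 1 → rho P g₀ ∈ H := by
    intro g₀ hg₀ hdet
    refine ⟨rho_mem P _, (hGU _).mpr ?_, ?_⟩
    · intro x y
      obtain ⟨c, hc⟩ := exists_emb_comb (F₀ := F₀) P x
      obtain ⟨d, hd⟩ := exists_emb_comb (F₀ := F₀) P y
      rw [hc, hd, Matrix.mulVec_sum, Matrix.mulVec_sum, h.sum_left, h.sum_left]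
      apply Finset.sum_congr rfl
      intro i _
      rw [h.sum_right, h.sum_right]
      apply Finset.sum_congr rfl
      intro j _
      rw [Matrix.mulVec_smul, Matrix.mulVec_smul, rho_mulVec_emb, rho_mulVec_emb, h.smul_left, h.smul_left, h.smul_right,
        h.smul_right, ← hE, ← hE, hg₀]
    · change _ ∈ MonoidHom.ker _
      rw [MonoidHom.mem_ker]
      apply Units.ext
      change ((rho P g₀ : GL (Fin n) F) : Matrix (Fin n) (Fin n) F).det = 1
      rw [hdetrho, hdet]; rfl
  refine ⟨lt_of_le_of_ne inf_le_right ?_, ?_⟩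
  · -- proper
    intro heq
    have hle : GU n F q ⊓ Geo.specialLinear (Fin n) F ≤ Geo.subfieldSubgroup F₀ P := by
      rw [← heq]; exact inf_le_left
    obtain ⟨x0, hx0, hx0F⟩ : ∃ l : F, l ∉ F₀ ∧ True := by
      by_contra hcon
      push Not at hcon
      have h2 : Module.finrank F₀ F ≤ 1 := by
        apply finrank_le_one (1 : F)
        intro w
        by_cases hw : w ∈ F₀
        · exact ⟨⟨w, hw⟩, by rw [Subfield.smul_def, smul_eq_mul, mul_one]⟩
        · exact (hcon w hw).elim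
      rw [hfin] at h2
      have := hr.two_le
      omega
    obtain ⟨e, -, hee, hes⟩ : ∃ e : Fin n → F₀, (∀ u ∈ (∅ : Finset (Fin n → F₀)), b e u = 0) ∧ b e e = 0 ∧ e ≠ 0 := by
      obtain ⟨y, z, hy, hz, hyy, hzz, hyz⟩ := uP3 h₀ hσ₀ne hcardι' ∅ (by simp) (Pi.single ⟨0, by omega⟩ (1 : F₀)) (by simp)
      by_cases hy0 : y = 0
      · refine ⟨z, hz, hzz, ?_⟩
        rintro rfl
        rw [hy0, add_zero] at hyz
        have := congrFun hyz ⟨0, by omega⟩
        simp at this
      · exact ⟨y, hy, hyy, hy0⟩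
    have fee : f (emb P e) (emb P e) = 0 := by rw [← hE, hee]; rfl
    obtain ⟨u, hu⟩ := h₀.nondeg e hes
    have hfu : f (emb P u) (emb P e) ≠ 0 := fun h' => hu (Subtype.ext (by rw [hE, h']; rfl))
    have key : ∀ c : F, σ c = -c → ∃ c₀ : F₀, (c₀ : F) = c * f (emb P u) (emb P e) := by
      intro c hc
      have h1 : utv f (emb P e) c ∈ GU n F q ⊓ Geo.specialLinear (Fin n) F := by
        have h1 := utv_mem_group (f := f) fee hc
        exact ⟨(hGU _).mpr (utvGroup_isom h h1), utvGroup_det h1⟩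
      obtain ⟨g₀, d, hd, hg₀⟩ := (mem_subfield_iff P _).mp (hle h1)
      have h2 := hg₀ e
      rw [utv_mulVec h fee, fee, mul_zero, zero_smul, add_zero] at h2
      have hge := gl_mulVec_ne_zero g₀ hes
      obtain ⟨d₀, hd₀⟩ := emb_smul_mem P hge h2
      have h3 := hg₀ u
      rw [utv_mulVec h fee, ← hd₀, ← emb_smul] at h3
      have h4 : emb P (d₀ • ((g₀ : Matrix (Fin n) (Fin n) F₀) *ᵥ u) - u) = (c * f (emb P u) (emb P e)) • emb P e := by
        rw [emb_sub, ← h3]; abel
      exact emb_smul_mem P hes h4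
    obtain ⟨κ, hκ0, hκ⟩ := exists_skew hσ hinv
    have hfix : ∀ x : F, σ x = x → x ∈ F₀ := by
      intro x hx
      obtain ⟨c1, hc1⟩ := key (κ * x) (by rw [map_mul, hκ, hx]; ring)
      obtain ⟨c2, hc2⟩ := key κ hκ
      have : x = ((c1 / c2 : F₀) : F) := by
        push_cast
        rw [hc1, hc2]
        field_simp
      rw [this]; exact SetLike.coe_mem _
    obtain ⟨s, hs⟩ := exists_moved hσ₀ne
    have hs' : σ (s : F) ≠ s := by
      intro h'
      apply hs
      apply Subtype.ext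
      rw [hσ₀, h']
    have hd : (s : F) - σ s ≠ 0 := sub_ne_zero.mpr (Ne.symm hs')
    have hd' : σ (s : F) - s ≠ 0 := sub_ne_zero.mpr hs'
    apply hx0
    have hβ : (x0 - σ x0) / ((s : F) - σ s) ∈ F₀ := by
      apply hfix
      rw [map_div₀, map_sub, map_sub, hinv, hinv, div_eq_div_iff hd' hd]; ring
    have hα : x0 - (x0 - σ x0) / ((s : F) - σ s) * s ∈ F₀ := by
      apply hfix
      rw [map_sub, map_mul, map_div₀, map_sub, map_sub, hinv, hinv]
      have e1 : (σ x0 - x0) / (σ (s : F) - s) = (x0 - σ x0) / ((s : F) - σ s) := by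
        rw [div_eq_div_iff hd' hd]; ring
      rw [e1]
      field_simp
      ring
    have := F₀.add_mem hα (F₀.mul_mem hβ s.2)
    rwa [sub_add_cancel] at this
  intro M hHM hMS
  have hMi : ∀ g ∈ M, IsIsom f g := fun g hg => (hGU g).mp (hMS hg).1
  have hrho : ∀ g₀ : GL (Fin n) F₀, IsIsom b g₀ → ((g₀ : Matrix (Fin n) (Fin n) F₀)).det = 1 → rho P g₀ ∈ M :=
    fun g₀ hg hd => hHM (hrhoH g₀ hg hd)
  have hdetof : ∀ g₀ : GL (Fin n) F₀, g₀ ∈ Geo.specialLinear (Fin n) F₀ → ((g₀ : Matrix (Fin n) (Fin n) F₀)).det = 1 := by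
    intro g₀ hg
    exact congrArg Units.val (MonoidHom.mem_ker.mp hg)
  have S : SubF σ 1 f F₀ P σ₀ 1 b 1 t₀ M :=
    { h := h
      h₀ := h₀
      hσ := hσ₀
      hε := rfl
      hζ0 := one_ne_zero
      hζσ := map_one σ
      hb := hb
      ht0 := ht0
      ht := by rw [ht, one_mul, neg_add_cancel]
      P2 := uP2 h₀ hσ₀ne hcardι'
      P3 := uP3 h₀ hσ₀ne hcardι'
      dim := hcardι'
      hiso := hMi
      trans := by
        intro a a' haa ha haa' ha'
        let K : Subgroup (GL (Fin n) F₀) :=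
          { carrier := {g | IsIsom b g ∧ ((g : Matrix (Fin n) (Fin n) F₀)).det = 1}
            mul_mem' := fun {g g'} hg hh => ⟨hg.1.mul hh.1, by rw [Units.val_mul, Matrix.det_mul, hg.2, hh.2, mul_one]⟩
            one_mem' := ⟨isIsom_one, by simp⟩
            inv_mem' := fun {g} hg => ⟨hg.1.inv, by
              have h1 := congrArg (fun x : GL (Fin n) F₀ => (x : Matrix (Fin n) (Fin n) F₀).det) (mul_inv_cancel g)
              simp only [Units.val_mul, Matrix.det_mul, hg.2, one_mul, Units.val_one, Matrix.det_one] at h1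
              exact h1⟩ }
        have hnd : Geo.IsNondegenerateOn b (⊤ : Submodule F₀ (Fin n → F₀)) := by
          intro w _ hw
          obtain ⟨x, hx⟩ := h₀.nondeg w hw
          exact ⟨⟨x, trivial, hx⟩, ⟨x, trivial, fun h' => hx (h₀.symm_zero.mp h')⟩⟩
        obtain ⟨g₀, hg₀, hga⟩ := utv_trans_in h₀ hσ₀ne hnd (by
          rw [finrank_top, Module.finrank_fintype_fun_eq_card]; exact hcardι) (Submodule.mem_top (x := a))
          (Submodule.mem_top (x := a')) ha ha' (by rw [haa, haa'])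
        have hgK : g₀ ∈ K := by
          refine utvGroupOn_le (H := K) ?_ hg₀
          intro z _ hz c hc
          have h1 := utv_mem_group (f := b) hz hc
          exact ⟨utvGroup_isom h₀ h1, hdetof _ (utvGroup_det h1)⟩
        exact ⟨g₀, hrho g₀ hgK.1 hgK.2, hga⟩
      hMs := by
        intro w v l hw hvw hl
        rw [← rho_rs h h₀ (by rfl) (map_one σ) one_ne_zero hb hw hvw l]
        exact hrho _ (rs_isom h₀ hw hvw hl) (hdetof _ (rs_sl _ _ _ _ _)) }
  have hTV : (∀ s, s ∈ S.Csub) → ∀ a, b a a = 0 → ∀ l, σ l + 1 * l = 0 → utv f (emb P a) l ∈ M := by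
    intro hC a ha l hl
    have faa := S.fE0 ha
    by_cases ha0 : a = 0
    · have : utv f (emb P a) l = 1 := by
        apply gl_ext
        intro x
        rw [rtv_mulVec h faa, ha0, emb_zero]; simp
      rw [this]; exact one_mem M
    obtain ⟨d, hd, hdd, hds⟩ := S.P1 {a} (by simp)
    rw [Finset.coe_singleton] at hds
    have hda : b d a = 0 := hd a (by simp)
    obtain ⟨d', hd', hdd', hd'd⟩ := S.P2 {a} (by simp) d (by rw [Finset.coe_singleton]; exact hds)
    have hd'a : b d' a = 0 := hd' a (by simp)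
    set d1 := (b d' d)⁻¹ • d' with hd1
    have hd1a : b d1 a = 0 := by rw [hd1, h₀.smul_left, hd'a, mul_zero]
    have hd1d : b d1 d = 1 := by rw [hd1, h₀.smul_left, inv_mul_cancel₀ hd'd]
    have hd1d1 : b d1 d1 = 0 := by rw [hd1, h₀.smul_left, h₀.smul_right, hdd']; ring
    have hd1s : d1 ∉ Submodule.span F₀ {a} := by
      intro hm'
      obtain ⟨r', hr'⟩ := Submodule.mem_span_singleton.mp hm'
      rw [← hr', h₀.smul_left, h₀.symm_zero.mp hda, mul_zero] at hd1d
      exact zero_ne_one hd1d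
    have fd1d : f (emb P d1) (emb P d) = 1 := by rw [← hE, hd1d]; rfl
    have fdd1 : f (emb P d) (emb P d1) = 1 := by rw [herm' h, fd1d, map_one]
    obtain ⟨μ, hμ⟩ := tr_surj hσ hinv (b := (1 : F)) (map_one σ)
    have h1 := (S.mem_Csub.mp (hC (l * μ))) a d ha hdd hda ha0 hds
    have h2 := (S.mem_Csub.mp (hC 1)) a d1 ha hd1d1 hd1a ha0 hd1s
    rw [mul_one] at h1 h2
    rw [one_smul] at h2
    have g1 : f ((l * μ) • emb P d) (emb P a) = 0 := by rw [h.smul_left, S.fE0 hda, mul_zero]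
    have g2 : f (emb P d1) (emb P a) = 0 := S.fE0 hd1a
    have h3 := mul_mem (mul_mem h1 h2) (inv_mem (mul_mem h2 h1))
    rw [rs_mul h faa g1 g2, rs_mul h faa g2 g1, add_comm (emb P d1) ((l * μ) • emb P d),
      rs_inv h faa (by rw [h.add_left, g1, g2, add_zero]),
      rs_mul h faa (by rw [h.add_left, g1, g2, add_zero]) (by rw [h.neg_left, h.add_left, g1, g2]; ring),
      add_neg_cancel, rs_zero_vec h faa] at h3
    have e1 : (0 : F) + 0 - 1 * f (emb P d1) ((l * μ) • emb P d) + (-(0 + 0 - 1 * f ((l * μ) • emb P d) (emb P d1)) -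
        1 * f ((l * μ) • emb P d + emb P d1) ((l * μ) • emb P d + emb P d1)) -
        1 * f (-((l * μ) • emb P d + emb P d1)) ((l * μ) • emb P d + emb P d1) = l := by
      rw [h.neg_left, h.smul_right, h.smul_left, fd1d, fdd1, map_mul]
      have hσl : σ l = -l := by linear_combination hl
      rw [hσl]
      linear_combination l * hμ
    rwa [e1] at h3
  have hcase : (∀ w, f w w = 0 → NF f P b w) ∨ ((∀ c : F, c * c ∈ F₀ → c ∈ F₀) ∧ ((2 : F) = 0 ∨ S.OddData)) := by
    right
    refine ⟨fun c hc => sq_mem_of_odd hro hcard hc, ?_⟩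
    by_cases h2 : (2 : F) = 0
    · exact Or.inl h2
    · right
      have h20 : (2 : F₀) ≠ 0 := SubF.two_ne h2
      apply S.oddData h2 hrho
      intro z₀ hz₀ hz₀M hz1 ⟨u, v, hu, hv, hu0, hvu⟩
      refine eigen_good h₀ hσ₀ne h20 hz₀ ?_ ?_ hz1 hu hv hu0 hvu
      · intro x y
        apply Subtype.ext
        rw [hE, hE, ← rho_mulVec_emb, ← rho_mulVec_emb, hMi _ hz₀M]
      · apply Subtype.ext
        rw [← hdetrho]
        exact congrArg Units.val (MonoidHom.mem_ker.mp (hMS hz₀M).2)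
  rcases S.main (by rw [hfin]; exact hr) hTV hcase with h1 | h1
  · left
    exact le_antisymm (fun g hg => ⟨h1 hg, hMS hg⟩) hHM
  · right
    apply le_antisymm hMS
    intro g hg
    exact su_mem_of_utv_mem h hσ hcardι (fun z a hz ha => h1 z hz a (by rw [ha]; ring)) ((hGU g).mp hg.1) hg.2

end Cfsg.Agent.S5658
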