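import Cfsg.Statements.S5659
import Cfsg.Agent.H12.SymRep
import Cfsg.Agent.H12.SwapTI
set_option autoImplicit false
set_option linter.unusedSectionVars false
open Cfsg
namespace Cfsg.Agent.S5659

open scoped MatrixGroups Matrix
open Cfsg.Agent.H12

section gen

variable {ι : Type} [Fintype ι] [DecidableEq ι] {F : Type*} [Field F] [Fintype F]

/-- the common set-up: an orthogonal rational structure -/
structure Base (σ : F ≃+* F) (f : (ι → F) → (ι → F) → F) (F₀ : Subfield F) (P : GL ι F)
    (b : (ι → F₀) → (ι → F₀) → F₀) (κ : F) (M : Subgroup (GL ι F)) : Prop where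
  h : ReflForm σ 1 f
  hσ : σ ≠ RingEquiv.refl F
  hσ0 : ∀ x : F₀, σ (x : F) = x
  hmem0 : ∀ x : F, σ x = x → x ∈ F₀
  hb : ReflForm (RingEquiv.refl F₀) 1 b
  hodd : Odd (Nat.card F₀)
  h2 : (2 : F) ≠ 0
  hE : ∀ u v, f (emb P u) (emb P v) = b u v
  hκ : σ κ = -κ
  hκ0 : κ ≠ 0
  hκF : κ ∉ F₀
  hκgen : ∀ x : F, ∃ a b : F₀, x = a + b * κ
  hcard : 13 ≤ Fintype.card ι
  hM : ∀ v u, b v v = 0 → b u v = 0 → usieg f (emb P v) (emb P u) (-((b u u : F) / 2)) ∈ M
  hiso : ∀ g ∈ M, IsIsom f g

variable {σ : F ≃+* F} {f : (ι → F) → (ι → F) → F} {F₀ : Subfield F} {P : GL ι F}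
  {b : (ι → F₀) → (ι → F₀) → F₀} {κ : F} {M : Subgroup (GL ι F)}

lemma Base.fl (S : Base σ f F₀ P b κ M) (x y a : ι → F₀) :
    f (emb P x + κ • emb P y) (emb P a) = b x a + κ * b y a := by
  rw [S.h.add_left, S.h.smul_left, S.hE, S.hE]

lemma Base.fr (S : Base σ f F₀ P b κ M) (x y a : ι → F₀) :
    f (emb P a) (emb P x + κ • emb P y) = b a x - κ * b a y := by
  rw [S.h.add_right, S.h.smul_right, S.hE, S.hE, S.hκ]; ring

lemma Base.comp (S : Base σ f F₀ P b κ M) {s t : F₀} (h : (s : F) + κ * t = 0) : s = 0 ∧ t = 0 := by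
  have ht : t = 0 := by
    by_contra ht
    apply S.hκF
    have ht' : (t : F) ≠ 0 := fun h' => ht (Subtype.ext h')
    have : κ = ((-s / t : F₀) : F) := by
      push_cast
      rw [eq_div_iff ht']
      linear_combination h
    rw [this]
    exact SetLike.coe_mem _
  refine ⟨?_, ht⟩
  rw [ht] at h
  apply Subtype.ext
  simpa using h

lemma Base.fww (S : Base σ f F₀ P b κ M) (x y : ι → F₀) :
    f (emb P x + κ • emb P y) (emb P x + κ • emb P y) = b x x - κ * κ * b y y := by
  rw [S.h.add_right, S.h.smul_right, S.fl, S.fl, S.hκ, sym_comm S.hb y x]; ring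

end gen

section case1

variable {ι : Type} [Fintype ι] [DecidableEq ι] {F : Type*} [Field F] [Fintype F]
variable {σ : F ≃+* F} {f : (ι → F) → (ι → F) → F} {F₀ : Subfield F} {P : GL ι F}
  {b : (ι → F₀) → (ι → F₀) → F₀} {κ : F} {M : Subgroup (GL ι F)}

lemma Base.Z (S : Base σ f F₀ P b κ M)
    (hno : ∀ w c, f w w = 0 → w ≠ 0 → σ c = -c → c ≠ 0 → utv f w c ∉ M)
    {a : ι → F₀} (ha : b a a = 0) (ha0 : a ≠ 0) {y : ι → F} (hya : f y (emb P a) = 0)
    (hy : usieg f (emb P a) y (-(f y y / 2)) ∈ M) : ∃ x, y = emb P x ∧ b x a = 0 := by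
  classical
  have h := S.h
  have hb := S.hb
  obtain ⟨x, y', rfl⟩ := exists_emb_add P S.hκgen y
  have haa : f (emb P a) (emb P a) = 0 := by rw [S.hE, ha]; rfl
  have hEa0 : emb P a ≠ 0 := fun h' => ha0 ((emb_eq_zero P).mp h')
  have hya' := hya
  rw [S.fl] at hya
  obtain ⟨hxa, hy'a⟩ := S.comp hya
  have step1 : ∀ u, b u a = 0 → b u y' = 0 := by
    intro u hua
    by_contra hne
    have hua' : f (emb P u) (emb P a) = 0 := by rw [S.hE, hua]; rfl
    have h1 := usieg_comm h haa hua' hya' (-((b u u : F) / 2)) (-(f (emb P x + κ • emb P y') (emb P x + κ • emb P y') / 2))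
    have e1 : f (emb P u) (emb P x + κ • emb P y') - f (emb P x + κ • emb P y') (emb P u) = -(2 * κ * b u y') := by
      rw [S.fl, S.fr, sym_comm hb x u, sym_comm hb y' u]; ring
    rw [e1] at h1
    apply hno (emb P a) (-(2 * κ * b u y')) haa hEa0
    · rw [map_neg, map_mul, map_mul, S.hκ, S.hσ0, map_ofNat]; ring
    · apply neg_ne_zero.mpr
      exact mul_ne_zero (mul_ne_zero S.h2 S.hκ0) (fun h' => hne (Subtype.ext h'))
    · have h3 := S.hM a u ha hua
      have h4 : utv f (emb P a) (-(2 * κ * b u y')) =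
          (usieg f (emb P a) (emb P u) (-((b u u : F) / 2)) * usieg f (emb P a) (emb P x + κ • emb P y') (-(f (emb P x + κ • emb P y') (emb P x + κ • emb P y') / 2))) *
          (usieg f (emb P a) (emb P x + κ • emb P y') (-(f (emb P x + κ • emb P y') (emb P x + κ • emb P y') / 2)) * usieg f (emb P a) (emb P u) (-((b u u : F) / 2)))⁻¹ := by
        rw [h1]; group
      rw [h4]
      exact mul_mem (mul_mem h3 hy) (inv_mem (mul_mem hy h3))
  have step2 : y' ∈ Submodule.span F₀ ({a} : Set (ι → F₀)) := by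
    by_contra hne
    obtain ⟨z, hz, hzy⟩ := hb.exists_perp_not_orth {a} (x := y') (by simpa using hne)
    exact hzy (step1 z (hz a (by simp)))
  obtain ⟨s, rfl⟩ := Submodule.mem_span_singleton.mp step2
  have hxa' : f (emb P x) (emb P a) = 0 := by rw [S.hE, hxa]; rfl
  have e1 : f (emb P x + κ • emb P (s • a)) (emb P x + κ • emb P (s • a)) = b x x := by
    rw [S.fww, hb.smul_left, sym_smul_right hb, ha]
    simp
  have e2 : emb P x + κ • emb P (s • a) = emb P x + (κ * s) • emb P a := by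
    rw [emb_smul, smul_smul]
  rw [e1, e2, usieg_add_self h haa hxa', map_mul, S.hκ, S.hσ0] at hy
  have h3 := S.hM a x ha hxa
  have h5 := usieg_mul h haa hxa' (show f (-emb P x) (emb P a) = 0 by rw [h.neg_left, hxa', neg_zero])
    (-((b x x : F) / 2) + κ * s - -κ * s) (-(-((b x x : F) / 2)) - f (emb P x) (emb P x))
  rw [← usieg_inv h haa hxa', add_neg_cancel, usieg_zero_vec h haa, h.neg_left, S.hE] at h5
  have h6 : utv f (emb P a) (2 * κ * s) ∈ M := by
    have h7 := mul_mem hy (inv_mem h3)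
    rw [h5] at h7
    have e3 : -((b x x : F) / 2) + κ * s - -κ * s + (-(-((b x x : F) / 2)) - (b x x : F)) - -(b x x : F) = 2 * κ * s := by
      ring
    rwa [e3] at h7
  have hs : s = 0 := by
    by_contra hs
    apply hno (emb P a) (2 * κ * s) haa hEa0 _ _ h6
    · rw [map_mul, map_mul, S.hκ, S.hσ0, map_ofNat]; ring
    · exact mul_ne_zero (mul_ne_zero S.h2 S.hκ0) (fun h' => hs (Subtype.ext h'))
  refine ⟨x, ?_, hxa⟩
  rw [hs, zero_smul, emb_zero, smul_zero, add_zero]

/-- singular rational vectors go to multiples of rational vectors -/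
lemma Base.C1 (S : Base σ f F₀ P b κ M)
    (hno : ∀ w c, f w w = 0 → w ≠ 0 → σ c = -c → c ≠ 0 → utv f w c ∉ M)
    {g : GL ι F} (hg : g ∈ M) {v : ι → F₀} (hv : b v v = 0) (hv0 : v ≠ 0) :
    ∃ (c : F) (v' : ι → F₀), (g : Matrix ι ι F) *ᵥ emb P v = c • emb P v' := by
  classical
  have : Fintype F₀ := Fintype.ofFinite F₀
  have hodd : Odd (Fintype.card F₀) := by rw [← Nat.card_eq_fintype_card]; exact S.hodd
  have h := S.h
  have hb := S.hb
  have hcard := S.hcard
  have hgi := S.hiso g hg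
  obtain ⟨x, y, hw⟩ := exists_emb_add P S.hκgen ((g : Matrix ι ι F) *ᵥ emb P v)
  by_cases hdep : x = 0 ∨ y ∈ Submodule.span F₀ {x}
  · obtain ⟨c, u, hcu⟩ := emb_add_of_dep P κ hdep
    exact ⟨c, u, by rw [hw, hcu]⟩
  exfalso
  push Not at hdep
  obtain ⟨hx0, hyx⟩ := hdep
  have hnr := fun c u => emb_add_not_rational P S.hκF hx0 hyx c u
  rw [← hw] at hnr
  set w := (g : Matrix ι ι F) *ᵥ emb P v with hwdef
  have hww : f w w = 0 := by rw [hwdef, hgi, S.hE, hv]; rfl
  clear_value w
  -- main claim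
  have main : ∀ z', ∀ z'', f (emb P z' + κ • emb P z'') w = 0 →
      usieg f w (emb P z' + κ • emb P z'') (-(f (emb P z' + κ • emb P z'') (emb P z' + κ • emb P z'') / 2)) ∈ M →
      z' ∈ Submodule.span F₀ ({x, y} : Set (ι → F₀)) ∧ z'' ∈ Submodule.span F₀ ({x, y} : Set (ι → F₀)) := by
    intro z' z'' hzw hzM
    obtain ⟨a, haperp, haa, has⟩ := sym_exists_sing_perp hb hodd {x, y, z', z''} (by
      have := Finset.card_le_four (a := x) (b := y) (c := z') (d := z'')
      omega)
    have hax : b a x = 0 := haperp x (by simp)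
    have hay : b a y = 0 := haperp y (by simp)
    have haz' : b a z' = 0 := haperp z' (by simp)
    have haz'' : b a z'' = 0 := haperp z'' (by simp)
    have hEaa : f (emb P a) (emb P a) = 0 := by rw [S.hE, haa]; rfl
    have ha0 : a ≠ 0 := by rintro rfl; exact has (Submodule.zero_mem _)
    -- no vector b orthogonal to x,y,a but not to z',z''
    have key : ∀ u, b u x = 0 → b u y = 0 → b u a = 0 → (b z' u = 0 ∧ b z'' u = 0) := by
      intro u hux huy hua
      by_contra hne
      set c : F := f (emb P z' + κ • emb P z'') (emb P u) with hc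
      have hc0 : c ≠ 0 := by
        intro h0
        rw [hc, S.fl] at h0
        exact hne (S.comp h0)
      have hcv : f (emb P z' + κ • emb P z'') (emb P u) = c := hc.symm
      clear_value c
      set z := emb P z' + κ • emb P z'' with hz
      have hza : f z (emb P a) = 0 := by
        rw [hz, S.fl, sym_comm hb z' a, haz', sym_comm hb z'' a, haz'']; simp
      clear_value z
      have hua' : f (emb P u) (emb P a) = 0 := by rw [S.hE, hua]; rfl
      have hkM := S.hM a u haa hua
      set l : F := -((b u u : F) / 2) with hl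
      have hkmul := usieg_mulVec h hEaa hua' l
      have hki := S.hiso _ hkM
      set k := usieg f (emb P a) (emb P u) l with hk
      clear_value k
      have hwa : f w (emb P a) = 0 := by
        rw [hw, S.fl, sym_comm hb x a, hax, sym_comm hb y a, hay]; simp
      have hwu : f w (emb P u) = 0 := by
        rw [hw, S.fl, sym_comm hb x u, hux, sym_comm hb y u, huy]; simp
      have hkw : (k : Matrix ι ι F) *ᵥ w = w := by
        rw [hkmul, hwa, hwu]; simp
      have hkz : (k : Matrix ι ι F) *ᵥ z = z + (-c) • emb P a := by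
        rw [hkmul, hza, hcv]; simp
      have h1 := conj_usieg h hki hww hzw (-(f z z / 2))
      rw [hkw, hkz] at h1
      have h3 : usieg f w (z + (-c) • emb P a) (-(f z z / 2)) ∈ M := by
        rw [← h1]; exact mul_mem (mul_mem hkM hzM) (inv_mem hkM)
      have haw : f (emb P a) w = 0 := h.symm_zero.mp hwa
      have haz : f (emb P a) z = 0 := h.symm_zero.mp hza
      have hcaw : f ((-c) • emb P a) w = 0 := by rw [h.smul_left, haw, mul_zero]
      have h4 := usieg_mul h hww hcaw hzw 0 (-(f z z / 2))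
      rw [h.smul_right, hza, mul_zero, sub_zero, zero_add, add_comm ((-c) • emb P a) z] at h4
      have h5 : usieg f w ((-c) • emb P a) 0 ∈ M := by
        have : usieg f w ((-c) • emb P a) 0 = usieg f w (z + (-c) • emb P a) (-(f z z / 2)) * (usieg f w z (-(f z z / 2)))⁻¹ := by
          rw [← h4]; group
        rw [this]
        exact mul_mem h3 (inv_mem hzM)
      rw [usieg_swap h hww (by rw [h.smul_left, h.smul_right, hEaa]; ring) hcaw,
        usieg_smul_left h hEaa (by rw [h.neg_left, hwa, neg_zero])] at h5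
      have h6 : f (σ (-c) • -w) (σ (-c) • -w) = 0 := by
        rw [h.smul_left, h.smul_right, h.neg_left, h.neg_right, hww]; ring
      obtain ⟨x'', hx'', -⟩ := S.Z hno haa ha0 (y := σ (-c) • -w) (by rw [h.smul_left, h.neg_left, hwa]; ring)
        (by rw [h6]; convert h5 using 2; ring)
      have hσc : σ (-c) ≠ 0 := (map_ne_zero σ).mpr (neg_ne_zero.mpr hc0)
      apply hnr (-(σ (-c))⁻¹) x''
      rw [← hx'', smul_smul, neg_mul, inv_mul_cancel₀ hσc, neg_smul, one_smul, neg_neg]
    have key2 : ∀ z, (∀ u, b u x = 0 → b u y = 0 → b u a = 0 → b z u = 0) →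
        z ∈ Submodule.span F₀ ({x, y, z', z''} : Set (ι → F₀)) → z ∈ Submodule.span F₀ ({x, y} : Set (ι → F₀)) := by
      intro z hz hzs
      have h1 : z ∈ Submodule.span F₀ (({x, y, a} : Finset (ι → F₀)) : Set (ι → F₀)) := by
        apply hb.mem_span_of_perp
        intro u hu
        rw [sym_comm hb]
        exact hz u (hu x (by simp)) (hu y (by simp)) (hu a (by simp))
      rw [Finset.coe_insert, Finset.coe_insert, Finset.coe_singleton] at h1
      have h3 : ({x, y, a} : Set (ι → F₀)) = insert a {x, y} := by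
        ext t; simp only [Set.mem_insert_iff, Set.mem_singleton_iff]; tauto
      rw [h3, Submodule.mem_span_insert] at h1
      obtain ⟨s, z1, hz1, rfl⟩ := h1
      by_cases hs : s = 0
      · rw [hs, zero_smul, zero_add]; exact hz1
      · exfalso
        apply has
        rw [Finset.coe_insert, Finset.coe_insert, Finset.coe_insert, Finset.coe_singleton]
        have h4 : z1 ∈ Submodule.span F₀ ({x, y, z', z''} : Set (ι → F₀)) :=
          Submodule.span_mono (by intro t; simp only [Set.mem_insert_iff, Set.mem_singleton_iff]; tauto) hz1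
        have h5 := Submodule.smul_mem _ s⁻¹ (Submodule.sub_mem _ hzs h4)
        rwa [add_sub_cancel_right, smul_smul, inv_mul_cancel₀ hs, one_smul] at h5
    constructor
    · exact key2 z' (fun u h1 h2 h3 => (key u h1 h2 h3).1) (Submodule.subset_span (by simp))
    · exact key2 z'' (fun u h1 h2 h3 => (key u h1 h2 h3).2) (Submodule.subset_span (by simp))
  -- a vector t orthogonal to Ex, Ey, not in the span of w
  obtain ⟨t, ht, htw⟩ : ∃ t ∈ h.perp {emb P x, emb P y}, t ∉ Submodule.span F {w} := by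
    have h1 := h.finrank_perp {emb P x, emb P y}
    have h3 : ¬ (h.perp {emb P x, emb P y} ≤ Submodule.span F {w}) := by
      intro hle
      have h4 := Submodule.finrank_mono hle
      have h5 := finrank_span_le_card (R := F) ({w} : Set (ι → F))
      simp only [Set.toFinset_singleton, Finset.card_singleton] at h5
      have h6 := Finset.card_le_two (a := emb P x) (b := emb P y)
      omega
    exact SetLike.not_le_iff_exists.mp h3
  have htx : f t (emb P x) = 0 := ht _ (by simp)
  have hty : f t (emb P y) = 0 := ht _ (by simp)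
  -- orthogonal to the image of v^⊥
  have htz : ∀ u, b u v = 0 → f t ((g : Matrix ι ι F) *ᵥ emb P u) = 0 := by
    intro u huv
    obtain ⟨z', z'', hz⟩ := exists_emb_add P S.hκgen ((g : Matrix ι ι F) *ᵥ emb P u)
    have huv' : f (emb P u) (emb P v) = 0 := by rw [S.hE, huv]; rfl
    have hvv' : f (emb P v) (emb P v) = 0 := by rw [S.hE, hv]; rfl
    have h1 := conj_usieg h hgi hvv' huv' (-((b u u : F) / 2))
    rw [← hwdef] at h1
    have h3 : usieg f w ((g : Matrix ι ι F) *ᵥ emb P u) (-((b u u : F) / 2)) ∈ M := by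
      rw [← h1]; exact mul_mem (mul_mem hg (S.hM v u hv huv)) (inv_mem hg)
    have h4 : f ((g : Matrix ι ι F) *ᵥ emb P u) ((g : Matrix ι ι F) *ᵥ emb P u) = b u u := by
      rw [hgi, S.hE]
    rw [← h4] at h3
    have h5 : f ((g : Matrix ι ι F) *ᵥ emb P u) w = 0 := by rw [hwdef, hgi]; exact huv'
    rw [hz] at h3 h5 ⊢
    obtain ⟨h6, h7⟩ := main z' z'' h5 h3
    have hspan : ∀ s, s ∈ Submodule.span F₀ ({x, y} : Set (ι → F₀)) → f t (emb P s) = 0 := by
      intro s hs
      obtain ⟨α, β, rfl⟩ := Submodule.mem_span_pair.mp hs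
      rw [emb_add, emb_smul, emb_smul, h.add_right, h.smul_right, h.smul_right, htx, hty]; simp
    rw [h.add_right, h.smul_right, hspan _ h6, hspan _ h7]; simp
  obtain ⟨t', t'', ht'⟩ := exists_emb_add P S.hκgen (((g⁻¹ : GL ι F) : Matrix ι ι F) *ᵥ t)
  have hperp : ∀ u, b u v = 0 → b t' u = 0 ∧ b t'' u = 0 := by
    intro u huv
    have h1 := htz u huv
    rw [← gl_mulVec_inv_mulVec g t, hgi, ht', S.fl] at h1
    exact S.comp h1
  have hspan : ∀ s, (∀ u, b u v = 0 → b s u = 0) → s ∈ Submodule.span F₀ {v} := by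
    intro s hs
    by_contra hne
    obtain ⟨z, hz, hzy⟩ := hb.exists_perp_not_orth {v} (x := s) (by simpa using hne)
    apply hzy
    rw [sym_comm hb]
    exact hs z (hz v (by simp))
  obtain ⟨α, hα⟩ := Submodule.mem_span_singleton.mp (hspan t' (fun u hu => (hperp u hu).1))
  obtain ⟨β, hβ⟩ := Submodule.mem_span_singleton.mp (hspan t'' (fun u hu => (hperp u hu).2))
  apply htw
  rw [Submodule.mem_span_singleton]
  refine ⟨α + κ * β, ?_⟩
  rw [hwdef, ← Matrix.mulVec_smul, ← gl_mulVec_inv_mulVec g t, ht', ← hα, ← hβ, emb_smul, emb_smul, add_smul, mul_smul]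

/-- no unitary transvections: `M` is in the subfield group -/
lemma Base.C2 (S : Base σ f F₀ P b κ M)
    (hno : ∀ w c, f w w = 0 → w ≠ 0 → σ c = -c → c ≠ 0 → utv f w c ∉ M)
    {g : GL ι F} (hg : g ∈ M) : g ∈ Geo.subfieldSubgroup F₀ P := by
  classical
  have : Fintype F₀ := Fintype.ofFinite F₀
  have hodd : Odd (Fintype.card F₀) := by rw [← Nat.card_eq_fintype_card]; exact S.hodd
  have h := S.h
  have hb := S.hb
  have hcard := S.hcard
  have hgi := S.hiso g hg
  apply mem_subfield_of_lines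
  intro u
  obtain ⟨v, hvp, hvv, hvs⟩ := sym_exists_sing_perp hb hodd {u} (by
    rw [Finset.card_singleton]; omega)
  have hv0 : v ≠ 0 := by rintro rfl; exact hvs (Submodule.zero_mem _)
  have hvu : b v u = 0 := hvp u (by simp)
  have huv : b u v = 0 := by rw [sym_comm hb]; exact hvu
  obtain ⟨c, v', hcv⟩ := S.C1 hno hg hvv hv0
  have huv' : f (emb P u) (emb P v) = 0 := by rw [S.hE, huv]; rfl
  have hvv' : f (emb P v) (emb P v) = 0 := by rw [S.hE, hvv]; rfl
  have hEv0 : emb P v ≠ 0 := fun h' => hv0 ((emb_eq_zero P).mp h')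
  have hw0 := gl_mulVec_ne_zero g hEv0
  have hc0 : c ≠ 0 := by rintro rfl; rw [hcv, zero_smul] at hw0; exact hw0 rfl
  have hv'0 : v' ≠ 0 := by rintro rfl; rw [hcv, emb_zero, smul_zero] at hw0; exact hw0 rfl
  have hσc : σ c ≠ 0 := (map_ne_zero σ).mpr hc0
  have hv'v' : f (emb P v') (emb P v') = 0 := by
    have h1 : f (c • emb P v') (c • emb P v') = 0 := by rw [← hcv, hgi]; exact hvv'
    rw [h.smul_left, h.smul_right] at h1
    exact (mul_eq_zero.mp ((mul_eq_zero.mp h1).resolve_left hc0)).resolve_left hσc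
  have hbv' : b v' v' = 0 := by
    rw [S.hE] at hv'v'
    exact Subtype.ext hv'v'
  have h1 := conj_usieg h hgi hvv' huv' (-((b u u : F) / 2))
  have h3 : usieg f (c • emb P v') ((g : Matrix ι ι F) *ᵥ emb P u) (-((b u u : F) / 2)) ∈ M := by
    rw [← hcv, ← h1]; exact mul_mem (mul_mem hg (S.hM v u hvv huv)) (inv_mem hg)
  have h5 : f ((g : Matrix ι ι F) *ᵥ emb P u) (emb P v') = 0 := by
    have h6 : f ((g : Matrix ι ι F) *ᵥ emb P u) (c • emb P v') = 0 := by rw [← hcv, hgi]; exact huv'
    rw [h.smul_right] at h6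
    exact (mul_eq_zero.mp h6).resolve_left hσc
  rw [usieg_smul_left h hv'v' h5] at h3
  obtain ⟨x, hx, -⟩ := S.Z hno hbv' hv'0 (y := σ c • ((g : Matrix ι ι F) *ᵥ emb P u)) (by rw [h.smul_left, h5, mul_zero])
    (by
      rw [h.smul_left, h.smul_right, h.inv, hgi, S.hE]
      convert h3 using 2
      ring)
  refine ⟨(σ c)⁻¹, x, ?_⟩
  rw [← hx, smul_smul, inv_mul_cancel₀ hσc, one_smul]

end case1

section case2

variable {ι : Type} [Fintype ι] [DecidableEq ι] {F : Type*} [Field F] [Fintype F]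
variable {σ : F ≃+* F} {f : (ι → F) → (ι → F) → F} {F₀ : Subfield F} {P : GL ι F}
  {b : (ι → F₀) → (ι → F₀) → F₀} {κ : F} {M : Subgroup (GL ι F)}

lemma Base.D1 (S : Base σ f F₀ P b κ M) {w : ι → F} {c : F} (hww : f w w = 0) (hc : σ c = -c) (hc0 : c ≠ 0)
    (hw : utv f w c ∈ M) {a u : ι → F₀} (ha : b a a = 0) (hwa : f w (emb P a) = 0) (hua : b u a = 0)
    (hwu : f w (emb P u) ≠ 0) : ufull σ f M (emb P a) := by
  have h := S.h
  have hb := S.hb
  have hEaa : f (emb P a) (emb P a) = 0 := by rw [S.hE, ha]; rfl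
  refine ⟨hEaa, fun d hd => ?_⟩
  set γ := f w (emb P u) with hγ
  have hconj : ∀ t : F₀, utv f (w - ((t : F) * γ) • emb P a) c ∈ M := by
    intro t
    have hta : b (t • u) a = 0 := by rw [hb.smul_left, hua, mul_zero]
    have hta' : f (emb P (t • u)) (emb P a) = 0 := by rw [S.hE, hta]; rfl
    have hkM := S.hM a (t • u) ha hta
    have hki := S.hiso _ hkM
    have h3 := conj_utv h hki c hww
    rw [usieg_mulVec h hEaa hta', hwa, emb_smul, h.smul_right, S.hσ0, ← hγ, zero_smul, add_zero, mul_zero, zero_sub,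
      neg_smul, ← sub_eq_add_neg, ← emb_smul] at h3
    rw [← h3]
    exact mul_mem (mul_mem hkM hw) (inv_mem hkM)
  have hN : c * (2 * (γ * σ γ)) ≠ 0 :=
    mul_ne_zero hc0 (mul_ne_zero S.h2 (mul_ne_zero hwu ((map_ne_zero σ).mpr hwu)))
  have ht : -(d / (c * (2 * (γ * σ γ)))) ∈ F₀ := by
    apply S.hmem0
    rw [map_neg, map_div₀, map_mul, map_mul, map_mul, S.h.inv, hc, hd, map_ofNat, mul_comm (σ γ) γ, neg_mul, neg_div_neg_eq]
  have h4 := utv_four h hww hEaa hwa c (((1 : F₀) : F) * γ) (((⟨_, ht⟩ : F₀) : F) * γ)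
  have e1 : -(c * (((1 : F₀) : F) * γ * σ (((⟨_, ht⟩ : F₀) : F) * γ) + ((⟨_, ht⟩ : F₀) : F) * γ * σ (((1 : F₀) : F) * γ))) = d := by
    rw [map_mul, map_mul, S.hσ0, S.hσ0]
    push_cast
    rw [one_mul, one_mul]
    have : -(c * (γ * (-(d / (c * (2 * (γ * σ γ)))) * σ γ) + -(d / (c * (2 * (γ * σ γ)))) * γ * σ γ)) =
      (d / (c * (2 * (γ * σ γ)))) * (c * (2 * (γ * σ γ))) := by ring
    rw [this, div_mul_cancel₀ _ hN]
  rw [e1] at h4
  rw [← h4]
  have h5 := hconj (1 + ⟨_, ht⟩)
  rw [AddMemClass.coe_add, add_mul] at h5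
  exact mul_mem (hconj 1) (mul_mem (hconj ⟨_, ht⟩) (mul_mem (inv_mem h5) (inv_mem hw)))

lemma Base.D2 (S : Base σ f F₀ P b κ M) {v a : ι → F₀} (hv : ufull σ f M (emb P v)) (ha : b a a = 0)
    (hva : b v a = 0) (hvs : v ∉ Submodule.span F₀ {a}) : ufull σ f M (emb P a) := by
  have hb := S.hb
  obtain ⟨u, hu, huv⟩ := hb.exists_perp_not_orth {a} (x := v) (by simpa using hvs)
  apply S.D1 hv.1 S.hκ S.hκ0 (hv.2 κ S.hκ) ha (by rw [S.hE, hva]; rfl) (hu a (by simp))
  rw [S.hE, sym_comm hb]
  exact fun h' => huv (Subtype.ext h')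

lemma Base.D3 (S : Base σ f F₀ P b κ M) {w : ι → F} {c : F} (hww : f w w = 0) (hw0 : w ≠ 0) (hc : σ c = -c)
    (hc0 : c ≠ 0) (hw : utv f w c ∈ M) : ∀ a : ι → F₀, b a a = 0 → ufull σ f M (emb P a) := by
  classical
  have : Fintype F₀ := Fintype.ofFinite F₀
  have hodd : Odd (Fintype.card F₀) := by rw [← Nat.card_eq_fintype_card]; exact S.hodd
  have h := S.h
  have hb := S.hb
  have hcard := S.hcard
  -- a first full vector
  obtain ⟨v, hvv, hv0, hvfull⟩ : ∃ v, b v v = 0 ∧ v ≠ 0 ∧ ufull σ f M (emb P v) := by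
    obtain ⟨x, y, rfl⟩ := exists_emb_add P S.hκgen w
    obtain ⟨a, hap, haa, has⟩ := sym_exists_sing_perp hb hodd {x, y} (by
      have := Finset.card_le_two (a := x) (b := y)
      omega)
    have hax : b a x = 0 := hap x (by simp)
    have hay : b a y = 0 := hap y (by simp)
    have ha0 : a ≠ 0 := by rintro rfl; exact has (Submodule.zero_mem _)
    have key : ∀ z, z ∈ ({x, y} : Finset (ι → F₀)) → z ≠ 0 → z ∉ Submodule.span F₀ {a} := by
      intro z hz hz0 hzs
      obtain ⟨r, hr⟩ := Submodule.mem_span_singleton.mp hzs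
      have hr0 : r ≠ 0 := by rintro rfl; exact hz0 (by rw [← hr, zero_smul])
      apply has
      have : a = r⁻¹ • z := by rw [← hr, smul_smul, inv_mul_cancel₀ hr0, one_smul]
      rw [this]
      exact Submodule.smul_mem _ _ (Submodule.subset_span (by exact_mod_cast hz))
    obtain ⟨u, hua, hxu⟩ : ∃ u, b u a = 0 ∧ f (emb P x + κ • emb P y) (emb P u) ≠ 0 := by
      by_cases hx0 : x = 0
      · have hy0 : y ≠ 0 := by
          rintro rfl
          apply hw0
          rw [hx0, emb_zero, smul_zero, add_zero]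
        obtain ⟨u, hu, huv⟩ := hb.exists_perp_not_orth {a} (x := y) (by simpa using key y (by simp) hy0)
        refine ⟨u, hu a (by simp), fun h' => ?_⟩
        rw [S.fl] at h'
        apply huv
        rw [sym_comm hb]; exact (S.comp h').2
      · obtain ⟨u, hu, huv⟩ := hb.exists_perp_not_orth {a} (x := x) (by simpa using key x (by simp) hx0)
        refine ⟨u, hu a (by simp), fun h' => ?_⟩
        rw [S.fl] at h'
        apply huv
        rw [sym_comm hb]; exact (S.comp h').1
    refine ⟨a, haa, ha0, S.D1 hww hc hc0 hw haa ?_ hua hxu⟩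
    rw [S.fl, sym_comm hb x a, hax, sym_comm hb y a, hay]; simp
  intro a ha
  by_cases ha0 : a = 0
  · rw [ha0, emb_zero]; exact ufull_zero h M
  obtain ⟨t, htp, htt, hts⟩ := sym_exists_sing_perp hb hodd {v, a} (by
    have := Finset.card_le_two (a := v) (b := a)
    omega)
  have htv : b t v = 0 := htp v (by simp)
  have hta : b t a = 0 := htp a (by simp)
  have h1 : ufull σ f M (emb P t) := by
    apply S.D2 hvfull htt (by rw [sym_comm hb]; exact htv)
    intro hs
    obtain ⟨r, hr⟩ := Submodule.mem_span_singleton.mp hs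
    have hr0 : r ≠ 0 := by rintro rfl; exact hv0 (by rw [← hr, zero_smul])
    apply hts
    have : t = r⁻¹ • v := by rw [← hr, smul_smul, inv_mul_cancel₀ hr0, one_smul]
    rw [this]
    exact Submodule.smul_mem _ _ (Submodule.subset_span (by simp))
  apply S.D2 h1 ha hta
  intro hs
  apply hts
  exact Submodule.span_mono (by simp) hs

lemma Base.add (S : Base σ f F₀ P b κ M) {y z : ι → F} (hy : ufull σ f M y) (hz : ufull σ f M z) (hyz : f y z ≠ 0)
    (h0 : f (y + z) (y + z) = 0) : ufull σ f M (y + z) := by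
  have := ufull_add S.h hy hz hyz (c := 1) (by rw [one_smul]; exact h0)
  rwa [one_smul] at this

lemma Base.D4 (S : Base σ f F₀ P b κ M) (hfull : ∀ a : ι → F₀, b a a = 0 → ufull σ f M (emb P a)) :
    ∀ w, f w w = 0 → ufull σ f M w := by
  classical
  have : Fintype F₀ := Fintype.ofFinite F₀
  have hodd : Odd (Fintype.card F₀) := by rw [← Nat.card_eq_fintype_card]; exact S.hodd
  have h := S.h
  have hb := S.hb
  have hcard := S.hcard
  have h20 : (2 : F₀) ≠ 0 := two_ne_zero_of_odd_card hodd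
  -- dependent case
  have hdepc : ∀ x y : ι → F₀, (x = 0 ∨ y ∈ Submodule.span F₀ {x}) → f (emb P x + κ • emb P y) (emb P x + κ • emb P y) = 0 →
      ufull σ f M (emb P x + κ • emb P y) := by
    intro x y hdep hw
    obtain ⟨c, u, hcu⟩ := emb_add_of_dep P κ hdep
    rw [hcu] at hw ⊢
    by_cases hc : c = 0
    · rw [hc, zero_smul]; exact ufull_zero h M
    · apply ufull_smul h
      apply hfull
      rw [h.smul_left, h.smul_right, S.hE] at hw
      have h1 := (mul_eq_zero.mp ((mul_eq_zero.mp hw).resolve_left hc)).resolve_left ((map_ne_zero σ).mpr hc)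
      exact Subtype.ext h1
  -- singular components
  have hα1 : ∀ x y : ι → F₀, b x x = 0 → b y y = 0 → b x y ≠ 0 → ufull σ f M (emb P x + κ • emb P y) := by
    intro x y hx hy hxy
    apply S.add (hfull x hx) (ufull_smul h (hfull y hy) κ)
    · rw [h.smul_right, S.hE]
      exact mul_ne_zero ((map_ne_zero σ).mpr S.hκ0) (fun h' => hxy (Subtype.ext h'))
    · rw [S.fww, hx, hy]; simp
  have hα : ∀ x y : ι → F₀, b x x = 0 → b y y = 0 → ufull σ f M (emb P x + κ • emb P y) := by
    intro x y hx hy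
    have hw0 : f (emb P x + κ • emb P y) (emb P x + κ • emb P y) = 0 := by rw [S.fww, hx, hy]; simp
    by_cases hdep : x = 0 ∨ y ∈ Submodule.span F₀ {x}
    · exact hdepc x y hdep hw0
    push Not at hdep
    by_cases hxy : b x y = 0
    · obtain ⟨y', hy'p, hy'y⟩ := hb.exists_perp_not_orth {x} (x := y) (by simpa using hdep.2)
      have hy'x : b y' x = 0 := hy'p x (by simp)
      set t : F₀ := -(b y' y' / (2 * b y' y)) with ht
      set p := y' + t • y with hp
      have hpp : b p p = 0 := by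
        rw [hp, sym_add_self hb, sym_smul_right hb, hb.smul_left, sym_smul_right hb, hy, ht]
        field_simp
        ring
      have hpx : b p x = 0 := by rw [hp, hb.add_left, hb.smul_left, hy'x, sym_comm hb y x, hxy]; ring
      have hpy : b p y ≠ 0 := by rw [hp, hb.add_left, hb.smul_left, hy, mul_zero, add_zero]; exact hy'y
      clear_value p
      have h1 := hα1 p y hpp hy hpy
      have h3 : b (x - p) (x - p) = 0 := by
        rw [hb.sub_left, hb.sub_right, hb.sub_right, hx, hpp, sym_comm hb x p, hpx]; ring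
      have h4 : emb P x + κ • emb P y = emb P (x - p) + (emb P p + κ • emb P y) := by
        rw [emb_sub]; abel
      rw [h4] at hw0 ⊢
      apply S.add (hfull _ h3) h1 _ hw0
      rw [S.fr, hb.sub_left, hb.sub_left, sym_comm hb x p, hpx, hpp, hxy]
      simp only [sub_zero, ZeroMemClass.coe_zero, zero_sub, NegMemClass.coe_neg, mul_neg, neg_neg]
      exact mul_ne_zero S.hκ0 (fun h' => hpy (Subtype.ext h'))
    · exact hα1 x y hx hy hxy
  intro w hw
  obtain ⟨x, y, rfl⟩ := exists_emb_add P S.hκgen w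
  by_cases hx : b x x = 0
  · apply hα x y hx
    rw [S.fww, hx] at hw
    simp only [ZeroMemClass.coe_zero, zero_sub, neg_eq_zero, mul_eq_zero, S.hκ0, or_self, false_or] at hw
    exact Subtype.ext hw
  by_cases hdep : x = 0 ∨ y ∈ Submodule.span F₀ {x}
  · exact hdepc x y hdep hw
  push Not at hdep
  have hy0 : y ≠ 0 := by rintro rfl; exact hdep.2 (Submodule.zero_mem _)
  obtain ⟨v0, hv0x, hv0y⟩ := hb.exists_common hdep.1 hy0
  obtain ⟨z, hzp, hzz⟩ := sym_exists_perp_eq hb hodd {x, y, v0} (by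
    have := Finset.card_le_three (a := x) (b := y) (c := v0)
    omega) (-(b v0 v0))
  have hzx : b z x = 0 := hzp x (by simp)
  have hzy : b z y = 0 := hzp y (by simp)
  have hzv : b z v0 = 0 := hzp v0 (by simp)
  set v := v0 + z with hv
  have hvv : b v v = 0 := by rw [hv, sym_add_self hb, sym_comm hb v0 z, hzv, hzz]; ring
  have hs0 : b x v ≠ 0 := by rw [sym_comm hb, hv, hb.add_left, hzx, add_zero]; exact hv0x
  have ht0 : b y v ≠ 0 := by rw [sym_comm hb, hv, hb.add_left, hzy, add_zero]; exact hv0y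
  clear_value v
  have hk2 : κ * κ ∈ F₀ := by
    apply S.hmem0
    rw [map_mul, S.hκ]; ring
  set k2 : F₀ := ⟨κ * κ, hk2⟩ with hk2'
  have hk20 : k2 ≠ 0 := by
    intro h'
    have := congrArg Subtype.val h'
    exact (mul_ne_zero S.hκ0 S.hκ0) this
  have hk2c : (k2 : F) = κ * κ := rfl
  clear_value k2
  set s := b x v with hs
  set t := b y v with ht
  set r : F₀ := b x x / (2 * k2 * t * s) with hr
  have hr0 : r ≠ 0 := div_ne_zero hx (mul_ne_zero (mul_ne_zero (mul_ne_zero h20 hk20) ht0) hs0)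
  have hrx : r * (2 * k2 * t * s) = b x x :=
    div_mul_cancel₀ _ (mul_ne_zero (mul_ne_zero (mul_ne_zero h20 hk20) ht0) hs0)
  clear_value r
  set x' := x - (r * k2 * t) • v with hx'
  set y' := y - (r * s) • v with hy'
  have hx'x' : b x' x' = 0 := by
    rw [hx', hb.sub_left, hb.sub_right, hb.sub_right, hb.smul_left, sym_smul_right hb, hb.smul_left,
      sym_smul_right hb, hvv, sym_comm hb v x, ← hs]
    linear_combination -hrx
  have hβ : emb P x + κ • emb P y = (emb P x' + κ • emb P y') + ((r : F) * (κ * s + κ * κ * t)) • emb P v := by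
    rw [hx', hy', emb_sub, emb_sub, emb_smul, emb_smul]
    push_cast
    rw [hk2c]
    module
  have hfwv : f (emb P x + κ • emb P y) (emb P v) = s + κ * t := by rw [S.fl]
  have hvv' : f (emb P v) (emb P v) = 0 := by rw [S.hE, hvv]; rfl
  have hw' : f (emb P x' + κ • emb P y') (emb P x' + κ • emb P y') = 0 := by
    have h1 : emb P x' + κ • emb P y' = (emb P x + κ • emb P y) - ((r : F) * (κ * s + κ * κ * t)) • emb P v := by
      rw [hβ]; abel
    have h3 : f (emb P v) (emb P x + κ • emb P y) = s - κ * t := by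
      rw [S.fr, sym_comm hb v x, sym_comm hb v y]
    rw [h1, h.sub_left, h.sub_right, h.sub_right, h.smul_left, h.smul_right, h.smul_left, h.smul_right, hw, hvv', hfwv,
      h3, map_mul, map_add, map_mul, map_mul, map_mul, S.hκ, S.hσ0, S.hσ0, S.hσ0]
    ring
  have hy'y' : b y' y' = 0 := by
    rw [S.fww, hx'x'] at hw'
    simp only [ZeroMemClass.coe_zero, zero_sub, neg_eq_zero, mul_eq_zero, S.hκ0, or_self, false_or] at hw'
    exact Subtype.ext hw'
  have h1 := hα x' y' hx'x' hy'y'
  have h3 : f (emb P x' + κ • emb P y') (emb P v) = s + κ * t := by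
    rw [S.fl, hx', hy', hb.sub_left, hb.sub_left, hb.smul_left, hb.smul_left, hvv, mul_zero, mul_zero, sub_zero, sub_zero]
  have h4 : (s : F) + κ * t ≠ 0 := fun h' => hs0 (S.comp h').1
  rw [hβ] at hw ⊢
  apply S.add h1 (ufull_smul h (hfull v hvv) _) _ hw
  rw [h.smul_right, h3, map_mul, map_add, map_mul, map_mul, map_mul, S.hκ, S.hσ0, S.hσ0, S.hσ0]
  have h5 : (s : F) - κ * t ≠ 0 := by
    intro h'
    have := S.comp (s := s) (t := -t) (by push_cast; linear_combination h')
    exact hs0 this.1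
  have h6 : (r : F) * (-κ * s + -κ * -κ * t) * ((s : F) + κ * t) = -(r * κ * (s - κ * t) * (s + κ * t)) := by ring
  rw [h6]
  exact neg_ne_zero.mpr (mul_ne_zero (mul_ne_zero (mul_ne_zero (fun h' => hr0 (Subtype.ext h')) S.hκ0) h5) h4)

end case2

/-- Let F be the field with q² elements, q odd, n ≥ 13, and F₀ the subfield with q elements. Let P be an invertible matrix such that the standard unitary form takes values in F₀ on the F₀-span of the columns of P (so it restricts to a non-degenerate symmetric bilinear form there). Then the elements of SU_n(q) lying in the subfield group of P form a maximal subgroup of SU_n(q). -/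
theorem result {F : Type*} [Field F] [Fintype F] (n q : ℕ) (hF : Fintype.card F = q ^ 2) (hn : 13 ≤ n) (hodd : Odd q) (F₀ : Subfield F) (hcard : Fintype.card F = Nat.card F₀ ^ 2) (P : Matrix.GeneralLinearGroup (Fin n) F) (hP : Cfsg.Geo.IsFormRationalStructure (Cfsg.hermForm n F q) F₀ 1 P) : Cfsg.Geo.IsMaximalIn (Cfsg.GU n F q ⊓ Cfsg.Geo.specialLinear (Fin n) F) (Cfsg.Geo.subfieldSubgroup F₀ P ⊓ (Cfsg.GU n F q ⊓ Cfsg.Geo.specialLinear (Fin n) F)) := by
  classical
  obtain ⟨σ, hσq, hσ, hinv⟩ := exists_frob hF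
  set f := hermForm n F q with hfdef
  have h : ReflForm σ 1 f := reflForm_herm hσq hinv
  have hGU : ∀ g : GL (Fin n) F, g ∈ GU n F q ↔ IsIsom f g := fun g => mem_GU
  have hcardι : 7 ≤ Fintype.card (Fin n) := by rw [Fintype.card_fin]; omega
  have hσ0 : ∀ x : F₀, σ (x : F) = x := fun x => by rw [hσq]; exact sub_pow_q hF hcard x
  have hmem0 : ∀ x : F, σ x = x → x ∈ F₀ := fun x hx => mem_sub_of_pow_q hF hcard (by rw [← hσq]; exact hx)
  have h2 : (2 : F) ≠ 0 := two_ne_zero_of_odd_card (by rw [hF]; exact hodd.pow)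
  have hodd0 : Odd (Nat.card F₀) := by rw [card_sub_eq hF hcard]; exact hodd
  obtain ⟨κ, hκ0, hκ⟩ := exists_skew hσ hinv
  have hκF : κ ∉ F₀ := by
    intro hm
    have h1 := hσ0 ⟨κ, hm⟩
    change σ κ = κ at h1
    rw [hκ] at h1
    have h3 : 2 * κ = 0 := by linear_combination -h1
    exact hκ0 ((mul_eq_zero.mp h3).resolve_left h2)
  have hκgen : ∀ x : F, ∃ a b : F₀, x = a + b * κ := by
    intro x
    refine ⟨⟨(x + σ x) / 2, hmem0 _ ?_⟩, ⟨(x - σ x) / (2 * κ), hmem0 _ ?_⟩, ?_⟩
    · rw [map_div₀, map_add, hinv, map_ofNat, add_comm]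
    · rw [map_div₀, map_sub, hinv, map_mul, map_ofNat, hκ]
      rw [mul_neg, div_neg, ← neg_div, neg_sub]
    · change x = (x + σ x) / 2 + (x - σ x) / (2 * κ) * κ
      field_simp
      ring
  -- the symmetric form over F₀
  have hP' : ∀ u v : Fin n → F₀, f (emb P u) (emb P v) ∈ F₀ := by
    intro u v
    have := hP (cov u) (cov v) (fun i => (u i).2) (fun i => (v i).2)
    rwa [one_mul] at this
  let b : (Fin n → F₀) → (Fin n → F₀) → F₀ := fun u v => ⟨f (emb P u) (emb P v), hP' u v⟩
  have hE : ∀ u v, f (emb P u) (emb P v) = b u v := fun u v => rfl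
  have hb : ReflForm (RingEquiv.refl F₀) 1 b :=
    { inv := fun _ => rfl
      eps := one_mul 1
      seps := rfl
      add_left := by
        intro x y v; apply Subtype.ext; push_cast; rw [← hE, ← hE, ← hE, emb_add, h.add_left]
      smul_left := by
        intro c x v; apply Subtype.ext; push_cast; rw [← hE, ← hE, emb_smul, h.smul_left]
      herm := by
        intro v w
        apply Subtype.ext
        rw [one_mul]
        change f (emb P v) (emb P w) = f (emb P w) (emb P v)
        rw [herm' h, hE, hσ0]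
      nondeg := by
        intro v hv
        by_contra hcon
        push Not at hcon
        obtain ⟨x, hx⟩ := h.nondeg (emb P v) (fun h' => hv ((emb_eq_zero P).mp h'))
        apply hx
        obtain ⟨c, hc⟩ := exists_emb_comb (F₀ := F₀) P x
        rw [hc, h.sum_left]
        apply Finset.sum_eq_zero
        intro j _
        rw [h.smul_left, hE, hcon]
        simp }
  clear_value b
  set H := Geo.subfieldSubgroup F₀ P ⊓ (GU n F q ⊓ Geo.specialLinear (Fin n) F) with hH
  have hHs : ∀ v u, b v v = 0 → b u v = 0 → usieg f (emb P v) (emb P u) (-((b u u : F) / 2)) ∈ H := by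
    intro v u hv hu
    have hv' : f (emb P v) (emb P v) = 0 := by rw [hE, hv]; rfl
    have hu' : f (emb P u) (emb P v) = 0 := by rw [hE, hu]; rfl
    refine ⟨?_, (hGU _).mpr (usieg_isom h hv' hu' ?_), usieg_sl _ _ _⟩
    · apply mem_subfield_of_lines
      intro x
      refine ⟨1, x + b x v • u + (-(b u u / 2) * b x v - b x u) • v, ?_⟩
      rw [usieg_mulVec h hv' hu', emb_add, emb_add, emb_smul, emb_smul, one_smul, hE, hE]
      push_cast
      rfl
    · rw [map_neg, map_div₀, hσ0, map_ofNat, hE]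
      field_simp
      ring
  have : Fintype F₀ := Fintype.ofFinite F₀
  have hodd1 : Odd (Fintype.card F₀) := by rw [← Nat.card_eq_fintype_card]; exact hodd0
  refine ⟨lt_of_le_of_ne inf_le_right ?_, ?_⟩
  · -- proper
    intro heq
    obtain ⟨a, -, haa, has⟩ := sym_exists_sing_perp hb hodd1 ∅ (by simp; omega)
    have ha0 : a ≠ 0 := by rintro rfl; exact has (Submodule.zero_mem _)
    obtain ⟨u, hua⟩ := hb.nondeg a ha0
    have hu0 : u ≠ 0 := by rintro rfl; exact hua (hb.zero_left a)
    have hEaa : f (emb P a) (emb P a) = 0 := by rw [hE, haa]; rfl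
    have h1 : utv f (emb P a) κ ∈ GU n F q ⊓ Geo.specialLinear (Fin n) F := by
      have h1 := utv_mem_group (f := f) hEaa hκ
      exact ⟨(hGU _).mpr (utvGroup_isom h h1), utvGroup_det h1⟩
    rw [← heq] at h1
    obtain ⟨g₀, c, hc, hg₀⟩ := (mem_subfield_iff P _).mp h1.1
    have h3 := hg₀ u
    rw [utv_mulVec h hEaa, hE, mul_smul, ← emb_smul] at h3
    refine emb_add_not_rational P hκF hu0 ?_ _ _ h3
    intro hm
    obtain ⟨r, hr⟩ := Submodule.mem_span_singleton.mp hm
    have h4 : b (r • u) a = 0 := by rw [hr, hb.smul_left, haa, mul_zero]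
    rw [hb.smul_left] at h4
    have hr0 := (mul_eq_zero.mp h4).resolve_right hua
    rw [hr0, zero_smul] at hr
    exact smul_ne_zero hua ha0 hr.symm
  intro M hHM hMS
  by_cases hMH : M ≤ H
  · left; exact le_antisymm hMH hHM
  right
  have hMi : ∀ g ∈ M, IsIsom f g := fun g hg => (hGU g).mp (hMS hg).1
  have S : Base σ f F₀ P b κ M :=
    { h := h, hσ := hσ, hσ0 := hσ0, hmem0 := hmem0, hb := hb, hodd := hodd0, h2 := h2, hE := hE, hκ := hκ, hκ0 := hκ0
      hκF := hκF, hκgen := hκgen, hcard := by rw [Fintype.card_fin]; exact hn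
      hM := fun v u hv hu => hHM (hHs v u hv hu)
      hiso := hMi }
  obtain ⟨w, c, hww, hw, hcs, hc, hwc⟩ : ∃ w c, f w w = 0 ∧ w ≠ 0 ∧ σ c = -c ∧ c ≠ 0 ∧ utv f w c ∈ M := by
    by_contra hcon
    push Not at hcon
    apply hMH
    intro g hg
    exact ⟨S.C2 hcon hg, hMS hg⟩
  have hall := S.D4 (S.D3 hww hw hcs hc hwc)
  apply le_antisymm hMS
  intro g hg
  exact su_mem_of_utv_mem h hσ hcardι (fun z a hz ha => (hall z hz).2 a ha) ((hGU g).mp hg.1) hg.2

end Cfsg.Agent.S5659
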