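import Cfsg.Statements.S5660
import Cfsg.Agent.H12.HermStd
import Cfsg.Agent.H12.SubfieldQuad
import Cfsg.Agent.H12.SpPair
set_option autoImplicit false
open Cfsg
namespace Cfsg.Agent.S5660

open scoped MatrixGroups Matrix
open Cfsg.Agent.H12

/-- Let F be the field with q² elements, n ≥ 13 even, and F₀ the subfield with q elements. Let ζ be a non-zero element with ζ + ζ^q = 0 and P an invertible matrix such that ζ times the standard unitary form takes values in F₀ on the F₀-span of the columns of P and the form vanishes on every pair (u, u) of that span (so ζ times the form restricts to a non-degenerate alternating form there). Then the elements of SU_n(q) lying in the subfield group of P (the conjugate by P of the product of GL_n(F₀) with the scalars) form a maximal subgroup of SU_n(q). -/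
theorem result {F : Type*} [Field F] [Fintype F] (n q : ℕ) (hF : Fintype.card F = q ^ 2) (hn : 13 ≤ n) (heven : Even n) (F₀ : Subfield F) (hcard : Fintype.card F = Nat.card F₀ ^ 2) (ζ : F) (hζ0 : ζ ≠ 0) (hζ : ζ + ζ ^ q = 0) (P : Matrix.GeneralLinearGroup (Fin n) F) (hP : Cfsg.Geo.IsFormRationalStructure (Cfsg.hermForm n F q) F₀ ζ P) (halt : ∀ u : Fin n → F, (∀ i, u i ∈ F₀) → Cfsg.hermForm n F q (Matrix.mulVec (P : Matrix (Fin n) (Fin n) F) u) (Matrix.mulVec (P : Matrix (Fin n) (Fin n) F) u) = 0) : Cfsg.Geo.IsMaximalIn (Cfsg.GU n F q ⊓ Cfsg.Geo.specialLinear (Fin n) F) (Cfsg.Geo.subfieldSubgroup F₀ P ⊓ (Cfsg.GU n F q ⊓ Cfsg.Geo.specialLinear (Fin n) F)) := by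
  classical
  obtain ⟨σ, hσq, hσ, hinv⟩ := exists_frob hF
  set f := hermForm n F q with hfdef
  have h : ReflForm σ 1 f := reflForm_herm hσq hinv
  have hcardι : 7 ≤ Fintype.card (Fin n) := by rw [Fintype.card_fin]; omega
  have hσ0 : ∀ x : F₀, σ (x : F) = x := fun x => by rw [hσq]; exact sub_pow_q hF hcard x
  have hmem0 : ∀ x : F, σ x = x → x ∈ F₀ := fun x hx => mem_sub_of_pow_q hF hcard (by rw [← hσq]; exact hx)
  have hζσ : σ ζ = -ζ := by rw [hσq]; linear_combination hζ
  obtain ⟨l, hl, hlgen⟩ := exists_quad_gen hcard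
  have hσl : σ l ≠ l := fun h' => hl (hmem0 l h')
  have hemb0 : ∀ u : Fin n → F₀, f (emb P u) (emb P u) = 0 := fun u => halt (cov u) (fun i => (u i).2)
  -- the symplectic form over F₀
  let f₁ : (Fin n → F₀) → (Fin n → F₀) → F₀ :=
    fun u v => ⟨ζ * f (emb P u) (emb P v), hP (cov u) (cov v) (fun i => (u i).2) (fun i => (v i).2)⟩
  have hf₁ : ∀ u v, ((f₁ u v : F₀) : F) = ζ * f (emb P u) (emb P v) := fun u v => rfl
  have hbil : Geo.IsBilinearForm f₁ :=
    { add_left := by
        intro x y v; apply Subtype.ext; push_cast; rw [hf₁, hf₁, hf₁, emb_add, h.add_left]; ring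
      smul_left := by
        intro c x v; apply Subtype.ext; push_cast; rw [hf₁, hf₁, emb_smul, h.smul_left]; ring
      add_right := by
        intro v x y; apply Subtype.ext; push_cast; rw [hf₁, hf₁, hf₁, emb_add, h.add_right]; ring
      smul_right := by
        intro c v x; apply Subtype.ext; push_cast; rw [hf₁, hf₁, emb_smul, h.smul_right, hσ0]; ring }
  have halt₁ : ∀ v, f₁ v v = 0 := by
    intro v; apply Subtype.ext; rw [hf₁, hemb0]; simp
  have hskew : ∀ v w, f₁ v w = -f₁ w v := by
    intro v w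
    have := halt₁ (v + w)
    rw [hbil.add_left, hbil.add_right, hbil.add_right, halt₁, halt₁] at this
    linear_combination this
  have hnd : ∀ v : Fin n → F₀, v ≠ 0 → ∃ x, f₁ x v ≠ 0 := by
    intro v hv
    by_contra hcon
    push Not at hcon
    obtain ⟨x, hx⟩ := h.nondeg (emb P v) (fun h' => hv ((emb_eq_zero P).mp h'))
    apply hx
    obtain ⟨c, hc⟩ := exists_emb_comb (F₀ := F₀) P x
    have h1 : ∀ w : Fin n → F₀, f (emb P w) (emb P v) = 0 := by
      intro w
      have h2 := hf₁ w v
      rw [hcon w] at h2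
      simp only [ZeroMemClass.coe_zero] at h2
      exact (mul_eq_zero.mp h2.symm).resolve_left hζ0
    have h3 : ∀ s : Finset (Fin n), f (∑ j ∈ s, c j • emb P (Pi.single j (1 : F₀))) (emb P v) = 0 := by
      intro s
      induction s using Finset.induction_on with
      | empty => simp [h.zero_left]
      | insert a s ha ih => rw [Finset.sum_insert ha, h.add_left, h.smul_left, h1, ih]; ring
    rw [hc]; exact h3 _
  have hs : Geo.IsSymplecticForm f₁ :=
    { bilinear := hbil
      skew := hskew
      alternating := halt₁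
      nondegenerate := by
        intro v hv
        obtain ⟨x, hx⟩ := hnd v hv
        exact ⟨⟨x, hx⟩, x, by rw [hskew]; exact neg_ne_zero.mpr hx⟩ }
  have hr₁ := reflForm_of_symplectic hs
  -- rho of a symplectic transvection is a unitary transvection
  have hrho : ∀ (v : Fin n → F₀) (c : F₀), rho P (stv f₁ v c) = utv f (emb P v) (-((c : F) * ζ)) := by
    intro v c
    apply gl_ext_emb (F₀ := F₀) P
    intro u
    rw [rho_mulVec_emb, stv_mulVec hs, emb_add, emb_smul, utv_mulVec h (hemb0 v)]
    congr 2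
    push_cast
    rw [hskew v u]
    push_cast
    rw [hf₁]
    ring
  set H := Geo.subfieldSubgroup F₀ P ⊓ (GU n F q ⊓ Geo.specialLinear (Fin n) F) with hH
  have hrhoH : ∀ (v : Fin n → F₀) (c : F₀), rho P (stv f₁ v c) ∈ H := by
    intro v c
    refine ⟨rho_mem P _, ?_, ?_⟩
    · rw [hrho]
      apply utv_isometry h (hemb0 v)
      rw [map_neg, map_mul, hσ0, hζσ]; ring
    · rw [hrho]
      exact det_tv _ _
  have hfullH : ∀ v : Fin n → F₀, ufull σ f H (emb P v) := by
    intro v
    refine ⟨hemb0 v, fun a ha => ?_⟩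
    have h1 : -(a / ζ) ∈ F₀ := by
      apply hmem0
      rw [map_neg, map_div₀, ha, hζσ, neg_div_neg_eq]
    have h2 := hrhoH v ⟨_, h1⟩
    rw [hrho] at h2
    have h3 : -(((⟨-(a / ζ), h1⟩ : F₀) : F) * ζ) = a := by
      change -(-(a / ζ) * ζ) = a
      field_simp
    rwa [h3] at h2
  -- orthogonality of the components of isotropic vectors
  have hiso : ∀ x y : Fin n → F₀, f (emb P x + l • emb P y) (emb P x + l • emb P y) = 0 ↔ f₁ x y = 0 := by
    intro x y
    have e1 : f (emb P x + l • emb P y) (emb P x + l • emb P y) * ζ = (σ l - l) * (f₁ x y : F) := by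
      rw [h.add_left, h.add_right, h.add_right, h.smul_left, h.smul_right, h.smul_left, h.smul_right, hemb0, hemb0]
      have e2 : ζ * f (emb P y) (emb P x) = -((f₁ x y : F₀) : F) := by
        rw [← hf₁ y x, hskew y x]; push_cast; rfl
      have e3 := hf₁ x y
      linear_combination (-(σ l)) * e3 + l * e2
    constructor
    · intro h0
      rw [h0, zero_mul] at e1
      have := (mul_eq_zero.mp e1.symm).resolve_left (sub_ne_zero.mpr hσl)
      exact Subtype.ext this
    · intro h0
      rw [h0] at e1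
      simp only [ZeroMemClass.coe_zero, mul_zero] at e1
      exact (mul_eq_zero.mp e1).resolve_right hζ0
  refine ⟨lt_of_le_of_ne inf_le_right ?_, ?_⟩
  · -- proper
    intro heq
    let e : Fin n → F₀ := Pi.single ⟨0, by omega⟩ 1
    have he0 : e ≠ 0 := by
      intro h'
      have := congrFun h' ⟨0, by omega⟩
      simp [e] at this
    obtain ⟨y, hy, hye⟩ : ∃ y ∈ hr₁.perp {e}, y ∉ Submodule.span F₀ {e} := by
      by_contra hcon
      push Not at hcon
      have h1 := Submodule.finrank_mono (R := F₀) (show hr₁.perp {e} ≤ Submodule.span F₀ {e} from hcon)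
      have h2 := hr₁.finrank_perp {e}
      rw [Fintype.card_fin, Finset.card_singleton] at h2
      have h3 := finrank_span_singleton (K := F₀) he0
      omega
    have hye0 : f₁ e y = 0 := by rw [hskew, hy e (by simp), neg_zero]
    set w := emb P e + l • emb P y with hw
    have hww : f w w = 0 := (hiso e y).mpr hye0
    have hwnr : ∀ (c : F) (u : Fin n → F₀), w ≠ c • emb P u := fun c u => emb_add_not_rational P hl he0 hye c u
    have hind1 : w ∉ Submodule.span F {emb P e} := by
      intro hm
      obtain ⟨c, hc⟩ := Submodule.mem_span_singleton.mp hm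
      exact hwnr c e hc.symm
    have hind2 : emb P e ∉ Submodule.span F {w} := by
      intro hm
      obtain ⟨c, hc⟩ := Submodule.mem_span_singleton.mp hm
      have hc0 : c ≠ 0 := by
        rintro rfl
        rw [zero_smul] at hc
        exact he0 ((emb_eq_zero P).mp hc.symm)
      apply hwnr c⁻¹ e
      rw [← hc, smul_smul, inv_mul_cancel₀ hc0, one_smul]
    obtain ⟨t, ht, htw⟩ := utv_trans_indep h hσ hcardι (hemb0 e) hww hind2 hind1
    have htS : t ∈ GU n F q ⊓ Geo.specialLinear (Fin n) F := ⟨utvGroup_isom h ht, utvGroup_det ht⟩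
    rw [← heq] at htS
    obtain ⟨g₀, c, hc, hg₀⟩ := (mem_subfield_iff P t).mp htS.1
    rw [hg₀] at htw
    exact hwnr _ _ htw.symm
  intro M hHM hMS
  by_cases hMH : M ≤ H
  · left; exact le_antisymm hMH hHM
  right
  apply le_antisymm hMS
  obtain ⟨g, hgM, hgH⟩ := SetLike.not_le_iff_exists.mp hMH
  have hgS := hMS hgM
  have hgi : IsIsom f g := hgS.1
  have hgsub : g ∉ Geo.subfieldSubgroup F₀ P := fun h' => hgH ⟨h', hgS⟩
  obtain ⟨u, hu⟩ : ∃ u : Fin n → F₀, ∀ (c : F) (u' : Fin n → F₀), (g : Matrix _ _ F) *ᵥ emb P u ≠ c • emb P u' := by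
    by_contra hcon
    push Not at hcon
    exact hgsub (mem_subfield_of_lines P hcon)
  have hfullM : ∀ v : Fin n → F₀, ufull σ f M (emb P v) := fun v =>
    ⟨(hfullH v).1, fun a ha => hHM ((hfullH v).2 a ha)⟩
  have hw := ufull_image h (hfullM u) hgM hgi
  set w := (g : Matrix (Fin n) (Fin n) F) *ᵥ emb P u with hwdef
  obtain ⟨x, y, hxy⟩ := exists_emb_add P hlgen w
  have hx0 : x ≠ 0 := by
    intro h'
    obtain ⟨c, u', hcu⟩ := emb_add_of_dep P l (x := x) (y := y) (Or.inl h')
    exact hu c u' (by rw [hxy, hcu])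
  have hyx : y ∉ Submodule.span F₀ {x} := by
    intro h'
    obtain ⟨c, u', hcu⟩ := emb_add_of_dep P l (x := x) (y := y) (Or.inr h')
    exact hu c u' (by rw [hxy, hcu])
  have hfxy : f₁ x y = 0 := by
    rw [← hiso, ← hxy]; exact hw.1
  -- all isotropic vectors are full
  have hall : ∀ z, f z z = 0 → ufull σ f M z := by
    intro z hz
    obtain ⟨x', y', hxy'⟩ := exists_emb_add P hlgen z
    by_cases hdep : x' = 0 ∨ y' ∈ Submodule.span F₀ {x'}
    · obtain ⟨c, u', hcu⟩ := emb_add_of_dep P l hdep
      rw [hxy', hcu]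
      exact ufull_smul h (hfullM u') c
    push Not at hdep
    have hfxy' : f₁ x' y' = 0 := by rw [← hiso, ← hxy']; exact hz
    obtain ⟨k, hk, e1, e2⟩ := sp_trans_pair hs (H := (M ⊓ GU n F q).comap (rho P))
      (fun v c => ⟨hHM (hrhoH v c), (hrhoH v c).2.1⟩) hfxy hfxy' hx0 hyx hdep.1 hdep.2
    have h1 := ufull_image h hw hk.1 hk.2
    rw [hxy, Matrix.mulVec_add, Matrix.mulVec_smul, rho_mulVec_emb, rho_mulVec_emb, e1, e2, ← hxy'] at h1
    exact h1
  intro k hk
  exact su_mem_of_utv_mem h hσ hcardι (fun z a hz ha => (hall z hz).2 a ha) hk.1 hk.2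

end Cfsg.Agent.S5660
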