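import Cfsg.Statements.S5667
import Cfsg.Agent.H12.TenForm4

set_option autoImplicit false
open Cfsg

namespace Cfsg.Agent.S5667

open Cfsg.Agent.H12 Cfsg.Agent.H5

lemma refl_of_symp {ι : Type} [Fintype ι] [DecidableEq ι] {F : Type*} [Field F] {f : (ι → F) → (ι → F) → F}
    (hf : Geo.IsSymplecticForm f) : ReflForm (RingEquiv.refl F) (-1) f where
  inv := fun _ => rfl
  eps := by ring
  seps := rfl
  add_left := hf.bilinear.add_left
  smul_left := hf.bilinear.smul_left
  herm := fun v w => by rw [hf.skew v w]; show _ = -1 * f w v; ring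
  nondeg := fun v hv => (hf.nondegenerate v hv).1

/-- Over the field with 3 elements and for m ≥ 7, suppose the standard alternating form on F^(2m) is similar, through P and e, to the tensor product of a non-degenerate symplectic form f₁ on F^(n₁) and a non-degenerate symmetric bilinear form f₂ on F^3. Then the elements of Sp_2m(3) in the stabiliser of this tensor decomposition form a subgroup that is not maximal: some subgroup lies strictly between it and Sp_2m(3). -/
theorem result {F : Type*} [Field F] [Fintype F] (m : ℕ) (hm : 7 ≤ m) (hq : Fintype.card F = 3) (n₁ : ℕ) (e : (Fin m ⊕ Fin m) ≃ Fin n₁ × Fin 3) (P : Matrix.GeneralLinearGroup (Fin m ⊕ Fin m) F) (f₁ : (Fin n₁ → F) → (Fin n₁ → F) → F) (f₂ : (Fin 3 → F) → (Fin 3 → F) → F) (hf₁ : Cfsg.Geo.IsSymplecticForm f₁) (hf₂ : Cfsg.Geo.IsSymmetricForm f₂) (hT : Cfsg.Geo.IsTensorFormStructure id (Cfsg.sympForm m F) f₁ f₂ e P) : ∃ K : Subgroup (Matrix.GeneralLinearGroup (Fin m ⊕ Fin m) F), Cfsg.Geo.tensorProductSubgroup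 n₁ 3 e P ⊓ Cfsg.spGL m F < K ∧ K < Cfsg.spGL m F := by
  have h₁ := refl_of_symp hf₁
  have h₂ := refl_symm hf₂
  have hs := sympForm_isSymp (F := F) m
  have h := refl_of_symp hs
  obtain ⟨c, hc, hten⟩ := form_ten (σ := id) (fun x y => rfl)
    (fun x y => form_gram f₁ h₁.add_left h₁.smul_left h₁.add_right h₁.smul_right x y)
    (fun x y => form_gram f₂ h₂.add_left h₂.smul_left h₂.add_right h₂.smul_right x y) hT
  have hten' : ∀ (α γ : Fin 3 → F) (β δ : Fin n₁ → F), sympForm m F (ten (e.trans (Equiv.prodComm _ _)) P α β)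
      (ten (e.trans (Equiv.prodComm _ _)) P γ δ) = c * (f₂ α γ * f₁ β δ) := by
    intro α γ β δ
    rw [ten_swap, ten_swap, hten]; ring
  obtain ⟨ε, w, hw⟩ := exists_frm3 hq h₂
  have hcard := Fintype.card_congr e
  rw [Fintype.card_sum, Fintype.card_prod, Fintype.card_fin, Fintype.card_fin, Fintype.card_fin] at hcard
  have hn₁ : 0 < n₁ := by omega
  have hβ0 : (Pi.single ⟨0, hn₁⟩ 1 : Fin n₁ → F) ≠ 0 := by
    intro h0
    have := congrFun h0 ⟨0, hn₁⟩
    rw [Pi.single_eq_same, Pi.zero_apply] at this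
    exact one_ne_zero this
  obtain ⟨δ, hδ⟩ := (hf₁.nondegenerate _ hβ0).2
  rw [tensor_swap]
  refine tv_between h h₂ h₁ hc hten' hw (j₀ := 0) (j₁ := 1) (by decide) (fun z => stv (sympForm m F) z 1)
    (a := -1) (neg_ne_zero.2 one_ne_zero) ?_ hβ0 (hf₁.alternating _) ?_
  · intro z _
    refine ⟨stv_mem_spGL m z 1, fun x => ?_⟩
    rw [stv_mulVec hs, hs.skew z x]
    congr 2
    ring
  · intro a b hg
    rw [mem_spGL] at hg
    obtain ⟨l, hl0, hl⟩ := simil (a := a) (b := b) hc hten'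
      ⟨w 0, w 0, by rw [hw.2, if_pos rfl]; exact hw.1⟩ ⟨_, δ, hδ⟩ hg
    have hl1 := mult_one hq h₂ hw a l hl0 hl
    rw [hl1] at hl
    exact perm_of_col h₂ hw (col_three hq) a (fun x y => by rw [hl, one_mul])

end Cfsg.Agent.S5667
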