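import Cfsg.Statements.S5671
import Cfsg.Agent.H12.TenForm4

set_option autoImplicit false
open Cfsg

namespace Cfsg.Agent.S5671

open Cfsg.Agent.H12 Cfsg.Agent.H5

/-- Let F be the field with 4 elements (q = 2) and n = 2 n₂ ≥ 13. Suppose the standard unitary form Σ u_i v_i² on F^n is similar, through P and e, to the tensor product of non-degenerate unitary forms f₁ on F^2 and f₂ on F^(n₂). Then the elements of SU_n(2) in the stabiliser of this tensor decomposition form a subgroup that is not maximal: some subgroup lies strictly between it and SU_n(2). -/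
theorem result {F : Type*} [Field F] [Fintype F] (n : ℕ) (hF : Fintype.card F = 4) (hn : 13 ≤ n) (n₂ : ℕ) (e : Fin n ≃ Fin 2 × Fin n₂) (P : Matrix.GeneralLinearGroup (Fin n) F) (f₁ : (Fin 2 → F) → (Fin 2 → F) → F) (f₂ : (Fin n₂ → F) → (Fin n₂ → F) → F) (hf₁ : Cfsg.Geo.IsUnitaryFormPow 2 f₁) (hf₂ : Cfsg.Geo.IsUnitaryFormPow 2 f₂) (hT : Cfsg.Geo.IsTensorFormStructure (fun x : F => x ^ 2) (Cfsg.hermForm n F 2) f₁ f₂ e P) : ∃ K : Subgroup (Matrix.GeneralLinearGroup (Fin n) F), Cfsg.Geo.tensorProductSubgroup 2 n₂ e P ⊓ (Cfsg.GU n F 2 ⊓ Cfsg.Geo.specialLinear (Fin n) F) < K ∧ K < (Cfsg.GU n F 2 ⊓ Cfsg.Geo.specialLinear (Fin n) F) := by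
  obtain ⟨σ, hσ, hne, hinv⟩ := exists_frob (F := F) (q := 2) (by rw [hF]; norm_num)
  have h := reflForm_herm (n := n) hσ hinv
  have h₁ := refl_unit hσ hinv hf₁
  have h₂ := refl_unit hσ hinv hf₂
  have h20 := four_two hF
  obtain ⟨c, hc, hten⟩ := form_ten (σ := fun x : F => x ^ 2) (fun x y => mul_pow x y 2)
    (fun x y => form_gram f₁ h₁.add_left h₁.smul_left h₁.add_right (fun c v x => by rw [h₁.smul_right, hσ]) x y)
    (fun x y => form_gram f₂ h₂.add_left h₂.smul_left h₂.add_right (fun c v x => by rw [h₂.smul_right, hσ]) x y) hT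
  obtain ⟨ε, w, hw⟩ := exists_frm2 hF hσ hne h₁
  have hcard := Fintype.card_congr e
  rw [Fintype.card_prod, Fintype.card_fin, Fintype.card_fin, Fintype.card_fin] at hcard
  obtain ⟨β, -, hβ0, hβ⟩ := iso_in h₂ hne ⊤ (by
    rw [finrank_top, Module.finrank_fintype_fun_eq_card, Fintype.card_fin]; omega)
  obtain ⟨δ, hδ⟩ := (hf₂.nondegenerate _ hβ0).2
  have h11 : σ (1 : F) = -1 := by
    rw [map_one]
    linear_combination h20
  refine tv_between h h₁ h₂ hc hten hw (j₀ := 0) (j₁ := 1) (by decide) (fun z => utv (hermForm n F 2) z 1)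
    (a := 1) one_ne_zero ?_ hβ0 hβ ?_
  · intro z hz
    refine ⟨⟨fun x y => utv_isometry h hz h11 x y, det_tv _ _⟩, fun x => utv_mulVec h hz 1 x⟩
  · intro a b hg
    obtain ⟨l, hl0, hl⟩ := simil (a := a) (b := b) hc hten
      ⟨w 0, w 0, by rw [hw.2, if_pos rfl]; exact hw.1⟩ ⟨_, δ, hδ⟩ (mem_GU.1 hg.1)
    have hl1 : l = 1 := by
      have h3 := h₁.herm (Matrix.mulVec (a : Matrix (Fin 2) (Fin 2) F) (w 0)) (Matrix.mulVec (a : Matrix (Fin 2) (Fin 2) F) (w 0))
      rw [one_mul, hl, map_mul, ← one_mul (σ (f₁ (w 0) (w 0))), ← h₁.herm, hσ, hw.2, if_pos rfl] at h3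
      have h4 : l * (l - 1) * ε = 0 := by linear_combination -h3
      rcases mul_eq_zero.1 h4 with h5 | h5
      · rcases mul_eq_zero.1 h5 with h6 | h6
        · exact absurd h6 hl0
        · exact sub_eq_zero.1 h6
      · exact absurd h5 hw.1
    rw [hl1] at hl
    exact perm_of_col h₁ hw (col_four hF hσ) a (fun x y => by rw [hl, one_mul])

end Cfsg.Agent.S5671
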