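import Cfsg.Statements.S5674
import Cfsg.Agent.H12.OmTS2

set_option autoImplicit false
open Cfsg

namespace Cfsg.Agent.S5674

open Cfsg.Agent.H12 Cfsg.Agent.H5

/-- Let F be a finite field of odd order, m ≥ 6, Q the standard quadratic form x₀² + Σ x_i y_i on F^(2m+1) and Ω the commutator subgroup of its isometry group inside GL_(2m+1)(F). The elements of Ω stabilising a non-zero subspace on which Q vanishes form a maximal subgroup of Ω. -/
theorem result {F : Type*} [Field F] [Fintype F] (hodd : Odd (Fintype.card F)) (m : ℕ) (hm : 6 ≤ m) (W : Submodule F (Unit ⊕ (Fin m ⊕ Fin m) → F)) (hW0 : W ≠ ⊥) (hW : Cfsg.Geo.IsTotallySingularQuad (Cfsg.quadFormOdd m F) W) : Cfsg.Geo.IsMaximalIn (Cfsg.Geo.omegaGL (Cfsg.quadFormOdd m F)) (Cfsg.Geo.subspaceStabilizer W ⊓ Cfsg.Geo.omegaGL (Cfsg.quadFormOdd m F)) := by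
  have h2 := two_ne_zero_of_odd hodd
  have hnd : ND (qOdd m F) := nd_odd h2
  have hι : Fintype.card (Unit ⊕ (Fin m ⊕ Fin m)) = 2 * m + 1 := by simp; ring
  have hfr : Module.finrank F (Unit ⊕ (Fin m ⊕ Fin m) → F) = 2 * m + 1 := by
    rw [Module.finrank_fintype_fun_eq_card, hι]
  rw [← qOdd_coe] at hW ⊢
  apply maxIn_of hnd (by omega)
  rw [comap_subspaceStabilizer]
  apply ts_maximal hnd (by omega) hW0 hW
  intro hd Y hY
  apply exists_ns hnd
  have := Submodule.finrank_lt_finrank_of_lt hY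
  omega

end Cfsg.Agent.S5674
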