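import Cfsg.Statements.S5675
import Cfsg.Agent.H12.OmND2

set_option autoImplicit false
open Cfsg

namespace Cfsg.Agent.S5675

open Cfsg.Agent.H12 Cfsg.Agent.H5

/-- Let F be a finite field of odd order q, m ≥ 6, Q the standard quadratic form on F^(2m+1) and Ω the commutator subgroup of its isometry group. Let W be a non-zero subspace of even dimension on which the polar form of Q is non-degenerate; exclude the case q = 3, dim W = 2 with Q vanishing on some line of W (a plus-type plane). Then the elements of Ω stabilising W (equivalently, stabilising its orthogonal complement, of odd dimension) form a maximal subgroup of Ω. -/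
theorem result {F : Type*} [Field F] [Fintype F] (hodd : Odd (Fintype.card F)) (m : ℕ) (hm : 6 ≤ m) (W : Submodule F (Unit ⊕ (Fin m ⊕ Fin m) → F)) (hW0 : W ≠ ⊥) (hev : Even (Module.finrank F W)) (hW : Cfsg.Geo.IsNondegenerateOn (QuadraticMap.polar (Cfsg.quadFormOdd m F)) W) (hex : ¬ (Fintype.card F = 3 ∧ Module.finrank F W = 2 ∧ Cfsg.Geo.IsPlusTypeOn (Cfsg.quadFormOdd m F) W)) : Cfsg.Geo.IsMaximalIn (Cfsg.Geo.omegaGL (Cfsg.quadFormOdd m F)) (Cfsg.Geo.subspaceStabilizer W ⊓ Cfsg.Geo.omegaGL (Cfsg.quadFormOdd m F)) := by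
  have h2 := two_ne_zero_of_odd hodd
  have hnd : ND (qOdd m F) := nd_odd h2
  have hι : Fintype.card (Unit ⊕ (Fin m ⊕ Fin m)) = 2 * m + 1 := by simp; ring
  have hfr : Module.finrank F (Unit ⊕ (Fin m ⊕ Fin m) → F) = 2 * m + 1 := by
    rw [Module.finrank_fintype_fun_eq_card, hι]
  rw [← qOdd_coe] at hW hex ⊢
  have hWn : NDS (qOdd m F) W := nds_of hW
  apply maxIn_of hnd (by omega)
  rw [comap_subspaceStabilizer]
  obtain ⟨k, hk⟩ := hev
  have hoc := finrank_oc hnd W
  apply nd_max_gen hnd (by omega) hWn hW0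
  · intro h
    rw [h, finrank_top] at hk
    omega
  · rintro ⟨h3, h4, y, hy, hy0, hQy⟩
    apply hex
    refine ⟨?_, h4, plus_plane h4 hy hy0 hQy⟩
    have h5 := card_le_three_of h3
    have h6 : 1 < Fintype.card F := Fintype.one_lt_card
    obtain ⟨j, hj⟩ := hodd
    omega
  · rintro ⟨-, h4, -⟩
    omega
  · intro h
    omega

end Cfsg.Agent.S5675
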