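import Cfsg.Statements.S5676
import Cfsg.Agent.H12.OmNM

set_option autoImplicit false
open Cfsg

namespace Cfsg.Agent.S5676

open Cfsg.Agent.H12 Cfsg.Agent.H5

/-- Let F be the field with 3 elements, m ≥ 6, Q the standard quadratic form on F^(2m+1) and Ω the commutator subgroup of its isometry group. Let W be a 2-dimensional subspace on which the polar form is non-degenerate and which contains a line on which Q vanishes. Then the elements of Ω stabilising W form a subgroup that is not maximal: some subgroup lies strictly between it and Ω. -/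
theorem result {F : Type*} [Field F] [Fintype F] (hq : Fintype.card F = 3) (m : ℕ) (hm : 6 ≤ m) (W : Submodule F (Unit ⊕ (Fin m ⊕ Fin m) → F)) (hdim : Module.finrank F W = 2) (hW : Cfsg.Geo.IsNondegenerateOn (QuadraticMap.polar (Cfsg.quadFormOdd m F)) W) (hplus : Cfsg.Geo.IsPlusTypeOn (Cfsg.quadFormOdd m F) W) : ∃ K : Subgroup (Matrix.GeneralLinearGroup (Unit ⊕ (Fin m ⊕ Fin m)) F), Cfsg.Geo.subspaceStabilizer W ⊓ Cfsg.Geo.omegaGL (Cfsg.quadFormOdd m F) < K ∧ K < Cfsg.Geo.omegaGL (Cfsg.quadFormOdd m F) := by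
  have hodd : Odd (Fintype.card F) := by rw [hq]; decide
  have h2 := two_ne_zero_of_odd hodd
  have hnd : ND (qOdd m F) := nd_odd h2
  have hι : Fintype.card (Unit ⊕ (Fin m ⊕ Fin m)) = 2 * m + 1 := by simp; ring
  have hfr : Module.finrank F (Unit ⊕ (Fin m ⊕ Fin m) → F) = 2 * m + 1 := by
    rw [Module.finrank_fintype_fun_eq_card, hι]
  rw [← qOdd_coe] at hW hplus ⊢
  obtain ⟨U, hUW, hU, hUd⟩ := hplus
  rw [hdim] at hUd
  have hU0 : U ≠ ⊥ := by
    intro h
    rw [h, finrank_bot] at hUd
    omega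
  obtain ⟨y, hy, hy0⟩ := (Submodule.ne_bot_iff _).mp hU0
  obtain ⟨e, f, he, hf, hef, hWs⟩ := plane_hyp (nds_of hW) hdim (hUW hy) hy0 (hU y hy)
  apply between_of hnd (by omega)
  rw [comap_subspaceStabilizer, hWs]
  exact plane_between hnd (by omega) (small_field (by omega)) he hf hef

end Cfsg.Agent.S5676
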