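import Cfsg.Statements.S5677
import Cfsg.Agent.H12.OmDec7
import Cfsg.Agent.H12.OmTS2
import Cfsg.Agent.H12.RSub7

set_option autoImplicit false
open Cfsg

namespace Cfsg.Agent.S5677

open Cfsg.Agent.H12 Cfsg.Agent.H5

/-- Let F be a finite field of odd order q, m ≥ 6, Q the standard quadratic form on F^(2m+1) and Ω the commutator subgroup of its isometry group. Let D be a decomposition of F^(2m+1) into t ≥ 2 pairwise orthogonal, pairwise Q-isometric subspaces of equal dimension k > 1 on which the polar form is non-degenerate. Unless q = 3 and k = 3, the elements of Ω permuting the members of D form a maximal subgroup of Ω. -/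
theorem result {F : Type*} [Field F] [Fintype F] (hodd : Odd (Fintype.card F)) (m : ℕ) (hm : 6 ≤ m) {t : ℕ} (k : ℕ) (hk : 1 < k) (D : Fin t → Submodule F (Unit ⊕ (Fin m ⊕ Fin m) → F)) (hD : Cfsg.Geo.IsOrthogonalMDecomposition (Cfsg.quadFormOdd m F) k D) (hex : ¬ (Fintype.card F = 3 ∧ k = 3)) : Cfsg.Geo.IsMaximalIn (Cfsg.Geo.omegaGL (Cfsg.quadFormOdd m F)) (Cfsg.Geo.decompositionStabilizer D ⊓ Cfsg.Geo.omegaGL (Cfsg.quadFormOdd m F)) := by
  have h2 := two_ne_zero_of_odd hodd
  have hnd : ND (qOdd m F) := nd_odd h2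
  have hι : Fintype.card (Unit ⊕ (Fin m ⊕ Fin m)) = 2 * m + 1 := by simp; ring
  have hc := card_decomp hD.decomp.decomp
  rw [← qOdd_coe] at hD ⊢
  rw [hι] at hc
  have hkodd : Odd k := by
    have h3 : Odd (t * k) := by rw [hc]; exact ⟨m, rfl⟩
    exact (Nat.odd_mul.1 h3).2
  refine dec_maximal_mat hnd hodd (by omega) hD ?_
  obtain ⟨j, hj⟩ := hkodd
  obtain ⟨i, hi⟩ := hodd
  have hq1 : 1 < Fintype.card F := Fintype.one_lt_card
  omega

end Cfsg.Agent.S5677
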