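import Cfsg.Statements.S5689
import Cfsg.Agent.H12.OmND2

set_option autoImplicit false
open Cfsg

namespace Cfsg.Agent.S5689

open Cfsg.Agent.H12 Cfsg.Agent.H5

/-- Let F be a finite field with q elements, n ≥ 13 even, Q a non-degenerate quadratic form on F^n of minus type (no subspace of dimension n/2 is totally singular), and Ω the commutator subgroup of the isometry group of Q, viewed inside GL_n(F). Let W be a non-zero proper subspace on which the polar form of Q is non-degenerate, not of odd dimension n/2. Exclude the case q ≤ 3 in which W, or its orthogonal complement, is a plane containing a line on which Q vanishes. Then the elements of Ω stabilising W form a maximal subgroup of Ω. -/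
theorem result {F : Type*} [Field F] [Fintype F] {n : ℕ} (hn : 13 ≤ n) (heven : Even n) (Q : (Fin n → F) → F) (hQ : Cfsg.Geo.IsNondegenerateQuadraticForm Q) (hminus : ¬ Cfsg.Geo.IsPlusTypeOn Q ⊤) (W : Submodule F (Fin n → F)) (hW0 : W ≠ ⊥) (hW1 : W ≠ ⊤) (hdim : ¬ (2 * Module.finrank F W = n ∧ Odd (Module.finrank F W))) (hW : Cfsg.Geo.IsNondegenerateOn (QuadraticMap.polar Q) W) (hex : ¬ (Fintype.card F ≤ 3 ∧ (∃ U : Submodule F (Fin n → F), Module.finrank F U = 2 ∧ Cfsg.Geo.IsNondegenerateOn (QuadraticMap.polar Q) U ∧ Cfsg.Geo.IsPlusTypeOn Q U ∧ (U = W ∨ (Cfsg.Geo.AreOrthogonalFor (QuadraticMap.polar Q) U W ∧ Module.finrank F U + Module.finrank F W = n))))) : Cfsg.Geo.IsMaximalIn (Cfsg.Geo.omegaGL Q) (Cfsg.Geo.subspaceStabilizer W ⊓ Cfsg.Geo.omegaGL Q) := by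
  have hnd := mkQF_nd hQ
  have hfr : Module.finrank F (Fin n → F) = n := by
    rw [Module.finrank_fintype_fun_eq_card, Fintype.card_fin]
  rw [← mkQF_coe hQ] at hW hex hminus ⊢
  have hWn : NDS (mkQF hQ) W := nds_of hW
  obtain ⟨h1, h2⟩ := excl_of hnd hWn hfr hex
  apply maxIn_of hnd (by rw [Fintype.card_fin]; omega)
  rw [comap_subspaceStabilizer]
  apply nd_max_gen hnd (by omega) hWn hW0 hW1 h1 h2
  intro h g hg
  by_contra hcon
  push Not at hcon
  apply hminus
  refine plus_of_swap hnd hWn ?_ h hcon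
  rw [hfr] at h
  by_contra hodd
  rw [Nat.not_even_iff_odd] at hodd
  exact hdim ⟨h, hodd⟩

end Cfsg.Agent.S5689
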