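import Cfsg.Statements.S5690
import Cfsg.Agent.H12.OmNM

set_option autoImplicit false
open Cfsg

namespace Cfsg.Agent.S5690

open Cfsg.Agent.H12 Cfsg.Agent.H5

/-- Let F be a finite field with q elements, n ≥ 13 even, Q a non-degenerate quadratic form on F^n (of either type), and Ω the commutator subgroup of the isometry group of Q, viewed inside GL_n(F). Suppose q ≤ 3 and W is a plane on which the polar form is non-degenerate and which contains a line on which Q vanishes. Then the elements of Ω stabilising W form a subgroup that is not maximal: some subgroup lies strictly between it and Ω. -/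
theorem result {F : Type*} [Field F] [Fintype F] {n : ℕ} (hn : 13 ≤ n) (heven : Even n) (Q : (Fin n → F) → F) (hQ : Cfsg.Geo.IsNondegenerateQuadraticForm Q) (hq : Fintype.card F ≤ 3) (W : Submodule F (Fin n → F)) (hdim : Module.finrank F W = 2) (hW : Cfsg.Geo.IsNondegenerateOn (QuadraticMap.polar Q) W) (hWp : Cfsg.Geo.IsPlusTypeOn Q W) : ∃ K : Subgroup (Matrix.GeneralLinearGroup (Fin n) F), Cfsg.Geo.subspaceStabilizer W ⊓ Cfsg.Geo.omegaGL Q < K ∧ K < Cfsg.Geo.omegaGL Q := by
  have hnd := mkQF_nd hQ
  have hfr : Module.finrank F (Fin n → F) = n := by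
    rw [Module.finrank_fintype_fun_eq_card, Fintype.card_fin]
  rw [← mkQF_coe hQ] at hW hWp ⊢
  obtain ⟨U, hUW, hU, hUd⟩ := hWp
  rw [hdim] at hUd
  have hU0 : U ≠ ⊥ := by
    intro h
    rw [h, finrank_bot] at hUd
    omega
  obtain ⟨y, hy, hy0⟩ := (Submodule.ne_bot_iff _).mp hU0
  obtain ⟨e, f, he, hf, hef, hWs⟩ := plane_hyp (nds_of hW) hdim (hUW hy) hy0 (hU y hy)
  apply between_of hnd (by rw [Fintype.card_fin]; omega)
  rw [comap_subspaceStabilizer, hWs]
  exact plane_between hnd (by omega) (small_field hq) he hf hef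

end Cfsg.Agent.S5690
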