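import Cfsg.Statements.S5697
import Cfsg.Agent.H12.OmPair2

set_option autoImplicit false
open Cfsg

namespace Cfsg.Agent.S5697

open Cfsg.Agent.H12 Cfsg.Agent.H5

/-- Let F be a finite field with q elements, n ≥ 13 even, Q a non-degenerate quadratic form on F^n of plus type (some subspace of dimension n/2 is totally singular), and Ω the commutator subgroup of the isometry group of Q, viewed inside GL_n(F). Suppose n/2 is even and let D be a decomposition of F^n into two complementary subspaces of dimension n/2 on each of which Q vanishes. Then the elements of Ω preserving or interchanging the two subspaces form a maximal subgroup of Ω. -/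
theorem result {F : Type*} [Field F] [Fintype F] {n : ℕ} (hn : 13 ≤ n) (heven : Even n) (Q : (Fin n → F) → F) (hQ : Cfsg.Geo.IsNondegenerateQuadraticForm Q) (hplus : Cfsg.Geo.IsPlusTypeOn Q ⊤) (k : ℕ) (hk : 2 * k = n) (hke : Even k) (D : Fin 2 → Submodule F (Fin n → F)) (hD : Cfsg.Geo.IsMDecomposition k D) (hts : ∀ i, Cfsg.Geo.IsTotallySingularQuad Q (D i)) : Cfsg.Geo.IsMaximalIn (Cfsg.Geo.omegaGL Q) (Cfsg.Geo.decompositionStabilizer D ⊓ Cfsg.Geo.omegaGL Q) := by
  have hnd := mkQF_nd hQ
  have hfr : Module.finrank F (Fin n → F) = n := by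
    rw [Module.finrank_fintype_fun_eq_card, Fintype.card_fin]
  rw [← mkQF_coe hQ] at hts ⊢
  have hrg : RG (mkQF hQ) = ⊤ := rg_top hnd (fun _ => by omega)
  have hf : ∀ i, Module.finrank F (D i) = k := hD.finrank_eq
  apply maxIn_of hnd (by rw [Fintype.card_fin]; omega)
  have hmts : ∀ i, IsMTS (mkQF hQ) (D i) := fun i => ⟨hts i, by rw [hf, hfr]; exact hk⟩
  have hdis : D 0 ⊓ D 1 = ⊥ := (hD.indep.pairwiseDisjoint (show (0 : Fin 2) ≠ 1 by decide)).eq_bot
  have hst : (Geo.decompositionStabilizer D).comap (ogGL (mkQF hQ)) = stPair (Q := mkQF hQ) (D 0) (D 1) := by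
    ext g
    rw [Subgroup.mem_comap, mem_stPair_def]
    have hmap : ∀ W : Submodule F (Fin n → F),
        W.map (Matrix.toLin' ((ogGL (mkQF hQ) g : GL (Fin n) F) : Matrix (Fin n) (Fin n) F)) = im g W := by
      intro W
      unfold im
      congr 1
      apply LinearMap.ext
      intro x
      rw [Matrix.toLin'_apply, ogGL_apply]
      rfl
    have h01 : ∀ j : Fin 2, j = 0 ∨ j = 1 := by
      intro j
      fin_cases j
      · exact Or.inl rfl
      · exact Or.inr rfl
    constructor
    · rintro ⟨σ, hσ⟩
      have h0 := hσ 0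
      have h1 := hσ 1
      rw [hmap] at h0 h1
      have hne : σ 0 ≠ σ 1 := fun h => absurd (σ.injective h) (by decide)
      rcases h01 (σ 0) with h2 | h2 <;> rcases h01 (σ 1) with h3 | h3
      · exact absurd (h2.trans h3.symm) hne
      · left
        rw [h2] at h0
        rw [h3] at h1
        exact ⟨h0, h1⟩
      · right
        rw [h2] at h0
        rw [h3] at h1
        exact ⟨h0, h1⟩
      · exact absurd (h2.trans h3.symm) hne
    · rintro (⟨h0, h1⟩ | ⟨h0, h1⟩)
      · refine ⟨1, fun i => ?_⟩
        rw [hmap]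
        rcases h01 i with rfl | rfl
        · exact h0
        · exact h1
      · refine ⟨Equiv.swap 0 1, fun i => ?_⟩
        rw [hmap]
        rcases h01 i with rfl | rfl
        · rw [Equiv.swap_apply_left]; exact h0
        · rw [Equiv.swap_apply_right]; exact h1
  rw [hst]
  exact pair_maximal hnd hrg (hmts 0) (hmts 1) hdis (by rw [hf]; omega) (by rw [hf]; exact hke)

end Cfsg.Agent.S5697
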