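import Cfsg.Statements.S5698
import Cfsg.Agent.H12.OmNM

set_option autoImplicit false
open Cfsg

namespace Cfsg.Agent.S5698

open Cfsg.Agent.H12 Cfsg.Agent.H5

/-- Let F be a finite field with q elements, n ≥ 13 even, Q a non-degenerate quadratic form on F^n of plus type (some subspace of dimension n/2 is totally singular), and Ω the commutator subgroup of the isometry group of Q, viewed inside GL_n(F). Suppose n/2 is odd and let D be a decomposition of F^n into two complementary subspaces of dimension n/2 on each of which Q vanishes. Then the elements of Ω preserving or interchanging the two subspaces form a subgroup that is not maximal: some subgroup lies strictly between it and Ω. -/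
theorem result {F : Type*} [Field F] [Fintype F] {n : ℕ} (hn : 13 ≤ n) (heven : Even n) (Q : (Fin n → F) → F) (hQ : Cfsg.Geo.IsNondegenerateQuadraticForm Q) (hplus : Cfsg.Geo.IsPlusTypeOn Q ⊤) (k : ℕ) (hk : 2 * k = n) (hko : Odd k) (D : Fin 2 → Submodule F (Fin n → F)) (hD : Cfsg.Geo.IsMDecomposition k D) (hts : ∀ i, Cfsg.Geo.IsTotallySingularQuad Q (D i)) : ∃ K : Subgroup (Matrix.GeneralLinearGroup (Fin n) F), Cfsg.Geo.decompositionStabilizer D ⊓ Cfsg.Geo.omegaGL Q < K ∧ K < Cfsg.Geo.omegaGL Q := by
  have hnd := mkQF_nd hQ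
  have hfr : Module.finrank F (Fin n → F) = n := by
    rw [Module.finrank_fintype_fun_eq_card, Fintype.card_fin]
  rw [← mkQF_coe hQ] at hts ⊢
  have hrg : RG (mkQF hQ) = ⊤ := rg_top hnd (fun _ => by omega)
  have hf : ∀ i, Module.finrank F (D i) = k := hD.finrank_eq
  apply between_of hnd (by rw [Fintype.card_fin]; omega)
  have hmts : ∀ i, IsMTS (mkQF hQ) (D i) := fun i => ⟨hts i, by rw [hf, hfr]; exact hk⟩
  have hdis : D 0 ⊓ D 1 = ⊥ := (hD.indep.pairwiseDisjoint (show (0 : Fin 2) ≠ 1 by decide)).eq_bot
  refine pair_between hnd (by omega) hrg (hmts 0) (hmts 1) hdis (by rw [hf]; exact hko) _ ?_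
  intro g hg
  rw [Subgroup.mem_comap] at hg
  obtain ⟨σ, hσ⟩ := hg
  have hmap : ∀ W : Submodule F (Fin n → F),
      W.map (Matrix.toLin' ((ogGL (mkQF hQ) g : GL (Fin n) F) : Matrix (Fin n) (Fin n) F)) = im g W := by
    intro W
    unfold im
    congr 1
    apply LinearMap.ext
    intro x
    rw [Matrix.toLin'_apply, ogGL_apply]
    rfl
  have h0 := hσ 0
  have h1 := hσ 1
  rw [hmap] at h0 h1
  have h01 : ∀ j : Fin 2, j = 0 ∨ j = 1 := by
    intro j
    fin_cases j
    · exact Or.inl rfl
    · exact Or.inr rfl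
  rcases h01 (σ 0) with h2 | h2
  · left
    have h3 : σ 1 = 1 := by
      rcases h01 (σ 1) with h3 | h3
      · have := σ.injective (h2.trans h3.symm)
        exact absurd this (by decide)
      · exact h3
    rw [h2] at h0
    rw [h3] at h1
    exact ⟨h0, h1⟩
  · right
    rw [h2] at h0
    exact h0

end Cfsg.Agent.S5698
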