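import Cfsg.Statements.S5699
import Cfsg.Agent.H12.OmND2

set_option autoImplicit false
open Cfsg

namespace Cfsg.Agent.S5699

open Cfsg.Agent.H12 Cfsg.Agent.H5

/-- Let F be a finite field with q elements, n ≥ 13 even, Q a non-degenerate quadratic form on F^n (of either type), and Ω the commutator subgroup of the isometry group of Q, viewed inside GL_n(F). Let D be a decomposition of F^n into two orthogonal subspaces of odd dimension n/2 on which the polar form is non-degenerate and which are not Q-isometric to each other. Then the elements of Ω permuting (necessarily fixing) the two subspaces form a maximal subgroup of Ω. -/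
theorem result {F : Type*} [Field F] [Fintype F] {n : ℕ} (hn : 13 ≤ n) (heven : Even n) (Q : (Fin n → F) → F) (hQ : Cfsg.Geo.IsNondegenerateQuadraticForm Q) (k : ℕ) (hk : 2 * k = n) (hko : Odd k) (D : Fin 2 → Submodule F (Fin n → F)) (hD : Cfsg.Geo.IsNondegenerateMDecomposition (QuadraticMap.polar Q) k D) (hni : ¬ Cfsg.Geo.AreIsometricFor Q (D 0) (D 1)) : Cfsg.Geo.IsMaximalIn (Cfsg.Geo.omegaGL Q) (Cfsg.Geo.decompositionStabilizer D ⊓ Cfsg.Geo.omegaGL Q) := by
  have hnd := mkQF_nd hQ
  have hfr : Module.finrank F (Fin n → F) = n := by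
    rw [Module.finrank_fintype_fun_eq_card, Fintype.card_fin]
  rw [← mkQF_coe hQ] at hD hni ⊢
  have hWn : NDS (mkQF hQ) (D 0) := nds_of (hD.nondegenerate 0)
  have hf0 : Module.finrank F (D 0) = k := hD.decomp.finrank_eq 0
  have hf1 : Module.finrank F (D 1) = k := hD.decomp.finrank_eq 1
  have hoc := finrank_oc hnd (D 0)
  have hD1 : D 1 = oc (mkQF hQ) (D 0) := by
    apply Submodule.eq_of_le_of_finrank_eq
    · intro x hx
      rw [mem_oc]
      intro y hy
      exact hD.orthogonal 0 1 (by decide) y hy x hx
    · omega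
  -- no isometry maps `D 0` to `D 1`
  have hno : ∀ g : OG (mkQF hQ), (D 0).map (g.1 : (Fin n → F) →ₗ[F] (Fin n → F)) = D 1 → False := by
    intro g hg
    apply hni
    refine ⟨(g.1.submoduleMap (D 0)).trans (LinearEquiv.ofEq _ _ hg), ?_⟩
    intro w
    exact og_q g w
  apply maxIn_of hnd (by rw [Fintype.card_fin]; omega)
  have hst : (Geo.decompositionStabilizer D).comap (ogGL (mkQF hQ)) = stO (Q := mkQF hQ) (D 0) := by
    ext g
    rw [Subgroup.mem_comap]
    have hmap : ∀ W : Submodule F (Fin n → F),
        W.map (Matrix.toLin' ((ogGL (mkQF hQ) g : GL (Fin n) F) : Matrix (Fin n) (Fin n) F)) =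
        W.map (g.1 : (Fin n → F) →ₗ[F] (Fin n → F)) := by
      intro W
      congr 1
      apply LinearMap.ext
      intro x
      rw [Matrix.toLin'_apply, ogGL_apply]
      rfl
    constructor
    · rintro ⟨σ, hσ⟩
      have h0 := hσ 0
      rw [hmap] at h0
      have h01 : σ 0 = 0 ∨ σ 0 = 1 := by
        generalize σ 0 = j
        fin_cases j
        · exact Or.inl rfl
        · exact Or.inr rfl
      rcases h01 with h1 | h1
      · apply mem_stO_of_fin
        intro x hx
        rw [h1] at h0
        rw [← h0]
        exact ⟨x, hx, rfl⟩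
      · rw [h1] at h0
        exact (hno g h0).elim
    · intro hg
      have hg1 : g ∈ stO (Q := mkQF hQ) (D 1) := by rw [hD1, stO_oc hnd]; exact hg
      refine ⟨1, fun i => ?_⟩
      rw [hmap]
      have key : ∀ W : Submodule F (Fin n → F), g ∈ stO (Q := mkQF hQ) W →
          W.map (g.1 : (Fin n → F) →ₗ[F] (Fin n → F)) = W := by
        intro W hW
        apply le_antisymm
        · rintro _ ⟨x, hx, rfl⟩
          exact hW.1 x hx
        · intro x hx
          exact ⟨(g⁻¹ : OG (mkQF hQ)) x, hW.2 x hx, og_inv' g x⟩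
      have hi : i = 0 ∨ i = 1 := by
        fin_cases i
        · exact Or.inl rfl
        · exact Or.inr rfl
      rcases hi with rfl | rfl
      · exact key _ hg
      · exact key _ hg1
  rw [hst]
  have hkpos : 7 ≤ k := by omega
  apply nd_max_gen hnd (by omega) hWn
  · intro h
    rw [h, finrank_bot] at hf0
    omega
  · intro h
    rw [h, finrank_top] at hf0
    omega
  · rintro ⟨-, h4, -⟩
    omega
  · rintro ⟨-, h4, -⟩
    omega
  · intro h g hg
    by_contra hcon
    push Not at hcon
    apply hno g
    apply Submodule.eq_of_le_of_finrank_eq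
    · rintro _ ⟨x, hx, rfl⟩
      rw [hD1]
      exact hcon x hx
    · rw [hf1, ← hf0]
      exact LinearEquiv.finrank_map_eq g.1 (D 0)

end Cfsg.Agent.S5699
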