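import Cfsg.Statements.S5702
import Cfsg.Agent.H12.RSub7

set_option autoImplicit false
open Cfsg

namespace Cfsg.Agent.S5702

open Cfsg.Agent.H12 Cfsg.Agent.H5

lemma iso_scale {F : Type*} [Field F] {n : ℕ} (Q : (Fin n → F) → F) {ζ : F} (hζ : ζ ≠ 0) :
    isometryGroup F Q = isometryGroup F (fun v => ζ * Q v) := by
  ext g
  constructor
  · intro h u v
    have h1 := h u v
    exact congrArg (fun x => ζ * x) h1
  · intro h u v
    have h1 := h u v
    exact mul_left_cancel₀ hζ h1

lemma omegaGL_scale {F : Type*} [Field F] {n : ℕ} (Q : (Fin n → F) → F) {ζ : F} (hζ : ζ ≠ 0) :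
    Geo.omegaGL Q = Geo.omegaGL (fun v => ζ * Q v) := by
  unfold Geo.omegaGL Omega
  rw [← iso_scale Q hζ]

lemma scaled_nd {F : Type*} [Field F] {n : ℕ} {Q : (Fin n → F) → F} (hQ : Geo.IsNondegenerateQuadraticForm Q) {ζ : F}
    (hζ : ζ ≠ 0) : Geo.IsNondegenerateQuadraticForm (fun v => ζ * Q v) := by
  have hpol : ∀ u v, QuadraticMap.polar (fun v => ζ * Q v) u v = ζ * QuadraticMap.polar Q u v := by
    intro u v
    simp only [QuadraticMap.polar]
    ring
  refine ⟨fun c v => ?_, ?_, ?_⟩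
  · show ζ * Q (c • v) = c ^ 2 * (ζ * Q v)
    rw [hQ.smul]; ring
  · refine ⟨?_, ?_, ?_, ?_⟩
    · intro x y v
      rw [hpol, hpol, hpol, hQ.polar_bilinear.add_left]; ring
    · intro c x v
      rw [hpol, hpol, hQ.polar_bilinear.smul_left]; ring
    · intro x y v
      rw [hpol, hpol, hpol, hQ.polar_bilinear.add_right]; ring
    · intro c x v
      rw [hpol, hpol, hQ.polar_bilinear.smul_right]; ring
  · intro v hv
    obtain ⟨⟨x, hx⟩, ⟨y, hy⟩⟩ := hQ.nondegenerate v hv
    exact ⟨⟨x, by rw [hpol]; exact mul_ne_zero hζ hx⟩, ⟨y, by rw [hpol]; exact mul_ne_zero hζ hy⟩⟩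

/-- Let F be a finite field with q elements, n ≥ 13 even, Q a non-degenerate quadratic form on F^n (of either type), and Ω the commutator subgroup of the isometry group of Q, viewed inside GL_n(F). Let F₀ be a subfield with |F| = |F₀| ^ r for a prime r, ζ a non-zero scalar and P an invertible matrix such that ζ·Q takes values in F₀ on the F₀-span of the columns of P. Then the elements of Ω lying in the subfield group of P (the conjugate by P of the product of GL_n(F₀) with the scalars) form a maximal subgroup of Ω. -/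
theorem result {F : Type*} [Field F] [Fintype F] {n : ℕ} (hn : 13 ≤ n) (heven : Even n) (Q : (Fin n → F) → F) (hQ : Cfsg.Geo.IsNondegenerateQuadraticForm Q) (F₀ : Subfield F) (r : ℕ) (hr : r.Prime) (hcard : Fintype.card F = Nat.card F₀ ^ r) (P : Matrix.GeneralLinearGroup (Fin n) F) (ζ : F) (hζ : ζ ≠ 0) (hP : Cfsg.Geo.IsQuadFormRationalStructure (fun v : Fin n → F => ζ * Q v) F₀ P) : Cfsg.Geo.IsMaximalIn (Cfsg.Geo.omegaGL Q) (Cfsg.Geo.subfieldSubgroup F₀ P ⊓ Cfsg.Geo.omegaGL Q) := by
  have hQ' := scaled_nd hQ hζ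
  have hnd := mkQF_nd hQ'
  rw [omegaGL_scale Q hζ]
  rw [← mkQF_coe hQ'] at hP ⊢
  obtain ⟨k, hk⟩ := heven
  exact sub_maximal hnd (by rw [Fintype.card_fin]; omega) (Or.inr (by rw [Fintype.card_fin]; omega)) hr hcard P hP

end Cfsg.Agent.S5702
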