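import Cfsg.Statements.S5876
import Cfsg.Agent.H14.PrimSol

set_option autoImplicit false
open Cfsg

namespace Cfsg.Agent.S5876

/-- Fixed-point spaces in primitive soluble linear groups. Let F be a finite field and G a soluble subgroup of GL_n(F) that acts irreducibly on F^n and primitively (G preserves no decomposition of F^n into two or more independent subspaces of equal dimension). Then every non-identity element g of G has fixed-point space {v : g v = v} of dimension at most 3n/4. -/
theorem result {F : Type*} [Field F] [Fintype F] {n : ℕ} (G : Subgroup (Matrix.GeneralLinearGroup (Fin n) F)) (hsol : IsSolvable G) (hirr : Cfsg.Geo.ActsIrreducibly (Cfsg.Geo.matrixSet G)) (hprim : ∀ (m t : ℕ) (D : Fin t → Submodule F (Fin n → F)), 2 ≤ t → Cfsg.Geo.IsMDecomposition m D → ¬ G ≤ Cfsg.Geo.decompositionStabilizer D) (g : Matrix.GeneralLinearGroup (Fin n) F) (hg : g ∈ G) (hg1 : g ≠ 1) :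
    4 * Module.finrank F (Module.End.eigenspace (Matrix.toLin' (g : Matrix (Fin n) (Fin n) F)) 1) ≤ 3 * n := by
  classical
  let ρ : G →* Module.End F (Fin n → F) :=
    { toFun := fun g => Matrix.toLin' ((g : Matrix.GeneralLinearGroup (Fin n) F) : Matrix (Fin n) (Fin n) F)
      map_one' := by simp [Module.End.one_eq_id]
      map_mul' := fun a b => by
        simp only [Subgroup.coe_mul, Units.val_mul, Matrix.toLin'_mul]
        rfl }
  have hρ : ∀ g : G, ρ g = Matrix.toLin' ((g : Matrix.GeneralLinearGroup (Fin n) F) : Matrix (Fin n) (Fin n) F) :=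
    fun _ => rfl
  have hinj : Function.Injective ρ := by
    intro a b hab
    apply Subtype.ext
    apply Units.ext
    exact Matrix.toLin'.injective hab
  have hIP : H14.PS.IP ρ := by
    constructor
    · intro W hW
      apply hirr W
      rintro _ ⟨a, ha, rfl⟩
      rintro _ ⟨v, hv, rfl⟩
      exact hW ⟨a, ha⟩ v hv
    · intro t D ht h1 h2 h3 h4 h5
      have i0 : Fin t := ⟨0, by omega⟩
      refine hprim (Module.finrank F (D i0)) t D ht ⟨ht, h2 i0, fun i => h1 i i0, h3, h4⟩ ?_
      intro a ha
      exact h5 ⟨a, ha⟩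
  have hsol' : IsSolvable G := hsol
  haveI : Finite G := inferInstance
  have key := H14.PS.main hIP hinj hsol' (g := ⟨g, hg⟩) (fun h => hg1 (congrArg Subtype.val h))
  have e : H14.PS.fx ρ ⟨g, hg⟩ = Module.End.eigenspace (Matrix.toLin' (g : Matrix (Fin n) (Fin n) F)) 1 := by
    ext v
    rw [H14.PS.mem_fx, Module.End.mem_eigenspace_iff, one_smul]
    exact Iff.rfl
  rw [e] at key
  simpa using key

end Cfsg.Agent.S5876
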