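import Cfsg.Statements.S5944


set_option autoImplicit false
open Cfsg

namespace Cfsg.Agent.S5944

/-- For n ≠ 4, every proper subgroup of the symmetric group S_n other than the alternating group A_n has index at least n. -/
theorem result (n : ℕ) (hn : n ≠ 4) (H : Subgroup (Equiv.Perm (Fin n))) (hH : H ≠ ⊤) (hA : H ≠ alternatingGroup (Fin n)) : n ≤ H.index := by
  by_contra hlt
  push Not at hlt
  have hpos : H.index ≠ 0 := Subgroup.index_ne_zero_of_finite
  have h1 : H.index ≠ 1 := fun h => hH (Subgroup.index_eq_one.mp h)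
  have hn3 : 3 ≤ n := by omega
  haveI : Nontrivial (Fin n) := Fin.nontrivial_iff_two_le.mpr (by omega)
  have h2 : H.index ≠ 2 := fun h => hA (Equiv.Perm.eq_alternatingGroup_of_index_eq_two h)
  have hn5 : 5 ≤ n := by omega
  let φ : Equiv.Perm (Fin n) →* Equiv.Perm (Equiv.Perm (Fin n) ⧸ H) := MulAction.toPermHom _ _
  have hker : φ.ker ≤ H := by
    intro g hg
    have h3 : g • ((1 : Equiv.Perm (Fin n)) : Equiv.Perm (Fin n) ⧸ H) = ((1 : Equiv.Perm (Fin n)) : Equiv.Perm (Fin n) ⧸ H) := by
      have h4 : φ g = 1 := MonoidHom.mem_ker.mp hg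
      exact congrArg (fun s : Equiv.Perm (Equiv.Perm (Fin n) ⧸ H) => s ((1 : Equiv.Perm (Fin n)) : Equiv.Perm (Fin n) ⧸ H)) h4
    rw [MulAction.Quotient.smul_mk, smul_eq_mul, mul_one, eq_comm, QuotientGroup.eq, inv_one, one_mul] at h3
    exact h3
  by_cases hk : φ.ker = ⊥
  · have hinj : Function.Injective φ := (MonoidHom.ker_eq_bot_iff φ).mp hk
    have h3 := Nat.card_le_card_of_injective φ hinj
    rw [Nat.card_perm, Nat.card_perm, Nat.card_fin] at h3
    have h4 : (Nat.card (Equiv.Perm (Fin n) ⧸ H)) = H.index := rfl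
    rw [h4] at h3
    have h5 := (Nat.factorial_lt (by omega : 0 < H.index)).mpr hlt
    omega
  · haveI : Nontrivial φ.ker := (Subgroup.nontrivial_iff_ne_bot _).mpr hk
    have h3 := Equiv.Perm.alternatingGroup_le_of_normal (by rwa [Nat.card_fin]) (N := φ.ker) inferInstance
    have h4 := Subgroup.index_dvd_of_le (h3.trans hker)
    rw [alternatingGroup.index_eq_two] at h4
    have := Nat.le_of_dvd (by norm_num) h4
    omega

end Cfsg.Agent.S5944
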