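import Cfsg.Statements.S5945
import Cfsg.Agent.H9.SnC

set_option autoImplicit false
open Cfsg

namespace Cfsg.Agent.S5945

/-- The symmetric group S_6 has exactly 12 subgroups of index 6; each of them is isomorphic to S_5, and at least one of them is not the stabilizer of any point. -/
theorem result : Nat.card {H : Subgroup (Equiv.Perm (Fin 6)) // H.index = 6} = 12 ∧ (∀ H : Subgroup (Equiv.Perm (Fin 6)), H.index = 6 → Nonempty (H ≃* Equiv.Perm (Fin 5))) ∧ ∃ H : Subgroup (Equiv.Perm (Fin 6)), H.index = 6 ∧ ∀ a : Fin 6, H ≠ MulAction.stabilizer (Equiv.Perm (Fin 6)) a := by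
  classical
  have h6 : Fintype.card (Fin 6) = 6 := Fintype.card_fin 6
  obtain ⟨e, hcl, hne⟩ := H9.Sn.classify (Ω := Fin 6) h6
  refine ⟨?_, ?_, ?_⟩
  · let f : Fin 6 ⊕ Fin 6 → {H : Subgroup (Equiv.Perm (Fin 6)) // H.index = 6} := fun s =>
      match s with
      | Sum.inl ω => ⟨MulAction.stabilizer (Equiv.Perm (Fin 6)) ω, (hcl _).mpr (Or.inl ⟨ω, rfl⟩)⟩
      | Sum.inr ω => ⟨(MulAction.stabilizer (Equiv.Perm (Fin 6)) ω).comap e.toMonoidHom, (hcl _).mpr (Or.inr ⟨ω, rfl⟩)⟩
    have hf : Function.Bijective f := by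
      constructor
      · rintro (a | a) (b | b) hab
        · exact congrArg Sum.inl (H9.Sn.stab_inj (by rw [h6]; norm_num) (congrArg Subtype.val hab))
        · exact absurd (congrArg Subtype.val hab) (hne a b)
        · exact absurd (congrArg Subtype.val hab).symm (hne b a)
        · apply congrArg Sum.inr
          apply H9.Sn.stab_inj (by rw [h6]; norm_num)
          exact Subgroup.comap_injective e.surjective (congrArg Subtype.val hab)
      · rintro ⟨H, hH⟩
        rcases (hcl H).mp hH with ⟨ω, rfl⟩ | ⟨ω, rfl⟩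
        · exact ⟨Sum.inl ω, rfl⟩
        · exact ⟨Sum.inr ω, rfl⟩
    rw [← Nat.card_congr (Equiv.ofBijective f hf), Nat.card_sum, Nat.card_fin]
  · intro H hH
    rcases (hcl H).mp hH with ⟨ω, rfl⟩ | ⟨ω, rfl⟩
    · exact H9.Sn.stab_iso (n := 5) h6 ω
    · obtain ⟨s⟩ := H9.Sn.stab_iso (n := 5) h6 ω
      have h1 : (MulAction.stabilizer (Equiv.Perm (Fin 6)) ω).comap e.toMonoidHom =
          (MulAction.stabilizer (Equiv.Perm (Fin 6)) ω).map e.symm.toMonoidHom := by
        ext a
        constructor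
        · intro ha
          exact ⟨e a, ha, e.symm_apply_apply a⟩
        · rintro ⟨b, hb, rfl⟩
          change e (e.symm b) ∈ MulAction.stabilizer (Equiv.Perm (Fin 6)) ω
          rwa [e.apply_symm_apply]
      exact ⟨(MulEquiv.subgroupCongr h1).trans ((e.symm.subgroupMap _).symm.trans s)⟩
  · exact ⟨(MulAction.stabilizer (Equiv.Perm (Fin 6)) (0 : Fin 6)).comap e.toMonoidHom, (hcl _).mpr (Or.inr ⟨0, rfl⟩),
      fun a h => hne a 0 h.symm⟩

end Cfsg.Agent.S5945
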