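import Cfsg.Statements.S5952
import Cfsg.Agent.H25.SemiInv

set_option autoImplicit false
open Cfsg
open Cfsg.Agent.H25.SemiInv

namespace Cfsg.Agent.S5952

/-- Which dimensions of invariant subspaces a semisimple linear map has. Let `V` be a finite-dimensional vector space over a field `F` and `f` an invertible semisimple linear map of `V`. Suppose `V` is the internal direct sum of the fixed space `C_V(f)` (the eigenspace for 1) and subspaces `U_1, …, U_s`, each `f`-invariant of dimension `a ≥ 1` on which `f` acts irreducibly (no `f`-invariant subspaces other than 0 and `U_j`). Let `0 < m < dim V` and `ℓ = m mod a`. Then `f` leaves some `m`-dimensional subspace invariant if and only if `dim C_V(f) ≥ m`, or `a ≤ m` and `dim C_V(f) ≥ ℓ`. -/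
theorem result {F V : Type*} [Field F] [AddCommGroup V] [Module F V]
    [FiniteDimensional F V] (f : V →ₗ[F] V) (hf : Function.Bijective f) (hss : Module.End.IsSemisimple f)
    {s a : ℕ} (ha : 1 ≤ a) (U : Fin s → Submodule F V)
    (hUinv : ∀ j, (U j).map f ≤ U j) (hUdim : ∀ j, Module.finrank F ↥(U j) = a)
    (hUirr : ∀ j, ∀ W : Submodule F V, W ≤ U j → W.map f ≤ W → W = ⊥ ∨ W = U j)
    (hdec : DirectSum.IsInternal (fun o : Option (Fin s) => o.elim (Module.End.eigenspace f 1) U))
    (m : ℕ) (hm : 0 < m) (hmV : m < Module.finrank F V) :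
    (∃ W : Submodule F V, Module.finrank F ↥W = m ∧ W.map f ≤ W) ↔
    (m ≤ Module.finrank F ↥(Module.End.eigenspace f 1) ∨
      (a ≤ m ∧ m % a ≤ Module.finrank F ↥(Module.End.eigenspace f 1))) := by
  classical
  set C := Module.End.eigenspace f 1 with hC
  have hGs : G U C s = ⊤ := by
    have h1 := hdec.submodule_iSup_eq_top
    rw [iSup_option] at h1
    rw [eq_top_iff, ← h1]
    refine sup_le (le_G U C s) (iSup_le fun j => U_le_G U C s j j.2)
  have hdisj : ∀ (D : Submodule F V), D ≤ C → ∀ (k : ℕ) (hk : k < s),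
      Disjoint (G U D k) (U ⟨k, hk⟩) := by
    intro D hD k hk
    have h1 := hdec.submodule_iSupIndep (some ⟨k, hk⟩)
    refine (h1.mono_right ?_).symm
    refine G_le U D k ?_ fun j hj => ?_
    · refine hD.trans ?_
      exact le_iSup₂ (f := fun (o : Option (Fin s)) (_ : o ≠ some ⟨k, hk⟩) =>
        (o.elim C U : Submodule F V)) none (by simp)
    · have hne : (some j : Option (Fin s)) ≠ some ⟨k, hk⟩ := by
        intro h2
        have := Option.some_injective _ h2
        rw [this] at hj
        exact lt_irrefl _ hj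
      exact le_iSup₂ (f := fun (o : Option (Fin s)) (_ : o ≠ some ⟨k, hk⟩) =>
        (o.elim C U : Submodule F V)) (some j) hne
  have hDinv : ∀ D : Submodule F V, D ≤ C → D.map f ≤ D := by
    rintro D hD _ ⟨v, hv, rfl⟩
    have : f v = v := by
      have := Module.End.mem_eigenspace_iff.1 (hD hv)
      rw [one_smul] at this
      exact this
    rw [this]
    exact hv
  have hGinv : ∀ D : Submodule F V, D ≤ C → ∀ k, (G U D k).map f ≤ G U D k :=
    fun D hD k => G_inv U D (hDinv D hD) hUinv k
  have hGdim : ∀ D : Submodule F V, D ≤ C → ∀ k, k ≤ s →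
      Module.finrank F (G U D k) = Module.finrank F D + k * a := by
    intro D hD k
    induction k with
    | zero => intro _; rw [G_zero]; omega
    | succ k ih =>
      intro hk
      have h1 := Submodule.finrank_sup_add_finrank_inf_eq (G U D k) (U ⟨k, hk⟩)
      rw [(hdisj D hD k hk).eq_bot, finrank_bot, add_zero, hUdim, ← G_succ U D k hk] at h1
      rw [h1, ih (by omega)]
      ring
  have hdimV : Module.finrank F V = Module.finrank F C + s * a := by
    rw [← hGdim C le_rfl s le_rfl, hGs, finrank_top]
  constructor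
  · rintro ⟨W, hWm, hWf⟩
    have key : ∀ k, k ≤ s → ∃ e, Module.finrank F (W ⊓ G U C k : Submodule F V) =
        Module.finrank F (W ⊓ C : Submodule F V) + e * a := by
      intro k
      induction k with
      | zero => intro _; exact ⟨0, by rw [G_zero]; omega⟩
      | succ k ih =>
        intro hk
        obtain ⟨e, he⟩ := ih (by omega)
        obtain ⟨A, hA⟩ : ∃ A, A = W ⊓ G U C (k + 1) := ⟨_, rfl⟩
        obtain ⟨B, hB⟩ : ∃ B, B = G U C k := ⟨_, rfl⟩
        have h1 : (U ⟨k, hk⟩ ⊓ (A ⊔ B)).map f ≤ U ⟨k, hk⟩ ⊓ (A ⊔ B) := by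
          refine (Submodule.map_inf_le f).trans (inf_le_inf (hUinv _) ?_)
          rw [Submodule.map_sup]
          refine sup_le_sup ?_ ?_
          · rw [hA]
            exact (Submodule.map_inf_le f).trans (inf_le_inf hWf (hGinv C le_rfl _))
          · rw [hB]
            exact hGinv C le_rfl k
        have h2 := hUirr ⟨k, hk⟩ _ inf_le_left h1
        have h3 : A ⊔ B ≤ B ⊔ U ⟨k, hk⟩ := by
          rw [hA, hB, ← G_succ U C k hk]
          exact sup_le inf_le_right (G_mono U C k)
        have h4 : A ⊔ B = B ⊔ (U ⟨k, hk⟩ ⊓ (A ⊔ B)) := by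
          rw [← sup_inf_assoc_of_le (U ⟨k, hk⟩) (le_sup_right : B ≤ A ⊔ B)]
          exact (inf_eq_right.2 h3).symm
        have h5 := Submodule.finrank_sup_add_finrank_inf_eq A B
        have h6 : A ⊓ B = W ⊓ G U C k := by
          rw [hA, hB, inf_assoc, inf_eq_right.2 (G_mono U C k)]
        rw [h6, he] at h5
        rw [← hA]
        rcases h2 with h2 | h2
        · rw [h2, sup_bot_eq] at h4
          rw [h4] at h5
          exact ⟨e, by omega⟩
        · rw [h2, hB, ← G_succ U C k hk, ← hB] at h4
          rw [h4, hGdim C le_rfl (k + 1) hk, hB, hGdim C le_rfl k (by omega)] at h5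
          refine ⟨e + 1, ?_⟩
          have e1 : (k + 1) * a = k * a + a := by ring
          have e2 : (e + 1) * a = e * a + a := by ring
          omega
    obtain ⟨e, he⟩ := key s le_rfl
    rw [hGs, inf_top_eq, hWm] at he
    have h7 : Module.finrank F (W ⊓ C : Submodule F V) ≤ Module.finrank F C :=
      Submodule.finrank_mono inf_le_right
    rcases Nat.eq_zero_or_pos e with h0 | h0
    · left
      rw [h0] at he
      omega
    · right
      have h8 : a ≤ e * a := Nat.le_mul_of_pos_left a h0
      refine ⟨by omega, ?_⟩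
      rw [he, Nat.add_mul_mod_self_right]
      exact (Nat.mod_le _ _).trans h7
  · intro h
    have hex : ∀ k c, k ≤ s → c ≤ Module.finrank F C → ∃ W : Submodule F V,
        Module.finrank F W = c + k * a ∧ W.map f ≤ W := by
      intro k c hk hc
      have b := Module.finBasis F C
      obtain ⟨w, hwdef⟩ : ∃ w : Fin c → V, w = fun i => ((b (Fin.castLE hc i) : C) : V) := ⟨_, rfl⟩
      have hw : LinearIndependent F w := by
        have h1 := b.linearIndependent.comp (Fin.castLE hc) (Fin.castLE_injective hc)
        rw [hwdef]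
        exact h1.map' C.subtype (Submodule.ker_subtype C)
      have hle : Submodule.span F (Set.range w) ≤ C := by
        rw [Submodule.span_le]
        rintro _ ⟨i, rfl⟩
        rw [hwdef]
        exact (b (Fin.castLE hc i)).2
      refine ⟨G U (Submodule.span F (Set.range w)) k, ?_, hGinv _ hle k⟩
      rw [hGdim _ hle k hk, finrank_span_eq_card hw, Fintype.card_fin]
    rcases h with h | ⟨h1, h2⟩
    · obtain ⟨W, hW1, hW2⟩ := hex 0 m (Nat.zero_le _) h
      exact ⟨W, by rw [hW1]; omega, hW2⟩
    · by_cases h3 : m / a ≤ s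
      · obtain ⟨W, hW1, hW2⟩ := hex (m / a) (m % a) h3 h2
        exact ⟨W, by rw [hW1, Nat.mod_add_div'], hW2⟩
      · have h4 : s * a ≤ m := by
          refine (Nat.mul_le_mul_right a (Nat.le_of_lt (not_le.1 h3))).trans ?_
          exact Nat.div_mul_le_self m a
        obtain ⟨W, hW1, hW2⟩ := hex s (m - s * a) le_rfl (by omega)
        exact ⟨W, by rw [hW1]; omega, hW2⟩

end Cfsg.Agent.S5952
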