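import Cfsg.Statements.S5957
import Cfsg.Agent.H12.InvDec

set_option autoImplicit false
open Cfsg

open scoped MatrixGroups

namespace Cfsg.Agent.S5957

open Cfsg.Agent.H12

/-- Involutions of PSL_n(q) and imprimitive subgroups. Here `T = PSL_n(F)` for a field `F` with `q = p^f` elements (`n ≥ 2`, `(n, q) ≠ (2, 2), (2, 3)`), `n = a·t` with `t ≥ 2`, and Ω is the set of direct-sum decompositions of `F^n` into `t` subspaces of dimension `a` (unordered; their number is the number of ordered ones divided by `t!`), whose stabilizers are the imprimitive subgroups of type GL_a(q) ≀ S_t (maximal except in some small cases; maximality is not assumed); an element of `T` of prime order `r` (a matrix `x` of determinant 1 with `x^r` scalar, `x` not scalar) fixes a point of Ω when it permutes the summands of some such decomposition. If the number of such decompositions is even, then every involution of `T` stabilizes one of them (the action is 2-elusive). -/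
theorem result {F : Type*} [Field F] [Fintype F] {p : ℕ} [Fact p.Prime] [CharP F p] {q : ℕ} (hq : Fintype.card F = q)
    (n a t : ℕ) (hn : 2 ≤ n) (hT : (n, q) ≠ (2, 2) ∧ (n, q) ≠ (2, 3)) (hat : n = a * t) (ha : 1 ≤ a) (ht : 2 ≤ t)
    (hΩ : 2 ∣ Nat.card {D : Fin t → Submodule F (Fin n → F) // Cfsg.Geo.IsMDecomposition a D} / Nat.factorial t)
    (x : Matrix.SpecialLinearGroup (Fin n) F)
    (hx1 : ∃ z : F, ((x ^ 2 : Matrix.SpecialLinearGroup (Fin n) F) : Matrix (Fin n) (Fin n) F) = z • (1 : Matrix (Fin n) (Fin n) F))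
    (hx2 : ∀ z : F, (x : Matrix (Fin n) (Fin n) F) ≠ z • (1 : Matrix (Fin n) (Fin n) F)) :
    ∃ D : Fin t → Submodule F (Fin n → F), Cfsg.Geo.IsMDecomposition a D ∧
        ∃ σ : Equiv.Perm (Fin t), ∀ j, (D j).map (Matrix.toLin' (x : Matrix (Fin n) (Fin n) F)) = D (σ j) := by
  classical
  obtain ⟨z, hz⟩ := hx1
  have hn0 : NeZero n := ⟨by omega⟩
  set X : (Fin n → F) →ₗ[F] (Fin n → F) := Matrix.toLin' (x : Matrix (Fin n) (Fin n) F) with hX
  have hXX : ∀ v, X (X v) = z • v := by
    intro v
    have h1 : (x : Matrix (Fin n) (Fin n) F) * x = z • (1 : Matrix (Fin n) (Fin n) F) := by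
      rw [← hz, pow_two]; rfl
    rw [hX, ← LinearMap.comp_apply, ← Matrix.toLin'_mul, h1]
    simp
  have hdet : (x : Matrix (Fin n) (Fin n) F).det = 1 := x.2
  have hXi : Function.Injective X := by
    rw [hX]
    have hu : IsUnit (x : Matrix (Fin n) (Fin n) F) := by
      rw [Matrix.isUnit_iff_isUnit_det, hdet]; exact isUnit_one
    intro v w hvw
    rw [Matrix.toLin'_apply, Matrix.toLin'_apply] at hvw
    exact Matrix.mulVec_injective_of_isUnit hu hvw
  have hz0 : z ≠ 0 := by
    rintro rfl
    have h1 : (fun _ => (1 : F)) = (0 : Fin n → F) := hXi (hXi (by rw [hXX, zero_smul, map_zero, map_zero]))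
    exact one_ne_zero (congrFun h1 ⟨0, by omega⟩)
  obtain ⟨κ, hκ, b, π, hπ, hb⟩ := mono_basis (F := F) (Module.finrank F (Fin n → F)) rfl X z hz0 hXX
  have hκc : Fintype.card κ = a * t := by
    rw [← Module.finrank_eq_card_basis b, ← hat]; simp
  obtain ⟨f, σ, h1, h2⟩ := inv_part π hπ a t ha hκc
  refine ⟨labSpan (F := F) b f, labSpan_mdec b ht f a ha h1, σ, fun j => ?_⟩
  refine labSpan_map b f σ X hXi a h1 (fun k => ?_) j
  obtain ⟨c, hc⟩ := hb k
  rw [hc]
  exact Submodule.smul_mem _ _ (Submodule.subset_span ⟨π k, h2 k, rfl⟩)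

end Cfsg.Agent.S5957
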