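import Cfsg.Statements.S5959
import Cfsg.Agent.H25.Jord

set_option autoImplicit false
open scoped MatrixGroups
open Cfsg
open Module Cfsg.Agent.H25.Jord

namespace Cfsg.Agent.S5959

/-- Elements of order `p` of PSL_n(q) and imprimitive subgroups: a necessary condition. Here `T = PSL_n(F)` for a field `F` with `q = p^f` elements (`n ≥ 2`, `(n, q) ≠ (2, 2), (2, 3)`), `n = a·t` with `t ≥ 2`, and Ω is the set of direct-sum decompositions of `F^n` into `t` subspaces of dimension `a` (unordered; their number is the number of ordered ones divided by `t!`), whose stabilizers are the imprimitive subgroups of type GL_a(q) ≀ S_t (maximal except in some small cases; maximality is not assumed); an element of `T` of prime order `r` (a matrix `x` of determinant 1 with `x^r` scalar, `x` not scalar) fixes a point of Ω when it permutes the summands of some such decomposition. Suppose `p > 2` divides the number of such decompositions. If every element of `T` of order `p` stabilizes such a decomposition, then every partition of `n` into parts of size at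 most `p` in which the part `p` occurs fewer than `a` times contains (as a sub-multiset) a partition of `a`. -/
theorem result {F : Type*} [Field F] [Fintype F] {p : ℕ} [Fact p.Prime] [CharP F p] {q : ℕ} (hq : Fintype.card F = q)
    (n a t : ℕ) (hn : 2 ≤ n) (hT : (n, q) ≠ (2, 2) ∧ (n, q) ≠ (2, 3)) (hat : n = a * t) (ha : 1 ≤ a) (ht : 2 ≤ t)
    (hp : 2 < p) (hΩ : p ∣ Nat.card {D : Fin t → Submodule F (Fin n → F) // Cfsg.Geo.IsMDecomposition a D} / Nat.factorial t)
    (h : ∀ x : Matrix.SpecialLinearGroup (Fin n) F,
      (∃ z : F, ((x ^ p : Matrix.SpecialLinearGroup (Fin n) F) : Matrix (Fin n) (Fin n) F) = z • (1 : Matrix (Fin n) (Fin n) F)) →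
      (∀ z : F, (x : Matrix (Fin n) (Fin n) F) ≠ z • (1 : Matrix (Fin n) (Fin n) F)) →
      ∃ D : Fin t → Submodule F (Fin n → F), Cfsg.Geo.IsMDecomposition a D ∧
        ∃ σ : Equiv.Perm (Fin t), ∀ j, (D j).map (Matrix.toLin' (x : Matrix (Fin n) (Fin n) F)) = D (σ j)) :
    (∀ μ : Multiset ℕ, (∀ b ∈ μ, 0 < b ∧ b ≤ p) → μ.sum = n → μ.count p < a → ∃ ν : Multiset ℕ, ν ≤ μ ∧ ν.sum = a) := by
  classical
  intro μ hμ hsum hcount
  have hpp : p.Prime := Fact.out
  haveI : Nonempty (Fin n) := ⟨⟨0, by omega⟩⟩
  have hat' : a ≤ n := by rw [hat]; exact Nat.le_mul_of_pos_right _ (by omega)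
  by_cases hone : ∀ b ∈ μ, b = 1
  · have h1 := Multiset.eq_replicate_card.2 hone
    have h2 : Multiset.card μ = n := by
      rw [h1, Multiset.sum_replicate] at hsum
      simpa using hsum
    refine ⟨Multiset.replicate a 1, ?_, by simp⟩
    rw [h1, h2]
    exact (Multiset.replicate_le_replicate 1).2 hat'
  push Not at hone
  obtain ⟨b0, hb0, hb1⟩ := hone
  obtain ⟨N, hNp, hN⟩ := exists_nilp F n p μ hμ hsum
  set M := LinearMap.toMatrix' N with hM
  have hMp : M ^ p = 0 := by
    have : LinearMap.toMatrix' (N ^ p) = M ^ p := by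
      rw [hM]
      exact map_pow (LinearMap.toMatrixAlgEquiv' (R := F) (n := Fin n)) N p
    rw [← this, hNp, map_zero]
  set X : Matrix (Fin n) (Fin n) F := 1 + M with hX
  have hXp : X ^ p = 1 := by
    rw [hX, add_pow_char_of_commute (R := Matrix (Fin n) (Fin n) F) (p := p) (Commute.one_left M),
      hMp, one_pow, add_zero]
  have hdet : X.det = 1 := by
    have h1 : X.det ^ p = 1 := by rw [← Matrix.det_pow, hXp, Matrix.det_one]
    have h2 : (X.det - 1) ^ p = 0 := by
      rw [sub_pow_char, h1, one_pow, sub_self]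
    exact sub_eq_zero.1 (pow_eq_zero_iff hpp.ne_zero |>.1 h2)
  set T : (Fin n → F) →ₗ[F] (Fin n → F) := Matrix.toLin' X with hT'
  have hTN : T = 1 + N := by
    rw [hT', hX, map_add, Matrix.toLin'_one, hM, Matrix.toLin'_toMatrix']
    rfl
  have hTp : T ^ p = 1 := by
    have : Matrix.toLin' (X ^ p) = T ^ p := Matrix.toLin'_pow X p
    rw [← this, hXp, Matrix.toLin'_one]
    rfl
  have hNne : N ≠ 0 := by
    intro h0
    have h1 := hN 1
    have h2 : dd N ⊤ 1 = 0 := by
      unfold dd K
      rw [h0]
      simp
    rw [h2] at h1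
    have h3 := (Multiset.countP_eq_zero.1 h1.symm) b0 hb0
    have := (hμ b0 hb0).1
    omega
  obtain ⟨D, hD, σ, hσ⟩ := h ⟨X, hdet⟩ ⟨1, by
    rw [one_smul]
    exact hXp⟩ (by
    intro z hz
    have hz' : X = z • (1 : Matrix (Fin n) (Fin n) F) := hz
    have h1 : M = (z - 1) • (1 : Matrix (Fin n) (Fin n) F) := by
      rw [sub_smul, one_smul, ← hz', hX, add_sub_cancel_left]
    have h2 : (z - 1) ^ p = 0 := by
      rw [h1, smul_pow, one_pow] at hMp
      have := congrFun (congrFun hMp (Classical.arbitrary _)) (Classical.arbitrary _)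
      simpa using this
    have h3 : M = 0 := by
      rw [h1, pow_eq_zero_iff hpp.ne_zero |>.1 h2, zero_smul]
    apply hNne
    rw [hM] at h3
    exact (LinearEquiv.map_eq_zero_iff _).1 h3)
  change ∀ j, (D j).map T = D (σ j) at hσ
  -- invariance transfer
  have hinv : ∀ S : Submodule F (Fin n → F), S.map T ≤ S → S.map N ≤ S := by
    rintro S hS _ ⟨v, hv, rfl⟩
    have : N v = T v - v := by rw [hTN]; simp
    rw [this]
    exact S.sub_mem (hS ⟨v, hv, rfl⟩) hv
  have hmapW : ∀ j, σ j = j → (⨆ (i : Fin t) (_ : i ≠ j), D i).map T ≤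
      ⨆ (i : Fin t) (_ : i ≠ j), D i := by
    intro j hj
    simp only [Submodule.map_iSup]
    refine iSup₂_le fun i hi => ?_
    rw [hσ]
    refine le_iSup₂_of_le (σ i) ?_ le_rfl
    intro h1
    exact hi (σ.injective (h1.trans hj.symm))
  by_cases hfix : ∃ j, σ j = j
  · obtain ⟨j, hj⟩ := hfix
    have hc : IsCompl (D j) (⨆ (i : Fin t) (_ : i ≠ j), D i) := by
      refine ⟨hD.indep j, ?_⟩
      rw [codisjoint_iff, ← hD.iSup_eq_top]
      apply le_antisymm
      · exact sup_le (le_iSup _ _) (iSup₂_le fun i _ => le_iSup _ _)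
      · refine iSup_le fun i => ?_
        by_cases hi : i = j
        · rw [hi]; exact le_sup_left
        · exact le_sup_of_le_right (le_iSup₂_of_le i hi le_rfl)
    have hDi : (D j).map N ≤ D j := hinv _ (by rw [hσ, hj])
    have hWi := hinv _ (hmapW j hj)
    refine exists_sub μ (dd N (D j)) (dd N (⨆ (i : Fin t) (_ : i ≠ j), D i)) p a
      (dd_anti hDi) (dd_anti hWi) ?_ ?_ ?_
    · intro k
      rw [← hN, dd_add hDi hWi hc]
    · unfold dd K
      rw [hNp]
      simp
    · have := sum_dd N (D j) p
      rw [hD.finrank_eq, hNp, Submodule.map_zero, finrank_bot, zero_add] at this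
      exact this.symm
  · exfalso
    push Not at hfix
    set j0 : Fin t := ⟨0, by omega⟩ with hj0
    have hpow : ∀ k, (D j0).map (T ^ k) = D ((σ ^ k) j0) := by
      intro k
      induction k with
      | zero => rw [pow_zero, pow_zero]; exact Submodule.map_id _
      | succ k ih =>
        rw [map_pow_succ, ih, hσ, pow_succ']
        rfl
    have hinj : Function.Injective D := hD.indep.injective (fun i hi => by
      have := hD.finrank_eq i
      rw [hi, finrank_bot] at this
      omega)
    have hσp : (σ ^ p) j0 = j0 := by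
      apply hinj
      rw [← hpow p, hTp]
      exact Submodule.map_id _
    have hne : ∀ k, 0 < k → k < p → (σ ^ k) j0 ≠ j0 := by
      intro k hk1 hk2 hk
      have h1 : Function.IsPeriodicPt σ p j0 := by
        rw [Function.IsPeriodicPt, Function.IsFixedPt, Equiv.Perm.iterate_eq_pow]
        exact hσp
      have h2 : Function.IsPeriodicPt σ k j0 := by
        rw [Function.IsPeriodicPt, Function.IsFixedPt, Equiv.Perm.iterate_eq_pow]
        exact hk
      rcases (Nat.dvd_prime hpp).1 h1.minimalPeriod_dvd with h3 | h3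
      · exact hfix j0 (Function.minimalPeriod_eq_one_iff_isFixedPt.1 h3)
      · have := Nat.le_of_dvd hk1 (h3 ▸ h2.minimalPeriod_dvd)
        omega
    have hker : ∀ v ∈ D j0, (N ^ (p - 1)) v = 0 → v = 0 := by
      intro v hv h0
      have hN' : N = T + (-1) := by rw [hTN]; abel
      have hcomm : Commute T (-1 : Module.End F (Fin n → F)) := (Commute.one_right T).neg_right
      rw [hN', hcomm.add_pow, LinearMap.sum_apply, Nat.sub_add_cancel hpp.one_le] at h0
      rw [← Finset.add_sum_erase (Finset.range p) _
        (Finset.mem_range.2 hpp.pos : 0 ∈ Finset.range p)] at h0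
      have h1 : ∑ m ∈ (Finset.range p).erase 0,
          (T ^ m * (-1 : Module.End F (Fin n → F)) ^ (p - 1 - m) * ((p - 1).choose m : ℕ)) v ∈
          ⨆ (i : Fin t) (_ : i ≠ j0), D i := by
        refine Submodule.sum_mem _ fun m hm => ?_
        rw [Finset.mem_erase, Finset.mem_range] at hm
        refine (le_iSup₂_of_le ((σ ^ m) j0) (hne m (Nat.pos_of_ne_zero hm.1) hm.2) le_rfl :
          D ((σ ^ m) j0) ≤ _) ?_
        rw [← hpow m]
        refine ⟨((-1 : Module.End F (Fin n → F)) ^ (p - 1 - m) * ((p - 1).choose m : ℕ)) v, ?_, ?_⟩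
        · rcases neg_one_pow_eq_or (Module.End F (Fin n → F)) (p - 1 - m) with h2 | h2
          · rw [h2, one_mul]
            have : (((p - 1).choose m : ℕ) : Module.End F (Fin n → F)) v =
              ((p - 1).choose m) • v := by
              rw [Module.End.natCast_apply]
            rw [this]
            exact (D j0).smul_of_tower_mem _ hv
          · rw [h2, neg_one_mul, LinearMap.neg_apply]
            have : (((p - 1).choose m : ℕ) : Module.End F (Fin n → F)) v =
              ((p - 1).choose m) • v := by
              rw [Module.End.natCast_apply]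
            rw [this]
            exact (D j0).neg_mem ((D j0).smul_of_tower_mem _ hv)
        · rw [mul_assoc]
          rfl
      have h2 : (T ^ 0 * (-1 : Module.End F (Fin n → F)) ^ (p - 1 - 0) *
          (((p - 1).choose 0 : ℕ) : Module.End F (Fin n → F))) v = v ∨
          (T ^ 0 * (-1 : Module.End F (Fin n → F)) ^ (p - 1 - 0) *
          (((p - 1).choose 0 : ℕ) : Module.End F (Fin n → F))) v = -v := by
        rw [pow_zero, one_mul, Nat.choose_zero_right, Nat.cast_one, mul_one]
        rcases neg_one_pow_eq_or (Module.End F (Fin n → F)) (p - 1 - 0) with h2 | h2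
        · left; rw [h2]; rfl
        · right; rw [h2]; rfl
      have h3 : v ∈ ⨆ (i : Fin t) (_ : i ≠ j0), D i := by
        have h4 := eq_neg_of_add_eq_zero_left h0
        rcases h2 with h2 | h2
        · rw [h2] at h4
          rw [h4]
          exact Submodule.neg_mem _ h1
        · rw [h2] at h4
          rw [neg_inj] at h4
          rw [h4]
          exact h1
      exact Submodule.disjoint_def.1 (hD.indep j0) v hv h3
    have hge : a ≤ dd N ⊤ (p - 1) := by
      have h1 : (D j0).map (N ^ (p - 1)) ≤ K N ⊤ (p - 1) := by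
        rintro _ ⟨v, hv, rfl⟩
        refine ⟨⟨v, trivial, rfl⟩, ?_⟩
        have : N ((N ^ (p - 1)) v) = (N ^ p) v := by
          conv_rhs => rw [← Nat.sub_add_cancel hpp.one_le, pow_succ']
          rfl
        change N ((N ^ (p - 1)) v) = 0
        rw [this, hNp]
        rfl
      have h2 : finrank F ((D j0).map (N ^ (p - 1))) = a := by
        rw [← LinearMap.range_domRestrict, LinearMap.finrank_range_of_inj, hD.finrank_eq]
        rw [← LinearMap.ker_eq_bot, LinearMap.ker_eq_bot']
        rintro ⟨v, hv⟩ h0
        exact Subtype.ext (hker v hv h0)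
      rw [← h2]
      exact Submodule.finrank_mono h1
    rw [hN, countP_step, Nat.sub_add_cancel hpp.one_le] at hge
    have h5 : μ.countP (fun x => p < x) = 0 := by
      rw [Multiset.countP_eq_zero]
      intro b hb
      have := (hμ b hb).2
      omega
    omega

end Cfsg.Agent.S5959
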