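import Cfsg.Statements.S5960
import Cfsg.Agent.H12.OrthFam
import Cfsg.Agent.H5.Sp

set_option autoImplicit false
open scoped MatrixGroups
open Cfsg

namespace Cfsg.Agent.S5960

open Cfsg.Agent.H12 Cfsg.Agent.H5

/-- basic facts about a symplectic matrix with scalar square -/
theorem facts {F : Type*} [Field F] {d : ℕ} (hd : 0 < d) (x : ↥(Matrix.symplecticGroup (Fin d) F))
    (hx1 : ∃ z : F, ((x ^ 2 : ↥(Matrix.symplecticGroup (Fin d) F)) : Matrix (Fin d ⊕ Fin d) (Fin d ⊕ Fin d) F) = z • (1 : Matrix (Fin d ⊕ Fin d) (Fin d ⊕ Fin d) F)) :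
    ∃ z : F, z ≠ 0 ∧ z * z = 1 ∧ (∀ v, Matrix.toLin' (x : Matrix (Fin d ⊕ Fin d) (Fin d ⊕ Fin d) F)
      (Matrix.toLin' (x : Matrix (Fin d ⊕ Fin d) (Fin d ⊕ Fin d) F) v) = z • v) ∧
      (∀ v w, sympB d F (Matrix.toLin' (x : Matrix (Fin d ⊕ Fin d) (Fin d ⊕ Fin d) F) v)
        (Matrix.toLin' (x : Matrix (Fin d ⊕ Fin d) (Fin d ⊕ Fin d) F) w) = sympB d F v w) ∧
      Function.Injective (Matrix.toLin' (x : Matrix (Fin d ⊕ Fin d) (Fin d ⊕ Fin d) F)) := by
  obtain ⟨z, hz⟩ := hx1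
  have hB : ∀ v w, sympB d F (Matrix.toLin' (x : Matrix (Fin d ⊕ Fin d) (Fin d ⊕ Fin d) F) v)
        (Matrix.toLin' (x : Matrix (Fin d ⊕ Fin d) (Fin d ⊕ Fin d) F) w) = sympB d F v w := by
    intro v w
    rw [Matrix.toLin'_apply, Matrix.toLin'_apply]
    exact mem_Sp_iff.mp x.2 v w
  have hXX : ∀ v, Matrix.toLin' (x : Matrix (Fin d ⊕ Fin d) (Fin d ⊕ Fin d) F)
      (Matrix.toLin' (x : Matrix (Fin d ⊕ Fin d) (Fin d ⊕ Fin d) F) v) = z • v := by
    intro v
    have h1 : (x : Matrix (Fin d ⊕ Fin d) (Fin d ⊕ Fin d) F) * x = z • (1 : Matrix (Fin d ⊕ Fin d) (Fin d ⊕ Fin d) F) := by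
      rw [← hz, pow_two]; rfl
    rw [← LinearMap.comp_apply, ← Matrix.toLin'_mul, h1]
    simp
  have hzz : z * z = 1 := by
    -- a pair with nonzero form
    set e1 : Fin d ⊕ Fin d → F := Pi.single (Sum.inl ⟨0, hd⟩) 1
    obtain ⟨v, w, hvw⟩ : ∃ v w, sympB d F v w ≠ 0 := by
      by_contra hcon
      push Not at hcon
      have h0 := (sympB_nondegenerate (F := F) (m := d)).1 e1 (fun w => hcon e1 w)
      have := congrFun h0 (Sum.inl ⟨0, hd⟩)
      simp [e1] at this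
    have h1 := hB (Matrix.toLin' (x : Matrix (Fin d ⊕ Fin d) (Fin d ⊕ Fin d) F) v)
      (Matrix.toLin' (x : Matrix (Fin d ⊕ Fin d) (Fin d ⊕ Fin d) F) w)
    rw [hXX, hXX, hB, map_smul, map_smul, LinearMap.smul_apply, smul_eq_mul, smul_eq_mul] at h1
    have h2 : (z * z - 1) * sympB d F v w = 0 := by linear_combination h1
    exact sub_eq_zero.mp ((mul_eq_zero.mp h2).resolve_right hvw)
  have hz0 : z ≠ 0 := by rintro rfl; simp at hzz
  refine ⟨z, hz0, hzz, hXX, hB, ?_⟩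
  intro v w hvw
  have := congrArg (Matrix.toLin' (x : Matrix (Fin d ⊕ Fin d) (Fin d ⊕ Fin d) F)) hvw
  rw [hXX, hXX] at this
  exact smul_right_injective _ hz0 this

theorem nd {F : Type*} [Field F] {d : ℕ} : ∀ v, (∀ w, sympB d F v w = 0) → v = 0 := fun v hv =>
  (sympB_nondegenerate (F := F) (m := d)).1 v hv

/-- Involutions of PSp_n(q) and imprimitive subgroups. Here `T = PSp_n(q)`, `n = 2d ≥ 4`, `(n, q) ≠ (4, 2)`, realised through the symplectic matrices over the field `F` with `q` elements and the standard alternating form; `n = a·t` with `a` even and `t ≥ 2`, and Ω is the (nonempty) set of orthogonal decompositions of `F^n` into `t` nondegenerate subspaces of dimension `a` (unordered; counted as ordered ones divided by `t!`), whose stabilizers are the imprimitive subgroups of type Sp_a(q) ≀ S_t (maximality is not assumed); an element of `T` of prime order `r` (a symplectic matrix `x` with `x^r` scalar, `x` not scalar) fixes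 a point of Ω when it permutes the summands of some such decomposition. If the number of such decompositions is even, then every involution of `T` stabilizes one of them (the action is 2-elusive). -/
theorem result {F : Type*} [Field F] [Fintype F] {p : ℕ} [Fact p.Prime] [CharP F p] {q : ℕ} (hq : Fintype.card F = q)
    (d : ℕ) (hd : 2 ≤ d) (hT : (d, q) ≠ (2, 2))
    (a t : ℕ) (hat : 2 * d = a * t) (ha : 2 ≤ a) (hae : Even a) (ht : 2 ≤ t) (hΩ : 2 ∣ Nat.card {D : Fin t → Submodule F (Fin d ⊕ Fin d → F) // (Cfsg.Geo.IsMDecomposition a D ∧ (∀ j, ∀ u ∈ D j, u ≠ 0 → ∃ v ∈ D j, Cfsg.sympForm d F u v ≠ 0) ∧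
          (∀ j j', j ≠ j' → ∀ u ∈ D j, ∀ v ∈ D j', Cfsg.sympForm d F u v = 0))} / Nat.factorial t)
    (x : ↥(Matrix.symplecticGroup (Fin d) F))
    (hx1 : ∃ z : F, ((x ^ 2 : ↥(Matrix.symplecticGroup (Fin d) F)) : Matrix (Fin d ⊕ Fin d) (Fin d ⊕ Fin d) F) = z • (1 : Matrix (Fin d ⊕ Fin d) (Fin d ⊕ Fin d) F))
    (hx2 : ∀ z : F, (x : Matrix (Fin d ⊕ Fin d) (Fin d ⊕ Fin d) F) ≠ z • (1 : Matrix (Fin d ⊕ Fin d) (Fin d ⊕ Fin d) F)) :
    ∃ D : Fin t → Submodule F (Fin d ⊕ Fin d → F), (Cfsg.Geo.IsMDecomposition a D ∧ (∀ j, ∀ u ∈ D j, u ≠ 0 → ∃ v ∈ D j, Cfsg.sympForm d F u v ≠ 0) ∧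
          (∀ j j', j ≠ j' → ∀ u ∈ D j, ∀ v ∈ D j', Cfsg.sympForm d F u v = 0)) ∧
        ∃ σ : Equiv.Perm (Fin t), ∀ j, (D j).map (Matrix.toLin' (x : Matrix (Fin d ⊕ Fin d) (Fin d ⊕ Fin d) F)) = D (σ j) := by
  classical
  obtain ⟨z, hz0, -, hXX, hB, hinj⟩ := facts (by omega) x hx1
  set X := Matrix.toLin' (x : Matrix (Fin d ⊕ Fin d) (Fin d ⊕ Fin d) F) with hX
  clear_value X
  obtain ⟨κ, hκ, p, hp, ⟨π, hπ, hpπ⟩, b, rfl⟩ := sp_inv_planes (sympB_isAlt (F := F) (m := d)) nd X hB z hz0 hXX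
  obtain ⟨a', rfl⟩ := hae
  have hκc : Fintype.card κ = a' * t := by
    have h1 := Module.finrank_eq_card_basis b
    rw [Fintype.card_prod, Fintype.card_fin, Module.finrank_fintype_fun_eq_card, Fintype.card_sum, Fintype.card_fin] at h1
    have h2 : d + d = (a' * t) + (a' * t) := by rw [← Nat.add_mul, ← hat]; omega
    omega
  obtain ⟨f, σ, h1, h2⟩ := inv_part π hπ a' t (by omega) hκc
  have hg : ∀ j, (Finset.univ.filter (fun s : κ × Fin 2 => f s.1 = j)).card = a' + a' := by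
    intro j
    have : Finset.univ.filter (fun s : κ × Fin 2 => f s.1 = j) = (Finset.univ.filter (fun k => f k = j)) ×ˢ Finset.univ := by
      ext s; simp
    rw [this, Finset.card_product, h1, Finset.card_univ, Fintype.card_fin]
    omega
  have horth : ∀ j j', j ≠ j' → ∀ u ∈ labSpan (F := F) b (fun s : κ × Fin 2 => f s.1) j,
      ∀ v ∈ labSpan (F := F) b (fun s : κ × Fin 2 => f s.1) j', sympB d F u v = 0 := by
    intro j j' hjj u hu v hv
    refine labSpan_orth ?_ hu hv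
    rintro ⟨k, i⟩ ⟨l, i'⟩ hs hs'
    refine hp.orth k l i i' ?_
    rintro rfl
    exact hjj (hs.symm.trans hs')
  refine ⟨labSpan (F := F) b (fun s : κ × Fin 2 => f s.1), ⟨labSpan_mdec b ht _ _ (by omega) hg, ?_, ?_⟩, σ, fun j => ?_⟩
  · intro j u hu hu0
    by_contra hcon
    push Not at hcon
    apply hu0
    apply nd
    intro w
    rw [← b.sum_repr w, map_sum]
    apply Finset.sum_eq_zero
    rintro s _
    rw [map_smul]
    by_cases hsj : f s.1 = j
    · have := hcon (b s) (Submodule.subset_span ⟨s, hsj, rfl⟩)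
      rw [← sympB_apply] at this
      rw [this, smul_zero]
    · have := horth j (f s.1) (fun h => hsj h.symm) u hu (b s) (Submodule.subset_span ⟨s, rfl, rfl⟩)
      rw [this, smul_zero]
  · intro j j' hjj u hu v hv
    rw [← sympB_apply]
    exact horth j j' hjj u hu v hv
  · refine labSpan_map b _ σ X hinj _ hg ?_ j
    rintro ⟨k, i⟩
    obtain ⟨c, e, hce⟩ := hpπ k i
    rw [hce]
    exact add_mem (Submodule.smul_mem _ _ (Submodule.subset_span ⟨(π k, 0), h2 k, rfl⟩))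
      (Submodule.smul_mem _ _ (Submodule.subset_span ⟨(π k, 1), h2 k, rfl⟩))

end Cfsg.Agent.S5960
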