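import Cfsg.Statements.S5962
import Cfsg.Agent.H12.OrthFam
import Cfsg.Agent.H5.Sp

set_option autoImplicit false
open scoped MatrixGroups
open Cfsg

namespace Cfsg.Agent.S5962

open Cfsg.Agent.H12 Cfsg.Agent.H5

/-- basic facts about a symplectic matrix with scalar square -/
theorem facts {F : Type*} [Field F] {d : ℕ} (hd : 0 < d) (x : ↥(Matrix.symplecticGroup (Fin d) F))
    (hx1 : ∃ z : F, ((x ^ 2 : ↥(Matrix.symplecticGroup (Fin d) F)) : Matrix (Fin d ⊕ Fin d) (Fin d ⊕ Fin d) F) = z • (1 : Matrix (Fin d ⊕ Fin d) (Fin d ⊕ Fin d) F)) :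
    ∃ z : F, z ≠ 0 ∧ z * z = 1 ∧ (∀ v, Matrix.toLin' (x : Matrix (Fin d ⊕ Fin d) (Fin d ⊕ Fin d) F)
      (Matrix.toLin' (x : Matrix (Fin d ⊕ Fin d) (Fin d ⊕ Fin d) F) v) = z • v) ∧
      (∀ v w, sympB d F (Matrix.toLin' (x : Matrix (Fin d ⊕ Fin d) (Fin d ⊕ Fin d) F) v)
        (Matrix.toLin' (x : Matrix (Fin d ⊕ Fin d) (Fin d ⊕ Fin d) F) w) = sympB d F v w) ∧
      Function.Injective (Matrix.toLin' (x : Matrix (Fin d ⊕ Fin d) (Fin d ⊕ Fin d) F)) := by
  obtain ⟨z, hz⟩ := hx1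
  have hB : ∀ v w, sympB d F (Matrix.toLin' (x : Matrix (Fin d ⊕ Fin d) (Fin d ⊕ Fin d) F) v)
        (Matrix.toLin' (x : Matrix (Fin d ⊕ Fin d) (Fin d ⊕ Fin d) F) w) = sympB d F v w := by
    intro v w
    rw [Matrix.toLin'_apply, Matrix.toLin'_apply]
    exact mem_Sp_iff.mp x.2 v w
  have hXX : ∀ v, Matrix.toLin' (x : Matrix (Fin d ⊕ Fin d) (Fin d ⊕ Fin d) F)
      (Matrix.toLin' (x : Matrix (Fin d ⊕ Fin d) (Fin d ⊕ Fin d) F) v) = z • v := by
    intro v
    have h1 : (x : Matrix (Fin d ⊕ Fin d) (Fin d ⊕ Fin d) F) * x = z • (1 : Matrix (Fin d ⊕ Fin d) (Fin d ⊕ Fin d) F) := by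
      rw [← hz, pow_two]; rfl
    rw [← LinearMap.comp_apply, ← Matrix.toLin'_mul, h1]
    simp
  have hzz : z * z = 1 := by
    -- a pair with nonzero form
    set e1 : Fin d ⊕ Fin d → F := Pi.single (Sum.inl ⟨0, hd⟩) 1
    obtain ⟨v, w, hvw⟩ : ∃ v w, sympB d F v w ≠ 0 := by
      by_contra hcon
      push Not at hcon
      have h0 := (sympB_nondegenerate (F := F) (m := d)).1 e1 (fun w => hcon e1 w)
      have := congrFun h0 (Sum.inl ⟨0, hd⟩)
      simp [e1] at this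
    have h1 := hB (Matrix.toLin' (x : Matrix (Fin d ⊕ Fin d) (Fin d ⊕ Fin d) F) v)
      (Matrix.toLin' (x : Matrix (Fin d ⊕ Fin d) (Fin d ⊕ Fin d) F) w)
    rw [hXX, hXX, hB, map_smul, map_smul, LinearMap.smul_apply, smul_eq_mul, smul_eq_mul] at h1
    have h2 : (z * z - 1) * sympB d F v w = 0 := by linear_combination h1
    exact sub_eq_zero.mp ((mul_eq_zero.mp h2).resolve_right hvw)
  have hz0 : z ≠ 0 := by rintro rfl; simp at hzz
  refine ⟨z, hz0, hzz, hXX, hB, ?_⟩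
  intro v w hvw
  have := congrArg (Matrix.toLin' (x : Matrix (Fin d ⊕ Fin d) (Fin d ⊕ Fin d) F)) hvw
  rw [hXX, hXX] at this
  exact smul_right_injective _ hz0 this

theorem nd {F : Type*} [Field F] {d : ℕ} : ∀ v, (∀ w, sympB d F v w = 0) → v = 0 := fun v hv =>
  (sympB_nondegenerate (F := F) (m := d)).1 v hv

/-- Involutions of PSp_n(q), q odd, and the subgroups GL_{n/2}(q).2. Here `T = PSp_n(q)`, `n = 2d ≥ 4`, `q` odd, realised through the symplectic matrices over the field `F` with `q` elements; Ω is the set of unordered pairs `{U, W}` of complementary totally isotropic `d`-spaces (`F^n = U ⊕ W`), whose stabilizers are the subgroups of type GL_d(q).2 (maximal except in some small cases; maximality is not assumed); an element of `T` of prime order `r` (a symplectic matrix `x` with `x^r` scalar, `x` not scalar) fixes such a pair when it fixes or interchanges `U` and `W`. If the number of such pairs is even, every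 involution of `T` fixes one of them (the action is 2-elusive). -/
theorem result {F : Type*} [Field F] [Fintype F] {p : ℕ} [Fact p.Prime] [CharP F p] {q : ℕ} (hq : Fintype.card F = q)
    (d : ℕ) (hd : 2 ≤ d) (hT : (d, q) ≠ (2, 2)) (hodd : Odd q)
    (hΩ : 2 ∣ Nat.card {P : Submodule F (Fin d ⊕ Fin d → F) × Submodule F (Fin d ⊕ Fin d → F) // IsCompl P.1 P.2 ∧ (∀ u ∈ P.1, ∀ v ∈ P.1, Cfsg.sympForm d F u v = 0) ∧ (∀ u ∈ P.2, ∀ v ∈ P.2, Cfsg.sympForm d F u v = 0)} / 2)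
    (x : ↥(Matrix.symplecticGroup (Fin d) F))
    (hx1 : ∃ z : F, ((x ^ 2 : ↥(Matrix.symplecticGroup (Fin d) F)) : Matrix (Fin d ⊕ Fin d) (Fin d ⊕ Fin d) F) = z • (1 : Matrix (Fin d ⊕ Fin d) (Fin d ⊕ Fin d) F))
    (hx2 : ∀ z : F, (x : Matrix (Fin d ⊕ Fin d) (Fin d ⊕ Fin d) F) ≠ z • (1 : Matrix (Fin d ⊕ Fin d) (Fin d ⊕ Fin d) F)) :
    ∃ U W : Submodule F (Fin d ⊕ Fin d → F), IsCompl U W ∧ (∀ u ∈ U, ∀ v ∈ U, Cfsg.sympForm d F u v = 0) ∧ (∀ u ∈ W, ∀ v ∈ W, Cfsg.sympForm d F u v = 0) ∧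
        ((U.map (Matrix.toLin' (x : Matrix (Fin d ⊕ Fin d) (Fin d ⊕ Fin d) F)) = U ∧ W.map (Matrix.toLin' (x : Matrix (Fin d ⊕ Fin d) (Fin d ⊕ Fin d) F)) = W) ∨
         (U.map (Matrix.toLin' (x : Matrix (Fin d ⊕ Fin d) (Fin d ⊕ Fin d) F)) = W ∧ W.map (Matrix.toLin' (x : Matrix (Fin d ⊕ Fin d) (Fin d ⊕ Fin d) F)) = U)) := by
  classical
  obtain ⟨z, hz0, hzz, hXX, hB, hinj⟩ := facts (by omega) x hx1
  set X := Matrix.toLin' (x : Matrix (Fin d ⊕ Fin d) (Fin d ⊕ Fin d) F) with hX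
  clear_value X
  have h2 : (2 : F) ≠ 0 := by
    intro h
    have hc : (p : F) = 0 := CharP.cast_eq_zero F p
    have hp2 : p = 2 := by
      have h1 : p ∣ 2 := (CharP.cast_eq_zero_iff F p 2).mp (by exact_mod_cast h)
      exact (Nat.prime_dvd_prime_iff_eq Fact.out Nat.prime_two).mp h1
    obtain ⟨n, hpn, hn⟩ := FiniteField.card F p
    rw [hq, hp2] at hn
    rw [hn] at hodd
    exact (Nat.not_even_iff_odd.mpr hodd) (Nat.even_pow.mpr ⟨even_two, n.ne_zero⟩)
  -- general construction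
  have fin : ∀ (κ : Type) [Fintype κ] (b : Module.Basis (κ × Fin 2) F (Fin d ⊕ Fin d → F)), OrthFam (sympB d F) b →
      ∀ σ : Equiv.Perm (Fin 2), (∀ s : κ × Fin 2, ∃ c : F, X (b s) = c • b (s.1, σ s.2)) →
      ∃ U W : Submodule F (Fin d ⊕ Fin d → F), IsCompl U W ∧ (∀ u ∈ U, ∀ v ∈ U, Cfsg.sympForm d F u v = 0) ∧
        (∀ u ∈ W, ∀ v ∈ W, Cfsg.sympForm d F u v = 0) ∧
        (σ 0 = 0 → U.map X = U) ∧ (σ 1 = 1 → W.map X = W) ∧ (σ 0 = 1 → U.map X = W) ∧ (σ 1 = 0 → W.map X = U) := by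
    intro κ _ b hb σ hσ
    have hg : ∀ j, (Finset.univ.filter (fun s : κ × Fin 2 => s.2 = j)).card = Fintype.card κ := by
      intro j
      have : Finset.univ.filter (fun s : κ × Fin 2 => s.2 = j) = Finset.univ ×ˢ {j} := by
        ext ⟨k, i⟩
        rw [Finset.mem_filter, Finset.mem_product, Finset.mem_singleton]
        simp only [Finset.mem_univ, true_and]
      rw [this, Finset.card_product, Finset.card_univ, Finset.card_singleton, mul_one]
    have hind := labSpan_indep b (fun s : κ × Fin 2 => s.2)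
    have hsup := labSpan_iSup b (fun s : κ × Fin 2 => s.2)
    have hmap := labSpan_map b (fun s : κ × Fin 2 => s.2) σ X hinj (Fintype.card κ) hg (by
      intro s
      obtain ⟨c, hc⟩ := hσ s
      rw [hc]
      exact Submodule.smul_mem _ _ (Submodule.subset_span ⟨(s.1, σ s.2), rfl, rfl⟩))
    have hiso : ∀ j, ∀ u ∈ labSpan (F := F) b (fun s : κ × Fin 2 => s.2) j,
        ∀ v ∈ labSpan (F := F) b (fun s : κ × Fin 2 => s.2) j, Cfsg.sympForm d F u v = 0 := by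
      intro j u hu v hv
      rw [← sympB_apply]
      refine labSpan_orth ?_ hu hv
      rintro ⟨k, i⟩ ⟨l, i'⟩ hs hs'
      have e1 : i = j := hs
      have e2 : i' = j := hs'
      subst e1; subst e2
      by_cases hkl : k = l
      · subst hkl; exact sympB_isAlt _
      · exact hb.orth k l _ _ hkl
    refine ⟨labSpan (F := F) b (fun s : κ × Fin 2 => s.2) 0, labSpan (F := F) b (fun s : κ × Fin 2 => s.2) 1,
      ⟨hind.pairwiseDisjoint (by decide), ?_⟩, hiso 0, hiso 1, fun h => ?_, fun h => ?_, fun h => ?_, fun h => ?_⟩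
    · rw [codisjoint_iff, eq_top_iff, ← hsup]
      refine iSup_le fun j => ?_
      fin_cases j
      · exact le_sup_left
      · exact le_sup_right
    · rw [hmap, h]
    · rw [hmap, h]
    · rw [hmap, h]
    · rw [hmap, h]
  have hz : z = 1 ∨ z = -1 := by
    have h3 : (z - 1) * (z + 1) = 0 := by linear_combination hzz
    rcases mul_eq_zero.mp h3 with h | h
    · left; exact sub_eq_zero.mp h
    · right; exact eq_neg_of_add_eq_zero_left h
  rcases hz with rfl | rfl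
  · obtain ⟨κ, hκ, p', hp', hx', b, rfl⟩ := sp_inv_pos (sympB_isAlt (F := F) (m := d)) nd X hB h2 hXX
    obtain ⟨U, W, h3, h4, h5, h6, h7, -, -⟩ := fin κ b hp' 1 (fun s => by
      obtain ⟨e, he⟩ := hx' s.1
      exact ⟨e, he s.2⟩)
    exact ⟨U, W, h3, h4, h5, Or.inl ⟨h6 rfl, h7 rfl⟩⟩
  · obtain ⟨κ, hκ, p', hp', hx', b, rfl⟩ := sp_inv_neg (sympB_isAlt (F := F) (m := d)) nd X hB h2 hXX
    obtain ⟨U, W, h3, h4, h5, -, -, h6, h7⟩ := fin κ b hp' (Equiv.swap 0 1) (by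
      rintro ⟨k, i⟩
      fin_cases i
      · exact ⟨1, by rw [one_smul]; exact (hx' k).1⟩
      · exact ⟨-1, (hx' k).2⟩)
    exact ⟨U, W, h3, h4, h5, Or.inr ⟨h6 (by decide), h7 (by decide)⟩⟩

end Cfsg.Agent.S5962
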