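import Cfsg.Statements.S5963
import Cfsg.Agent.H25.SpElem2

set_option autoImplicit false
open scoped MatrixGroups
open Cfsg
open Cfsg.Agent.H25

namespace Cfsg.Agent.S5963

/-- Derangements of odd prime order of PSp_n(q), q odd, on pairs of complementary totally isotropic subspaces. Here `T = PSp_n(q)`, `n = 2d ≥ 4`, `q` odd, realised through the symplectic matrices over the field `F` with `q` elements; Ω is the set of unordered pairs `{U, W}` of complementary totally isotropic `d`-spaces (`F^n = U ⊕ W`), whose stabilizers are the subgroups of type GL_d(q).2 (maximal except in some small cases; maximality is not assumed); an element of `T` of prime order `r` (a symplectic matrix `x` with `x^r` scalar, `x` not scalar) fixes such a pair when it fixes or interchanges `U` and `W`. For every odd prime `r ≠ p` dividing the number of such pairs, some element of `T` of order `r` fixes no such pair (the action is never `r`-elusive for odd `r ≠ p`). -/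
theorem result {F : Type*} [Field F] [Fintype F] {p : ℕ} [Fact p.Prime] [CharP F p] {q : ℕ} (hq : Fintype.card F = q)
    (d : ℕ) (hd : 2 ≤ d) (hT : (d, q) ≠ (2, 2)) (hodd : Odd q)
    (r : ℕ) [Fact r.Prime] (hr2 : r ≠ 2) (hrp : r ≠ p) (hΩ : r ∣ Nat.card {P : Submodule F (Fin d ⊕ Fin d → F) × Submodule F (Fin d ⊕ Fin d → F) // IsCompl P.1 P.2 ∧ (∀ u ∈ P.1, ∀ v ∈ P.1, Cfsg.sympForm d F u v = 0) ∧ (∀ u ∈ P.2, ∀ v ∈ P.2, Cfsg.sympForm d F u v = 0)} / 2) :
    ∃ x : ↥(Matrix.symplecticGroup (Fin d) F),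
      (∃ z : F, ((x ^ r : ↥(Matrix.symplecticGroup (Fin d) F)) : Matrix (Fin d ⊕ Fin d) (Fin d ⊕ Fin d) F) = z • (1 : Matrix (Fin d ⊕ Fin d) (Fin d ⊕ Fin d) F)) ∧
      (∀ z : F, (x : Matrix (Fin d ⊕ Fin d) (Fin d ⊕ Fin d) F) ≠ z • (1 : Matrix (Fin d ⊕ Fin d) (Fin d ⊕ Fin d) F)) ∧
      ¬ (∃ U W : Submodule F (Fin d ⊕ Fin d → F), IsCompl U W ∧ (∀ u ∈ U, ∀ v ∈ U, Cfsg.sympForm d F u v = 0) ∧ (∀ u ∈ W, ∀ v ∈ W, Cfsg.sympForm d F u v = 0) ∧
        ((U.map (Matrix.toLin' (x : Matrix (Fin d ⊕ Fin d) (Fin d ⊕ Fin d) F)) = U ∧ W.map (Matrix.toLin' (x : Matrix (Fin d ⊕ Fin d) (Fin d ⊕ Fin d) F)) = W) ∨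
         (U.map (Matrix.toLin' (x : Matrix (Fin d ⊕ Fin d) (Fin d ⊕ Fin d) F)) = W ∧ W.map (Matrix.toLin' (x : Matrix (Fin d ⊕ Fin d) (Fin d ⊕ Fin d) F)) = U))) := by
  classical
  have hr : r.Prime := Fact.out
  have hqN : Nat.card F = q := by rw [Nat.card_eq_fintype_card, hq]
  have hq1 : 1 < q := by rw [← hq]; exact Fintype.one_lt_card
  -- r does not divide q
  obtain ⟨n, hpn, hqp⟩ := FiniteField.card F p
  have hrq : ¬ r ∣ q := by
    intro h
    rw [← hq, hqp] at h
    exact hrp ((Nat.prime_dvd_prime_iff_eq hr hpn).mp (hr.dvd_of_dvd_pow h))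
  have hrF : (r : F) ≠ 0 := by
    intro h
    rw [CharP.cast_eq_zero_iff F p] at h
    exact hrp ((Nat.prime_dvd_prime_iff_eq hpn hr).mp h).symm
  have hodd' : Odd r := hr.odd_of_ne_two hr2
  -- the count
  have hX : r ∣ Nat.card (SpPairs.X d F) := hΩ.trans (Nat.div_dvd_of_dvd (by
    -- the number of ordered pairs is even
    exact SpPairs.two_dvd hqN hodd (by omega)))
  obtain ⟨i, hi1, hid, hir, hik⟩ := SpElem.arith hr2 hq1.le (SpPairs.dvd_of_dvd hr hqN hrq hX)
  obtain ⟨x, hxo, hxr⟩ := SpElem2.exists_elem hqN hi1 hid hir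
  have hxr1 : x ^ r = 1 := by rw [← hxo]; exact pow_orderOf_eq_one x
  have hx1 : x ≠ 1 := by
    rintro rfl
    rw [orderOf_one] at hxo
    exact hr.one_lt.ne hxo
  have hT1 : (SpPairs.T x) ^ r = 1 := by
    have h1 : ∀ j : ℕ, SpPairs.T (x ^ j) = (SpPairs.T x) ^ j := by
      intro j
      induction j with
      | zero => rw [pow_zero, pow_zero, SpPairs.T_one]; rfl
      | succ j ih => rw [pow_succ, pow_succ, SpPairs.T_mul, ih]; rfl
    rw [← h1, hxr1, SpPairs.T_one]; rfl
  refine ⟨x, ⟨1, by rw [hxr1, one_smul]; rfl⟩, ?_, ?_⟩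
  · intro z hz
    have hTz : ∀ v, SpPairs.T x v = z • v := by
      intro v
      show (x : Matrix (Fin d ⊕ Fin d) (Fin d ⊕ Fin d) F).mulVec v = z • v
      rw [hz, Matrix.smul_mulVec, Matrix.one_mulVec]
    obtain ⟨v, w, hvw⟩ : ∃ v w, Cfsg.Agent.H5.sympB d F v w ≠ 0 :=
      ⟨Pi.single (Sum.inr ⟨0, by omega⟩) 1, Pi.single (Sum.inl ⟨0, by omega⟩) 1, by
        rw [Cfsg.Agent.H5.sympB_apply, SpPairs.s21, if_pos rfl]; exact one_ne_zero⟩
    have hzz : z * z = 1 := by
      have h1 := SpPairs.T_form x v w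
      rw [hTz, hTz, map_smul, map_smul, LinearMap.smul_apply, smul_eq_mul, smul_eq_mul] at h1
      have h2 : (z * z - 1) * Cfsg.Agent.H5.sympB d F v w = 0 := by linear_combination h1
      exact sub_eq_zero.mp ((mul_eq_zero.mp h2).resolve_right hvw)
    have hzr : z ^ r = 1 := by
      have h1 : ∀ j : ℕ, ∀ u, ((SpPairs.T x) ^ j) u = z ^ j • u := by
        intro j
        induction j with
        | zero => intro u; simp
        | succ j ih => intro u; rw [pow_succ', Module.End.mul_apply, ih, map_smul, hTz, smul_smul, pow_succ]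
      have h2 := h1 r (Pi.single (Sum.inl ⟨0, by omega⟩) 1)
      rw [hT1, Module.End.one_apply] at h2
      have h3 := congrFun h2 (Sum.inl ⟨0, by omega⟩)
      simp at h3
      exact h3.symm
    have hz1 : z = 1 := by
      obtain ⟨k, hk⟩ := hodd'
      rw [hk, pow_succ, pow_mul, pow_two, hzz, one_pow, one_mul] at hzr
      exact hzr
    apply hx1
    apply Subtype.ext
    rw [hz, hz1, one_smul]; rfl
  · rintro ⟨U, W, hc, hU, hW, hcase⟩
    have hnd : ∀ v, (∀ w, Cfsg.Agent.H5.sympB d F v w = 0) → v = 0 := fun v hv =>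
      (Cfsg.Agent.H5.sympB_nondegenerate (F := F) (m := d)).1 v hv
    have hfin : ∀ S : Submodule F (Fin d ⊕ Fin d → F), (∀ u ∈ S, ∀ v ∈ S, Cfsg.sympForm d F u v = 0) →
        S.map (SpPairs.T x) = S → ∀ u ∈ S, SpPairs.T x u = u := by
      intro S hS hSx
      exact SpElem.step hqN (SpPairs.T x) hT1 hrF (Cfsg.Agent.H5.sympB d F) hnd (SpPairs.T_form x) hxr hik S
        (fun u hu => by rw [← hSx]; exact ⟨u, hu, rfl⟩)
        (fun u hu v hv => by rw [Cfsg.Agent.H5.sympB_apply]; exact hS u hu v hv)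
    have hfix : U.map (SpPairs.T x) = U ∧ W.map (SpPairs.T x) = W := by
      rcases hcase with h | ⟨h1, h2⟩
      · exact h
      · exfalso
        have e1 : U.map (SpPairs.T x) = W := h1
        have e2 : W.map (SpPairs.T x) = U := h2
        have hev : ∀ j : ℕ, U.map ((SpPairs.T x) ^ (2 * j)) = U := by
          intro j
          induction j with
          | zero => rw [mul_zero, pow_zero]; exact Submodule.map_id U
          | succ j ih =>
            rw [mul_add, mul_one, pow_add, Module.End.mul_eq_comp, Submodule.map_comp, pow_two, Module.End.mul_eq_comp, Submodule.map_comp, e1, e2, ih]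
        obtain ⟨k, hk⟩ := hodd'
        have h3 : U.map ((SpPairs.T x) ^ r) = W := by
          rw [hk, pow_succ', Module.End.mul_eq_comp, Submodule.map_comp, hev, e1]
        rw [hT1] at h3
        have h4 : U = W := by
          rw [← h3]; exact (Submodule.map_id U).symm
        have h5 := hc
        rw [← h4] at h5
        have h6 : U = ⊥ := by
          have := h5.inf_eq_bot
          rwa [inf_idem] at this
        have h7 : U = ⊤ := by
          have := h5.sup_eq_top
          rwa [sup_idem] at this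
        have h8 : (⊥ : Submodule F (Fin d ⊕ Fin d → F)) = ⊤ := h6.symm.trans h7
        have h9 : (Pi.single (Sum.inl ⟨0, by omega⟩) 1 : Fin d ⊕ Fin d → F) ∈ (⊥ : Submodule F (Fin d ⊕ Fin d → F)) := by
          rw [h8]; trivial
        rw [Submodule.mem_bot] at h9
        have := congrFun h9 (Sum.inl ⟨0, by omega⟩)
        simp at this
    apply hx1
    apply Subtype.ext
    apply Matrix.toLin'.injective
    show SpPairs.T x = SpPairs.T 1
    rw [SpPairs.T_one]
    apply LinearMap.ext
    intro v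
    have hv : v ∈ U ⊔ W := by rw [hc.sup_eq_top]; trivial
    obtain ⟨u, hu, w, hw, rfl⟩ := Submodule.mem_sup.mp hv
    rw [map_add, hfin U hU hfix.1 u hu, hfin W hW hfix.2 w hw]
    rfl

end Cfsg.Agent.S5963
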