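import Cfsg.Statements.S5964
import Cfsg.Agent.H12.SFI2
import Cfsg.Agent.H12.SFI3

set_option autoImplicit false
open scoped MatrixGroups
open Cfsg

namespace Cfsg.Agent.S5964


/-- Involutions of PSL_n(q) and subfield subgroups. Here `T = PSL_n(F)` for a field `F` with `q = p^f` elements (`n ≥ 2`, `(n, q) ≠ (2, 2), (2, 3)`), `F₀` is the subfield with `q₀` elements where `q = q₀^k` for a prime `k`, and `H` is the subgroup of matrices of determinant 1 lying in the subfield group of `F₀` (invertible matrices over `F₀` times scalars) — a maximal subgroup of type GL_n(q₀) (the case `n = 2`, `q₀ = 2` is excluded); Ω is the set of `T`-conjugates of `H` (cosets of `H`), so an element of `T` of prime order `r` (a matrix `x` of determinant 1 with `x^r` scalar, `x` not scalar) fixes a point of Ω when some conjugate of `x` by a matrix of determinant 1 lies in `H`. Suppose the index of `H` is even. Then every involution of `T` is conjugate in `T` into `H` if and only if either `q` is even, or `k = 2` and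 `(n)_2 ≤ (q − 1)_2`. (For `q` odd and `k` odd the index of `H` is odd, so that case does not arise.) -/
theorem result {F : Type*} [Field F] [Fintype F] {p : ℕ} [Fact p.Prime] [CharP F p] {q : ℕ} (hq : Fintype.card F = q)
    (n : ℕ) (hn : 2 ≤ n) (hT : (n, q) ≠ (2, 2) ∧ (n, q) ≠ (2, 3))
    (F₀ : Subfield F) (k q₀ : ℕ) (hk : k.Prime) (hF₀ : Nat.card ↥F₀ = q₀) (hqk : q = q₀ ^ k) (hC5 : ¬ (n = 2 ∧ q₀ = 2)) (hΩ : 2 ∣ ((Cfsg.Geo.subfieldSubgroup F₀ 1).comap (Matrix.SpecialLinearGroup.toGL : Matrix.SpecialLinearGroup (Fin n) F →* GL (Fin n) F)).index) :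
    (∀ x : Matrix.SpecialLinearGroup (Fin n) F,
      (∃ z : F, ((x ^ 2 : Matrix.SpecialLinearGroup (Fin n) F) : Matrix (Fin n) (Fin n) F) = z • (1 : Matrix (Fin n) (Fin n) F)) →
      (∀ z : F, (x : Matrix (Fin n) (Fin n) F) ≠ z • (1 : Matrix (Fin n) (Fin n) F)) →
      ∃ P : Matrix.SpecialLinearGroup (Fin n) F, P⁻¹ * x * P ∈ ((Cfsg.Geo.subfieldSubgroup F₀ 1).comap (Matrix.SpecialLinearGroup.toGL : Matrix.SpecialLinearGroup (Fin n) F →* GL (Fin n) F))) ↔
    (Odd q → (k = 2 ∧ padicValNat 2 n ≤ padicValNat 2 (q - 1))) := by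
  classical
  have hm1 : Odd q → k = 2 → IsSquare (-1 : F) := by
    intro hodd hk2
    have h1 := H12.SFI.sq_F0 hq hodd hF₀ (by rw [hqk, hk2]) (-1 : F₀)
    simpa using h1
  constructor
  · intro h hodd
    have hk2 : k = 2 := by
      by_contra hk2
      exact H12.SFI.index_odd hq hodd (hk.odd_of_ne_two hk2) F₀ hF₀ hqk (by omega) hΩ
    refine ⟨hk2, ?_⟩
    by_contra hlt
    push Not at hlt
    obtain ⟨z, hz, hzn⟩ := H12.SFI.num_B hq hodd (hm1 hodd hk2) (by omega : n ≠ 0) hlt
    have he : Even n := by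
      rw [even_iff_two_dvd]
      by_contra hnd
      rw [padicValNat.eq_zero_of_not_dvd hnd] at hlt
      omega
    obtain ⟨X, hX, hns, hnot⟩ := H12.SFI.non_el (by omega) he
      (fun a => H12.SFI.sq_F0 hq hodd hF₀ (by rw [hqk, hk2]) a) hz hzn
    exact hnot (h X ⟨z, hX⟩ hns)
  · intro h x hz _
    obtain ⟨z, hz⟩ := hz
    have hne : Nonempty (Fin n) := ⟨⟨0, by omega⟩⟩
    have hz0 : z ≠ 0 := by
      rintro rfl
      have h1 := (x ^ 2).2
      rw [show ((x ^ 2).val : Matrix (Fin n) (Fin n) F) = (0 : F) • 1 from hz, zero_smul,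
        Matrix.det_zero] at h1
      exact zero_ne_one h1
    by_cases hs : IsSquare z
    · obtain ⟨c, rfl⟩ := hs
      have hc : c ≠ 0 := by rintro rfl; exact hz0 (by ring)
      exact H12.SFI.sq_case (by omega) F₀ x hc hz
    · exfalso
      have hodd : Odd q := by
        by_contra hodd
        apply hs
        apply FiniteField.isSquare_of_char_two
        by_contra hr
        apply hodd
        rw [← hq, Nat.odd_iff]
        exact FiniteField.odd_card_of_char_ne_two hr
      obtain ⟨hk2, hle⟩ := h hodd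
      obtain ⟨he, hzn⟩ := H12.SFI.det_nonsq x hs hz
      exact H12.SFI.num_A hq hodd (hm1 hodd hk2) (by omega : n ≠ 0) he hle hs hzn

end Cfsg.Agent.S5964
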