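import Cfsg.Statements.S5966
import Cfsg.Agent.H25.SubfMem

set_option autoImplicit false
open scoped MatrixGroups
open Cfsg
open Cfsg.Agent.H25

namespace Cfsg.Agent.S5966

/-- Elements of order 3 of PSL_n(q) in characteristic 3 and subfield subgroups. Here `T = PSL_n(F)` for a field `F` with `q` elements, `q` a power of 3 (`n ≥ 2`, `(n, q) ≠ (2, 2), (2, 3)`), `F₀` is the subfield with `q₀` elements where `q = q₀^k` for a prime `k`, and `H` is the subgroup of matrices of determinant 1 lying in the subfield group of `F₀` (invertible matrices over `F₀` times scalars) — a maximal subgroup of type GL_n(q₀) (the case `n = 2`, `q₀ = 2` is excluded); Ω is the set of `T`-conjugates of `H` (cosets of `H`), so an element of `T` of prime order `r` (a matrix `x` of determinant 1 with `x^r` scalar, `x` not scalar) fixes a point of Ω when some conjugate of `x` by a matrix of determinant 1 lies in `H`. Suppose 3 divides the index of `H`. Then every element of `T` of order 3 is conjugate in `T`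 into `H` if and only if `n` is odd, or `n` is even and `k > 2`. -/
theorem result {F : Type*} [Field F] [Fintype F] [CharP F 3] {q : ℕ} (hq : Fintype.card F = q)
    (n : ℕ) (hn : 2 ≤ n) (hT : (n, q) ≠ (2, 3))
    (F₀ : Subfield F) (k q₀ : ℕ) (hk : k.Prime) (hF₀ : Nat.card ↥F₀ = q₀) (hqk : q = q₀ ^ k) (hC5 : ¬ (n = 2 ∧ q₀ = 2)) (hΩ : 3 ∣ ((Cfsg.Geo.subfieldSubgroup F₀ 1).comap (Matrix.SpecialLinearGroup.toGL : Matrix.SpecialLinearGroup (Fin n) F →* GL (Fin n) F)).index) :
    (∀ x : Matrix.SpecialLinearGroup (Fin n) F,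
      (∃ z : F, ((x ^ 3 : Matrix.SpecialLinearGroup (Fin n) F) : Matrix (Fin n) (Fin n) F) = z • (1 : Matrix (Fin n) (Fin n) F)) →
      (∀ z : F, (x : Matrix (Fin n) (Fin n) F) ≠ z • (1 : Matrix (Fin n) (Fin n) F)) →
      ∃ P : Matrix.SpecialLinearGroup (Fin n) F, P⁻¹ * x * P ∈ ((Cfsg.Geo.subfieldSubgroup F₀ 1).comap (Matrix.SpecialLinearGroup.toGL : Matrix.SpecialLinearGroup (Fin n) F →* GL (Fin n) F))) ↔
    (Odd n ∨ (Even n ∧ 2 < k)) := by
  classical
  haveI : Fact (Nat.Prime 3) := ⟨Nat.prime_three⟩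
  haveI hF₀3 : CharP F₀ 3 := RingHom.charP F₀.subtype F₀.subtype.injective 3
  have hr3 : ringChar F ≠ 2 := by
    rw [ringChar.eq F 3]; norm_num
  have hr3' : ringChar F₀ ≠ 2 := by
    rw [ringChar.eq F₀ 3]; norm_num
  have h3F : (3 : F) = 0 := by exact_mod_cast CharP.cast_eq_zero F 3
  have hcube : Function.Surjective (frobenius F 3) := Finite.surjective_of_injective (frobenius_inj F 3)
  have hcube0 : Function.Surjective (frobenius F₀ 3) := Finite.surjective_of_injective (frobenius_inj F₀ 3)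
  constructor
  · intro hall
    by_contra hcon
    push Not at hcon
    obtain ⟨hne, hk2⟩ := hcon
    rw [Nat.not_odd_iff_even] at hne
    have hk2' : k = 2 := by
      have h1 := hk2 hne
      have h2 := hk.two_le
      omega
    obtain ⟨m, hm⟩ := hne
    have hm1 : 1 ≤ m := by omega
    let e : Fin m ⊕ Fin m ≃ Fin n := finSumFinEquiv.trans (finCongr hm.symm)
    obtain ⟨δ, hδ⟩ := FiniteField.exists_nonsquare hr3
    have hδ0 : δ ≠ 0 := by
      rintro rfl
      exact hδ ⟨0, by simp⟩
    let i0 : Fin m := ⟨0, hm1⟩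
    let Δ : Matrix (Fin m) (Fin m) F := Matrix.diagonal fun i => if i = i0 then δ else 1
    have hΔ : Δ.det = δ := by
      rw [Matrix.det_diagonal, Finset.prod_ite_eq' Finset.univ i0 (fun _ => δ), if_pos (Finset.mem_univ _)]
    let X : Matrix (Fin m ⊕ Fin m) (Fin m ⊕ Fin m) F := Matrix.fromBlocks 1 0 Δ 1
    have hXdet : X.det = 1 := by
      show (Matrix.fromBlocks 1 0 Δ 1).det = 1
      rw [Matrix.det_fromBlocks_zero₁₂, Matrix.det_one, one_mul]
    have hX3 : X * X * X = 1 := by
      show Matrix.fromBlocks 1 0 Δ 1 * Matrix.fromBlocks 1 0 Δ 1 * Matrix.fromBlocks 1 0 Δ 1 = 1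
      rw [Matrix.fromBlocks_multiply, Matrix.fromBlocks_multiply, ← Matrix.fromBlocks_one]
      simp only [Matrix.mul_one, Matrix.one_mul, Matrix.mul_zero, Matrix.zero_mul, add_zero, zero_add]
      congr 1
      have h1 : Δ + Δ + Δ = (3 : F) • Δ := by
        rw [show (3 : F) = 1 + 1 + 1 by norm_num, add_smul, add_smul, one_smul]
      rw [h1, h3F, zero_smul]
    let x : Matrix.SpecialLinearGroup (Fin n) F := ⟨X.submatrix e.symm e.symm, by rw [Matrix.det_submatrix_equiv_self, hXdet]⟩
    have hxe : (x : Matrix (Fin n) (Fin n) F) = X.submatrix e.symm e.symm := rfl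
    obtain ⟨Pm, hPm⟩ := hall x ⟨1, by
        rw [Matrix.SpecialLinearGroup.coe_pow, hxe, pow_succ, pow_two, Matrix.submatrix_mul_equiv, Matrix.submatrix_mul_equiv, hX3, Matrix.submatrix_one_equiv, one_smul]⟩ (by
        intro z hz
        have h1 := congrFun (congrFun hz (e (Sum.inr i0))) (e (Sum.inl i0))
        rw [hxe, Matrix.submatrix_apply, Equiv.symm_apply_apply, Equiv.symm_apply_apply, Matrix.smul_apply, Matrix.one_apply_ne (fun h => by
          have := e.injective h
          cases this), smul_zero] at h1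
        have h2 : X (Sum.inr i0) (Sum.inl i0) = δ := by
          show Δ i0 i0 = δ
          show Matrix.diagonal (fun i => if i = i0 then δ else 1) i0 i0 = δ
          rw [Matrix.diagonal_apply_eq, if_pos rfl]
        rw [h2] at h1
        exact hδ0 h1)
    rw [SubfMem.mem_iff] at hPm
    obtain ⟨A, c, hc0, hA⟩ := hPm
    have hxP : (x : Matrix (Fin n) (Fin n) F) * (Pm : Matrix (Fin n) (Fin n) F) = (Pm : Matrix (Fin n) (Fin n) F) * (c • F₀.subtype.mapMatrix A) := by
      have hg : x * Pm = Pm * (Pm⁻¹ * x * Pm) := by rw [mul_assoc, mul_inv_cancel_left]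
      rw [← hA, ← Matrix.SpecialLinearGroup.coe_mul, ← Matrix.SpecialLinearGroup.coe_mul, ← hg]
    set P' : Matrix (Fin m ⊕ Fin m) (Fin m ⊕ Fin m) F := (Pm : Matrix (Fin n) (Fin n) F).submatrix e e with hP'
    set M : Matrix (Fin m ⊕ Fin m) (Fin m ⊕ Fin m) F := (c • F₀.subtype.mapMatrix A).submatrix e e with hM
    have hP'det : P'.det = 1 := by
      rw [hP', Matrix.det_submatrix_equiv_self]; exact Pm.2
    have hXP : X * P' = P' * M := by
      have h1 := congrArg (fun Y : Matrix (Fin n) (Fin n) F => Y.submatrix e e) hxP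
      have h2 : ((x : Matrix (Fin n) (Fin n) F) * (Pm : Matrix (Fin n) (Fin n) F)).submatrix e e = X * P' := by
        rw [← Matrix.submatrix_mul_equiv _ _ e e e, hxe, Matrix.submatrix_submatrix]
        congr 1
        ext a b
        simp
      have h3 : ((Pm : Matrix (Fin n) (Fin n) F) * (c • F₀.subtype.mapMatrix A)).submatrix e e = P' * M := by
        rw [← Matrix.submatrix_mul_equiv _ _ e e e]
      rw [← h2, ← h3]
      exact h1
    have hM3 : M * M * M = 1 := by
      have h1 : P' * (M * M * M) = P' := by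
        rw [← Matrix.mul_assoc, ← Matrix.mul_assoc, ← hXP, Matrix.mul_assoc X P' M, ← hXP, ← Matrix.mul_assoc X X P', Matrix.mul_assoc (X * X) P' M, ← hXP, ← Matrix.mul_assoc, hX3, Matrix.one_mul]
      have h2 : P'⁻¹ * P' = 1 := Matrix.nonsing_inv_mul P' (by rw [hP'det]; exact isUnit_one)
      have h3 := congrArg (fun Y => P'⁻¹ * Y) h1
      simp only [← Matrix.mul_assoc, h2, Matrix.one_mul] at h3
      exact h3
    -- the scalar lies in F₀
    have hcF : c ∈ F₀ := by
      let A' : Matrix (Fin m ⊕ Fin m) (Fin m ⊕ Fin m) F₀ := A.submatrix e e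
      have h1 : M = c • F₀.subtype.mapMatrix A' := rfl
      have h2 : M * M * M = (c ^ 3) • F₀.subtype.mapMatrix (A' * A' * A') := by
        rw [h1, map_mul, map_mul]
        simp only [Matrix.smul_mul, Matrix.mul_smul, smul_smul]
        congr 1
        ring
      rw [hM3] at h2
      have h3 := congrFun (congrFun h2 (Sum.inl i0)) (Sum.inl i0)
      rw [Matrix.one_apply_eq, Matrix.smul_apply, smul_eq_mul] at h3
      have h4 : F₀.subtype.mapMatrix (A' * A' * A') (Sum.inl i0) (Sum.inl i0) = (((A' * A' * A') (Sum.inl i0) (Sum.inl i0) : F₀) : F) := rfl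
      rw [h4] at h3
      have h5 : c ^ 3 = ((((A' * A' * A') (Sum.inl i0) (Sum.inl i0))⁻¹ : F₀) : F) := by
        rw [Subfield.coe_inv]
        exact eq_inv_of_mul_eq_one_left h3.symm
      obtain ⟨b, hb⟩ := hcube0 (((A' * A' * A') (Sum.inl i0) (Sum.inl i0))⁻¹)
      have h6 : (b : F) ^ 3 = c ^ 3 := by
        rw [h5, ← hb, frobenius_def]; rfl
      have h7 : (b : F) = c := frobenius_inj F 3 (by rw [frobenius_def, frobenius_def]; exact h6)
      rw [← h7]; exact b.2
    apply hδ
    apply SubfNeg.isSquare_of_conj F₀ hδ0 Δ hΔ P' (M - 1) hP'det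
    · intro a b
      rw [Matrix.sub_apply]
      apply F₀.sub_mem
      · show c * ((A (e a) (e b) : F₀) : F) ∈ F₀
        exact F₀.mul_mem hcF (A (e a) (e b)).2
      · rw [Matrix.one_apply]
        split_ifs
        · exact F₀.one_mem
        · exact F₀.zero_mem
    · rw [Matrix.mul_sub, Matrix.mul_one, ← hXP]
      have h1 : Matrix.fromBlocks 0 0 Δ 0 = X - 1 := by
        show Matrix.fromBlocks 0 0 Δ 0 = Matrix.fromBlocks 1 0 Δ 1 - 1
        rw [← Matrix.fromBlocks_one, sub_eq_add_neg, Matrix.fromBlocks_neg, Matrix.fromBlocks_add]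
        simp
      rw [h1, Matrix.sub_mul, Matrix.one_mul]
    · exact SubfMem.sq_two F₀ hq hF₀ (by rw [hqk, hk2']) hr3
  · intro hcase x hx1 _
    obtain ⟨z, hz⟩ := hx1
    have hz0 : z ≠ 0 := by
      rintro rfl
      have h1 : ((x ^ 3 : Matrix.SpecialLinearGroup (Fin n) F) : Matrix (Fin n) (Fin n) F).det = 1 := (x ^ 3).2
      haveI : Nonempty (Fin n) := ⟨⟨0, by omega⟩⟩
      rw [hz, zero_smul, Matrix.det_zero] at h1
      exact zero_ne_one h1
    obtain ⟨c, hc⟩ := hcube z
    rw [frobenius_def] at hc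
    have hc0 : c ≠ 0 := by
      rintro rfl
      rw [zero_pow (by norm_num)] at hc
      exact hz0 hc.symm
    set M : Matrix (Fin n) (Fin n) F := c⁻¹ • (x : Matrix (Fin n) (Fin n) F) with hM
    have hM3 : M ^ 3 = 1 := by
      rw [hM, smul_pow, ← Matrix.SpecialLinearGroup.coe_pow, hz, smul_smul, ← hc, ← mul_pow, inv_mul_cancel₀ hc0, one_pow, one_smul]
    have hT : (Matrix.toLin' M - 1) ^ 3 = 0 := by
      have h1 : (Matrix.toLin' M - 1 : Module.End F (Fin n → F)) = Matrix.toLinAlgEquiv' (M - 1) := by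
        rw [map_sub, map_one]; rfl
      have h2 : (M - 1) ^ 3 = 0 := by
        have h3 : (M - 1) ^ 3 = M ^ 3 - 1 - (3 : F) • (M ^ 2 - M) := by
          rw [show (3 : F) = 1 + 1 + 1 by norm_num, add_smul, add_smul, one_smul]
          noncomm_ring
        rw [h3, hM3, h3F, zero_smul, sub_self, sub_zero]
      rw [h1, ← map_pow, h2, map_zero]
    obtain ⟨P, A, hP, hMP⟩ := SubfPos.pos F₀ M (by omega) hT (by
      rcases hcase with h | ⟨-, h⟩
      · exact Or.inl h
      · right
        exact SubfMem.sq_odd F₀ hq hF₀ hqk (hk.odd_of_ne_two (by omega)) hr3 hr3')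
    refine ⟨⟨P, hP⟩, ?_⟩
    rw [SubfMem.mem_iff]
    refine ⟨A, c, hc0, ?_⟩
    have hxM : (x : Matrix (Fin n) (Fin n) F) = c • M := by
      rw [hM, smul_smul, mul_inv_cancel₀ hc0, one_smul]
    have h1 : (x : Matrix (Fin n) (Fin n) F) * P = P * (c • F₀.subtype.mapMatrix A) := by
      rw [hxM, Matrix.smul_mul, hMP, Matrix.mul_smul]
    set PS : Matrix.SpecialLinearGroup (Fin n) F := ⟨P, hP⟩ with hPS
    have h3 : (PS : Matrix (Fin n) (Fin n) F) = P := rfl
    have h2 : ((PS⁻¹ : Matrix.SpecialLinearGroup (Fin n) F) : Matrix (Fin n) (Fin n) F) * P = 1 := by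
      rw [← h3, ← Matrix.SpecialLinearGroup.coe_mul, inv_mul_cancel]; rfl
    rw [Matrix.SpecialLinearGroup.coe_mul, Matrix.SpecialLinearGroup.coe_mul, Matrix.mul_assoc, h3, h1, ← Matrix.mul_assoc, h2, Matrix.one_mul]

end Cfsg.Agent.S5966
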