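import Cfsg.Statements.S5967
import Cfsg.Agent.H12.SimInv4

set_option autoImplicit false
open scoped MatrixGroups
open Cfsg

namespace Cfsg.Agent.S5967


/-- Involutions of PSL_n(q) and the symplectic-type subgroups. Here `T = PSL_n(F)` for a field `F` with `q` elements, `n ≥ 4` even, `f` is a nondegenerate alternating form on `F^n`, and `H` is the subgroup of matrices of determinant 1 preserving `f` up to a scalar — a maximal subgroup of type Sp_n(q); Ω is the set of `T`-conjugates of `H` (cosets of `H`), so an element of `T` of prime order `r` (a matrix `x` of determinant 1 with `x^r` scalar, `x` not scalar) fixes a point of Ω when some conjugate of `x` by a matrix of determinant 1 preserves `f` up to a scalar. Suppose the index of `H` is even. Then every involution of `T` is conjugate in `T` into `H` if and only if `(q − 1)_2 ≤ (n)_2`. -/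
theorem result {F : Type*} [Field F] [Fintype F] {p : ℕ} [Fact p.Prime] [CharP F p] {q : ℕ} (hq : Fintype.card F = q)
    (n : ℕ) (hn : 4 ≤ n) (he : Even n) (f : (Fin n → F) → (Fin n → F) → F) (hf : Cfsg.Geo.IsSymplecticForm f)
    (hΩ : 2 ∣ ((Cfsg.Geo.similarityGroup f).comap (Matrix.SpecialLinearGroup.toGL : Matrix.SpecialLinearGroup (Fin n) F →* GL (Fin n) F)).index) :
    (∀ x : Matrix.SpecialLinearGroup (Fin n) F,
      (∃ z : F, ((x ^ 2 : Matrix.SpecialLinearGroup (Fin n) F) : Matrix (Fin n) (Fin n) F) = z • (1 : Matrix (Fin n) (Fin n) F)) →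
      (∀ z : F, (x : Matrix (Fin n) (Fin n) F) ≠ z • (1 : Matrix (Fin n) (Fin n) F)) →
      ∃ P : Matrix.SpecialLinearGroup (Fin n) F, P⁻¹ * x * P ∈ ((Cfsg.Geo.similarityGroup f).comap (Matrix.SpecialLinearGroup.toGL : Matrix.SpecialLinearGroup (Fin n) F →* GL (Fin n) F))) ↔
    padicValNat 2 (q - 1) ≤ padicValNat 2 n := by
  classical
  constructor
  · intro h
    by_contra hcon
    obtain ⟨h2, c, hc⟩ := H12.SV.exists_pow_neg hq (by omega : n ≠ 0) hcon
    have hc0 : c ≠ 0 := by
      rintro rfl
      rw [zero_pow (by omega : n ≠ 0)] at hc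
      have : (1 : F) = 0 := by linear_combination hc
      exact one_ne_zero this
    let i0 : Fin n := ⟨0, by omega⟩
    let i1 : Fin n := ⟨1, by omega⟩
    let i2 : Fin n := ⟨2, by omega⟩
    have h10 : i1 ≠ i0 := by intro h; have := congrArg Fin.val h; simp [i1, i0] at this
    have h20 : i2 ≠ i0 := by intro h; have := congrArg Fin.val h; simp [i2, i0] at this
    have h12 : i1 ≠ i2 := by intro h; have := congrArg Fin.val h; simp [i1, i2] at this
    let d : Fin n → F := fun i => (if i = i0 then -1 else 1) * c
    have hdet : (Matrix.diagonal d).det = 1 := by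
      rw [Matrix.det_diagonal]
      simp only [d]
      rw [Finset.prod_mul_distrib, Finset.prod_ite_eq', if_pos (Finset.mem_univ _), Finset.prod_const,
        Finset.card_univ, Fintype.card_fin, hc]
      ring
    let X : Matrix.SpecialLinearGroup (Fin n) F := ⟨Matrix.diagonal d, hdet⟩
    have hd : ∀ i, d i = if i = i0 then -c else c := by
      intro i; simp only [d]; split_ifs <;> ring
    refine H12.SV.not_sim h2 hf hc0 X h10 h20 h12 ?_ (h X ⟨c ^ 2, ?_⟩ ?_)
    · intro i
      change Matrix.mulVec (Matrix.diagonal d) (Pi.single i 1) = _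
      ext j
      rw [Matrix.mulVec_diagonal, Pi.smul_apply, smul_eq_mul, ← hd]
      by_cases hij : j = i
      · subst hij; rfl
      · rw [Pi.single_eq_of_ne hij, mul_zero, mul_zero]
    · rw [pow_two, Matrix.SpecialLinearGroup.coe_mul]
      change Matrix.diagonal d * Matrix.diagonal d = _
      rw [Matrix.diagonal_mul_diagonal, Matrix.smul_one_eq_diagonal]
      congr 1
      funext i
      rw [hd]; split_ifs <;> ring
    · intro z hz
      have h3 : Matrix.diagonal d = z • (1 : Matrix (Fin n) (Fin n) F) := hz
      rw [Matrix.smul_one_eq_diagonal] at h3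
      have h4 := Matrix.diagonal_injective h3
      have h5 := congrFun h4 i0
      have h6 := congrFun h4 i1
      rw [hd, if_pos rfl] at h5
      rw [hd, if_neg h10] at h6
      have h7 : 2 * c = 0 := by linear_combination h6 - h5
      exact mul_ne_zero h2 hc0 h7
  · intro hle x hz _
    obtain ⟨z, hz⟩ := hz
    exact H12.SV.sim_main (by omega) he hf (fun h2 c => H12.SV.not_pow_neg hq (by omega) hle h2 c) x hz

end Cfsg.Agent.S5967
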