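import Cfsg.Statements.S5968
import Cfsg.Agent.H25.SpGen5

set_option autoImplicit false
open scoped MatrixGroups
open Cfsg
open Cfsg.Agent.H25

namespace Cfsg.Agent.S5968

/-- Derangements of odd prime order of PSL_n(q) on the cosets of a symplectic-type subgroup. Here `T = PSL_n(F)` for a field `F` with `q` elements, `n ≥ 4` even, `f` is a nondegenerate alternating form on `F^n`, and `H` is the subgroup of matrices of determinant 1 preserving `f` up to a scalar — a maximal subgroup of type Sp_n(q); Ω is the set of `T`-conjugates of `H` (cosets of `H`), so an element of `T` of prime order `r` (a matrix `x` of determinant 1 with `x^r` scalar, `x` not scalar) fixes a point of Ω when some conjugate of `x` by a matrix of determinant 1 preserves `f` up to a scalar. For every odd prime `r` dividing the index of `H`, with `(n, r) ≠ (6, 3)`, there is an element of `T` of order `r` with no conjugate in `H`. (For `n = 6`, `r = 3` this can fail: when `(q − 1)_3 = 3` every element of order 3 is conjugate into `H`.) -/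
theorem result {F : Type*} [Field F] [Fintype F] {p : ℕ} [Fact p.Prime] [CharP F p] {q : ℕ} (hq : Fintype.card F = q)
    (n : ℕ) (hn : 4 ≤ n) (he : Even n) (f : (Fin n → F) → (Fin n → F) → F) (hf : Cfsg.Geo.IsSymplecticForm f)
    (r : ℕ) [Fact r.Prime] (hr2 : r ≠ 2) (hgap : ¬ (n = 6 ∧ r = 3)) (hΩ : r ∣ ((Cfsg.Geo.similarityGroup f).comap (Matrix.SpecialLinearGroup.toGL : Matrix.SpecialLinearGroup (Fin n) F →* GL (Fin n) F)).index) :
    ∃ x : Matrix.SpecialLinearGroup (Fin n) F,
      (∃ z : F, ((x ^ r : Matrix.SpecialLinearGroup (Fin n) F) : Matrix (Fin n) (Fin n) F) = z • (1 : Matrix (Fin n) (Fin n) F)) ∧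
      (∀ z : F, (x : Matrix (Fin n) (Fin n) F) ≠ z • (1 : Matrix (Fin n) (Fin n) F)) ∧
      ∀ P : Matrix.SpecialLinearGroup (Fin n) F, P⁻¹ * x * P ∉ ((Cfsg.Geo.similarityGroup f).comap (Matrix.SpecialLinearGroup.toGL : Matrix.SpecialLinearGroup (Fin n) F →* GL (Fin n) F)) := by
  classical
  have hr : r.Prime := Fact.out
  have hrest : SpGen4.Concl n F r := by
    obtain ⟨k, hpn, hqp⟩ := FiniteField.card F p
    by_cases hrp : r = p
    · subst hrp
      exact SpGen4.caseA hr2 hn
    · have hrq : ¬ r ∣ q := by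
        intro h
        rw [← hq, hqp] at h
        exact hrp ((Nat.prime_dvd_prime_iff_eq hr hpn).mp (hr.dvd_of_dvd_pow h))
      have hrF : (r : F) ≠ 0 := by
        intro h
        rw [CharP.cast_eq_zero_iff F p] at h
        exact hrp ((Nat.prime_dvd_prime_iff_eq hpn hr).mp h).symm
      by_cases hq1 : r ∣ q - 1
      · exact SpGen5.caseB hq hr2 hq1 hn he hgap
      · obtain ⟨m, hm⟩ := he
        obtain ⟨j, hj, hjr⟩ := SpGen3.idx hq hm (by omega) hf hr hrq hΩ
        exact SpGen5.caseC hq hrF hq1 hm hj hjr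
  obtain ⟨x, hxr, hxs, hx⟩ := hrest
  refine ⟨x, ⟨1, by rw [Matrix.SpecialLinearGroup.coe_pow, hxr, one_smul]⟩, hxs, ?_⟩
  intro P hP
  obtain ⟨B, l, hA, hnd, h⟩ := SpGen4.transfer hf x P hP
  exact hx B l hA hnd h

end Cfsg.Agent.S5968
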