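import Cfsg.Statements.S5969
import Cfsg.Agent.H12.QExt4

set_option autoImplicit false
open scoped MatrixGroups
open Cfsg

namespace Cfsg.Agent.S5969


/-- Involutions of PSL_n(q) and extension-field subgroups of degree 2. Here `T = PSL_n(F)` for a field `F` with `q = p^f` elements (`n ≥ 2`, `(n, q) ≠ (2, 2), (2, 3)`), `k` is a prime dividing `n`, `K` is a subalgebra of the `n × n` matrices that is a field of degree `k` over `F` (an extension-field structure F_{q^k} on `F^n`), and `H` is the subgroup of matrices of determinant 1 normalizing `K` — a subgroup of type GL_{n/k}(q^k) (maximal except in some small cases; maximality is not assumed); Ω is the set of cosets of `H` in `T`, so an element of `T` of prime order `r` (a matrix `x` of determinant 1 with `x^r` scalar, `x` not scalar) fixes a point of Ω when some conjugate of `x` by a matrix of determinant 1 normalizes `K`. Take `k = 2` and suppose the index of `H` is even. Then every involution of `T` is conjugate in `T` into `H` if and only if `n = 2`, or `q` is odd and `(q − 1)_2 ≤ (n)_2`. -/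
theorem result {F : Type*} [Field F] [Fintype F] {p : ℕ} [Fact p.Prime] [CharP F p] {q : ℕ} (hq : Fintype.card F = q)
    (n : ℕ) (hn : 2 ≤ n) (hT : (n, q) ≠ (2, 2) ∧ (n, q) ≠ (2, 3))
    (k : ℕ) (hk : k.Prime) (hkn : k ∣ n) (K : Subalgebra F (Matrix (Fin n) (Fin n) F)) (hK : Cfsg.Geo.IsFieldSubalgebra k K) (hk2 : k = 2) (hΩ : 2 ∣ ((Cfsg.Geo.subalgebraNormalizer K).comap (Matrix.SpecialLinearGroup.toGL : Matrix.SpecialLinearGroup (Fin n) F →* GL (Fin n) F)).index) :
    (∀ x : Matrix.SpecialLinearGroup (Fin n) F,
      (∃ z : F, ((x ^ 2 : Matrix.SpecialLinearGroup (Fin n) F) : Matrix (Fin n) (Fin n) F) = z • (1 : Matrix (Fin n) (Fin n) F)) →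
      (∀ z : F, (x : Matrix (Fin n) (Fin n) F) ≠ z • (1 : Matrix (Fin n) (Fin n) F)) →
      ∃ P : Matrix.SpecialLinearGroup (Fin n) F, P⁻¹ * x * P ∈ ((Cfsg.Geo.subalgebraNormalizer K).comap (Matrix.SpecialLinearGroup.toGL : Matrix.SpecialLinearGroup (Fin n) F →* GL (Fin n) F))) ↔
    (n = 2 ∨ (Odd q ∧ padicValNat 2 (q - 1) ≤ padicValNat 2 n)) := by
  classical
  subst hk2
  have hq1 : 1 < q := by rw [← hq]; exact Fintype.one_lt_card
  have he : Even n := even_iff_two_dvd.2 hkn
  constructor
  · intro h
    by_contra hcon
    push Not at hcon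
    obtain ⟨hn2, hcon⟩ := hcon
    have hn4 : 4 ≤ n := by
      obtain ⟨m, hm⟩ := he
      omega
    let i0 : Fin n := ⟨0, by omega⟩
    let i1 : Fin n := ⟨1, by omega⟩
    have h10 : i1 ≠ i0 := by intro h; have := congrArg Fin.val h; simp [i1, i0] at this
    by_cases hodd : Odd q
    · obtain ⟨h2, c, hc⟩ := H12.SV.exists_pow_neg hq (by omega : n ≠ 0) (not_le.2 (hcon hodd))
      have hc0 : c ≠ 0 := by
        rintro rfl
        rw [zero_pow (by omega : n ≠ 0)] at hc
        have : (1 : F) = 0 := by linear_combination hc
        exact one_ne_zero this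
      let d : Fin n → F := fun i => (if i = i0 then -1 else 1) * c
      have hdet : (Matrix.diagonal d).det = 1 := by
        rw [Matrix.det_diagonal]
        simp only [d]
        rw [Finset.prod_mul_distrib, Finset.prod_ite_eq', if_pos (Finset.mem_univ _), Finset.prod_const,
          Finset.card_univ, Fintype.card_fin, hc]
        ring
      let X : Matrix.SpecialLinearGroup (Fin n) F := ⟨Matrix.diagonal d, hdet⟩
      have hd : ∀ i, d i = if i = i0 then -c else c := by
        intro i; simp only [d]; split_ifs <;> ring
      have hns : ∀ z : F, (X : Matrix (Fin n) (Fin n) F) ≠ z • (1 : Matrix (Fin n) (Fin n) F) := by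
        intro z hz
        have h3 : Matrix.diagonal d = z • (1 : Matrix (Fin n) (Fin n) F) := hz
        rw [Matrix.smul_one_eq_diagonal] at h3
        have h4 := Matrix.diagonal_injective h3
        have h5 := congrFun h4 i0
        have h6 := congrFun h4 i1
        rw [hd, if_pos rfl] at h5
        rw [hd, if_neg h10] at h6
        have h7 : 2 * c = 0 := by linear_combination h6 - h5
        exact mul_ne_zero h2 hc0 h7
      refine H12.QE.not_norm hn4 hK hns hc0 i0 ?_ (h X ⟨c ^ 2, ?_⟩ hns)
      · intro u hu
        change Matrix.mulVec (Matrix.diagonal d) u = _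
        ext j
        rw [Matrix.mulVec_diagonal, Pi.smul_apply, smul_eq_mul, hd]
        by_cases hij : j = i0
        · rw [hij, hu]; ring
        · rw [if_neg hij]
      · rw [pow_two, Matrix.SpecialLinearGroup.coe_mul]
        change Matrix.diagonal d * Matrix.diagonal d = _
        rw [Matrix.diagonal_mul_diagonal, Matrix.smul_one_eq_diagonal]
        congr 1
        funext i
        rw [hd]; split_ifs <;> ring
    · have h2 : (2 : F) = 0 := by
        by_contra h2
        apply hodd
        have h2F : ringChar F ≠ 2 := by
          intro h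
          apply h2
          have : ((ringChar F : ℕ) : F) = 0 := ringChar.Nat.cast_ringChar
          rw [h] at this
          exact_mod_cast this
        rw [← hq, Nat.odd_iff]
        exact FiniteField.odd_card_of_char_ne_two h2F
      let X : Matrix.SpecialLinearGroup (Fin n) F := ⟨Matrix.transvection i1 i0 1,
        Matrix.det_transvection_of_ne i1 i0 h10 1⟩
      have hns : ∀ z : F, (X : Matrix (Fin n) (Fin n) F) ≠ z • (1 : Matrix (Fin n) (Fin n) F) := by
        intro z hz
        have h3 := congrFun (congrFun hz i1) i0
        change Matrix.transvection i1 i0 (1 : F) i1 i0 = _ at h3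
        simp [Matrix.transvection, h10] at h3
      refine H12.QE.not_norm hn4 hK hns one_ne_zero i0 ?_ (h X ⟨1, ?_⟩ hns)
      · intro u hu
        change Matrix.mulVec (Matrix.transvection i1 i0 (1 : F)) u = _
        rw [Matrix.transvection, Matrix.add_mulVec, Matrix.one_mulVec, one_smul]
        ext j
        simp [Matrix.single_mulVec, hu]
      · rw [pow_two, Matrix.SpecialLinearGroup.coe_mul]
        change Matrix.transvection i1 i0 (1 : F) * Matrix.transvection i1 i0 (1 : F) = _
        rw [Matrix.transvection_mul_transvection_same _ _ h10]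
        have h3 : (1 : F) + 1 = 0 := by linear_combination h2
        rw [h3, Matrix.transvection_zero, one_smul]
  · rintro (hn2 | ⟨hodd, hle⟩) x hz hns
    · subst hn2
      obtain ⟨z, hz⟩ := hz
      exact H12.QE.qe_two hK x hz hns
    · obtain ⟨z, hz⟩ := hz
      have h2 : (2 : F) ≠ 0 := by
        intro h2
        have h3 : ringChar F = 2 := by
          have h4 : ringChar F ∣ 2 := (ringChar.spec F 2).1 (by exact_mod_cast h2)
          rcases (Nat.dvd_prime Nat.prime_two).1 h4 with h5 | h5
          · exfalso
            have h6 : ((ringChar F : ℕ) : F) = 0 := ringChar.Nat.cast_ringChar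
            rw [h5, Nat.cast_one] at h6
            exact one_ne_zero h6
          · exact h5
        have h7 := FiniteField.even_card_of_char_two h3
        rw [hq] at h7
        rw [Nat.odd_iff] at hodd
        omega
      exact H12.QE.qe_main (by omega) he h2 (H12.SV.not_pow_neg hq (by omega) hle h2) hK x hz

end Cfsg.Agent.S5969
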