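import Cfsg.Statements.S5971
import Cfsg.Agent.H12.Sing5

set_option autoImplicit false
open scoped MatrixGroups
open Cfsg

namespace Cfsg.Agent.S5971

theorem case_zero {F : Type*} [Field F] (h3 : (3 : F) = 0) :
    ∃ x : Matrix.SpecialLinearGroup (Fin 3) F,
      (∃ z : F, ((x ^ 3 : Matrix.SpecialLinearGroup (Fin 3) F) : Matrix (Fin 3) (Fin 3) F) = z • (1 : Matrix (Fin 3) (Fin 3) F)) ∧
      (∀ z : F, (x : Matrix (Fin 3) (Fin 3) F) ≠ z • (1 : Matrix (Fin 3) (Fin 3) F)) ∧
      ∃ (l : F) (v w : Fin 3 → F), v ≠ 0 ∧ Matrix.mulVec (x : Matrix (Fin 3) (Fin 3) F) v = l • v ∧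
        Matrix.mulVec (x : Matrix (Fin 3) (Fin 3) F) w = l • w ∧ ∀ c : F, w ≠ c • v := by
  let A : Matrix (Fin 3) (Fin 3) F := !![1, 1, 0; 0, 1, 0; 0, 0, 1]
  have hA : A.det = 1 := by simp [A, Matrix.det_fin_three]
  have hA3 : A ^ 3 = 1 := by
    rw [pow_succ, pow_two]
    ext i j
    fin_cases i <;> fin_cases j <;>
      simp [A, Matrix.mul_apply, Fin.sum_univ_three]
    linear_combination h3
  let x : Matrix.SpecialLinearGroup (Fin 3) F := ⟨A, hA⟩
  refine ⟨x, ⟨1, ?_⟩, ?_, 1, ![1, 0, 0], ![0, 0, 1], ?_, ?_, ?_, ?_⟩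
  · rw [Matrix.SpecialLinearGroup.coe_pow, one_smul]
    exact hA3
  · intro z h
    have h1 := congrFun (congrFun h 0) 1
    change A 0 1 = _ at h1
    simp [A] at h1
  · intro h
    have := congrFun h 0
    simp at this
  · change Matrix.mulVec A _ = _
    ext i; fin_cases i <;> simp [A, Matrix.mulVec, dotProduct, Fin.sum_univ_three]
  · change Matrix.mulVec A _ = _
    ext i; fin_cases i <;> simp [A, Matrix.mulVec, dotProduct, Fin.sum_univ_three]
  · intro c h
    have := congrFun h 2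
    simp at this

theorem case_one {F : Type*} [Field F] {c : F} (hc9 : c ^ 9 = 1) (hc3 : c ^ 3 ≠ 1) :
    ∃ x : Matrix.SpecialLinearGroup (Fin 3) F,
      (∃ z : F, ((x ^ 3 : Matrix.SpecialLinearGroup (Fin 3) F) : Matrix (Fin 3) (Fin 3) F) = z • (1 : Matrix (Fin 3) (Fin 3) F)) ∧
      (∀ z : F, (x : Matrix (Fin 3) (Fin 3) F) ≠ z • (1 : Matrix (Fin 3) (Fin 3) F)) ∧
      ∃ (l : F) (v w : Fin 3 → F), v ≠ 0 ∧ Matrix.mulVec (x : Matrix (Fin 3) (Fin 3) F) v = l • v ∧
        Matrix.mulVec (x : Matrix (Fin 3) (Fin 3) F) w = l • w ∧ ∀ c : F, w ≠ c • v := by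
  let A : Matrix (Fin 3) (Fin 3) F := !![c, 0, 0; 0, c, 0; 0, 0, c ^ 7]
  have hA : A.det = 1 := by
    simp [A, Matrix.det_fin_three]
    linear_combination hc9
  have hA3 : A ^ 3 = c ^ 3 • (1 : Matrix (Fin 3) (Fin 3) F) := by
    rw [pow_succ, pow_two]
    ext i j
    fin_cases i <;> fin_cases j <;>
      simp [A, Matrix.mul_apply, Fin.sum_univ_three]
    · ring
    · ring
    · linear_combination (c ^ 12 + c ^ 3) * hc9
  let x : Matrix.SpecialLinearGroup (Fin 3) F := ⟨A, hA⟩
  refine ⟨x, ⟨c ^ 3, ?_⟩, ?_, c, ![1, 0, 0], ![0, 1, 0], ?_, ?_, ?_, ?_⟩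
  · rw [Matrix.SpecialLinearGroup.coe_pow]
    exact hA3
  · intro z h
    have h1 := congrFun (congrFun h 0) 0
    have h2 := congrFun (congrFun h 2) 2
    change A 0 0 = _ at h1
    change A 2 2 = _ at h2
    simp [A] at h1 h2
    apply hc3
    have h3 : c ^ 7 = c := h2.trans h1.symm
    linear_combination hc9 - c ^ 2 * h3
  · intro h
    have := congrFun h 0
    simp at this
  · change Matrix.mulVec A _ = _
    ext i; fin_cases i <;> simp [A, Matrix.mulVec, dotProduct, Fin.sum_univ_three]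
  · change Matrix.mulVec A _ = _
    ext i; fin_cases i <;> simp [A, Matrix.mulVec, dotProduct, Fin.sum_univ_three]
  · intro c h
    have := congrFun h 1
    simp at this

theorem shift_cube {F : Type*} [Field F] : H12.SG.shiftM F 3 ^ 3 = 1 := by
  have h1 : H12.SG.shiftM F 3 = !![0, 0, 1; 1, 0, 0; 0, 1, 0] := by
    ext i j
    fin_cases i <;> fin_cases j <;> simp [H12.SG.shiftM]
  rw [h1, pow_succ, pow_two]
  ext i j
  fin_cases i <;> fin_cases j <;> simp [Matrix.mul_apply, Fin.sum_univ_three]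

theorem case_two {F : Type*} [Field F] [Fintype F] {q : ℕ} (hq : Fintype.card F = q)
    (h9 : q % 9 = 2 ∨ q % 9 = 5) : ¬ 9 ∣ Nat.card (Matrix.SpecialLinearGroup (Fin 3) F) := by
  intro h
  have hq1 : 1 < q := by rw [← hq]; exact Fintype.one_lt_card
  have h1 := H5.card_SL_mul hq 3 (by norm_num)
  have h2 : 9 ∣ ∏ i : Fin 3, (q ^ 3 - q ^ (i : ℕ)) := by
    rw [← h1]; exact Dvd.dvd.mul_left h _
  rw [← ZMod.natCast_eq_zero_iff, Nat.cast_prod] at h2
  have hle : ∀ i : ℕ, i < 3 → q ^ i ≤ q ^ 3 := fun i hi => Nat.pow_le_pow_right (by omega) hi.le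
  rw [Fin.prod_univ_three] at h2
  rw [Nat.cast_sub (hle _ (by norm_num)), Nat.cast_sub (hle _ (by norm_num)),
    Nat.cast_sub (hle _ (by norm_num))] at h2
  push_cast at h2
  have h3 : (q : ZMod 9) = ((q % 9 : ℕ) : ZMod 9) := by rw [ZMod.natCast_mod]
  rw [h3] at h2
  rcases h9 with h9 | h9 <;> rw [h9] at h2 <;> revert h2 <;> decide

/-- Elements of order 3 of PSL_3(q) and the normalizer of a Singer cycle. Here `T = PSL_n(F)` for a field `F` with `q = p^f` elements (`n ≥ 2`, `(n, q) ≠ (2, 2), (2, 3)`), `k` is a prime dividing `n`, `K` is a subalgebra of the `n × n` matrices that is a field of degree `k` over `F` (an extension-field structure F_{q^k} on `F^n`), and `H` is the subgroup of matrices of determinant 1 normalizing `K` — a subgroup of type GL_{n/k}(q^k) (maximal except in some small cases; maximality is not assumed); Ω is the set of cosets of `H` in `T`, so an element of `T` of prime order `r` (a matrix `x` of determinant 1 with `x^r` scalar, `x` not scalar)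 fixes a point of Ω when some conjugate of `x` by a matrix of determinant 1 normalizes `K`. Take `n = k = 3` and suppose 3 divides the index of `H`. Then every element of `T` of order 3 is conjugate in `T` into `H` if and only if `q ≡ 4, 7` or `8 (mod 9)`. -/
theorem result {F : Type*} [Field F] [Fintype F] {p : ℕ} [Fact p.Prime] [CharP F p] {q : ℕ} (hq : Fintype.card F = q)
    (n : ℕ) (hn : n = 3) (k : ℕ) (hk : k.Prime) (hkn : k ∣ n) (K : Subalgebra F (Matrix (Fin n) (Fin n) F)) (hK : Cfsg.Geo.IsFieldSubalgebra k K) (hk3 : k = 3) (hΩ : 3 ∣ ((Cfsg.Geo.subalgebraNormalizer K).comap (Matrix.SpecialLinearGroup.toGL : Matrix.SpecialLinearGroup (Fin n) F →* GL (Fin n) F)).index) :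
    (∀ x : Matrix.SpecialLinearGroup (Fin n) F,
      (∃ z : F, ((x ^ 3 : Matrix.SpecialLinearGroup (Fin n) F) : Matrix (Fin n) (Fin n) F) = z • (1 : Matrix (Fin n) (Fin n) F)) →
      (∀ z : F, (x : Matrix (Fin n) (Fin n) F) ≠ z • (1 : Matrix (Fin n) (Fin n) F)) →
      ∃ P : Matrix.SpecialLinearGroup (Fin n) F, P⁻¹ * x * P ∈ ((Cfsg.Geo.subalgebraNormalizer K).comap (Matrix.SpecialLinearGroup.toGL : Matrix.SpecialLinearGroup (Fin n) F →* GL (Fin n) F))) ↔
    (q % 9 = 4 ∨ q % 9 = 7 ∨ q % 9 = 8) := by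
  subst hn
  subst hk3
  have hprime : Nat.Prime 3 := Nat.prime_three
  have hqpos : 1 < q := by rw [← hq]; exact Fintype.one_lt_card
  obtain ⟨f, -, hpf⟩ := FiniteField.card F p
  have hiff : (3 : F) = 0 ↔ 3 ∣ q := by
    have h1 : (3 : F) = 0 ↔ p ∣ 3 := by
      rw [← CharP.cast_eq_zero_iff F p 3]; norm_num
    rw [h1, Nat.prime_dvd_prime_iff_eq Fact.out hprime]
    constructor
    · intro h
      rw [← hq, hpf, h]
      exact dvd_pow_self 3 f.2.ne'
    · intro h
      rw [← hq, hpf] at h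
      exact ((Nat.prime_dvd_prime_iff_eq hprime Fact.out).1 (hprime.dvd_of_dvd_pow h)).symm
  have hodd : Odd 3 := by decide
  constructor
  · intro h
    by_contra hcon
    have hcases : 3 ∣ q ∨ q % 9 = 1 ∨ (q % 9 = 2 ∨ q % 9 = 5) := by omega
    rcases hcases with h3 | h1 | h2
    · obtain ⟨x, hx, hns, l, v, w, hv, hxv, hxw, hvw⟩ := case_zero (hiff.2 h3)
      exact H12.SG.not_conj_into hprime hK hns hv hxv hxw hvw (h x hx hns)
    · obtain ⟨g, hg⟩ := IsCyclic.exists_ofOrder_eq_natCard (α := Fˣ)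
      rw [Nat.card_units, Nat.card_eq_fintype_card, hq] at hg
      have h9 : 9 ∣ orderOf g := by rw [hg]; omega
      have hg0 : orderOf g ≠ 0 := by rw [hg]; omega
      have h10 := orderOf_pow_orderOf_div hg0 h9
      set c := g ^ (orderOf g / 9) with hc
      have hc9 : c ^ 9 = 1 := by
        have h11 := pow_orderOf_eq_one c
        rwa [h10] at h11
      have hc3 : c ^ 3 ≠ 1 := by
        intro h11
        have h12 := orderOf_dvd_of_pow_eq_one h11
        rw [h10] at h12
        omega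
      obtain ⟨x, hx, hns, l, v, w, hv, hxv, hxw, hvw⟩ := case_one (c := (c : F))
        (by rw [← Units.val_pow_eq_pow_val, hc9, Units.val_one]) (by
          intro h11; apply hc3; apply Units.ext; rw [Units.val_pow_eq_pow_val, h11, Units.val_one])
      exact H12.SG.not_conj_into hprime hK hns hv hxv hxw hvw (h x hx hns)
    · apply case_two hq h2
      obtain ⟨s, hs, g, hg⟩ := H12.SG.exists_s_sl hodd hK
      have hord : orderOf s = 3 := by
        apply orderOf_eq_prime
        · apply Subtype.ext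
          change ((s ^ 3 : Matrix.SpecialLinearGroup (Fin 3) F) : Matrix (Fin 3) (Fin 3) F) = 1
          rw [Matrix.SpecialLinearGroup.coe_pow]
          have h3 : (s : Matrix (Fin 3) (Fin 3) F) ^ 3 * g = g * H12.SG.shiftM F 3 ^ 3 := by
            rw [pow_succ, pow_two, pow_succ, pow_two, mul_assoc, mul_assoc, hg, ← mul_assoc (s : Matrix (Fin 3) (Fin 3) F) (g : Matrix (Fin 3) (Fin 3) F), hg, mul_assoc, ← mul_assoc (s : Matrix (Fin 3) (Fin 3) F) (g : Matrix (Fin 3) (Fin 3) F), hg]
            simp only [mul_assoc]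
          rw [shift_cube, mul_one] at h3
          calc (s : Matrix (Fin 3) (Fin 3) F) ^ 3 = (s : Matrix (Fin 3) (Fin 3) F) ^ 3 * ((g : Matrix (Fin 3) (Fin 3) F) * ((g⁻¹ : GL (Fin 3) F) : Matrix (Fin 3) (Fin 3) F)) := by
                rw [show (g : Matrix (Fin 3) (Fin 3) F) * ((g⁻¹ : GL (Fin 3) F) : Matrix (Fin 3) (Fin 3) F) = 1 from g.mul_inv, mul_one]
            _ = 1 := by
                rw [← mul_assoc, h3]; exact g.mul_inv
        · rintro rfl
          have h3 : (g : Matrix (Fin 3) (Fin 3) F) = g * H12.SG.shiftM F 3 := by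
            have h4 : ((1 : Matrix.SpecialLinearGroup (Fin 3) F) : Matrix (Fin 3) (Fin 3) F) * g = g := by
              rw [Matrix.SpecialLinearGroup.coe_one, one_mul]
            rw [← hg]; exact h4.symm
          have h5 : H12.SG.shiftM F 3 = 1 := by
            have h6 : ((g⁻¹ : GL (Fin 3) F) : Matrix (Fin 3) (Fin 3) F) * (g : Matrix (Fin 3) (Fin 3) F) = 1 := g.inv_mul
            calc H12.SG.shiftM F 3 = (((g⁻¹ : GL (Fin 3) F) : Matrix (Fin 3) (Fin 3) F) * (g : Matrix (Fin 3) (Fin 3) F)) * H12.SG.shiftM F 3 := by rw [h6, one_mul]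
              _ = 1 := by rw [mul_assoc, ← h3, h6]
          have h7 := congrFun (congrFun h5 0) 0
          simp [H12.SG.shiftM] at h7
      have h3 : 3 ∣ Nat.card ((Cfsg.Geo.subalgebraNormalizer K).comap (Matrix.SpecialLinearGroup.toGL : Matrix.SpecialLinearGroup (Fin 3) F →* GL (Fin 3) F)) := by
        exact (dvd_of_eq hord.symm).trans (Subgroup.orderOf_dvd_natCard _ hs)
      have h4 := Subgroup.index_mul_card ((Cfsg.Geo.subalgebraNormalizer K).comap (Matrix.SpecialLinearGroup.toGL : Matrix.SpecialLinearGroup (Fin 3) F →* GL (Fin 3) F))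
      rw [← h4]
      exact (mul_dvd_mul hΩ h3 : 3 * 3 ∣ _)
  · intro h x hz hns
    obtain ⟨z, hz⟩ := hz
    have h3q : ¬ 3 ∣ q := by omega
    have h3F : (3 : F) ≠ 0 := fun h => h3q (hiff.1 h)
    have h3F' : ((3 : ℕ) : F) ≠ 0 := by exact_mod_cast h3F
    have hcases : (¬ 9 ∣ q - 1 ∧ 3 ∣ q - 1) ∨ q % 9 = 8 := by omega
    rcases hcases with ⟨h9, h3⟩ | h8
    · exact H12.SG.conj_into hodd h3F' hK (H12.SG.regular_three hq h3F h9 h3 hz hns)
    · have hp3 : 3 ≠ p := by
        intro h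
        apply h3F
        have : ((p : ℕ) : F) = 0 := CharP.cast_eq_zero F p
        rw [← h] at this
        exact_mod_cast this
      have hord : orderOf ((q : ℕ) : ZMod 3) = 3 - 1 := by
        have h5 : ((q : ℕ) : ZMod 3) = ((q % 3 : ℕ) : ZMod 3) := by rw [ZMod.natCast_mod]
        rw [h5, show q % 3 = 2 by omega]
        change orderOf _ = 2
        apply orderOf_eq_prime
        · decide
        · decide
      exact H12.SG.conj_into hodd h3F' hK
        (H12.SG.regular_of_ord hq hprime (by norm_num) hp3 hord hz hns)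

end Cfsg.Agent.S5971
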