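import Cfsg.Statements.S5997
import Cfsg.Agent.H12.QuatAut
import Cfsg.Agent.H16.SL2Count

set_option autoImplicit false
open scoped MatrixGroups
open Cfsg

namespace Cfsg.Agent.S5997


open Matrix Cfsg.Agent.H16

variable {F : Type*} [Field F]

local notation "M2" => Matrix (Fin 2) (Fin 2) F

theorem ch2 (A : M2) : A * A = A.trace • A - A.det • (1 : M2) := by
  ext i j
  fin_cases i <;> fin_cases j <;>
    simp [Matrix.det_fin_two, Matrix.trace_fin_two, Matrix.mul_apply, Fin.sum_univ_two] <;> ring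

theorem lin0 {A : M2} (hA : ¬ IsScal A) {a b : F} (h : a • A = b • (1 : M2)) : a = 0 ∧ b = 0 := by
  have := lin_inj hA (a := b) (b := 0) (a' := 0) (b' := a) (by simp [h])
  exact ⟨this.2.symm, this.1⟩

/-- a non-scalar matrix with square `-1` -/
theorem sq_neg_one {A : M2} (hA : ¬ IsScal A) (h : A * A = -1) : A.trace = 0 ∧ A.det = 1 := by
  have h1 := ch2 A
  rw [h] at h1
  have h2 : A.trace • A = (A.det - 1) • (1 : M2) := by
    rw [sub_smul, one_smul]
    rw [eq_sub_iff_add_eq] at h1
    rw [← h1]; abel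
  obtain ⟨h3, h4⟩ := lin0 hA h2
  exact ⟨h3, sub_eq_zero.1 h4⟩

theorem comm_of_comm {M A B : M2} (hM : ¬ IsScal M) (h1 : M * A = A * M) (h2 : M * B = B * M) :
    A * B = B * A := by
  obtain ⟨a, b, rfl⟩ := commute_nonscalar hM h1
  obtain ⟨c, d, rfl⟩ := commute_nonscalar hM h2
  simp only [add_mul, mul_add, smul_mul_assoc, mul_smul_comm, one_mul, mul_one, smul_smul]
  module

theorem isScal_comm {A : M2} (hA : IsScal A) (B : M2) : A * B = B * A := by
  rw [isScal_eq hA]; simp

/-- the structure of a quaternion subgroup of `GL₂` -/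
theorem quat_data (R : Subgroup (GL (Fin 2) F))
    (hR : Nonempty (↥R ≃* QuaternionGroup 2)) :
    ∃ I J : GL (Fin 2) F, I ∈ R ∧ J ∈ R ∧ (I : M2) * (I : M2) = -1 ∧ (J : M2) * (J : M2) = -1 ∧
      (J : M2) * (I : M2) = -((I : M2) * (J : M2)) ∧ (∀ y ∈ R, ∃ k l : ℕ, y = J ^ l * I ^ k) := by
  obtain ⟨e⟩ := hR
  set i : R := e.symm (QuaternionGroup.a 1) with hi
  set j : R := e.symm (QuaternionGroup.xa 0) with hj
  have hii : i * i = j * j := by
    rw [hi, hj, ← map_mul, ← map_mul]; congr 1
  have hz : (i * i) * (i * i) = 1 := by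
    rw [hi, ← map_mul, ← map_mul,
      show (QuaternionGroup.a 1 * QuaternionGroup.a 1 * (QuaternionGroup.a 1 * QuaternionGroup.a 1) :
        QuaternionGroup 2) = 1 by decide, map_one]
  have hz1 : i * i ≠ 1 := by
    rw [hi, ← map_mul]
    intro h
    have h1 : (QuaternionGroup.a 1 * QuaternionGroup.a 1 : QuaternionGroup 2) = 1 :=
      e.symm.injective (by rw [h, map_one])
    exact absurd h1 (by decide)
  have hji : j * i = (i * i) * (i * j) := by
    rw [hi, hj, ← map_mul, ← map_mul, ← map_mul, ← map_mul]; congr 1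
  have hne : j * i ≠ i * j := by
    rw [hi, hj, ← map_mul, ← map_mul]
    intro h
    have h1 := e.symm.injective h
    exact absurd h1 (by decide)
  have hgen : ∀ y : R, ∃ k l : ℕ, y = j ^ l * i ^ k := by
    intro y
    have h1 : ∀ q : QuaternionGroup 2, ∃ k < 4, ∃ l < 2,
      q = QuaternionGroup.xa 0 ^ l * QuaternionGroup.a 1 ^ k := by decide
    obtain ⟨k, -, l, -, h⟩ := h1 (e y)
    refine ⟨k, l, ?_⟩
    apply e.injective
    rw [h, map_mul, map_pow, map_pow, hi, hj, e.apply_symm_apply, e.apply_symm_apply]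
  clear_value i j
  -- pass to matrices
  have cv : ∀ a b : R, a = b → ((a : GL (Fin 2) F) : M2) = ((b : GL (Fin 2) F) : M2) := by
    rintro a b rfl; rfl
  have cm : ∀ a b : R, (((a * b : R) : GL (Fin 2) F) : M2) =
    ((a : GL (Fin 2) F) : M2) * ((b : GL (Fin 2) F) : M2) := fun a b => rfl
  have c1 : (((1 : R) : GL (Fin 2) F) : M2) = 1 := rfl
  set I : M2 := ((i : GL (Fin 2) F) : M2) with hI
  set J : M2 := ((j : GL (Fin 2) F) : M2) with hJ
  have e1 : I * I = J * J := by have := cv _ _ hii; rwa [cm, cm] at this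
  have e2 : (I * I) * (I * I) = 1 := by have := cv _ _ hz; rwa [cm, cm, c1] at this
  have e3 : I * I ≠ 1 := by
    intro h
    apply hz1
    apply Subtype.ext
    apply Units.ext
    exact h
  have e4 : J * I = (I * I) * (I * J) := by have := cv _ _ hji; rwa [cm, cm, cm, cm] at this
  have e5 : J * I ≠ I * J := by
    intro h
    apply hne
    apply Subtype.ext
    apply Units.ext
    exact h
  have hs : IsScal (I * I) := by
    by_contra hs
    apply e5
    apply comm_of_comm hs
    · rw [e1, mul_assoc]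
    · rw [mul_assoc]
  have e6 : I * I = -1 := by
    have h1 := isScal_eq hs
    set c := (I * I) 0 0 with hc
    rw [h1] at e2
    have h3 : (c * c) = 1 := by
      have := congrFun (congrFun e2 0) 0
      simpa using this
    have h4 : (c - 1) * (c + 1) = 0 := by linear_combination h3
    rcases mul_eq_zero.1 h4 with h5 | h5
    · exfalso
      apply e3
      rw [h1, sub_eq_zero.1 h5, one_smul]
    · rw [h1, eq_neg_of_add_eq_zero_left h5, neg_smul, one_smul]
  refine ⟨i, j, i.2, j.2, e6, by rw [← hJ, ← e1, e6], ?_, ?_⟩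
  · rw [← hI, ← hJ, e4, e6, neg_one_mul]
  · intro y hy
    obtain ⟨k, l, h⟩ := hgen ⟨y, hy⟩
    exact ⟨k, l, congrArg Subtype.val h⟩

theorem conj_sl [Fintype F] {x y : GL (Fin 2) F} (hx : x ∈ Cfsg.Geo.specialLinear (Fin 2) F)
    (hy : y ∈ Cfsg.Geo.specialLinear (Fin 2) F) (hxs : ¬ IsScal (x : M2)) (hys : ¬ IsScal (y : M2))
    (t : F) (ht : t ^ 2 ≠ 4) (hxt : (x : M2).trace = t) (hyt : (y : M2).trace = t) :
    ∃ g ∈ Cfsg.Geo.specialLinear (Fin 2) F, g⁻¹ * x * g = y := by
  have dx : (x : M2).det = 1 := by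
    have : Matrix.GeneralLinearGroup.det x = 1 := hx
    have := congrArg Units.val this
    simpa using this
  have dy : (y : M2).det = 1 := by
    have : Matrix.GeneralLinearGroup.det y = 1 := hy
    have := congrArg Units.val this
    simpa using this
  let x' : SpecialLinearGroup (Fin 2) F := ⟨(x : M2), dx⟩
  let y' : SpecialLinearGroup (Fin 2) F := ⟨(y : M2), dy⟩
  have hc : IsConj x' y' :=
    sl2_isConj_of_universal (t := t) (fun c _ => nf_pos_universal _ ht c) hxs hys hxt hyt
  obtain ⟨c, hc⟩ := isConj_iff.1 hc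
  refine ⟨SpecialLinearGroup.toGL c⁻¹, ?_, ?_⟩
  · change Matrix.GeneralLinearGroup.det _ = 1
    apply Units.ext
    exact (c⁻¹).2
  · rw [map_inv, inv_inv]
    apply Units.ext
    have := congrArg (fun z : SpecialLinearGroup (Fin 2) F => (z : M2)) hc
    rw [← map_inv]
    exact this

theorem trace_sl {x : GL (Fin 2) F} (hx : x ∈ Cfsg.Geo.specialLinear (Fin 2) F) :
    (x : M2).det = 1 := by
  have : Matrix.GeneralLinearGroup.det x = 1 := hx
  have := congrArg Units.val this
  simpa using this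

theorem mem_norm_of {R : Subgroup (GL (Fin 2) F)} [Finite R] {I J w : GL (Fin 2) F}
    (hI : I ∈ R) (hJ : J ∈ R) (hgen : ∀ y ∈ R, ∃ k l : ℕ, y = J ^ l * I ^ k)
    (h1 : w * I * w⁻¹ ∈ R) (h2 : w * J * w⁻¹ ∈ R) : w ∈ Cfsg.Geo.subgroupNormalizer R := by
  have hf : Finite (R : Set (GL (Fin 2) F)) := ‹Finite R›
  apply Subgroup.mem_normalizer_fintype
  intro y hy
  obtain ⟨k, l, rfl⟩ := hgen y hy
  have : w * (J ^ l * I ^ k) * w⁻¹ = (w * J * w⁻¹) ^ l * (w * I * w⁻¹) ^ k := by
    rw [conj_pow, conj_pow]; group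
  rw [this]
  exact mul_mem (pow_mem h2 _) (pow_mem h1 _)

/-- the element of order 3 in the normaliser -/
theorem exists_w (h2 : (2 : F) ≠ 0) (R : Subgroup (GL (Fin 2) F)) [Finite R]
    (I J : GL (Fin 2) F) (hI : I ∈ R) (hJ : J ∈ R) (e1 : (I : M2) * (I : M2) = -1)
    (e2 : (J : M2) * (J : M2) = -1) (e3 : (J : M2) * (I : M2) = -((I : M2) * (J : M2)))
    (hgen : ∀ y ∈ R, ∃ k l : ℕ, y = J ^ l * I ^ k) :
    ∃ w : GL (Fin 2) F, w ∈ Cfsg.Geo.subgroupNormalizer R ∧ ¬ IsScal (w : M2) ∧
      (w : M2).trace = -1 ∧ (w : M2).det = 1 := by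
  set A : M2 := (I : M2) with hA
  set B : M2 := (J : M2) with hB
  set K : M2 := A * B with hK
  have k1 : K * A = B := by rw [hK, mul_assoc, e3, mul_neg, ← mul_assoc, e1]; simp
  have k2 : K * B = -A := by rw [hK, mul_assoc, e2]; simp
  have k3 : B * K = A := by rw [hK, ← mul_assoc, e3, neg_mul, mul_assoc, e2]; simp
  have k4 : A * K = -B := by rw [hK, ← mul_assoc, e1]; simp
  have k5 : K * K = -1 := by
    nth_rewrite 1 [hK]
    rw [mul_assoc, k3, e1]
  have ne : B * A ≠ A * B := by
    intro h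
    rw [e3, ← hK] at h
    have h4 : (2 : F) • K = 0 := by
      rw [two_smul]; nth_rewrite 1 [← h]; exact neg_add_cancel K
    have h5 : A * B = 0 := (smul_eq_zero.1 h4).resolve_left h2
    have h6 : (I * J : GL (Fin 2) F).val = 0 := h5
    exact (I * J).ne_zero h6
  set S : M2 := 1 + A + B + K with hS
  have hSS : S * S = (2 : F) • S - (4 : F) • (1 : M2) := by
    simp only [hS, add_mul, mul_add, one_mul, mul_one, e1, e2, e3, k1, k2, k3, k4, k5, ← hK]
    module
  have hSns : ¬ IsScal S := by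
    intro hs
    have h1 := isScal_comm hs A
    simp only [hS, add_mul, mul_add, one_mul, mul_one, e1, e3, k1, k4, ← hK] at h1
    have h3 : (2 : F) • (B - K) = 0 := by
      have : (A + -1 + -K + B) - (A + -1 + K + -B) = (2 : F) • (B - K) := by module
      rw [← this, h1, sub_self]
    have h5 : B = K := sub_eq_zero.1 ((smul_eq_zero.1 h3).resolve_left h2)
    rw [← h5, ← hK, ← h5] at k4
    have h6 : (2 : F) • B = 0 := by rw [two_smul]; nth_rewrite 1 [k4]; simp
    have h7 : B = 0 := (smul_eq_zero.1 h6).resolve_left h2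
    exact J.ne_zero h7
  let W : M2 := (-(1 / 2) : F) • S
  have hWW : W * W = -W - 1 := by
    simp only [W, smul_mul_assoc, mul_smul_comm, hSS, smul_sub, smul_smul]
    have h5 : (-(1 / 2) * (-(1 / 2) * 2) : F) = 1 / 2 := by field_simp
    have h6 : (-(1 / 2) * (-(1 / 2) * 4) : F) = 1 := by
      field_simp; norm_num
    rw [h5, h6]
    module
  have hns : ¬ IsScal W := by
    intro hs
    apply hSns
    rw [isScal_iff] at hs ⊢
    obtain ⟨c, hc⟩ := hs
    refine ⟨-2 * c, ?_⟩
    rw [mul_smul, ← hc]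
    simp only [W, smul_smul]
    have : (-2 * -(1 / 2) : F) = 1 := by field_simp
    rw [this, one_smul]
  have htd : W.trace = -1 ∧ W.det = 1 := by
    have h5 := ch2 W
    rw [hWW] at h5
    have h6 : (W.trace + 1) • W = (W.det - 1) • (1 : M2) := by
      rw [add_smul, sub_smul, one_smul, one_smul]
      rw [eq_sub_iff_add_eq] at h5
      rw [← h5]; abel
    obtain ⟨h7, h8⟩ := lin0 hns h6
    exact ⟨eq_neg_of_add_eq_zero_left h7, sub_eq_zero.1 h8⟩
  have hdet : W.det ≠ 0 := by rw [htd.2]; exact one_ne_zero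
  let w : GL (Fin 2) F := Matrix.GeneralLinearGroup.mkOfDetNeZero W hdet
  have hwv : (w : M2) = W := rfl
  have hw1 : w * I = J * w := by
    apply Units.ext
    change W * A = B * W
    simp only [W, smul_mul_assoc, mul_smul_comm]
    congr 1
    simp only [hS, add_mul, mul_add, one_mul, mul_one, e1, e2, e3, k1, k3, k4]
    abel
  have hw2 : w * J = (I * J) * w := by
    apply Units.ext
    change W * B = K * W
    simp only [W, smul_mul_assoc, mul_smul_comm]
    congr 1
    simp only [hS, add_mul, mul_add, one_mul, mul_one, e1, e2, e3, k1, k2, k3, k4, k5, ← hK]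
    abel
  refine ⟨w, mem_norm_of hI hJ hgen ?_ ?_, hns, htd.1, htd.2⟩
  · rw [hw1, mul_inv_cancel_right]; exact hJ
  · rw [hw2, mul_inv_cancel_right]; exact mul_mem hI hJ

/-- Elements of prime order of PSL_2(p) and the normalizer of a quaternion subgroup. Here `T = PSL_2(F)` for the field `F` with `p` elements, `p ≥ 5` prime; `R` is a subgroup of GL_2(F) isomorphic to the quaternion group of order 8 (an absolutely irreducible 2-group of symplectic type), and `H` is the subgroup of matrices of determinant 1 normalizing `R` — a subgroup of type 2^{1+2}.O₂⁻(2), isomorphic modulo scalars to A₄ or S₄ (maximality is not assumed). Ω is the set of cosets of `H` in `T`, so an element of `T` of prime order `r` (a matrix `x` of determinant 1 with `x^r` scalar, `x` not scalar) fixes a point of Ω exactly when some conjugate of `x` by a matrix of determinant 1 normalizes `R`. Let `r` be a prime dividing the index of `H`. Then every element of `T` of order `r` fixes a point of Ω if and only if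 `r = 2` or `r = 3`. -/
theorem result {F : Type*} [Field F] [Fintype F] {p : ℕ} [Fact p.Prime] [CharP F p] (hF : Fintype.card F = p) (hp : 5 ≤ p)
    (R : Subgroup (GL (Fin 2) F)) (hR : Nonempty (↥R ≃* QuaternionGroup 2))
    (r : ℕ) [Fact r.Prime]
    (hΩ : r ∣ (Cfsg.Geo.subgroupNormalizer R).relIndex (Cfsg.Geo.specialLinear (Fin 2) F)) :
    (∀ x ∈ Cfsg.Geo.specialLinear (Fin 2) F, (∃ z : F, ((x ^ r : GL (Fin 2) F) : Matrix (Fin 2) (Fin 2) F) = z • (1 : Matrix (Fin 2) (Fin 2) F)) →
      (∀ z : F, (x : Matrix (Fin 2) (Fin 2) F) ≠ z • (1 : Matrix (Fin 2) (Fin 2) F)) →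
      ∃ g ∈ Cfsg.Geo.specialLinear (Fin 2) F, g⁻¹ * x * g ∈ Cfsg.Geo.subgroupNormalizer R) ↔ (r = 2 ∨ r = 3) := by
  obtain ⟨I, J, hI, hJ, e1, e2, e3, hgen⟩ := quat_data R hR
  have hfR : Finite R := Finite.of_equiv _ hR.some.symm.toEquiv
  have hcn : ∀ k : ℕ, 0 < k → k < p → (k : F) ≠ 0 := by
    intro k hk hk2 h
    rw [CharP.cast_eq_zero_iff F p k] at h
    exact absurd (Nat.le_of_dvd hk h) (by omega)
  have h2 : (2 : F) ≠ 0 := by exact_mod_cast hcn 2 (by omega) (by omega)
  have h3 : (3 : F) ≠ 0 := by exact_mod_cast hcn 3 (by omega) (by omega)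
  have h4 : (4 : F) ≠ 0 := by exact_mod_cast hcn 4 (by omega) (by omega)
  have hnc : (J : Matrix (Fin 2) (Fin 2) F) * (I : Matrix (Fin 2) (Fin 2) F) ≠
      (I : Matrix (Fin 2) (Fin 2) F) * (J : Matrix (Fin 2) (Fin 2) F) := by
    intro h
    rw [e3] at h
    have h4 : (2 : F) • ((I : Matrix (Fin 2) (Fin 2) F) * (J : Matrix (Fin 2) (Fin 2) F)) = 0 := by
      rw [two_smul]; nth_rewrite 1 [← h]; simp
    have h5 := (smul_eq_zero.1 h4).resolve_left h2
    exact (I * J).ne_zero h5
  have hIns : ¬ IsScal (I : Matrix (Fin 2) (Fin 2) F) := by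
    intro h
    exact hnc (isScal_comm h _).symm
  have hsc : ∀ x : GL (Fin 2) F, (∀ z : F, (x : Matrix (Fin 2) (Fin 2) F) ≠ z • 1) →
      ¬ IsScal (x : Matrix (Fin 2) (Fin 2) F) := by
    intro x hx h
    obtain ⟨c, hc⟩ := (isScal_iff _).1 h
    exact hx c hc
  constructor
  · intro H
    by_contra hcon
    push Not at hcon
    have hr : r.Prime := Fact.out
    have hdv : r ∣ Nat.card (Cfsg.Geo.specialLinear (Fin 2) F) :=
      hΩ.trans (Subgroup.relIndex_dvd_card _ _)
    obtain ⟨⟨x, hx⟩, hxo⟩ := exists_prime_orderOf_dvd_card' r hdv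
    rw [Subgroup.orderOf_mk] at hxo
    have hxr : x ^ r = 1 := by rw [← hxo]; exact pow_orderOf_eq_one x
    have hxn : ∀ z : F, (x : Matrix (Fin 2) (Fin 2) F) ≠ z • 1 := by
      intro z hz
      have hd := trace_sl hx
      rw [hz, Matrix.det_smul] at hd
      simp at hd
      have h5 : x ^ 2 = 1 := by
        apply Units.ext
        rw [Units.val_pow_eq_pow_val, hz, smul_pow]
        rcases hd with hd | hd <;> rw [hd] <;> simp
      have h6 := orderOf_dvd_of_pow_eq_one h5
      rw [hxo] at h6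
      exact hcon.1 ((Nat.prime_dvd_prime_iff_eq hr Nat.prime_two).1 h6)
    obtain ⟨g, hg, hgR⟩ := H x hx ⟨1, by rw [hxr, one_smul]; rfl⟩ hxn
    set y := g⁻¹ * x * g with hy
    have hyr : y ^ r = 1 := by
      have : y = g⁻¹ * x * (g⁻¹)⁻¹ := by rw [hy, inv_inv]
      rw [this, conj_pow, hxr]; simp
    have hyns : ¬ IsScal (y : Matrix (Fin 2) (Fin 2) F) := by
      intro h
      apply hsc x hxn
      have h5 : g * y * g⁻¹ = x := by rw [hy]; group
      have h6 : (x : Matrix (Fin 2) (Fin 2) F) = y := by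
        rw [← h5]
        have h7 := isScal_comm h ((g⁻¹ : GL (Fin 2) F) : Matrix (Fin 2) (Fin 2) F)
        have h8 : (y * g⁻¹ : GL (Fin 2) F) = g⁻¹ * y := Units.ext h7
        rw [mul_assoc, h8, mul_inv_cancel_left]
      rw [h6]; exact h
    -- `y` centralises `R`
    let ψ := R.normalizerMonoidHom
    let y' : Subgroup.normalizer (R : Set (GL (Fin 2) F)) := ⟨y, hgR⟩
    have h12 : (ψ y') ^ 12 = 1 := by
      have h5 := H12.QA.aut_pow12 (MulAut.congr hR.some (ψ y'))
      rw [← map_pow] at h5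
      exact (MulEquiv.map_eq_one_iff _).1 h5
    have hψr : (ψ y') ^ r = 1 := by
      rw [← map_pow]
      have : y' ^ r = 1 := Subtype.ext hyr
      rw [this, map_one]
    have hψ : ψ y' = 1 := by
      rw [← orderOf_eq_one_iff]
      have ha := orderOf_dvd_of_pow_eq_one h12
      have hb := orderOf_dvd_of_pow_eq_one hψr
      have hcop : Nat.Coprime 12 r := by
        rw [Nat.coprime_comm, hr.coprime_iff_not_dvd]
        intro h
        have h5 : r ∣ 2 * 2 * 3 := h
        rcases (hr.dvd_mul).1 h5 with h6 | h6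
        · rcases (hr.dvd_mul).1 h6 with h7 | h7 <;>
            exact hcon.1 ((Nat.prime_dvd_prime_iff_eq hr Nat.prime_two).1 h7)
        · exact hcon.2 ((Nat.prime_dvd_prime_iff_eq hr Nat.prime_three).1 h6)
      exact Nat.eq_one_of_dvd_coprimes hcop ha hb
    have hcomm : ∀ z ∈ R, (y : Matrix (Fin 2) (Fin 2) F) * (z : Matrix (Fin 2) (Fin 2) F) =
        (z : Matrix (Fin 2) (Fin 2) F) * y := by
      intro z hz
      have h5 := congrArg (fun f : MulAut R => ((f ⟨z, hz⟩ : R) : GL (Fin 2) F)) hψ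
      have h6 : y * z * y⁻¹ = z := h5
      have h7 : y * z = z * y := mul_inv_eq_iff_eq_mul.1 h6
      exact congrArg Units.val h7
    exact hnc (comm_of_comm hyns (hcomm J hJ) (hcomm I hI))
  · intro hr
    rintro x hx ⟨z, hz⟩ hxn
    have hxns := hsc x hxn
    have hxd := trace_sl hx
    have hch := ch2 (x : Matrix (Fin 2) (Fin 2) F)
    rw [hxd, one_smul] at hch
    rcases hr with rfl | rfl
    · -- `r = 2`
      have h5 : (x : Matrix (Fin 2) (Fin 2) F).trace = 0 := by
        rw [Units.val_pow_eq_pow_val, pow_two, hch] at hz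
        have h6 : (x : Matrix (Fin 2) (Fin 2) F).trace • (x : Matrix (Fin 2) (Fin 2) F) =
            (z + 1) • (1 : Matrix (Fin 2) (Fin 2) F) := by
          rw [add_smul, one_smul, ← hz]; abel
        exact (lin0 hxns h6).1
      obtain ⟨hIt, hId⟩ := sq_neg_one hIns e1
      have hIsl : I ∈ Cfsg.Geo.specialLinear (Fin 2) F := by
        change Matrix.GeneralLinearGroup.det I = 1
        exact Units.ext hId
      obtain ⟨g, hg, hgx⟩ := conj_sl hx hIsl hxns hIns 0 (by
        rw [zero_pow two_ne_zero]; exact h4.symm) h5 hIt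
      exact ⟨g, hg, by rw [hgx]; exact Subgroup.le_normalizer hI⟩
    · -- `r = 3`
      obtain ⟨w, hwN, hwns, hwt, hwd⟩ := exists_w h2 R I J hI hJ e1 e2 e3 hgen
      set t := (x : Matrix (Fin 2) (Fin 2) F).trace with ht
      have h5 : t ^ 2 = 1 := by
        rw [Units.val_pow_eq_pow_val, pow_succ, pow_two, hch, sub_mul, smul_mul_assoc, hch,
          one_mul] at hz
        have h6 : (t ^ 2 - 1) • (x : Matrix (Fin 2) (Fin 2) F) =
            (z + t) • (1 : Matrix (Fin 2) (Fin 2) F) := by
          rw [add_smul, ← hz]; module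
        exact sub_eq_zero.1 (lin0 hxns h6).1
      have ht4 : t ^ 2 ≠ 4 := by
        rw [h5]; intro h
        apply h3; linear_combination -h
      have h7 : (t - 1) * (t + 1) = 0 := by linear_combination h5
      have hwsl : w ∈ Cfsg.Geo.specialLinear (Fin 2) F := by
        change Matrix.GeneralLinearGroup.det w = 1
        exact Units.ext hwd
      rcases mul_eq_zero.1 h7 with h8 | h8
      · -- trace 1 : use `-w`
        have hv : ((-w : GL (Fin 2) F) : Matrix (Fin 2) (Fin 2) F) = -(w : Matrix (Fin 2) (Fin 2) F) :=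
          rfl
        have hmn : -w ∈ Cfsg.Geo.subgroupNormalizer R := by
          have hm1 : (-1 : GL (Fin 2) F) ∈ Cfsg.Geo.subgroupNormalizer R := by
            have : (-1 : GL (Fin 2) F) = I * I := Units.ext e1.symm
            rw [this]
            exact Subgroup.le_normalizer (mul_mem hI hI)
          have := mul_mem hm1 hwN
          rwa [neg_one_mul] at this
        obtain ⟨g, hg, hgx⟩ := conj_sl (y := -w) hx (by
          change Matrix.GeneralLinearGroup.det (-w) = 1
          apply Units.ext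
          change (-(w : Matrix (Fin 2) (Fin 2) F)).det = 1
          rw [Matrix.det_neg, hwd]; simp) hxns (by
            rw [hv]
            intro hs
            apply hwns
            rw [isScal_iff] at hs ⊢
            obtain ⟨c, hc⟩ := hs
            exact ⟨-c, by rw [neg_smul, ← hc, neg_neg]⟩) t ht4 rfl (by
          rw [hv, Matrix.trace_neg, hwt, neg_neg]; exact (sub_eq_zero.1 h8).symm)
        exact ⟨g, hg, by rw [hgx]; exact hmn⟩
      · obtain ⟨g, hg, hgx⟩ := conj_sl hx hwsl hxns hwns t ht4 rfl (by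
          rw [hwt]; exact (eq_neg_of_add_eq_zero_left h8).symm)
        exact ⟨g, hg, by rw [hgx]; exact hwN⟩

end Cfsg.Agent.S5997
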